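import Mathlib
import Cfsg.Statements.S0684

set_option autoImplicit false
open Cfsg

namespace Cfsg.Agent.S0684

open scoped IsMulCommutative in
/-- A finite commutative group acting irreducibly and without fixed points is cyclic. -/
theorem cyclic_of_fpf_irred {k : Type*} [Field k] {W : Type*} [AddCommGroup W] [Module k W]
    [Nontrivial W] {A : Type*} [Group A] [Finite A] (hcomm : ∀ a b : A, a * b = b * a)
    (φ : A →* Module.End k W)
    (hfpf : ∀ a : A, a ≠ 1 → ∀ w : W, w ≠ 0 → φ a w ≠ w)
    (hirr : ∀ U : Submodule k W, (∀ a, ∀ u ∈ U, φ a u ∈ U) → U = ⊥ ∨ U = ⊤) : IsCyclic A := by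
  classical
  have hS : ∀ x ∈ Set.range φ, ∀ y ∈ Set.range φ, x * y = y * x := by
    rintro _ ⟨a, rfl⟩ _ ⟨b, rfl⟩
    rw [← map_mul, ← map_mul, hcomm]
  have hcomm' : IsMulCommutative (Algebra.adjoin k (Set.range φ)) :=
    Algebra.isMulCommutative_adjoin k hS
  have hRc : ∀ r ∈ Algebra.adjoin k (Set.range φ), ∀ a, φ a * r = r * φ a := by
    intro r hr a
    have hle : Algebra.adjoin k (Set.range φ) ≤ Subalgebra.centralizer k (Set.range φ) := by
      apply Algebra.adjoin_le
      intro x hx
      rw [SetLike.mem_coe, Subalgebra.mem_centralizer_iff]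
      intro y hy
      exact hS y hy x hx
    exact (Subalgebra.mem_centralizer_iff k).mp (hle hr) (φ a) ⟨a, rfl⟩
  obtain ⟨w₀, hw₀⟩ := exists_ne (0 : W)
  have hnt : Nontrivial (Algebra.adjoin k (Set.range φ)) := by
    refine ⟨⟨0, 1, fun h => ?_⟩⟩
    have h1 : (0 : Module.End k W) = 1 := congrArg Subtype.val h
    have h2 := congrArg (fun f : Module.End k W => f w₀) h1
    simp only [LinearMap.zero_apply, Module.End.one_apply] at h2
    exact hw₀ h2.symm
  have hnzd : NoZeroDivisors (Algebra.adjoin k (Set.range φ)) := by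
    refine ⟨fun {r s} hrs => ?_⟩
    by_cases hr : r = 0
    · exact Or.inl hr
    right
    have hker : LinearMap.ker (r : Module.End k W) = ⊥ := by
      rcases hirr (LinearMap.ker (r : Module.End k W)) (by
        intro a u hu
        rw [LinearMap.mem_ker] at hu ⊢
        have h1 := hRc r r.2 a
        have h2 : (r : Module.End k W) (φ a u) = φ a ((r : Module.End k W) u) := by
          rw [← Module.End.mul_apply, ← h1, Module.End.mul_apply]
        rw [h2, hu, map_zero]) with h | h
      · exact h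
      · exfalso
        apply hr
        apply Subtype.ext
        apply LinearMap.ext
        intro w
        have : w ∈ LinearMap.ker (r : Module.End k W) := by rw [h]; trivial
        exact LinearMap.mem_ker.mp this
    apply Subtype.ext
    apply LinearMap.ext
    intro w
    have h1 : ((r * s : Algebra.adjoin k (Set.range φ)) : Module.End k W) w = 0 := by
      rw [hrs]; rfl
    have h2 : (r : Module.End k W) ((s : Module.End k W) w) = 0 := h1
    have h3 : (s : Module.End k W) w ∈ LinearMap.ker (r : Module.End k W) := LinearMap.mem_ker.mpr h2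
    rw [hker, Submodule.mem_bot] at h3
    exact h3
  have hdom : IsDomain (Algebra.adjoin k (Set.range φ)) := NoZeroDivisors.to_isDomain _
  let f : A →* Algebra.adjoin k (Set.range φ) :=
    { toFun := fun a => ⟨φ a, Algebra.subset_adjoin ⟨a, rfl⟩⟩
      map_one' := Subtype.ext (map_one φ)
      map_mul' := fun a b => Subtype.ext (map_mul φ a b) }
  have hf : Function.Injective f := by
    intro a b hab
    have h1 : φ a = φ b := congrArg Subtype.val hab
    by_contra hne
    have h2 : a⁻¹ * b ≠ 1 := by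
      intro h
      apply hne
      exact (inv_mul_eq_one.mp h)
    have h3 := hfpf (a⁻¹ * b) h2 (φ a w₀) (by
      intro h0
      have h4 : φ a⁻¹ (φ a w₀) = 0 := by rw [h0, map_zero]
      rw [← Module.End.mul_apply, ← map_mul, inv_mul_cancel, map_one, Module.End.one_apply] at h4
      exact hw₀ h4)
    apply h3
    rw [map_mul, Module.End.mul_apply, ← h1, ← Module.End.mul_apply, ← map_mul, inv_mul_cancel,
      map_one, Module.End.one_apply]
  exact isCyclic_of_injective_ringHom f hf

theorem exists_minimal_invariant {k V A : Type*} [Field k] [AddCommGroup V] [Module k V]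
    [FiniteDimensional k V] (φ : A → Module.End k V) (W₀ : Submodule k V) (hW₀ : W₀ ≠ ⊥)
    (hinv : ∀ a, ∀ v ∈ W₀, φ a v ∈ W₀) :
    ∃ W : Submodule k V, W ≤ W₀ ∧ W ≠ ⊥ ∧ (∀ a, ∀ v ∈ W, φ a v ∈ W) ∧
      ∀ W' : Submodule k V, W' ≤ W → (∀ a, ∀ v ∈ W', φ a v ∈ W') → W' = ⊥ ∨ W' = W := by
  induction h : Module.finrank k W₀ using Nat.strong_induction_on generalizing W₀ with
  | _ n ih =>
    by_cases hmin : ∀ W' : Submodule k V, W' ≤ W₀ → (∀ a, ∀ v ∈ W', φ a v ∈ W') →
        W' = ⊥ ∨ W' = W₀
    · exact ⟨W₀, le_rfl, hW₀, hinv, hmin⟩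
    · push Not at hmin
      obtain ⟨W', hW'le, hW'inv, hW'bot, hW'ne⟩ := hmin
      have hlt : W' < W₀ := lt_of_le_of_ne hW'le hW'ne
      obtain ⟨W, hWle, hW⟩ := ih (Module.finrank k W')
        (by rw [← h]; exact Submodule.finrank_lt_finrank_of_lt hlt) W' hW'bot hW'inv rfl
      exact ⟨W, hWle.trans hW'le, hW⟩

/-- a free action of a finite group: the order divides the number of points -/
theorem card_dvd_of_free {A X : Type*} [Group A] [MulAction A X]
    (h : ∀ x : X, MulAction.stabilizer A x = ⊥) : Nat.card A ∣ Nat.card X := by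
  have e := MulAction.selfEquivOrbitsQuotientProd h
  rw [Nat.card_congr e, Nat.card_prod]
  exact dvd_mul_left _ _

/-- Point stabiliser of a sharply doubly transitive group not of semilinear type: a maximal normal abelian subgroup `A` of a linear group `H` that is regular on non-zero vectors and has no irreducible cyclic normal subgroup is cyclic and reducible, and the order of `A` divides `p ^ k - 1` for `k` the dimension of a minimal `A`-invariant subspace. -/
theorem result {p : ℕ} [Fact p.Prime] {V : Type*} [AddCommGroup V] [Module (ZMod p) V] [Finite V] (H : Subgroup (V ≃ₗ[ZMod p] V)) (hreg : ∀ v w : V, v ≠ 0 → w ≠ 0 → ∃! h : H, (h : V ≃ₗ[ZMod p] V) v = w) (hI : ∀ A : Subgroup H, A.Normal → IsCyclic A → ∃ W : Submodule (ZMod p) V, W ≠ ⊥ ∧ W ≠ ⊤ ∧ ∀ a ∈ A, ∀ v ∈ W, ((a : H) : V ≃ₗ[ZMod p] V) v ∈ W) (A : Subgroup H) (hAn : A.Normal) (hAc : IsMulCommutative A) (hAmax : ∀ B : Subgroup H, B.Normal → IsMulCommutative B → A ≤ B → B = A) : IsCyclic A ∧ ∃ W : Submodule (ZMod p) V, W ≠ ⊥ ∧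 W ≠ ⊤ ∧ (∀ a ∈ A, ∀ v ∈ W, ((a : H) : V ≃ₗ[ZMod p] V) v ∈ W) ∧ (∀ W' : Submodule (ZMod p) V, W' ≤ W → (∀ a ∈ A, ∀ v ∈ W', ((a : H) : V ≃ₗ[ZMod p] V) v ∈ W') → W' = ⊥ ∨ W' = W) ∧ Nat.card A ∣ p ^ Module.finrank (ZMod p) W - 1 := by
  classical
  have hfinE : Finite (V ≃ₗ[ZMod p] V) :=
    Finite.of_injective (fun e : V ≃ₗ[ZMod p] V => (e : V → V)) DFunLike.coe_injective
  have hfinA : Finite A := inferInstance
  have hfd : FiniteDimensional (ZMod p) V := Module.Finite.of_finite
  let φ₀ : A → Module.End (ZMod p) V := fun a => (((a : H) : V ≃ₗ[ZMod p] V) : V →ₗ[ZMod p] V)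
  have hφ₀ : ∀ (a : A) (v : V), φ₀ a v = ((a : H) : V ≃ₗ[ZMod p] V) v := fun a v => rfl
  have hφ₀1 : ∀ v : V, φ₀ 1 v = v := fun v => rfl
  have hφ₀mul : ∀ (a b : A) (v : V), φ₀ (a * b) v = φ₀ a (φ₀ b v) := fun a b v => rfl
  have hfpf : ∀ a : A, a ≠ 1 → ∀ v : V, v ≠ 0 → φ₀ a v ≠ v := by
    intro a ha v hv hfix
    obtain ⟨h, -, huniq⟩ := hreg v v hv hv
    have h1 : (a : H) = h := huniq (a : H) hfix
    have h2 : (1 : H) = h := huniq 1 rfl
    apply ha
    apply Subtype.ext
    rw [h1, ← h2]
    rfl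
  -- `V` is non-trivial
  obtain ⟨Wb, hWb, -, -⟩ := hI ⊥ inferInstance inferInstance
  have htop : (⊤ : Submodule (ZMod p) V) ≠ ⊥ := by
    intro h
    apply hWb
    rw [eq_bot_iff, ← h]
    exact le_top
  -- cyclicity
  have hcyc : IsCyclic A := by
    obtain ⟨W₁, -, hW₁bot, hW₁inv, hW₁min⟩ := exists_minimal_invariant φ₀ ⊤ htop
      (fun a v _ => Submodule.mem_top)
    have hnt : Nontrivial W₁ := Submodule.nontrivial_iff_ne_bot.mpr hW₁bot
    let φ : A →* Module.End (ZMod p) W₁ :=
      { toFun := fun a => (φ₀ a).restrict (hW₁inv a)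
        map_one' := by
          apply LinearMap.ext
          intro w
          apply Subtype.ext
          rfl
        map_mul' := by
          intro a b
          apply LinearMap.ext
          intro w
          apply Subtype.ext
          rfl }
    have hφ : ∀ (a : A) (w : W₁), ((φ a w : W₁) : V) = φ₀ a (w : V) := fun a w => rfl
    refine cyclic_of_fpf_irred (fun a b => mul_comm' a b) φ ?_ ?_
    · intro a ha w hw hfix
      exact hfpf a ha (w : V) (fun h => hw (Subtype.ext h)) (by rw [← hφ, hfix])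
    · intro U hU
      rcases hW₁min (U.map W₁.subtype) (Submodule.map_subtype_le W₁ U) (by
        rintro a _ ⟨u, hu, rfl⟩
        exact ⟨φ a u, hU a u hu, rfl⟩) with h | h
      · left
        rw [eq_bot_iff]
        intro u hu
        have : W₁.subtype u ∈ U.map W₁.subtype := ⟨u, hu, rfl⟩
        rw [h, Submodule.mem_bot] at this
        rw [Submodule.mem_bot]
        exact Subtype.ext this
      · right
        rw [eq_top_iff]
        intro u _
        have : (u : V) ∈ U.map W₁.subtype := by rw [h]; exact u.2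
        obtain ⟨u', hu', hu'u⟩ := this
        have : u' = u := Subtype.ext hu'u
        rw [← this]
        exact hu'
  refine ⟨hcyc, ?_⟩
  obtain ⟨W₀, hW₀bot, hW₀top, hW₀inv⟩ := hI A hAn hcyc
  obtain ⟨W, hWle, hWbot, hWinv, hWmin⟩ := exists_minimal_invariant φ₀ W₀ hW₀bot
    (fun a v hv => hW₀inv a a.2 v hv)
  refine ⟨W, hWbot, ?_, fun a ha v hv => hWinv ⟨a, ha⟩ v hv, ?_, ?_⟩
  · intro h
    apply hW₀top
    rw [eq_top_iff, ← h]
    exact hWle
  · intro W' hW'le hW'inv
    exact hWmin W' hW'le (fun a v hv => hW'inv a a.2 v hv)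
  · -- counting
    let act : MulAction A {w : W // w ≠ 0} :=
      { smul := fun a w => ⟨⟨φ₀ a (w.1 : V), hWinv a _ w.1.2⟩, by
          intro h0
          have h1 : φ₀ a (w.1 : V) = 0 := congrArg Subtype.val h0
          have h2 : φ₀ a⁻¹ (φ₀ a (w.1 : V)) = 0 := by rw [h1, map_zero]
          rw [← hφ₀mul, inv_mul_cancel, hφ₀1] at h2
          exact w.2 (Subtype.ext h2)⟩
        one_smul := fun w => Subtype.ext (Subtype.ext (hφ₀1 _))
        mul_smul := fun a b w => Subtype.ext (Subtype.ext (hφ₀mul a b _)) }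
    have hsmul : ∀ (a : A) (w : {w : W // w ≠ 0}), (((a • w : {w : W // w ≠ 0}) : W) : V) =
        φ₀ a ((w : W) : V) := fun a w => rfl
    have hfree : ∀ x : {w : W // w ≠ 0}, MulAction.stabilizer A x = ⊥ := by
      intro x
      rw [eq_bot_iff]
      intro a ha
      rw [MulAction.mem_stabilizer_iff] at ha
      rw [Subgroup.mem_bot]
      by_contra hne
      apply hfpf a hne ((x : W) : V) (fun h => x.2 (Subtype.ext h))
      rw [← hsmul, ha]
    have hdvd := card_dvd_of_free hfree
    have hcardX : Nat.card {w : W // w ≠ 0} = p ^ Module.finrank (ZMod p) W - 1 := by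
      have h1 : Nat.card {w : W // w ≠ 0} = ({0}ᶜ : Set W).ncard := by
        rw [← Nat.card_coe_set_eq]
        rfl
      rw [h1, Set.ncard_compl, Set.ncard_singleton, Module.natCard_eq_pow_finrank (K := ZMod p),
        Nat.card_zmod]
    rw [hcardX] at hdvd
    exact hdvd

end Cfsg.Agent.S0684
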