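import Mathlib
import Cfsg.Statements.S0685
import Cfsg.Agent.S0684

set_option autoImplicit false
open Cfsg

namespace Cfsg.Agent.S0685

section ann
variable {k : Type*} [Field k] {V : Type*} [AddCommGroup V] [Module k V]

/-- invariance of a subspace under a set of endomorphisms -/
def Inv (S : Set (Module.End k V)) (U : Submodule k V) : Prop := ∀ s ∈ S, ∀ u ∈ U, s u ∈ U

/-- minimal non-zero invariant subspace -/
def MinInv (S : Set (Module.End k V)) (U : Submodule k V) : Prop :=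
  U ≠ ⊥ ∧ Inv S U ∧ ∀ U' : Submodule k V, U' ≤ U → Inv S U' → U' = ⊥ ∨ U' = U

theorem adjoin_inv (S : Set (Module.End k V)) (U : Submodule k V) (hU : Inv S U) :
    ∀ r ∈ Algebra.adjoin k S, ∀ u ∈ U, r u ∈ U := by
  intro r hr
  induction hr using Algebra.adjoin_induction with
  | mem x hx => exact hU x hx
  | algebraMap c =>
    intro u hu
    rw [Module.algebraMap_end_apply]
    exact U.smul_mem c hu
  | add x y _ _ ihx ihy => intro u hu; exact U.add_mem (ihx u hu) (ihy u hu)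
  | mul x y _ _ ihx ihy => intro u hu; exact ihx _ (ihy u hu)

theorem adjoin_comm (S : Set (Module.End k V)) (hS : ∀ x ∈ S, ∀ y ∈ S, x * y = y * x) :
    ∀ r ∈ Algebra.adjoin k S, ∀ s ∈ S, s * r = r * s := by
  intro r hr s hs
  have hle : Algebra.adjoin k S ≤ Subalgebra.centralizer k S := by
    apply Algebra.adjoin_le
    intro x hx
    rw [SetLike.mem_coe, Subalgebra.mem_centralizer_iff]
    intro y hy
    exact hS y hy x hx
  exact (Subalgebra.mem_centralizer_iff k).mp (hle hr) s hs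

theorem inv_inf (S : Set (Module.End k V)) {U₁ U₂ : Submodule k V} (h₁ : Inv S U₁)
    (h₂ : Inv S U₂) : Inv S (U₁ ⊓ U₂) :=
  fun s hs u hu => ⟨h₁ s hs u hu.1, h₂ s hs u hu.2⟩

theorem minInv_inf (S : Set (Module.End k V)) {U₁ U₂ : Submodule k V} (h₁ : MinInv S U₁)
    (h₂ : MinInv S U₂) (hne : U₁ ≠ U₂) : U₁ ⊓ U₂ = ⊥ := by
  rcases h₁.2.2 (U₁ ⊓ U₂) inf_le_left (inv_inf S h₁.2.1 h₂.2.1) with h | h
  · exact h
  · have hle : U₁ ≤ U₂ := by rw [← h]; exact inf_le_right
    rcases h₂.2.2 U₁ hle h₁.2.1 with h' | h'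
    · exact absurd h' h₁.1
    · exact absurd h' hne

theorem inv_ker (S : Set (Module.End k V)) (hS : ∀ x ∈ S, ∀ y ∈ S, x * y = y * x)
    (r : Module.End k V) (hr : r ∈ Algebra.adjoin k S) : Inv S (LinearMap.ker r) := by
  intro s hs u hu
  rw [LinearMap.mem_ker] at hu ⊢
  have h1 := adjoin_comm S hS r hr s hs
  have h2 : r (s u) = s (r u) := by
    rw [← Module.End.mul_apply, ← h1, Module.End.mul_apply]
  rw [h2, hu, map_zero]

theorem ann_of_mem (S : Set (Module.End k V)) (hS : ∀ x ∈ S, ∀ y ∈ S, x * y = y * x)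
    {U : Submodule k V} (hU : MinInv S U) (r : Module.End k V) (hr : r ∈ Algebra.adjoin k S)
    {x : V} (hx : x ∈ U) (hx0 : x ≠ 0) (hrx : r x = 0) : ∀ u ∈ U, r u = 0 := by
  rcases hU.2.2 (U ⊓ LinearMap.ker r) inf_le_left (inv_inf S hU.2.1 (inv_ker S hS r hr)) with
    h | h
  · exfalso
    have : x ∈ U ⊓ LinearMap.ker r := ⟨hx, LinearMap.mem_ker.mpr hrx⟩
    rw [h] at this
    exact hx0 ((Submodule.mem_bot k).mp this)
  · intro u hu
    have : u ∈ U ⊓ LinearMap.ker r := by rw [h]; exact hu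
    exact LinearMap.mem_ker.mp this.2

theorem ann_transfer (S : Set (Module.End k V)) (hS : ∀ x ∈ S, ∀ y ∈ S, x * y = y * x)
    (hcover : ∀ u : V, u ≠ 0 → ∃ U, MinInv S U ∧ u ∈ U) {U₁ U₂ : Submodule k V}
    (h₁ : MinInv S U₁) (h₂ : MinInv S U₂) (r : Module.End k V) (hr : r ∈ Algebra.adjoin k S)
    (hr0 : ∀ u ∈ U₁, r u = 0) : ∀ u ∈ U₂, r u = 0 := by
  by_cases hne : U₁ = U₂
  · subst hne; exact hr0
  obtain ⟨v₁, hv₁, hv₁0⟩ := Submodule.exists_mem_ne_zero_of_ne_bot h₁.1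
  obtain ⟨v₂, hv₂, hv₂0⟩ := Submodule.exists_mem_ne_zero_of_ne_bot h₂.1
  have hinf := minInv_inf S h₁ h₂ hne
  have hsum : v₁ + v₂ ≠ 0 := by
    intro h
    have h1 : v₁ = -v₂ := eq_neg_of_add_eq_zero_left h
    have hmem : v₁ ∈ U₁ ⊓ U₂ := ⟨hv₁, h1 ▸ U₂.neg_mem hv₂⟩
    rw [hinf] at hmem
    exact hv₁0 ((Submodule.mem_bot k).mp hmem)
  obtain ⟨U₃, h₃, hmem₃⟩ := hcover _ hsum
  have hne32 : U₃ ≠ U₂ := by
    intro h
    have h1 : v₁ ∈ U₂ := by
      have h2 := U₂.sub_mem (h ▸ hmem₃) hv₂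
      rwa [add_sub_cancel_right] at h2
    have hmem : v₁ ∈ U₁ ⊓ U₂ := ⟨hv₁, h1⟩
    rw [hinf] at hmem
    exact hv₁0 ((Submodule.mem_bot k).mp hmem)
  have hinf32 := minInv_inf S h₃ h₂ hne32
  have e : r (v₁ + v₂) = r v₂ := by rw [map_add, hr0 v₁ hv₁, zero_add]
  have hmem : r v₂ ∈ U₃ ⊓ U₂ :=
    ⟨e ▸ adjoin_inv S U₃ h₃.2.1 r hr _ hmem₃, adjoin_inv S U₂ h₂.2.1 r hr _ hv₂⟩
  rw [hinf32] at hmem
  exact ann_of_mem S hS h₂ r hr hv₂ hv₂0 ((Submodule.mem_bot k).mp hmem)

theorem ann_zero (S : Set (Module.End k V)) (hS : ∀ x ∈ S, ∀ y ∈ S, x * y = y * x)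
    (hcover : ∀ u : V, u ≠ 0 → ∃ U, MinInv S U ∧ u ∈ U) {U : Submodule k V}
    (hU : MinInv S U) (r : Module.End k V) (hr : r ∈ Algebra.adjoin k S)
    (hr0 : ∀ u ∈ U, r u = 0) : r = 0 := by
  apply LinearMap.ext
  intro u
  by_cases hu : u = 0
  · rw [hu, map_zero, map_zero]
  obtain ⟨U₂, h₂, hmem⟩ := hcover u hu
  exact ann_transfer S hS hcover hU h₂ r hr hr0 u hmem

theorem inj_of_ne_zero [FiniteDimensional k V] (S : Set (Module.End k V))
    (hS : ∀ x ∈ S, ∀ y ∈ S, x * y = y * x)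
    (hcover : ∀ u : V, u ≠ 0 → ∃ U, MinInv S U ∧ u ∈ U) (r : Module.End k V)
    (hr : r ∈ Algebra.adjoin k S) (hr0 : r ≠ 0) : LinearMap.ker r = ⊥ := by
  by_contra hker
  obtain ⟨U, hUle, hUbot, hUinv, hUmin⟩ := Cfsg.Agent.S0684.exists_minimal_invariant
    (fun s : S => (s : Module.End k V)) (LinearMap.ker r) hker
    (fun s v hv => inv_ker S hS r hr s.1 s.2 v hv)
  have hU : MinInv S U := ⟨hUbot, fun s hs u hu => hUinv ⟨s, hs⟩ u hu,
    fun U' hU' hinv => hUmin U' hU' (fun s u hu => hinv s.1 s.2 u hu)⟩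
  exact hr0 (ann_zero S hS hcover hU r hr (fun u hu => LinearMap.mem_ker.mp (hUle hu)))

end ann

theorem count_le {G : Type*} [Group G] [Finite G] (C : Subgroup G) {β : Type*} (ψ : G → β)
    (T : Finset β) (hT : ∀ g, ψ g ∈ T) (hfib : ∀ g g', ψ g = ψ g' → g⁻¹ * g' ∈ C) :
    Nat.card G ≤ Nat.card C * T.card := by
  classical
  have : Fintype G := Fintype.ofFinite G
  rw [Nat.card_eq_fintype_card, ← Finset.card_univ]
  apply Finset.card_le_mul_card_image_of_maps_to (fun g _ => hT g)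
  intro b hb
  by_cases hne : (Finset.univ.filter (fun g => ψ g = b)).Nonempty
  · obtain ⟨g₀, hg₀⟩ := hne
    rw [Finset.mem_filter] at hg₀
    have h1 : (Finset.univ.filter (fun g => ψ g = b)).card ≤ ((C : Set G).toFinset).card := by
      apply Finset.card_le_card_of_injOn (fun g => g₀⁻¹ * g)
      · intro g hg
        rw [Finset.mem_coe, Finset.mem_filter] at hg
        rw [Finset.mem_coe, Set.mem_toFinset]
        exact hfib g₀ g (hg₀.2.trans hg.2.symm)
      · intro g _ g' _ h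
        exact mul_left_cancel h
    rw [Set.toFinset_card] at h1
    rw [Nat.card_eq_fintype_card]
    exact h1
  · rw [Finset.not_nonempty_iff_eq_empty] at hne
    rw [hne]
    simp

open scoped IsMulCommutative in
theorem main_contra {p : ℕ} [Fact p.Prime] {V : Type*} [AddCommGroup V] [Module (ZMod p) V]
    [Finite V] (H : Subgroup (V ≃ₗ[ZMod p] V))
    (hreg : ∀ v w : V, v ≠ 0 → w ≠ 0 → ∃! h : H, (h : V ≃ₗ[ZMod p] V) v = w)
    (A : Subgroup H) (hAn : A.Normal) (hAc : IsMulCommutative A) (hcyc : IsCyclic A)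
    (W : Submodule (ZMod p) V) (hWbot : W ≠ ⊥) (hWtop : W ≠ ⊤)
    (hWinv : ∀ a ∈ A, ∀ v ∈ W, ((a : H) : V ≃ₗ[ZMod p] V) v ∈ W)
    (hWmin : ∀ W' : Submodule (ZMod p) V, W' ≤ W →
      (∀ a ∈ A, ∀ v ∈ W', ((a : H) : V ≃ₗ[ZMod p] V) v ∈ W') → W' = ⊥ ∨ W' = W)
    (hcard : Nat.card A ∣ p ^ Module.finrank (ZMod p) W - 1)
    (heq : A = Subgroup.centralizer (A : Set H)) : False := by
  classical
  have hfinE : Finite (V ≃ₗ[ZMod p] V) :=
    Finite.of_injective (fun e : V ≃ₗ[ZMod p] V => (e : V → V)) DFunLike.coe_injective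
  have hfinEnd : Finite (Module.End (ZMod p) V) :=
    Finite.of_injective (fun e : Module.End (ZMod p) V => (e : V → V)) DFunLike.coe_injective
  have hfd : FiniteDimensional (ZMod p) V := Module.Finite.of_finite
  let ι : H → Module.End (ZMod p) V := fun h => ((h : V ≃ₗ[ZMod p] V) : V →ₗ[ZMod p] V)
  have hι : ∀ (h : H) (v : V), ι h v = (h : V ≃ₗ[ZMod p] V) v := fun h v => rfl
  have hιmul : ∀ h h' : H, ι (h * h') = ι h * ι h' := fun h h' => rfl
  have hιinj : Function.Injective ι := by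
    intro h h' hh
    apply Subtype.ext
    apply LinearEquiv.toLinearMap_injective
    exact hh
  have hιz : ∀ (h : H) (v : V), ι h v = 0 → v = 0 := by
    intro h v hv
    exact (LinearEquiv.map_eq_zero_iff (h : V ≃ₗ[ZMod p] V)).mp hv
  obtain ⟨S, hSdef⟩ : ∃ S : Set (Module.End (ZMod p) V), S = ι '' (A : Set H) := ⟨_, rfl⟩
  have hSmem : ∀ a ∈ A, ι a ∈ S := fun a ha => by rw [hSdef]; exact ⟨a, ha, rfl⟩
  have hS : ∀ x ∈ S, ∀ y ∈ S, x * y = y * x := by
    rw [hSdef]
    rintro _ ⟨a, ha, rfl⟩ _ ⟨b, hb, rfl⟩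
    rw [← hιmul, ← hιmul]
    congr 1
    have := hAc
    exact congrArg Subtype.val (mul_comm' (⟨a, ha⟩ : A) ⟨b, hb⟩)
  have hWmin' : MinInv S W := by
    refine ⟨hWbot, ?_, ?_⟩
    · rw [hSdef]
      rintro _ ⟨a, ha, rfl⟩ u hu
      exact hWinv a ha u hu
    · intro U' hU' hinv
      exact hWmin U' hU' (fun a ha v hv => hinv (ι a) (hSmem a ha) v hv)
  obtain ⟨v₀, hv₀W, hv₀⟩ := Submodule.exists_mem_ne_zero_of_ne_bot hWbot
  have htrans : ∀ h : H, MinInv S (W.map (ι h)) := by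
    intro h
    refine ⟨?_, ?_, ?_⟩
    · intro hbot
      have : ι h v₀ ∈ W.map (ι h) := ⟨v₀, hv₀W, rfl⟩
      rw [hbot, Submodule.mem_bot] at this
      exact hv₀ (hιz h v₀ this)
    · rw [hSdef]
      rintro _ ⟨a, ha, rfl⟩ _ ⟨w, hw, rfl⟩
      refine ⟨ι (h⁻¹ * a * h) w, hWinv _ (by
        have := hAn.conj_mem a ha h⁻¹
        rwa [inv_inv] at this) w hw, ?_⟩
      rw [← Module.End.mul_apply, ← Module.End.mul_apply, ← hιmul, ← hιmul]
      congr 2
      group
    · intro U' hU' hinv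
      rcases hWmin (U'.comap (ι h) ⊓ W) inf_le_right (by
        intro a ha v hv
        refine ⟨?_, hWinv a ha v hv.2⟩
        have h1 : ι h (ι a v) = ι (h * a * h⁻¹) (ι h v) := by
          rw [← Module.End.mul_apply, ← Module.End.mul_apply, ← hιmul, ← hιmul]
          congr 2
          group
        show ι h (ι a v) ∈ U'
        rw [h1]
        exact hinv _ (hSmem _ (hAn.conj_mem a ha h)) _ hv.1) with h0 | h0
      · left
        rw [eq_bot_iff]
        intro y hy
        obtain ⟨w, hw, rfl⟩ := hU' hy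
        have : w ∈ U'.comap (ι h) ⊓ W := ⟨hy, hw⟩
        rw [h0, Submodule.mem_bot] at this
        rw [this, map_zero]
        exact Submodule.zero_mem _
      · right
        apply le_antisymm hU'
        rintro _ ⟨w, hw, rfl⟩
        have : w ∈ U'.comap (ι h) ⊓ W := by rw [h0]; exact hw
        exact this.1
  have hcover : ∀ u : V, u ≠ 0 → ∃ U, MinInv S U ∧ u ∈ U := by
    intro u hu
    obtain ⟨h, hh, -⟩ := hreg v₀ u hv₀ hu
    exact ⟨W.map (ι h), htrans h, ⟨v₀, hv₀W, hh⟩⟩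
  -- the ring
  have hcomm' : IsMulCommutative (Algebra.adjoin (ZMod p) S) :=
    Algebra.isMulCommutative_adjoin (ZMod p) hS
  have hinj : ∀ r ∈ Algebra.adjoin (ZMod p) S, r ≠ 0 → LinearMap.ker r = ⊥ :=
    fun r hr hr0 => inj_of_ne_zero S hS hcover r hr hr0
  have hnt : Nontrivial (Algebra.adjoin (ZMod p) S) := by
    refine ⟨⟨0, 1, fun h => ?_⟩⟩
    have h1 : (0 : Module.End (ZMod p) V) = 1 := congrArg Subtype.val h
    have h2 := congrArg (fun f : Module.End (ZMod p) V => f v₀) h1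
    simp only [LinearMap.zero_apply, Module.End.one_apply] at h2
    exact hv₀ h2.symm
  have hnzd : NoZeroDivisors (Algebra.adjoin (ZMod p) S) := by
    refine ⟨fun {r s} hrs => ?_⟩
    by_cases hr : r = 0
    · exact Or.inl hr
    right
    have hker := hinj (r : Module.End (ZMod p) V) r.2 (fun h => hr (Subtype.ext h))
    apply Subtype.ext
    apply LinearMap.ext
    intro w
    have h1 : ((r * s : Algebra.adjoin (ZMod p) S) : Module.End (ZMod p) V) w = 0 := by
      rw [hrs]; rfl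
    have h3 : (s : Module.End (ZMod p) V) w ∈ LinearMap.ker (r : Module.End (ZMod p) V) :=
      LinearMap.mem_ker.mpr h1
    rw [hker, Submodule.mem_bot] at h3
    exact h3
  have hdom : IsDomain (Algebra.adjoin (ZMod p) S) := NoZeroDivisors.to_isDomain _
  obtain ⟨a₀, ha₀⟩ := hcyc.exists_generator
  obtain ⟨α, hα⟩ : ∃ α : Algebra.adjoin (ZMod p) S, (α : Module.End (ZMod p) V) = ι (a₀ : H) :=
    ⟨⟨ι (a₀ : H), Algebra.subset_adjoin (hSmem _ a₀.2)⟩, rfl⟩
  have hint : IsIntegral (ZMod p) α := IsIntegral.of_finite (ZMod p) α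
  have hf0 : minpoly (ZMod p) α ≠ 0 := minpoly.ne_zero hint
  have hfα : Polynomial.aeval α (minpoly (ZMod p) α) = 0 := minpoly.aeval (ZMod p) α
  have hfE : Polynomial.aeval (ι (a₀ : H)) (minpoly (ZMod p) α) = 0 := by
    have h1 := Polynomial.aeval_algHom_apply (Subalgebra.val (Algebra.adjoin (ZMod p) S)) α
      (minpoly (ZMod p) α)
    rw [hfα, map_zero] at h1
    rw [← hα]
    exact h1
  have hdeg : (minpoly (ZMod p) α).natDegree ≤
      Module.finrank (ZMod p) (Algebra.adjoin (ZMod p) S) := minpoly.natDegree_le α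
  have hfr : Module.finrank (ZMod p) (Algebra.adjoin (ZMod p) S) ≤
      Module.finrank (ZMod p) W := by
    let g : Algebra.adjoin (ZMod p) S →ₗ[ZMod p] W :=
      { toFun := fun r => ⟨(r : Module.End (ZMod p) V) v₀,
          adjoin_inv S W hWmin'.2.1 r r.2 v₀ hv₀W⟩
        map_add' := fun r s => Subtype.ext rfl
        map_smul' := fun c r => Subtype.ext rfl }
    apply LinearMap.finrank_le_finrank_of_injective (f := g)
    intro r s hrs
    have h1 : (r : Module.End (ZMod p) V) v₀ = (s : Module.End (ZMod p) V) v₀ :=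
      congrArg Subtype.val hrs
    by_contra hne
    have h2 : ((r - s : Algebra.adjoin (ZMod p) S) : Module.End (ZMod p) V) ≠ 0 :=
      fun h => hne (sub_eq_zero.mp (Subtype.ext h))
    have hker := hinj _ (r - s).2 h2
    have h3 : v₀ ∈ LinearMap.ker ((r - s : Algebra.adjoin (ZMod p) S) :
        Module.End (ZMod p) V) := by
      rw [LinearMap.mem_ker]
      show ((r : Module.End (ZMod p) V) - (s : Module.End (ZMod p) V)) v₀ = 0
      rw [LinearMap.sub_apply, h1, sub_self]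
    rw [hker, Submodule.mem_bot] at h3
    exact hv₀ h3
  have hroot : ∀ h : H, ∃ hm : ι (h * (a₀ : H) * h⁻¹) ∈ Algebra.adjoin (ZMod p) S,
      (⟨ι (h * (a₀ : H) * h⁻¹), hm⟩ : Algebra.adjoin (ZMod p) S) ∈
        ((minpoly (ZMod p) α).map (algebraMap (ZMod p) (Algebra.adjoin (ZMod p) S))).roots.toFinset := by
    intro h
    have hm : ι (h * (a₀ : H) * h⁻¹) ∈ Algebra.adjoin (ZMod p) S :=
      Algebra.subset_adjoin (hSmem _ (hAn.conj_mem a₀ a₀.2 h))
    refine ⟨hm, ?_⟩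
    rw [Multiset.mem_toFinset, Polynomial.mem_roots (Polynomial.map_ne_zero hf0),
      Polynomial.IsRoot.def, Polynomial.eval_map_algebraMap]
    apply Subtype.ext
    have e : ι (h * (a₀ : H) * h⁻¹) =
        (((h : V ≃ₗ[ZMod p] V).conjAlgEquiv (ZMod p)) (ι (a₀ : H))) := by
      apply LinearMap.ext
      intro v
      rfl
    have h1 : Polynomial.aeval (ι (h * (a₀ : H) * h⁻¹)) (minpoly (ZMod p) α) = 0 := by
      rw [e, Polynomial.aeval_algHom_apply, hfE, map_zero]
    have h3 := Polynomial.aeval_algHom_apply (Subalgebra.val (Algebra.adjoin (ZMod p) S))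
      (⟨ι (h * (a₀ : H) * h⁻¹), hm⟩ : Algebra.adjoin (ZMod p) S) (minpoly (ZMod p) α)
    exact h3.symm.trans h1
  have hcount := count_le (Subgroup.centralizer (A : Set H))
    (fun h : H => (⟨ι (h * (a₀ : H) * h⁻¹), (hroot h).1⟩ : Algebra.adjoin (ZMod p) S)) _
    (fun h => (hroot h).2) (by
      intro h h' hh
      have h1 : ι (h * (a₀ : H) * h⁻¹) = ι (h' * (a₀ : H) * h'⁻¹) := congrArg Subtype.val hh
      have h2 := hιinj h1
      have h3 : (h⁻¹ * h') * (a₀ : H) = (a₀ : H) * (h⁻¹ * h') := by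
        calc (h⁻¹ * h') * (a₀ : H) = h⁻¹ * (h' * (a₀ : H) * h'⁻¹) * h' := by group
          _ = h⁻¹ * (h * (a₀ : H) * h⁻¹) * h' := by rw [h2]
          _ = (a₀ : H) * (h⁻¹ * h') := by group
      rw [Subgroup.mem_centralizer_iff]
      intro x hx
      obtain ⟨n, hn⟩ := Subgroup.mem_zpowers_iff.mp (ha₀ ⟨x, hx⟩)
      have hx' : x = (a₀ : H) ^ n := by
        rw [← Subgroup.coe_zpow, hn]
      rw [hx']
      exact (Commute.zpow_left (show Commute (a₀ : H) (h⁻¹ * h') from h3.symm) n).eq)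
  rw [← heq] at hcount
  have hroots : ((minpoly (ZMod p) α).map
      (algebraMap (ZMod p) (Algebra.adjoin (ZMod p) S))).roots.toFinset.card ≤
      Module.finrank (ZMod p) W :=
    (Multiset.toFinset_card_le _).trans ((Polynomial.card_roots' _).trans
      ((Polynomial.natDegree_map_le).trans (hdeg.trans hfr)))
  have hHcard : Nat.card H = Nat.card V - 1 := by
    have e : H ≃ {v : V // v ≠ 0} := Equiv.ofBijective (fun h => ⟨ι h v₀, fun h0 =>
        hv₀ (hιz h v₀ h0)⟩) ⟨by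
        intro h h' hh
        have h1 : ι h v₀ = ι h' v₀ := congrArg Subtype.val hh
        obtain ⟨h'', -, huniq⟩ := hreg v₀ (ι h v₀) hv₀ (fun h0 => hv₀ (hιz h v₀ h0))
        rw [huniq h rfl, huniq h' h1.symm], by
        rintro ⟨w, hw⟩
        obtain ⟨h, hh, -⟩ := hreg v₀ w hv₀ hw
        exact ⟨h, Subtype.ext hh⟩⟩
    rw [Nat.card_congr e]
    have h1 : Nat.card {v : V // v ≠ 0} = ({0}ᶜ : Set V).ncard := by
      rw [← Nat.card_coe_set_eq]
      rfl
    rw [h1, Set.ncard_compl, Set.ncard_singleton]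
  have hWV : Nat.card W * Nat.card W ≤ Nat.card V := by
    obtain ⟨u, hu⟩ : ∃ u : V, u ∉ W := by
      by_contra hcon
      push Not at hcon
      exact hWtop (eq_top_iff.mpr (fun x _ => hcon x))
    have hu0 : u ≠ 0 := fun h => hu (h ▸ W.zero_mem)
    obtain ⟨h, hh, -⟩ := hreg v₀ u hv₀ hu0
    have hne : W ≠ W.map (ι h) := by
      intro heq'
      apply hu
      rw [heq']
      exact ⟨v₀, hv₀W, hh⟩
    have hinf := minInv_inf S hWmin' (htrans h) hne
    have hcardU : Nat.card (W.map (ι h)) = Nat.card W :=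
      (Nat.card_congr ((h : V ≃ₗ[ZMod p] V).submoduleMap W).toEquiv).symm
    have h1 : Nat.card (W × W.map (ι h)) ≤ Nat.card V := by
      apply Nat.card_le_card_of_injective (fun x : W × W.map (ι h) => (x.1 : V) + (x.2 : V))
      rintro ⟨w₁, u₁⟩ ⟨w₂, u₂⟩ hx
      simp only at hx
      have h2 : (w₁ : V) - w₂ = (u₂ : V) - u₁ := by
        rw [sub_eq_sub_iff_add_eq_add, hx, add_comm]
      have h3 : (w₁ : V) - w₂ ∈ W ⊓ W.map (ι h) :=
        ⟨W.sub_mem w₁.2 w₂.2, h2 ▸ Submodule.sub_mem _ u₂.2 u₁.2⟩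
      rw [hinf, Submodule.mem_bot] at h3
      have h4 : (u₂ : V) - u₁ = 0 := by rw [← h2, h3]
      exact Prod.ext (Subtype.ext (sub_eq_zero.mp h3)) (Subtype.ext (sub_eq_zero.mp h4).symm)
    rw [Nat.card_prod, hcardU] at h1
    exact h1
  have hq : Nat.card W = p ^ Module.finrank (ZMod p) W := by
    rw [Module.natCard_eq_pow_finrank (K := ZMod p), Nat.card_zmod]
  have hq2 : 2 ≤ Nat.card W := by
    have : Nontrivial W := Submodule.nontrivial_iff_ne_bot.mpr hWbot
    exact Finite.one_lt_card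
  have hk : Module.finrank (ZMod p) W < Nat.card W := by
    rw [hq]
    exact Nat.lt_pow_self (Fact.out : p.Prime).one_lt
  rw [← hq] at hcard
  have hAle : Nat.card A ≤ Nat.card W - 1 := Nat.le_of_dvd (by omega) hcard
  have hVpos : 0 < Nat.card V := Nat.card_pos
  generalize Nat.card W = q at *
  generalize Module.finrank (ZMod p) W = k at *
  generalize Nat.card V = n at *
  generalize Nat.card A = m at *
  generalize Nat.card H = t at *
  have h1 : t ≤ (q - 1) * k := hcount.trans (Nat.mul_le_mul hAle hroots)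
  obtain ⟨q', rfl⟩ : ∃ q', q = q' + 2 := ⟨q - 2, by omega⟩
  have h2 : (q' + 2 - 1) * k < (q' + 2 - 1) * (q' + 2) :=
    Nat.mul_lt_mul_of_pos_left hk (by omega)
  have h3 : (q' + 2 - 1) * (q' + 2) + 1 ≤ (q' + 2) * (q' + 2) := by
    have : q' + 2 - 1 = q' + 1 := by omega
    rw [this]
    nlinarith
  omega

/-- In a linear group over the prime field that is regular on non-zero vectors and has no irreducible cyclic normal subgroup, a maximal normal abelian subgroup is properly contained in its centraliser, which is non-abelian. -/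
theorem result {p : ℕ} [Fact p.Prime] {V : Type*} [AddCommGroup V] [Module (ZMod p) V] [Finite V] (H : Subgroup (V ≃ₗ[ZMod p] V)) (hreg : ∀ v w : V, v ≠ 0 → w ≠ 0 → ∃! h : H, (h : V ≃ₗ[ZMod p] V) v = w) (hI : ∀ A : Subgroup H, A.Normal → IsCyclic A → ∃ W : Submodule (ZMod p) V, W ≠ ⊥ ∧ W ≠ ⊤ ∧ ∀ a ∈ A, ∀ v ∈ W, ((a : H) : V ≃ₗ[ZMod p] V) v ∈ W) (A : Subgroup H) (hAn : A.Normal) (hAc : IsMulCommutative A) (hAmax : ∀ B : Subgroup H, B.Normal → IsMulCommutative B → A ≤ B → B = A) : A < Subgroup.centralizer (A : Set H) ∧ ¬ IsMulCommutative (Subgroup.centralizer (A : Set H)) := by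
  classical
  obtain ⟨hcyc, W, hWbot, hWtop, hWinv, hWmin, hcard⟩ :=
    Cfsg.Agent.S0684.result H hreg hI A hAn hAc hAmax
  have hAC : A ≤ Subgroup.centralizer (A : Set H) := by
    intro a ha
    rw [Subgroup.mem_centralizer_iff]
    intro b hb
    have := hAc
    exact congrArg Subtype.val (mul_comm' (⟨b, hb⟩ : A) ⟨a, ha⟩)
  have hlt : A < Subgroup.centralizer (A : Set H) := by
    refine lt_of_le_of_ne hAC ?_
    intro heq
    exact main_contra H hreg A hAn hAc hcyc W hWbot hWtop hWinv hWmin hcard heq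
  refine ⟨hlt, ?_⟩
  intro hcomm
  have hCn : (Subgroup.centralizer (A : Set H)).Normal := inferInstance
  exact hlt.ne (hAmax _ hCn hcomm hAC).symm

end Cfsg.Agent.S0685
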