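import Cfsg.Statements.S1396
import Cfsg.Agent.Lib.Helper30.TransApp

set_option autoImplicit false
open Cfsg

namespace Cfsg.Agent.S1396

/-- Let G be a minimal simple group of odd order, p a prime dividing the order of G and A an abelian p-subgroup. Suppose either (1) A consists exactly of the elements x of C_G(A) with x^p = 1, and every proper subgroup of G has p-length at most one, or (2) A is normal and self-centralizing in some Sylow p-subgroup of G and has rank at least 2. Then A satisfies the transitivity hypothesis. -/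
theorem result {G : Type*} [Group G] [Finite G] (hG : Cfsg.IsMinSimpleOddOrder G)
    (p : ℕ) [Fact p.Prime] (hp : p ∣ Nat.card G) (A : Subgroup G) (hAp : IsPGroup p A) (hAc : IsMulCommutative A)
    (h : (∀ x ∈ Subgroup.centralizer (A : Set G), x ^ p = 1 ↔ x ∈ A) ∧ (∀ H : Subgroup G, H ≠ ⊤ → Cfsg.PLengthLE p 1 H) ∨
      ∃ P : Sylow p G, Cfsg.IsSCN (P : Subgroup G) A ∧ ¬ Cfsg.PRankLE p 1 A) :
    Cfsg.TransitivityHypothesis A := by
  classical
  have hpp : p.Prime := Fact.out
  obtain ⟨hodd, hsimple, hnc, hsolv⟩ := hG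
  have hEcomm : ∀ a ∈ A, ∀ b ∈ A, a * b = b * a := fun a ha b hb =>
    congrArg Subtype.val (hAc.is_comm.comm ⟨a, ha⟩ ⟨b, hb⟩)
  have hp2 : p ≠ 2 := by
    rintro rfl
    exact (Nat.not_even_iff_odd.mpr hodd) (even_iff_two_dvd.mpr hp)
  have hΩ : ∀ x ∈ Subgroup.centralizer (A : Set G), x ^ p = 1 → x ∈ A := by
    rcases h with ⟨h1, _⟩ | ⟨P, hscn, _⟩
    · intro x hx hxp; exact (h1 x hx).mp hxp
    · intro x hx hxp
      exact Cfsg.Agent.Lib.Helper30.mem_of_mem_centralizer_of_sylow P hscn.2.1 hscn.2.2 hx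
        (Cfsg.Agent.Lib.Helper30.isPGroup_zpowers_of_pow_eq_one hxp)
  have hA1 : A ≠ ⊥ := by
    intro hA
    obtain ⟨x, hx⟩ := exists_prime_orderOf_dvd_card' p hp
    have hxA : x ∈ A := hΩ x (by rw [hA]; simp [Subgroup.mem_centralizer_iff])
      (by rw [← hx]; exact pow_orderOf_eq_one x)
    rw [hA, Subgroup.mem_bot] at hxA
    rw [hxA, orderOf_one] at hx
    exact hpp.ne_one hx.symm
  have hAtop : A ≠ ⊤ := by
    intro hA
    apply hnc
    exact ⟨⟨fun a b => hEcomm a (hA ▸ Subgroup.mem_top a) b (hA ▸ Subgroup.mem_top b)⟩⟩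
  refine ⟨hA1, hAtop, ?_⟩
  intro X hX hAX
  haveI : Group.IsSolvable ↥X := hsolv X hX
  obtain ⟨k, hk⟩ := IsPGroup.iff_card.mp hAp
  have hk0 : k ≠ 0 := by
    rintro rfl
    rw [pow_zero] at hk
    exact hA1 (Subgroup.card_eq_one.mp hk)
  apply le_antisymm
  · apply sSup_le
    rintro Y ⟨hYX, hYπ, hAY⟩
    have hYcop : (Nat.card Y).Coprime p := by
      have h1 : (Nat.card Y).Coprime (Nat.card A) := Cfsg.Agent.Lib.Helper30.IsPi.coprime hYπ
      rw [hk] at h1
      exact Nat.Coprime.coprime_dvd_right (dvd_pow_self p hk0) h1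
    have key := Cfsg.Agent.Lib.Helper30.le_pPrimeCore_of_constrained p
      (Cfsg.Agent.Lib.Helper30.isPConstrained_of_isSolvable p) (A.subgroupOf X)
      (fun x hx y hy => Subtype.ext (hEcomm _ hx _ hy)) hAp.comap_subtype ?_ ?_
      (Y.subgroupOf X) ?_ ?_
    · have h1 : pPrimeCore p ↥X ≤ piCore (primesNotDvd (Nat.card A)) ↥X := by
        apply Cfsg.Agent.Lib.Helper30.le_piCore (Cfsg.pPrimeCore_normal p _)
        apply Cfsg.Agent.Lib.Helper30.isPi_of_coprime
        rw [hk]
        exact Nat.Coprime.pow_right k (Cfsg.Agent.H1.pPrimeCore_card_coprime p)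
      intro y hy
      exact ⟨⟨y, hYX hy⟩, h1 (key (Subgroup.mem_subgroupOf.mpr hy)), rfl⟩
    · intro x hx hxp
      rw [Subgroup.mem_subgroupOf]
      apply hΩ
      · rw [Subgroup.mem_centralizer_iff]
        intro e he
        have := Subgroup.mem_centralizer_iff.mp hx ⟨e, hAX he⟩ (Subgroup.mem_subgroupOf.mpr he)
        exact congrArg Subtype.val this
      · have := congrArg Subtype.val hxp
        rwa [Subgroup.coe_pow] at this
    · intro h2; exact absurd h2 hp2
    · have e1 : Nat.card (Y.subgroupOf X) = Nat.card Y :=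
        Nat.card_congr (Subgroup.subgroupOfEquivOfLe hYX).toEquiv
      rw [e1]; exact hYcop
    · apply Cfsg.Agent.Lib.Helper30.le_normalizer_of_conj_mem
      intro g hg y hy
      rw [Subgroup.mem_subgroupOf] at hg hy ⊢
      exact (Subgroup.mem_normalizer_iff.mp (hAY hg) _).mp hy
  · apply le_sSup
    refine ⟨Cfsg.Agent.Lib.Helper30.piCoreOf_le _ X, Cfsg.Agent.Lib.Helper30.piCoreOf_isPi _ X, ?_⟩
    exact hAX.trans (Cfsg.Agent.Lib.Helper30.le_normalizer_piCoreOf _ X)

end Cfsg.Agent.S1396
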