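import Mathlib
import Cfsg.Statements.S1457
import Cfsg.Agent.H58.QStab3

set_option autoImplicit false
open Cfsg

namespace Cfsg.Agent.S1457

/-- Let G be a solvable group of odd order, p a prime, S a Sylow p-subgroup of G and A an abelian subgroup of S normal in S. Then A ≤ O_{p',p}(G). -/
theorem result {G : Type*} [Group G] [Finite G] [Group.IsSolvable G] (hodd : Odd (Nat.card G)) (p : ℕ) [Fact p.Prime] (S : Sylow p G) (A : Subgroup G) (hA : A ≤ (S : Subgroup G)) (hAc : IsMulCommutative A)
    (hAn : (S : Subgroup G) ≤ Subgroup.normalizer (A : Set G)) :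
    A ≤ Cfsg.pPrimePCore p G := by
  by_cases hp2 : p = 2
  · subst hp2
    have hAp : IsPGroup 2 A := S.isPGroup'.to_le hA
    have hbot : A = ⊥ := by
      by_contra hne
      obtain ⟨x, hx1⟩ := (Subgroup.ne_bot_iff_exists_ne_one).mp hne
      obtain ⟨k, hk⟩ := hAp ⟨x.1, x.2⟩
      have hk' : (x : G) ^ 2 ^ k = 1 := by
        have := congrArg Subtype.val hk
        simpa using this
      have h1 : orderOf (x : G) ∣ 2 ^ k := orderOf_dvd_of_pow_eq_one hk'
      have h2 : orderOf (x : G) ∣ Nat.card G := orderOf_dvd_natCard _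
      have h3 : Nat.Coprime (2 ^ k) (Nat.card G) :=
        Nat.Coprime.pow_left k (Nat.coprime_two_left.mpr hodd)
      have h4 : orderOf (x : G) = 1 := Nat.eq_one_of_dvd_coprimes h3 h1 h2
      exact hx1 (Subtype.ext (orderOf_eq_one_iff.mp h4))
    rw [hbot]; exact bot_le
  · exact Cfsg.Agent.H58.le_pPrimePCore_of_abelian_normal inferInstance hodd hp2 S A hA hAc hAn

end Cfsg.Agent.S1457
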