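import Mathlib
import Cfsg.Statements.S1458
import Cfsg.Agent.H58.ZJe

set_option autoImplicit false
open Cfsg

namespace Cfsg.Agent.S1458

/-- Let G be a solvable group of odd order, p a prime and S a Sylow p-subgroup of G. Then the subgroup generated by the centre of the Thompson subgroup of S and O_{p'}(G) is normal in G. -/
theorem result {G : Type*} [Group G] [Finite G] [Group.IsSolvable G] (hodd : Odd (Nat.card G)) (p : ℕ) [Fact p.Prime] (S : Sylow p G) :
    (Cfsg.centerThompsonOf p (S : Subgroup G) ⊔ Cfsg.pPrimeCore p G).Normal := by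
  by_cases hp2 : p = 2
  · subst hp2
    have hSbot : (S : Subgroup G) ≤ ⊥ := by
      intro x hx
      obtain ⟨k, hk⟩ := S.isPGroup' ⟨x, hx⟩
      have hk' : x ^ 2 ^ k = 1 := by
        have := congrArg Subtype.val hk
        simpa using this
      have h1 : orderOf x ∣ 2 ^ k := orderOf_dvd_of_pow_eq_one hk'
      have h2 : orderOf x ∣ Nat.card G := orderOf_dvd_natCard _
      have h3 : Nat.Coprime (2 ^ k) (Nat.card G) :=
        Nat.Coprime.pow_left k (Nat.coprime_two_left.mpr hodd)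
      have h4 : orderOf x = 1 := Nat.eq_one_of_dvd_coprimes h3 h1 h2
      rw [Subgroup.mem_bot]
      exact orderOf_eq_one_iff.mp h4
    have h1 : Cfsg.centerThompsonOf 2 (S : Subgroup G) = ⊥ := by
      rw [eq_bot_iff, Cfsg.Agent.H58.centerThompsonOf_eq_cJ]
      exact (Cfsg.Agent.H58.cJ_le 2 _).trans hSbot
    rw [h1, bot_sup_eq]
    infer_instance
  · have hsurj : Function.Surjective (QuotientGroup.mk' (Cfsg.pPrimeCore p G)) :=
      QuotientGroup.mk'_surjective _
    have hab : Cfsg.Agent.H24.Ab2 (G ⧸ Cfsg.pPrimeCore p G) :=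
      (Cfsg.Agent.H58.ab2_of_odd hodd).of_surjective _ hsurj
    have hO : Cfsg.pPrimeCore p (G ⧸ Cfsg.pPrimeCore p G) = ⊥ :=
      Cfsg.Agent.H60.pPrimeCore_quotient_eq_bot p
    have hsol : Group.IsSolvable (G ⧸ Cfsg.pPrimeCore p G) := inferInstance
    have hc := Cfsg.Agent.H60.centralizer_pCore_le (p := p) hsol hO
    have hst : Cfsg.Agent.H29.QStabS p (G ⧸ Cfsg.pPrimeCore p G) :=
      Cfsg.Agent.H29.qstabS_of_qstab (Cfsg.Agent.H58.qstab_of_ab2 hp2 hab)
    have hD : Cfsg.IsStronglyClosed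
        ((S.mapSurjective hsurj : Sylow p (G ⧸ Cfsg.pPrimeCore p G)) :
          Subgroup (G ⧸ Cfsg.pPrimeCore p G)) (S.mapSurjective hsurj) :=
      ⟨le_rfl, fun x _ g hg => hg⟩
    have hn := Cfsg.Agent.H58.cJ_normal hp2 hc hst (S.mapSurjective hsurj) _ hD
    rw [Sylow.coe_mapSurjective] at hn
    have hinj : ∀ x ∈ (S : Subgroup G), QuotientGroup.mk' (Cfsg.pPrimeCore p G) x = 1 → x = 1 := by
      intro x hx hx1
      have hxR : x ∈ Cfsg.pPrimeCore p G := (QuotientGroup.eq_one_iff x).mp hx1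
      obtain ⟨k, hk⟩ := S.isPGroup' ⟨x, hx⟩
      have hk' : x ^ p ^ k = 1 := by
        have := congrArg Subtype.val hk
        simpa using this
      have h1 : orderOf x ∣ p ^ k := orderOf_dvd_of_pow_eq_one hk'
      have h2 : orderOf x ∣ Nat.card (Cfsg.pPrimeCore p G) := Subgroup.orderOf_dvd_natCard _ hxR
      have h3 : Nat.Coprime (p ^ k) (Nat.card (Cfsg.pPrimeCore p G)) :=
        Nat.Coprime.pow_left k (Cfsg.Agent.H60.card_pPrimeCore_coprime p).symm
      have h4 : orderOf x = 1 := Nat.eq_one_of_dvd_coprimes h3 h1 h2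
      exact orderOf_eq_one_iff.mp h4
    rw [← Cfsg.Agent.H58.cJ_map_hom _ hinj] at hn
    have h2 : ((Cfsg.Agent.H58.cJ p (S : Subgroup G)).map
        (QuotientGroup.mk' (Cfsg.pPrimeCore p G))).comap (QuotientGroup.mk' (Cfsg.pPrimeCore p G)) =
        Cfsg.Agent.H58.cJ p (S : Subgroup G) ⊔ Cfsg.pPrimeCore p G := by
      rw [Subgroup.comap_map_eq, QuotientGroup.ker_mk']
    rw [Cfsg.Agent.H58.centerThompsonOf_eq_cJ, ← h2]
    exact hn.comap _

end Cfsg.Agent.S1458
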