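import Cfsg.Statements.S1452
import Cfsg.Agent.H3.Rank4

set_option autoImplicit false
open Cfsg

namespace Cfsg.Agent.S1452

/-- Let p be an odd prime and R a finite p-group containing an elementary abelian subgroup of order p ^ 3. If E is a normal elementary abelian subgroup of R of order p ^ 2, then E ≤ A for some normal subgroup A of R with C_R(A) = A that contains an elementary abelian subgroup of order p ^ 3. -/
theorem result {R : Type*} [Group R] [Finite R] (p : ℕ) [Fact p.Prime] (hp : p ≠ 2) (hR : IsPGroup p R) (hr : ¬ Cfsg.PRankLE p 2 R)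
    (E : Subgroup R) [E.Normal] (hE : Cfsg.IsElementaryAbelian p E) (hE2 : Nat.card E = p ^ 2) :
    ∃ A : Subgroup R, E ≤ A ∧ A.Normal ∧ Subgroup.centralizer (A : Set R) = A ∧ ¬ Cfsg.PRankLE p 2 A := by
  have hpp : p.Prime := Fact.out
  obtain ⟨hEc, hEe⟩ := hE
  have hEc' : ∀ a ∈ E, ∀ b ∈ E, a * b = b * a := fun a ha b hb =>
    congrArg Subtype.val (hEc.1.1 ⟨a, ha⟩ ⟨b, hb⟩)
  unfold Cfsg.PRankLE at hr
  push Not at hr
  obtain ⟨F, hFc, hFe, hFcard⟩ := hr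
  have hFc' : ∀ a ∈ F, ∀ b ∈ F, a * b = b * a := fun a ha b hb =>
    congrArg Subtype.val (hFc.1.1 ⟨a, ha⟩ ⟨b, hb⟩)
  have hex : ∃ x : R, x ^ p = 1 ∧ (∀ a ∈ E, a * x = x * a) ∧ x ∉ E := by
    by_contra hcon
    push Not at hcon
    have h1 := Cfsg.Agent.H3.card_le_sq_of_star hR E hEe hE2.le hcon F hFc' hFe
    omega
  obtain ⟨x, hxp, hxC, hxE⟩ := hex
  obtain ⟨B, hBn, hEB, hBc, hBe, hBcard⟩ :=
    Cfsg.Agent.H3.alperin_extend hp hR E hEc' hEe x hxE hxp hxC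
  have hfin : {N : Subgroup R | N.Normal ∧ (∀ a ∈ N, ∀ b ∈ N, a * b = b * a) ∧ B ≤ N}.Finite :=
    Set.toFinite _
  obtain ⟨A, hBA, hmax⟩ := hfin.exists_le_maximal (a := B) ⟨hBn, hBc, le_rfl⟩
  obtain ⟨⟨hAn, hAc, hBA'⟩, hmax'⟩ := hmax
  have hself : Subgroup.centralizer (A : Set R) = A :=
    Cfsg.Agent.H3.max_normal_abelian_self_centralizing hR A hAc
      (fun B' hB'n hB'c hAB' => le_antisymm (hmax' ⟨hB'n, hB'c, hBA'.trans hAB'⟩ hAB') hAB')
  refine ⟨A, hEB.trans hBA', hAn, hself, ?_⟩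
  intro hrank
  have h1 := hrank (B.subgroupOf A)
    ⟨⟨fun a b => Subtype.ext (Subtype.ext (hBc _ a.2 _ b.2))⟩⟩
    (fun a ha => Subtype.ext (hBe _ ha))
  have h2 : Nat.card (B.subgroupOf A) = Nat.card B :=
    Nat.card_congr (Subgroup.subgroupOfEquivOfLe hBA').toEquiv
  rw [h2, hBcard, hE2] at h1
  have h3 : p ^ 2 < p * p ^ 2 := by
    have := hpp.two_le
    have h4 : 0 < p ^ 2 := pow_pos hpp.pos 2
    nlinarith
  omega

end Cfsg.Agent.S1452
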