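import Cfsg.Statements.S0640
import Cfsg.Agent.H3.RankTwoAut

set_option autoImplicit false
open Cfsg

namespace Cfsg.Agent.S0640

open Cfsg.Agent.H3

/-- For odd p, a prime q ≠ p dividing the order of the automorphism group of a p-group of rank at most 2 divides p² - 1 and is less than p. -/
theorem result {R : Type*} [Group R] [Finite R] {p : ℕ} [Fact p.Prime] (hp : p ≠ 2) (hR : IsPGroup p R) (hrk : Cfsg.PRankLE p 2 R) (q : ℕ) (hq : q.Prime) (hqp : q ≠ p) (hdvd : q ∣ Nat.card (MulAut R)) : q ∣ p ^ 2 - 1 ∧ q < p := by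
  have hpp : p.Prime := Fact.out
  haveI : Fact q.Prime := ⟨hq⟩
  suffices hmain : q ∣ p - 1 ∨ q ∣ p ^ 2 - 1 by
    have h1 : q ∣ p ^ 2 - 1 := by
      rcases hmain with h | h
      · have : p ^ 2 - 1 = (p - 1) * (p + 1) := by
          have := hpp.pos
          obtain ⟨m, rfl⟩ : ∃ m, p = m + 1 := ⟨p - 1, by omega⟩
          simp only [Nat.add_sub_cancel]
          ring_nf
          omega
        rw [this]
        exact Dvd.dvd.mul_right h _
      · exact h
    refine ⟨h1, ?_⟩
    have h2 : p ^ 2 - 1 = (p - 1) * (p + 1) := by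
      have := hpp.pos
      obtain ⟨m, rfl⟩ : ∃ m, p = m + 1 := ⟨p - 1, by omega⟩
      simp only [Nat.add_sub_cancel]
      ring_nf
      omega
    rw [h2] at h1
    have hp2 : 2 ≤ p := hpp.two_le
    rcases (Nat.Prime.dvd_mul hq).mp h1 with h | h
    · have := Nat.le_of_dvd (by omega) h
      omega
    · have hle := Nat.le_of_dvd (by omega) h
      rcases Nat.lt_or_ge q (p + 1) with h3 | h3
      · omega
      · have hq1 : q = p + 1 := by omega
        have hodd : ¬ 2 ∣ p := fun h2 => hp ((Nat.prime_dvd_prime_iff_eq Nat.prime_two hpp).mp h2).symm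
        have h2q : 2 ∣ q := by omega
        have := (Nat.prime_dvd_prime_iff_eq Nat.prime_two hq).mp h2q
        omega
  obtain ⟨φ, hφ⟩ := exists_prime_orderOf_dvd_card' q hdvd
  have hφq : φ ^ q = 1 := by rw [← hφ]; exact pow_orderOf_eq_one φ
  have hφ1 : φ ≠ 1 := by
    intro h
    rw [h, orderOf_one] at hφ
    exact hq.one_lt.ne hφ
  have hcop : Nat.Coprime (orderOf φ) p := by
    rw [hφ]; exact (Nat.coprime_primes hq hpp).mpr hqp
  obtain ⟨H, K, hHchar, hKchar, hKH, hKD, hDK, hpow, hcomm⟩ := critical_subgroup_exists hR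
  have hφH : ∀ x ∈ H, φ x ∈ H := fun x hx =>
    Subgroup.characteristic_iff_le_comap.mp hHchar φ hx
  -- the subgroup `D = Ω₁(H)`
  let D : Subgroup R :=
    { carrier := {x | x ∈ H ∧ x ^ p = 1}
      mul_mem' := by
        intro a b ha hb
        refine ⟨H.mul_mem ha.1 hb.1, ?_⟩
        rw [mul_pow_of_central_elementary hpp hp H K hKD hpow hcomm ha.1 hb.1, ha.2, hb.2,
          one_mul]
      one_mem' := ⟨H.one_mem, one_pow p⟩
      inv_mem' := by
        intro a ha
        exact ⟨H.inv_mem ha.1, by rw [inv_pow, ha.2, inv_one]⟩ }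
  have hDmem : ∀ x, x ∈ D ↔ x ∈ H ∧ x ^ p = 1 := fun x => Iff.rfl
  have hDφ : ∀ x ∈ D, φ x ∈ D := by
    intro x hx
    exact ⟨hφH x hx.1, by rw [← map_pow, hx.2, map_one]⟩
  have hDexp : ∀ x ∈ D, x ^ p = 1 := fun x hx => hx.2
  -- `φ` moves some element of `D`
  obtain ⟨x0, hx0D, hx0⟩ : ∃ x0 ∈ D, φ x0 ≠ x0 := by
    by_contra hcon
    push Not at hcon
    exact hφ1 (coprime_aut_trivial_of_omega_critical hp hR H K hHchar hKH hKD hDK hpow hcomm φ
      hcop (fun x hxH hxp => hcon x ⟨hxH, hxp⟩))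
  -- subgroups of `R` inside `D` that are abelian have order at most `p ^ 2`
  have hrkD : ∀ A : Subgroup R, A ≤ D → (∀ a ∈ A, ∀ b ∈ A, a * b = b * a) →
      Nat.card A ≤ p ^ 2 := by
    intro A hAD hAc
    exact hrk A ⟨⟨fun a b => Subtype.ext (hAc a.1 a.2 b.1 b.2)⟩⟩ (fun a ha => hDexp a (hAD ha))
  -- `|D| ≤ p ^ 3`
  have hDp : IsPGroup p D := hR.to_subgroup D
  have hDcard : Nat.card D ≤ p ^ 3 := by
    apply card_le_cube_of_exponent_of_rank_two hDp
    intro A hA
    have h1 := hrkD (A.map D.subtype) (by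
      rintro _ ⟨a, -, rfl⟩
      exact a.2) (by
      rintro _ ⟨a, ha, rfl⟩ _ ⟨b, hb, rfl⟩
      have := hA a ha b hb
      rw [← map_mul, ← map_mul, this])
    rwa [Subgroup.card_subtype] at h1
  obtain ⟨k, hk⟩ := IsPGroup.iff_card.mp hDp
  have hk3 : k ≤ 3 := by
    rw [hk] at hDcard
    exact (Nat.pow_le_pow_iff_right hpp.one_lt).mp hDcard
  -- the fixed points in `D`
  set F : Subgroup R := D ⊓ autFix φ with hF
  have hFD : F ≤ D := inf_le_left
  have hFp : IsPGroup p F := hR.to_subgroup F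
  obtain ⟨j, hj⟩ := IsPGroup.iff_card.mp hFp
  have hmod := card_modEq_card_inf_autFix φ q hφq D hDφ
  rw [← hF, hk, hj] at hmod
  have hjk : j < k := by
    by_contra hcon
    push Not at hcon
    have h1 : Nat.card D ≤ Nat.card F := by
      rw [hk, hj]; exact Nat.pow_le_pow_right hpp.pos hcon
    have h2 : F = D := Subgroup.eq_of_le_of_card_ge hFD h1
    have h3 : x0 ∈ F := by rw [h2]; exact hx0D
    exact hx0 ((mem_autFix φ x0).mp (Subgroup.mem_inf.mp h3).2)
  have hdv := dvd_pow_sub_one_of_modEq hpp hq hqp hjk hmod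
  by_cases hkj : k - j ≤ 2
  · have hkj' : k - j = 1 ∨ k - j = 2 := by omega
    rcases hkj' with h | h
    · left; rw [h, pow_one] at hdv; exact hdv
    · right; rw [h] at hdv; exact hdv
  · -- `k = 3`, `j = 0`: no nontrivial fixed points; use the centre of `D`
    have hk3' : k = 3 := by omega
    have hj0 : j = 0 := by omega
    have hFbot : F = ⊥ := by
      rw [hj0, pow_zero] at hj
      exact Subgroup.card_eq_one.mp hj
    -- the centre of `D`
    set Z : Subgroup R := D ⊓ Subgroup.centralizer (D : Set R) with hZ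
    have hZD : Z ≤ D := inf_le_left
    have hZc : ∀ a ∈ Z, ∀ b ∈ Z, a * b = b * a := by
      intro a ha b hb
      exact Subgroup.mem_centralizer_iff.mp (Subgroup.mem_inf.mp hb).2 a (hZD ha)
    -- `φ` maps `D` onto `D`
    have hDφk : ∀ (n : ℕ) (x : R), x ∈ D → (φ ^ n) x ∈ D := by
      intro n
      induction n with
      | zero => intro x hx; simpa using hx
      | succ n ih =>
        intro x hx
        rw [pow_succ', MulAut.mul_apply]
        exact hDφ _ (ih x hx)
    have hDsurj : ∀ y ∈ D, ∃ x ∈ D, φ x = y := by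
      intro y hy
      refine ⟨(φ ^ (q - 1)) y, hDφk _ y hy, ?_⟩
      rw [← MulAut.mul_apply, ← pow_succ', Nat.sub_add_cancel hq.pos, hφq, MulAut.one_apply]
    have hZφ : ∀ x ∈ Z, φ x ∈ Z := by
      intro x hx
      refine Subgroup.mem_inf.mpr ⟨hDφ x (hZD hx), ?_⟩
      rw [Subgroup.mem_centralizer_iff]
      intro y hy
      obtain ⟨y', hy'D, rfl⟩ := hDsurj y hy
      rw [← map_mul, ← map_mul]
      congr 1
      exact Subgroup.mem_centralizer_iff.mp (Subgroup.mem_inf.mp hx).2 y' hy'D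
    have hZcard : Nat.card Z ≤ p ^ 2 := hrkD Z hZD hZc
    have hZp : IsPGroup p Z := hR.to_subgroup Z
    obtain ⟨m, hm⟩ := IsPGroup.iff_card.mp hZp
    have hm2 : m ≤ 2 := by
      rw [hm] at hZcard
      exact (Nat.pow_le_pow_iff_right hpp.one_lt).mp hZcard
    -- `Z` is nontrivial
    have hZne : Z ≠ ⊥ := by
      haveI : Nontrivial D := by
        refine ⟨⟨⟨x0, hx0D⟩, 1, ?_⟩⟩
        intro h
        have h1 : x0 = 1 := congrArg Subtype.val h
        rw [h1, map_one] at hx0
        exact hx0 rfl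
      haveI : Nontrivial (Subgroup.center D) := hDp.center_nontrivial
      obtain ⟨z, hz⟩ := exists_ne (1 : Subgroup.center D)
      intro hbot
      have hzZ : ((z : D) : R) ∈ Z := by
        refine Subgroup.mem_inf.mpr ⟨(z : D).2, ?_⟩
        rw [Subgroup.mem_centralizer_iff]
        intro y hy
        have h1 := Subgroup.mem_center_iff.mp z.2 ⟨y, hy⟩
        have h2 := congrArg Subtype.val h1
        exact h2
      rw [hbot, Subgroup.mem_bot] at hzZ
      apply hz
      apply Subtype.ext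
      apply Subtype.ext
      exact hzZ
    have hm0 : 0 < m := by
      rcases Nat.eq_zero_or_pos m with h | h
      · rw [h, pow_zero] at hm
        exact absurd (Subgroup.card_eq_one.mp hm) hZne
      · exact h
    have hZF : Z ⊓ autFix φ = ⊥ := by
      rw [eq_bot_iff, ← hFbot, hF]
      exact inf_le_inf_right _ hZD
    have hmod2 := card_modEq_card_inf_autFix φ q hφq Z hZφ
    rw [hZF, hm, Subgroup.card_bot] at hmod2
    have hmod3 : p ^ m ≡ p ^ 0 [MOD q] := by rw [pow_zero]; exact hmod2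
    have hdv2 := dvd_pow_sub_one_of_modEq hpp hq hqp hm0 hmod3
    rw [Nat.sub_zero] at hdv2
    have hm' : m = 1 ∨ m = 2 := by omega
    rcases hm' with h | h
    · left; rw [h, pow_one] at hdv2; exact hdv2
    · right; rw [h] at hdv2; exact hdv2

end Cfsg.Agent.S0640
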