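import Cfsg.Statements.S1450
import Cfsg.Agent.H3.OddComm
import Cfsg.Agent.S0640
import Cfsg.Agent.H1.HallHigman
import Cfsg.Agent.H14.Cores
import Cfsg.Agent.H28.Basic
import Cfsg.Agent.H40.PComp

set_option autoImplicit false
open Cfsg

namespace Cfsg.Agent.S1450

open scoped commutatorElement

/-- A solvable group G of odd order with p-rank at most 2 (p dividing #G) has: p the largest prime divisor of #(G/O_{p'}(G)); a normal p-complement if p = 3 or p is the least prime of #G; G' with a normal p-complement; every p'-subgroup of G' inside O_{p'}(G'); and G/O_{p',p}(G) an abelian p'-group. -/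
theorem result {G : Type*} [Group G] [Finite G] [Group.IsSolvable G] (hodd : Odd (Nat.card G)) (p : ℕ) [Fact p.Prime] (hpG : p ∣ Nat.card G) (hr : Cfsg.PRankLE p 2 G) :
    (∀ q : ℕ, q.Prime → q ∣ (Cfsg.pPrimeCore p G).index → q ≤ p) ∧
      ((p = 3 ∨ ∀ q : ℕ, q.Prime → q ∣ Nat.card G → p ≤ q) → Cfsg.HasNormalPComplement p G) ∧
      Cfsg.HasNormalPComplement p ↥(commutator G) ∧
      (∀ L : Subgroup ↥(commutator G), (Nat.card L).Coprime p → L ≤ Cfsg.pPrimeCore p ↥(commutator G)) ∧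
      commutator G ≤ Cfsg.pPrimePCore p G ∧ ((Cfsg.pPrimePCore p G).index).Coprime p := by
  have hpp : p.Prime := Fact.out
  have hp2 : p ≠ 2 := by
    rintro rfl
    exact (Nat.not_even_iff_odd.mpr hodd) (even_iff_two_dvd.mpr hpG)
  have hNcop : (Nat.card (Cfsg.pPrimeCore p G)).Coprime p := Cfsg.Agent.H14.pPrimeCore_coprime p G
  have hQbot : Cfsg.pPrimeCore p (G ⧸ Cfsg.pPrimeCore p G) = ⊥ :=
    Cfsg.Agent.H14.pPrimeCore_quotient_eq_bot p G
  have hHH : Subgroup.centralizer (Cfsg.pCore p (G ⧸ Cfsg.pPrimeCore p G) : Set (G ⧸ Cfsg.pPrimeCore p G))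
      ≤ Cfsg.pCore p (G ⧸ Cfsg.pPrimeCore p G) :=
    Cfsg.Agent.H1.centralizer_pCore_le p hQbot
  have hPbp : IsPGroup p (Cfsg.pCore p (G ⧸ Cfsg.pPrimeCore p G)) :=
    Cfsg.Agent.H14.pCore_isPGroup p _
  have hPbn : (Cfsg.pCore p (G ⧸ Cfsg.pPrimeCore p G)).Normal := Cfsg.Agent.H14.pCore_normal p _
  have hrQ : Cfsg.PRankLE p 2 (G ⧸ Cfsg.pPrimeCore p G) :=
    Cfsg.Agent.H3.pRankLE_quotient_of_coprime 2 _ hNcop hr
  have hrPb : Cfsg.PRankLE p 2 ↥(Cfsg.pCore p (G ⧸ Cfsg.pPrimeCore p G)) :=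
    Cfsg.Agent.H28.pRankLE_subgroup hrQ _
  have hQodd : Odd (Nat.card (G ⧸ Cfsg.pPrimeCore p G)) :=
    Odd.of_dvd_nat hodd (Subgroup.card_quotient_dvd_card _)
  have hcommQ : ∀ x ∈ commutator (G ⧸ Cfsg.pPrimeCore p G), ∃ k : ℕ, x ^ (p ^ k) = 1 := by
    have h1 := Cfsg.Agent.H3.commutator_pElements_of_rank_two p hp2
      (Cfsg.pCore p (G ⧸ Cfsg.pPrimeCore p G)) ⊤ hPbp hrPb
      (by
        intro g _
        rw [Subgroup.mem_normalizer_iff]
        intro h
        refine ⟨fun hh => hPbn.conj_mem h hh g, fun hh => ?_⟩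
        have h2 := hPbn.conj_mem _ hh g⁻¹
        simpa [mul_assoc] using h2) inferInstance
      (by rw [Subgroup.card_top]; exact hQodd)
      (by
        intro a ha
        obtain ⟨k, hk⟩ := hPbp ⟨a, hHH (Subgroup.mem_inf.mp ha).2⟩
        exact ⟨k, congrArg Subtype.val hk⟩)
    intro x hx
    rw [commutator_def] at hx
    exact h1 x hx
  have hcommQp : IsPGroup p (commutator (G ⧸ Cfsg.pPrimeCore p G)) := by
    intro x
    obtain ⟨k, hk⟩ := hcommQ x x.2
    exact ⟨k, Subtype.ext (by rw [Subgroup.coe_pow]; exact hk)⟩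
  have hcommQle : commutator (G ⧸ Cfsg.pPrimeCore p G) ≤ Cfsg.pCore p (G ⧸ Cfsg.pPrimeCore p G) :=
    Cfsg.Agent.H14.le_pCore inferInstance hcommQp
  have hGQ : ∀ x ∈ commutator G,
      QuotientGroup.mk' (Cfsg.pPrimeCore p G) x ∈ commutator (G ⧸ Cfsg.pPrimeCore p G) := by
    have h1 : commutator G ≤
        (commutator (G ⧸ Cfsg.pPrimeCore p G)).comap (QuotientGroup.mk' (Cfsg.pPrimeCore p G)) := by
      rw [commutator_def, Subgroup.commutator_le]
      intro a _ b _
      rw [Subgroup.mem_comap, map_commutatorElement, commutator_def]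
      exact Subgroup.commutator_mem_commutator (Subgroup.mem_top _) (Subgroup.mem_top _)
    exact fun x hx => h1 hx
  -- primes of the quotient other than `p` are smaller than `p`
  have hq_lt : ∀ q : ℕ, q.Prime → q ≠ p → q ∣ Nat.card (G ⧸ Cfsg.pPrimeCore p G) → q < p := by
    intro q hq hqp hdvd
    haveI : Fact q.Prime := ⟨hq⟩
    obtain ⟨x, hx⟩ := exists_prime_orderOf_dvd_card' q hdvd
    set φ : MulAut ↥(Cfsg.pCore p (G ⧸ Cfsg.pPrimeCore p G)) := MulAut.conjNormal x with hφ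
    have hφq : φ ^ q = 1 := by
      rw [hφ, ← map_pow, ← hx, pow_orderOf_eq_one, map_one]
    have hφ1 : φ ≠ 1 := by
      intro h
      have hxc : x ∈ Subgroup.centralizer
          (Cfsg.pCore p (G ⧸ Cfsg.pPrimeCore p G) : Set (G ⧸ Cfsg.pPrimeCore p G)) := by
        rw [Subgroup.mem_centralizer_iff]
        intro y hy
        have h1 := congrArg (fun ψ : MulAut ↥(Cfsg.pCore p (G ⧸ Cfsg.pPrimeCore p G)) =>
          ((ψ ⟨y, hy⟩ : ↥(Cfsg.pCore p (G ⧸ Cfsg.pPrimeCore p G))) : G ⧸ Cfsg.pPrimeCore p G)) h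
        simp only [hφ, MulAut.conjNormal_apply, MulAut.one_apply] at h1
        rw [mul_inv_eq_iff_eq_mul] at h1
        exact h1.symm
      obtain ⟨k, hk⟩ := hPbp ⟨x, hHH hxc⟩
      have hk' : x ^ (p ^ k) = 1 := congrArg Subtype.val hk
      have h2 : q ∣ p ^ k := by rw [← hx]; exact orderOf_dvd_of_pow_eq_one hk'
      exact hqp ((Nat.prime_dvd_prime_iff_eq hq hpp).mp (hq.dvd_of_dvd_pow h2))
    have hord : orderOf φ = q := orderOf_eq_prime hφq hφ1
    have hdvd2 : q ∣ Nat.card (MulAut ↥(Cfsg.pCore p (G ⧸ Cfsg.pPrimeCore p G))) := by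
      rw [← hord]; exact orderOf_dvd_natCard φ
    exact (Cfsg.Agent.S0640.result hp2 hPbp hrPb q hq hqp hdvd2).2
  -- elements of the commutator subgroup are p-elements modulo the p'-core
  have hcommpow : ∀ g ∈ commutator G, ∃ k : ℕ, g ^ (p ^ k) ∈ Cfsg.pPrimeCore p G := by
    intro g hg
    obtain ⟨k, hk⟩ := hcommQ _ (hGQ g hg)
    refine ⟨k, ?_⟩
    rw [← map_pow] at hk
    exact (QuotientGroup.eq_one_iff _).mp hk
  have hKcard : (Nat.card ((Cfsg.pPrimeCore p G).subgroupOf (commutator G))).Coprime p := by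
    have h1 : (Cfsg.pPrimeCore p G ⊓ commutator G).subgroupOf (commutator G)
        = (Cfsg.pPrimeCore p G).subgroupOf (commutator G) := Subgroup.inf_subgroupOf_right _ _
    have e := Subgroup.subgroupOfEquivOfLe
      (inf_le_right : Cfsg.pPrimeCore p G ⊓ commutator G ≤ commutator G)
    have h2 : Nat.card ((Cfsg.pPrimeCore p G).subgroupOf (commutator G))
        = Nat.card ↥(Cfsg.pPrimeCore p G ⊓ commutator G) := by
      rw [← h1]; exact Nat.card_congr e.toEquiv
    rw [h2]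
    exact Nat.Coprime.coprime_dvd_left (Subgroup.card_dvd_of_le inf_le_left) hNcop
  have hKq : ∀ g : ↥(commutator G), ∃ k : ℕ,
      g ^ (p ^ k) ∈ (Cfsg.pPrimeCore p G).subgroupOf (commutator G) := by
    intro g
    obtain ⟨k, hk⟩ := hcommpow g g.2
    exact ⟨k, by rw [Subgroup.mem_subgroupOf, Subgroup.coe_pow]; exact hk⟩
  refine ⟨?_, ?_, ?_, ?_, ?_, ?_⟩
  · intro q hq hdvd
    by_cases hqp : q = p
    · exact hqp.le
    · exact (hq_lt q hq hqp hdvd).le
  · intro h
    have hcardQ : ∀ {d : ℕ}, d.Prime → d ∣ Nat.card (G ⧸ Cfsg.pPrimeCore p G) → d = p := by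
      intro d hd hdvd
      by_contra hdp
      have hlt := hq_lt d hd hdp hdvd
      have hdG : d ∣ Nat.card G := hdvd.trans (Subgroup.card_quotient_dvd_card _)
      rcases h with h3 | hmin
      · have hd2 : d = 2 := by
          have := hd.two_le
          omega
        rw [hd2] at hdG
        exact (Nat.not_even_iff_odd.mpr hodd) (even_iff_two_dvd.mpr hdG)
      · have := hmin d hd hdG
        omega
    have hQcard := Nat.eq_prime_pow_of_unique_prime_dvd Nat.card_pos.ne' hcardQ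
    have hQp : IsPGroup p (G ⧸ Cfsg.pPrimeCore p G) := IsPGroup.of_card hQcard
    apply Cfsg.Agent.H40.hasNormalPComplement_of_normal_coprime (Cfsg.pPrimeCore p G) hNcop
    intro g
    obtain ⟨k, hk⟩ := hQp (QuotientGroup.mk' _ g)
    refine ⟨k, ?_⟩
    rw [← map_pow] at hk
    exact (QuotientGroup.eq_one_iff _).mp hk
  · exact Cfsg.Agent.H40.hasNormalPComplement_of_normal_coprime
      ((Cfsg.pPrimeCore p G).subgroupOf (commutator G)) hKcard hKq
  · intro L hL
    have hKle : (Cfsg.pPrimeCore p G).subgroupOf (commutator G)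
        ≤ Cfsg.pPrimeCore p ↥(commutator G) :=
      Cfsg.Agent.H14.le_pPrimeCore inferInstance hKcard
    intro x hx
    apply hKle
    obtain ⟨k, hk⟩ := hKq x
    have hcop : (orderOf x).Coprime (p ^ k) := by
      apply Nat.Coprime.pow_right
      have h1 : orderOf x ∣ Nat.card L := by
        rw [← Subgroup.orderOf_mk x hx]; exact orderOf_dvd_natCard _
      exact Nat.Coprime.coprime_dvd_left h1 hL
    have h2 : Subgroup.zpowers (x ^ (p ^ k)) = Subgroup.zpowers x := by
      apply Subgroup.eq_of_le_of_card_ge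
      · rw [Subgroup.zpowers_le]; exact Subgroup.pow_mem _ (Subgroup.mem_zpowers x) _
      · rw [Nat.card_zpowers, Nat.card_zpowers, Nat.Coprime.orderOf_pow hcop]
    have h3 : x ∈ Subgroup.zpowers (x ^ (p ^ k)) := h2 ▸ Subgroup.mem_zpowers x
    exact (Subgroup.zpowers_le.mpr hk) h3
  · intro x hx
    show QuotientGroup.mk' (Cfsg.pPrimeCore p G) x ∈ Cfsg.pCore p (G ⧸ Cfsg.pPrimeCore p G)
    exact hcommQle (hGQ x hx)
  · obtain ⟨S, hS⟩ := IsPGroup.exists_le_sylow hPbp
    have hSn : (S : Subgroup (G ⧸ Cfsg.pPrimeCore p G)).Normal := by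
      refine ⟨fun y hy g => ?_⟩
      have hyg : g * y * g⁻¹ = ⁅g, y⁆ * y := by
        rw [commutatorElement_def]; group
      rw [hyg]
      refine Subgroup.mul_mem _ (hS (hcommQle ?_)) hy
      rw [commutator_def]
      exact Subgroup.commutator_mem_commutator (Subgroup.mem_top g) (Subgroup.mem_top y)
    have hSle : (S : Subgroup (G ⧸ Cfsg.pPrimeCore p G)) ≤ Cfsg.pCore p (G ⧸ Cfsg.pPrimeCore p G) :=
      Cfsg.Agent.H14.le_pCore hSn S.isPGroup'
    have hSeq : Cfsg.pCore p (G ⧸ Cfsg.pPrimeCore p G) = S := le_antisymm hS hSle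
    have hidx : (Cfsg.pPrimePCore p G).index = (Cfsg.pCore p (G ⧸ Cfsg.pPrimeCore p G)).index :=
      Subgroup.index_comap_of_surjective _ (QuotientGroup.mk'_surjective _)
    rw [hidx, hSeq]
    exact ((Nat.Prime.coprime_iff_not_dvd hpp).mpr S.not_dvd_index).symm

end Cfsg.Agent.S1450
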