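import Cfsg.Statements.S0100
import Cfsg.Agent.H3.Alperin
import Cfsg.Agent.H3.Critical
import Cfsg.Agent.H3.PGroup

set_option autoImplicit false
open Cfsg

namespace Cfsg.Agent.S0100

/-- For odd p, a p-group without normal elementary abelian subgroups of order p^3 has p-rank at most 2. -/
theorem result {P : Type*} [Group P] [Finite P] {p : ℕ} [Fact p.Prime] (hp : p ≠ 2) (hP : IsPGroup p P) (h : ∀ A : Subgroup P, A.Normal → IsMulCommutative A → (∀ a ∈ A, a ^ p = 1) → Nat.card A ≠ p ^ 3) (E : Subgroup P) (hE : IsMulCommutative E) (hEe : ∀ e ∈ E, e ^ p = 1) : Nat.card E ≤ p ^ 2 := by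
  have hpp : p.Prime := Fact.out
  have hfin : {A : Subgroup P | A.Normal ∧ (∀ a ∈ A, ∀ b ∈ A, a * b = b * a) ∧
      (∀ a ∈ A, a ^ p = 1) ∧ Nat.card A ≤ p ^ 2}.Finite := Set.toFinite _
  have hbot : (⊥ : Subgroup P) ∈ {A : Subgroup P | A.Normal ∧ (∀ a ∈ A, ∀ b ∈ A, a * b = b * a) ∧
      (∀ a ∈ A, a ^ p = 1) ∧ Nat.card A ≤ p ^ 2} := by
    refine ⟨inferInstance, ?_, ?_, ?_⟩
    · intro a ha b hb
      rw [Subgroup.mem_bot.mp ha, Subgroup.mem_bot.mp hb]
    · intro a ha
      rw [Subgroup.mem_bot.mp ha, one_pow]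
    · rw [Subgroup.card_bot]
      exact Nat.one_le_pow _ _ hpp.pos
  obtain ⟨A, -, hmax⟩ := hfin.exists_le_maximal hbot
  obtain ⟨⟨hAn, hAc, hAe, hAcard⟩, hmax'⟩ := hmax
  have star : ∀ x : P, x ^ p = 1 → (∀ a ∈ A, a * x = x * a) → x ∈ A := by
    intro x hxp hxC
    by_contra hxA
    obtain ⟨B, hBn, hAB, hBc, hBe, hBcard⟩ :=
      Cfsg.Agent.H3.alperin_extend hp hP A hAc hAe x hxA hxp hxC
    obtain ⟨k, hk⟩ := IsPGroup.iff_card.mp (hP.to_subgroup A)
    have hk2 : k ≤ 2 := by
      rw [hk] at hAcard
      exact (Nat.pow_le_pow_iff_right hpp.one_lt).mp hAcard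
    rcases Nat.lt_or_ge k 2 with hk1 | hk2'
    · have hB2 : Nat.card B ≤ p ^ 2 := by
        rw [hBcard, hk, ← pow_succ']
        exact Nat.pow_le_pow_right hpp.pos (by omega)
      have hBA : B ≤ A := hmax' ⟨hBn, hBc, hBe, hB2⟩ hAB
      have h1 := Subgroup.card_le_of_le hBA
      rw [hBcard] at h1
      have hpos : 0 < Nat.card A := Nat.card_pos
      nlinarith [hpp.two_le]
    · have hk3 : k = 2 := le_antisymm hk2 hk2'
      apply h B hBn ⟨⟨fun a b => Subtype.ext (hBc a a.2 b b.2)⟩⟩ hBe
      rw [hBcard, hk, hk3]; ring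
  by_cases hAZ : A ≤ Subgroup.center P
  · have hEA : E ≤ A := fun e he => star e (hEe e he)
      (fun a ha => (Subgroup.mem_center_iff.mp (hAZ ha) e).symm)
    exact (Subgroup.card_le_of_le hEA).trans hAcard
  · obtain ⟨g, hgA, hgZ⟩ := SetLike.not_le_iff_exists.mp hAZ
    have hAne : A ≠ ⊥ := by
      rintro rfl
      exact hgZ (by rw [Subgroup.mem_bot.mp hgA]; exact Subgroup.one_mem _)
    obtain ⟨z, hzA, hzc, hz1⟩ := Cfsg.Agent.H3.normal_inf_center_ne_bot hP A hAne
    have hzcard : Nat.card (Subgroup.zpowers z) = p := by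
      rw [Nat.card_zpowers]
      exact orderOf_eq_prime (hAe z hzA) hz1
    have hgen : ∀ D : Subgroup P, D ≤ A → z ∈ D → g ∈ D → D = A := by
      intro D hDA hzD hgD
      have hzD' : Subgroup.zpowers z ≤ D := (Subgroup.zpowers_le).mpr hzD
      obtain ⟨j, hj⟩ := IsPGroup.iff_card.mp (hP.to_subgroup D)
      have hj2 : 2 ≤ j := by
        by_contra hj1
        have hle : Nat.card D ≤ Nat.card (Subgroup.zpowers z) := by
          rw [hzcard, hj]
          calc p ^ j ≤ p ^ 1 := Nat.pow_le_pow_right hpp.pos (by omega)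
            _ = p := pow_one p
        have heq := Subgroup.eq_of_le_of_card_ge hzD' hle
        rw [← heq] at hgD
        exact hgZ ((Subgroup.zpowers_le (H := Subgroup.center P)).mpr hzc hgD)
      apply Subgroup.eq_of_le_of_card_ge hDA
      rw [hj]
      exact hAcard.trans (Nat.pow_le_pow_right hpp.pos hj2)
    have hcent : ∀ c : P, c * g = g * c → ∀ a ∈ A, a * c = c * a := by
      intro c hc a ha
      have hD := hgen (A ⊓ Subgroup.centralizer {c}) inf_le_left
        (Subgroup.mem_inf.mpr ⟨hzA, by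
          rw [Subgroup.mem_centralizer_iff]
          intro x hx
          rw [Set.mem_singleton_iff] at hx
          subst hx
          exact Subgroup.mem_center_iff.mp hzc x⟩)
        (Subgroup.mem_inf.mpr ⟨hgA, by
          rw [Subgroup.mem_centralizer_iff]
          intro x hx
          rw [Set.mem_singleton_iff] at hx
          subst hx
          exact hc⟩)
      have haD : a ∈ A ⊓ Subgroup.centralizer {c} := by rw [hD]; exact ha
      have := Subgroup.mem_centralizer_iff.mp (Subgroup.mem_inf.mp haD).2 c rfl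
      exact this.symm
    by_cases hAE : A ≤ E
    · have hEA : E ≤ A := by
        intro e he
        apply star e (hEe e he)
        intro a ha
        have := hE.1.1 ⟨a, hAE ha⟩ ⟨e, he⟩
        exact congrArg Subtype.val this
      exact (Subgroup.card_le_of_le hEA).trans hAcard
    · have hE0A : E ⊓ Subgroup.centralizer {g} ≤ E ⊓ A := by
        intro e he
        obtain ⟨he1, he2⟩ := Subgroup.mem_inf.mp he
        refine Subgroup.mem_inf.mpr ⟨he1, ?_⟩
        apply star e (hEe e he1)
        apply hcent e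
        exact (Subgroup.mem_centralizer_iff.mp he2 g rfl).symm
      have hEAcard : Nat.card (E ⊓ A : Subgroup P) ≤ p := by
        obtain ⟨j, hj⟩ := IsPGroup.iff_card.mp (hP.to_subgroup (E ⊓ A))
        by_contra hgt
        have hj2 : 2 ≤ j := by
          by_contra hj1
          apply hgt
          rw [hj]
          calc p ^ j ≤ p ^ 1 := Nat.pow_le_pow_right hpp.pos (by omega)
            _ = p := pow_one p
        have heq : E ⊓ A = A := by
          apply Subgroup.eq_of_le_of_card_ge inf_le_right
          rw [hj]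
          exact hAcard.trans (Nat.pow_le_pow_right hpp.pos hj2)
        exact hAE (by rw [← heq]; exact inf_le_left)
      have hE0card : Nat.card (E ⊓ Subgroup.centralizer {g} : Subgroup P) ≤ p :=
        (Subgroup.card_le_of_le hE0A).trans hEAcard
      have hg1 : g ≠ 1 := by
        rintro rfl
        exact hgZ (Subgroup.one_mem _)
      have hrel1 : (E ⊓ Subgroup.centralizer {g}).relIndex E ≤
          Nat.card ((A : Set P) \ {1} : Set P) := by
        apply Cfsg.Agent.H3.relIndex_centralizer_le_card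
        intro t _
        refine ⟨hAn.conj_mem g hgA t, ?_⟩
        rw [Set.mem_singleton_iff]
        intro h1
        apply hg1
        have e : g = t⁻¹ * (t * g * t⁻¹) * t := by group
        rw [e, h1]; group
      have hZlt : Nat.card ((A : Set P) \ {1} : Set P) < Nat.card A := by
        rw [Nat.card_coe_set_eq]
        have h2 : Nat.card A = (A : Set P).ncard := Nat.card_coe_set_eq _
        rw [h2]
        apply Set.ncard_lt_ncard _ (Set.toFinite _)
        refine ⟨Set.sdiff_subset, fun hsub => ?_⟩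
        have h3 := hsub A.one_mem
        exact h3.2 rfl
      have hrel2 : (E ⊓ Subgroup.centralizer {g}).relIndex E ≤ p := by
        obtain ⟨m, hm⟩ := IsPGroup.iff_card.mp (hP.to_subgroup E)
        have hdvd : (E ⊓ Subgroup.centralizer {g}).relIndex E ∣ Nat.card E :=
          Subgroup.relIndex_dvd_card _ _
        rw [hm] at hdvd
        obtain ⟨i, -, hi⟩ := (Nat.dvd_prime_pow hpp).mp hdvd
        have hlt : p ^ i < p ^ 2 := by
          rw [← hi]
          exact lt_of_le_of_lt hrel1 (lt_of_lt_of_le hZlt hAcard)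
        have hi2 : i < 2 := (Nat.pow_lt_pow_iff_right hpp.one_lt).mp hlt
        rw [hi]
        calc p ^ i ≤ p ^ 1 := Nat.pow_le_pow_right hpp.pos (by omega)
          _ = p := pow_one p
      have hcardE := Cfsg.Agent.H3.relIndex_mul_card_of_le
        (inf_le_left : E ⊓ Subgroup.centralizer {g} ≤ E)
      rw [← hcardE, pow_two]
      exact Nat.mul_le_mul hrel2 hE0card

end Cfsg.Agent.S0100
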