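import Cfsg.Statements.S1453
import Cfsg.Agent.H3.Narrow
import Cfsg.Agent.S0100

set_option autoImplicit false
open Cfsg

namespace Cfsg.Agent.S1453

/-- Let p be an odd prime and R a finite p-group with an elementary abelian subgroup of order p ^ 3 and an elementary abelian subgroup E of order p ^ 2 contained in no larger elementary abelian subgroup. Let Z₂ be the second centre of R, W the subgroup generated by the elements of Z₂ of order dividing p, and T = C_R(W). Then E is not contained in T; the elements of order dividing p of the centre of R generate a group of order p; W is elementary abelian of order p ^ 2; and T is characteristic in R of index p. -/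
theorem result {R : Type*} [Group R] [Finite R] (p : ℕ) [Fact p.Prime] (hp : p ≠ 2) (hR : IsPGroup p R) (hr : ¬ Cfsg.PRankLE p 2 R)
    (E : Subgroup R) (hE : Cfsg.IsElementaryAbelian p E) (hE2 : Nat.card E = p ^ 2)
    (hEmax : ∀ B : Subgroup R, Cfsg.IsElementaryAbelian p B → E ≤ B → B = E) :
    ¬ E ≤ Subgroup.centralizer ((Subgroup.closure {x : R | x ∈ Subgroup.upperCentralSeries R 2 ∧ x ^ p = 1} : Subgroup R) : Set R) ∧
      Nat.card ↥(Subgroup.closure {x : R | x ∈ Subgroup.center R ∧ x ^ p = 1}) = p ∧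
      (Cfsg.IsElementaryAbelian p (Subgroup.closure {x : R | x ∈ Subgroup.upperCentralSeries R 2 ∧ x ^ p = 1}) ∧
        Nat.card ↥(Subgroup.closure {x : R | x ∈ Subgroup.upperCentralSeries R 2 ∧ x ^ p = 1}) = p ^ 2) ∧
      (Subgroup.centralizer ((Subgroup.closure {x : R | x ∈ Subgroup.upperCentralSeries R 2 ∧ x ^ p = 1} : Subgroup R) : Set R)).Characteristic ∧
      (Subgroup.centralizer ((Subgroup.closure {x : R | x ∈ Subgroup.upperCentralSeries R 2 ∧ x ^ p = 1} : Subgroup R) : Set R)).index = p := by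
  have hpp : p.Prime := Fact.out
  obtain ⟨hEc, hEe⟩ := hE
  have hEc' : ∀ a ∈ E, ∀ b ∈ E, a * b = b * a := fun a ha b hb =>
    congrArg Subtype.val (hEc.1.1 ⟨a, ha⟩ ⟨b, hb⟩)
  unfold Cfsg.PRankLE at hr
  push Not at hr
  obtain ⟨F, hFc, hFe, hFcard⟩ := hr
  have hFc' : ∀ a ∈ F, ∀ b ∈ F, a * b = b * a := fun a ha b hb =>
    congrArg Subtype.val (hFc.1.1 ⟨a, ha⟩ ⟨b, hb⟩)
  -- facts on `W` and `Z`
  have hWmem := Cfsg.Agent.H3.omega_ucs2_mem (R := R) hpp hp
  have hWsub : ∀ g : R, g ∈ Subgroup.upperCentralSeries R 2 → g ^ p = 1 →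
      g ∈ Subgroup.closure {x : R | x ∈ Subgroup.upperCentralSeries R 2 ∧ x ^ p = 1} :=
    fun g h1 h2 => Subgroup.subset_closure ⟨h1, h2⟩
  have hWchar : (Subgroup.closure
      {x : R | x ∈ Subgroup.upperCentralSeries R 2 ∧ x ^ p = 1}).Characteristic := by
    rw [Subgroup.characteristic_iff_map_le]
    intro ϕ
    rw [MonoidHom.map_closure]
    apply Subgroup.closure_mono
    rintro _ ⟨x, ⟨hx1, hx2⟩, rfl⟩
    refine ⟨?_, ?_⟩
    · have h1 := Subgroup.characteristic_iff_map_le.mp
        (inferInstance : (Subgroup.upperCentralSeries R 2).Characteristic) ϕ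
      exact h1 ⟨x, hx1, rfl⟩
    · show (ϕ x) ^ p = 1
      rw [← map_pow, hx2, map_one]
  have hZmem := Cfsg.Agent.H3.omega_center_mem (R := R) (p := p)
  have hZsub : ∀ g : R, g ∈ Subgroup.center R → g ^ p = 1 →
      g ∈ Subgroup.closure {x : R | x ∈ Subgroup.center R ∧ x ^ p = 1} :=
    fun g h1 h2 => Subgroup.subset_closure ⟨h1, h2⟩
  generalize Subgroup.closure {x : R | x ∈ Subgroup.upperCentralSeries R 2 ∧ x ^ p = 1} = W
    at hWmem hWsub hWchar ⊢
  generalize Subgroup.closure {x : R | x ∈ Subgroup.center R ∧ x ^ p = 1} = Z at hZmem hZsub ⊢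
  have hWn : W.Normal := Subgroup.normal_of_characteristic W
  -- maximality of `E`
  have starE : ∀ u : R, u ^ p = 1 → (∀ e ∈ E, e * u = u * e) → u ∈ E := by
    intro u hu huE
    obtain ⟨h1, h2⟩ := Cfsg.Agent.H3.elemAb_sup_zpowers E hEc' hEe u hu huE
    have hB : Cfsg.IsElementaryAbelian p (E ⊔ Subgroup.zpowers u) :=
      ⟨⟨⟨fun a b => Subtype.ext (h1 a a.2 b b.2)⟩⟩, h2⟩
    have h3 := hEmax _ hB le_sup_left
    rw [← h3]
    exact (le_sup_right : Subgroup.zpowers u ≤ E ⊔ Subgroup.zpowers u) (Subgroup.mem_zpowers u)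
  have hZE : Z ≤ E := fun z hz => starE z (hZmem z hz).2
    (fun e _ => Subgroup.mem_center_iff.mp (hZmem z hz).1 e)
  have hZW : Z ≤ W := fun z hz => hWsub z
    ((Subgroup.upperCentralSeries_mono R (by norm_num : 1 ≤ 2))
      (by rw [Subgroup.upperCentralSeries_one]; exact (hZmem z hz).1)) (hZmem z hz).2
  have hRnt : Nontrivial R := by
    by_contra hnt
    rw [not_nontrivial_iff_subsingleton] at hnt
    have h1 : Nat.card E = 1 := Nat.card_unique
    rw [hE2] at h1
    have h2 : 1 < p ^ 2 := Nat.one_lt_pow (by norm_num) hpp.one_lt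
    omega
  -- `|Z| = p`
  have hZcard : Nat.card Z = p := by
    obtain ⟨z, -, hz, hz1⟩ := Cfsg.Agent.H3.normal_exists_central_order_p hR ⊤ top_ne_bot
    have hzZ : z ∈ Z := hZsub z hz.1 hz.2
    obtain ⟨j, hj⟩ := IsPGroup.iff_card.mp (hR.to_subgroup Z)
    have hj0 : j ≠ 0 := by
      rintro rfl
      rw [pow_zero] at hj
      have h1 : Z = ⊥ := Subgroup.card_eq_one.mp hj
      rw [h1, Subgroup.mem_bot] at hzZ
      exact hz1 hzZ
    have hj2 : j ≤ 2 := by
      have h1 := Subgroup.card_le_of_le hZE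
      rw [hj, hE2] at h1
      exact (Nat.pow_le_pow_iff_right hpp.one_lt).mp h1
    have hj1 : j ≠ 2 := by
      rintro rfl
      have h1 : Z = E := Subgroup.eq_of_le_of_card_ge hZE (by rw [hj, hE2])
      have h2 : F ≤ E := fun f hf => starE f (hFe f hf) (fun e he => by
        rw [← h1] at he
        exact (Subgroup.mem_center_iff.mp (hZmem e he).1 f).symm)
      have h3 := Subgroup.card_le_of_le h2
      omega
    have hj' : j = 1 := by omega
    rw [hj, hj', pow_one]
  have hEZ : Nat.card E = p * Nat.card Z := by rw [hE2, hZcard]; ring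
  -- generation of `E`
  have hEgen : ∀ e ∈ E, e ∉ Z → ∀ c : R, c * e = e * c → ∀ a ∈ E, c * a = a * c := by
    intro e he heZ c hc a ha
    have hD : E ⊓ Subgroup.centralizer {c} = E := by
      apply Cfsg.Agent.H3.eq_of_le_of_not_le_of_card hpp (H := Z) _ inf_le_left _ hEZ
      · intro z hz
        refine Subgroup.mem_inf.mpr ⟨hZE hz, ?_⟩
        rw [Subgroup.mem_centralizer_iff]
        intro y hy
        rw [Set.mem_singleton_iff] at hy; subst hy
        exact Subgroup.mem_center_iff.mp (hZmem z hz).1 y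
      · intro hle
        apply heZ
        apply hle
        refine Subgroup.mem_inf.mpr ⟨he, ?_⟩
        rw [Subgroup.mem_centralizer_iff]
        intro y hy
        rw [Set.mem_singleton_iff] at hy; subst hy
        exact hc
    have haD : a ∈ E ⊓ Subgroup.centralizer {c} := by rw [hD]; exact ha
    exact Subgroup.mem_centralizer_iff.mp (Subgroup.mem_inf.mp haD).2 c rfl
  have hexe : ∃ e ∈ E, e ∉ Z := by
    by_contra hcon
    push Not at hcon
    have h1 := Subgroup.card_le_of_le (show E ≤ Z from hcon)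
    rw [hE2, hZcard] at h1
    have h2 : p ^ 1 < p ^ 2 := Nat.pow_lt_pow_right hpp.one_lt (by norm_num)
    rw [pow_one] at h2; omega
  obtain ⟨e, heE, heZ⟩ := hexe
  -- commutators with elements of `W` lie in `Z`
  have hWcomm : ∀ w ∈ W, ∀ r : R, r * w * r⁻¹ * w⁻¹ ∈ Z := by
    intro w hw r
    obtain ⟨h1, h2⟩ := Cfsg.Agent.H3.ucs2_comm (hWmem w hw).1 (hWmem w hw).2 r
    exact hZsub _ h1 h2
  have hWcomm' : ∀ w ∈ W, ∀ r : R, w * r * w⁻¹ * r⁻¹ ∈ Z := by
    intro w hw r
    have h1 := Z.inv_mem (hWcomm w hw r)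
    have e1 : (r * w * r⁻¹ * w⁻¹)⁻¹ = w * r * w⁻¹ * r⁻¹ := by group
    rw [e1] at h1
    exact h1
  -- a normal elementary abelian subgroup of order `p ^ 3`
  have hexB : ∃ B : Subgroup R, B.Normal ∧ (∀ a ∈ B, a ^ p = 1) ∧ Nat.card B = p ^ 3 := by
    by_contra hcon
    push Not at hcon
    have h1 := Cfsg.Agent.S0100.result hp hR (fun A hAn _ hAe => hcon A hAn hAe) F hFc hFe
    omega
  obtain ⟨B, hBn, hBe, hBcard⟩ := hexB
  have hnil : Group.IsNilpotent R := hR.isNilpotent
  -- `Z < W`
  have hexw : ∃ w ∈ W, w ∉ Z := by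
    have hBZ : ¬ B ≤ Z := by
      intro hle
      have h1 := Subgroup.card_le_of_le hle
      rw [hBcard, hZcard] at h1
      have h2 : p ^ 1 < p ^ 3 := Nat.pow_lt_pow_right hpp.one_lt (by norm_num)
      rw [pow_one] at h2; omega
    obtain ⟨w, hwB, hwZ, hw⟩ := Cfsg.Agent.H3.exists_central_mod ⊤ Z B
      (fun k _ n hn => hBn.conj_mem n hn k) hBZ
    refine ⟨w, hWsub w ?_ (hBe w hwB), hwZ⟩
    rw [Cfsg.Agent.H3.mem_ucs2_iff]
    intro y
    have h1 := Z.inv_mem (hw y (Subgroup.mem_top y))
    have e1 : (y * w * y⁻¹ * w⁻¹)⁻¹ = w * y * w⁻¹ * y⁻¹ := by group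
    rw [e1] at h1
    exact (hZmem _ h1).1
  -- `|W| ≤ p ^ 3`
  have hWCe : W ⊓ Subgroup.centralizer {e} ≤ E := by
    intro u hu
    obtain ⟨hu1, hu2⟩ := Subgroup.mem_inf.mp hu
    apply starE u (hWmem u hu1).2
    intro a ha
    have h1 : u * e = e * u := (Subgroup.mem_centralizer_iff.mp hu2 e rfl).symm
    exact (hEgen e heE heZ u h1 a ha).symm
  have hW1 := Cfsg.Agent.H3.card_le_mul_card_inf_centralizer W Z e
    (fun t ht => hWcomm' t ht e)
  rw [hZcard] at hW1
  obtain ⟨k, hk⟩ := IsPGroup.iff_card.mp (hR.to_subgroup W)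
  have hk2 : 2 ≤ k := by
    obtain ⟨w, hwW, hwZ⟩ := hexw
    by_contra hlt
    have h1 : Nat.card W ≤ Nat.card Z := by
      rw [hk, hZcard]
      calc p ^ k ≤ p ^ 1 := Nat.pow_le_pow_right hpp.pos (by omega)
        _ = p := pow_one p
    have h2 : Z = W := Subgroup.eq_of_le_of_card_ge hZW h1
    exact hwZ (by rw [h2]; exact hwW)
  have hk3 : k ≤ 3 := by
    have h1 : p ^ k ≤ p * p ^ 2 := by
      rw [← hk, ← hE2]
      exact hW1.trans (Nat.mul_le_mul_left _ (Subgroup.card_le_of_le hWCe))
    rw [← pow_succ'] at h1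
    exact (Nat.pow_le_pow_iff_right hpp.one_lt).mp h1
  have hk' : k = 2 := by
    by_contra hne
    have hk3' : k = 3 := by omega
    rw [hk3'] at hk
    -- `E ≤ W`
    have hWCeq : W ⊓ Subgroup.centralizer {e} = E := by
      apply Subgroup.eq_of_le_of_card_ge hWCe
      rw [hk] at hW1
      have h1 : p * p ^ 2 ≤ p * Nat.card (W ⊓ Subgroup.centralizer {e} : Subgroup R) := by
        calc p * p ^ 2 = p ^ 3 := by ring
          _ ≤ _ := hW1
      rw [hE2]
      exact Nat.le_of_mul_le_mul_left h1 hpp.pos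
    have hEW : E ≤ W := by rw [← hWCeq]; exact inf_le_left
    have hWE : Nat.card W = p * Nat.card E := by rw [hk, hE2]; ring
    have hexw₀ : ∃ w₀ ∈ W, w₀ ∉ E := by
      by_contra hcon
      push Not at hcon
      have h1 := Subgroup.card_le_of_le (show W ≤ E from hcon)
      rw [hk, hE2] at h1
      have h2 : p ^ 2 < p ^ 3 := Nat.pow_lt_pow_right hpp.one_lt (by norm_num)
      omega
    obtain ⟨w₀, hw₀W, hw₀E⟩ := hexw₀
    have hw₀e : ¬ w₀ * e = e * w₀ := by
      intro hc
      apply hw₀E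
      rw [← hWCeq]
      refine Subgroup.mem_inf.mpr ⟨hw₀W, ?_⟩
      rw [Subgroup.mem_centralizer_iff]
      intro y hy
      rw [Set.mem_singleton_iff] at hy; subst hy
      exact hc.symm
    -- generation of `W`
    have hWgen : ∀ c : R, c * e = e * c → c * w₀ = w₀ * c → ∀ a ∈ W, c * a = a * c := by
      intro c hce hcw a ha
      have hD : W ⊓ Subgroup.centralizer {c} = W := by
        apply Cfsg.Agent.H3.eq_of_le_of_not_le_of_card hpp (H := E) _ inf_le_left _ hWE
        · intro a ha
          refine Subgroup.mem_inf.mpr ⟨hEW ha, ?_⟩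
          rw [Subgroup.mem_centralizer_iff]
          intro y hy
          rw [Set.mem_singleton_iff] at hy; subst hy
          exact hEgen e heE heZ y hce a ha
        · intro hle
          apply hw₀E
          apply hle
          refine Subgroup.mem_inf.mpr ⟨hw₀W, ?_⟩
          rw [Subgroup.mem_centralizer_iff]
          intro y hy
          rw [Set.mem_singleton_iff] at hy; subst hy
          exact hcw
      have haD : a ∈ W ⊓ Subgroup.centralizer {c} := by rw [hD]; exact ha
      exact Subgroup.mem_centralizer_iff.mp (Subgroup.mem_inf.mp haD).2 c rfl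
    -- `|R| ≤ p ^ 2 |C_R(W)|`
    have hR1 := Cfsg.Agent.H3.card_le_mul_card_inf_centralizer (⊤ : Subgroup R) Z e
      (fun t _ => hWcomm e (hEW heE) t)
    have hR2 := Cfsg.Agent.H3.card_le_mul_card_inf_centralizer
      ((⊤ : Subgroup R) ⊓ Subgroup.centralizer {e}) Z w₀ (fun t _ => hWcomm w₀ hw₀W t)
    have hR3 : (⊤ : Subgroup R) ⊓ Subgroup.centralizer {e} ⊓ Subgroup.centralizer {w₀} ≤
        Subgroup.centralizer (W : Set R) := by
      intro c hc
      obtain ⟨hc1, hc2⟩ := Subgroup.mem_inf.mp hc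
      obtain ⟨-, hc3⟩ := Subgroup.mem_inf.mp hc1
      have hce : c * e = e * c := (Subgroup.mem_centralizer_iff.mp hc3 e rfl).symm
      have hcw : c * w₀ = w₀ * c := (Subgroup.mem_centralizer_iff.mp hc2 w₀ rfl).symm
      rw [Subgroup.mem_centralizer_iff]
      intro a ha
      exact (hWgen c hce hcw a ha).symm
    rw [hZcard, Subgroup.card_top] at hR1
    rw [hZcard] at hR2
    have hR4 : Nat.card R ≤ p * (p * Nat.card (Subgroup.centralizer (W : Set R))) :=
      hR1.trans (Nat.mul_le_mul_left _ (hR2.trans (Nat.mul_le_mul_left _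
        (Subgroup.card_le_of_le hR3))))
    -- `W ∩ C_R(W) ≤ Z`
    have hWC : W ⊓ Subgroup.centralizer (W : Set R) ≤ Z := by
      intro u hu
      obtain ⟨hu1, hu2⟩ := Subgroup.mem_inf.mp hu
      by_contra huZ
      have hue : e * u = u * e := Subgroup.mem_centralizer_iff.mp hu2 e (hEW heE)
      have huE : u ∈ E := by
        rw [← hWCeq]
        refine Subgroup.mem_inf.mpr ⟨hu1, ?_⟩
        rw [Subgroup.mem_centralizer_iff]
        intro y hy
        rw [Set.mem_singleton_iff] at hy; subst hy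
        exact hue
      have huw : w₀ * u = u * w₀ := Subgroup.mem_centralizer_iff.mp hu2 w₀ hw₀W
      exact hw₀e (hEgen u huE huZ w₀ huw e heE)
    have hsup := Cfsg.Agent.H3.card_mul_card_le_sup_inf W (Subgroup.centralizer (W : Set R))
    have hsup' : p ^ 3 * Nat.card (Subgroup.centralizer (W : Set R)) ≤
        Nat.card (W ⊔ Subgroup.centralizer (W : Set R) : Subgroup R) * p := by
      rw [← hk]
      exact hsup.trans (Nat.mul_le_mul_left _ (by rw [← hZcard]; exact Subgroup.card_le_of_le hWC))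
    have htop : W ⊔ Subgroup.centralizer (W : Set R) = ⊤ := by
      apply Subgroup.eq_top_of_le_card
      have h1 : Nat.card R * p ≤ Nat.card (W ⊔ Subgroup.centralizer (W : Set R) : Subgroup R) * p := by
        calc Nat.card R * p ≤ p * (p * Nat.card (Subgroup.centralizer (W : Set R))) * p :=
              Nat.mul_le_mul_right _ hR4
          _ = p ^ 3 * Nat.card (Subgroup.centralizer (W : Set R)) := by ring
          _ ≤ _ := hsup'
      exact Nat.le_of_mul_le_mul_right h1 hpp.pos
    have hFW : F ≤ W := by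
      intro f hf
      have hf' : f ∈ W ⊔ Subgroup.centralizer (W : Set R) := by rw [htop]; exact Subgroup.mem_top f
      obtain ⟨w, hw, c, hc, rfl⟩ := Cfsg.Agent.H3.mem_sup_of_normalizes W _
        (fun c _ w hw => hWn.conj_mem w hw c) hf'
      have hwc : Commute w c := Subgroup.mem_centralizer_iff.mp hc w hw
      have hcp : c ^ p = 1 := by
        have h1 := hFe _ hf
        rw [hwc.mul_pow, (hWmem w hw).2, one_mul] at h1
        exact h1
      have hcE : c ∈ E := starE c hcp
        (fun a ha => Subgroup.mem_centralizer_iff.mp hc a (hEW ha))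
      exact W.mul_mem hw (hEW hcE)
    have hFeq : F = W := by
      apply Subgroup.eq_of_le_of_card_ge hFW
      obtain ⟨j, hj⟩ := IsPGroup.iff_card.mp (hR.to_subgroup F)
      rw [hk, hj]
      apply Nat.pow_le_pow_right hpp.pos
      by_contra hlt
      have h1 : p ^ j ≤ p ^ 2 := Nat.pow_le_pow_right hpp.pos (by omega)
      omega
    apply hw₀e
    exact hFc' w₀ (by rw [hFeq]; exact hw₀W) e (by rw [hFeq]; exact hEW heE)
  rw [hk'] at hk
  -- now `|W| = p ^ 2`
  have hWc : ∀ a ∈ W, ∀ b ∈ W, a * b = b * a := by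
    intro a ha b hb
    have h1 := IsPGroup.commutative_of_card_eq_prime_sq (G := W) hk ⟨a, ha⟩ ⟨b, hb⟩
    exact congrArg Subtype.val h1
  have hWZ : Nat.card W = p * Nat.card Z := by rw [hk, hZcard]; ring
  obtain ⟨w, hwW, hwZ⟩ := hexw
  have hWgen : ∀ c : R, c * w = w * c → ∀ a ∈ W, c * a = a * c := by
    intro c hc a ha
    have hD : W ⊓ Subgroup.centralizer {c} = W := by
      apply Cfsg.Agent.H3.eq_of_le_of_not_le_of_card hpp (H := Z) _ inf_le_left _ hWZ
      · intro z hz
        refine Subgroup.mem_inf.mpr ⟨hZW hz, ?_⟩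
        rw [Subgroup.mem_centralizer_iff]
        intro y hy
        rw [Set.mem_singleton_iff] at hy; subst hy
        exact Subgroup.mem_center_iff.mp (hZmem z hz).1 y
      · intro hle
        apply hwZ
        apply hle
        refine Subgroup.mem_inf.mpr ⟨hwW, ?_⟩
        rw [Subgroup.mem_centralizer_iff]
        intro y hy
        rw [Set.mem_singleton_iff] at hy; subst hy
        exact hc
    have haD : a ∈ W ⊓ Subgroup.centralizer {c} := by rw [hD]; exact ha
    exact Subgroup.mem_centralizer_iff.mp (Subgroup.mem_inf.mp haD).2 c rfl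
  have hTchar : (Subgroup.centralizer (W : Set R)).Characteristic :=
    Subgroup.characteristic_centralizer
  refine ⟨?_, hZcard, ⟨⟨⟨⟨fun a b => Subtype.ext (hWc a a.2 b b.2)⟩⟩,
    fun a ha => (hWmem a ha).2⟩, hk⟩, hTchar, ?_⟩
  · intro hET
    have hWE : W ≤ E := fun u hu => starE u (hWmem u hu).2
      (fun a ha => (Subgroup.mem_centralizer_iff.mp (hET ha) u hu).symm)
    have hWeq : W = E := Subgroup.eq_of_le_of_card_ge hWE (by rw [hk, hE2])
    have hEn : E.Normal := by rw [← hWeq]; exact hWn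
    have h1 := Cfsg.Agent.H3.card_le_sq_of_star hR E hEe hE2.le starE F hFc' hFe
    omega
  · have hT1 := Cfsg.Agent.H3.card_le_mul_card_inf_centralizer (⊤ : Subgroup R) Z w
      (fun t _ => hWcomm w hwW t)
    have hT2 : (⊤ : Subgroup R) ⊓ Subgroup.centralizer {w} ≤ Subgroup.centralizer (W : Set R) := by
      intro c hc
      obtain ⟨-, hc2⟩ := Subgroup.mem_inf.mp hc
      have hcw : c * w = w * c := (Subgroup.mem_centralizer_iff.mp hc2 w rfl).symm
      rw [Subgroup.mem_centralizer_iff]
      intro a ha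
      exact (hWgen c hcw a ha).symm
    rw [hZcard, Subgroup.card_top] at hT1
    have hT3 : Nat.card R ≤ p * Nat.card (Subgroup.centralizer (W : Set R)) :=
      hT1.trans (Nat.mul_le_mul_left _ (Subgroup.card_le_of_le hT2))
    have hT4 := Subgroup.index_mul_card (Subgroup.centralizer (W : Set R))
    have hidx : (Subgroup.centralizer (W : Set R)).index ≤ p := by
      rw [← hT4] at hT3
      exact Nat.le_of_mul_le_mul_right hT3 Nat.card_pos
    have hne1 : (Subgroup.centralizer (W : Set R)).index ≠ 1 := by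
      intro h1
      have htop : Subgroup.centralizer (W : Set R) = ⊤ := Subgroup.index_eq_one.mp h1
      apply hwZ
      apply hZsub w _ (hWmem w hwW).2
      rw [Subgroup.mem_center_iff]
      intro g
      have hg : g ∈ Subgroup.centralizer (W : Set R) := by rw [htop]; exact Subgroup.mem_top g
      exact (Subgroup.mem_centralizer_iff.mp hg w hwW).symm
    obtain ⟨m, hm⟩ := IsPGroup.iff_card.mp hR
    have hdvd : (Subgroup.centralizer (W : Set R)).index ∣ Nat.card R :=
      Subgroup.index_dvd_card _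
    rw [hm] at hdvd
    obtain ⟨i, -, hi⟩ := (Nat.dvd_prime_pow hpp).mp hdvd
    rw [hi] at hidx hne1 ⊢
    have hi1 : i ≤ 1 := by
      by_contra hgt
      have h1 : p ^ 2 ≤ p ^ i := Nat.pow_le_pow_right hpp.pos (by omega)
      have h2 : p ^ 1 < p ^ 2 := Nat.pow_lt_pow_right hpp.one_lt (by norm_num)
      rw [pow_one] at h2; omega
    have hi0 : i ≠ 0 := by
      rintro rfl
      exact hne1 (pow_zero p)
    have hi' : i = 1 := by omega
    rw [hi', pow_one]

end Cfsg.Agent.S1453
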