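import Cfsg.Statements.S1455
import Cfsg.Agent.H3.NarrowAux
import Cfsg.Agent.S1450
import Cfsg.Agent.H31.PLen
import Cfsg.Agent.H1.HallHigman
import Cfsg.Agent.H14.Cores
import Cfsg.Agent.H40.PComp

set_option autoImplicit false
open Cfsg

namespace Cfsg.Agent.S1455

open scoped commutatorElement Pointwise

/-- For a solvable group G of odd order with a narrow Sylow p-subgroup S, G of p-length one if S has rank ≥ 3: p is the largest prime of #(G/O_{p'}(G)); G has a normal p-complement if p is 3 or the least prime of #G; G' has one; p'-subgroups of G' lie in O_{p'}(G'); G/O_{p',p}(G) is an abelian p'-group. -/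
theorem result {G : Type*} [Group G] [Finite G] [Group.IsSolvable G] (hodd : Odd (Nat.card G)) (p : ℕ) [Fact p.Prime] (hpG : p ∣ Nat.card G) (S : Sylow p G) (hS : Cfsg.IsNarrow p ↥(S : Subgroup G))
    (hpl : ¬ Cfsg.PRankLE p 2 ↥(S : Subgroup G) → Cfsg.PLengthLE p 1 G) :
    (∀ q : ℕ, q.Prime → q ∣ (Cfsg.pPrimeCore p G).index → q ≤ p) ∧
      ((p = 3 ∨ ∀ q : ℕ, q.Prime → q ∣ Nat.card G → p ≤ q) → Cfsg.HasNormalPComplement p G) ∧
      Cfsg.HasNormalPComplement p ↥(commutator G) ∧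
      (∀ L : Subgroup ↥(commutator G), (Nat.card L).Coprime p → L ≤ Cfsg.pPrimeCore p ↥(commutator G)) ∧
      commutator G ≤ Cfsg.pPrimePCore p G ∧ ((Cfsg.pPrimePCore p G).index).Coprime p := by
  have hpp : p.Prime := Fact.out
  have hp2 : p ≠ 2 := by
    rintro rfl
    exact (Nat.not_even_iff_odd.mpr hodd) (even_iff_two_dvd.mpr hpG)
  by_cases hS2 : Cfsg.PRankLE p 2 ↥(S : Subgroup G)
  · -- the p-rank of G is at most two
    have hrG : Cfsg.PRankLE p 2 G := by
      intro B hBc hBe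
      have hBp : IsPGroup p B := fun a =>
        ⟨1, by rw [pow_one]; exact Subtype.ext (by rw [Subgroup.coe_pow]; exact hBe a a.2)⟩
      obtain ⟨P, hBP⟩ := IsPGroup.exists_le_sylow hBp
      obtain ⟨g, hg⟩ := MulAction.exists_smul_eq G S P
      let f : ↥(S : Subgroup G) →* G := (MulAut.conj g).toMonoidHom.comp (S : Subgroup G).subtype
      have hf : Function.Injective f := by
        intro a b hab
        have h1 : g * (a : G) * g⁻¹ = g * (b : G) * g⁻¹ := hab
        apply Subtype.ext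
        have h2 := congrArg (fun t => g⁻¹ * t * g) h1
        simpa [mul_assoc] using h2
      have hrange : B ≤ f.range := by
        intro x hx
        have hxP : x ∈ (P : Subgroup G) := hBP hx
        rw [← hg] at hxP
        have h1 : g⁻¹ * x * g ∈ (S : Subgroup G) := by
          have h2 : x ∈ MulAut.conj g • (S : Subgroup G) := hxP
          rw [Subgroup.mem_pointwise_smul_iff_inv_smul_mem] at h2
          simpa [MulAut.smul_def] using h2
        refine ⟨⟨g⁻¹ * x * g, h1⟩, ?_⟩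
        show g * (g⁻¹ * x * g) * g⁻¹ = x
        group
      have hcard : Nat.card (B.comap f) = Nat.card B := by
        have h1 : (B.comap f).map f = B := by
          rw [Subgroup.map_comap_eq, inf_eq_right.mpr hrange]
        rw [← Subgroup.card_map_of_injective hf, h1]
      have h2 := hS2 (B.comap f) ⟨⟨fun a b => by
          apply Subtype.ext
          apply hf
          have h3 := hBc.is_comm.comm ⟨f a, a.2⟩ ⟨f b, b.2⟩
          have h4 : f a * f b = f b * f a := congrArg Subtype.val h3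
          rw [Subgroup.coe_mul, Subgroup.coe_mul, map_mul, map_mul, h4]⟩⟩ (by
          intro a ha
          apply hf
          rw [map_pow, map_one]
          exact hBe _ ha)
      rwa [hcard] at h2
    exact Cfsg.Agent.S1450.result hodd p hpG hrG
  have hpl1 := hpl hS2
  obtain ⟨K, hKn, hKcop, hNK⟩ := Cfsg.Agent.H31.exists_normal_pprime_of_plength_one p hpl1 S
  have hKO : K ≤ Cfsg.pPrimeCore p G := Cfsg.Agent.H14.le_pPrimeCore hKn hKcop
  have hNcop : (Nat.card (Cfsg.pPrimeCore p G)).Coprime p := Cfsg.Agent.H14.pPrimeCore_coprime p G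
  have hQbot : Cfsg.pPrimeCore p (G ⧸ Cfsg.pPrimeCore p G) = ⊥ :=
    Cfsg.Agent.H14.pPrimeCore_quotient_eq_bot p G
  have hHH : Subgroup.centralizer (Cfsg.pCore p (G ⧸ Cfsg.pPrimeCore p G) : Set (G ⧸ Cfsg.pPrimeCore p G))
      ≤ Cfsg.pCore p (G ⧸ Cfsg.pPrimeCore p G) :=
    Cfsg.Agent.H1.centralizer_pCore_le p hQbot
  have hPbp : IsPGroup p (Cfsg.pCore p (G ⧸ Cfsg.pPrimeCore p G)) :=
    Cfsg.Agent.H14.pCore_isPGroup p _
  have hPbn : (Cfsg.pCore p (G ⧸ Cfsg.pPrimeCore p G)).Normal := Cfsg.Agent.H14.pCore_normal p _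
  have hQodd : Odd (Nat.card (G ⧸ Cfsg.pPrimeCore p G)) :=
    Odd.of_dvd_nat hodd (Subgroup.card_quotient_dvd_card _)
  set π := QuotientGroup.mk' (Cfsg.pPrimeCore p G) with hπ
  have hπs : Function.Surjective π := QuotientGroup.mk'_surjective _
  set N := Subgroup.normalizer ((S : Subgroup G) : Set G) with hN
  -- every element of the quotient is the image of an element of N
  have hNsurj : ∀ xb : G ⧸ Cfsg.pPrimeCore p G, ∃ n ∈ N, π n = xb := by
    intro xb
    obtain ⟨g, rfl⟩ := hπs xb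
    have hg : g ∈ N ⊔ K := by rw [hNK]; exact Subgroup.mem_top g
    haveI := hKn
    obtain ⟨n, hn, k, hk, rfl⟩ := Subgroup.mem_sup_of_normal_right.mp hg
    refine ⟨n, hn, ?_⟩
    have hk1 : π k = 1 := (QuotientGroup.eq_one_iff k).mpr (hKO hk)
    rw [map_mul, hk1, mul_one]
  set Sb : Subgroup (G ⧸ Cfsg.pPrimeCore p G) := (S : Subgroup G).map π with hSb
  have hSbn : Sb.Normal := by
    refine ⟨fun y hy gb => ?_⟩
    obtain ⟨n, hn, rfl⟩ := hNsurj gb
    obtain ⟨s, hs, rfl⟩ := hy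
    refine ⟨n * s * n⁻¹, (Subgroup.mem_normalizer_iff.mp hn s).mp hs, ?_⟩
    rw [map_mul, map_mul, map_inv]
  have hSbp : IsPGroup p Sb := S.isPGroup'.map π
  have hSble : Sb ≤ Cfsg.pCore p (G ⧸ Cfsg.pPrimeCore p G) := Cfsg.Agent.H14.le_pCore hSbn hSbp
  have hSbidx : (Sb.index).Coprime p := by
    have h1 : Sb.index ∣ (S : Subgroup G).index := Subgroup.index_map_dvd _ hπs
    exact Nat.Coprime.coprime_dvd_left h1 ((Nat.Prime.coprime_iff_not_dvd hpp).mpr S.not_dvd_index).symm
  have hPbSb : Cfsg.pCore p (G ⧸ Cfsg.pPrimeCore p G) ≤ Sb := by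
    intro x hx
    haveI := hSbn
    obtain ⟨k, hk⟩ := hPbp ⟨x, hx⟩
    have hk' : x ^ (p ^ k) = 1 := congrArg Subtype.val hk
    have h1 : (QuotientGroup.mk' Sb x) ^ (p ^ k) = 1 := by rw [← map_pow, hk', map_one]
    have h2 : (QuotientGroup.mk' Sb x) ^ (Sb.index) = 1 := by
      rw [Subgroup.index_eq_card]; exact pow_card_eq_one'
    have h3 : orderOf (QuotientGroup.mk' Sb x) ∣ Nat.gcd (Sb.index) (p ^ k) :=
      Nat.dvd_gcd (orderOf_dvd_of_pow_eq_one h2) (orderOf_dvd_of_pow_eq_one h1)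
    rw [Nat.Coprime.pow_right k hSbidx, Nat.dvd_one, orderOf_eq_one_iff] at h3
    exact (QuotientGroup.eq_one_iff x).mp h3
  have hPbeq : Cfsg.pCore p (G ⧸ Cfsg.pPrimeCore p G) = Sb := le_antisymm hPbSb hSble
  obtain ⟨hcore1, hcore2⟩ := Cfsg.Agent.H3.narrow_core hp2 (S : Subgroup G) S.isPGroup' hS hS2
  -- an element of N centralizing S maps into the p-core of the quotient
  have hcent : ∀ a : G, (∀ x ∈ (S : Subgroup G), a * x * a⁻¹ = x) →
      π a ∈ Cfsg.pCore p (G ⧸ Cfsg.pPrimeCore p G) := by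
    intro a ha
    apply hHH
    rw [Subgroup.mem_centralizer_iff]
    intro y hy
    rw [hPbeq] at hy
    obtain ⟨s, hs, rfl⟩ := hy
    have h1 := ha s hs
    rw [mul_inv_eq_iff_eq_mul] at h1
    rw [← map_mul, ← map_mul, h1]
  -- p'-elements mapping into the p-core are trivial in the quotient
  have htriv : ∀ a : G, (orderOf a).Coprime p →
      π a ∈ Cfsg.pCore p (G ⧸ Cfsg.pPrimeCore p G) → π a = 1 := by
    intro a hcop ha
    obtain ⟨k, hk⟩ := hPbp ⟨π a, ha⟩
    have hk' : (π a) ^ (p ^ k) = 1 := congrArg Subtype.val hk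
    have h2 : (π a) ^ (orderOf a) = 1 := by rw [← map_pow, pow_orderOf_eq_one, map_one]
    have h3 : orderOf (π a) ∣ Nat.gcd (orderOf a) (p ^ k) :=
      Nat.dvd_gcd (orderOf_dvd_of_pow_eq_one h2) (orderOf_dvd_of_pow_eq_one hk')
    rw [Nat.Coprime.pow_right k hcop, Nat.dvd_one, orderOf_eq_one_iff] at h3
    exact h3
  have hcommQ : ∀ x ∈ commutator (G ⧸ Cfsg.pPrimeCore p G), ∃ k : ℕ, x ^ (p ^ k) = 1 := by
    intro x hx
    have hNtop : N.map π = ⊤ := by
      rw [eq_top_iff]
      intro xb _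
      obtain ⟨n, hn, rfl⟩ := hNsurj xb
      exact ⟨n, hn, rfl⟩
    have hmap : Subgroup.map π ⁅N, N⁆ = commutator (G ⧸ Cfsg.pPrimeCore p G) := by
      rw [Subgroup.map_commutator, hNtop, commutator_def]
    rw [← hmap] at hx
    obtain ⟨y, hy, rfl⟩ := hx
    have hn0 : orderOf y ≠ 0 := (orderOf_pos y).ne'
    obtain ⟨j, m, hnd, hnm⟩ := Nat.exists_eq_pow_mul_and_not_dvd hn0 p hpp.ne_one
    have hcop : m.Coprime p := ((Nat.Prime.coprime_iff_not_dvd hpp).mpr hnd).symm
    have hym : (y ^ (p ^ j)) ^ m = 1 := by rw [← pow_mul, ← hnm, pow_orderOf_eq_one]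
    have hord : (orderOf (y ^ (p ^ j))).Coprime p :=
      Nat.Coprime.coprime_dvd_left (orderOf_dvd_of_pow_eq_one hym) hcop
    have h1 := hcore1 (y ^ (p ^ j)) (Subgroup.pow_mem _ hy _) hord
    have h2 := htriv _ hord (hcent _ h1)
    exact ⟨j, by rw [← map_pow]; exact h2⟩
  have hq_lt : ∀ q : ℕ, q.Prime → q ≠ p → q ∣ Nat.card (G ⧸ Cfsg.pPrimeCore p G) → q < p := by
    intro q hq hqp hdvd
    haveI : Fact q.Prime := ⟨hq⟩
    obtain ⟨xb, hxb⟩ := exists_prime_orderOf_dvd_card' q hdvd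
    obtain ⟨n, hn, rfl⟩ := hNsurj xb
    have hn0 : orderOf n ≠ 0 := (orderOf_pos n).ne'
    obtain ⟨j, m, hnd, hnm⟩ := Nat.exists_eq_pow_mul_and_not_dvd hn0 p hpp.ne_one
    have hcop : m.Coprime p := ((Nat.Prime.coprime_iff_not_dvd hpp).mpr hnd).symm
    have hnm' : (n ^ (p ^ j)) ^ m = 1 := by rw [← pow_mul, ← hnm, pow_orderOf_eq_one]
    have hord : (orderOf (n ^ (p ^ j))).Coprime p :=
      Nat.Coprime.coprime_dvd_left (orderOf_dvd_of_pow_eq_one hnm') hcop
    have h1 := hcore2 (n ^ (p ^ j)) (Subgroup.pow_mem _ hn _) hord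
    have hord2 : (orderOf ((n ^ (p ^ j)) ^ (p - 1))).Coprime p :=
      Nat.Coprime.coprime_dvd_left (orderOf_pow_dvd (p - 1)) hord
    have h2 := htriv _ hord2 (hcent _ h1)
    rw [← pow_mul, map_pow] at h2
    have h3 : q ∣ p ^ j * (p - 1) := by
      rw [← hxb]; exact orderOf_dvd_of_pow_eq_one h2
    have h4 : q ∣ p - 1 := by
      rcases (Nat.Prime.dvd_mul hq).mp h3 with h5 | h5
      · exact absurd ((Nat.prime_dvd_prime_iff_eq hq hpp).mp (hq.dvd_of_dvd_pow h5)) hqp
      · exact h5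
    have h5 : q ≤ p - 1 := Nat.le_of_dvd (by have := hpp.two_le; omega) h4
    have := hpp.two_le
    omega
  have hcommQp : IsPGroup p (commutator (G ⧸ Cfsg.pPrimeCore p G)) := by
    intro x
    obtain ⟨k, hk⟩ := hcommQ x x.2
    exact ⟨k, Subtype.ext (by rw [Subgroup.coe_pow]; exact hk)⟩
  have hcommQle : commutator (G ⧸ Cfsg.pPrimeCore p G) ≤ Cfsg.pCore p (G ⧸ Cfsg.pPrimeCore p G) :=
    Cfsg.Agent.H14.le_pCore inferInstance hcommQp
  have hGQ : ∀ x ∈ commutator G,
      QuotientGroup.mk' (Cfsg.pPrimeCore p G) x ∈ commutator (G ⧸ Cfsg.pPrimeCore p G) := by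
    have h1 : commutator G ≤
        (commutator (G ⧸ Cfsg.pPrimeCore p G)).comap (QuotientGroup.mk' (Cfsg.pPrimeCore p G)) := by
      rw [commutator_def, Subgroup.commutator_le]
      intro a _ b _
      rw [Subgroup.mem_comap, map_commutatorElement, commutator_def]
      exact Subgroup.commutator_mem_commutator (Subgroup.mem_top _) (Subgroup.mem_top _)
    exact fun x hx => h1 hx
  -- elements of the commutator subgroup are p-elements modulo the p'-core
  have hcommpow : ∀ g ∈ commutator G, ∃ k : ℕ, g ^ (p ^ k) ∈ Cfsg.pPrimeCore p G := by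
    intro g hg
    obtain ⟨k, hk⟩ := hcommQ _ (hGQ g hg)
    refine ⟨k, ?_⟩
    rw [← map_pow] at hk
    exact (QuotientGroup.eq_one_iff _).mp hk
  have hKcard : (Nat.card ((Cfsg.pPrimeCore p G).subgroupOf (commutator G))).Coprime p := by
    have h1 : (Cfsg.pPrimeCore p G ⊓ commutator G).subgroupOf (commutator G)
        = (Cfsg.pPrimeCore p G).subgroupOf (commutator G) := Subgroup.inf_subgroupOf_right _ _
    have e := Subgroup.subgroupOfEquivOfLe
      (inf_le_right : Cfsg.pPrimeCore p G ⊓ commutator G ≤ commutator G)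
    have h2 : Nat.card ((Cfsg.pPrimeCore p G).subgroupOf (commutator G))
        = Nat.card ↥(Cfsg.pPrimeCore p G ⊓ commutator G) := by
      rw [← h1]; exact Nat.card_congr e.toEquiv
    rw [h2]
    exact Nat.Coprime.coprime_dvd_left (Subgroup.card_dvd_of_le inf_le_left) hNcop
  have hKq : ∀ g : ↥(commutator G), ∃ k : ℕ,
      g ^ (p ^ k) ∈ (Cfsg.pPrimeCore p G).subgroupOf (commutator G) := by
    intro g
    obtain ⟨k, hk⟩ := hcommpow g g.2
    exact ⟨k, by rw [Subgroup.mem_subgroupOf, Subgroup.coe_pow]; exact hk⟩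
  refine ⟨?_, ?_, ?_, ?_, ?_, ?_⟩
  · intro q hq hdvd
    by_cases hqp : q = p
    · exact hqp.le
    · exact (hq_lt q hq hqp hdvd).le
  · intro h
    have hcardQ : ∀ {d : ℕ}, d.Prime → d ∣ Nat.card (G ⧸ Cfsg.pPrimeCore p G) → d = p := by
      intro d hd hdvd
      by_contra hdp
      have hlt := hq_lt d hd hdp hdvd
      have hdG : d ∣ Nat.card G := hdvd.trans (Subgroup.card_quotient_dvd_card _)
      rcases h with h3 | hmin
      · have hd2 : d = 2 := by
          have := hd.two_le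
          omega
        rw [hd2] at hdG
        exact (Nat.not_even_iff_odd.mpr hodd) (even_iff_two_dvd.mpr hdG)
      · have := hmin d hd hdG
        omega
    have hQcard := Nat.eq_prime_pow_of_unique_prime_dvd Nat.card_pos.ne' hcardQ
    have hQp : IsPGroup p (G ⧸ Cfsg.pPrimeCore p G) := IsPGroup.of_card hQcard
    apply Cfsg.Agent.H40.hasNormalPComplement_of_normal_coprime (Cfsg.pPrimeCore p G) hNcop
    intro g
    obtain ⟨k, hk⟩ := hQp (QuotientGroup.mk' _ g)
    refine ⟨k, ?_⟩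
    rw [← map_pow] at hk
    exact (QuotientGroup.eq_one_iff _).mp hk
  · exact Cfsg.Agent.H40.hasNormalPComplement_of_normal_coprime
      ((Cfsg.pPrimeCore p G).subgroupOf (commutator G)) hKcard hKq
  · intro L hL
    have hKle : (Cfsg.pPrimeCore p G).subgroupOf (commutator G)
        ≤ Cfsg.pPrimeCore p ↥(commutator G) :=
      Cfsg.Agent.H14.le_pPrimeCore inferInstance hKcard
    intro x hx
    apply hKle
    obtain ⟨k, hk⟩ := hKq x
    have hcop : (orderOf x).Coprime (p ^ k) := by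
      apply Nat.Coprime.pow_right
      have h1 : orderOf x ∣ Nat.card L := by
        rw [← Subgroup.orderOf_mk x hx]; exact orderOf_dvd_natCard _
      exact Nat.Coprime.coprime_dvd_left h1 hL
    have h2 : Subgroup.zpowers (x ^ (p ^ k)) = Subgroup.zpowers x := by
      apply Subgroup.eq_of_le_of_card_ge
      · rw [Subgroup.zpowers_le]; exact Subgroup.pow_mem _ (Subgroup.mem_zpowers x) _
      · rw [Nat.card_zpowers, Nat.card_zpowers, Nat.Coprime.orderOf_pow hcop]
    have h3 : x ∈ Subgroup.zpowers (x ^ (p ^ k)) := h2 ▸ Subgroup.mem_zpowers x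
    exact (Subgroup.zpowers_le.mpr hk) h3
  · intro x hx
    show QuotientGroup.mk' (Cfsg.pPrimeCore p G) x ∈ Cfsg.pCore p (G ⧸ Cfsg.pPrimeCore p G)
    exact hcommQle (hGQ x hx)
  · obtain ⟨S, hS⟩ := IsPGroup.exists_le_sylow hPbp
    have hSn : (S : Subgroup (G ⧸ Cfsg.pPrimeCore p G)).Normal := by
      refine ⟨fun y hy g => ?_⟩
      have hyg : g * y * g⁻¹ = ⁅g, y⁆ * y := by
        rw [commutatorElement_def]; group
      rw [hyg]
      refine Subgroup.mul_mem _ (hS (hcommQle ?_)) hy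
      rw [commutator_def]
      exact Subgroup.commutator_mem_commutator (Subgroup.mem_top g) (Subgroup.mem_top y)
    have hSle : (S : Subgroup (G ⧸ Cfsg.pPrimeCore p G)) ≤ Cfsg.pCore p (G ⧸ Cfsg.pPrimeCore p G) :=
      Cfsg.Agent.H14.le_pCore hSn S.isPGroup'
    have hSeq : Cfsg.pCore p (G ⧸ Cfsg.pPrimeCore p G) = S := le_antisymm hS hSle
    have hidx : (Cfsg.pPrimePCore p G).index = (Cfsg.pCore p (G ⧸ Cfsg.pPrimeCore p G)).index :=
      Subgroup.index_comap_of_surjective _ (QuotientGroup.mk'_surjective _)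
    rw [hidx, hSeq]
    exact ((Nat.Prime.coprime_iff_not_dvd hpp).mpr S.not_dvd_index).symm

end Cfsg.Agent.S1455
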