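import Cfsg.Statements.S0028
import Cfsg.Agent.H1.PQLemma

set_option autoImplicit false
open Cfsg

namespace Cfsg.Agent.S0028

/-- Thompson's P × Q Lemma: let a p-subgroup P and a subgroup Q of order prime to p centralise each other and normalise a p-subgroup U; if every element of U fixed by P is fixed by Q, then Q centralises U. -/
theorem result {G : Type*} [Group G] [Finite G] (p : ℕ) [Fact p.Prime]
    (P Q U : Subgroup G) (hP : IsPGroup p P) (hQ : (Nat.card Q).Coprime p) (hU : IsPGroup p U)
    (hPQ : P ≤ Subgroup.centralizer (Q : Set G))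
    (hPU : P ≤ Subgroup.normalizer (U : Set G)) (hQU : Q ≤ Subgroup.normalizer (U : Set G))
    (hC : U ⊓ Subgroup.centralizer (P : Set G) ≤ Subgroup.centralizer (Q : Set G)) :
    Q ≤ Subgroup.centralizer (U : Set G) := by
  exact Cfsg.Agent.H1.pq_lemma p P Q U hP hQ hU hPQ hPU hQU hC

end Cfsg.Agent.S0028
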