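import Cfsg.Statements.S1003
import Cfsg.Agent.H21.SimpleTools
import Cfsg.Agent.H21.Counting
import Cfsg.Agent.H21.OddPerm

set_option autoImplicit false
open Cfsg

namespace Cfsg.Agent.S1003

open Cfsg.Agent.H21 Subgroup

/-- In a simple group of order 168, `n_7 = 8` and `|C(P_7)| = 7`. -/
theorem sylow7 {G : Type*} [Group G] [Finite G] [IsSimpleGroup G] (h : Nat.card G = 168)
    [Fact (Nat.Prime 7)] (P : Sylow 7 G) : Nat.card (Sylow 7 G) = 8 ∧ Nat.card (P : Subgroup G) = 7 ∧
      Nat.card (centralizer ((P : Subgroup G) : Set G)) = 7 := by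
  have hG : ¬ IsMulCommutative G := not_comm_of_not_prime (by rw [h]; norm_num)
  obtain ⟨hP, -, hidx, hdvd, hmod, hne1, -, hNn, -⟩ :=
    simple_sylow_facts hG (p := 7) (k := 1) (m := 24) (by rw [h]; norm_num) (by norm_num) (by norm_num) P
  have hP' : Nat.card (P : Subgroup G) = 7 := by simpa using hP
  have hn : Nat.card (Sylow 7 G) = 8 := by
    generalize Nat.card (Sylow 7 G) = n at *
    have hle : n ≤ 24 := Nat.le_of_dvd (by norm_num) hdvd
    interval_cases n <;> omega
  refine ⟨hn, hP', ?_⟩
  obtain ⟨d, hd, hd1, hd6, hdN⟩ := simple_sylow_prime_card_NC hG P hP'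
  have hCd := card_centralizer_mul_relIndex_normalizer (P : Subgroup G)
  rw [← hd] at hCd
  rw [hn, h] at hNn
  have hN : Nat.card (normalizer ((P : Subgroup G) : Set G)) = 21 := by omega
  rw [hN] at hdN hCd
  have hd3 : d = 3 := by
    have h1 : d ∣ 3 := by
      have : 7 * d ∣ 7 * 3 := hdN
      exact (Nat.mul_dvd_mul_iff_left (by norm_num)).1 this
    have hle : d ≤ 3 := Nat.le_of_dvd (by norm_num) h1
    interval_cases d <;> omega
  rw [hd3] at hCd
  omega

/-- In a simple group of order 168, `n_3 = 28` and `|C(P_3)| = 3`. -/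
theorem sylow3 {G : Type*} [Group G] [Finite G] [IsSimpleGroup G] (h : Nat.card G = 168)
    (P : Sylow 3 G) : Nat.card (Sylow 3 G) = 28 ∧ Nat.card (P : Subgroup G) = 3 ∧
      Nat.card (centralizer ((P : Subgroup G) : Set G)) = 3 := by
  have hG : ¬ IsMulCommutative G := not_comm_of_not_prime (by rw [h]; norm_num)
  have : Fact (Nat.Prime 2) := ⟨by norm_num⟩
  obtain ⟨hP, -, hidx, hdvd, hmod, hne1, hfact, hNn, -⟩ :=
    simple_sylow_facts hG (p := 3) (k := 1) (m := 56) (by rw [h]; norm_num) (by norm_num) (by norm_num) P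
  have hP' : Nat.card (P : Subgroup G) = 3 := by simpa using hP
  obtain ⟨d, hd, hd1, hd2, hdN⟩ := simple_sylow_prime_card_NC hG P hP'
  have hCd := card_centralizer_mul_relIndex_normalizer (P : Subgroup G)
  rw [← hd] at hCd
  have hd2' : d = 2 := by
    have hle : d ≤ 2 := Nat.le_of_dvd (by norm_num) hd2
    interval_cases d <;> omega
  rw [hd2'] at hCd
  rw [h] at hfact hNn
  have hn : Nat.card (Sylow 3 G) = 7 ∨ Nat.card (Sylow 3 G) = 28 := by
    generalize Nat.card (Sylow 3 G) = n at *
    have hle : n ≤ 56 := Nat.le_of_dvd (by norm_num) hdvd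
    interval_cases n <;> first | omega | (exfalso; revert hfact; decide)
  rcases hn with hn | hn
  · exfalso
    rw [hn] at hNn hidx
    have hN : Nat.card (normalizer ((P : Subgroup G) : Set G)) = 24 := by omega
    rw [hN] at hCd
    have hC : Nat.card (centralizer ((P : Subgroup G) : Set G)) = 12 := by omega
    obtain ⟨t, htC, ht⟩ := exists_mem_orderOf_eq_prime (centralizer ((P : Subgroup G) : Set G)) 2
      (by rw [hC]; norm_num)
    have h1 := card_fixedBy_modEq_one_of_mem_centralizer 3 P hP' t htC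
    have h3 := simple_involution_four_dvd hG (X := G ⧸ normalizer ((P : Subgroup G) : Set G)) t
      (by rw [← ht, pow_orderOf_eq_one])
    have hNtop : normalizer ((P : Subgroup G) : Set G) ≠ ⊤ := by
      intro htop
      rw [htop, index_top] at hidx
      omega
    have ht1 : t ≠ 1 := by
      rintro rfl
      rw [orderOf_one] at ht
      omega
    have h4 := card_fixedBy_lt_index _ hNtop t ht1
    have h5 : Nat.card (G ⧸ normalizer ((P : Subgroup G) : Set G)) = 7 := hidx
    rw [h5] at h3
    rw [hidx] at h4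
    unfold Nat.ModEq at h1
    generalize Nat.card (MulAction.fixedBy (G ⧸ normalizer ((P : Subgroup G) : Set G)) t) = f at *
    interval_cases f <;> omega
  · refine ⟨hn, hP', ?_⟩
    rw [hn] at hNn
    omega

/-- In a simple group of order 168 the number of Sylow 2-subgroups is 21, the number of Sylow 3-subgroups is 28, and the number of Sylow 7-subgroups is 8. -/
theorem result {G : Type*} [Group G] [Finite G] [IsSimpleGroup G] (h : Nat.card G = 168) : Nat.card (Sylow 2 G) = 21 ∧ Nat.card (Sylow 3 G) = 28 ∧ Nat.card (Sylow 7 G) = 8 := by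
  have hG : ¬ IsMulCommutative G := not_comm_of_not_prime (by rw [h]; norm_num)
  have : Fact (Nat.Prime 2) := ⟨by norm_num⟩
  have : Fact (Nat.Prime 3) := ⟨by norm_num⟩
  have : Fact (Nat.Prime 7) := ⟨by norm_num⟩
  obtain ⟨P7⟩ : Nonempty (Sylow 7 G) := inferInstance
  obtain ⟨P3⟩ : Nonempty (Sylow 3 G) := inferInstance
  obtain ⟨P2⟩ : Nonempty (Sylow 2 G) := inferInstance
  obtain ⟨h7, hP7, hC7⟩ := sylow7 h P7
  obtain ⟨h3, hP3, hC3⟩ := sylow3 h P3
  refine ⟨?_, h3, h7⟩
  obtain ⟨hP, -, hidx, hdvd, hmod, hne1, hfact, hNn, -⟩ :=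
    simple_sylow_facts hG (p := 2) (k := 3) (m := 21) (by rw [h]; norm_num) (by norm_num) (by norm_num) P2
  rw [h] at hfact
  have hn : Nat.card (Sylow 2 G) = 7 ∨ Nat.card (Sylow 2 G) = 21 := by
    generalize Nat.card (Sylow 2 G) = n at *
    have hle : n ≤ 21 := Nat.le_of_dvd (by norm_num) hdvd
    interval_cases n <;> first | omega | (exfalso; revert hfact; decide)
  rcases hn with hn | hn
  · exfalso
    have hall : ∀ g : G, orderOf g = 7 ∨ orderOf g = 3 ∨ ∃ k : ℕ, orderOf g = 2 ^ k := by
      intro g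
      have hdvd : orderOf g ∣ 168 := h ▸ orderOf_dvd_natCard g
      by_cases h7' : 7 ∣ orderOf g
      · left
        have := orderOf_dvd_card_centralizer_of_dvd 7 P7 hP7 g h7'
        rw [hC7] at this
        exact Nat.dvd_antisymm this h7'
      by_cases h3' : 3 ∣ orderOf g
      · right; left
        have := orderOf_dvd_card_centralizer_of_dvd 3 P3 hP3 g h3'
        rw [hC3] at this
        exact Nat.dvd_antisymm this h3'
      right; right
      have h8 : orderOf g ∣ 2 ^ 3 := by
        have hc : Nat.Coprime (orderOf g) 21 := by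
          have h21 : (21 : ℕ) = 3 * 7 := by norm_num
          rw [h21]
          apply Nat.Coprime.mul_right
          · exact (Nat.Prime.coprime_iff_not_dvd (by norm_num)).2 h3' |>.symm
          · exact (Nat.Prime.coprime_iff_not_dvd (by norm_num)).2 h7' |>.symm
        have h168 : (168 : ℕ) = 2 ^ 3 * 21 := by norm_num
        rw [h168] at hdvd
        exact hc.dvd_of_dvd_mul_right hdvd
      obtain ⟨k, -, hk⟩ := (Nat.dvd_prime_pow Nat.prime_two).1 h8
      exact ⟨k, hk⟩
    have hb := card_le_card_add_three (α := G) _ _ _ hall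
    have c7 := card_orderOf_eq_prime 7 P7 hP7
    have c3 := card_orderOf_eq_prime 3 P3 hP3
    have c2 := card_prime_pow_order_le 2 P2
    rw [h7] at c7
    rw [h3] at c3
    rw [hn, hP] at c2
    rw [h, c7, c3] at hb
    omega
  · exact hn

end Cfsg.Agent.S1003
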