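import Cfsg.Statements.S2941

set_option autoImplicit false
open Cfsg
open scoped Pointwise commutatorElement

namespace Cfsg.Agent.S2941

/-- Let G be a finite group of characteristic 2 type in which every 2-local subgroup is solvable and the centralizer of Ω₁(Z(S)) lies in N_G(S) for every Sylow 2-subgroup S, and let T be a nontrivial 2-subgroup and K a J(T)-component (J the Thompson subgroup generated by the elementary abelian 2-subgroups of largest order). If a subgroup Q is normalized by ⟨K, J(T)⟩ and normalizes J(T), then Q normalizes K. -/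
theorem result {G : Type*} [Group G] [Finite G] (hL : Cfsg.IsCharacteristicTwoType G) (hN : ∀ N : Subgroup G, Cfsg.IsTwoLocal N → Group.IsSolvable ↥N)
    (hZ : ∀ S : Sylow 2 G, Subgroup.centralizer (Cfsg.omegaCenterOf (S : Subgroup G) : Set G) ≤ Subgroup.normalizer ((S : Subgroup G) : Set G)) (T : Subgroup G) (hT : IsPGroup 2 ↥T) (hT1 : T ≠ ⊥) (K : Subgroup G) (hK : Cfsg.IsJComponent T K)
    (Q : Subgroup G) (hQ1 : K ⊔ Cfsg.thompsonSubgroupOf 2 T ≤ Subgroup.normalizer (Q : Set G)) (hQ2 : Q ≤ Subgroup.normalizer (Cfsg.thompsonSubgroupOf 2 T : Set G)) :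
    Q ≤ Subgroup.normalizer (K : Set G) := by
  classical
  obtain ⟨hK1, hK2, -⟩ := hK
  generalize hJ : Cfsg.thompsonSubgroupOf 2 T = J at *
  have hJT : J ≤ T := by
    rw [← hJ]; unfold Cfsg.thompsonSubgroupOf; exact Subgroup.map_subtype_le _
  have hJK : J ≤ Subgroup.normalizer (K : Set G) := by
    have := Subgroup.normalizer_commutator_ge_right K J
    rwa [hK2] at this
  have hKQ : K ≤ Subgroup.normalizer (Q : Set G) := le_trans le_sup_left hQ1
  have hJQ : J ≤ Subgroup.normalizer (Q : Set G) := le_trans le_sup_right hQ1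
  have hcoe : ((K ⊔ J : Subgroup G) : Set G) = (K : Set G) * (J : Set G) :=
    Subgroup.coe_mul_of_right_le_normalizer_left K J hJK
  -- Step B: Q normalizes K ⊔ J
  have hB : ∀ q ∈ Q, ∀ m ∈ K ⊔ J, q * m * q⁻¹ ∈ K ⊔ J := by
    intro q hq m hm
    have hqJ : ∀ j ∈ J, q * j * q⁻¹ ∈ J := fun j hj => ((hQ2 hq) j).mp hj
    have hqK : ∀ k ∈ K, q * k * q⁻¹ ∈ K ⊔ J := by
      intro k hk
      rw [← hK2, Subgroup.commutator_def] at hk
      refine Subgroup.closure_induction (p := fun x _ => q * x * q⁻¹ ∈ K ⊔ J) ?_ ?_ ?_ ?_ hk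
      · rintro _ ⟨k', hk', j, hj, rfl⟩
        have hq' : k'⁻¹ * q * k' * q⁻¹ ∈ Q := by
          have h1 : k'⁻¹ * q * k'⁻¹⁻¹ ∈ Q := ((hKQ (K.inv_mem hk')) q).mp hq
          rw [inv_inv] at h1
          exact Q.mul_mem h1 (Q.inv_mem hq)
        have hj'' : (k'⁻¹ * q * k' * q⁻¹) * (q * j * q⁻¹) * (k'⁻¹ * q * k' * q⁻¹)⁻¹ ∈ J :=
          ((hQ2 hq') _).mp (hqJ j hj)
        have e : q * ⁅k', j⁆ * q⁻¹ = k' * ((k'⁻¹ * q * k' * q⁻¹) * (q * j * q⁻¹) *
            (k'⁻¹ * q * k' * q⁻¹)⁻¹) * k'⁻¹ * (q * j⁻¹ * q⁻¹) := by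
          simp [commutatorElement_def, mul_assoc]
        rw [e]
        refine Subgroup.mul_mem _ (Subgroup.mul_mem _ (Subgroup.mul_mem _ ?_ ?_) ?_) ?_
        · exact Subgroup.mem_sup_left hk'
        · exact Subgroup.mem_sup_right hj''
        · exact Subgroup.mem_sup_left (K.inv_mem hk')
        · exact Subgroup.mem_sup_right (hqJ _ (J.inv_mem hj))
      · simp
      · intro x y _ _ hx hy
        have e : q * (x * y) * q⁻¹ = (q * x * q⁻¹) * (q * y * q⁻¹) := by simp [mul_assoc]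
        rw [e]; exact Subgroup.mul_mem _ hx hy
      · intro x _ hx
        have e : q * x⁻¹ * q⁻¹ = (q * x * q⁻¹)⁻¹ := by simp [mul_assoc]
        rw [e]; exact Subgroup.inv_mem _ hx
    have hm' : m ∈ (K : Set G) * (J : Set G) := by rw [← hcoe]; exact hm
    obtain ⟨k, hk, j, hj, rfl⟩ := Set.mem_mul.mp hm'
    have e : q * (k * j) * q⁻¹ = (q * k * q⁻¹) * (q * j * q⁻¹) := by simp [mul_assoc]
    rw [e]
    exact Subgroup.mul_mem _ (hqK k hk) (Subgroup.mem_sup_right (hqJ j hj))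
  -- Step C: odd order elements of K ⊔ J lie in K
  have hC : ∀ g ∈ K ⊔ J, Odd (orderOf g) → g ∈ K := by
    intro g hg hodd
    have hg' : g ∈ (K : Set G) * (J : Set G) := by rw [← hcoe]; exact hg
    obtain ⟨k, hk, j, hj, rfl⟩ := Set.mem_mul.mp hg'
    obtain ⟨a, ha⟩ := hT ⟨j, hJT hj⟩
    have ha' : j ^ (2 ^ a) = 1 := by
      have := congrArg Subtype.val ha
      simpa using this
    have hpow : ∀ m : ℕ, ∃ k' ∈ K, (k * j) ^ m = k' * j ^ m := by
      intro m
      induction m with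
      | zero => exact ⟨1, K.one_mem, by simp⟩
      | succ m ih =>
        obtain ⟨k', hk', e⟩ := ih
        refine ⟨k' * (j ^ m * k * (j ^ m)⁻¹), K.mul_mem hk' ?_, ?_⟩
        · exact ((hJK (J.pow_mem hj m)) k).mp hk
        · rw [pow_succ, e, pow_succ]; simp [mul_assoc]
    obtain ⟨k', hk', e⟩ := hpow (2 ^ a)
    have h1 : (k * j) ^ (2 ^ a) ∈ K := by rw [e, ha', mul_one]; exact hk'
    have hcop : Nat.Coprime (2 ^ a) (orderOf (k * j)) :=
      Nat.Coprime.pow_left a (Nat.coprime_two_left.mpr hodd)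
    obtain ⟨m, hm⟩ := exists_pow_eq_self_of_coprime hcop
    rw [← hm]
    exact K.pow_mem h1 m
  -- Step D
  rw [Subgroup.le_normalizer_iff]
  intro q hq h hh
  have hh' := hh
  rw [← hK1] at hh'
  refine Subgroup.closure_induction (p := fun x _ => q * x * q⁻¹ ∈ K) ?_ ?_ ?_ ?_ hh'
  · rintro x ⟨hxK, hxodd⟩
    apply hC
    · exact hB q hq x (Subgroup.mem_sup_left hxK)
    · have : orderOf (q * x * q⁻¹) = orderOf x := by
        have := (MulAut.conj q).orderOf_eq x
        simpa [MulAut.conj_apply] using this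
      rw [this]; exact hxodd
  · simp
  · intro x y _ _ hx hy
    have e : q * (x * y) * q⁻¹ = (q * x * q⁻¹) * (q * y * q⁻¹) := by simp [mul_assoc]
    rw [e]; exact Subgroup.mul_mem _ hx hy
  · intro x _ hx
    have e : q * x⁻¹ * q⁻¹ = (q * x * q⁻¹)⁻¹ := by simp [mul_assoc]
    rw [e]; exact Subgroup.inv_mem _ hx

end Cfsg.Agent.S2941
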