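import Cfsg.Statements.S2944
import Cfsg.Agent.H52.SpAsm
import Cfsg.Agent.H14.SnGL
import Cfsg.Agent.H89.SnGLA
import Cfsg.Agent.H5.SnRed
import Cfsg.Agent.H91.SnFinA
import Cfsg.Agent.H63.SnIfSyl
import Cfsg.Agent.H63.SnIfV
import Cfsg.Agent.H63.SnIfZ
import Cfsg.Agent.H71.SnIfS
import Cfsg.Agent.H71.SnIfK
import Cfsg.Agent.H80.SnIfN
import Cfsg.Agent.H25.SoNC
import Cfsg.Agent.H54.SoUniq
import Cfsg.Agent.H36.SoWid
import Cfsg.Agent.H68.SpOddQ
import Cfsg.Agent.H71.SpCM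
import Cfsg.Agent.H80.SpNormA
import Cfsg.Agent.H16.SpNormB
import Cfsg.Agent.H59.SpSetup
import Cfsg.Agent.H35.SpPart2
import Cfsg.Agent.H25.SpLE

set_option autoImplicit false
open Cfsg

namespace Cfsg.Agent.S2944

/-- Let G be a finite group of characteristic 2 type in which every 2-local subgroup is solvable and the centralizer of Ω₁(Z(S)) lies in N_G(S) for every Sylow 2-subgroup S, and let T be a nontrivial 2-subgroup (below, J is the Thompson subgroup generated by the elementary abelian 2-subgroups of largest order) and K a J(T)-component such that J(T) is the Thompson subgroup of every Sylow 2-subgroup of N_G(W_K) containing J(T), where W_K = [Ω₁(Z(O₂(K))), K]. Then N_G(K) = N_G(W_K), and K is a J(Tᵍ)-component for every conjugate Tᵍ of T with J(Tᵍ) ≤ N_G(W_K). -/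
theorem result {G : Type*} [Group G] [Finite G] (hL : Cfsg.IsCharacteristicTwoType G) (hN : ∀ N : Subgroup G, Cfsg.IsTwoLocal N → Group.IsSolvable ↥N)
    (hZ : ∀ S : Sylow 2 G, Subgroup.centralizer (Cfsg.omegaCenterOf (S : Subgroup G) : Set G) ≤ Subgroup.normalizer ((S : Subgroup G) : Set G)) (T : Subgroup G) (hT : IsPGroup 2 ↥T) (hT1 : T ≠ ⊥) (K : Subgroup G) (hK : K ∈ Cfsg.jComponentsZero T) :
    Subgroup.normalizer (K : Set G) = Subgroup.normalizer (Cfsg.wOf K : Set G) ∧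
      ∀ g : G, Cfsg.thompsonSubgroupOf 2 (T.map (MulAut.conj g).toMonoidHom) ≤ Subgroup.normalizer (Cfsg.wOf K : Set G) →
        Cfsg.IsJComponent (T.map (MulAut.conj g).toMonoidHom) K := by
  exact Cfsg.Agent.H52.Sn.main3 (Cfsg.Agent.H14.Sn.gl Cfsg.Agent.H89.Sn.gla) Cfsg.Agent.H5.Sn.red
    Cfsg.Agent.H91.Sn.finA Cfsg.Agent.H63.Sn.ifSyl Cfsg.Agent.H63.Sn.ifV
    Cfsg.Agent.H63.Sn.ifZ Cfsg.Agent.H71.Sn.ifS Cfsg.Agent.H71.Sn.ifK Cfsg.Agent.H80.Sn.ifN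
    Cfsg.Agent.H25.So.nc Cfsg.Agent.H36.So.wid
    Cfsg.Agent.H68.Sp.glp Cfsg.Agent.H71.Sn.cm
    (Cfsg.Agent.H80.Sn.normA Cfsg.Agent.H54.Sn.uniq) Cfsg.Agent.H16.Sn.normB
    Cfsg.Agent.H59.Sp.setup Cfsg.Agent.H35.Sp.part2 Cfsg.Agent.H25.Sp.le
    hL hN hZ T hT hT1 K hK

end Cfsg.Agent.S2944
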