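import Cfsg.Statements.S2949
import Cfsg.Agent.S2948
import Cfsg.Agent.H51.SyFinal

set_option autoImplicit false
open Cfsg

namespace Cfsg.Agent.S2949

/-- Let G be a finite group of characteristic 2 type in which every 2-local subgroup is solvable and the centralizer of Ω₁(Z(S)) lies in N_G(S) for every Sylow 2-subgroup S; suppose O₂(G) = 1, fix a Sylow 2-subgroup S and a 2-local subgroup M containing N_G(J(S)) (J the Thompson subgroup generated by the elementary abelian 2-subgroups of largest order). For every T maximal (for the order of a largest elementary abelian subgroup, then the order of J(T), then the order of T) among the nontrivial 2-subgroups of M lying in a 2-local subgroup not inside M, there is a J(T)-component K not contained in M with J(T) the Thompson subgroup of every Sylow 2-subgroup of N_G(W_K) containing J(T), and O₂(⟨K, T⟩) ≠ 1. -/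
theorem result {G : Type*} [Group G] [Finite G] (hL : Cfsg.IsCharacteristicTwoType G) (hN : ∀ N : Subgroup G, Cfsg.IsTwoLocal N → Group.IsSolvable ↥N)
    (hZ : ∀ S : Sylow 2 G, Subgroup.centralizer (Cfsg.omegaCenterOf (S : Subgroup G) : Set G) ≤ Subgroup.normalizer ((S : Subgroup G) : Set G)) (hO : Cfsg.pCore 2 G = ⊥) (S : Sylow 2 G) (M : Subgroup G) (hM : Cfsg.IsTwoLocal M)
    (hMJ : Subgroup.normalizer (Cfsg.thompsonSubgroupOf 2 (S : Subgroup G) : Set G) ≤ M) (T : Subgroup G) (hT : T ∈ Cfsg.maxStraddlingTwoSubgroups M) :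
    (Cfsg.jComponentsOutside M T).Nonempty := by
  exact Cfsg.Agent.H51.Sy.main9_of_48
    (fun hL hN hZ hO S M hM hMJ T hT L hL2 hLM T₀ hT₀ hJT₀ =>
      Cfsg.Agent.S2948.result hL hN hZ hO S M hM hMJ T hT L hL2 hLM T₀ hT₀ hJT₀)
    hL hN hZ hO S M hM hMJ T hT

end Cfsg.Agent.S2949
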