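import Cfsg.Statements.S1068
import Cfsg.Agent.S1077
import Cfsg.Agent.H22.TF4Oc

set_option autoImplicit false
open Cfsg

namespace Cfsg.Agent.S1068

/-- `|²F₄(q)| = q¹² (q - 1)(q³ + 1)(q⁴ - 1)(q⁶ + 1)` for `q = 2^(2m+1)` (θ = 2^m-th power map), every `m ≥ 0`. -/
theorem result {K : Type*} [Field K] [Fintype K] {m : ℕ} (hK : Fintype.card K = 2 ^ (2 * m + 1)) :
    Nat.card ↥(Cfsg.Lie.twistedF4 K (2 ^ m)) =
      (2 ^ (2 * m + 1)) ^ 12 * (2 ^ (2 * m + 1) - 1) * ((2 ^ (2 * m + 1)) ^ 3 + 1) * ((2 ^ (2 * m + 1)) ^ 4 - 1) * ((2 ^ (2 * m + 1)) ^ 6 + 1) := by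
  have hc2 : CharP K 2 := Cfsg.Agent.H22.TF4.charP_two_of_card (n := 2 * m) hK
  obtain ⟨θ, hs, hk, hx⟩ := Cfsg.Agent.S1077.result Cfsg.Lie.chevF4 (by simp) (K := K)
  obtain ⟨C⟩ := Cfsg.Agent.H22.TF4.exists_ctx4 hK θ hs hk hx
  have h1 := C.order_G1
  rw [Cfsg.Agent.H22.TF4.card_H1 hK θ hs hk hx, Nat.card_eq_fintype_card (α := K), hK] at h1
  rw [h1]
  exact Cfsg.Agent.H22.TF4.order_arith _ Nat.one_le_two_pow

end Cfsg.Agent.S1068
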