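import Cfsg.Statements.S0531
import Mathlib
import Cfsg.Agent.H12.Supersolvable2

set_option autoImplicit false
open Cfsg

namespace Cfsg.Agent.S0531

/-- A finite supersolvable group has a subgroup of each order dividing its order. -/
theorem result {G : Type*} [Group G] [Finite G] (hG : Cfsg.IsSupersolvable G) : Cfsg.HasSubgroupOfEveryOrder G := by
  induction hn : Nat.card G using Nat.strong_induction_on generalizing G with
  | _ n ih =>
    intro d hd
    by_cases hG1 : Subsingleton G
    · refine ⟨⊥, ?_⟩
      rw [Subgroup.card_bot]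
      rw [Nat.card_unique] at hd
      exact (Nat.dvd_one.mp hd).symm
    · have hnt : Nontrivial G := not_subsingleton_iff_nontrivial.mp hG1
      obtain ⟨N, hNn, hNp⟩ := H12.exists_normal_prime_card hG
      have hN0 : N ≠ ⊥ := by
        rintro rfl
        rw [Subgroup.card_bot] at hNp
        exact Nat.not_prime_one hNp
      have hcard : Nat.card G = Nat.card (G ⧸ N) * Nat.card N :=
        Subgroup.card_eq_card_quotient_mul_card_subgroup N
      have hlt : Nat.card (G ⧸ N) < n := by
        rw [← hn]; exact H12.card_quotient_lt_of_ne_bot N hN0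
      have hQ := ih _ hlt (H12.isSupersolvable_quotient N hG) rfl
      by_cases hpd : Nat.card N ∣ d
      · obtain ⟨e, rfl⟩ := hpd
        have he : e ∣ Nat.card (G ⧸ N) := by
          rw [hcard, mul_comm (Nat.card (G ⧸ N))] at hd; exact Nat.dvd_of_mul_dvd_mul_left hNp.pos hd
        obtain ⟨Hbar, hHbar⟩ := hQ e he
        exact ⟨Hbar.comap (QuotientGroup.mk' N), by rw [H12.card_comap_mk', hHbar]⟩
      · have hcop : Nat.Coprime d (Nat.card N) :=
          (Nat.Coprime.symm ((Nat.Prime.coprime_iff_not_dvd hNp).mpr hpd))
        have hd' : d ∣ Nat.card (G ⧸ N) := by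
          rw [hcard] at hd; exact hcop.dvd_of_dvd_mul_right hd
        obtain ⟨Hbar, hHbar⟩ := hQ d hd'
        have hNK : N ≤ Hbar.comap (QuotientGroup.mk' N) := H12.le_comap_mk' N Hbar
        have hcN : Nat.card (N.subgroupOf (Hbar.comap (QuotientGroup.mk' N))) = Nat.card N :=
          Nat.card_congr (Subgroup.subgroupOfEquivOfLe hNK).toEquiv
        have hidx : (N.subgroupOf (Hbar.comap (QuotientGroup.mk' N))).index = d := by
          have h1 := H12.card_mul_relIndex hNK
          rw [H12.card_comap_mk', hHbar] at h1
          exact Nat.eq_of_mul_eq_mul_left hNp.pos h1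
        obtain ⟨H', hH'⟩ := Subgroup.exists_right_complement'_of_coprime
          (N := N.subgroupOf (Hbar.comap (QuotientGroup.mk' N)))
          (by rw [hcN, hidx]; exact hcop.symm)
        refine ⟨H'.map (Subgroup.subtype _), ?_⟩
        rw [Subgroup.card_map_of_injective (Subgroup.subtype_injective _), ← hidx]
        exact hH'.symm.index_eq_card.symm

end Cfsg.Agent.S0531
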