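import Cfsg.Statements.S0562
import Mathlib
import Cfsg.Agent.H12.Basic

set_option autoImplicit false
open Cfsg

namespace Cfsg.Agent.S0562

open scoped Pointwise

/-- Let the finite group G be the product HK of subgroups, A normal in H, B normal in K, and L the normalizer of the subgroup generated by A and B. Then every element of L is a product of an element of L ∩ H and an element of L ∩ K. -/
theorem result {G : Type*} [Group G] [Finite G] (H K A B : Subgroup G) (hHK : ∀ g : G, ∃ h ∈ H, ∃ k ∈ K, g = h * k) (hA : A ≤ H) (hAn : (A.subgroupOf H).Normal) (hB : B ≤ K) (hBn : (B.subgroupOf K).Normal) : ∀ g ∈ Subgroup.normalizer ((A ⊔ B : Subgroup G) : Set G), ∃ h ∈ Subgroup.normalizer ((A ⊔ B : Subgroup G) : Set G) ⊓ H, ∃ k ∈ Subgroup.normalizer ((A ⊔ B : Subgroup G) : Set G) ⊓ K, g = h * k := by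
  intro g hg
  obtain ⟨h, hh, k, hk, rfl⟩ := hHK g
  have e1 : MulAut.conj h⁻¹ • A = A := H12.conj_smul_eq_of_normal_subgroupOf hA hAn (H.inv_mem hh)
  have e2 : MulAut.conj k • B = B := H12.conj_smul_eq_of_normal_subgroupOf hB hBn hk
  have e3 : MulAut.conj (h * k) • (A ⊔ B) = A ⊔ B := H12.conj_smul_eq_of_mem_normalizer hg
  have e4 : MulAut.conj k • (A ⊔ B) = MulAut.conj h⁻¹ • (A ⊔ B) := by
    conv_rhs => rw [← e3, H12.conj_smul_conj_smul]
    congr 2; group
  have e5 : A ⊔ B ≤ MulAut.conj h⁻¹ • (A ⊔ B) := by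
    apply sup_le
    · calc A = MulAut.conj h⁻¹ • A := e1.symm
        _ ≤ MulAut.conj h⁻¹ • (A ⊔ B) := Subgroup.pointwise_smul_le_pointwise_smul_iff.mpr le_sup_left
    · calc B = MulAut.conj k • B := e2.symm
        _ ≤ MulAut.conj k • (A ⊔ B) := Subgroup.pointwise_smul_le_pointwise_smul_iff.mpr le_sup_right
        _ = MulAut.conj h⁻¹ • (A ⊔ B) := e4
  have e6 : h⁻¹ ∈ Subgroup.normalizer ((A ⊔ B : Subgroup G) : Set G) :=
    H12.conj_smul_eq_iff_mem_normalizer.mp (H12.conj_smul_eq_of_le e5)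
  have e7 : h ∈ Subgroup.normalizer ((A ⊔ B : Subgroup G) : Set G) := by
    simpa using inv_mem e6
  have e8 : k ∈ Subgroup.normalizer ((A ⊔ B : Subgroup G) : Set G) := by
    have := mul_mem e6 hg
    simpa using this
  exact ⟨h, ⟨e7, hh⟩, k, ⟨e8, hk⟩, rfl⟩

end Cfsg.Agent.S0562
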