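import Cfsg.Statements.S0566
import Mathlib
import Cfsg.Agent.H12.Permute

set_option autoImplicit false
open Pointwise
open Cfsg

namespace Cfsg.Agent.S0566

/-- Let A and B be nontrivial subgroups of a finite group G such that for every x the product set of A and xBx⁻¹ is a proper subgroup of G. Then there is a proper normal subgroup of G containing A or containing B. -/
theorem result {G : Type*} [Group G] [Finite G] (A B : Subgroup G) (hA : A ≠ ⊥) (hB : B ≠ ⊥) (h : ∀ x : G, ∃ S : Subgroup G, S ≠ ⊤ ∧ (S : Set G) = (A : Set G) * ((MulAut.conj x • B : Subgroup G) : Set G)) : ∃ N : Subgroup G, N.Normal ∧ N ≠ ⊤ ∧ (A ≤ N ∨ B ≤ N) := by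
  classical
  let KP : Subgroup G → Prop := fun A' =>
    ∀ x : G, H12.PermL A' (MulAut.conj x • B) ∧ A' ⊔ MulAut.conj x • B ≠ ⊤
  have hKP : KP A := by
    intro x
    obtain ⟨S, hS, hSe⟩ := h x
    refine ⟨H12.permL_of_coe_eq_mul hSe, ?_⟩
    rw [← H12.eq_sup_of_coe_eq_mul hSe]; exact hS
  obtain ⟨A', hAA', hmax⟩ :=
    Set.Finite.exists_le_maximal (Set.toFinite {A' : Subgroup G | KP A'}) hKP
  have hKP' : KP A' := hmax.prop
  have step1 : ∀ x : G, MulAut.conj x • B ≤ Subgroup.normalizer (A' : Set G) := by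
    intro x b hb
    set A'' : Subgroup G :=
      ⨆ c : (MulAut.conj x • B : Subgroup G), MulAut.conj (c : G) • A' with hA''
    have hle : A' ≤ A'' := by
      have := le_iSup (fun c : (MulAut.conj x • B : Subgroup G) => MulAut.conj (c : G) • A') 1
      simpa using this
    have hKP'' : KP A'' := by
      intro y
      have hperm : H12.PermL A'' (MulAut.conj y • B) := by
        apply H12.permL_iSup
        intro c
        have := ((hKP' ((c : G)⁻¹ * y)).1).conj (c : G)
        rwa [H12.conj_smul_conj_smul, mul_inv_cancel_left] at this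
      refine ⟨hperm, ?_⟩
      intro htop
      set M : Subgroup G := A' ⊔ MulAut.conj x • B with hM
      have hA''M : A'' ≤ M := by
        apply iSup_le
        intro c
        have hc : (c : G) ∈ M := (le_sup_right : _ ≤ M) c.2
        calc MulAut.conj (c : G) • A' ≤ MulAut.conj (c : G) • M :=
              Subgroup.pointwise_smul_le_pointwise_smul_iff.mpr le_sup_left
          _ = M := Subgroup.conj_smul_eq_self_of_mem hc
      have hzmem : (y * x⁻¹)⁻¹ ∈ A'' ⊔ MulAut.conj y • B := by rw [htop]; trivial
      obtain ⟨a, ha, c, hc, e⟩ := hperm.exists_mul_of_mem_sup hzmem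
      obtain ⟨b₀, hb₀, rfl⟩ := hc
      have hzM : y * x⁻¹ ∈ M := by
        have hb' : x * b₀ * x⁻¹ ∈ M := (le_sup_right : _ ≤ M) ⟨b₀, hb₀, rfl⟩
        have e1 : (y * x⁻¹)⁻¹ = a * (y * b₀ * y⁻¹) := e
        have e2 : x = a * y * b₀ := by
          have := congrArg (· * y) e1
          simpa [mul_assoc] using this
        have e3 : y * x⁻¹ = a⁻¹ * (x * b₀ * x⁻¹)⁻¹ := by
          have : y = a⁻¹ * x * b₀⁻¹ := by rw [e2]; group
          conv_lhs => rw [this]
          group
        rw [e3]; exact M.mul_mem (M.inv_mem (hA''M ha)) (M.inv_mem hb')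
      have hByM : MulAut.conj y • B ≤ M := by
        have : MulAut.conj y • B = MulAut.conj (y * x⁻¹) • MulAut.conj x • B := by
          rw [H12.conj_smul_conj_smul]; congr 2; group
        rw [this]
        calc MulAut.conj (y * x⁻¹) • MulAut.conj x • B ≤ MulAut.conj (y * x⁻¹) • M :=
              Subgroup.pointwise_smul_le_pointwise_smul_iff.mpr le_sup_right
          _ = M := Subgroup.conj_smul_eq_self_of_mem hzM
      have : M = ⊤ := by
        apply top_le_iff.mp; rw [← htop]; exact sup_le hA''M hByM
      exact (hKP' x).2 this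
    have hA''le : A'' ≤ A' := hmax.le_of_ge hKP'' hle
    have : MulAut.conj b • A' ≤ A' :=
      (le_iSup (fun c : (MulAut.conj x • B : Subgroup G) => MulAut.conj (c : G) • A') ⟨b, hb⟩).trans
        hA''le
    exact H12.conj_smul_eq_iff_mem_normalizer.mp (H12.conj_smul_eq_of_ge this)
  by_cases hn : Subgroup.normalizer (A' : Set G) = ⊤
  · have hnorm : A'.Normal := Subgroup.normalizer_eq_top_iff.mp hn
    refine ⟨A', hnorm, ?_, Or.inl hAA'⟩
    intro htop
    apply (hKP' 1).2
    rw [htop]; simp
  · refine ⟨Subgroup.normalClosure (B : Set G), Subgroup.normalClosure_normal, ?_,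
      Or.inr Subgroup.le_normalClosure⟩
    intro htop
    apply hn
    apply top_le_iff.mp
    rw [← htop, Subgroup.normalClosure, Subgroup.closure_le]
    intro c hc
    obtain ⟨b, hb, hconj⟩ := Group.mem_conjugatesOfSet_iff.mp hc
    obtain ⟨g, rfl⟩ := isConj_iff.mp hconj
    exact step1 g ⟨b, hb, rfl⟩

end Cfsg.Agent.S0566
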