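import Cfsg.Statements.S0560

set_option autoImplicit false
open Pointwise
open Cfsg

namespace Cfsg.Agent.S0560

/-- The product formula `|U| |V| = |U V| |U ∩ V|` for two subgroups. -/
theorem card_mul_card_eq_card_mul_mul_card_inf {G : Type*} [Group G] (U V : Subgroup G) :
    Nat.card ↥U * Nat.card ↥V =
      Nat.card ↑((U : Set G) * (V : Set G)) * Nat.card ↥(U ⊓ V) := by
  classical
  rw [← Nat.card_prod, ← Nat.card_prod]
  have hex : ∀ r : ↑((U : Set G) * (V : Set G)), ∃ uv : ↥U × ↥V, (uv.1 : G) * (uv.2 : G) = r := by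
    rintro ⟨r, u, hu, v, hv, rfl⟩
    exact ⟨(⟨u, hu⟩, ⟨v, hv⟩), rfl⟩
  choose c hc using hex
  refine Nat.card_congr
    { toFun := fun uv => (⟨(uv.1 : G) * (uv.2 : G), Set.mul_mem_mul uv.1.2 uv.2.2⟩,
        ⟨((c ⟨(uv.1 : G) * (uv.2 : G), Set.mul_mem_mul uv.1.2 uv.2.2⟩).1 : G)⁻¹ * (uv.1 : G), ?_⟩)
      invFun := fun ri => (⟨((c ri.1).1 : G) * (ri.2 : G), U.mul_mem (c ri.1).1.2 ri.2.2.1⟩,
        ⟨(ri.2 : G)⁻¹ * ((c ri.1).2 : G), V.mul_mem (V.inv_mem ri.2.2.2) (c ri.1).2.2⟩)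
      left_inv := ?_
      right_inv := ?_ }
  · have h := hc ⟨(uv.1 : G) * (uv.2 : G), Set.mul_mem_mul uv.1.2 uv.2.2⟩
    simp only at h
    constructor
    · exact U.mul_mem (U.inv_mem (c _).1.2) uv.1.2
    · have h2 : ((c ⟨(uv.1 : G) * (uv.2 : G), Set.mul_mem_mul uv.1.2 uv.2.2⟩).1 : G)⁻¹ * (uv.1 : G)
          = ((c ⟨(uv.1 : G) * (uv.2 : G), Set.mul_mem_mul uv.1.2 uv.2.2⟩).2 : G) * (uv.2 : G)⁻¹ := by
        rw [inv_mul_eq_iff_eq_mul, ← mul_assoc, h]
        simp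
      rw [h2]
      exact V.mul_mem (c _).2.2 (V.inv_mem uv.2.2)
  · rintro ⟨u, v⟩
    have h := hc ⟨(u : G) * (v : G), Set.mul_mem_mul u.2 v.2⟩
    simp only at h
    apply Prod.ext
    · apply Subtype.ext
      simp
    · apply Subtype.ext
      simp only
      rw [mul_inv_rev, inv_inv, mul_assoc, h]
      simp
  · rintro ⟨r, i⟩
    have h := hc r
    have e1 : ((c r).1 : G) * (i : G) * ((i : G)⁻¹ * ((c r).2 : G)) = r := by
      rw [mul_assoc, mul_inv_cancel_left, h]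
    apply Prod.ext
    · apply Subtype.ext
      exact e1
    · apply Subtype.ext
      simp only
      have e2 : (⟨((c r).1 : G) * (i : G) * ((i : G)⁻¹ * ((c r).2 : G)),
          Set.mul_mem_mul (U.mul_mem (c r).1.2 i.2.1) (V.mul_mem (V.inv_mem i.2.2) (c r).2.2)⟩ :
          ↑((U : Set G) * (V : Set G))) = r := Subtype.ext e1
      rw [e2]
      simp

/-- Let the finite group G be the product HK of two subgroups and p a prime. Then there are Sylow p-subgroups P of H and Q of K and a Sylow p-subgroup R of G whose underlying set is the product set of P and Q. -/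
theorem result {G : Type*} [Group G] [Finite G] (H K : Subgroup G) (hHK : ∀ g : G, ∃ h ∈ H, ∃ k ∈ K, g = h * k) (p : ℕ) [Fact p.Prime] : ∃ (P : Sylow p H) (Q : Sylow p K) (R : Sylow p G), ((R : Subgroup G) : Set G) = (((P : Subgroup H).map H.subtype : Subgroup G) : Set G) * (((Q : Subgroup K).map K.subtype : Subgroup G) : Set G) := by
  classical
  have hp : p.Prime := Fact.out
  obtain ⟨P0⟩ : Nonempty (Sylow p H) := inferInstance
  obtain ⟨Q0⟩ : Nonempty (Sylow p K) := inferInstance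
  have hP0 : IsPGroup p ↥((P0 : Subgroup H).map H.subtype) := P0.isPGroup'.map H.subtype
  obtain ⟨S1, hS1⟩ := hP0.exists_le_sylow
  have hQ0 : IsPGroup p ↥((Q0 : Subgroup K).map K.subtype) := Q0.isPGroup'.map K.subtype
  obtain ⟨S2, hS2⟩ := hQ0.exists_le_sylow
  obtain ⟨g, hg⟩ := MulAction.exists_smul_eq G S1 S2
  obtain ⟨h, hh, k, hk, hgk⟩ := hHK g⁻¹
  have hR : h⁻¹ • S1 = k • S2 := by
    rw [← hg, smul_smul]
    congr 1
    have : g = k⁻¹ * h⁻¹ := by
      rw [← mul_inv_rev, ← hgk, inv_inv]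
    rw [this, mul_inv_cancel_left]
  refine ⟨(⟨h, hh⟩ : ↥H)⁻¹ • P0, (⟨k, hk⟩ : ↥K) • Q0, h⁻¹ • S1, ?_⟩
  set P' : Subgroup G := (((⟨h, hh⟩ : ↥H)⁻¹ • P0 : Sylow p H) : Subgroup H).map H.subtype with hP'
  set Q' : Subgroup G := (((⟨k, hk⟩ : ↥K) • Q0 : Sylow p K) : Subgroup K).map K.subtype with hQ'
  set R : Sylow p G := h⁻¹ • S1 with hRdef
  have hPR : P' ≤ (R : Subgroup G) := by
    rintro x ⟨y, hy, rfl⟩
    have hy' : y ∈ (((⟨h, hh⟩ : ↥H)⁻¹ • P0 : Sylow p H) : Subgroup H) := hy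
    rw [Sylow.coe_subgroup_smul, Subgroup.mem_smul_pointwise_iff_exists] at hy'
    obtain ⟨s, hs, rfl⟩ := hy'
    rw [hRdef, Sylow.coe_subgroup_smul, Subgroup.mem_smul_pointwise_iff_exists]
    refine ⟨(s : G), hS1 ⟨s, hs, rfl⟩, ?_⟩
    simp [MulAut.smul_def]
  have hQR : Q' ≤ (R : Subgroup G) := by
    rintro x ⟨y, hy, rfl⟩
    have hy' : y ∈ (((⟨k, hk⟩ : ↥K) • Q0 : Sylow p K) : Subgroup K) := hy
    rw [Sylow.coe_subgroup_smul, Subgroup.mem_smul_pointwise_iff_exists] at hy'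
    obtain ⟨s, hs, rfl⟩ := hy'
    rw [hR, Sylow.coe_subgroup_smul, Subgroup.mem_smul_pointwise_iff_exists]
    refine ⟨(s : G), hS2 ⟨s, hs, rfl⟩, ?_⟩
    simp [MulAut.smul_def]
  -- cardinalities
  have e1 := card_mul_card_eq_card_mul_mul_card_inf H K
  have huniv : (H : Set G) * (K : Set G) = Set.univ := by
    apply Set.eq_univ_of_forall
    intro x
    obtain ⟨a, ha, b, hb, rfl⟩ := hHK x
    exact Set.mul_mem_mul ha hb
  rw [huniv, Nat.card_univ] at e1
  have e2 := card_mul_card_eq_card_mul_mul_card_inf P' Q'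
  have hcR : Nat.card ↥(R : Subgroup G) = p ^ (Nat.card G).factorization p := R.card_eq_multiplicity
  have hcP : Nat.card ↥P' = p ^ (Nat.card ↥H).factorization p := by
    rw [hP', Subgroup.card_map_of_injective H.subtype_injective]
    exact Sylow.card_eq_multiplicity _
  have hcQ : Nat.card ↥Q' = p ^ (Nat.card ↥K).factorization p := by
    rw [hQ', Subgroup.card_map_of_injective K.subtype_injective]
    exact Sylow.card_eq_multiplicity _
  have hI : IsPGroup p ↥(P' ⊓ Q') := R.isPGroup'.to_le (inf_le_left.trans hPR)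
  obtain ⟨j, hj⟩ := hI.exists_card_eq
  have hdvd : Nat.card ↥(P' ⊓ Q') ∣ Nat.card ↥(H ⊓ K) :=
    Subgroup.card_dvd_of_le (inf_le_inf (Subgroup.map_subtype_le _) (Subgroup.map_subtype_le _))
  have hjle : j ≤ (Nat.card ↥(H ⊓ K)).factorization p := by
    rw [hj] at hdvd
    exact (hp.pow_dvd_iff_le_factorization Nat.card_pos.ne').mp hdvd
  have hfac : (Nat.card ↥H).factorization p + (Nat.card ↥K).factorization p =
      (Nat.card G).factorization p + (Nat.card ↥(H ⊓ K)).factorization p := by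
    have := congrArg (fun n => n.factorization p) e1
    rw [Nat.factorization_mul Nat.card_pos.ne' Nat.card_pos.ne',
      Nat.factorization_mul Nat.card_pos.ne' Nat.card_pos.ne'] at this
    simpa using this
  have hle : Nat.card ↥(R : Subgroup G) * Nat.card ↥(P' ⊓ Q') ≤ Nat.card ↥P' * Nat.card ↥Q' := by
    rw [hcR, hcP, hcQ, hj, ← pow_add, ← pow_add]
    apply Nat.pow_le_pow_right hp.pos
    omega
  have hle2 : Nat.card ↥(R : Subgroup G) ≤ Nat.card ↑((P' : Set G) * (Q' : Set G)) := by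
    rw [e2] at hle
    exact Nat.le_of_mul_le_mul_right hle Nat.card_pos
  have hsub : (P' : Set G) * (Q' : Set G) ⊆ ((R : Subgroup G) : Set G) := by
    rintro x ⟨a, ha, b, hb, rfl⟩
    exact (R : Subgroup G).mul_mem (hPR ha) (hQR hb)
  refine (Set.eq_of_subset_of_ncard_le hsub ?_ (Set.toFinite _)).symm
  rw [← Nat.card_coe_set_eq, ← Nat.card_coe_set_eq]
  exact hle2

end Cfsg.Agent.S0560
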