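import Mathlib
import Cfsg.Statements.S0572

set_option autoImplicit false
open Cfsg
open scoped commutatorElement

namespace Cfsg.Agent.S0572

theorem comm_right_mul {G : Type*} [Group G] (x y z : G) (h : x * z = z * x) :
    ⁅x, y * z⁆ = ⁅x, y⁆ := by
  have hz : z * x⁻¹ = x⁻¹ * z := (Commute.inv_right (show Commute z x from h.symm)).eq
  calc ⁅x, y * z⁆ = x * y * (z * x⁻¹) * z⁻¹ * y⁻¹ := by
        simp only [commutatorElement_def]; group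
    _ = x * y * (x⁻¹ * z) * z⁻¹ * y⁻¹ := by rw [hz]
    _ = ⁅x, y⁆ := by simp only [commutatorElement_def]; group

theorem comm_left_mul {G : Type*} [Group G] (x y z : G) (h : y * z = z * y) :
    ⁅x * y, z⁆ = ⁅x, z⁆ := by
  calc ⁅x * y, z⁆ = x * (y * z) * y⁻¹ * x⁻¹ * z⁻¹ := by
        simp only [commutatorElement_def]; group
    _ = x * (z * y) * y⁻¹ * x⁻¹ * z⁻¹ := by rw [h]
    _ = ⁅x, z⁆ := by simp only [commutatorElement_def]; group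

theorem conj_comm {G : Type*} [Group G] (g x y : G) :
    g * ⁅x, y⁆ * g⁻¹ = ⁅g * x * g⁻¹, g * y * g⁻¹⁆ := by
  simp only [commutatorElement_def]; group

/-- the key computation -/
theorem key {G : Type*} [Group G] (A B : Subgroup G) [IsMulCommutative A] [IsMulCommutative B]
    (hAB : ∀ g : G, ∃ a ∈ A, ∃ b ∈ B, g = a * b)
    (a a1 b b1 : G) (ha : a ∈ A) (ha1 : a1 ∈ A) (hb : b ∈ B) (hb1 : b1 ∈ B) :
    (b1 * a1) * ⁅a, b⁆ * (b1 * a1)⁻¹ = (a1 * b1) * ⁅a, b⁆ * (a1 * b1)⁻¹ := by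
  have hBA : ∀ g : G, ∃ b ∈ B, ∃ a ∈ A, g = b * a := by
    intro g
    obtain ⟨a, ha, b, hb, h⟩ := hAB g⁻¹
    refine ⟨b⁻¹, inv_mem hb, a⁻¹, inv_mem ha, ?_⟩
    rw [← mul_inv_rev, ← h, inv_inv]
  obtain ⟨b2, hb2, a2, ha2, h2⟩ := hBA (a1 * b * a1⁻¹)
  obtain ⟨a3, ha3, b3, hb3, h3⟩ := hAB (b1 * a * b1⁻¹)
  have cA : ∀ x ∈ A, ∀ y ∈ A, x * y = y * x := fun x hx y hy =>
    setLike_mul_comm hx hy
  have cB : ∀ x ∈ B, ∀ y ∈ B, x * y = y * x := fun x hx y hy =>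
    setLike_mul_comm hx hy
  have e1 : a1 * a * a1⁻¹ = a := by rw [cA a1 ha1 a ha, mul_inv_cancel_right]
  have e2 : b1 * b * b1⁻¹ = b := by rw [cB b1 hb1 b hb, mul_inv_cancel_right]
  have e3 : b1 * b2 * b1⁻¹ = b2 := by rw [cB b1 hb1 b2 hb2, mul_inv_cancel_right]
  have e4 : a1 * a3 * a1⁻¹ = a3 := by rw [cA a1 ha1 a3 ha3, mul_inv_cancel_right]
  have L : (b1 * a1) * ⁅a, b⁆ * (b1 * a1)⁻¹ = ⁅a3, b2⁆ := by
    have : (b1 * a1) * ⁅a, b⁆ * (b1 * a1)⁻¹ = b1 * (a1 * ⁅a, b⁆ * a1⁻¹) * b1⁻¹ := by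
      simp [mul_assoc]
    rw [this, conj_comm a1, e1, h2, comm_right_mul a b2 a2 (cA a ha a2 ha2), conj_comm b1, h3, e3,
      comm_left_mul a3 b3 b2 (cB b3 hb3 b2 hb2)]
  have R : (a1 * b1) * ⁅a, b⁆ * (a1 * b1)⁻¹ = ⁅a3, b2⁆ := by
    have : (a1 * b1) * ⁅a, b⁆ * (a1 * b1)⁻¹ = a1 * (b1 * ⁅a, b⁆ * b1⁻¹) * a1⁻¹ := by
      simp [mul_assoc]
    rw [this, conj_comm b1, e2, h3, comm_left_mul a3 b3 b (cB b3 hb3 b hb), conj_comm a1, h2, e4,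
      comm_right_mul a3 b2 a2 (cA a3 ha3 a2 ha2)]
  rw [L, R]

theorem comm_comm {G : Type*} [Group G] (A B : Subgroup G) [IsMulCommutative A] [IsMulCommutative B]
    (hAB : ∀ g : G, ∃ a ∈ A, ∃ b ∈ B, g = a * b)
    (a a1 b b1 : G) (ha : a ∈ A) (ha1 : a1 ∈ A) (hb : b ∈ B) (hb1 : b1 ∈ B) :
    ⁅a, b⁆ * ⁅a1, b1⁆ = ⁅a1, b1⁆ * ⁅a, b⁆ := by
  have h := key A B hAB a a1⁻¹ b b1⁻¹ ha (inv_mem ha1) hb (inv_mem hb1)
  -- b1⁻¹ a1⁻¹ x a1 b1 = a1⁻¹ b1⁻¹ x b1 a1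
  generalize ⁅a, b⁆ = x at h ⊢
  have h' : ⁅a1, b1⁆ * x * ⁅a1, b1⁆⁻¹ = x := by
    have e : ⁅a1, b1⁆ * x * ⁅a1, b1⁆⁻¹ =
        (a1 * b1) * ((a1⁻¹ * b1⁻¹) * x * (a1⁻¹ * b1⁻¹)⁻¹) * (a1 * b1)⁻¹ := by
      simp only [commutatorElement_def]; group
    rw [e, ← h]
    group
  calc x * ⁅a1, b1⁆ = (⁅a1, b1⁆ * x * ⁅a1, b1⁆⁻¹) * ⁅a1, b1⁆ := by rw [h']
    _ = ⁅a1, b1⁆ * x := by rw [inv_mul_cancel_right]

theorem commutator_AB_normal {G : Type*} [Group G] (A B : Subgroup G)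
    (hAB : ∀ g : G, ∃ a ∈ A, ∃ b ∈ B, g = a * b) : (⁅A, B⁆ : Subgroup G).Normal := by
  rw [← Subgroup.normalizer_eq_top_iff, eq_top_iff]
  intro g _
  obtain ⟨a, ha, b, hb, rfl⟩ := hAB g
  exact mul_mem (Subgroup.normalizer_commutator_ge_left A B ha)
    (Subgroup.normalizer_commutator_ge_right A B hb)

theorem derived_le {G : Type*} [Group G] (A B : Subgroup G) [IsMulCommutative A] [IsMulCommutative B]
    (hAB : ∀ g : G, ∃ a ∈ A, ∃ b ∈ B, g = a * b) : ⁅(⊤ : Subgroup G), ⊤⁆ ≤ ⁅A, B⁆ := by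
  have hN := commutator_AB_normal A B hAB
  have cA : ∀ x ∈ A, ∀ y ∈ A, x * y = y * x := fun x hx y hy =>
    setLike_mul_comm hx hy
  have cB : ∀ x ∈ B, ∀ y ∈ B, x * y = y * x := fun x hx y hy =>
    setLike_mul_comm hx hy
  rw [Subgroup.commutator_le]
  intro g1 _ g2 _
  obtain ⟨a1, ha1, b1, hb1, rfl⟩ := hAB g1
  obtain ⟨a2, ha2, b2, hb2, rfl⟩ := hAB g2
  -- ⁅a1 * b1, g⁆ = a1 * ⁅b1, g⁆ * a1⁻¹ * ⁅a1, g⁆
  have e : ⁅a1 * b1, a2 * b2⁆ = (a1 * ⁅b1, a2 * b2⁆ * a1⁻¹) * ⁅a1, a2 * b2⁆ := by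
    simp only [commutatorElement_def]; group
  rw [e]
  have h1 : ⁅b1, a2 * b2⁆ = ⁅b1, a2⁆ := comm_right_mul b1 a2 b2 (cB b1 hb1 b2 hb2)
  have h2 : ⁅a1, a2 * b2⁆ = a2 * ⁅a1, b2⁆ * a2⁻¹ := by
    have h12 : a1 * a2 = a2 * a1 := cA a1 ha1 a2 ha2
    have hi : a1⁻¹ * a2⁻¹ = a2⁻¹ * a1⁻¹ := by rw [← mul_inv_rev, ← mul_inv_rev, h12]
    calc ⁅a1, a2 * b2⁆ = (a1 * a2) * b2 * (a1⁻¹ * b2⁻¹ * a2⁻¹) := by
          simp only [commutatorElement_def]; group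
      _ = (a2 * a1) * b2 * (a1⁻¹ * b2⁻¹ * a2⁻¹) := by rw [h12]
      _ = a2 * ⁅a1, b2⁆ * a2⁻¹ := by simp only [commutatorElement_def]; group
  rw [h1, h2]
  refine mul_mem (hN.conj_mem _ ?_ _)
    (hN.conj_mem _ (Subgroup.commutator_mem_commutator ha1 hb2) _)
  rw [← commutatorElement_inv]
  exact inv_mem (Subgroup.commutator_mem_commutator ha2 hb1)

/-- Itô's Theorem: if a group G is the product AB of two abelian subgroups, then the commutator subgroup of G is abelian, i.e. the second term of the derived series is trivial. -/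
theorem result {G : Type*} [Group G] (A B : Subgroup G) [IsMulCommutative A] [IsMulCommutative B] (hAB : ∀ g : G, ∃ a ∈ A, ∃ b ∈ B, g = a * b) : derivedSeries G 2 = ⊥ := by
  have h1 : derivedSeries G 1 ≤ ⁅A, B⁆ := by
    rw [derivedSeries_succ, derivedSeries_zero]
    exact derived_le A B hAB
  have hc : IsMulCommutative (⁅A, B⁆ : Subgroup G) := by
    rw [Subgroup.commutator_def]
    apply Subgroup.isMulCommutative_closure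
    rintro x ⟨a, ha, b, hb, rfl⟩ y ⟨a1, ha1, b1, hb1, rfl⟩
    exact comm_comm A B hAB a a1 b b1 ha ha1 hb hb1
  have h2 : ⁅(⁅A, B⁆ : Subgroup G), ⁅A, B⁆⁆ = ⊥ := Subgroup.commutator_self_eq_bot_iff.mpr hc
  rw [derivedSeries_succ, eq_bot_iff, ← h2]
  exact Subgroup.commutator_mono h1 h1

end Cfsg.Agent.S0572
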