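import Cfsg.Statements.S1039
import Cfsg.Agent.H23.AllC
import Cfsg.Agent.H23.Tab2G2
import Cfsg.Agent.H23.Tab2B2
import Cfsg.Agent.H23.Tab2D4
import Cfsg.Agent.H23.Tab2F4
import Cfsg.Agent.H23.Tab2E6
import Cfsg.Agent.H23.Tab2E7
import Cfsg.Agent.H23.Tab2E8
import Cfsg.Agent.H23.Cell3
import Cfsg.Agent.H46.ChevWeylQuot
import Cfsg.Agent.H46.CoxRootData

set_option autoImplicit false
open Cfsg

namespace Cfsg.Agent.S1039

open Cfsg.Lie Cfsg.Agent.H23 Cfsg.Agent.H46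

/-- `N/H ≅ W`: there is a surjective homomorphism from `N` onto the Coxeter group of the type (Mathlib's Coxeter matrix G₂, B₂, F₄, E₆, E₇, E₈, nodes numbered as the fundamental roots) with kernel `H`, mapping each `n_{p_i}` to the `i`-th simple reflection. -/
theorem result {F : Type*} [Field F]
    (p : Cfsg.Lie.ChevalleyDatum × (Σ n : ℕ, CoxeterMatrix (Fin n)))
    (hp : p ∈ [(Cfsg.Lie.chevG2, ⟨2, CoxeterMatrix.G₂⟩), (Cfsg.Lie.chevB2, ⟨2, CoxeterMatrix.B 2⟩), (Cfsg.Lie.chevD4, ⟨4, Cfsg.Lie.coxeterD4⟩), (Cfsg.Lie.chevF4, ⟨4, CoxeterMatrix.F₄⟩),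
      (Cfsg.Lie.chevE6, ⟨6, CoxeterMatrix.E₆⟩), (Cfsg.Lie.chevE7, ⟨7, CoxeterMatrix.E₇⟩), (Cfsg.Lie.chevE8, ⟨8, CoxeterMatrix.E₈⟩)]) :
    ∃ φ : ↥(p.1.monomialSubgroup F) →* p.2.2.Group, Function.Surjective φ ∧
      φ.ker = (p.1.diagonalSubgroup F).subgroupOf (p.1.monomialSubgroup F) ∧
      ∀ (i : Fin p.2.1) (g : ↥(p.1.monomialSubgroup F)),
        ((g : GL p.1.Idx F) : Matrix p.1.Idx p.1.Idx F) = p.1.nMat F (p.1.simple i) 1 → φ g = p.2.2.simple i := by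
  simp only [List.mem_cons, List.not_mem_nil, or_false] at hp
  rcases hp with rfl | rfl | rfl | rfl | rfl | rfl | rfl
  · have hP : PackB chevG2 F _ _ := ⟨chk_G2.sem F, nconj_G2.semN chk_G2.tblOK F,
      comm_G2.semC chk_G2.tblOK F, tab_G2, tabC_G2, etaNeg_G2, tab2_G2⟩
    exact monomial_quot_of_pack hP rfl rfl CoxeterMatrix.G₂ cxrG2_g cxrG2_lift cxrG2_g_eq
      cxrG2_faithful
  · have hP : PackB chevB2 F _ _ := ⟨chk_B2.sem F, nconj_B2.semN chk_B2.tblOK F,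
      comm_B2.semC chk_B2.tblOK F, tab_B2, tabC_B2, etaNeg_B2, tab2_B2⟩
    exact monomial_quot_of_pack hP rfl rfl (CoxeterMatrix.B 2) cxrB2_g cxrB2_lift cxrB2_g_eq
      cxrB2_faithful
  · have hP : PackB chevD4 F _ _ := ⟨chk_D4.sem F, nconj_D4.semN chk_D4.tblOK F,
      comm_D4.semC chk_D4.tblOK F, tab_D4, tabC_D4, etaNeg_D4, tab2_D4⟩
    exact monomial_quot_of_pack hP rfl rfl Cfsg.Lie.coxeterD4 cxrD4_g cxrD4_lift cxrD4_g_eq
      cxrD4_faithful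
  · have hP : PackB chevF4 F _ _ := ⟨chk_F4.sem F, nconj_F4.semN chk_F4.tblOK F,
      comm_F4.semC chk_F4.tblOK F, tab_F4, tabC_F4, etaNeg_F4, tab2_F4⟩
    exact monomial_quot_of_pack hP rfl rfl CoxeterMatrix.F₄ cxrF4_g cxrF4_lift cxrF4_g_eq
      cxrF4_faithful
  · have hP : PackB chevE6 F _ _ := ⟨chk_E6.sem F, nconj_E6.semN chk_E6.tblOK F,
      comm_E6.semC chk_E6.tblOK F, tab_E6, tabC_E6, etaNeg_E6, tab2_E6⟩
    exact monomial_quot_of_pack hP rfl rfl CoxeterMatrix.E₆ cxrE6_g cxrE6_lift cxrE6_g_eq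
      cxrE6_faithful
  · have hP : PackB chevE7 F _ _ := ⟨chk_E7.sem F, nconj_E7.semN chk_E7.tblOK F,
      comm_E7.semC chk_E7.tblOK F, tab_E7, tabC_E7, etaNeg_E7, tab2_E7⟩
    exact monomial_quot_of_pack hP rfl rfl CoxeterMatrix.E₇ cxrE7_g cxrE7_lift cxrE7_g_eq
      cxrE7_faithful
  · have hP : PackB chevE8 F _ _ := ⟨chk_E8.sem F, nconj_E8.semN chk_E8.tblOK F,
      comm_E8.semC chk_E8.tblOK F, tab_E8, tabC_E8, etaNeg_E8, tab2_E8⟩
    exact monomial_quot_of_pack hP rfl rfl CoxeterMatrix.E₈ cxrE8_g cxrE8_lift cxrE8_g_eq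
      cxrE8_faithful

end Cfsg.Agent.S1039
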