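import Cfsg.Statements.S1152
import Cfsg.Agent.S1077
import Cfsg.Agent.S1026
import Cfsg.Agent.S1100
import Cfsg.Agent.S1039
import Cfsg.Agent.H22.ReeCtx
import Cfsg.Agent.H22.ReeOrd
import Cfsg.Agent.H45.R2Asm
import Cfsg.Agent.H45.R2Comm
import Cfsg.Agent.H45.R2Val
import Cfsg.Agent.H45.R2Cent
import Cfsg.Agent.H5.R2Inv
import Cfsg.Agent.H15.R2ACom
import Cfsg.Agent.H15.R2Mem
import Cfsg.Agent.H40.R2Form
import Cfsg.Agent.H40.R2HForm
import Cfsg.Agent.H7.R2Ker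
import Cfsg.Agent.H19.R2ConjR
import Cfsg.Agent.H19.R2UFix
import Cfsg.Agent.H51.R2Iso
import Cfsg.Agent.H65.R2ExistsE
import Cfsg.Agent.H65.R2Sylow
import Cfsg.Agent.H65.R2Arith
import Cfsg.Agent.H65.R2PSLKlein

set_option autoImplicit false
open Cfsg

namespace Cfsg.Agent.S1152

/-- In the small Ree group ²G₂(q), q = 3^(2m+1), realised as G¹ inside the Chevalley group G₂ over the field with q elements (θ the 3^m-th power map), with H¹ = G¹ ∩ H and U¹ = G¹ ∩ U the intersections with the ambient diagonal and positive unipotent subgroups: for an involution `a ∈ H¹`, the centraliser of `a` in `G¹` is isomorphic to `Z₂ × PSL₂(q)`; and the Sylow 2-subgroups of `G¹` are elementary abelian of order 8. -/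
theorem result {K : Type*} [Field K] [Fintype K] {m : ℕ} (hK : Fintype.card K = 3 ^ (2 * m + 1))
    (a : ↥(Cfsg.Lie.twistedG2 K (3 ^ m))) (haH : (a : GL Cfsg.Lie.chevG2.Idx K) ∈ Cfsg.Lie.chevG2.diagonalSubgroup K) (ha1 : a ≠ 1) (ha2 : a * a = 1) :
    Nonempty (↥(Subgroup.centralizer {a}) ≃* Multiplicative (ZMod 2) × Matrix.ProjectiveSpecialLinearGroup (Fin 2) K) ∧
      ∀ S : Sylow 2 ↥(Cfsg.Lie.twistedG2 K (3 ^ m)), Nat.card S = 8 ∧ ∀ x ∈ S, x * x = 1 := by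
  have hc : CharP K 3 := Cfsg.Agent.H22.Ree.charP_three_of_card hK
  obtain ⟨C⟩ := Cfsg.Agent.H22.Ree.exists_ctx hK (Cfsg.Agent.S1077.result Cfsg.Lie.chevG2 (by simp))
    (Cfsg.Agent.S1026.result Cfsg.Lie.chevG2 (by simp)).1
  have hcan : Cfsg.Agent.H22.Ree.CanonG2 K := Cfsg.Agent.S1100.result Cfsg.Lie.chevG2 (by simp)
  have hW : Cfsg.Agent.H22.Ree.WeylG2 K :=
    Cfsg.Agent.S1039.result (Cfsg.Lie.chevG2, ⟨2, CoxeterMatrix.G₂⟩) (by simp)
  have hcomm := Cfsg.Agent.H45.R2.comm C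
  have hval := Cfsg.Agent.H45.R2.val C
  have htor := Cfsg.Agent.H45.R2.tor C
  have hmem := Cfsg.Agent.H15.R2.mem C hcomm hval
  have hac := Cfsg.Agent.H15.R2.acomm C
  have hform := Cfsg.Agent.H40.R2.form C hcomm hval htor
  have hker := Cfsg.Agent.H7.R2.ker C hcan hform
  have hufix := Cfsg.Agent.H19.R2.ufix C (Cfsg.Agent.H19.R2.conjR C)
  have hhform := Cfsg.Agent.H40.R2.hform C hK
  have hcent := Cfsg.Agent.H45.R2.cent C hK hcan hW hcomm hval htor hac hufix hhform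
  have hinv := Cfsg.Agent.H5.R2.inv C
  exact Cfsg.Agent.H45.R2.s1152_of_pieces hK C hcan hW hcomm hmem hac hker hcent hinv
    Cfsg.Agent.H51.R2.iso Cfsg.Agent.H65.R2.existsE Cfsg.Agent.H65.R2.sylow
    Cfsg.Agent.H65.R2.arith Cfsg.Agent.H65.R2.pslKlein a haH ha1 ha2

end Cfsg.Agent.S1152
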