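import Cfsg.Statements.S1398
import Cfsg.Agent.H31.BG9a

set_option autoImplicit false
open Cfsg

namespace Cfsg.Agent.S1398

universe u


/-- Let G be a minimal simple group of odd order, M a maximal subgroup, p a prime, and B a noncyclic elementary abelian p-subgroup of M. If C_G(b) ≤ M for every non-identity b ∈ B, or if every subgroup of G of order coprime to p normalized by B is contained in M, then M is the only maximal subgroup of G containing B. -/
theorem result {G : Type*} [Group G] [Finite G] (hG : Cfsg.IsMinSimpleOddOrder G)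
    (M : Subgroup G) (hM : IsCoatom M) (p : ℕ) [Fact p.Prime] (B : Subgroup G) (hBM : B ≤ M)
    (hBe : Cfsg.IsElementaryAbelian p B) (hBnc : ¬ IsCyclic B)
    (h : (∀ b ∈ B, b ≠ 1 → Subgroup.centralizer ({b} : Set G) ≤ M) ∨
      ∀ Y ∈ Cfsg.invSubgroups ⊤ B (Cfsg.primesNotDvd p), Y ≤ M) :
    Cfsg.InUniqueMaximal B := by
  have hb : ∀ Y : Subgroup G, (Nat.card Y).Coprime p →
      B ≤ Subgroup.normalizer (Y : Set G) → Y ≤ M := by
    rcases h with ha | hb
    · exact Cfsg.Agent.H31.BG9.inv_le_of_centralizers hBe hBnc ha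
    · intro Y hY hBY
      exact hb Y ⟨le_top, Cfsg.Agent.Lib.Helper30.isPi_of_coprime hY, hBY⟩
  have key := Cfsg.Agent.H31.BG9.bg91 hG hM hBM hBe hBnc hb
  exact ⟨M, ⟨hM, hBM⟩, fun L hL => key L hL.1 hL.2⟩

end Cfsg.Agent.S1398
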