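import Cfsg.Statements.S1242
import Cfsg.Agent.H26.Transfer

set_option autoImplicit false
open Cfsg

namespace Cfsg.Agent.S1242

open Cfsg.Agent.H26

theorem pResidual_normal (p : ℕ) (G : Type*) [Group G] : (Cfsg.pResidual p G).Normal := by
  constructor
  intro n hn g
  unfold Cfsg.pResidual at *
  induction hn using Subgroup.closure_induction with
  | mem x hx =>
    apply Subgroup.subset_closure
    show Nat.Coprime (orderOf (g * x * g⁻¹)) p
    rw [orderOf_conj_eq]; exact hx
  | one => simp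
  | mul x y _ _ hx hy =>
    have : g * (x * y) * g⁻¹ = (g * x * g⁻¹) * (g * y * g⁻¹) := by group
    rw [this]; exact Subgroup.mul_mem _ hx hy
  | inv x _ hx =>
    have : g * x⁻¹ * g⁻¹ = (g * x * g⁻¹)⁻¹ := by group
    rw [this]; exact Subgroup.inv_mem _ hx

open scoped IsMulCommutative in
/-- Let G be a finite group, p a prime and H a subgroup of index prime to p such that any two elements of H of p-power order that are conjugate in G are conjugate in H. Then (O^p(G)·G') ∩ H = O^p(H)·H', where O^p denotes the subgroup generated by the elements of order prime to p. -/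
theorem result {G : Type*} [Group G] [Finite G] {p : ℕ} [Fact p.Prime] (H : Subgroup G) (hidx : Nat.Coprime p H.index) (hfus : ∀ g ∈ H, (∃ k : ℕ, orderOf g = p ^ k) → ∀ a : G, a * g * a⁻¹ ∈ H → ∃ h ∈ H, h * g * h⁻¹ = a * g * a⁻¹) : (Cfsg.pResidual p G ⊔ commutator G) ⊓ H = (Cfsg.pResidual p ↥H ⊔ commutator ↥H).map H.subtype := by
  have hp : p.Prime := Fact.out
  have hN1 : (Cfsg.pResidual p ↥H).Normal := pResidual_normal p ↥H
  set H₀ : Subgroup ↥H := Cfsg.pResidual p ↥H ⊔ commutator ↥H with hH₀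
  have hcomm : IsMulCommutative (↥H ⧸ H₀) :=
    Subgroup.Normal.quotient_commutative_iff_commutator_le.mpr le_sup_right
  let ϕ : ↥H →* ↥H ⧸ H₀ := QuotientGroup.mk' H₀
  -- lemma A
  have hA : ∀ (h : ↥H) (a m : ℕ), ¬ p ∣ m → orderOf h = p ^ a * m → ϕ h ^ p ^ a = 1 := by
    intro h a m hm hord
    rw [← map_pow]
    show (QuotientGroup.mk (h ^ p ^ a) : ↥H ⧸ H₀) = 1
    rw [QuotientGroup.eq_one_iff]
    apply Subgroup.mem_sup_left
    apply Subgroup.subset_closure
    show Nat.Coprime (orderOf (h ^ p ^ a)) p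
    rw [orderOf_pow, hord, Nat.gcd_eq_right (Dvd.intro _ rfl),
      Nat.mul_div_cancel_left _ (pow_pos hp.pos a)]
    exact ((Nat.Prime.coprime_iff_not_dvd hp).mpr hm).symm
  have hPG : IsPGroup p (↥H ⧸ H₀) := by
    intro q
    induction q using QuotientGroup.induction_on with
    | H h =>
      obtain ⟨a, m, hm, hord⟩ :=
        Nat.exists_eq_pow_mul_and_not_dvd (orderOf_pos h).ne' p hp.ne_one
      exact ⟨a, hA h a m hm hord⟩
  -- transfer on p-elements
  have hT : ∀ y : ↥H, (∃ j : ℕ, orderOf y = p ^ j) →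
      MonoidHom.transfer ϕ (y : G) = ϕ y ^ H.index := by
    intro y ⟨j, hj⟩
    apply transfer_eq_pow_of_forall
    intro k g₀ hk
    have hord : ∃ i : ℕ, orderOf ((y : G) ^ k) = p ^ i := by
      have h1 : orderOf ((y : G) ^ k) ∣ p ^ j := by
        have h2 : orderOf (y : G) = orderOf y := Subgroup.orderOf_coe y
        rw [← hj, ← h2]
        exact orderOf_pow_dvd k
      obtain ⟨i, -, hi⟩ := (Nat.dvd_prime_pow hp).mp h1
      exact ⟨i, hi⟩
    obtain ⟨h, hh, hconj⟩ := hfus ((y : G) ^ k) (H.pow_mem y.2 k) hord g₀⁻¹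
      (by rw [inv_inv]; exact hk)
    rw [inv_inv] at hconj
    have e : (⟨g₀⁻¹ * (y : G) ^ k * g₀, hk⟩ : ↥H) = ⟨h, hh⟩ * y ^ k * ⟨h, hh⟩⁻¹ := by
      apply Subtype.ext
      push_cast
      exact hconj.symm
    rw [e, map_mul, map_mul, map_inv, mul_inv_cancel_comm]
  apply le_antisymm
  · rintro y ⟨hy1, hyH⟩
    have hker : Cfsg.pResidual p G ⊔ commutator G ≤ (MonoidHom.transfer ϕ).ker := by
      apply sup_le
      · unfold Cfsg.pResidual
        rw [Subgroup.closure_le]
        intro g hg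
        have hg' : Nat.Coprime (orderOf g) p := hg
        show g ∈ (MonoidHom.transfer ϕ).ker
        rw [MonoidHom.mem_ker]
        obtain ⟨i, hi⟩ := (IsPGroup.iff_orderOf.mp hPG) (MonoidHom.transfer ϕ g)
        have h1 : orderOf (MonoidHom.transfer ϕ g) ∣ orderOf g := orderOf_map_dvd _ g
        have h2 : Nat.Coprime (p ^ i) p := by
          rw [← hi]; exact Nat.Coprime.coprime_dvd_left h1 hg'
        have h3 : i = 0 := by
          by_contra hne
          have h4 : p ∣ p ^ i := dvd_pow_self p hne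
          have h5 := Nat.Coprime.coprime_dvd_left h4 h2
          rw [Nat.coprime_self] at h5
          exact hp.ne_one h5
        rw [h3, pow_zero] at hi
        exact orderOf_eq_one_iff.mp hi
      · exact Abelianization.commutator_subset_ker _
    have hV : MonoidHom.transfer ϕ y = 1 := hker hy1
    obtain ⟨a, m, hm, hord⟩ :=
      Nat.exists_eq_pow_mul_and_not_dvd (orderOf_pos (⟨y, hyH⟩ : ↥H)).ne' p hp.ne_one
    have h1 : ϕ ⟨y, hyH⟩ ^ p ^ a = 1 := hA _ a m hm hord
    have hm0 : m ≠ 0 := by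
      rintro rfl
      exact hm (dvd_zero p)
    have hordm : orderOf ((⟨y, hyH⟩ : ↥H) ^ m) = p ^ a := by
      rw [orderOf_pow, hord, Nat.gcd_eq_right (Dvd.intro_left _ rfl),
        Nat.mul_div_cancel _ (Nat.pos_of_ne_zero hm0)]
    have h2 := hT ((⟨y, hyH⟩ : ↥H) ^ m) ⟨a, hordm⟩
    have h3 : MonoidHom.transfer ϕ (((⟨y, hyH⟩ : ↥H) ^ m : ↥H) : G) = 1 := by
      push_cast
      rw [map_pow, hV, one_pow]
    rw [h3] at h2
    have hcop1 : Nat.Coprime H.index (p ^ a) := (Nat.Coprime.pow_left a hidx).symm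
    have h4 : ϕ ((⟨y, hyH⟩ : ↥H) ^ m) = 1 := by
      apply eq_one_of_pow_coprime h2.symm _ hcop1
      rw [map_pow, ← pow_mul, mul_comm, pow_mul, h1, one_pow]
    rw [map_pow] at h4
    have hcop2 : Nat.Coprime m (p ^ a) :=
      (Nat.Coprime.pow_left a ((Nat.Prime.coprime_iff_not_dvd hp).mpr hm)).symm
    have h5 : ϕ ⟨y, hyH⟩ = 1 := eq_one_of_pow_coprime h4 h1 hcop2
    have h6 : (⟨y, hyH⟩ : ↥H) ∈ H₀ := (QuotientGroup.eq_one_iff _).mp h5
    exact ⟨_, h6, rfl⟩
  · rw [hH₀, Subgroup.map_sup]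
    apply le_inf
    · apply sup_le_sup
      · unfold Cfsg.pResidual
        rw [MonoidHom.map_closure]
        apply Subgroup.closure_mono
        rintro _ ⟨x, hx, rfl⟩
        show Nat.Coprime (orderOf (x : G)) p
        have h2 : orderOf (x : G) = orderOf x := Subgroup.orderOf_coe x
        rw [h2]; exact hx
      · rw [Subgroup.map_subtype_commutator]
        exact Subgroup.commutator_mono le_top le_top
    · rw [← Subgroup.map_sup]
      rintro _ ⟨h, -, rfl⟩
      exact h.2

end Cfsg.Agent.S1242
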