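import Cfsg.Statements.S1461
import Cfsg.Agent.H31.PLen

set_option autoImplicit false
open Cfsg

namespace Cfsg.Agent.S1461

open Cfsg.Agent.H31

theorem part1_aux {G : Type*} [Group G] [Finite G] (p : ℕ) (K N : Subgroup G)
    (hKcop : (Nat.card K).Coprime p) (s : G) (hsN : s ∈ N) (hsp : IsEl p s) (w' : N)
    (hw' : w' ∈ commutator N) (hk : (w' : G)⁻¹ * s ∈ K) : s ∈ ⁅N, N⁆ := by
  rw [← Subgroup.map_subtype_commutator]
  have hw'' : Abelianization.of w' = 1 := by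
    rw [← Abelianization.ker_of, MonoidHom.mem_ker] at hw'
    exact hw'
  suffices hsuff : Abelianization.of (⟨s, hsN⟩ : N) = 1 by
    refine ⟨⟨s, hsN⟩, ?_, rfl⟩
    have h8 : (⟨s, hsN⟩ : N) ∈ (Abelianization.of).ker := MonoidHom.mem_ker.mpr hsuff
    rw [Abelianization.ker_of] at h8
    exact h8
  have hρ : Abelianization.of (⟨s, hsN⟩ : N) = Abelianization.of (w'⁻¹ * ⟨s, hsN⟩) := by
    rw [map_mul, map_inv, hw'', inv_one, one_mul]
  obtain ⟨a, ha⟩ := hsp
  have hs'a : (⟨s, hsN⟩ : N) ^ (p ^ a) = 1 := Subtype.ext ha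
  have ho1 : orderOf (Abelianization.of (⟨s, hsN⟩ : N)) ∣ p ^ a := by
    apply orderOf_dvd_of_pow_eq_one
    rw [← map_pow, hs'a, map_one]
  have ho2 : orderOf (Abelianization.of (⟨s, hsN⟩ : N)) ∣ Nat.card K := by
    rw [hρ]
    have h4 : orderOf (Abelianization.of (w'⁻¹ * (⟨s, hsN⟩ : N))) ∣ orderOf (w'⁻¹ * (⟨s, hsN⟩ : N)) :=
      orderOf_map_dvd _ _
    have h5 : orderOf (w'⁻¹ * (⟨s, hsN⟩ : N)) = orderOf (((w'⁻¹ * ⟨s, hsN⟩ : N)) : G) :=
      (Subgroup.orderOf_coe _).symm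
    have h6 : orderOf (((w'⁻¹ * ⟨s, hsN⟩ : N)) : G) ∣ Nat.card K :=
      Subgroup.orderOf_dvd_natCard K hk
    rw [h5] at h4
    exact h4.trans h6
  have ho3 : orderOf (Abelianization.of (⟨s, hsN⟩ : N)) ∣ Nat.gcd (Nat.card K) (p ^ a) :=
    Nat.dvd_gcd ho2 ho1
  rw [Nat.Coprime.pow_right a hKcop] at ho3
  exact orderOf_eq_one_iff.mp (Nat.dvd_one.mp ho3)

/-- Let G be a finite solvable group, p a prime with G = O_{p',p,p'}(G), and S a Sylow p-subgroup. Then: if S ≤ G' then S ≤ [N_G(S), N_G(S)]; if Y ⊆ S and xYx⁻¹ ⊆ S then x = g c for some g ∈ N_G(S) and c centralizing Y; and for every p-subgroup Q there is x ∈ C_G(Q ∩ S) with xQx⁻¹ ≤ S. -/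
theorem result {G : Type*} [Group G] [Finite G] [Group.IsSolvable G] (p : ℕ) [Fact p.Prime] (hpl : Cfsg.PLengthLE p 1 G) (S : Sylow p G) :
    ((S : Subgroup G) ≤ commutator G → (S : Subgroup G) ≤ ⁅Subgroup.normalizer ((S : Subgroup G) : Set G), Subgroup.normalizer ((S : Subgroup G) : Set G)⁆) ∧
      (∀ (Y : Set G) (x : G), Y ⊆ (S : Subgroup G) → (fun y => x * y * x⁻¹) '' Y ⊆ (S : Subgroup G) →
        ∃ g ∈ Subgroup.normalizer ((S : Subgroup G) : Set G), ∃ c ∈ Subgroup.centralizer Y, g * c = x) ∧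
      ∀ Q : Subgroup G, IsPGroup p Q → ∃ x ∈ Subgroup.centralizer ((Q ⊓ (S : Subgroup G) : Subgroup G) : Set G), Q.map (MulAut.conj x).toMonoidHom ≤ (S : Subgroup G) := by
  obtain ⟨K, hKn, hKcop, hKN⟩ := exists_normal_pprime_of_plength_one p hpl S
  haveI := hKn
  have hp : p.Prime := Fact.out
  have hKS : ∀ c : G, c ∈ K → c ∈ (S : Subgroup G) → c = 1 := by
    intro c hcK hcS
    have h1 : orderOf c ∣ Nat.card K := Subgroup.orderOf_dvd_natCard K hcK
    obtain ⟨k, hk⟩ := isEl_of_isPGroup S.2 hcS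
    have h2 : orderOf c ∣ p ^ k := orderOf_dvd_of_pow_eq_one hk
    have h3 : orderOf c ∣ Nat.gcd (Nat.card K) (p ^ k) := Nat.dvd_gcd h1 h2
    rw [Nat.Coprime.pow_right k hKcop] at h3
    exact orderOf_eq_one_iff.mp (Nat.dvd_one.mp h3)
  have hL : ∀ k ∈ K, ∀ r ∈ (S : Subgroup G), k * r * k⁻¹ ∈ (S : Subgroup G) → r * k = k * r := by
    intro k hk r hr hkr
    have hc : k * r * k⁻¹ * r⁻¹ = 1 := by
      apply hKS
      · have : k * r * k⁻¹ * r⁻¹ = k * (r * k⁻¹ * r⁻¹) := by group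
        rw [this]; exact K.mul_mem hk (hKn.conj_mem _ (K.inv_mem hk) r)
      · exact (S : Subgroup G).mul_mem hkr ((S : Subgroup G).inv_mem hr)
    have : k * r = (k * r * k⁻¹ * r⁻¹) * (r * k) := by group
    rw [hc, one_mul] at this; exact this.symm
  have hdec : ∀ x : G, ∃ n ∈ Subgroup.normalizer ((S : Subgroup G) : Set G), ∃ k ∈ K,
      x = n * k := by
    intro x
    have hx : x ∈ (↑(Subgroup.normalizer ((S : Subgroup G) : Set G) ⊔ K) : Set G) := by
      rw [hKN]; exact Subgroup.mem_top x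
    rw [Subgroup.mul_normal] at hx
    obtain ⟨n, hn, k, hk, rfl⟩ := Set.mem_mul.mp hx
    exact ⟨n, hn, k, hk, rfl⟩
  refine ⟨?_, ?_, ?_⟩
  · intro hSG s hs
    have hmapN : (Subgroup.normalizer ((S : Subgroup G) : Set G)).map (QuotientGroup.mk' K) = ⊤ := by
      rw [eq_top_iff]
      intro y _
      obtain ⟨x, rfl⟩ := QuotientGroup.mk'_surjective K y
      obtain ⟨n, hn, k, hk, rfl⟩ := hdec x
      refine ⟨n, hn, ?_⟩
      have hk1 : (QuotientGroup.mk' K) k = 1 := (QuotientGroup.eq_one_iff k).mpr hk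
      rw [map_mul, hk1, mul_one]
    have h1 : (QuotientGroup.mk' K) s ∈
        (⁅Subgroup.normalizer ((S : Subgroup G) : Set G),
          Subgroup.normalizer ((S : Subgroup G) : Set G)⁆).map (QuotientGroup.mk' K) := by
      rw [Subgroup.map_commutator, hmapN]
      have h2 : s ∈ commutator G := hSG hs
      rw [commutator_def] at h2
      have h3 := Subgroup.mem_map_of_mem (QuotientGroup.mk' K) h2
      rw [Subgroup.map_commutator] at h3
      exact Subgroup.commutator_mono le_top le_top h3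
    obtain ⟨w, hw, hws⟩ := h1
    have hk : w⁻¹ * s ∈ K := QuotientGroup.eq.mp hws
    rw [← Subgroup.map_subtype_commutator] at hw
    obtain ⟨w', hw', rfl⟩ := hw
    exact part1_aux p K _ hKcop s (Subgroup.le_normalizer hs) (isEl_of_isPGroup S.2 hs) w' hw' hk
  · intro Y x hY hxY
    obtain ⟨n, hn, k, hk, rfl⟩ := hdec x
    refine ⟨n, hn, k, ?_, rfl⟩
    rw [Subgroup.mem_centralizer_iff]
    intro y hy
    apply hL k hk y (hY hy)
    have h1 : n * k * y * (n * k)⁻¹ ∈ (S : Subgroup G) := hxY ⟨y, hy, rfl⟩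
    have h2 : n * (k * y * k⁻¹) * n⁻¹ ∈ (S : Subgroup G) := by
      have : n * (k * y * k⁻¹) * n⁻¹ = n * k * y * (n * k)⁻¹ := by group
      rw [this]; exact h1
    exact (Subgroup.mem_normalizer_iff.mp hn _).mpr h2
  · intro Q hQ
    obtain ⟨S', hS'⟩ := hQ.exists_le_sylow
    obtain ⟨g, hg⟩ := MulAction.exists_smul_eq G S S'
    have hS'mem : ∀ y : G, y ∈ (S' : Subgroup G) ↔ g⁻¹ * y * g ∈ (S : Subgroup G) := by
      intro y
      have : y ∈ ((g • S : Sylow p G) : Subgroup G) ↔ g⁻¹ * y * g ∈ (S : Subgroup G) := by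
        rw [Sylow.coe_subgroup_smul, Subgroup.mem_pointwise_smul_iff_inv_smul_mem, MulAut.smul_def,
          MulAut.conj_inv_apply]
      rw [hg] at this
      exact this
    obtain ⟨n, hn, k, hk, hnk⟩ := hdec g⁻¹
    have hkQ : ∀ a ∈ Q, k * a * k⁻¹ ∈ (S : Subgroup G) := by
      intro a ha
      have h1 := (hS'mem a).mp (hS' ha)
      have h2 : n * (k * a * k⁻¹) * n⁻¹ ∈ (S : Subgroup G) := by
        have hg' : g = (n * k)⁻¹ := by rw [← hnk, inv_inv]
        have : n * (k * a * k⁻¹) * n⁻¹ = g⁻¹ * a * g := by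
          rw [hg']; group
        rw [this]; exact h1
      exact (Subgroup.mem_normalizer_iff.mp hn _).mpr h2
    refine ⟨k, ?_, ?_⟩
    · rw [Subgroup.mem_centralizer_iff]
      intro a ha
      exact hL k hk a ha.2 (hkQ a ha.1)
    · rintro _ ⟨a, ha, rfl⟩
      exact hkQ a ha

end Cfsg.Agent.S1461
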