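import Cfsg.Statements.S1447
import Cfsg.Agent.H15.Metacyclic5

set_option autoImplicit false
open Cfsg

namespace Cfsg.Agent.S1447

/-- Let G be a finite group, p an odd prime, R a metacyclic p-subgroup and A a subgroup of order coprime to p normalizing R. Then [R, A] is abelian; R is generated by [R, A] and R ∩ C_G(A), which meet trivially; and if R is non-abelian and A does not centralize R, then [R, A] and R ∩ C_G(A) are nontrivial cyclic groups and [R, R] ≤ [R, A]. -/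
theorem result {G : Type*} [Group G] [Finite G] (p : ℕ) [Fact p.Prime] (hp : p ≠ 2) (R A : Subgroup G) (hR : IsPGroup p R) (hRm : Cfsg.IsMetacyclic R)
    (hA : (A ≤ Subgroup.normalizer (R : Set G))) (hcop : (Nat.card A).Coprime p) :
    IsMulCommutative ↥⁅R, A⁆ ∧ ⁅R, A⁆ ⊔ (R ⊓ Subgroup.centralizer (A : Set G)) = R ∧ ⁅R, A⁆ ⊓ (R ⊓ Subgroup.centralizer (A : Set G)) = ⊥ ∧
      (¬ IsMulCommutative R → ¬ A ≤ Subgroup.centralizer (R : Set G) →
        ⁅R, A⁆ ≠ ⊥ ∧ IsCyclic ↥⁅R, A⁆ ∧ (R ⊓ Subgroup.centralizer (A : Set G)) ≠ ⊥ ∧ IsCyclic ↥(R ⊓ Subgroup.centralizer (A : Set G)) ∧ ⁅R, R⁆ ≤ ⁅R, A⁆) := by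
  obtain ⟨e, he⟩ := IsPGroup.exists_card_eq hR
  have hcopR : (Nat.card A).Coprime (Nat.card R) := by
    rw [he]; exact Nat.Coprime.pow_right e hcop
  have hsolv : Group.IsSolvable A ∨ Group.IsSolvable R := by
    right
    have := hR.isNilpotent
    infer_instance
  have hSR : ⁅R, A⁆ ≤ R := Cfsg.Agent.H1.commutator_le_of_le_normalizer A R hA
  have hSA : ⁅⁅R, A⁆, A⁆ = ⁅R, A⁆ :=
    Cfsg.Agent.H1.coprime_commutator_commutator A R hA hcopR hsolv
  have hAS : A ≤ Subgroup.normalizer ((⁅R, A⁆ : Subgroup G) : Set G) :=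
    Subgroup.normalizer_commutator_ge_right R A
  have hSp : IsPGroup p ↥⁅R, A⁆ := hR.to_le hSR
  have hSm : Cfsg.IsMetacyclic ↥⁅R, A⁆ :=
    Cfsg.Agent.H15.mc_metacyclic_of_injective (Subgroup.inclusion hSR)
      (Subgroup.inclusion_injective hSR) hRm
  have hab := Cfsg.Agent.H15.comm_of_commutator_eq hp ⁅R, A⁆ A hSp hSm hAS hcop hSA
  have hcopS : (Nat.card A).Coprime (Nat.card ↥⁅R, A⁆) :=
    Nat.Coprime.coprime_dvd_right (Subgroup.card_dvd_of_le hSR) hcopR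
  have hinf0 := Cfsg.Agent.H15.inf_centralizer_eq_bot_of_commutator_eq ⁅R, A⁆ A hAS hcopS hab hSA
  have hsup := Cfsg.Agent.H1.coprime_commutator_sup_centralizer A R hA hcopR hsolv
  have hinf : ⁅R, A⁆ ⊓ (R ⊓ Subgroup.centralizer (A : Set G)) = ⊥ := by
    rw [eq_bot_iff, ← hinf0]
    exact inf_le_inf_left _ inf_le_right
  have hScomm : IsMulCommutative ↥⁅R, A⁆ := ⟨⟨fun x y => hab x y⟩⟩
  refine ⟨hScomm, hsup, hinf, ?_⟩
  intro hRna hAC
  have hS_ne : ⁅R, A⁆ ≠ ⊥ := by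
    intro h
    apply hAC
    rw [Subgroup.commutator_eq_bot_iff_le_centralizer] at h
    exact Subgroup.le_centralizer_iff.mp h
  have hC_ne : R ⊓ Subgroup.centralizer (A : Set G) ≠ ⊥ := by
    intro h
    apply hRna
    rw [h, sup_bot_eq] at hsup
    exact hsup ▸ hScomm
  have hScyc : IsCyclic ↥⁅R, A⁆ :=
    Cfsg.Agent.H15.isCyclic_of_inf_eq_bot hp R ⁅R, A⁆ (R ⊓ Subgroup.centralizer (A : Set G))
      hR hRm hSR inf_le_left hinf hC_ne
  have hCcyc : IsCyclic ↥(R ⊓ Subgroup.centralizer (A : Set G)) :=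
    Cfsg.Agent.H15.isCyclic_of_inf_eq_bot hp R (R ⊓ Subgroup.centralizer (A : Set G)) ⁅R, A⁆
      hR hRm inf_le_left hSR (by rw [inf_comm]; exact hinf) hS_ne
  refine ⟨hS_ne, hScyc, hC_ne, hCcyc, ?_⟩
  apply Cfsg.Agent.H15.commutator_le_of_comm_centralizer R A hA hcopR hsolv
  intro x hx y hy
  obtain ⟨g, hg⟩ := hCcyc.exists_generator
  obtain ⟨i, hi⟩ := Subgroup.mem_zpowers_iff.mp (hg ⟨x, hx⟩)
  obtain ⟨j, hj⟩ := Subgroup.mem_zpowers_iff.mp (hg ⟨y, hy⟩)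
  have h1 : (⟨x, hx⟩ : ↥(R ⊓ Subgroup.centralizer (A : Set G))) * ⟨y, hy⟩ = ⟨y, hy⟩ * ⟨x, hx⟩ := by
    rw [← hi, ← hj]
    exact ((Commute.refl g).zpow_zpow i j).eq
  exact congrArg Subtype.val h1

end Cfsg.Agent.S1447
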