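import Cfsg.Statements.S1445
import Cfsg.Agent.H13.CopHH10

set_option autoImplicit false
open Cfsg

namespace Cfsg.Agent.S1445

/-- Let G be a solvable group of odd order, K a normal subgroup and R a subgroup with G = KR and the orders of K and R coprime. Suppose K ∩ C_G(x) = K ∩ C_G(R) for every non-identity x ∈ R, and F(K) ∩ C_G(R) = 1. Then [K, R] is contained in the Fitting subgroup of K. -/
theorem result {G : Type*} [Group G] [Finite G] [Group.IsSolvable G] (hodd : Odd (Nat.card G)) (K R : Subgroup G) [K.Normal] (hKR : K ⊔ R = ⊤) (hcop : (Nat.card K).Coprime (Nat.card R))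
    (hprime : ∀ x ∈ R, x ≠ 1 → K ⊓ Subgroup.centralizer ({x} : Set G) = (K ⊓ Subgroup.centralizer (R : Set G)))
    (hF : Cfsg.fittingOf K ⊓ Subgroup.centralizer (R : Set G) = ⊥) :
    ⁅K, R⁆ ≤ Cfsg.fittingOf K := by
  classical
  by_cases hRbot : R = ⊥
  · rw [hRbot, Subgroup.commutator_bot_right]; exact bot_le
  have hRcard : Nat.card R ≠ 1 := fun h => hRbot (Subgroup.card_eq_one.mp h)
  obtain ⟨r, hr, hrR⟩ := Nat.exists_prime_and_dvd hRcard
  haveI : Fact r.Prime := ⟨hr⟩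
  obtain ⟨x', hx'⟩ := exists_prime_orderOf_dvd_card' r hrR
  obtain ⟨x, hxdef⟩ : ∃ x : G, x = (x' : G) := ⟨_, rfl⟩
  have hxR : x ∈ R := hxdef ▸ x'.2
  have hxo : orderOf x = r := by rw [hxdef, Subgroup.orderOf_coe]; exact hx'
  have hxr : x ^ r = 1 := by rw [← hxo]; exact pow_orderOf_eq_one x
  have hx1 : x ≠ 1 := by
    intro h
    rw [h, orderOf_one] at hxo
    exact hr.one_lt.ne hxo
  have hrG : r ∣ Nat.card G := hrR.trans (Subgroup.card_subgroup_dvd_card R)
  have hr2 : r ≠ 2 := by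
    intro h
    rw [h] at hrG
    exact (Nat.not_even_iff_odd.mpr hodd) (even_iff_two_dvd.mpr hrG)
  have hKodd : Odd (Nat.card K) := Odd.of_dvd_nat hodd (Subgroup.card_subgroup_dvd_card K)
  have hKr : (Nat.card K).Coprime r := Nat.Coprime.coprime_dvd_right hrR hcop
  have hCF : Cfsg.fittingOf K ⊓ Subgroup.centralizer {x} = ⊥ := by
    rw [eq_bot_iff, ← hF]
    intro f hf
    obtain ⟨hfF, hfc⟩ := Subgroup.mem_inf.mp hf
    have h1 : f ∈ K ⊓ Subgroup.centralizer ({x} : Set G) :=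
      Subgroup.mem_inf.mpr ⟨Cfsg.Agent.H13.FitInt.fittingOf_le K hfF, hfc⟩
    rw [hprime x hxR hx1] at h1
    exact Subgroup.mem_inf.mpr ⟨hfF, (Subgroup.mem_inf.mp h1).2⟩
  have main := Cfsg.Agent.H13.CopHH.comm_mem_fittingOf r hr2 K hKodd hKr x hxr hCF
  haveI hFn : (Cfsg.fittingOf K).Normal := inferInstance
  have hKx : ⁅K, Subgroup.zpowers x⁆ ≤ Cfsg.fittingOf K := by
    obtain ⟨π, hπ⟩ : ∃ π : G →* G ⧸ Cfsg.fittingOf K,
        π = QuotientGroup.mk' (Cfsg.fittingOf K) := ⟨_, rfl⟩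
    have hπker : ∀ g, π g = 1 ↔ g ∈ Cfsg.fittingOf K := by
      intro g; rw [hπ]; exact QuotientGroup.eq_one_iff g
    have hxE : x ∈ (Subgroup.centralizer ((K.map π : Subgroup _) : Set _)).comap π := by
      rw [Subgroup.mem_comap, Subgroup.mem_centralizer_iff]
      rintro _ ⟨k, hk, rfl⟩
      have h1 := main k hk
      rw [← hπker] at h1
      simp only [map_mul, map_inv] at h1
      symm
      calc π x * π k = (π x * π k * (π x)⁻¹ * (π k)⁻¹) * (π k * π x) := by group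
        _ = π k * π x := by rw [h1, one_mul]
    have hzE : Subgroup.zpowers x ≤
        (Subgroup.centralizer ((K.map π : Subgroup _) : Set _)).comap π :=
      (Subgroup.zpowers_le).mpr hxE
    rw [Subgroup.commutator_le]
    intro k hk a ha
    have h2 := hzE ha
    rw [Subgroup.mem_comap, Subgroup.mem_centralizer_iff] at h2
    have h3 := h2 (π k) (Subgroup.mem_map_of_mem π hk)
    rw [← hπker, commutatorElement_def]
    simp only [map_mul, map_inv]
    rw [h3, mul_inv_cancel_right, mul_inv_cancel]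
  rw [Subgroup.commutator_le]
  intro k hk y hy
  have hA : Subgroup.zpowers x ≤ Subgroup.normalizer (K : Set G) := by
    rw [Subgroup.normalizer_eq_top_iff.mpr inferInstance]; exact le_top
  have hAcard : Nat.card (Subgroup.zpowers x) ∣ r := by
    rw [Nat.card_zpowers]; exact orderOf_dvd_of_pow_eq_one hxr
  have hcopA : (Nat.card (Subgroup.zpowers x)).Coprime (Nat.card K) :=
    Nat.Coprime.coprime_dvd_left hAcard hKr.symm
  obtain ⟨c, hc, d, hd, rfl⟩ := Cfsg.Agent.H1.exists_centralizer_mul_commutator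
    (Subgroup.zpowers x) K hA hcopA (Or.inl inferInstance) k hk
  have hdF : d ∈ Cfsg.fittingOf K := hKx hd
  have hcR : c ∈ K ⊓ Subgroup.centralizer (R : Set G) := by
    rw [← hprime x hxR hx1]
    refine Subgroup.mem_inf.mpr ⟨(Subgroup.mem_inf.mp hc).1, ?_⟩
    have h3 := (Subgroup.mem_inf.mp hc).2
    rw [Subgroup.mem_centralizer_iff] at h3 ⊢
    intro z hz
    rw [Set.mem_singleton_iff] at hz
    rw [hz]
    exact h3 x (Subgroup.mem_zpowers x)
  have hcy : y * c = c * y :=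
    (Subgroup.mem_centralizer_iff.mp (Subgroup.mem_inf.mp hcR).2) y hy
  rw [commutatorElement_def]
  have hcy' : c⁻¹ * y⁻¹ = y⁻¹ * c⁻¹ := by rw [← mul_inv_rev, ← mul_inv_rev, hcy]
  have e : c * d * y * (c * d)⁻¹ * y⁻¹ = c * (d * (y * d⁻¹ * y⁻¹)) * c⁻¹ := by
    calc c * d * y * (c * d)⁻¹ * y⁻¹ = c * d * y * d⁻¹ * (c⁻¹ * y⁻¹) := by group
      _ = c * d * y * d⁻¹ * (y⁻¹ * c⁻¹) := by rw [hcy']
      _ = c * (d * (y * d⁻¹ * y⁻¹)) * c⁻¹ := by group
  rw [e]
  exact hFn.conj_mem _ (Subgroup.mul_mem _ hdF (hFn.conj_mem _ (Subgroup.inv_mem _ hdF) y)) c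

end Cfsg.Agent.S1445
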