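import Cfsg.Statements.S1418
import Cfsg.Agent.H57.BG129Main
import Cfsg.Agent.H63.BG125Main
-- import your own Cfsg.Agent.* helpers here

set_option autoImplicit false
open Cfsg

namespace Cfsg.Agent.S1418

/-- Let G be a minimal simple group of odd order, M a maximal subgroup, E a complement to M_σ in M, p ∈ τ₂(M), and A ≤ E elementary abelian of order p ^ 2. Then A is normal in E and contains every subgroup of E of order p; C_G(A) ≤ M ∩ N_G(A) = E and N_G(A) is not contained in M; and for every subgroup X ≤ A of order p centralizing a non-identity element of M_σ, C_G(X) ≤ M and M is the unique maximal subgroup containing C_G(X). -/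
theorem result {G : Type*} [Group G] [Finite G] (hG : Cfsg.IsMinSimpleOddOrder G)
    (M : Subgroup G) (hM : IsCoatom M) (E : Subgroup G) (hE : Cfsg.IsComplIn E (Cfsg.sigmaCore M) M) (p : ℕ) [Fact p.Prime] (hp : p ∈ Cfsg.tau2 M) (A : Subgroup G) (hA : (A ≤ E ∧ Cfsg.IsElementaryAbelian p A ∧ Nat.card A = p ^ 2)) :
    (E ≤ Subgroup.normalizer (A : Set G) ∧ ∀ X : Subgroup G, X ≤ E → Nat.card X = p → X ≤ A) ∧
      (Subgroup.centralizer (A : Set G) ≤ M ⊓ Subgroup.normalizer (A : Set G) ∧ M ⊓ Subgroup.normalizer (A : Set G) = E ∧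
        ¬ Subgroup.normalizer (A : Set G) ≤ M) ∧
      ∀ X : Subgroup G, X ≤ A → Nat.card X = p → Cfsg.sigmaCore M ⊓ Subgroup.centralizer (X : Set G) ≠ ⊥ → (Subgroup.centralizer (X : Set G) ≤ M ∧ ∀ L : Subgroup G, IsCoatom L → Subgroup.centralizer (X : Set G) ≤ L → L = M) := by
  exact Cfsg.Agent.H57.BG12.st1418_of hG (Cfsg.Agent.H63.BG11.st1416 hG)
    (Cfsg.Agent.H63.BG11.st1417 hG) M hM E hE p hp A hA

end Cfsg.Agent.S1418
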