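import Mathlib
import Cfsg.Prelude.Def_LieExceptional
import Cfsg.Agent.H8Exch
import Cfsg.Agent.H8BN
import Cfsg.Agent.H8BN2

set_option autoImplicit false

namespace Cfsg.H8BN

open Cfsg Cfsg.H8Exch

variable {G : Type*} [Group G] (P : BNPair G)

theorem pr_closure_singleton (s : P.S) {m : P.N} (hm : (m : G) ∈ Subgroup.closure {(s : G)}) :
    pr P m = 1 ∨ pr P m = sg P s := by
  have h := pr_mem_closure_of_mem P (J := {(s : G)}) (Set.singleton_subset_iff.2 s.2) hm
  have hle : Subgroup.closure (sg P '' (Subtype.val ⁻¹' {(s : G)})) ≤ Subgroup.zpowers (sg P s) := by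
    rw [Subgroup.closure_le]
    rintro _ ⟨x, hx, rfl⟩
    have : x = s := Subtype.ext hx
    rw [this]
    exact Subgroup.mem_zpowers _
  obtain ⟨k, hk⟩ := Subgroup.mem_zpowers_iff.1 (hle h)
  have h2 : (sg P s) ^ (2 : ℤ) = 1 := by rw [zpow_two]; exact sg_mul_self P s
  rcases Int.even_or_odd k with ⟨j, rfl⟩ | ⟨j, rfl⟩
  · left
    rw [← hk, show j + j = 2 * j by ring, zpow_mul, h2, one_zpow]
  · right
    rw [← hk, zpow_add, zpow_mul, h2, one_zpow, one_mul, zpow_one]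

theorem mem_parabolic_singleton (s : P.S) (g : G) :
    g ∈ P.parabolic {(s : G)} ↔ g ∈ P.B ∨ g ∈ dc P (s : G) := by
  have hs : ({(s : G)} : Set G) ⊆ P.S := Set.singleton_subset_iff.2 s.2
  constructor
  · intro hg
    obtain ⟨n, hn, hg'⟩ := (mem_parabolic_iff P hs g).1 hg
    have hnN := closure_le_N P hs hn
    rcases pr_closure_singleton P s (m := ⟨n, hnN⟩) hn with h | h
    · left
      rw [pr_eq_one_iff] at h
      rwa [mem_dc_of_mem_B P h] at hg'
    · right
      rw [sg_eq] at h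
      have := dc_eq_of_pr_eq P h
      rw [← this]
      exact hg'
  · rintro (h | h)
    · exact (le_sup_left : P.B ≤ P.parabolic _) h
    · exact (mem_parabolic_iff P hs g).2 ⟨s, Subgroup.subset_closure rfl, h⟩

theorem union_dc_subgroup_iff {n : G} (hn : n ∈ P.N) (hnB : n ∉ P.B) :
    (∃ H : Subgroup G, (H : Set G) = (P.B : Set G) ∪ dc P n) ↔ ∃ s ∈ P.S, s⁻¹ * n ∈ P.B := by
  constructor
  · rintro ⟨H, hH⟩
    have hBH : P.B ≤ H := by
      intro b hb
      have : b ∈ (H : Set G) := by rw [hH]; left; exact hb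
      exact this
    have hnH : n ∈ H := by
      have : n ∈ (H : Set G) := by rw [hH]; right; exact self_mem_dc P n
      exact this
    obtain ⟨l, hl1, hl2⟩ := exists_isRed (sg P) (sg_mul_self P) (closure_range_sg P)
      (pr P ⟨n, hn⟩)
    match l, hl1, hl2 with
    | [], _, hl2 =>
      exfalso
      apply hnB
      have : pr P ⟨n, hn⟩ = 1 := by rw [← hl2]; rfl
      exact (pr_eq_one_iff P).1 this
    | s :: l, hl1, hl2 =>
      have h := len_cons_lt P hl1
      rw [hl2] at h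
      have hs : (s : G) ∈ H := S_mem_of_len_gt P h H hBH hnH
      have : (s : G) ∈ (P.B : Set G) ∪ dc P n := by rw [← hH]; exact hs
      rcases this with h' | h'
      · exact absurd h' (S_not_mem_B P s.2)
      · refine ⟨s, s.2, ?_⟩
        rw [← dc_eq_iff P (S_mem_N P s.2) hn]
        exact dc_eq_of_mem P h'
  · rintro ⟨s, hs, h⟩
    refine ⟨P.parabolic {s}, ?_⟩
    ext g
    rw [SetLike.mem_coe, mem_parabolic_singleton P ⟨s, hs⟩]
    have : dc P n = dc P s := ((dc_eq_iff P (S_mem_N P hs) hn).2 h).symm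
    rw [this]
    rfl

theorem rank_one_two_transitive (h : P.rank = 1) :
    MulAction.IsMultiplyPretransitive G (G ⧸ P.B) 2 := by
  have hcard : Nat.card P.S = 1 := h
  rw [Nat.card_eq_one_iff_unique] at hcard
  obtain ⟨hsub, ⟨s⟩⟩ := hcard
  have hS : P.S = {(s : G)} := by
    ext x
    constructor
    · intro hx
      have := hsub.elim ⟨x, hx⟩ s
      exact congrArg Subtype.val this
    · intro hx
      rw [Set.mem_singleton_iff] at hx
      rw [hx]; exact s.2
  have hall : ∀ g : G, g ∉ P.B → g ∈ dc P (s : G) := by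
    intro g hg
    have : g ∈ P.parabolic {(s : G)} := by
      rw [← hS, parabolic_S]; trivial
    rcases (mem_parabolic_singleton P s g).1 this with h | h
    · exact absurd h hg
    · exact h
  rw [MulAction.is_two_pretransitive_iff]
  intro a b c d hab hcd
  obtain ⟨x, rfl⟩ := QuotientGroup.mk_surjective a
  obtain ⟨y, rfl⟩ := QuotientGroup.mk_surjective b
  obtain ⟨u, rfl⟩ := QuotientGroup.mk_surjective c
  obtain ⟨v, rfl⟩ := QuotientGroup.mk_surjective d
  have hxy : x⁻¹ * y ∉ P.B := fun h => hab (QuotientGroup.eq.2 h)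
  have huv : u⁻¹ * v ∉ P.B := fun h => hcd (QuotientGroup.eq.2 h)
  obtain ⟨b₁, hb₁, b₂, hb₂, e1⟩ := (mem_dc P).1 (hall _ hxy)
  obtain ⟨c₁, hc₁, c₂, hc₂, e2⟩ := (mem_dc P).1 (hall _ huv)
  have hy : y = x * (b₁ * s * b₂) := by rw [← e1]; group
  have hv : v = u * (c₁ * s * c₂) := by rw [← e2]; group
  subst hy hv
  refine ⟨u * c₁ * b₁⁻¹ * x⁻¹, ?_, ?_⟩
  · show ((u * c₁ * b₁⁻¹ * x⁻¹ * x : G) : G ⧸ P.B) = u
    rw [QuotientGroup.eq]
    have : (u * c₁ * b₁⁻¹ * x⁻¹ * x)⁻¹ * u = b₁ * c₁⁻¹ := by group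
    rw [this]
    exact P.B.mul_mem hb₁ (P.B.inv_mem hc₁)
  · show ((u * c₁ * b₁⁻¹ * x⁻¹ * (x * (b₁ * s * b₂)) : G) : G ⧸ P.B) = (u * (c₁ * s * c₂) : G)
    rw [QuotientGroup.eq]
    have : (u * c₁ * b₁⁻¹ * x⁻¹ * (x * (b₁ * s * b₂)))⁻¹ * (u * (c₁ * s * c₂)) = b₂⁻¹ * c₂ := by
      group
    rw [this]
    exact P.B.mul_mem (P.B.inv_mem hb₂) hc₂

end Cfsg.H8BN
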