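import Mathlib
import Cfsg.Statements.S0284
import Cfsg.Agent.H7.Herm

set_option autoImplicit false
open Cfsg

namespace Cfsg.Agent.S0284

/-- The standard Hermitian form on F^n, |F| = q^2, has exactly q^(n-1) (q^n - (-1)^n) vectors of norm 1. -/
theorem result {F : Type*} [Field F] [Fintype F] {q : ℕ} (hF : Fintype.card F = q ^ 2) (n : ℕ) : Nat.card {v : Fin n → F // Cfsg.hermForm n F q v v = 1} = (if Even n then q ^ (n - 1) * (q ^ n - 1) else q ^ (n - 1) * (q ^ n + 1)) := by
  have hq := H7.two_le_of_card_sq hF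
  have hq0 : (q : ℤ) ≠ 0 := by exact_mod_cast (by omega : q ≠ 0)
  have h := H7.herm_card_ne hF 1 one_ne_zero (one_pow q) n
  rcases n with _ | k
  · simp only [pow_zero, sub_self, mul_zero, mul_eq_zero] at h
    have h0 : Nat.card {v : Fin 0 → F // Cfsg.hermForm 0 F q v v = 1} = 0 := by
      rcases h with h | h
      · exact absurd h hq0
      · exact_mod_cast h
    rw [h0]; simp
  · have h1 : 1 ≤ q ^ (k + 1) := Nat.one_le_pow _ _ (by omega)
    simp only [Nat.add_sub_cancel]
    split_ifs with he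
    · rw [he.neg_one_pow] at h
      have : (q : ℤ) * Nat.card {v : Fin (k + 1) → F // Cfsg.hermForm (k + 1) F q v v = 1} =
          q * ((q ^ k * (q ^ (k + 1) - 1) : ℕ) : ℤ) := by
        rw [h]; push_cast [h1]; ring
      exact_mod_cast mul_left_cancel₀ hq0 this
    · rw [(Nat.not_even_iff_odd.mp he).neg_one_pow] at h
      have : (q : ℤ) * Nat.card {v : Fin (k + 1) → F // Cfsg.hermForm (k + 1) F q v v = 1} =
          q * ((q ^ k * (q ^ (k + 1) + 1) : ℕ) : ℤ) := by
        rw [h]; push_cast; ring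
      exact_mod_cast mul_left_cancel₀ hq0 this

end Cfsg.Agent.S0284
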