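import Mathlib
import Cfsg.Statements.S0598
import Cfsg.Agent.H13.Basic

set_option autoImplicit false
open Cfsg
open scoped commutatorElement

namespace Cfsg.Agent.S0598

open Cfsg.Agent.H13

section

variable {G : Type*} [Group G]

/-- conjugation by elements of `A` commute on `V` when `⁅A, A⁆` centralizes `V` -/
theorem conj_comm {V A : Subgroup G} (hAV : A ≤ Subgroup.normalizer (V : Set G))
    (hab : ⁅A, A⁆ ≤ Subgroup.centralizer (V : Set G)) {a b v : G} (ha : a ∈ A) (hb : b ∈ A)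
    (hv : v ∈ V) : a * (b * v * b⁻¹) * a⁻¹ = b * (a * v * a⁻¹) * b⁻¹ := by
  have h1 : a * v * a⁻¹ ∈ V := (Subgroup.mem_normalizer_iff.mp (hAV ha) v).mp hv
  have h2 : b * (a * v * a⁻¹) * b⁻¹ ∈ V := (Subgroup.mem_normalizer_iff.mp (hAV hb) _).mp h1
  have hc : ⁅a, b⁆ ∈ Subgroup.centralizer (V : Set G) := hab (Subgroup.commutator_mem_commutator ha hb)
  have h3 : (b * (a * v * a⁻¹) * b⁻¹) * ⁅a, b⁆ = ⁅a, b⁆ * (b * (a * v * a⁻¹) * b⁻¹) :=
    (Subgroup.mem_centralizer_iff.mp hc) _ h2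
  calc a * (b * v * b⁻¹) * a⁻¹ = ⁅a, b⁆ * (b * (a * v * a⁻¹) * b⁻¹) * ⁅a, b⁆⁻¹ := by
        simp only [commutatorElement_def]; group
    _ = (b * (a * v * a⁻¹) * b⁻¹) * ⁅a, b⁆ * ⁅a, b⁆⁻¹ := by rw [h3]
    _ = b * (a * v * a⁻¹) * b⁻¹ := by rw [mul_inv_cancel_right]

theorem comm_mem {V A : Subgroup G} (hAV : A ≤ Subgroup.normalizer (V : Set G)) {u a : G}
    (hu : u ∈ V) (ha : a ∈ A) : ⁅u, a⁆ ∈ V := by
  have h1 : a * u⁻¹ * a⁻¹ ∈ V := (Subgroup.mem_normalizer_iff.mp (hAV ha) u⁻¹).mp (V.inv_mem hu)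
  have e : ⁅u, a⁆ = u * (a * u⁻¹ * a⁻¹) := by
    simp only [commutatorElement_def]; group
  rw [e]; exact V.mul_mem hu h1

/-- step (3) -/
theorem comm_inv_mul {A : Subgroup G} {u a a' c c' : G} (ha : a ∈ A)
    (hc : c ∈ Subgroup.centralizer (A : Set G)) (hc' : c' ∈ Subgroup.centralizer (A : Set G))
    (h : ⁅u, a⁆ * c = ⁅u, a'⁆ * c') : ⁅u, a⁻¹ * a'⁆ = c * c'⁻¹ := by
  have e1 : a' * u⁻¹ * a'⁻¹ = a * u⁻¹ * a⁻¹ * (c * c'⁻¹) := by
    calc a' * u⁻¹ * a'⁻¹ = u⁻¹ * (⁅u, a'⁆ * c') * c'⁻¹ := by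
          simp only [commutatorElement_def]; group
      _ = u⁻¹ * (⁅u, a⁆ * c) * c'⁻¹ := by rw [h]
      _ = a * u⁻¹ * a⁻¹ * (c * c'⁻¹) := by simp only [commutatorElement_def]; group
  have hcc : c * c'⁻¹ ∈ Subgroup.centralizer (A : Set G) := mul_mem hc (inv_mem hc')
  have e2 : a * (c * c'⁻¹) = (c * c'⁻¹) * a := (Subgroup.mem_centralizer_iff.mp hcc) a ha
  calc ⁅u, a⁻¹ * a'⁆ = u * (a⁻¹ * (a' * u⁻¹ * a'⁻¹) * a) := by
        simp only [commutatorElement_def]; group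
    _ = u * (a⁻¹ * (a * u⁻¹ * a⁻¹ * (c * c'⁻¹)) * a) := by rw [e1]
    _ = u * (u⁻¹ * a⁻¹ * ((c * c'⁻¹) * a)) := by group
    _ = u * (u⁻¹ * a⁻¹ * (a * (c * c'⁻¹))) := by rw [e2]
    _ = c * c'⁻¹ := by group

/-- step (2) -/
theorem comm_centralizes {V A : Subgroup G} (hVc : ∀ x ∈ V, ∀ y ∈ V, x * y = y * x)
    (hAV : A ≤ Subgroup.normalizer (V : Set G))
    (hab : ⁅A, A⁆ ≤ Subgroup.centralizer (V : Set G)) {u d b : G} (hu : u ∈ V) (hd : d ∈ A)
    (hb : b ∈ A) (hw : ⁅u, d⁆ ∈ Subgroup.centralizer (A : Set G)) :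
    ⁅u, b⁆ * d = d * ⁅u, b⁆ := by
  have hwV : ⁅u, d⁆ ∈ V := comm_mem hAV hu hd
  have f1 : d * u⁻¹ * d⁻¹ = u⁻¹ * ⁅u, d⁆ := by simp only [commutatorElement_def]; group
  have f2 : d * u * d⁻¹ = ⁅u, d⁆⁻¹ * u := by simp only [commutatorElement_def]; group
  have f3 : b * ⁅u, d⁆ * b⁻¹ = ⁅u, d⁆ := by
    have := (Subgroup.mem_centralizer_iff.mp hw) b hb
    rw [this, mul_inv_cancel_right]
  have f4 := conj_comm hAV hab hd hb (V.inv_mem hu)
  have hubV : ⁅u, b⁆ ∈ V := comm_mem hAV hu hb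
  have f5 : ⁅u, d⁆⁻¹ * ⁅u, b⁆ = ⁅u, b⁆ * ⁅u, d⁆⁻¹ := hVc _ (V.inv_mem hwV) _ hubV
  generalize ⁅u, d⁆ = w at f1 f2 f3 f5
  have key : d * ⁅u, b⁆ * d⁻¹ = ⁅u, b⁆ := by
    calc d * ⁅u, b⁆ * d⁻¹ = (d * u * d⁻¹) * (d * (b * u⁻¹ * b⁻¹) * d⁻¹) := by
          simp only [commutatorElement_def]; group
      _ = (w⁻¹ * u) * (b * (u⁻¹ * w) * b⁻¹) := by rw [f2, f4, f1]
      _ = (w⁻¹ * u) * ((b * u⁻¹ * b⁻¹) * (b * w * b⁻¹)) := by group
      _ = (w⁻¹ * u) * ((b * u⁻¹ * b⁻¹) * w) := by rw [f3]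
      _ = (w⁻¹ * ⁅u, b⁆) * w := by simp only [commutatorElement_def]; group
      _ = (⁅u, b⁆ * w⁻¹) * w := by rw [f5]
      _ = ⁅u, b⁆ := by rw [inv_mul_cancel_right]
  calc ⁅u, b⁆ * d = (d * ⁅u, b⁆ * d⁻¹) * d := by rw [key]
    _ = d * ⁅u, b⁆ := by rw [inv_mul_cancel_right]

/-- the set of commutators `⁅u, a⁆` with `u ∈ T`, `a ∈ A` -/
def commSet (T : Set G) (A : Subgroup G) : Set G := {g | ∃ u ∈ T, ∃ a ∈ A, ⁅u, a⁆ = g}

theorem centralizer_union' (s t : Set G) :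
    Subgroup.centralizer (s ∪ t) = Subgroup.centralizer s ⊓ Subgroup.centralizer t := by
  ext x
  simp only [Subgroup.mem_centralizer_iff, Subgroup.mem_inf, Set.mem_union]
  constructor
  · intro h; exact ⟨fun y hy => h y (Or.inl hy), fun y hy => h y (Or.inr hy)⟩
  · rintro ⟨h1, h2⟩ y (hy | hy)
    · exact h1 y hy
    · exact h2 y hy

theorem centralizer_sup' (B1 B2 : Subgroup G) :
    Subgroup.centralizer ((B1 ⊔ B2 : Subgroup G) : Set G) =
      Subgroup.centralizer (B1 : Set G) ⊓ Subgroup.centralizer (B2 : Set G) := by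
  have : B1 ⊔ B2 = Subgroup.closure ((B1 : Set G) ∪ B2) := by
    rw [Subgroup.closure_union, Subgroup.closure_eq, Subgroup.closure_eq]
  rw [this, Subgroup.centralizer_closure, centralizer_union']

theorem commSet_union (T1 T2 : Set G) (A : Subgroup G) :
    commSet (T1 ∪ T2) A = commSet T1 A ∪ commSet T2 A := by
  ext g
  simp only [commSet, Set.mem_union, Set.mem_ofPred_eq]
  constructor
  · rintro ⟨u, hu | hu, a, ha, rfl⟩
    · exact Or.inl ⟨u, hu, a, ha, rfl⟩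
    · exact Or.inr ⟨u, hu, a, ha, rfl⟩
  · rintro (⟨u, hu, a, ha, rfl⟩ | ⟨u, hu, a, ha, rfl⟩)
    · exact ⟨u, Or.inl hu, a, ha, rfl⟩
    · exact ⟨u, Or.inr hu, a, ha, rfl⟩

theorem commSet_subset {V A : Subgroup G} (hAV : A ≤ Subgroup.normalizer (V : Set G))
    {T : Set G} (hT : T ⊆ V) : commSet T A ⊆ V := by
  rintro g ⟨u, hu, a, ha, rfl⟩
  exact comm_mem hAV (hT hu) ha

/-- `X_T ⊔ C_V(A) ≤ C_V(B_T)` -/
theorem Y_le {V A : Subgroup G} (hAV : A ≤ Subgroup.normalizer (V : Set G))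
    {T : Set G} (hT : T ⊆ V) :
    Subgroup.closure (commSet T A) ⊔ (V ⊓ Subgroup.centralizer (A : Set G)) ≤
      V ⊓ Subgroup.centralizer ((A ⊓ Subgroup.centralizer (commSet T A) : Subgroup G) : Set G) := by
  apply sup_le
  · apply le_inf
    · rw [Subgroup.closure_le]; exact commSet_subset hAV hT
    · rw [Subgroup.le_centralizer_iff, Subgroup.centralizer_closure]
      exact inf_le_right
  · exact inf_le_inf_left V (Subgroup.centralizer_le inf_le_left)

/-- the counting inequality in the cyclic case -/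
theorem cyc_count [Finite G] {V A : Subgroup G} (hVc : ∀ x ∈ V, ∀ y ∈ V, x * y = y * x)
    (hAV : A ≤ Subgroup.normalizer (V : Set G))
    (hab : ⁅A, A⁆ ≤ Subgroup.centralizer (V : Set G)) {u : G} (hu : u ∈ V) :
    Nat.card A * Nat.card ↥(V ⊓ Subgroup.centralizer (A : Set G)) ≤
      Nat.card ↥(A ⊓ Subgroup.centralizer (commSet {u} A)) *
        Nat.card ↥(Subgroup.closure (commSet {u} A) ⊔ (V ⊓ Subgroup.centralizer (A : Set G))) := by
  let Φ : ↥A × ↥(V ⊓ Subgroup.centralizer (A : Set G)) → G := fun x => ⁅u, (x.1 : G)⁆ * (x.2 : G)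
  have hΦY : ∀ x, Φ x ∈ Subgroup.closure (commSet {u} A) ⊔ (V ⊓ Subgroup.centralizer (A : Set G)) := by
    intro x
    exact mul_mem (Subgroup.mem_sup_left (Subgroup.subset_closure ⟨u, rfl, x.1, x.1.2, rfl⟩))
      (Subgroup.mem_sup_right x.2.2)
  have hK : ∀ x x', Φ x = Φ x' →
      (x.1 : G)⁻¹ * (x'.1 : G) ∈ A ⊓ Subgroup.centralizer (commSet {u} A) := by
    intro x x' h
    have hd : (x.1 : G)⁻¹ * (x'.1 : G) ∈ A := A.mul_mem (A.inv_mem x.1.2) x'.1.2
    have h3 : ⁅u, (x.1 : G)⁻¹ * (x'.1 : G)⁆ = (x.2 : G) * (x'.2 : G)⁻¹ :=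
      comm_inv_mul x.1.2 x.2.2.2 x'.2.2.2 h
    have hw : ⁅u, (x.1 : G)⁻¹ * (x'.1 : G)⁆ ∈ Subgroup.centralizer (A : Set G) := by
      rw [h3]; exact mul_mem x.2.2.2 (inv_mem x'.2.2.2)
    rw [Subgroup.mem_inf]
    refine ⟨hd, ?_⟩
    rw [Subgroup.mem_centralizer_iff]
    rintro g ⟨u', hu', b, hb, rfl⟩
    rw [Set.mem_singleton_iff] at hu'
    subst hu'
    exact comm_centralizes hVc hAV hab hu hd hb hw
  let Ψ : ↥A × ↥(V ⊓ Subgroup.centralizer (A : Set G)) →
      ↥(Subgroup.closure (commSet {u} A) ⊔ (V ⊓ Subgroup.centralizer (A : Set G))) ×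
        ↥(A ⊓ Subgroup.centralizer (commSet {u} A)) :=
    fun x => (⟨Φ x, hΦY x⟩, ⟨((Function.invFun Φ (Φ x)).1 : G)⁻¹ * (x.1 : G),
      hK _ x (Function.invFun_eq ⟨x, rfl⟩)⟩)
  have hΨ : Function.Injective Ψ := by
    intro x x' h
    have h1 : Φ x = Φ x' := congrArg (fun y => (y.1 : G)) h
    have h2 : ((Function.invFun Φ (Φ x)).1 : G)⁻¹ * (x.1 : G) =
        ((Function.invFun Φ (Φ x')).1 : G)⁻¹ * (x'.1 : G) := congrArg (fun y => (y.2 : G)) h
    rw [h1] at h2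
    have h3 : (x.1 : G) = (x'.1 : G) := mul_left_cancel h2
    have h4 : ⁅u, (x.1 : G)⁆ * (x.2 : G) = ⁅u, (x'.1 : G)⁆ * (x'.2 : G) := h1
    rw [h3] at h4
    have h5 : (x.2 : G) = (x'.2 : G) := mul_left_cancel h4
    exact Prod.ext (Subtype.ext h3) (Subtype.ext h5)
  have hcard := Nat.card_le_card_of_injective Ψ hΨ
  rw [Nat.card_prod, Nat.card_prod] at hcard
  rw [mul_comm (Nat.card ↥(A ⊓ Subgroup.centralizer (commSet {u} A)))]
  exact hcard

/-- the property established for finite sets `T ⊆ V` of generators -/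
def Good (V A : Subgroup G) (T : Set G) : Prop :=
  Nat.card ↥(A ⊓ Subgroup.centralizer (commSet T A)) *
      Nat.card ↥(V ⊓ Subgroup.centralizer ((A ⊓ Subgroup.centralizer (commSet T A) : Subgroup G) : Set G)) =
    Nat.card A * Nat.card ↥(V ⊓ Subgroup.centralizer (A : Set G)) ∧
  V ⊓ Subgroup.centralizer ((A ⊓ Subgroup.centralizer (commSet T A) : Subgroup G) : Set G) =
    Subgroup.closure (commSet T A) ⊔ (V ⊓ Subgroup.centralizer (A : Set G))

theorem good_empty (V A : Subgroup G) : Good V A ∅ := by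
  have h1 : commSet (∅ : Set G) A = ∅ := by
    ext g
    simp [commSet]
  have h2 : A ⊓ Subgroup.centralizer (commSet (∅ : Set G) A) = A := by
    rw [h1]
    apply inf_of_le_left
    intro x _
    rw [Subgroup.mem_centralizer_iff]
    intro y hy
    exact absurd hy (Set.notMem_empty y)
  unfold Good
  rw [h2, h1, Subgroup.closure_empty, bot_sup_eq]
  exact ⟨rfl, rfl⟩

theorem good_singleton [Finite G] {V A : Subgroup G} (hVc : ∀ x ∈ V, ∀ y ∈ V, x * y = y * x)
    (hAV : A ≤ Subgroup.normalizer (V : Set G))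
    (hab : ⁅A, A⁆ ≤ Subgroup.centralizer (V : Set G))
    (hmax : ∀ B : Subgroup G, B ≤ A → Nat.card B * Nat.card ↥(V ⊓ Subgroup.centralizer (B : Set G)) ≤
      Nat.card A * Nat.card ↥(V ⊓ Subgroup.centralizer (A : Set G)))
    {u : G} (hu : u ∈ V) : Good V A {u} := by
  have hcount := cyc_count hVc hAV hab hu
  have hT : ({u} : Set G) ⊆ V := by
    intro x hx; rw [Set.mem_singleton_iff] at hx; rw [hx]; exact hu
  have hYle := Y_le hAV hT
  have hm := hmax (A ⊓ Subgroup.centralizer (commSet {u} A)) inf_le_left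
  have hle := Subgroup.card_le_of_le hYle
  have hBpos : 0 < Nat.card ↥(A ⊓ Subgroup.centralizer (commSet {u} A)) := Nat.card_pos
  have h1 : Nat.card ↥(A ⊓ Subgroup.centralizer (commSet {u} A)) *
      Nat.card ↥(Subgroup.closure (commSet {u} A) ⊔ (V ⊓ Subgroup.centralizer (A : Set G))) ≤
      Nat.card ↥(A ⊓ Subgroup.centralizer (commSet {u} A)) *
      Nat.card ↥(V ⊓ Subgroup.centralizer ((A ⊓ Subgroup.centralizer (commSet {u} A) : Subgroup G) : Set G)) :=
    Nat.mul_le_mul_left _ hle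
  have e1 : Nat.card ↥(A ⊓ Subgroup.centralizer (commSet {u} A)) *
      Nat.card ↥(V ⊓ Subgroup.centralizer ((A ⊓ Subgroup.centralizer (commSet {u} A) : Subgroup G) : Set G)) =
      Nat.card A * Nat.card ↥(V ⊓ Subgroup.centralizer (A : Set G)) :=
    le_antisymm hm (hcount.trans h1)
  have e2 : Nat.card ↥(V ⊓ Subgroup.centralizer ((A ⊓ Subgroup.centralizer (commSet {u} A) : Subgroup G) : Set G)) ≤
      Nat.card ↥(Subgroup.closure (commSet {u} A) ⊔ (V ⊓ Subgroup.centralizer (A : Set G))) := by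
    have : Nat.card ↥(A ⊓ Subgroup.centralizer (commSet {u} A)) *
      Nat.card ↥(V ⊓ Subgroup.centralizer ((A ⊓ Subgroup.centralizer (commSet {u} A) : Subgroup G) : Set G)) ≤
      Nat.card ↥(A ⊓ Subgroup.centralizer (commSet {u} A)) *
      Nat.card ↥(Subgroup.closure (commSet {u} A) ⊔ (V ⊓ Subgroup.centralizer (A : Set G))) := by
      rw [e1]; exact hcount
    exact Nat.le_of_mul_le_mul_left this hBpos
  exact ⟨e1, (Subgroup.eq_of_le_of_card_ge hYle e2).symm⟩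

/-- the intersection lemma -/
theorem inter_lemma [Finite G] {V A : Subgroup G} (hVc : ∀ x ∈ V, ∀ y ∈ V, x * y = y * x)
    (hmax : ∀ B : Subgroup G, B ≤ A → Nat.card B * Nat.card ↥(V ⊓ Subgroup.centralizer (B : Set G)) ≤
      Nat.card A * Nat.card ↥(V ⊓ Subgroup.centralizer (A : Set G)))
    {B1 B2 : Subgroup G} (h1 : B1 ≤ A) (h2 : B2 ≤ A)
    (hn : B1 ≤ Subgroup.normalizer (B2 : Set G))
    (e1 : Nat.card B1 * Nat.card ↥(V ⊓ Subgroup.centralizer (B1 : Set G)) =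
      Nat.card A * Nat.card ↥(V ⊓ Subgroup.centralizer (A : Set G)))
    (e2 : Nat.card B2 * Nat.card ↥(V ⊓ Subgroup.centralizer (B2 : Set G)) =
      Nat.card A * Nat.card ↥(V ⊓ Subgroup.centralizer (A : Set G))) :
    Nat.card ↥(B1 ⊓ B2) * Nat.card ↥(V ⊓ Subgroup.centralizer ((B1 ⊓ B2 : Subgroup G) : Set G)) =
      Nat.card A * Nat.card ↥(V ⊓ Subgroup.centralizer (A : Set G)) ∧
    V ⊓ Subgroup.centralizer ((B1 ⊓ B2 : Subgroup G) : Set G) =
      (V ⊓ Subgroup.centralizer (B1 : Set G)) ⊔ (V ⊓ Subgroup.centralizer (B2 : Set G)) := by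
  have hJ := hmax (B1 ⊔ B2) (sup_le h1 h2)
  have hI := hmax (B1 ⊓ B2) (inf_le_left.trans h1)
  have P1 := card_mul_card_eq B1 B2 hn
  have hn' : V ⊓ Subgroup.centralizer (B1 : Set G) ≤
      Subgroup.normalizer ((V ⊓ Subgroup.centralizer (B2 : Set G) : Subgroup G) : Set G) := by
    intro x hx
    rw [Subgroup.mem_normalizer_iff]
    intro y
    constructor
    · intro hy
      rw [hVc x hx.1 y hy.1, mul_inv_cancel_right]; exact hy
    · intro hy
      have hxy : x * y * x⁻¹ ∈ V := hy.1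
      have hyV : y ∈ V := by
        have := V.mul_mem (V.mul_mem (V.inv_mem hx.1) hxy) hx.1
        have e : x⁻¹ * (x * y * x⁻¹) * x = y := by group
        rwa [e] at this
      have e : x * y * x⁻¹ = y := by rw [hVc x hx.1 y hyV, mul_inv_cancel_right]
      rwa [e] at hy
  have P2 := card_mul_card_eq (V ⊓ Subgroup.centralizer (B1 : Set G))
    (V ⊓ Subgroup.centralizer (B2 : Set G)) hn'
  have P3 : (V ⊓ Subgroup.centralizer (B1 : Set G)) ⊓ (V ⊓ Subgroup.centralizer (B2 : Set G)) =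
      V ⊓ Subgroup.centralizer ((B1 ⊔ B2 : Subgroup G) : Set G) := by
    rw [centralizer_sup']
    ext x
    simp only [Subgroup.mem_inf]
    tauto
  have P4 : (V ⊓ Subgroup.centralizer (B1 : Set G)) ⊔ (V ⊓ Subgroup.centralizer (B2 : Set G)) ≤
      V ⊓ Subgroup.centralizer ((B1 ⊓ B2 : Subgroup G) : Set G) :=
    sup_le (inf_le_inf_left V (Subgroup.centralizer_le inf_le_left))
      (inf_le_inf_left V (Subgroup.centralizer_le inf_le_right))
  rw [P3] at P2
  have hle := Subgroup.card_le_of_le P4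
  have hIpos : 0 < Nat.card ↥(B1 ⊓ B2) := Nat.card_pos
  have hApos : 0 < Nat.card A := Nat.card_pos
  have hCpos : 0 < Nat.card ↥(V ⊓ Subgroup.centralizer (A : Set G)) := Nat.card_pos
  have hmpos : 0 < Nat.card A * Nat.card ↥(V ⊓ Subgroup.centralizer (A : Set G)) :=
    Nat.mul_pos hApos hCpos
  -- abbreviations
  generalize Nat.card A * Nat.card ↥(V ⊓ Subgroup.centralizer (A : Set G)) = m at *
  generalize Nat.card ↥(B1 ⊔ B2) = j at *
  generalize Nat.card ↥(B1 ⊓ B2) = i at *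
  generalize Nat.card ↥(V ⊓ Subgroup.centralizer ((B1 ⊔ B2 : Subgroup G) : Set G)) = cj at *
  generalize hci : Nat.card ↥(V ⊓ Subgroup.centralizer ((B1 ⊓ B2 : Subgroup G) : Set G)) = ci at *
  generalize hw : Nat.card ↥((V ⊓ Subgroup.centralizer (B1 : Set G)) ⊔ (V ⊓ Subgroup.centralizer (B2 : Set G))) = w at *
  generalize Nat.card B1 = b1 at *
  generalize Nat.card B2 = b2 at *
  generalize Nat.card ↥(V ⊓ Subgroup.centralizer (B1 : Set G)) = c1 at *
  generalize Nat.card ↥(V ⊓ Subgroup.centralizer (B2 : Set G)) = c2 at *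
  -- e1 : b1 * c1 = m, e2 : b2 * c2 = m, P1 : b1 * b2 = j * i, P2 : c1 * c2 = w * cj
  -- hJ : j * cj ≤ m, hI : i * ci ≤ m, hle : w ≤ ci
  have hmm : (j * cj) * (i * w) = m * m := by
    calc (j * cj) * (i * w) = (j * i) * (w * cj) := by ring
      _ = (b1 * b2) * (c1 * c2) := by rw [P1, P2]
      _ = (b1 * c1) * (b2 * c2) := by ring
      _ = m * m := by rw [e1, e2]
  have hiw : i * w ≤ i * ci := Nat.mul_le_mul_left i hle
  have hy : m ≤ i * w := by
    by_contra hlt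
    rw [not_le] at hlt
    have : (j * cj) * (i * w) < m * m :=
      calc (j * cj) * (i * w) ≤ m * (i * w) := Nat.mul_le_mul_right _ hJ
        _ < m * m := Nat.mul_lt_mul_of_pos_left hlt hmpos
    exact absurd hmm (ne_of_lt this)
  have hz : i * ci = m := le_antisymm hI (hy.trans hiw)
  have hwci : ci ≤ w := by
    have : i * ci ≤ i * w := by rw [hz]; exact hy
    exact Nat.le_of_mul_le_mul_left this hIpos
  refine ⟨hz, ?_⟩
  exact (Subgroup.eq_of_le_of_card_ge P4 (by rw [hci, hw]; exact hwci)).symm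

theorem good_union [Finite G] {V A : Subgroup G} (hVc : ∀ x ∈ V, ∀ y ∈ V, x * y = y * x)
    (hAV : A ≤ Subgroup.normalizer (V : Set G))
    (hab : ⁅A, A⁆ ≤ Subgroup.centralizer (V : Set G))
    (hmax : ∀ B : Subgroup G, B ≤ A → Nat.card B * Nat.card ↥(V ⊓ Subgroup.centralizer (B : Set G)) ≤
      Nat.card A * Nat.card ↥(V ⊓ Subgroup.centralizer (A : Set G)))
    {T1 T2 : Set G} (hT2 : T2 ⊆ V) (h1 : Good V A T1) (h2 : Good V A T2) :
    Good V A (T1 ∪ T2) := by
  have hB : A ⊓ Subgroup.centralizer (commSet (T1 ∪ T2) A) =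
      (A ⊓ Subgroup.centralizer (commSet T1 A)) ⊓ (A ⊓ Subgroup.centralizer (commSet T2 A)) := by
    rw [commSet_union, centralizer_union']
    ext x
    simp only [Subgroup.mem_inf]
    tauto
  have hn : A ⊓ Subgroup.centralizer (commSet T1 A) ≤
      Subgroup.normalizer ((A ⊓ Subgroup.centralizer (commSet T2 A) : Subgroup G) : Set G) := by
    rw [Subgroup.le_normalizer_iff_commutator_le_right]
    have hc : ⁅A, A⁆ ≤ A ⊓ Subgroup.centralizer (commSet T2 A) :=
      le_inf (Subgroup.commutator_le_self A)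
        (hab.trans (Subgroup.centralizer_le (commSet_subset hAV hT2)))
    exact (Subgroup.commutator_mono inf_le_left inf_le_left).trans hc
  have key := inter_lemma hVc hmax (B1 := A ⊓ Subgroup.centralizer (commSet T1 A))
    (B2 := A ⊓ Subgroup.centralizer (commSet T2 A)) inf_le_left inf_le_left hn h1.1 h2.1
  unfold Good
  rw [hB]
  refine ⟨key.1, ?_⟩
  rw [key.2, h1.2, h2.2, commSet_union, Subgroup.closure_union]
  apply le_antisymm
  · exact sup_le (sup_le (le_sup_left.trans le_sup_left) le_sup_right)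
      (sup_le (le_sup_right.trans le_sup_left) le_sup_right)
  · exact sup_le (sup_le (le_sup_left.trans le_sup_left) (le_sup_left.trans le_sup_right))
      (le_sup_right.trans le_sup_left)

theorem good_finset [Finite G] {V A : Subgroup G} (hVc : ∀ x ∈ V, ∀ y ∈ V, x * y = y * x)
    (hAV : A ≤ Subgroup.normalizer (V : Set G))
    (hab : ⁅A, A⁆ ≤ Subgroup.centralizer (V : Set G))
    (hmax : ∀ B : Subgroup G, B ≤ A → Nat.card B * Nat.card ↥(V ⊓ Subgroup.centralizer (B : Set G)) ≤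
      Nat.card A * Nat.card ↥(V ⊓ Subgroup.centralizer (A : Set G))) :
    ∀ s : Finset G, (s : Set G) ⊆ V → Good V A (s : Set G) := by
  classical
  intro s
  induction s using Finset.induction_on with
  | empty =>
    intro _
    rw [Finset.coe_empty]
    exact good_empty V A
  | insert u s hus ih =>
    intro hs
    rw [Finset.coe_insert] at hs ⊢
    have hu : u ∈ V := hs (Set.mem_insert u _)
    have hs' : (s : Set G) ⊆ V := fun x hx => hs (Set.mem_insert_of_mem u hx)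
    have : insert u (s : Set G) = {u} ∪ (s : Set G) := rfl
    rw [this]
    exact good_union hVc hAV hab hmax hs' (good_singleton hVc hAV hab hmax hu) (ih hs')

/-- Under the maximality hypothesis, `C_A([U, A])` again attains the maximum and its fixed points
on `V` are `[U, A] C_V(A)`. -/
theorem replacement [Finite G] {V A : Subgroup G} (hVc : ∀ x ∈ V, ∀ y ∈ V, x * y = y * x)
    (hAV : A ≤ Subgroup.normalizer (V : Set G))
    (hab : ⁅A, A⁆ ≤ Subgroup.centralizer (V : Set G))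
    (hmax : ∀ B : Subgroup G, B ≤ A → Nat.card B * Nat.card ↥(V ⊓ Subgroup.centralizer (B : Set G)) ≤
      Nat.card A * Nat.card ↥(V ⊓ Subgroup.centralizer (A : Set G)))
    {U : Subgroup G} (hU : U ≤ V) :
    Nat.card ↥(A ⊓ Subgroup.centralizer ((⁅U, A⁆ : Subgroup G) : Set G)) *
      Nat.card ↥(V ⊓ Subgroup.centralizer ((A ⊓ Subgroup.centralizer ((⁅U, A⁆ : Subgroup G) : Set G) : Subgroup G) : Set G)) =
        Nat.card A * Nat.card ↥(V ⊓ Subgroup.centralizer (A : Set G)) ∧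
    V ⊓ Subgroup.centralizer ((A ⊓ Subgroup.centralizer ((⁅U, A⁆ : Subgroup G) : Set G) : Subgroup G) : Set G) =
      ⁅U, A⁆ ⊔ (V ⊓ Subgroup.centralizer (A : Set G)) := by
  have hfin : (U : Set G).Finite := Set.toFinite _
  have hgood := good_finset hVc hAV hab hmax hfin.toFinset (by rw [Set.Finite.coe_toFinset]; exact hU)
  rw [Set.Finite.coe_toFinset] at hgood
  have hcl : Subgroup.closure (commSet (U : Set G) A) = ⁅U, A⁆ := rfl
  have hcen : Subgroup.centralizer (commSet (U : Set G) A) =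
      Subgroup.centralizer ((⁅U, A⁆ : Subgroup G) : Set G) := by
    rw [← hcl, Subgroup.centralizer_closure]
  unfold Good at hgood
  rw [hcen, hcl] at hgood
  exact hgood

end

/-- Thompson's replacement dichotomy: for A acting with abelian image on an elementary abelian p-group V and U ≤ V, either some subgroup of A increases the product of its order with the order of its fixed points, or C_A([U,A]) preserves that product and has fixed points exactly [U,A]C_V(A). -/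
theorem result {G : Type*} [Group G] [Finite G] {p : ℕ} [Fact p.Prime] (V A : Subgroup G) (hV : Cfsg.IsElementaryAbelian p V) (hAV : A ≤ Subgroup.normalizer (V : Set G)) (hab : ⁅A, A⁆ ≤ Subgroup.centralizer (V : Set G)) (U : Subgroup G) (hU : U ≤ V) : ∃ B : Subgroup G, B ≤ A ∧ ((Nat.card A * Nat.card ↥(V ⊓ Subgroup.centralizer (A : Set G)) < Nat.card B * Nat.card ↥(V ⊓ Subgroup.centralizer (B : Set G))) ∨ (B = A ⊓ Subgroup.centralizer ((⁅U, A⁆ : Subgroup G) : Set G) ∧ (V ⊓ Subgroup.centralizer (B : Set G)) = ⁅U, A⁆ ⊔ (V ⊓ Subgroup.centralizer (A : Set G)) ∧ Nat.card A * Nat.card ↥(V ⊓ Subgroup.centralizer (A : Set G)) = Nat.card B * Nat.card ↥(V ⊓ Subgroup.centralizer (B : Set G)))) := by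
  have hVc : ∀ x ∈ V, ∀ y ∈ V, x * y = y * x := (ea_iff.mp hV).1
  by_cases hmax : ∀ B : Subgroup G, B ≤ A → Nat.card B * Nat.card ↥(V ⊓ Subgroup.centralizer (B : Set G)) ≤
      Nat.card A * Nat.card ↥(V ⊓ Subgroup.centralizer (A : Set G))
  · have h := replacement hVc hAV hab hmax hU
    exact ⟨A ⊓ Subgroup.centralizer ((⁅U, A⁆ : Subgroup G) : Set G), inf_le_left,
      Or.inr ⟨rfl, h.2, h.1.symm⟩⟩
  · rw [not_forall] at hmax
    obtain ⟨B, hB⟩ := hmax
    rw [Classical.not_imp, not_le] at hB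
    exact ⟨B, hB.1, Or.inl hB.2⟩

end Cfsg.Agent.S0598
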