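import Mathlib
import Cfsg.Statements.S0597
import Cfsg.Agent.H12.Subnormal
import Cfsg.Agent.H38.PiCore
import Cfsg.Agent.H13.Basic

set_option autoImplicit false
open Cfsg

namespace Cfsg.Agent.S0597

open scoped commutatorElement

variable {G : Type*} [Group G]

/-- the stabilizer of the chain `V ≥ W ≥ 1` -/
def chainStab (V W : Subgroup G) : Subgroup G where
  carrier := {g | g ∈ Subgroup.normalizer (V : Set G) ∧ g ∈ Subgroup.centralizer (W : Set G) ∧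
    ∀ v ∈ V, g * v * g⁻¹ * v⁻¹ ∈ W}
  mul_mem' := by
    rintro g h ⟨hg1, hg2, hg3⟩ ⟨hh1, hh2, hh3⟩
    refine ⟨Subgroup.mul_mem _ hg1 hh1, Subgroup.mul_mem _ hg2 hh2, ?_⟩
    intro v hv
    have e : g * h * v * (g * h)⁻¹ * v⁻¹ = (g * (h * v * h⁻¹ * v⁻¹) * g⁻¹) * (g * v * g⁻¹ * v⁻¹) := by
      group
    rw [e]
    have hw := hh3 v hv
    rw [Subgroup.mem_centralizer_iff] at hg2
    have e2 : g * (h * v * h⁻¹ * v⁻¹) * g⁻¹ = h * v * h⁻¹ * v⁻¹ := by
      rw [← hg2 _ hw]; group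
    rw [e2]
    exact W.mul_mem hw (hg3 v hv)
  one_mem' := by
    refine ⟨Subgroup.one_mem _, Subgroup.one_mem _, ?_⟩
    intro v hv
    have : (1 : G) * v * 1⁻¹ * v⁻¹ = 1 := by group
    rw [this]; exact W.one_mem
  inv_mem' := by
    rintro g ⟨hg1, hg2, hg3⟩
    refine ⟨Subgroup.inv_mem _ hg1, Subgroup.inv_mem _ hg2, ?_⟩
    intro v hv
    have hv' : g⁻¹ * v * g ∈ V := by
      have := (Subgroup.mem_normalizer_iff.mp (Subgroup.inv_mem _ hg1) v).mp hv
      simpa using this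
    have h := W.inv_mem (hg3 _ hv')
    have e : (g * (g⁻¹ * v * g) * g⁻¹ * (g⁻¹ * v * g)⁻¹)⁻¹ = g⁻¹ * v * g⁻¹⁻¹ * v⁻¹ := by group
    rw [e] at h
    exact h

theorem mem_chainStab {V W : Subgroup G} {g : G} : g ∈ chainStab V W ↔
    g ∈ Subgroup.normalizer (V : Set G) ∧ g ∈ Subgroup.centralizer (W : Set G) ∧
    ∀ v ∈ V, g * v * g⁻¹ * v⁻¹ ∈ W := Iff.rfl

theorem le_normalizer_of_forall {K S : Subgroup G} (h : ∀ e ∈ S, ∀ x ∈ K, e * x * e⁻¹ ∈ K) :
    S ≤ Subgroup.normalizer (K : Set G) := by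
  intro e he
  rw [Subgroup.mem_normalizer_iff]
  intro x
  refine ⟨h e he x, fun hx => ?_⟩
  have := h e⁻¹ (S.inv_mem he) _ hx
  have e2 : e⁻¹ * (e * x * e⁻¹) * e⁻¹⁻¹ = x := by group
  rwa [e2] at this

theorem conj_mem_commutator {A B : Subgroup G} {e : G} (hA : ∀ a ∈ A, e * a * e⁻¹ ∈ A)
    (hB : ∀ b ∈ B, e * b * e⁻¹ ∈ B) : ∀ x ∈ ⁅A, B⁆, e * x * e⁻¹ ∈ ⁅A, B⁆ := by
  have h1 : ⁅A, B⁆ ≤ (⁅A, B⁆).comap (MulAut.conj e).toMonoidHom := by
    rw [Subgroup.commutator_le]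
    intro a ha b hb
    rw [Subgroup.mem_comap]
    have e1 : (MulAut.conj e).toMonoidHom ⁅a, b⁆ = ⁅e * a * e⁻¹, e * b * e⁻¹⁆ := by
      simp only [commutatorElement_def, MulEquiv.coe_toMonoidHom, MulAut.conj_apply]
      group
    rw [e1]
    exact Subgroup.commutator_mem_commutator (hA a ha) (hB b hb)
  intro x hx
  have := h1 hx
  rw [Subgroup.mem_comap] at this
  simpa [MulAut.conj_apply] using this

/-- `⁅A, B⁆` is normalized by `A ⊔ B` -/
theorem sup_le_normalizer_commutator (A B : Subgroup G) :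
    A ⊔ B ≤ Subgroup.normalizer ((⁅A, B⁆ : Subgroup G) : Set G) := by
  apply le_normalizer_of_forall
  have h1 : A ⊔ B ≤ (Subgroup.normalizer ((⁅A, B⁆ : Subgroup G) : Set G)) := by
    apply sup_le
    · apply le_normalizer_of_forall
      intro e he
      have h1 : ⁅A, B⁆ ≤ (⁅A, B⁆).comap (MulAut.conj e).toMonoidHom := by
        rw [Subgroup.commutator_le]
        intro a ha b hb
        rw [Subgroup.mem_comap]
        have e1 : (MulAut.conj e).toMonoidHom ⁅a, b⁆ = ⁅e * a, b⁆ * ⁅e, b⁆⁻¹ := by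
          simp only [commutatorElement_def, MulEquiv.coe_toMonoidHom, MulAut.conj_apply]
          group
        rw [e1]
        exact Subgroup.mul_mem _ (Subgroup.commutator_mem_commutator (A.mul_mem he ha) hb)
          (Subgroup.inv_mem _ (Subgroup.commutator_mem_commutator he hb))
      intro x hx
      have := h1 hx
      rw [Subgroup.mem_comap] at this
      simpa [MulAut.conj_apply] using this
    · apply le_normalizer_of_forall
      intro e he
      have h1 : ⁅A, B⁆ ≤ (⁅A, B⁆).comap (MulAut.conj e).toMonoidHom := by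
        rw [Subgroup.commutator_le]
        intro a ha b hb
        rw [Subgroup.mem_comap]
        have e1 : (MulAut.conj e).toMonoidHom ⁅a, b⁆ = ⁅a, e⁆⁻¹ * ⁅a, e * b⁆ := by
          simp only [commutatorElement_def, MulEquiv.coe_toMonoidHom, MulAut.conj_apply]
          group
        rw [e1]
        exact Subgroup.mul_mem _ (Subgroup.inv_mem _ (Subgroup.commutator_mem_commutator ha he))
          (Subgroup.commutator_mem_commutator ha (B.mul_mem he hb))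
      intro x hx
      have := h1 hx
      rw [Subgroup.mem_comap] at this
      simpa [MulAut.conj_apply] using this
  intro e he x hx
  exact (Subgroup.mem_normalizer_iff.mp (h1 he) x).mp hx

theorem key_identity (e1 e2 v w : G) (hw : w * e2⁻¹ = e2⁻¹ * w)
    (hdef : w = (e2⁻¹ * v * e2)⁻¹ * e1⁻¹ * (e2⁻¹ * v * e2) * e1) :
    ⁅e1, e2⁆ * v * ⁅e1, e2⁆⁻¹ * v⁻¹ = (e1 * v * e1⁻¹ * v⁻¹) * (v * (e1 * w * e1⁻¹) * v⁻¹) := by
  have h1 : ⁅e1, e2⁆ * v * ⁅e1, e2⁆⁻¹ * v⁻¹ =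
      e1 * e2 * ((e2⁻¹ * v * e2) * (w * e2⁻¹)) * e1⁻¹ * v⁻¹ := by
    rw [hdef, commutatorElement_def]; group
  rw [h1, hw]; group

theorem pow_conj_aux (d v w : G) (hdw : d * w = w * d) (h : d * v * d⁻¹ = w * v) (k : ℕ) :
    d ^ k * v * (d ^ k)⁻¹ = w ^ k * v := by
  induction k with
  | zero => simp
  | succ k ih =>
    have hdwk : d * w ^ k = w ^ k * d := (Commute.pow_right (show Commute d w from hdw) k).eq
    calc d ^ (k + 1) * v * (d ^ (k + 1))⁻¹ = d * (d ^ k * v * (d ^ k)⁻¹) * d⁻¹ := by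
          rw [pow_succ']; group
      _ = d * (w ^ k * v) * d⁻¹ := by rw [ih]
      _ = (d * w ^ k) * d⁻¹ * (d * v * d⁻¹) := by group
      _ = (w ^ k * d) * d⁻¹ * (w * v) := by rw [hdwk, h]
      _ = w ^ k * w * v := by group
      _ = w ^ (k + 1) * v := by rw [pow_succ]

theorem pow_mem_centralizer {p : ℕ} {V W : Subgroup G} (hV : Cfsg.IsElementaryAbelian p V)
    (hWV : W ≤ V) {d : G} (hd : d ∈ chainStab V W) :
    d ^ p ∈ Subgroup.centralizer (V : Set G) := by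
  obtain ⟨hd1, hd2, hd3⟩ := hd
  rw [Subgroup.mem_centralizer_iff]
  intro v hv
  have hw := hd3 v hv
  rw [Subgroup.mem_centralizer_iff] at hd2
  have h1 : d * v * d⁻¹ = (d * v * d⁻¹ * v⁻¹) * v := by group
  have h2 := pow_conj_aux d v (d * v * d⁻¹ * v⁻¹) (hd2 _ hw).symm h1 p
  rw [hV.2 _ (hWV hw), one_mul] at h2
  calc v * d ^ p = (d ^ p * v * (d ^ p)⁻¹) * d ^ p := by rw [h2]
    _ = d ^ p * v := by group

/-- If two subnormal subgroups of a faithful group on an elementary abelian p-group satisfy [V, E₁, E₂] = 1, then their commutator lies in the largest normal p-subgroup. -/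
theorem result {G : Type*} [Group G] [Finite G] {p : ℕ} [Fact p.Prime] (V H : Subgroup G) (hV : Cfsg.IsElementaryAbelian p V) (hHV : H ≤ Subgroup.normalizer (V : Set G)) (hf : H ⊓ Subgroup.centralizer (V : Set G) = ⊥) (E₁ E₂ : Subgroup G) (h₁ : E₁ ≤ H) (h₂ : E₂ ≤ H) (hs₁ : (E₁.subgroupOf H).IsSubnormal) (hs₂ : (E₂.subgroupOf H).IsSubnormal) (hc : ⁅⁅V, E₁⁆, E₂⁆ = ⊥) : ⁅E₁, E₂⁆ ≤ (Cfsg.pCore p H).map H.subtype := by
  have hVcomm : ∀ a ∈ V, ∀ b ∈ V, a * b = b * a := (Cfsg.Agent.H13.ea_iff.mp hV).1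
  -- conjugation by elements of H preserves V
  have hconjV : ∀ e ∈ H, ∀ v ∈ V, e * v * e⁻¹ ∈ V := by
    intro e he v hv
    exact (Subgroup.mem_normalizer_iff.mp (hHV he) v).mp hv
  have hWV : ⁅V, E₁⁆ ≤ V := by
    rw [Subgroup.commutator_le]
    intro v hv e he
    have := V.mul_mem hv (V.inv_mem (hconjV e (h₁ he) v hv))
    have e1 : ⁅v, e⁆ = v * (e * v * e⁻¹)⁻¹ := by rw [commutatorElement_def]; group
    rw [e1]; exact this
  have hconjW : ∀ e ∈ E₁, ∀ x ∈ ⁅V, E₁⁆, e * x * e⁻¹ ∈ ⁅V, E₁⁆ := by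
    intro e he
    apply conj_mem_commutator
    · exact hconjV e (h₁ he)
    · intro b hb
      exact E₁.mul_mem (E₁.mul_mem he hb) (E₁.inv_mem he)
  have hWE₂ : ⁅V, E₁⁆ ≤ Subgroup.centralizer (E₂ : Set G) :=
    Subgroup.commutator_eq_bot_iff_le_centralizer.mp hc
  -- e2 * w = w * e2
  have hcomm2 : ∀ w ∈ ⁅V, E₁⁆, ∀ e ∈ E₂, e * w = w * e := by
    intro w hw e he
    have := hWE₂ hw
    rw [Subgroup.mem_centralizer_iff] at this
    exact this e he
  have hD : ⁅E₁, E₂⁆ ≤ chainStab V ⁅V, E₁⁆ := by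
    rw [Subgroup.commutator_le]
    intro e1 he1 e2 he2
    rw [mem_chainStab]
    refine ⟨?_, ?_, ?_⟩
    · have hx : ⁅e1, e2⁆ ∈ H := by
        rw [commutatorElement_def]
        exact H.mul_mem (H.mul_mem (H.mul_mem (h₁ he1) (h₂ he2)) (H.inv_mem (h₁ he1)))
          (H.inv_mem (h₂ he2))
      exact hHV hx
    · rw [Subgroup.mem_centralizer_iff]
      intro w hw
      have hw' : e1⁻¹ * w * e1 ∈ ⁅V, E₁⁆ := by
        have := hconjW e1⁻¹ (E₁.inv_mem he1) w hw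
        simpa using this
      have c1 : e2⁻¹ * w = w * e2⁻¹ := hcomm2 w hw e2⁻¹ (E₂.inv_mem he2)
      have c2 : e2 * (e1⁻¹ * w * e1) = (e1⁻¹ * w * e1) * e2 := hcomm2 _ hw' e2 he2
      rw [commutatorElement_def]
      calc w * (e1 * e2 * e1⁻¹ * e2⁻¹) = e1 * ((e1⁻¹ * w * e1) * e2) * e1⁻¹ * e2⁻¹ := by group
        _ = e1 * (e2 * (e1⁻¹ * w * e1)) * e1⁻¹ * e2⁻¹ := by rw [c2]
        _ = e1 * e2 * e1⁻¹ * (w * e2⁻¹) := by group
        _ = e1 * e2 * e1⁻¹ * (e2⁻¹ * w) := by rw [c1]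
        _ = e1 * e2 * e1⁻¹ * e2⁻¹ * w := by group
    · intro v hv
      have hv1 : e2⁻¹ * v * e2 ∈ V := by
        have := hconjV e2⁻¹ (H.inv_mem (h₂ he2)) v hv
        simpa using this
      have hw1 : (e2⁻¹ * v * e2)⁻¹ * e1⁻¹ * (e2⁻¹ * v * e2) * e1 ∈ ⁅V, E₁⁆ := by
        have := Subgroup.commutator_mem_commutator (V.inv_mem hv1) (E₁.inv_mem he1)
        rw [commutatorElement_def] at this
        simpa using this
      have hcw : (e2⁻¹ * v * e2)⁻¹ * e1⁻¹ * (e2⁻¹ * v * e2) * e1 * e2⁻¹ =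
          e2⁻¹ * ((e2⁻¹ * v * e2)⁻¹ * e1⁻¹ * (e2⁻¹ * v * e2) * e1) :=
        (hcomm2 _ hw1 e2⁻¹ (E₂.inv_mem he2)).symm
      rw [key_identity e1 e2 v _ hcw rfl]
      apply Subgroup.mul_mem
      · have := Subgroup.inv_mem _ (Subgroup.commutator_mem_commutator hv he1)
        rw [commutatorElement_inv, commutatorElement_def] at this
        exact this
      · have hw3 := hconjW e1 he1 _ hw1
        have hcv := hVcomm v hv _ (hWV hw3)
        have e3 : v * (e1 * ((e2⁻¹ * v * e2)⁻¹ * e1⁻¹ * (e2⁻¹ * v * e2) * e1) * e1⁻¹) * v⁻¹ =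
            e1 * ((e2⁻¹ * v * e2)⁻¹ * e1⁻¹ * (e2⁻¹ * v * e2) * e1) * e1⁻¹ := by
          rw [hcv]; group
        rw [e3]; exact hw3
  -- every element of ⁅E₁, E₂⁆ has order dividing p
  have hDH : ⁅E₁, E₂⁆ ≤ H := by
    rw [Subgroup.commutator_le]
    intro e1 he1 e2 he2
    rw [commutatorElement_def]
    exact H.mul_mem (H.mul_mem (H.mul_mem (h₁ he1) (h₂ he2)) (H.inv_mem (h₁ he1)))
      (H.inv_mem (h₂ he2))
  have hpow : ∀ d ∈ ⁅E₁, E₂⁆, d ^ p = 1 := by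
    intro d hd
    have h1 := pow_mem_centralizer hV hWV (hD hd)
    have h2 : d ^ p ∈ H ⊓ Subgroup.centralizer (V : Set G) :=
      Subgroup.mem_inf.mpr ⟨H.pow_mem (hDH hd) p, h1⟩
    rw [hf, Subgroup.mem_bot] at h2
    exact h2
  -- work inside H
  have hmap : (⁅E₁.subgroupOf H, E₂.subgroupOf H⁆).map H.subtype = ⁅E₁, E₂⁆ := by
    rw [Subgroup.map_commutator, Subgroup.map_subgroupOf_eq_of_le h₁,
      Subgroup.map_subgroupOf_eq_of_le h₂]
  have hsub : (E₁.subgroupOf H ⊔ E₂.subgroupOf H).IsSubnormal :=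
    Cfsg.Agent.H12.isSubnormal_sup hs₁ hs₂
  have hDsub : (⁅E₁.subgroupOf H, E₂.subgroupOf H⁆).IsSubnormal := by
    have hle : ⁅E₁.subgroupOf H, E₂.subgroupOf H⁆ ≤ E₁.subgroupOf H ⊔ E₂.subgroupOf H := by
      rw [Subgroup.commutator_le]
      intro a ha b hb
      rw [commutatorElement_def]
      have ha' : a ∈ E₁.subgroupOf H ⊔ E₂.subgroupOf H := le_sup_left (a := E₁.subgroupOf H) ha
      have hb' : b ∈ E₁.subgroupOf H ⊔ E₂.subgroupOf H := le_sup_right (b := E₂.subgroupOf H) hb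
      exact Subgroup.mul_mem _ (Subgroup.mul_mem _ (Subgroup.mul_mem _ ha' hb')
        (Subgroup.inv_mem _ ha')) (Subgroup.inv_mem _ hb')
    refine Subgroup.IsSubnormal.step _ _ hle hsub ?_
    exact Subgroup.normal_subgroupOf_of_le_normalizer (sup_le_normalizer_commutator _ _)
  have hDp : IsPGroup p ↥(⁅E₁.subgroupOf H, E₂.subgroupOf H⁆) := by
    intro x
    refine ⟨1, ?_⟩
    rw [pow_one]
    have hx : ((x : ↥H) : G) ∈ ⁅E₁, E₂⁆ := by
      rw [← hmap]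
      exact ⟨x.1, x.2, rfl⟩
    have := hpow _ hx
    apply Subtype.ext
    apply Subtype.ext
    simpa using this
  have hp : p.Prime := Fact.out
  have hle : ⁅E₁.subgroupOf H, E₂.subgroupOf H⁆ ≤ Cfsg.pCore p ↥H := by
    rw [Cfsg.Agent.H38.pCore_eq_piCore hp]
    apply Cfsg.Agent.H38.le_piCore_of_isSubnormal _ hDsub
    exact (Cfsg.Agent.H38.piNat_singleton_iff hp Nat.card_pos.ne').mpr (IsPGroup.iff_card.mp hDp)
  rw [← hmap]
  exact Subgroup.map_mono hle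

end Cfsg.Agent.S0597
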