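import Mathlib
import Cfsg.Statements.S0605
import Cfsg.Agent.H13.Basic

set_option autoImplicit false
open Cfsg

namespace Cfsg.Agent.S0605

open Cfsg.Agent.H13

/-- Elements of order p in the centralizer of the Thompson subgroup belong to the Thompson subgroup (so to its centre). -/
theorem result {G : Type*} [Group G] [Finite G] {p : ℕ} [Fact p.Prime] (x : G) (hx : x ∈ Subgroup.centralizer (Cfsg.thompsonSubgroup p G : Set G)) (ho : orderOf x = p) : x ∈ Cfsg.thompsonSubgroup p G := by
  obtain ⟨A, hA⟩ := exists_maxEA (G := G) p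
  have hAJ : A ≤ thompsonSubgroup p G := maxEA_le_thompson hA
  have hxA : ∀ a ∈ A, a * x = x * a := fun a ha =>
    (Subgroup.mem_centralizer_iff.mp hx) a (hAJ ha)
  have hz : IsElementaryAbelian p (Subgroup.zpowers x) := by
    rw [Subgroup.zpowers_eq_closure]
    apply ea_closure
    · intro a ha b hb
      rw [Set.mem_singleton_iff] at ha hb
      rw [ha, hb]
    · intro a ha
      rw [Set.mem_singleton_iff] at ha
      rw [ha, ← ho, pow_orderOf_eq_one]
  have hB : IsElementaryAbelian p (A ⊔ Subgroup.zpowers x) := by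
    apply ea_sup hA.1 hz
    intro a ha b hb
    obtain ⟨k, rfl⟩ := Subgroup.mem_zpowers_iff.mp hb
    have : Commute a x := hxA a ha
    exact (this.zpow_right k).eq
  have hcard : Nat.card ↥(A ⊔ Subgroup.zpowers x) ≤ Nat.card A := hA.2 _ hB
  have heq : A = A ⊔ Subgroup.zpowers x := Subgroup.eq_of_le_of_card_ge le_sup_left hcard
  apply hAJ
  rw [heq]
  exact Subgroup.mem_sup_right (Subgroup.mem_zpowers x)

end Cfsg.Agent.S0605
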