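import Mathlib
import Cfsg.Statements.S0695

set_option autoImplicit false
open Cfsg

namespace Cfsg.Agent.S0695

open scoped Pointwise

open MulAction in
/-- A block for the fixing subgroup of `s` contained in the complement of `s` is trivial there. -/
theorem block_in_compl {G X : Type*} [Group G] [MulAction G X] (s : Set X)
    (hprim : IsPreprimitive (fixingSubgroup G s) (SubMulAction.ofFixingSubgroup G s))
    (B : Set X) (hBs : B ⊆ sᶜ)
    (hB : ∀ g : G, (∀ y ∈ s, g • y = y) → ∀ x ∈ B, g • x ∈ B → g • B = B) :
    B.Subsingleton ∨ sᶜ ⊆ B := by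
  have hblock : IsBlock (fixingSubgroup G s) B := by
    rw [isBlock_iff_smul_eq_of_mem]
    intro g x hx hgx
    exact hB (g : G) ((mem_fixingSubgroup_iff G).mp g.2) x hx hgx
  have hblock' : IsBlock (fixingSubgroup G s)
      (Subtype.val ⁻¹' B : Set (SubMulAction.ofFixingSubgroup G s)) :=
    hblock.subtype_val_preimage
  rcases hprim.isTrivialBlock_of_isBlock hblock' with h | h
  · left
    intro x hx y hy
    have hx' : x ∈ SubMulAction.ofFixingSubgroup G s := hBs hx
    have hy' : y ∈ SubMulAction.ofFixingSubgroup G s := hBs hy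
    have := @h ⟨x, hx'⟩ hx ⟨y, hy'⟩ hy
    exact congrArg Subtype.val this
  · right
    intro x hx
    have hx' : x ∈ SubMulAction.ofFixingSubgroup G s := hx
    have : (⟨x, hx'⟩ : SubMulAction.ofFixingSubgroup G s) ∈
        (Subtype.val ⁻¹' B : Set (SubMulAction.ofFixingSubgroup G s)) := by
      rw [h]; exact Set.mem_univ _
    exact this

/-- A regular normal subgroup of a doubly primitive group of finite degree at least 2 is an elementary abelian 2-group (and the degree is a power of 2), unless the degree is 3. -/
theorem result {G : Type*} [Group G] {X : Type*} [Fintype X] [MulAction G X] (hX : 2 ≤ Fintype.card X) (h2 : MulAction.IsMultiplyPreprimitive G X 2) (N : Subgroup G) [N.Normal] (htrans : MulAction.IsPretransitive N X) (hreg : ∀ x : X, MulAction.stabilizer N x = ⊥) : Fintype.card X = 3 ∨ (IsMulCommutative N ∧ (∀ n ∈ N, n ^ 2 = 1) ∧ ∃ m : ℕ, Fintype.card X = 2 ^ m) := by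
  classical
  obtain ⟨a⟩ : Nonempty X := Fintype.card_pos_iff.mp (by omega)
  have hfree : ∀ x : X, ∀ k ∈ N, k • x = x → k = 1 := by
    intro x k hk hkx
    have : (⟨k, hk⟩ : N) ∈ MulAction.stabilizer N x := hkx
    rw [hreg x] at this
    exact congrArg Subtype.val (Subgroup.mem_bot.mp this)
  have hinj : ∀ k ∈ N, ∀ k' ∈ N, k • a = k' • a → k = k' := by
    intro k hk k' hk' h
    have h1 : (k'⁻¹ * k) • a = a := by rw [mul_smul, h, inv_smul_smul]
    have h2' := hfree a (k'⁻¹ * k) (N.mul_mem (N.inv_mem hk') hk) h1
    exact (inv_mul_eq_one.mp h2').symm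
  have hprim : MulAction.IsPreprimitive (fixingSubgroup G ({a} : Set X))
      (SubMulAction.ofFixingSubgroup G ({a} : Set X)) :=
    h2.isPreprimitive_ofFixingSubgroup (by simp; rfl)
  by_cases hex : ∃ n ∈ N, n ^ 2 ≠ 1
  · left
    obtain ⟨n, hn, hn2⟩ := hex
    have hn1 : n ≠ 1 := by
      intro h; apply hn2; rw [h, one_pow]
    have hnn : n ≠ n⁻¹ := by
      intro h; apply hn2
      rw [pow_two]
      nth_rewrite 1 [h]
      exact inv_mul_cancel n
    have hna : n • a ≠ a := fun h => hn1 (hfree a n hn h)
    have hnia : n⁻¹ • a ≠ a := fun h => hn1 (inv_eq_one.mp (hfree a n⁻¹ (N.inv_mem hn) h))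
    have hne : n • a ≠ n⁻¹ • a := fun h => hnn (hinj n hn n⁻¹ (N.inv_mem hn) h)
    have key := block_in_compl ({a} : Set X) hprim ({n • a, n⁻¹ • a} : Set X)
      (by
        intro x hx
        rcases hx with rfl | rfl
        · exact hna
        · exact hnia)
      (by
        intro g hg x hx hgx
        have hga : g • a = a := hg a rfl
        have hm : g * n * g⁻¹ ∈ N := Subgroup.Normal.conj_mem inferInstance n hn g
        have hm' : (g * n * g⁻¹)⁻¹ ∈ N := N.inv_mem hm
        have e1 : g • (n • a) = (g * n * g⁻¹) • a := by
          nth_rewrite 2 [← hga]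
          rw [← mul_smul, ← mul_smul, inv_mul_cancel_right]
        have e2 : g • (n⁻¹ • a) = (g * n * g⁻¹)⁻¹ • a := by
          nth_rewrite 2 [← hga]
          rw [← mul_smul, ← mul_smul]
          congr 1
          group
        have hgB : g • ({n • a, n⁻¹ • a} : Set X) = {(g * n * g⁻¹) • a, (g * n * g⁻¹)⁻¹ • a} := by
          rw [Set.smul_set_insert, Set.smul_set_singleton, e1, e2]
        have hcases : g * n * g⁻¹ = n ∨ g * n * g⁻¹ = n⁻¹ := by
          rcases hx with rfl | rfl
          · rw [e1] at hgx
            rcases hgx with h | h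
            · exact Or.inl (hinj _ hm _ hn h)
            · exact Or.inr (hinj _ hm _ (N.inv_mem hn) h)
          · rw [e2] at hgx
            rcases hgx with h | h
            · right
              have := hinj _ hm' _ hn h
              exact inv_eq_iff_eq_inv.mp this
            · left
              have := hinj _ hm' _ (N.inv_mem hn) h
              exact inv_injective this
        rw [hgB]
        rcases hcases with h | h
        · rw [h]
        · rw [h, inv_inv, Set.pair_comm])
    rcases key with h | h
    · exact absurd (h (Set.mem_insert _ _) (Set.mem_insert_of_mem _ rfl)) hne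
    · have huniv : (Finset.univ : Finset X) = {a, n • a, n⁻¹ • a} := by
        ext x
        simp only [Finset.mem_univ, Finset.mem_insert, Finset.mem_singleton, true_iff]
        by_cases hxa : x = a
        · exact Or.inl hxa
        · right
          have : x ∈ ({n • a, n⁻¹ • a} : Set X) := h hxa
          exact this
      rw [← Finset.card_univ, Finset.card_eq_three]
      exact ⟨a, n • a, n⁻¹ • a, hna.symm, hnia.symm, hne, huniv⟩
  · right
    push Not at hex
    have hinv : ∀ z : N, z⁻¹ = z := by
      intro z
      apply inv_eq_of_mul_eq_one_left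
      apply Subtype.ext
      have := hex z z.2
      rw [pow_two] at this
      exact this
    refine ⟨⟨⟨fun x y => ?_⟩⟩, hex, ?_⟩
    · have h1 := hinv (x * y)
      rw [mul_inv_rev, hinv x, hinv y] at h1
      exact h1.symm
    · have hinj' : Function.Injective (fun k : N => (k : G) • a) := by
        intro k k' h
        exact Subtype.ext (hinj k k.2 k' k'.2 h)
      have hsurj' : Function.Surjective (fun k : N => (k : G) • a) := by
        intro b
        obtain ⟨k, hk⟩ := MulAction.exists_smul_eq N a b
        exact ⟨k, hk⟩
      have hfin : Finite N := Finite.of_injective _ hinj'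
      have hcard : Nat.card N = Fintype.card X := by
        rw [Nat.card_congr (Equiv.ofBijective _ ⟨hinj', hsurj'⟩), Nat.card_eq_fintype_card]
      have hp : IsPGroup 2 N := by
        intro z
        refine ⟨1, ?_⟩
        rw [pow_one]
        apply Subtype.ext
        exact hex z z.2
      obtain ⟨m, hm⟩ := IsPGroup.iff_card.mp hp
      exact ⟨m, by rw [← hcard, hm]⟩

end Cfsg.Agent.S0695
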