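import Mathlib
import Cfsg.Statements.S0696
import Cfsg.Agent.S0695

set_option autoImplicit false
open Cfsg

namespace Cfsg.Agent.S0696

open scoped Pointwise

/-- A triply primitive group of degree at least 3 having a regular normal subgroup has degree 3 or 4. -/
theorem result {G : Type*} [Group G] {X : Type*} [Fintype X] [MulAction G X] (hX : 3 ≤ Fintype.card X) (h3 : MulAction.IsMultiplyPreprimitive G X 3) (N : Subgroup G) [N.Normal] (htrans : MulAction.IsPretransitive N X) (hreg : ∀ x : X, MulAction.stabilizer N x = ⊥) : Fintype.card X = 3 ∨ Fintype.card X = 4 := by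
  classical
  have h2 : MulAction.IsMultiplyPreprimitive G X 2 :=
    MulAction.isMultiplyPreprimitive_of_le G X h3 (by norm_num) (by
      rw [ENat.card_eq_coe_fintype_card]
      exact_mod_cast hX)
  rcases Cfsg.Agent.S0695.result (by omega) h2 N htrans hreg with h | ⟨_, hexp, _⟩
  · exact Or.inl h
  right
  obtain ⟨a⟩ : Nonempty X := Fintype.card_pos_iff.mp (by omega)
  have hfree : ∀ x : X, ∀ k ∈ N, k • x = x → k = 1 := by
    intro x k hk hkx
    have : (⟨k, hk⟩ : N) ∈ MulAction.stabilizer N x := hkx
    rw [hreg x] at this
    exact congrArg Subtype.val (Subgroup.mem_bot.mp this)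
  have hinj : ∀ k ∈ N, ∀ k' ∈ N, k • a = k' • a → k = k' := by
    intro k hk k' hk' h
    have h1 : (k'⁻¹ * k) • a = a := by rw [mul_smul, h, inv_smul_smul]
    have h2' := hfree a (k'⁻¹ * k) (N.mul_mem (N.inv_mem hk') hk) h1
    exact (inv_mul_eq_one.mp h2').symm
  have hsurj : ∀ x : X, ∃ k ∈ N, k • a = x := by
    intro x
    obtain ⟨k, hk⟩ := MulAction.exists_smul_eq N a x
    exact ⟨k, k.2, hk⟩
  -- a second point
  obtain ⟨b, hba⟩ : ∃ b : X, b ≠ a := by
    by_contra hcon
    push Not at hcon
    have : Fintype.card X ≤ 1 := Fintype.card_le_one_iff.mpr (fun x y => by rw [hcon x, hcon y])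
    omega
  obtain ⟨n, hn, hnb⟩ := hsurj b
  -- a third point
  obtain ⟨c, hca, hcb⟩ : ∃ c : X, c ≠ a ∧ c ≠ b := by
    by_contra hcon
    push Not at hcon
    have hsub : (Finset.univ : Finset X) ⊆ {a, b} := by
      intro x _
      by_cases hxa : x = a
      · simp [hxa]
      · simp [hcon x hxa]
    have := Finset.card_le_card hsub
    rw [Finset.card_univ] at this
    have h2c : ({a, b} : Finset X).card ≤ 2 := Finset.card_le_two
    omega
  obtain ⟨k, hk, hkc⟩ := hsurj c
  have hnn : n * n = 1 := by rw [← pow_two]; exact hexp n hn
  have hn1 : n ≠ 1 := by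
    intro h; apply hba; rw [← hnb, h, one_smul]
  have hk1 : k ≠ 1 := by
    intro h; apply hca; rw [← hkc, h, one_smul]
  have hkn : k ≠ n := by
    intro h; apply hcb; rw [← hkc, ← hnb, h]
  have hknN : k * n ∈ N := N.mul_mem hk hn
  set d := (k * n) • a with hd
  have hda : d ≠ a := by
    intro h
    have h1 := hfree a (k * n) hknN h
    apply hkn
    calc k = k * (n * n) := by rw [hnn, mul_one]
      _ = (k * n) * n := by rw [mul_assoc]
      _ = n := by rw [h1, one_mul]
  have hdb : d ≠ b := by
    intro h
    rw [hd, ← hnb] at h
    have h1 := hinj _ hknN _ hn h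
    exact hk1 (mul_eq_right.mp h1)
  have hdc : d ≠ c := by
    intro h
    rw [hd, ← hkc] at h
    have h1 := hinj _ hknN _ hk h
    exact hn1 (mul_eq_left.mp h1)
  have hprim : MulAction.IsPreprimitive (fixingSubgroup G ({a, b} : Set X))
      (SubMulAction.ofFixingSubgroup G ({a, b} : Set X)) :=
    h3.isPreprimitive_ofFixingSubgroup (by
      rw [Set.encard_pair hba.symm]; rfl)
  have key := Cfsg.Agent.S0695.block_in_compl ({a, b} : Set X) hprim ({c, d} : Set X)
    (by
      intro x hx
      rcases hx with rfl | rfl
      · intro h
        rcases h with h | h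
        · exact hca h
        · exact hcb h
      · intro h
        rcases h with h | h
        · exact hda h
        · exact hdb h)
    (by
      intro g hg x hx hgx
      have hga : g • a = a := hg a (Set.mem_insert _ _)
      have hgb : g • b = b := hg b (Set.mem_insert_of_mem _ rfl)
      have hk' : g * k * g⁻¹ ∈ N := Subgroup.Normal.conj_mem inferInstance k hk g
      have hn' : g * n * g⁻¹ ∈ N := Subgroup.Normal.conj_mem inferInstance n hn g
      have hgn : g * n * g⁻¹ = n := by
        apply hinj _ hn' _ hn
        nth_rewrite 1 [← hga]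
        rw [← mul_smul, inv_mul_cancel_right, mul_smul, hnb, hgb]
      have e1 : g • c = (g * k * g⁻¹) • a := by
        calc g • c = g • (k • a) := by rw [hkc]
          _ = (g * k * g⁻¹) • (g • a) := by rw [← mul_smul, ← mul_smul, inv_mul_cancel_right]
          _ = (g * k * g⁻¹) • a := by rw [hga]
      have e2 : g • d = (g * k * g⁻¹ * n) • a := by
        calc g • d = g • ((k * n) • a) := by rw [hd]
          _ = (g * k * g⁻¹ * (g * n * g⁻¹)) • (g • a) := by
            rw [← mul_smul, ← mul_smul]
            congr 1
            group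
          _ = (g * k * g⁻¹ * n) • a := by rw [hgn, hga]
      have hgB : g • ({c, d} : Set X) = {(g * k * g⁻¹) • a, (g * k * g⁻¹ * n) • a} := by
        rw [Set.smul_set_insert, Set.smul_set_singleton, e1, e2]
      have hcases : g * k * g⁻¹ = k ∨ g * k * g⁻¹ = k * n := by
        rcases hx with rfl | rfl
        · rw [e1] at hgx
          rcases hgx with h | h
          · rw [← hkc] at h
            exact Or.inl (hinj _ hk' _ hk h)
          · exact Or.inr (hinj _ hk' _ hknN h)
        · rw [e2] at hgx
          rcases hgx with h | h
          · right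
            rw [← hkc] at h
            have h1 := hinj _ (N.mul_mem hk' hn) _ hk h
            calc g * k * g⁻¹ = g * k * g⁻¹ * (n * n) := by rw [hnn, mul_one]
              _ = (g * k * g⁻¹ * n) * n := by rw [← mul_assoc (g * k * g⁻¹) n n]
              _ = k * n := by rw [h1]
          · left
            have h1 := hinj _ (N.mul_mem hk' hn) _ hknN h
            exact mul_right_cancel h1
      rw [hgB]
      rcases hcases with h | h
      · rw [h, hkc]
      · rw [h, mul_assoc k n n, hnn, mul_one, hkc, Set.pair_comm])
  rcases key with h | h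
  · exact absurd (h (Set.mem_insert _ _) (Set.mem_insert_of_mem _ rfl)) hdc.symm
  · have huniv : (Finset.univ : Finset X) = {a, b, c, d} := by
      ext x
      simp only [Finset.mem_univ, Finset.mem_insert, Finset.mem_singleton, true_iff]
      by_cases hxa : x = a
      · exact Or.inl hxa
      · by_cases hxb : x = b
        · exact Or.inr (Or.inl hxb)
        · right; right
          have hx : x ∈ ({a, b} : Set X)ᶜ := by
            intro hx
            rcases hx with hx | hx
            · exact hxa hx
            · exact hxb hx
          have : x ∈ ({c, d} : Set X) := h hx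
          exact this
    rw [← Finset.card_univ, huniv]
    rw [Finset.card_insert_of_notMem, Finset.card_insert_of_notMem, Finset.card_pair hdc.symm]
    · simp only [Finset.mem_insert, Finset.mem_singleton, not_or]
      exact ⟨hcb.symm, hdb.symm⟩
    · simp only [Finset.mem_insert, Finset.mem_singleton, not_or]
      exact ⟨hba.symm, hca.symm, hda.symm⟩

end Cfsg.Agent.S0696
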