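import Cfsg.Statements.S0681

set_option autoImplicit false
open Cfsg

namespace Cfsg.Agent.S0681

section nf
variable {F : Type*} [Cfsg.NearField F]

theorem nf_zero_mul (a : F) : (0 : F) * a = 0 := by
  have h := Cfsg.NearField.right_distrib (0 : F) 0 a
  rw [add_zero] at h
  exact left_eq_add.mp h

theorem nf_neg_mul (x a : F) : (-x) * a = -(x * a) := by
  have h := Cfsg.NearField.right_distrib x (-x) a
  rw [add_neg_cancel, nf_zero_mul] at h
  exact eq_neg_of_add_eq_zero_right h.symm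

theorem nf_sub_mul (x y a : F) : (x - y) * a = x * a - y * a := by
  rw [sub_eq_add_neg, Cfsg.NearField.right_distrib, nf_neg_mul, ← sub_eq_add_neg]

theorem nf_mul_ne_zero {a b : F} (ha : a ≠ 0) (hb : b ≠ 0) : a * b ≠ 0 := by
  intro h
  obtain ⟨a', h1, h2⟩ := Cfsg.NearField.exists_inv a ha
  apply hb
  have : a' * (a * b) = b := by rw [← mul_assoc, h2, one_mul]
  rw [← this, h, Cfsg.NearField.mul_zero]

theorem nf_inv_ne_zero {a a' : F} (h1 : a * a' = 1) : a' ≠ 0 := by
  intro h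
  rw [h, Cfsg.NearField.mul_zero] at h1
  exact Cfsg.NearField.zero_ne_one h1

/-- the affine permutation `x ↦ x * a + b`. -/
def affPerm (a a' b : F) (h1 : a * a' = 1) (h2 : a' * a = 1) : Equiv.Perm F where
  toFun x := x * a + b
  invFun y := (y - b) * a'
  left_inv x := by
    simp only [add_sub_cancel_right, mul_assoc, h1, mul_one]
  right_inv y := by
    simp only [mul_assoc, h2, mul_one, sub_add_cancel]

/-- the set of affine maps as a subgroup. -/
def affSub : Subgroup (Equiv.Perm F) where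
  carrier := {σ | ∃ a b : F, a ≠ 0 ∧ ∀ x : F, σ x = x * a + b}
  one_mem' := ⟨1, 0, fun h => Cfsg.NearField.zero_ne_one h.symm, fun x => by simp⟩
  mul_mem' := by
    rintro σ τ ⟨a, b, ha, hσ⟩ ⟨c, d, hc, hτ⟩
    refine ⟨c * a, d * a + b, nf_mul_ne_zero hc ha, fun x => ?_⟩
    simp only [Equiv.Perm.coe_mul, Function.comp_apply, hτ, hσ, Cfsg.NearField.right_distrib,
      mul_assoc, add_assoc]
  inv_mem' := by
    rintro σ ⟨a, b, ha, hσ⟩
    obtain ⟨a', h1, h2⟩ := Cfsg.NearField.exists_inv a ha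
    refine ⟨a', (-b) * a', nf_inv_ne_zero h1, fun x => ?_⟩
    apply σ.injective
    rw [Equiv.Perm.inv_def, Equiv.apply_symm_apply, hσ, ← Cfsg.NearField.right_distrib,
      mul_assoc, h2, mul_one, neg_add_cancel_right]

theorem mem_affSub (σ : Equiv.Perm F) :
    σ ∈ (affSub : Subgroup (Equiv.Perm F)) ↔ ∃ a b : F, a ≠ 0 ∧ ∀ x : F, σ x = x * a + b :=
  Iff.rfl

end nf

/-- The affine maps `x ↦ x * a + b`, `a ≠ 0`, of a near-field form a sharply doubly transitive permutation group. -/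
theorem result {F : Type*} [Cfsg.NearField F] : ∃ H : Subgroup (Equiv.Perm F), (∀ σ : Equiv.Perm F, σ ∈ H ↔ ∃ a b : F, a ≠ 0 ∧ ∀ x : F, σ x = x * a + b) ∧ MulAction.IsMultiplyPretransitive H F 2 ∧ ∀ x : Fin 2 ↪ F, MulAction.stabilizer H x = ⊥ := by
  refine ⟨affSub, mem_affSub, ?_, ?_⟩
  · rw [MulAction.is_two_pretransitive_iff]
    intro x1 x2 y1 y2 hx hy
    have hu : x1 - x2 ≠ 0 := sub_ne_zero.mpr hx
    obtain ⟨u', h1, h2⟩ := Cfsg.NearField.exists_inv (x1 - x2) hu
    have hv : y1 - y2 ≠ 0 := sub_ne_zero.mpr hy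
    have ha : u' * (y1 - y2) ≠ 0 := nf_mul_ne_zero (nf_inv_ne_zero h1) hv
    obtain ⟨a', h3, h4⟩ := Cfsg.NearField.exists_inv _ ha
    set a := u' * (y1 - y2) with ha_def
    have hua : (x1 - x2) * a = y1 - y2 := by
      rw [ha_def, ← mul_assoc, h1, one_mul]
    let σ : Equiv.Perm F := affPerm a a' (-(x1 * a) + y1) h3 h4
    have hσ : σ ∈ (affSub : Subgroup (Equiv.Perm F)) :=
      ⟨a, -(x1 * a) + y1, ha, fun x => rfl⟩
    refine ⟨⟨σ, hσ⟩, ?_, ?_⟩
    · change x1 * a + (-(x1 * a) + y1) = y1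
      rw [add_neg_cancel_left]
    · change x2 * a + (-(x1 * a) + y1) = y2
      rw [← add_assoc, ← sub_eq_add_neg, ← nf_sub_mul]
      have : x2 - x1 = -(x1 - x2) := by rw [neg_sub]
      rw [this, nf_neg_mul, hua, neg_sub, sub_add_cancel]
  · intro x
    rw [eq_bot_iff]
    rintro ⟨σ, hσ⟩ hg
    rw [MulAction.mem_stabilizer_iff] at hg
    obtain ⟨a, b, ha, hab⟩ := hσ
    have h0 : σ (x 0) = x 0 := by
      have := congrArg (fun e : Fin 2 ↪ F => e 0) hg
      exact this
    have h1 : σ (x 1) = x 1 := by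
      have := congrArg (fun e : Fin 2 ↪ F => e 1) hg
      exact this
    rw [hab] at h0 h1
    have hne : x 0 ≠ x 1 := x.injective.ne (by decide)
    have hu : x 0 - x 1 ≠ 0 := sub_ne_zero.mpr hne
    obtain ⟨u', hu1, hu2⟩ := Cfsg.NearField.exists_inv _ hu
    have hua : (x 0 - x 1) * a = x 0 - x 1 := by
      rw [nf_sub_mul]
      have : x 0 * a - x 1 * a = (x 0 * a + b) - (x 1 * a + b) := by
        rw [add_sub_add_right_eq_sub]
      rw [this, h0, h1]
    have ha1 : a = 1 := by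
      have : u' * ((x 0 - x 1) * a) = a := by rw [← mul_assoc, hu2, one_mul]
      rw [← this, hua, hu2]
    have hb0 : b = 0 := by
      rw [ha1, mul_one] at h0
      exact left_eq_add.mp h0.symm |>.symm ▸ rfl
    rw [Subgroup.mem_bot]
    apply Subtype.ext
    ext y
    simp [hab, ha1, hb0]

end Cfsg.Agent.S0681
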