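import Mathlib
import Cfsg.Statements.S0682
import Cfsg.Agent.S0681

set_option autoImplicit false
open Cfsg

namespace Cfsg.Agent.S0682

open Cfsg.Agent.S0681 in
theorem nf_nsmul_mul {F : Type*} [Cfsg.NearField F] (n : ℕ) (x a : F) :
    (n • x) * a = n • (x * a) := by
  induction n with
  | zero => simp [nf_zero_mul]
  | succ n ih => rw [succ_nsmul, Cfsg.NearField.right_distrib, ih, succ_nsmul]

open Cfsg.Agent.S0681 in
/-- A finite near-field has prime-power order; its additive group is commutative of prime exponent. -/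
theorem result {F : Type*} [Cfsg.NearField F] [Finite F] : ∃ p j : ℕ, p.Prime ∧ 1 ≤ j ∧ Nat.card F = p ^ j ∧ (∀ x y : F, x + y = y + x) ∧ ∀ x : F, p • x = 0 := by
  classical
  have hnt : Nontrivial F := ⟨⟨0, 1, Cfsg.NearField.zero_ne_one⟩⟩
  have hcard : 1 < Nat.card F := Finite.one_lt_card
  -- all nonzero elements have the same additive order
  have key : ∀ x y : F, x ≠ 0 → ∀ n : ℕ, n • x = 0 → n • y = 0 := by
    intro x y hx n hn
    obtain ⟨x', h1, h2⟩ := Cfsg.NearField.exists_inv x hx
    have : y = x * (x' * y) := by rw [← mul_assoc, h1, one_mul]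
    rw [this, ← nf_nsmul_mul, hn, nf_zero_mul]
  obtain ⟨p, hp, hpd⟩ := Nat.exists_prime_and_dvd (Nat.ne_of_gt hcard)
  have : Fact p.Prime := ⟨hp⟩
  obtain ⟨x0, hx0⟩ := exists_prime_addOrderOf_dvd_card' (G := F) p hpd
  have hx0ne : x0 ≠ 0 := by
    intro h
    rw [h, addOrderOf_zero] at hx0
    exact hp.one_lt.ne hx0
  have hpx0 : p • x0 = 0 := by rw [← hx0]; exact addOrderOf_nsmul_eq_zero x0
  have hexp : ∀ x : F, p • x = 0 := fun x => key x0 x hx0ne p hpx0
  -- card is a power of p
  have hpow : Nat.card F = p ^ (Nat.card F).primeFactorsList.length := by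
    apply Nat.eq_prime_pow_of_unique_prime_dvd (by omega)
    intro q hq hqd
    have : Fact q.Prime := ⟨hq⟩
    obtain ⟨y, hy⟩ := exists_prime_addOrderOf_dvd_card' (G := F) q hqd
    have h1 : addOrderOf y ∣ p := addOrderOf_dvd_of_nsmul_eq_zero (hexp y)
    rw [hy] at h1
    exact (Nat.prime_dvd_prime_iff_eq hq hp).mp h1
  set j := (Nat.card F).primeFactorsList.length with hj
  have hj1 : 1 ≤ j := by
    by_contra h
    have : j = 0 := by omega
    rw [this, pow_zero] at hpow
    omega
  -- commutativity
  have hPG : IsPGroup p (Multiplicative F) := IsPGroup.of_card (n := j) (by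
    rw [Nat.card_congr Multiplicative.toAdd]; exact hpow)
  have : Nontrivial (Multiplicative F) := Multiplicative.ofAdd.injective.nontrivial
  have : Finite (Multiplicative F) := Finite.of_equiv F Multiplicative.ofAdd
  have : Nontrivial (Subgroup.center (Multiplicative F)) := hPG.center_nontrivial
  obtain ⟨⟨z, hz⟩, hzne⟩ := exists_ne (1 : Subgroup.center (Multiplicative F))
  · have hzc : ∀ w : F, w + Multiplicative.toAdd z = Multiplicative.toAdd z + w := by
      intro w
      have := (Subgroup.mem_center_iff.mp hz) (Multiplicative.ofAdd w)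
      exact congrArg Multiplicative.toAdd this
    set z0 : F := Multiplicative.toAdd z with hz0
    have hz0ne : z0 ≠ 0 := by
      intro h
      apply hzne
      apply Subtype.ext
      change z = 1
      apply Multiplicative.toAdd.injective
      exact h
    have hcomm : ∀ x y : F, x + y = y + x := by
      intro x y
      by_cases hy : y = 0
      · simp [hy]
      · obtain ⟨z', h1, h2⟩ := Cfsg.NearField.exists_inv z0 hz0ne
        have ha : z' * y ≠ 0 := nf_mul_ne_zero (nf_inv_ne_zero h1) hy
        obtain ⟨a', h3, h4⟩ := Cfsg.NearField.exists_inv _ ha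
        have hy' : z0 * (z' * y) = y := by rw [← mul_assoc, h1, one_mul]
        have hx' : (x * a') * (z' * y) = x := by rw [mul_assoc, h4, mul_one]
        calc x + y = (x * a') * (z' * y) + z0 * (z' * y) := by rw [hx', hy']
          _ = (x * a' + z0) * (z' * y) := by rw [Cfsg.NearField.right_distrib]
          _ = (z0 + x * a') * (z' * y) := by rw [hzc]
          _ = z0 * (z' * y) + (x * a') * (z' * y) := by rw [Cfsg.NearField.right_distrib]
          _ = y + x := by rw [hx', hy']
    exact ⟨p, j, hp, hj1, hpow, hcomm, hexp⟩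

end Cfsg.Agent.S0682
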