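import Cfsg.Statements.S1528
import Cfsg.Agent.H32.FrobInd
import Cfsg.Agent.H4.IrrCount

set_option autoImplicit false
open Cfsg

namespace Cfsg.Agent.S1528

open Cfsg.Agent.H4 Cfsg.Agent.H32

/-- Let N be a normal subgroup of the finite group G such that every element of G commuting with a non-identity element of N lies in N. If χ is an irreducible character of G with χ n ≠ χ 1 for some n ∈ N, then χ is the function induced from some irreducible character of N. -/
theorem result {G : Type*} [Group G] [Fintype G] (N : Subgroup G) [N.Normal] (hC : ∀ n ∈ N, n ≠ 1 → Subgroup.centralizer ({n} : Set G) ≤ N) (χ : G → ℂ) (hχ : Cfsg.IsIrrCharacter G χ) (hker : ∃ n ∈ N, χ n ≠ χ 1) : ∃ φ : N → ℂ, Cfsg.IsIrrCharacter N φ ∧ χ = Cfsg.indFun N φ := by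
  classical
  haveI : Fintype N := Fintype.ofFinite N
  letI := fintypeIrr N
  have hcm : ∀ x : G, x ∉ N → ∀ k ∈ N, x * k = k * x → k = 1 := by
    intro x hx k hk hxk
    by_contra hk1
    apply hx
    apply hC k hk hk1
    rw [Subgroup.mem_centralizer_iff]
    intro m hm
    rw [Set.mem_singleton_iff] at hm
    rw [hm]
    exact hxk.symm
  have hres : IsCharacter N (fun h : N => χ h) :=
    isCharacter_restrict N (isCharacter_of_isIrrCharacter hχ)
  obtain ⟨m, hm⟩ := isCharacter_iff.mp hres
  have hmval : ∀ k : N, χ k = ∑ μ : IrrCharacter N, (m μ : ℂ) * μ.1 k := by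
    intro k
    have := congrFun hm k
    rw [finsum_irr_apply, finsum_irr_eq_sum] at this
    exact this
  obtain ⟨μ, hμ, hμ1⟩ : ∃ μ : IrrCharacter N, m μ ≠ 0 ∧ μ.1 ≠ fun _ => 1 := by
    by_contra hcon
    push Not at hcon
    obtain ⟨n, hn, hne⟩ := hker
    apply hne
    have h1 := hmval ⟨n, hn⟩
    have h2 := hmval 1
    rw [Subgroup.coe_one] at h2
    rw [h2]
    change χ n = _ at h1
    rw [h1]
    apply Finset.sum_congr rfl
    intro μ _
    by_cases h : m μ = 0
    · rw [h]; simp
    · rw [hcon μ h]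
  have hirr := selfcent_indFun_irreducible N hcm μ.1 μ.2 hμ1
  refine ⟨μ.1, μ.2, ?_⟩
  have hin : classInner (indFun N μ.1) χ ≠ 0 := by
    rw [frobenius_reciprocity N μ.1 χ
      (isClassFunction_of_isCharacter (isCharacter_of_isIrrCharacter hχ)),
      ← classInner_conj_symm, hm, classInner_finsum_irr (fun ψ => (m ψ : ℂ)) μ]
    simpa using hμ
  by_contra hne
  exact hin (irr_inner_ne (χ := ⟨indFun N μ.1, hirr⟩) (ψ := ⟨χ, hχ⟩)
    (fun h => hne (congrArg Subtype.val h).symm))

end Cfsg.Agent.S1528
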