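import Cfsg.Statements.S1529
import Cfsg.Agent.H32.Virtual

set_option autoImplicit false
open Cfsg

namespace Cfsg.Agent.S1529

open Cfsg.Agent.H4 Cfsg.Agent.H32

/-- Let N be a subgroup of the finite group G, S a set of irreducible characters of N with at least two members, and τ₁ a linear isometry on the integer combinations of S with virtual-character values such that τ₁ α vanishes at 1 whenever α ∈ ℤ[S] does. Then there is ε ∈ {1, −1} such that ε • τ₁ χ is an irreducible character of G for every χ ∈ S, and distinct members of S give distinct characters. -/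
theorem result {G : Type*} [Group G] [Fintype G] (N : Subgroup G) [Fintype N] (S : Set (N → ℂ)) (hirr : ∀ χ ∈ S, Cfsg.IsIrrCharacter N χ) (htwo : ∃ χ ∈ S, ∃ ψ ∈ S, χ ≠ ψ) (τ₁ : (N → ℂ) → (G → ℂ)) (hτ₁ : Cfsg.IsLinearIsometryOn (Cfsg.zspan S) τ₁) (h0 : ∀ α ∈ Cfsg.zspan S, α 1 = 0 → τ₁ α 1 = 0) : ∃ ε : ℂ, (ε = 1 ∨ ε = -1) ∧ (∀ χ ∈ S, Cfsg.IsIrrCharacter G (ε • τ₁ χ)) ∧ (∀ χ ∈ S, ∀ ψ ∈ S, τ₁ χ = τ₁ ψ → χ = ψ) := by
  classical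
  obtain ⟨hadd, hsmul, hinner, hvirt⟩ := hτ₁
  have hS : ∀ χ ∈ S, χ ∈ zspan S := fun χ hχ => Submodule.subset_span hχ
  have hnorm : ∀ χ ∈ S, classInner χ χ = 1 := by
    intro χ hχ
    have := irr_inner (⟨χ, hirr χ hχ⟩ : IrrCharacter N) ⟨χ, hirr χ hχ⟩
    rwa [if_pos rfl] at this
  have horth : ∀ χ ∈ S, ∀ ψ ∈ S, χ ≠ ψ → classInner χ ψ = 0 := by
    intro χ hχ ψ hψ hne
    have := irr_inner (⟨χ, hirr χ hχ⟩ : IrrCharacter N) ⟨ψ, hirr ψ hψ⟩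
    rwa [if_neg (fun h => hne (congrArg Subtype.val h))] at this
  have key : ∀ χ ∈ S, ∃ (μ : IrrCharacter G) (ε : ℤ), (ε = 1 ∨ ε = -1) ∧
      τ₁ χ = ((ε : ℤ) : ℂ) • (μ : G → ℂ) := by
    intro χ hχ
    apply genChar_norm_one (hvirt χ (hS χ hχ))
    rw [hinner χ (hS χ hχ) χ (hS χ hχ)]
    exact hnorm χ hχ
  obtain ⟨χ₀, hχ₀, ψ₀, hψ₀, hne₀⟩ := htwo
  obtain ⟨μ₀, -, -, -⟩ := key χ₀ hχ₀
  haveI : Nonempty (IrrCharacter G) := ⟨μ₀⟩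
  choose! m e he hτ using key
  -- all signs agree
  have hsign : ∀ χ ∈ S, ∀ ψ ∈ S, e χ = e ψ := by
    intro χ hχ ψ hψ
    obtain ⟨dχ, hdχ, eχ⟩ := irr_one_eq_natCast (⟨χ, hirr χ hχ⟩ : IrrCharacter N)
    obtain ⟨dψ, hdψ, eψ⟩ := irr_one_eq_natCast (⟨ψ, hirr ψ hψ⟩ : IrrCharacter N)
    have eχ' : χ 1 = (dχ : ℂ) := eχ
    have eψ' : ψ 1 = (dψ : ℂ) := eψ
    obtain ⟨fχ, hfχ, gχ⟩ := irr_one_eq_natCast (m χ)
    obtain ⟨fψ, hfψ, gψ⟩ := irr_one_eq_natCast (m ψ)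
    have hmem1 : ((dψ : ℤ)) • χ ∈ zspan S := Submodule.smul_mem _ _ (hS χ hχ)
    have hmem2 : (-(dχ : ℤ)) • ψ ∈ zspan S := Submodule.smul_mem _ _ (hS ψ hψ)
    have hmem : ((dψ : ℤ)) • χ + (-(dχ : ℤ)) • ψ ∈ zspan S := Submodule.add_mem _ hmem1 hmem2
    have hval : (((dψ : ℤ)) • χ + (-(dχ : ℤ)) • ψ) 1 = 0 := by
      rw [Pi.add_apply, Pi.smul_apply, Pi.smul_apply, eχ', eψ', zsmul_eq_mul, zsmul_eq_mul]
      push_cast
      ring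
    have h1 := h0 _ hmem hval
    rw [hadd _ hmem1 _ hmem2, hsmul χ (hS χ hχ), hsmul ψ (hS ψ hψ), hτ χ hχ, hτ ψ hψ] at h1
    rw [Pi.add_apply, Pi.smul_apply, Pi.smul_apply, Pi.smul_apply, Pi.smul_apply, gχ, gψ,
      zsmul_eq_mul, zsmul_eq_mul, smul_eq_mul, smul_eq_mul] at h1
    have h2 : (dψ : ℤ) * (e χ * (fχ : ℤ)) + (-(dχ : ℤ)) * (e ψ * (fψ : ℤ)) = 0 := by
      exact_mod_cast h1
    have p1 : (0 : ℤ) < (dψ : ℤ) * (fχ : ℤ) := by positivity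
    have p2 : (0 : ℤ) < (dχ : ℤ) * (fψ : ℤ) := by positivity
    rcases he χ hχ with h | h <;> rcases he ψ hψ with h' | h'
    · rw [h, h']
    · exfalso
      rw [h, h'] at h2
      nlinarith
    · exfalso
      rw [h, h'] at h2
      nlinarith
    · rw [h, h']
  refine ⟨((e χ₀ : ℤ) : ℂ), ?_, ?_, ?_⟩
  · rcases he χ₀ hχ₀ with h | h
    · left; rw [h]; norm_num
    · right; rw [h]; norm_num
  · intro χ hχ
    have h1 : ((e χ₀ : ℤ) : ℂ) • τ₁ χ = (m χ : G → ℂ) := by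
      rw [hτ χ hχ, smul_smul, hsign χ₀ hχ₀ χ hχ]
      rcases he χ hχ with h | h <;> rw [h] <;> norm_num
    rw [h1]
    exact (m χ).2
  · intro χ hχ ψ hψ hτeq
    by_contra hne
    have h1 := hinner χ (hS χ hχ) ψ (hS ψ hψ)
    rw [horth χ hχ ψ hψ hne, ← hτeq, hinner χ (hS χ hχ) χ (hS χ hχ), hnorm χ hχ] at h1
    exact one_ne_zero h1

end Cfsg.Agent.S1529
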