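import Mathlib
import Cfsg.Statements.S1535
import Cfsg.Agent.H19.CohF

set_option autoImplicit false
open Cfsg

namespace Cfsg.Agent.S1535

/-- Let N be a finite group with a proper nontrivial normal subgroup H such that every element commuting with a non-identity element of H lies in H (N is a Frobenius group with kernel H); let e be the index of H and suppose Nat.card H ≠ e + 1. Let S be the set of irreducible characters χ of N with χ h ≠ χ 1 for some h ∈ H, and τ a linear isometry on the integer combinations of S vanishing at 1, with values virtual characters of a finite group G vanishing at 1. Then (S, N minus 1, τ) is coherent, or there is a prime p with Nat.card H a power of p, H non-abelian and [H : [H,H]] ≤ 4e² + 1. -/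
theorem result {N : Type*} [Group N] [Fintype N] {G : Type*} [Group G] [Fintype G] (H : Subgroup N) [H.Normal] (hH1 : H ≠ ⊥) (hH2 : H ≠ ⊤) (hC : ∀ h ∈ H, h ≠ 1 → Subgroup.centralizer ({h} : Set N) ≤ H) (he : Nat.card H ≠ H.index + 1) (τ : (N → ℂ) → (G → ℂ)) (hτ : Cfsg.IsLinearIsometryOn (Cfsg.zspanOn {χ : N → ℂ | Cfsg.IsIrrCharacter N χ ∧ ∃ h ∈ H, χ h ≠ χ 1} {1}ᶜ) τ) (hτ1 : ∀ α ∈ Cfsg.zspanOn {χ : N → ℂ | Cfsg.IsIrrCharacter N χ ∧ ∃ h ∈ H, χ h ≠ χ 1} {1}ᶜ, τ α 1 = 0) : Cfsg.IsCoherent {χ : N → ℂ | Cfsg.IsIrrCharacter N χ ∧ ∃ h ∈ H, χ h ≠ χ 1} {1}ᶜ τ ∨ ∃ p : ℕ, p.Prime ∧ (∃ m : ℕ, Nat.card H = p ^ m) ∧ ¬ IsMulCommutative H ∧ (⁅H, H⁆.subgroupOf H).index ≤ 4 * H.index ^ 2 + 1 := by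
  classical
  haveI hnilK := Cfsg.Agent.H19.frobK_nilpotent H hC hH1 hH2
  have hnil := Cfsg.Agent.H19.cser_self_eq_bot H
  by_cases hab : (⁅H, H⁆ : Subgroup N) = ⊥
  · left
    exact Cfsg.Agent.H19.coh_abelian H hC τ hτ hτ1 hH1 hab he
  · by_cases hbig : (4 * H.index ^ 2 + 1) * Nat.card (⁅H, H⁆ : Subgroup N) < Nat.card H
    · left
      exact Cfsg.Agent.H19.coh_plain H hC τ hτ hτ1 hH1 hH2 hbig
    · by_cases hp : ∃ p : ℕ, p.Prime ∧ ∃ m : ℕ, Nat.card H = p ^ m
      · right
        obtain ⟨p, hpp, m, hm⟩ := hp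
        refine ⟨p, hpp, ⟨m, hm⟩, ?_, ?_⟩
        · intro hcomm
          apply hab
          rw [Subgroup.commutator_eq_bot_iff_le_centralizer]
          intro x hx
          rw [Subgroup.mem_centralizer_iff]
          intro y hy
          have h1 := hcomm.is_comm.comm (⟨y, hy⟩ : H) ⟨x, hx⟩
          exact congrArg Subtype.val h1
        · push Not at hbig
          have hle : (⁅H, H⁆ : Subgroup N) ≤ H := Subgroup.commutator_le_left H H
          have h1 : (⁅H, H⁆.subgroupOf H).index * Nat.card (⁅H, H⁆ : Subgroup N) = Nat.card H := by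
            have h2 := Subgroup.card_mul_index (⁅H, H⁆.subgroupOf H)
            rw [Nat.card_congr (Subgroup.subgroupOfEquivOfLe hle).toEquiv] at h2
            rw [mul_comm]
            exact h2
          rw [← h1] at hbig
          exact Nat.le_of_mul_le_mul_right hbig Nat.card_pos
      · left
        push Not at hp
        have hH'lt : (⁅H, H⁆ : Subgroup N) < H :=
          Cfsg.Agent.H19.comm_lt_of_nilpotent H hnil H le_rfl hH1
        obtain ⟨x, hx⟩ := Subgroup.card_dvd_of_le hH'lt.le
        have hx1 : x ≠ 1 := by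
          intro h
          rw [h, mul_one] at hx
          exact hH'lt.ne (Subgroup.eq_of_le_of_card_ge hH'lt.le hx.le)
        obtain ⟨p, hpp, hpx⟩ := Nat.exists_prime_and_dvd hx1
        haveI : Fact p.Prime := ⟨hpp⟩
        obtain ⟨P, hPn, hPK, hPp, hPcard⟩ := Cfsg.Agent.H19.exists_normal_sylow H p
        haveI := hPn
        have hcardpos : Nat.card H ≠ 0 := Nat.card_pos.ne'
        have hPne : P ≠ H := by
          intro h
          rw [h] at hPcard
          exact hp p hpp _ hPcard
        have hPd : ¬ P ≤ ⁅H, H⁆ := by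
          intro hle
          have h1 : Nat.card P ∣ Nat.card (⁅H, H⁆ : Subgroup N) := Subgroup.card_dvd_of_le hle
          rw [hPcard] at h1
          have h2 : p ^ ((Nat.card H).factorization p + 1) ∣ Nat.card H := by
            have h3 : p ^ ((Nat.card H).factorization p) * p ∣
                Nat.card (⁅H, H⁆ : Subgroup N) * x := Nat.mul_dvd_mul h1 hpx
            rw [← hx] at h3
            rw [pow_succ]
            exact h3
          exact Nat.pow_succ_factorization_not_dvd hcardpos hpp h2
        obtain ⟨q, hqq, hqdvd, hqp⟩ : ∃ q : ℕ, q.Prime ∧ q ∣ Nat.card H ∧ q ≠ p := by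
          by_contra hcon
          push Not at hcon
          exact hp p hpp _ (Nat.eq_prime_pow_of_unique_prime_dvd hcardpos
            (fun {d} hd hdd => hcon d hd hdd))
        haveI : Fact q.Prime := ⟨hqq⟩
        obtain ⟨R, hRn, hRK, hRq, hRcard⟩ := Cfsg.Agent.H19.exists_normal_sylow H q
        haveI := hRn
        have hR : R ≠ ⊥ := by
          intro h
          rw [h, Subgroup.card_bot] at hRcard
          have hpos : 0 < (Nat.card H).factorization q :=
            hqq.factorization_pos_of_dvd hcardpos hqdvd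
          have h3 : 1 < q ^ (Nat.card H).factorization q := Nat.one_lt_pow hpos.ne' hqq.one_lt
          omega
        obtain ⟨j, hj1, hj2⟩ := Cfsg.Agent.H19.exists_last_cser H hnil R hRK hR
        haveI := Cfsg.Agent.H19.cser_normal R H j
        have hZR : Cfsg.Agent.H19.cser R H j ≤ R := Cfsg.Agent.H19.cser_le_left R H j
        have hdisj : Disjoint R P := IsPGroup.disjoint_of_ne q p hqp R P hRq hPp
        have hZP : Cfsg.Agent.H19.cser R H j ⊓ P = ⊥ :=
          le_bot_iff.mp ((inf_le_inf_right P hZR).trans hdisj.le_bot)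
        exact Cfsg.Agent.H19.coh_nonp H hC τ hτ hτ1 hH1 hH2 P (Cfsg.Agent.H19.cser R H j) hPK hPne
          hPd (hZR.trans hRK) hj1 hj2 hZP

end Cfsg.Agent.S1535
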