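import Cfsg.Statements.S2946
import Cfsg.Agent.H52.JcCore
import Cfsg.Agent.H52.JcSetup

set_option autoImplicit false
open Cfsg

namespace Cfsg.Agent.S2946

/-- Let G be a finite group of characteristic 2 type in which every 2-local subgroup is solvable and the centralizer of Ω₁(Z(S)) lies in N_G(S) for every Sylow 2-subgroup S, and let T be a nontrivial 2-subgroup (below, J is the Thompson subgroup generated by the elementary abelian 2-subgroups of largest order), K a J(T)-component and Z₀ = Ω₁(Z(J(T))). Then Z₀ meets W_K = [Ω₁(Z(O₂(K))), K] in a subgroup of order 2, and Z₀ is the product of Z₀ ∩ Z(⟨K, J(T)⟩) and Z₀ ∩ W_K. -/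
theorem result {G : Type*} [Group G] [Finite G] (hL : Cfsg.IsCharacteristicTwoType G) (hN : ∀ N : Subgroup G, Cfsg.IsTwoLocal N → Group.IsSolvable ↥N)
    (hZ : ∀ S : Sylow 2 G, Subgroup.centralizer (Cfsg.omegaCenterOf (S : Subgroup G) : Set G) ≤ Subgroup.normalizer ((S : Subgroup G) : Set G)) (T : Subgroup G) (hT : IsPGroup 2 ↥T) (hT1 : T ≠ ⊥) (K : Subgroup G) (hK : Cfsg.IsJComponent T K)
    (Z₀ : Subgroup G) (hZ₀ : Z₀ = Cfsg.omegaCenterOf (Cfsg.thompsonSubgroupOf 2 T)) :
    Nat.card ↥(Z₀ ⊓ Cfsg.wOf K) = 2 ∧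
      (Z₀ ⊓ ((K ⊔ Cfsg.thompsonSubgroupOf 2 T) ⊓ Subgroup.centralizer ((K ⊔ Cfsg.thompsonSubgroupOf 2 T) : Set G))) ⊔ (Z₀ ⊓ Cfsg.wOf K) = Z₀ := by
  obtain ⟨S, u, x, h, hJS⟩ := Cfsg.Agent.H52.Jc.setup hT hK
  have hZS : Z₀ = Cfsg.Agent.H29.nZ 2 S := by
    rw [hZ₀]
    have e1 : Cfsg.omegaCenterOf (Cfsg.thompsonSubgroupOf 2 T) = Cfsg.Agent.H29.nZ 2 T :=
      Cfsg.Agent.H29.omegaOne_centerThompsonOf_eq 2 T
    rw [e1]
    ext z
    rw [Cfsg.Agent.H29.mem_nZ, Cfsg.Agent.H29.mem_nZ, hJS, Cfsg.Agent.H29.thompsonSubgroupOf_eq]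
  have huZ : u ∈ Z₀ := hZS ▸ Cfsg.Agent.H51.Jc.u_mem_nZ h
  have hKJ := hK.2.1
  constructor
  · have hset : ((Z₀ ⊓ Cfsg.wOf K : Subgroup G) : Set G) = {1, u} := by
      ext w
      simp only [Subgroup.coe_inf, Set.mem_inter_iff, SetLike.mem_coe, Set.mem_insert_iff,
        Set.mem_singleton_iff]
      constructor
      · rintro ⟨h1, h2⟩
        rw [hZS] at h1
        exact Cfsg.Agent.H51.Jc.nZ_inf h h2 h1
      · rintro (rfl | rfl)
        · exact ⟨one_mem _, one_mem _⟩
        · exact ⟨huZ, h.hu⟩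
    have : Nat.card ↥(Z₀ ⊓ Cfsg.wOf K) = ((Z₀ ⊓ Cfsg.wOf K : Subgroup G) : Set G).ncard :=
      Nat.card_coe_set_eq _
    rw [this, hset]
    exact Set.ncard_pair (Ne.symm h.hu1)
  · apply le_antisymm
    · exact sup_le inf_le_left inf_le_left
    · intro m hm
      have hm' : m ∈ Cfsg.Agent.H29.nZ 2 S := hZS ▸ hm
      have hcen : ∀ m' : G, (∀ g ∈ K ⊔ Cfsg.thompsonSubgroupOf 2 T, ∀ j ∈ Cfsg.Agent.H29.nJ 2 S,
          (g * j * g⁻¹) * m' = m' * (g * j * g⁻¹)) →
          m' ∈ Subgroup.centralizer ((K ⊔ Cfsg.thompsonSubgroupOf 2 T) : Set G) := by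
        intro m' hm'c
        have hJc : Cfsg.thompsonSubgroupOf 2 T ≤ Subgroup.centralizer ({m'} : Set G) := by
          intro j hj
          rw [Subgroup.mem_centralizer_iff]
          intro y hy
          rw [Set.mem_singleton_iff] at hy
          have := hm'c 1 (one_mem _) j (hJS ▸ hj)
          rw [hy]
          simpa using this.symm
        have hKc : K ≤ Subgroup.centralizer ({m'} : Set G) := by
          rw [← hKJ, Subgroup.commutator_le]
          intro k hk j hj
          have h1 : k * j * k⁻¹ ∈ Subgroup.centralizer ({m'} : Set G) := by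
            rw [Subgroup.mem_centralizer_iff]
            intro y hy
            rw [Set.mem_singleton_iff] at hy
            rw [hy]
            exact (hm'c k (Subgroup.mem_sup_left hk) j (hJS ▸ hj)).symm
          have h2 := hJc hj
          rw [commutatorElement_def]
          exact mul_mem h1 (inv_mem h2)
        rw [Subgroup.mem_centralizer_iff]
        intro y hy
        rcases hy with hy | hy
        · exact (Subgroup.mem_centralizer_iff.mp (hKc hy) m' rfl).symm
        · exact (Subgroup.mem_centralizer_iff.mp (hJc hy) m' rfl).symm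
      have hmX : m ∈ K ⊔ Cfsg.thompsonSubgroupOf 2 T := by
        have : m ∈ Cfsg.Agent.H29.nJ 2 S := Cfsg.Agent.H29.nZ_le_nJ 2 S hm'
        rw [hJS] at this
        exact (le_sup_right : _ ≤ K ⊔ Cfsg.thompsonSubgroupOf 2 T) this
      rcases h.core hm' with hc | hc
      · exact Subgroup.mem_sup_left ⟨hm, hmX, hcen m hc⟩
      · have h2 : u ∈ Z₀ ⊓ Cfsg.wOf K := ⟨huZ, h.hu⟩
        have : m = (m * u) * u := by rw [mul_assoc, h.hexp u h.hu, mul_one]
        rw [this]
        exact mul_mem (Subgroup.mem_sup_left ⟨mul_mem hm huZ, mul_mem hmX (h.hWX h.hu), hcen _ hc⟩)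
          (Subgroup.mem_sup_right h2)

end Cfsg.Agent.S2946
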