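import Mathlib
import Cfsg.Statements.S0346
import Cfsg.Agent.H19.FeitG3
import Cfsg.Agent.H19.CohH
import Cfsg.Agent.H19.K3H
import Cfsg.Agent.H19.ZId6
import Cfsg.Agent.H19.ZassFeit
import Cfsg.Agent.S0741

set_option autoImplicit false
open Cfsg

namespace Cfsg.Agent.S0346

/-- The number of points of a finite simple Zassenhaus group is `p^k + 1` for some prime power `p^k` (the regular normal
subgroup of a point stabiliser is a `p`-group). -/
theorem result {G Ω : Type*} [Group G] [Finite G] [MulAction G Ω] [Fintype Ω]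
    (hZ : Cfsg.IsZassenhausGroup G Ω) [IsSimpleGroup G] :
    IsPrimePow (Fintype.card Ω - 1) := by
  classical
  haveI : Fintype G := Fintype.ofFinite G
  have hn3 := Cfsg.Agent.H19.zass_three_le_card hZ
  obtain ⟨a, b, hab⟩ : ∃ a b : Ω, a ≠ b := by
    have h : 1 < Fintype.card Ω := by omega
    exact Fintype.exists_pair_of_one_lt_card h
  obtain ⟨F, hFle, hFcard, hFfix⟩ := Cfsg.Agent.H19.zass_exists_kernel hZ hab
  have hFc : Fintype.card Ω - 1 = Nat.card F := by omega
  rw [hFc]
  by_cases hpp : ∃ p : ℕ, p.Prime ∧ ∃ m : ℕ, Nat.card F = p ^ m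
  · obtain ⟨p, hp, m, hm⟩ := hpp
    rw [hm]
    have hm0 : m ≠ 0 := by
      intro h0
      rw [h0, pow_zero] at hm
      omega
    exact hp.isPrimePow.pow hm0
  exfalso
  have hnp : ∀ p : ℕ, p.Prime → ∀ m : ℕ, Nat.card F ≠ p ^ m :=
    fun p hp m hm => hpp ⟨p, hp, m, hm⟩
  by_cases heven : Even (Nat.card ↥(MulAction.stabilizer G a ⊓ MulAction.stabilizer G b))
  · have hle := Cfsg.Agent.S0741.result hZ hab heven
    obtain ⟨m, hm⟩ := heven
    have hpos : 0 < Nat.card ↥(MulAction.stabilizer G a ⊓ MulAction.stabilizer G b) :=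
      Nat.card_pos
    rcases Cfsg.Agent.H19.zass_half_or_full hZ hab hle with hfull | hhalf
    · obtain ⟨h3, hsharp⟩ := Cfsg.Agent.H19.zass_sharp3 hZ hab hfull
      haveI := hZ.1
      exact Cfsg.Agent.H19.sharp3_not_simple (G := G) (Ω := Ω) ⟨m + 1, by omega⟩ (by omega)
        h3 hsharp
    · obtain ⟨p, f, K, iK, iKt, hp, hp2, hKc, hΩ, hchar, hiso⟩ :=
        Cfsg.Agent.H19.zass_psl_even hZ hab ⟨m, hm⟩ hhalf F hFle hFcard hFfix
      exact hnp p hp f (by omega)
  · rw [Nat.not_even_iff_odd] at heven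
    obtain ⟨e, he⟩ :
        ∃ e, Nat.card ↥(MulAction.stabilizer G a ⊓ MulAction.stabilizer G b) = e := ⟨_, rfl⟩
    rw [he] at heven
    obtain ⟨h, hh⟩ : ∃ h, h = Nat.card F := ⟨_, rfl⟩
    have hΩ : Fintype.card Ω = h + 1 := by omega
    have he3 : 3 ≤ e := by
      obtain ⟨w, hw, hw1⟩ := Cfsg.Agent.H19.zass_exists_ne_one hZ hab
      have h1 : 1 < Nat.card
          (MulAction.stabilizer G a ⊓ MulAction.stabilizer G b : Subgroup G) := by
        rw [Finite.one_lt_card_iff_nontrivial]
        exact ⟨⟨⟨w, hw⟩, 1, fun hc => hw1 (congrArg Subtype.val hc)⟩⟩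
      rw [he] at h1
      obtain ⟨m, hm⟩ := heven
      omega
    have hNeq := Cfsg.Agent.H19.zass_normalizer_kernel hZ a F hFle hFcard hFfix
    have hTI : ∀ g : G, g ∉ Subgroup.normalizer (F : Set G) →
        ∀ k ∈ F, g * k * g⁻¹ ∈ F → k = 1 := by
      intro g hg k hk hgk
      by_contra hk1
      apply hg
      rw [hNeq]
      have h2 : g * k * g⁻¹ ≠ 1 := by
        intro hc
        apply hk1
        have h4 : k = g⁻¹ * (g * k * g⁻¹) * g := by group
        rw [h4, hc]
        group
      have h3 : (g * k * g⁻¹) • (g • a) = g • a := by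
        rw [mul_smul, mul_smul, inv_smul_smul, (hFle hk : k • a = a)]
      exact hFfix _ hgk h2 _ h3
    have hC : ∀ k ∈ F, k ≠ 1 → Subgroup.centralizer ({k} : Set G) ≤ F := by
      intro k hk hk1 x hx
      have hxk : k * x = x * k := Subgroup.mem_centralizer_iff.mp hx k rfl
      have hka : k • a = a := hFle hk
      have hxa : x • a = a := by
        apply hFfix k hk hk1
        rw [← mul_smul, hxk, mul_smul, hka]
      by_cases hx1 : x = 1
      · rw [hx1]
        exact F.one_mem
      apply Cfsg.Agent.H19.zass_mem_kernel hZ a F hFle hFcard hFfix x hxa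
      intro c hc
      by_contra hca
      apply hx1
      have h1 : x • (k • c) = k • c := by
        rw [← mul_smul, ← hxk, mul_smul, hc]
      have h2 : k • c ≠ a := by
        intro h
        rw [← hka] at h
        exact hca (smul_left_cancel k h)
      have h3 : k • c ≠ c := fun h => hca (hFfix k hk hk1 c h)
      exact hZ.2.2.1 x a c (k • c) (Ne.symm hca) (Ne.symm h3) (Ne.symm h2) hxa hc h1
    have hN : Nat.card (Subgroup.normalizer (F : Set G)) = h * e := by
      rw [hNeq, Cfsg.Agent.H19.zass_card_stab hZ hab, he, hΩ]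
      simp
    have hG : Nat.card G = (h + 1) * (h * e) := by
      have h1 := Cfsg.Agent.H19.card_eq_of_two_pretransitive hZ.2.1 hab
      rw [Nat.card_eq_fintype_card (α := Ω), hΩ, he] at h1
      rw [h1]
      have h2 : (h + 1) * (h + 1) - (h + 1) = (h + 1) * h := by
        rw [Nat.mul_succ (h + 1) h]
        omega
      rw [h2, mul_assoc]
    have hh0 : 0 < h := by omega
    obtain ⟨hidx, hNidx, hKidx⟩ :=
      Cfsg.Agent.H19.feit_index F h e hh.symm hN hG hh0 (by omega)
    have hH'card : Nat.card (F.subgroupOf (Subgroup.normalizer (F : Set G))) = h := by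
      rw [hh]
      exact Nat.card_congr (Subgroup.subgroupOfEquivOfLe Subgroup.le_normalizer).toEquiv
    have hC' : ∀ k ∈ F.subgroupOf (Subgroup.normalizer (F : Set G)), k ≠ 1 →
        Subgroup.centralizer ({k} : Set ↥(Subgroup.normalizer (F : Set G))) ≤
          F.subgroupOf (Subgroup.normalizer (F : Set G)) := by
      intro k hk hk1 x hx
      by_contra hxK
      have hcomm : x * k = k * x := (Subgroup.mem_centralizer_iff.mp hx k rfl).symm
      exact hk1 (Cfsg.Agent.H5.normalizer_fpf F hC x hxK k hk hcomm)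
    have hH1 : F.subgroupOf (Subgroup.normalizer (F : Set G)) ≠ ⊥ := by
      intro hbot
      rw [hbot, Subgroup.card_bot] at hH'card
      omega
    have hH2 : F.subgroupOf (Subgroup.normalizer (F : Set G)) ≠ ⊤ := by
      intro htop
      rw [htop, Subgroup.index_top] at hidx
      omega
    have hnp' : ∀ p : ℕ, p.Prime → ∀ m : ℕ,
        Nat.card (F.subgroupOf (Subgroup.normalizer (F : Set G))) ≠ p ^ m := by
      intro p hp m hm
      exact hnp p hp m (by rw [← hh, ← hH'card]; exact hm)
    have hbig := Cfsg.Agent.H19.frobK_big (F.subgroupOf (Subgroup.normalizer (F : Set G)))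
      hC' hH1 hH2 hnp'
    rw [hidx, hH'card] at hbig
    exact Cfsg.Agent.H19.feit_coherent_core F hTI hC h e hh.symm hN hG (by omega) hbig hnp

end Cfsg.Agent.S0346
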