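import Cfsg.Statements.S2420
import Cfsg.Agent.H61.Parabolic

set_option autoImplicit false
open scoped MatrixGroups
open Cfsg

namespace Cfsg.Agent.S2420

/-- The number of partial flags of a given type: for a composition `μ` of `n` (with `n` parts, zeros allowed) and a field with `q` elements, the index of the standard parabolic subgroup `P_μ` in `GL_n(q)` times `∏_i {μ_i}` equals `{n}`, where `{r}` denotes the product over `k = 1, …, r` of the q-integers `1 + q + ⋯ + q^(k−1)`. -/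
theorem result {F : Type*} [Field F] [Fintype F] {q : ℕ} (hq : Fintype.card F = q) {n : ℕ} (μ : Fin n → ℕ) (hμ : ∑ i, μ i = n) :
    Nat.card (GL (Fin n) F ⧸ Cfsg.parabolicGL n F μ) * ∏ i : Fin n, ∏ j ∈ Finset.range (μ i), ∑ l ∈ Finset.range (j + 1), q ^ l =
      ∏ j ∈ Finset.range n, ∑ l ∈ Finset.range (j + 1), q ^ l := by
  classical
  have hP : Nat.card (Cfsg.parabolicGL n F μ) = ∏ j : Fin n,
      (q ^ (Finset.univ.filter fun i : Fin n => ¬ compLabel μ j < compLabel μ i).card - q ^ j.val) :=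
    Cfsg.Agent.H61.card_blockTriangular_GL hq (compLabel μ) (Cfsg.Agent.H61.compLabel_mono μ)
  have hGL := Matrix.card_GL_field (𝔽 := F) n
  rw [hq] at hGL
  have hidx := Subgroup.card_eq_card_quotient_mul_card_subgroup (Cfsg.parabolicGL n F μ)
  rw [hGL, hP] at hidx
  have hq1 : 1 ≤ q := by
    rw [← hq]
    exact Fintype.card_pos
  have hq2 : 2 ≤ q := by
    rw [← hq]
    exact Fintype.one_lt_card
  simp only [Cfsg.Agent.H61.pow_sub_pow_qint q _ _ hq1, Finset.prod_mul_distrib] at hidx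
  rw [Cfsg.Agent.H61.prod_qint_blocks μ hμ q] at hidx
  have hA : 0 < ∏ j : Fin n, q ^ j.val := Finset.prod_pos (fun j _ => pow_pos hq1 _)
  have hB : 0 < ∏ _j : Fin n, (q - 1) := Finset.prod_pos (fun j _ => by omega)
  have h3 : (∏ j : Fin n, ∑ l ∈ Finset.range (n - j.val), q ^ l) =
      ∏ j ∈ Finset.range n, ∑ l ∈ Finset.range (j + 1), q ^ l := by
    rw [Fin.prod_univ_eq_prod_range (fun j : ℕ => ∑ l ∈ Finset.range (n - j), q ^ l) n,
      ← Finset.prod_range_reflect (fun j => ∑ l ∈ Finset.range (j + 1), q ^ l) n]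
    apply Finset.prod_congr rfl
    intro j hj
    rw [Finset.mem_range] at hj
    congr 2
    omega
  rw [h3] at hidx
  have h4 : (∏ j : Fin n, q ^ j.val) * ((∏ _j : Fin n, (q - 1)) *
      ∏ j ∈ Finset.range n, ∑ l ∈ Finset.range (j + 1), q ^ l) =
      (∏ j : Fin n, q ^ j.val) * ((∏ _j : Fin n, (q - 1)) *
        (Nat.card (GL (Fin n) F ⧸ Cfsg.parabolicGL n F μ) *
          ∏ i : Fin n, ∏ j ∈ Finset.range (μ i), ∑ l ∈ Finset.range (j + 1), q ^ l)) := by
    rw [hidx]
    ring
  exact (Nat.eq_of_mul_eq_mul_left hB (Nat.eq_of_mul_eq_mul_left hA h4)).symm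

end Cfsg.Agent.S2420
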