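import Mathlib
import Cfsg.Statements.S2424
import Cfsg.Agent.H65.QVand
import Cfsg.Agent.S2420

set_option autoImplicit false
open scoped MatrixGroups
open Cfsg

namespace Cfsg.Agent.S2424

theorem fixedPointCharacter_one {G : Type*} [Group G] (H : Subgroup G) :
    Cfsg.fixedPointCharacter H 1 = (Nat.card (G ⧸ H) : ℂ) := by
  unfold Cfsg.fixedPointCharacter
  rw [MulAction.fixedBy_one_eq_univ]
  congr 1
  exact Nat.card_congr (Equiv.Set.univ _)

theorem result_aux {F : Type*} [Field F] [Fintype F] {q : ℕ} {n : ℕ} (ν : Fin n → ℕ)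
    (hsum : ∑ i, ν i = n)
    (h2420 : ∀ μ : Fin n → ℕ, ∑ i, μ i = n →
      Nat.card (GL (Fin n) F ⧸ Cfsg.parabolicGL n F μ) * ∏ i : Fin n, ∏ j ∈ Finset.range (μ i), ∑ l ∈ Finset.range (j + 1), q ^ l =
        ∏ j ∈ Finset.range n, ∑ l ∈ Finset.range (j + 1), q ^ l) :
    Cfsg.unipotentCharacterGL n F ν 1 * (q : ℂ) ^ (n * (n - 1) * (n - 2) / 6) *
        ∏ i : Fin n, ∏ j ∈ Finset.range (ν i + i.val), ((∑ l ∈ Finset.range (j + 1), q ^ l : ℕ) : ℂ) =
      (∏ j ∈ Finset.range n, ((∑ l ∈ Finset.range (j + 1), q ^ l : ℕ) : ℂ)) *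
        ∏ i : Fin n, ∏ j ∈ Finset.univ.filter (fun j : Fin n => i < j),
          (((∑ l ∈ Finset.range (ν j + j.val), q ^ l : ℕ) : ℂ) - ((∑ l ∈ Finset.range (ν i + i.val), q ^ l : ℕ) : ℂ)) := by
  have h := Cfsg.Agent.H65.QVand.core q n ν hsum
    (fun μ => Nat.card (GL (Fin n) F ⧸ Cfsg.parabolicGL n F μ)) h2420
  have hχ : Cfsg.unipotentCharacterGL n F ν 1 = ∑ κ : Equiv.Perm (Fin n),
        if ∀ i : Fin n, (κ i).val ≤ ν i + i.val then
          ((Equiv.Perm.sign κ : ℤ) : ℂ) *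
            ((Nat.card (GL (Fin n) F ⧸ Cfsg.parabolicGL n F (fun i => ν i + i.val - (κ i).val)) : ℕ) : ℂ)
        else 0 := by
    unfold Cfsg.unipotentCharacterGL
    apply Finset.sum_congr rfl
    intro κ _
    split_ifs
    · rw [fixedPointCharacter_one]
    · rfl
  rw [hχ]
  exact h

/-- Degrees of the partition-indexed irreducible characters of `GL_n(q)`: for `ν` a partition of `n` with `n` non-decreasing parts `ν_0 ≤ ⋯ ≤ ν_{n−1}` (zeros allowed; positions counted from 0) and `λ_i = ν_i + i`, write `Q(r)` for the q-integer `1 + q + ⋯ + q^(r−1)` and `Q!(r)` for `Q(1)Q(2)⋯Q(r)`; then the degree `γ(ν)` of the character satisfies `γ(ν) · q^(n(n−1)(n−2)/6) · ∏_i Q!(λ_i) = Q!(n) · ∏_{i<j} (Q(λ_j) − Q(λ_i))`. For `ν = (1,…,1)` this gives the Steinberg degree `q^(n(n−1)/2)`, for `ν = (0,…,0,n)` degree 1. -/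
theorem result {F : Type*} [Field F] [Fintype F] {q : ℕ} (hq : Fintype.card F = q) {n : ℕ} (ν : Fin n → ℕ) (hmono : Monotone ν) (hsum : ∑ i, ν i = n) :
    Cfsg.unipotentCharacterGL n F ν 1 * (q : ℂ) ^ (n * (n - 1) * (n - 2) / 6) *
        ∏ i : Fin n, ∏ j ∈ Finset.range (ν i + i.val), ((∑ l ∈ Finset.range (j + 1), q ^ l : ℕ) : ℂ) =
      (∏ j ∈ Finset.range n, ((∑ l ∈ Finset.range (j + 1), q ^ l : ℕ) : ℂ)) *
        ∏ i : Fin n, ∏ j ∈ Finset.univ.filter (fun j : Fin n => i < j),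
          (((∑ l ∈ Finset.range (ν j + j.val), q ^ l : ℕ) : ℂ) - ((∑ l ∈ Finset.range (ν i + i.val), q ^ l : ℕ) : ℂ)) := by
  exact result_aux ν hsum (fun μ hμ => Cfsg.Agent.S2420.result hq μ hμ)

end Cfsg.Agent.S2424
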