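import Mathlib
import Cfsg.Statements.S3736
import Cfsg.Agent.H1.PQLemma
import Cfsg.Agent.H1.Frattini
import Cfsg.Agent.H3.PGroup

set_option autoImplicit false
open Cfsg

namespace Cfsg.Agent.S3736

open scoped commutatorElement

variable {X : Type*} [Group X]

/-- Coprime action with `[P, A] = P`: the fixed points of `A` on `P` lie in `[P, P]`. -/
theorem fixed_le_commutator [Finite X] (P A : Subgroup X)
    (hAP : A ≤ Subgroup.normalizer (P : Set X))
    (hcop : (Nat.card A).Coprime (Nat.card P)) (hPA : ⁅P, A⁆ = P) :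
    P ⊓ Subgroup.centralizer (A : Set X) ≤ ⁅P, P⁆ := by
  classical
  have : Fintype A := Fintype.ofFinite A
  let cj : A → (↥P →* ↥P) := fun a => (Cfsg.Agent.H1.conjNormalizer P a (hAP a.2)).toMonoidHom
  have hcj : ∀ (a : A) (x : ↥P), ((cj a x : ↥P) : X) = a * x * (a : X)⁻¹ := fun a x => rfl
  let ν : ↥P →* Abelianization ↥P :=
    ∏ a : A, (Abelianization.of : ↥P →* Abelianization ↥P).comp (cj a)
  have hν : ∀ x : ↥P, ν x = ∏ a : A, Abelianization.of (cj a x) := by
    intro x
    show (∏ a : A, (Abelianization.of : ↥P →* Abelianization ↥P).comp (cj a)) x = _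
    rw [MonoidHom.finsetProd_apply]
    rfl
  have hinv : ∀ (b : A) (x : ↥P), ν (cj b x) = ν x := by
    intro b x
    rw [hν, hν]
    rw [← Equiv.prod_comp (Equiv.mulRight b)
      (fun a : A => (Abelianization.of (cj a x) : Abelianization ↥P))]
    apply Finset.prod_congr rfl
    intro a _
    congr 1
    apply Subtype.ext
    rw [hcj, hcj, hcj]
    simp [mul_assoc]
  have hker : ∀ g : X, ∀ hg : g ∈ P, ν ⟨g, hg⟩ = 1 := by
    have hle : ⁅P, A⁆ ≤ (ν.ker).map P.subtype := by
      rw [Subgroup.commutator_le]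
      intro x hx a ha
      refine ⟨⟨x, hx⟩ * cj ⟨a, ha⟩ (⟨x, hx⟩⁻¹), ?_, ?_⟩
      · rw [SetLike.mem_coe, MonoidHom.mem_ker, map_mul, hinv, map_inv, mul_inv_cancel]
      · simp only [Subgroup.coe_subtype, Subgroup.coe_mul, hcj, Subgroup.coe_inv,
          commutatorElement_def]
        group
    rw [hPA] at hle
    intro g hg
    obtain ⟨y, hy, hyg⟩ := hle hg
    have : y = ⟨g, hg⟩ := Subtype.ext hyg
    rw [← this]
    exact hy
  intro u hu
  have h1 : (Abelianization.of (⟨u, hu.1⟩ : ↥P) : Abelianization ↥P) ^ Nat.card A = 1 := by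
    have h2 := hker u hu.1
    rw [hν] at h2
    have h3 : ∀ a : A, (Abelianization.of (cj a ⟨u, hu.1⟩) : Abelianization ↥P) =
        Abelianization.of (⟨u, hu.1⟩ : ↥P) := by
      intro a
      congr 1
      apply Subtype.ext
      rw [hcj]
      have := (Subgroup.mem_centralizer_iff.mp hu.2) a a.2
      show (a : X) * u * (a : X)⁻¹ = u
      rw [this, mul_inv_cancel_right]
    rw [Finset.prod_congr rfl (fun a _ => h3 a), Finset.prod_const, Finset.card_univ,
      ← Nat.card_eq_fintype_card] at h2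
    exact h2
  have h4 : (Abelianization.of (⟨u, hu.1⟩ : ↥P) : Abelianization ↥P) ^ Nat.card P = 1 := by
    rw [← map_pow, pow_card_eq_one', map_one]
  have h5 : orderOf (Abelianization.of (⟨u, hu.1⟩ : ↥P) : Abelianization ↥P) ∣
      Nat.gcd (Nat.card A) (Nat.card P) :=
    Nat.dvd_gcd (orderOf_dvd_of_pow_eq_one h1) (orderOf_dvd_of_pow_eq_one h4)
  rw [hcop] at h5
  have h6 : (Abelianization.of (⟨u, hu.1⟩ : ↥P) : Abelianization ↥P) = 1 :=
    orderOf_eq_one_iff.mp (Nat.dvd_one.mp h5)
  have h7 : (⟨u, hu.1⟩ : ↥P) ∈ commutator ↥P := by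
    rw [← Abelianization.ker_of ↥P]
    exact h6
  rw [← Subgroup.map_subtype_commutator]
  exact ⟨⟨u, hu.1⟩, h7, rfl⟩

/-- Power formula in class two: if `y * x = x * y * c` with `c` commuting with `x` and `y`. -/
theorem pow_mul_comm_of_central {G : Type*} [Group G] (x y c : G) (h : y * x = x * y * c)
    (hcy : Commute c y) (n : ℕ) : y ^ n * x = x * y ^ n * c ^ n := by
  induction n with
  | zero => simp
  | succ n ih =>
    calc y ^ (n + 1) * x = y ^ n * (y * x) := by rw [pow_succ, mul_assoc]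
      _ = y ^ n * (x * y * c) := by rw [h]
      _ = (y ^ n * x) * y * c := by simp only [mul_assoc]
      _ = x * y ^ n * c ^ n * y * c := by rw [ih]
      _ = x * y ^ n * (c ^ n * y) * c := by simp only [mul_assoc]
      _ = x * y ^ n * (y * c ^ n) * c := by rw [(hcy.pow_left n).eq]
      _ = x * (y ^ n * y) * (c ^ n * c) := by simp only [mul_assoc]
      _ = x * y ^ (n + 1) * c ^ (n + 1) := by rw [← pow_succ, ← pow_succ]

theorem mul_pow_of_central {G : Type*} [Group G] (x y c : G) (h : y * x = x * y * c)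
    (hcx : Commute c x) (hcy : Commute c y) (n : ℕ) :
    (x * y) ^ n = x ^ n * y ^ n * c ^ (n.choose 2) := by
  induction n with
  | zero => simp
  | succ n ih =>
    have h1 := pow_mul_comm_of_central x y c h hcy n
    have h2 : (n + 1).choose 2 = n + n.choose 2 := by
      rw [Nat.choose_succ_succ, Nat.choose_one_right]
    calc (x * y) ^ (n + 1) = (x * y) ^ n * (x * y) := pow_succ _ _
      _ = x ^ n * y ^ n * c ^ (n.choose 2) * (x * y) := by rw [ih]
      _ = x ^ n * y ^ n * (c ^ (n.choose 2) * x) * y := by simp only [mul_assoc]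
      _ = x ^ n * y ^ n * (x * c ^ (n.choose 2)) * y := by rw [(hcx.pow_left _).eq]
      _ = x ^ n * (y ^ n * x) * (c ^ (n.choose 2) * y) := by simp only [mul_assoc]
      _ = x ^ n * (x * y ^ n * c ^ n) * (y * c ^ (n.choose 2)) := by
          rw [h1, (hcy.pow_left _).eq]
      _ = x ^ n * x * y ^ n * (c ^ n * y) * c ^ (n.choose 2) := by simp only [mul_assoc]
      _ = x ^ n * x * y ^ n * (y * c ^ n) * c ^ (n.choose 2) := by rw [(hcy.pow_left n).eq]
      _ = (x ^ n * x) * (y ^ n * y) * (c ^ n * c ^ (n.choose 2)) := by simp only [mul_assoc]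
      _ = x ^ (n + 1) * y ^ (n + 1) * c ^ ((n + 1).choose 2) := by
          rw [← pow_succ, ← pow_succ, ← pow_add, h2]

theorem normalizer_le_normalizer_centralizer (P : Subgroup X) :
    Subgroup.normalizer (P : Set X) ≤
      Subgroup.normalizer ((Subgroup.centralizer (P : Set X) : Subgroup X) : Set X) := by
  rw [Subgroup.le_normalizer_iff]
  intro b hb c hc
  rw [Subgroup.mem_centralizer_iff] at hc ⊢
  intro x hx
  have h1 : b⁻¹ * x * b ∈ P := by
    have := (Subgroup.mem_normalizer_iff.mp (Subgroup.inv_mem _ hb) x).mp hx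
    simpa using this
  have h2 := hc _ h1
  calc x * (b * c * b⁻¹) = b * ((b⁻¹ * x * b) * c) * b⁻¹ := by group
    _ = b * (c * (b⁻¹ * x * b)) * b⁻¹ := by rw [h2]
    _ = b * c * b⁻¹ * x := by group

theorem map_center_subtype (P : Subgroup X) :
    (Subgroup.center ↥P).map P.subtype = P ⊓ Subgroup.centralizer (P : Set X) := by
  ext x
  constructor
  · rintro ⟨y, hy, rfl⟩
    refine ⟨y.2, Subgroup.mem_centralizer_iff.mpr ?_⟩
    intro g hg
    have := Subgroup.mem_center_iff.mp hy ⟨g, hg⟩
    exact congrArg Subtype.val this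
  · rintro ⟨hx, hc⟩
    refine ⟨⟨x, hx⟩, ?_, rfl⟩
    rw [SetLike.mem_coe, Subgroup.mem_center_iff]
    intro g
    apply Subtype.ext
    exact (Subgroup.mem_centralizer_iff.mp hc) g g.2

/-- The Hall–Higman reduction for a minimal non-trivial action. Let B, A and P be subgroups of a finite group with P a p-group, B normalizing P, and A a normal subgroup of B of order prime to p. Suppose A does not centralize P but centralizes every proper B-invariant subgroup of P. Then [P, A] = P; P is elementary abelian or special; B acts irreducibly on P/Φ(P), that is, the only B-invariant subgroups of P containing Φ(P) are Φ(P) and P; and if p is odd then every element of P has order dividing p. -/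
theorem result {X : Type*} [Group X] [Finite X] {p : ℕ} [Fact p.Prime] (B A P : Subgroup X) (hP : IsPGroup p P) (hBP : B ≤ Subgroup.normalizer (P : Set X)) (hAB : A ≤ B) (hAn : B ≤ Subgroup.normalizer (A : Set X)) (hAp : (Nat.card A).Coprime p) (hnt : ⁅P, A⁆ ≠ ⊥) (hmin : ∀ U : Subgroup X, U < P → B ≤ Subgroup.normalizer (U : Set X) → ⁅U, A⁆ = ⊥) : ⁅P, A⁆ = P ∧ (Cfsg.IsElementaryAbelian p P ∨ Cfsg.IsSpecial p ↥P) ∧ (∀ U : Subgroup X, (frattini ↥P).map P.subtype ≤ U → U ≤ P → B ≤ Subgroup.normalizer (U : Set X) → U = (frattini ↥P).map P.subtype ∨ U = P) ∧ (p ≠ 2 → ∀ x ∈ P, x ^ p = 1) := by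
  have hp : p.Prime := Fact.out
  have hAP : A ≤ Subgroup.normalizer (P : Set X) := hAB.trans hBP
  have hcop : (Nat.card A).Coprime (Nat.card P) := by
    obtain ⟨k, hk⟩ := IsPGroup.iff_card.mp hP
    rw [hk]
    exact Nat.Coprime.pow_right k hAp
  have hnil : Group.IsNilpotent ↥P := hP.isNilpotent
  have hsolv : Group.IsSolvable A ∨ Group.IsSolvable P := Or.inr inferInstance
  have hPA_le : ⁅P, A⁆ ≤ P := Cfsg.Agent.H1.commutator_le_of_le_normalizer A P hAP
  -- F1
  have hF1 : ⁅P, A⁆ = P := by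
    by_contra hne
    have hlt : ⁅P, A⁆ < P := lt_of_le_of_ne hPA_le hne
    have hB : B ≤ Subgroup.normalizer ((⁅P, A⁆ : Subgroup X) : Set X) :=
      Cfsg.Agent.H1.le_normalizer_commutator B P A hBP hAn
    have h1 := hmin _ hlt hB
    rw [Cfsg.Agent.H1.coprime_commutator_commutator A P hAP hcop hsolv] at h1
    exact hnt h1
  have hC : P ⊓ Subgroup.centralizer (A : Set X) ≤ ⁅P, P⁆ :=
    fixed_le_commutator P A hAP hcop hF1
  have hPne : P ≠ ⊥ := by
    rintro rfl
    exact hnt (Subgroup.commutator_bot_left A)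
  set Φ : Subgroup X := (frattini ↥P).map P.subtype with hΦdef
  have hΦP : Φ ≤ P := Subgroup.map_subtype_le _
  have hΦne : Φ ≠ P := by
    intro h
    have h1 : frattini ↥P = ⊤ := by
      apply Subgroup.map_injective P.subtype_injective
      rw [← hΦdef, h, ← MonoidHom.range_eq_map, Subgroup.range_subtype]
    have hnt' : Nontrivial ↥P := (Subgroup.nontrivial_iff_ne_bot P).mpr hPne
    rcases IsCoatomic.eq_top_or_exists_le_coatom (⊥ : Subgroup ↥P) with h2 | ⟨M, hM, -⟩
    · exact bot_ne_top h2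
    · have h3 : frattini ↥P ≤ M := frattini_le_coatom hM
      rw [h1] at h3
      exact hM.1 (top_le_iff.mp h3)
  have hΦlt : Φ < P := lt_of_le_of_ne hΦP hΦne
  have hNΦ : Subgroup.normalizer (P : Set X) ≤ Subgroup.normalizer (Φ : Set X) :=
    Cfsg.Agent.H1.normalizer_le_normalizer_map_of_characteristic P (frattini ↥P)
  have hBΦ : B ≤ Subgroup.normalizer (Φ : Set X) := hBP.trans hNΦ
  have hΦA : ⁅Φ, A⁆ = ⊥ := hmin Φ hΦlt hBΦ
  have hΦC : Φ ≤ P ⊓ Subgroup.centralizer (A : Set X) :=
    le_inf hΦP (Subgroup.commutator_eq_bot_iff_le_centralizer.mp hΦA)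
  have hDΦ : ⁅P, P⁆ ≤ Φ := by
    rw [← Subgroup.map_subtype_commutator]
    exact Subgroup.map_mono (Cfsg.Agent.H3.commutator_le_frattini hP)
  have hCΦ : P ⊓ Subgroup.centralizer (A : Set X) = Φ := le_antisymm (hC.trans hDΦ) hΦC
  have hD : ⁅P, P⁆ = Φ := le_antisymm hDΦ (hΦC.trans hC)
  have hpowΦ : ∀ x ∈ P, x ^ p ∈ Φ := by
    intro x hx
    exact ⟨⟨x, hx⟩ ^ p, Cfsg.Agent.H3.pow_mem_frattini hP ⟨x, hx⟩, rfl⟩
  -- irreducibility
  have hirr : ∀ U : Subgroup X, Φ ≤ U → U ≤ P → B ≤ Subgroup.normalizer (U : Set X) →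
      U = Φ ∨ U = P := by
    intro U hΦU hUP hBU
    by_cases hU : U = P
    · exact Or.inr hU
    · left
      have hlt : U < P := lt_of_le_of_ne hUP hU
      have h1 := hmin U hlt hBU
      have h2 : U ≤ P ⊓ Subgroup.centralizer (A : Set X) :=
        le_inf hUP (Subgroup.commutator_eq_bot_iff_le_centralizer.mp h1)
      rw [hCΦ] at h2
      exact le_antisymm h2 hΦU
  -- Φ is central in P
  have hΦcent : Φ ≤ Subgroup.centralizer (P : Set X) := by
    have h1 : ⁅⁅A, Φ⁆, P⁆ = ⊥ := by
      rw [Subgroup.commutator_comm A Φ, hΦA]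
      exact Subgroup.commutator_bot_left P
    have h2 : ⁅⁅Φ, P⁆, A⁆ = ⊥ := by
      have h3 : ⁅Φ, P⁆ ≤ Φ :=
        Cfsg.Agent.H1.commutator_le_of_le_normalizer P Φ (Subgroup.le_normalizer.trans hNΦ)
      exact le_bot_iff.mp (hΦA ▸ Subgroup.commutator_mono h3 le_rfl)
    have h4 := Subgroup.commutator_commutator_eq_bot_of_rotate h1 h2
    rw [hF1] at h4
    rw [Subgroup.commutator_comm] at h4
    exact Subgroup.commutator_eq_bot_iff_le_centralizer.mp h4
  refine ⟨hF1, ?_, hirr, ?_⟩
  · by_cases hab : ⁅P, P⁆ = ⊥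
    · left
      refine ⟨⟨⟨fun a b => ?_⟩⟩, ?_⟩
      · apply Subtype.ext
        have h1 := Subgroup.commutator_eq_bot_iff_le_centralizer.mp hab
        exact ((Subgroup.mem_centralizer_iff.mp (h1 a.2)) b b.2).symm
      · intro a ha
        have h1 := hpowΦ a ha
        rw [← hD, hab, Subgroup.mem_bot] at h1
        exact h1
    · right
      have hZB : B ≤ Subgroup.normalizer
          ((P ⊓ Subgroup.centralizer (P : Set X) : Subgroup X) : Set X) :=
        Cfsg.Agent.H1.le_normalizer_inf B P _ hBP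
          (hBP.trans (normalizer_le_normalizer_centralizer P))
      have hZne : P ⊓ Subgroup.centralizer (P : Set X) ≠ P := by
        intro h
        apply hab
        rw [Subgroup.commutator_eq_bot_iff_le_centralizer]
        exact (inf_eq_left.mp h)
      have hZ : P ⊓ Subgroup.centralizer (P : Set X) = Φ :=
        (hirr _ (le_inf hΦP hΦcent) inf_le_left hZB).resolve_right hZne
      refine ⟨hP, ?_, ?_⟩
      · apply Subgroup.map_injective P.subtype_injective
        rw [map_center_subtype, hZ]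
      · apply Subgroup.map_injective P.subtype_injective
        rw [map_center_subtype, hZ, Subgroup.map_subtype_commutator, hD]
  · intro hp2
    -- power formula in P
    have hmulpow : ∀ x ∈ P, ∀ y ∈ P, (x * y) ^ p = x ^ p * y ^ p := by
      intro x hx y hy
      set c : X := y⁻¹ * x⁻¹ * y * x with hc
      have hcΦ : c ∈ Φ := by
        rw [← hD]
        have := Subgroup.commutator_mem_commutator (P.inv_mem hy) (P.inv_mem hx)
        rw [commutatorElement_def, inv_inv, inv_inv] at this
        exact this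
      have hcc := Subgroup.mem_centralizer_iff.mp (hΦcent hcΦ)
      have hcx : Commute c x := (hcc x hx).symm
      have hcy : Commute c y := (hcc y hy).symm
      have hyx : y * x = x * y * c := by rw [hc]; group
      have h1 := pow_mul_comm_of_central x y c hyx hcy p
      have hyp := Subgroup.mem_centralizer_iff.mp (hΦcent (hpowΦ y hy)) x hx
      have hcp : c ^ p = 1 := by
        rw [← hyp] at h1
        exact (mul_eq_left.mp h1.symm)
      have h2 := mul_pow_of_central x y c hyx hcx hcy p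
      have h3 : p ∣ p.choose 2 := by
        apply hp.dvd_choose_self (by norm_num)
        have := hp.two_le
        omega
      obtain ⟨k, hk⟩ := h3
      rw [h2, hk, pow_mul, hcp, one_pow, mul_one]
    let Ω : Subgroup X :=
      { carrier := {x | x ∈ P ∧ x ^ p = 1}
        mul_mem' := by
          rintro x y ⟨hx, hx1⟩ ⟨hy, hy1⟩
          exact ⟨P.mul_mem hx hy, by rw [hmulpow x hx y hy, hx1, hy1, one_mul]⟩
        one_mem' := ⟨P.one_mem, one_pow p⟩
        inv_mem' := by
          rintro x ⟨hx, hx1⟩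
          exact ⟨P.inv_mem hx, by rw [inv_pow, hx1, inv_one]⟩ }
    have hΩP : Ω ≤ P := fun x hx => hx.1
    have hΩB : B ≤ Subgroup.normalizer (Ω : Set X) := by
      rw [Subgroup.le_normalizer_iff]
      rintro b hb x ⟨hx, hx1⟩
      refine ⟨(Subgroup.mem_normalizer_iff.mp (hBP hb) x).mp hx, ?_⟩
      rw [conj_pow, hx1, mul_one, mul_inv_cancel]
    intro x hx
    by_contra hne
    have hΩne : Ω ≠ P := by
      intro h
      have : x ∈ Ω := h ▸ hx
      exact hne this.2
    have hΩA := hmin Ω (lt_of_le_of_ne hΩP hΩne) hΩB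
    have hΩC : Ω ≤ Subgroup.centralizer (A : Set X) :=
      Subgroup.commutator_eq_bot_iff_le_centralizer.mp hΩA
    have hle : ⁅P, A⁆ ≤ Subgroup.centralizer (A : Set X) := by
      rw [Subgroup.commutator_le]
      intro g hg a ha
      apply hΩC
      have haP := hAP ha
      have hy : a * g⁻¹ * a⁻¹ ∈ P := (Subgroup.mem_normalizer_iff.mp haP g⁻¹).mp (P.inv_mem hg)
      have hgc : ⁅g, a⁆ = g * (a * g⁻¹ * a⁻¹) := by rw [commutatorElement_def]; group
      refine ⟨hgc ▸ P.mul_mem hg hy, ?_⟩
      rw [hgc, hmulpow g hg _ hy, conj_pow, inv_pow]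
      have h1 : g ^ p ∈ Subgroup.centralizer (A : Set X) := (hCΦ ▸ hpowΦ g hg : g ^ p ∈ P ⊓ Subgroup.centralizer (A : Set X)).2
      have h2 := (Subgroup.mem_centralizer_iff.mp (Subgroup.inv_mem _ h1)) a ha
      rw [h2, mul_inv_cancel_right, mul_inv_cancel]
    rw [hF1] at hle
    exact hnt (Subgroup.commutator_eq_bot_iff_le_centralizer.mpr hle)

end Cfsg.Agent.S3736
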