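import Cfsg.Statements.S0899
import Cfsg.Agent.H16.FTBMain

set_option autoImplicit false
open Cfsg

namespace Cfsg.Agent.S0899

/-- Let G be a finite group with a faithful complex representation of degree n (on Fin n → ℂ) and p a prime. Suppose either that (n + 1) ^ 2 ≤ p, or that n + 1 < p and every subgroup of G whose order is not divisible by p ^ 2 has a normal Sylow p-subgroup. Then every Sylow p-subgroup of G is normal. -/
theorem result {G : Type*} [Group G] [Finite G] (n : ℕ) (ρ : Representation ℂ G (Fin n → ℂ)) (hρ : Function.Injective ρ) (p : ℕ) [Fact p.Prime] (h : (n + 1) ^ 2 ≤ p ∨ (n + 1 < p ∧ ∀ K : Subgroup G, ¬ p ^ 2 ∣ Nat.card K → ∀ Q : Sylow p K, (Q : Subgroup K).Normal)) (P : Sylow p G) : (P : Subgroup G).Normal := by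
  have hp : p.Prime := Fact.out
  have hpn : n + 1 < p := by
    rcases h with h1 | h1
    · rcases Nat.eq_zero_or_pos n with h0 | h0
      · have := hp.two_le
        omega
      · have : n + 1 < (n + 1) ^ 2 := by nlinarith
        omega
    · exact h1.1
  exact Cfsg.Agent.H16.ftb_main p n hpn _ G rfl ⟨ρ, hρ⟩ (h.imp id (fun h1 => h1.2)) P

end Cfsg.Agent.S0899
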