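import Cfsg.Statements.S5421
import Cfsg.Agent.H92.Basic

set_option autoImplicit false
open Cfsg Cfsg.Agent.H92

namespace Cfsg.Agent.S5421

/-- Let Q be an extraspecial 2-subgroup of the finite group G whose centralizer in G is its centre Z and which is normal in the centralizer of Z. If some involution b of Q outside Z has Z inside the largest normal 2-subgroup of the centralizer of b, then Q is a large extraspecial 2-subgroup of G. -/
theorem result {G : Type*} [Group G] [Finite G] (Q : Subgroup G) (hL1 : Cfsg.IsExtraspecial 2 ↥Q) (hL2 : Subgroup.centralizer (Q : Set G) = ((Subgroup.center ↥Q).map Q.subtype)) (hL3 : Subgroup.centralizer (((Subgroup.center ↥Q).map Q.subtype) : Set G) ≤ Subgroup.normalizer (Q : Set G)) (b : G) (hbQ : b ∈ Q) (hbZ : b ∉ ((Subgroup.center ↥Q).map Q.subtype)) (hb : orderOf b = 2) (hZ : ((Subgroup.center ↥Q).map Q.subtype) ≤ (Cfsg.pCore 2 ↥(Subgroup.centralizer ({b} : Set G))).map (Subgroup.centralizer ({b} : Set G)).subtype) : Cfsg.IsLargeExtraspecial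 Q := by
  have : Fact (Nat.Prime 2) := ⟨Nat.prime_two⟩
  refine ⟨hL1, hL2, hL3, ?_⟩
  intro K hK hQK
  have hQ2 : IsPGroup 2 (Q : Subgroup G) := hL1.1.1
  obtain ⟨z, hzQ, hz1, hzz, hzc, hZmem⟩ := extraspecial_center_gen Q hL1
  have hcomm := extraspecial_comm Q hL1 z hZmem
  have hQK0 : Q ⊓ K = ⊥ := inf_eq_bot_of_two_odd _ K hQ2 hK
  -- elements of Q normalize K
  have hnK : ∀ q ∈ Q, ∀ k ∈ K, q * k * q⁻¹ ∈ K := fun q hq k hk =>
    (Subgroup.mem_normalizer_iff.mp (hQK hq) k).mp hk
  have hbb : b * b = 1 := by rw [← pow_two, ← hb, pow_orderOf_eq_one]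
  -- Step A: C_K(z) = 1
  have hA : ∀ k ∈ K, z * k = k * z → k = 1 := by
    intro k hk hkz
    have hkC : k ∈ Subgroup.centralizer (((Subgroup.center ↥Q).map Q.subtype) : Set G) := by
      rw [Subgroup.mem_centralizer_iff]
      intro x hx
      rcases (hZmem x).mp hx with rfl | rfl
      · simp
      · exact hkz
    have hkN := hL3 hkC
    have hkQ : k ∈ Subgroup.centralizer (Q : Set G) := by
      rw [Subgroup.mem_centralizer_iff]
      intro q hq
      have hmem : q * k * q⁻¹ * k⁻¹ ∈ Q ⊓ K := by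
        refine ⟨?_, ?_⟩
        · have : k * q⁻¹ * k⁻¹ ∈ Q := (Subgroup.mem_normalizer_iff.mp hkN q⁻¹).mp (Q.inv_mem hq)
          have := Q.mul_mem hq this
          simpa [mul_assoc] using this
        · exact K.mul_mem (hnK q hq k hk) (K.inv_mem hk)
      rw [hQK0] at hmem
      have := congrArg (fun t => t * k * q) (Subgroup.mem_bot.mp hmem)
      simpa [mul_assoc] using this
    rw [hL2] at hkQ
    have hkQ' : k ∈ Q := ((mem_centerMap_iff Q k).mp hkQ).1
    have : k ∈ Q ⊓ K := ⟨hkQ', hk⟩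
    rw [hQK0] at this
    exact Subgroup.mem_bot.mp this
  -- Step B: C_K(b) = 1
  have hB : ∀ k ∈ K, b * k = k * b → k = 1 := by
    intro k hk hkb
    apply hA k hk
    have hkC : k ∈ Subgroup.centralizer ({b} : Set G) := by
      rw [Subgroup.mem_centralizer_singleton_iff]; exact hkb.symm
    have hzmem : z ∈ (Cfsg.pCore 2 ↥(Subgroup.centralizer ({b} : Set G))).map
        (Subgroup.centralizer ({b} : Set G)).subtype := hZ ((hZmem z).mpr (Or.inr rfl))
    obtain ⟨z', hz', hz'z⟩ := hzmem
    have hcore : IsPGroup 2 ((Cfsg.pCore 2 ↥(Subgroup.centralizer ({b} : Set G))).map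
        (Subgroup.centralizer ({b} : Set G)).subtype) := (pCore_isPGroup 2).map _
    have hmem : z * k * z⁻¹ * k⁻¹ ∈ ((Cfsg.pCore 2 ↥(Subgroup.centralizer ({b} : Set G))).map
        (Subgroup.centralizer ({b} : Set G)).subtype) ⊓ K := by
      refine ⟨?_, ?_⟩
      · have hn : (⟨k, hkC⟩ : ↥(Subgroup.centralizer ({b} : Set G))) * z'⁻¹ * (⟨k, hkC⟩ : ↥(Subgroup.centralizer ({b} : Set G)))⁻¹ ∈ Cfsg.pCore 2 ↥(Subgroup.centralizer ({b} : Set G)) :=
          (inferInstance : (Cfsg.pCore 2 ↥(Subgroup.centralizer ({b} : Set G))).Normal).conj_mem _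
            (Subgroup.inv_mem _ hz') _
        refine ⟨z' * ((⟨k, hkC⟩ : ↥(Subgroup.centralizer ({b} : Set G))) * z'⁻¹ * (⟨k, hkC⟩ : ↥(Subgroup.centralizer ({b} : Set G)))⁻¹), Subgroup.mul_mem _ hz' hn, ?_⟩
        simp only [Subgroup.coe_subtype, Subgroup.coe_mul, Subgroup.coe_inv] 
        rw [show ((z' : ↥(Subgroup.centralizer ({b} : Set G))) : G) = z from hz'z]
        simp [mul_assoc]
      · exact K.mul_mem (hnK z hzQ k hk) (K.inv_mem hk)
    rw [inf_eq_bot_of_two_odd _ K hcore hK] at hmem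
    have := congrArg (fun t => t * k * z) (Subgroup.mem_bot.mp hmem)
    simpa [mul_assoc] using this
  -- z and b invert K
  have hzinv := inverts_of_fixedPointFree K z hzz (hnK z hzQ) hA
  have hbinv := inverts_of_fixedPointFree K b hbb (hnK b hbQ) hB
  -- so b z centralizes K
  have hbz : ∀ k ∈ K, (b * z) * k = k * (b * z) := by
    intro k hk
    have h1 := hzinv k hk
    have h2 := hbinv k⁻¹ (K.inv_mem hk)
    have h3 : b * z * k * z⁻¹ * b⁻¹ = k := by
      calc b * z * k * z⁻¹ * b⁻¹ = b * (z * k * z⁻¹) * b⁻¹ := by simp [mul_assoc]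
        _ = b * k⁻¹ * b⁻¹ := by rw [h1]
        _ = k := by rw [h2, inv_inv]
    have := congrArg (fun t => t * b * z) h3
    simpa [mul_assoc] using this
  -- b z is conjugate to b in Q
  obtain ⟨q, hqQ, hqb⟩ : ∃ q ∈ Q, q * b * q⁻¹ = b * z := by
    by_contra hcon
    apply hbZ
    rw [mem_centerMap_iff]
    refine ⟨hbQ, fun q hq => ?_⟩
    rcases hcomm q hq b hbQ with h | h
    · have := congrArg (fun t => t * b * q) h
      simpa [mul_assoc] using this
    · exfalso
      apply hcon
      refine ⟨q, hq, ?_⟩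
      have := congrArg (fun t => t * b) h
      simp only [mul_assoc, inv_mul_cancel, mul_one] at this
      rw [mul_assoc, this]
      exact (hzc b hbQ).symm
  -- conclude
  rw [eq_bot_iff]
  intro k hk
  have hk' : q⁻¹ * k * q ∈ K := by
    have := hnK q⁻¹ (Q.inv_mem hqQ) k hk
    simpa using this
  have h1 : b * (q⁻¹ * k * q) = (q⁻¹ * k * q) * b := by
    have h2 := hbz k hk
    rw [← hqb] at h2
    have := congrArg (fun t => q⁻¹ * t * q) h2
    simp only [mul_assoc, inv_mul_cancel_left, inv_mul_cancel, mul_one] at this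
    simpa [mul_assoc] using this
  have h3 := hB _ hk' h1
  have : k = 1 := by
    have := congrArg (fun t => q * t * q⁻¹) h3
    simpa [mul_assoc] using this
  rw [this]; exact Subgroup.one_mem _


end Cfsg.Agent.S5421
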