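import Cfsg.Statements.S5422
import Cfsg.Agent.H92.Extra
import Cfsg.Agent.S5421

set_option autoImplicit false
open Cfsg Cfsg.Agent.H92

namespace Cfsg.Agent.S5422

/-- Let Q be an extraspecial 2-subgroup of the finite group G whose centralizer in G is its centre Z and which is normal in the centralizer of Z; suppose Q has width at least 2 (order 2^(2w+1) with w ≥ 2) and g is an element of G not normalizing Z with g Z g⁻¹ inside Q. Then Z lies inside g Q g⁻¹; writing V for the subgroup generated by Z and g Z g⁻¹ (a four-group), the normalizer of V induces on V its full automorphism group, that is, the centralizer of V has index 6 in the normalizer of V; and Q is a large extraspecial 2-subgroup of G. -/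
theorem result {G : Type*} [Group G] [Finite G] (Q : Subgroup G) (hL1 : Cfsg.IsExtraspecial 2 ↥Q) (hL2 : Subgroup.centralizer (Q : Set G) = ((Subgroup.center ↥Q).map Q.subtype)) (hL3 : Subgroup.centralizer (((Subgroup.center ↥Q).map Q.subtype) : Set G) ≤ Subgroup.normalizer (Q : Set G)) (w : ℕ) (hw : 2 ≤ w) (hcard : Nat.card ↥Q = 2 ^ (2 * w + 1)) (g : G) (hg : g ∉ Subgroup.normalizer (((Subgroup.center ↥Q).map Q.subtype) : Set G)) (hZg : (((Subgroup.center ↥Q).map Q.subtype)).map (MulAut.conj g).toMonoidHom ≤ Q) : ((Subgroup.center ↥Q).map Q.subtype) ≤ (Q).map (MulAut.conj g).toMonoidHom ∧ (Subgroup.centralizer ((((Subgroup.center ↥Q).map Q.subtype) ⊔ (((Subgroup.center ↥Q).map Q.subtype)).map (MulAut.conj g).toMonoidHom : Subgroup G) : Set G)).relIndex (Subgroup.normalizer ((((Subgroup.center ↥Q).map Q.subtype) ⊔ (((Subgroup.center ↥Q).map Q.subtype)).map (MulAut.conj g).toMonoidHom : Subgroup G) : Set G)) = 6 ∧ Cfsg.IsLargeExtraspecial Q := by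
  have : Fact (Nat.Prime 2) := ⟨Nat.prime_two⟩
  obtain ⟨z, hE, hZ⟩ := ESPair.of_hyp Q hL1 hL2 hL3
  have hzZ : z ∈ (Subgroup.center ↥Q).map Q.subtype := (hZ z).mpr (Or.inr rfl)
  have hs : g * z * g⁻¹ ∈ Q := hZg ⟨z, hzZ, rfl⟩
  have hsz : g * z * g⁻¹ ≠ z := by
    intro h
    apply hg
    apply Subgroup.mem_normalizer_fintype
    intro v hv
    rw [SetLike.mem_coe, hZ] at hv ⊢
    rcases hv with h1 | h1
    · left; rw [h1]; simp
    · right; rw [h1]; exact h
  have hcard32 : 32 ≤ Nat.card ↥Q := by
    rw [hcard]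
    calc 32 = 2 ^ 5 := by norm_num
      _ ≤ 2 ^ (2 * w + 1) := Nat.pow_le_pow_right (by norm_num) (by omega)
  have hz1 : z ∈ Q.map (MulAut.conj g).toMonoidHom := hE.mem_conj hcard32 g hs hsz
  have hP : ESPair (Q.map (MulAut.conj g).toMonoidHom) (g * z * g⁻¹) := hE.conj g
  have hB : ∀ x, x ∈ ((Subgroup.center ↥Q).map Q.subtype).map (MulAut.conj g).toMonoidHom ↔
      x = 1 ∨ x = g * z * g⁻¹ := by
    intro x
    rw [mem_map_conj_iff, hZ]
    constructor
    · rintro (h | h)
      · left
        have := congrArg (fun t => g * t * g⁻¹) h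
        simpa [mul_assoc] using this
      · right
        have := congrArg (fun t => g * t * g⁻¹) h
        simpa [mul_assoc] using this
    · rintro (h | h)
      · left; rw [h]; simp
      · right; rw [h]; simp [mul_assoc]
  generalize hsdef : g * z * g⁻¹ = s at hs hsz hP hB
  generalize hPdef : Q.map (MulAut.conj g).toMonoidHom = P at hP hz1 ⊢
  have hs1 : s ≠ 1 := hP.z_ne
  have hss : s * s = 1 := hP.z_sq
  have hzs : z * s = s * z := (hE.z_central s hs).symm
  refine ⟨?_, ?_, ?_⟩
  · intro x hx
    rcases (hZ x).mp hx with h | h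
    · rw [h]; exact one_mem _
    · rw [h]; exact hz1
  · obtain ⟨q, hqQ, hqs⟩ := hE.exists_conj hs hs1 hsz
    obtain ⟨x, hxP, hxz⟩ := hP.exists_conj hz1 hE.z_ne (fun h => hsz h.symm)
    have hqz : q * z * q⁻¹ = z := by
      rw [hE.z_central q hqQ]; simp
    have hxs : x * s * x⁻¹ = s := by
      rw [hP.z_central x hxP]; simp
    rw [← hzs] at hxz
    exact four_group_relIndex _ z s q x (four_group_mem _ _ z s hZ hB hE.z_sq hss hzs)
      hE.z_ne hs1 hsz hE.z_sq hss hzs hqz hqs hxz hxs
  · have hsZ : s ∉ (Subgroup.center ↥Q).map Q.subtype := by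
      intro h
      rcases (hZ s).mp h with h | h
      · exact hs1 h
      · exact hsz h
    have hord : orderOf s = 2 := orderOf_eq_prime (by rw [pow_two]; exact hss) hs1
    refine Cfsg.Agent.S5421.result Q hL1 hL2 hL3 s hs hsZ hord ?_
    intro v hv
    rcases (hZ v).mp hv with h | h
    · rw [h]; exact one_mem _
    · rw [h]
      have hzC : z ∈ Subgroup.centralizer ({s} : Set G) := by
        rw [Subgroup.mem_centralizer_singleton_iff]; exact hzs
      have hnorm : (P.subgroupOf (Subgroup.centralizer ({s} : Set G))).Normal := by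
        constructor
        intro n hn c
        rw [Subgroup.mem_subgroupOf] at hn ⊢
        have hc : (c : G) * s = s * c := by
          have := c.2
          rw [Subgroup.mem_centralizer_singleton_iff] at this
          exact this
        simpa using hP.norm c hc n hn
      have hQ2 : IsPGroup 2 ↥Q := hL1.1.1
      have hP2 : IsPGroup 2 ↥P := by
        rw [← hPdef]
        exact hQ2.map _
      have hpg : IsPGroup 2 ↥(P.subgroupOf (Subgroup.centralizer ({s} : Set G))) :=
        hP2.comap_of_injective _ (Subgroup.subtype_injective _)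
      have hle : P.subgroupOf (Subgroup.centralizer ({s} : Set G)) ≤
          Cfsg.pCore 2 ↥(Subgroup.centralizer ({s} : Set G)) := le_sSup ⟨hnorm, hpg⟩
      exact ⟨⟨z, hzC⟩, hle (Subgroup.mem_subgroupOf.mpr hz1), rfl⟩


end Cfsg.Agent.S5422
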