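import Mathlib
import Cfsg.Statements.S1419
import Cfsg.Agent.H58.BG127All
import Cfsg.Agent.H63.BG125Main

set_option autoImplicit false
open Cfsg

namespace Cfsg.Agent.S1419

/-- Let G be a minimal simple group of odd order whose Sylow p-subgroups are nonabelian, M a maximal subgroup with p ∈ τ₂(M), E a complement to M_σ in M and A ≤ E elementary abelian of order p ^ 2. Then τ₂(M) = {p}; A₀ = A ∩ C_G(M_σ) has order p and F(M) is generated by M_σ and A₀ (a direct product); and every subgroup X ≠ A₀ of E of order p satisfies M_σ ∩ C_G(X) = 1 and C_G(X) ⊄ M. -/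
theorem result {G : Type*} [Group G] [Finite G] (hG : Cfsg.IsMinSimpleOddOrder G)
    (M : Subgroup G) (hM : IsCoatom M) (E : Subgroup G) (hE : Cfsg.IsComplIn E (Cfsg.sigmaCore M) M) (p : ℕ) [Fact p.Prime] (hp : p ∈ Cfsg.tau2 M) (hS : ∀ S : Sylow p G, ¬ IsMulCommutative (S : Subgroup G))
    (A : Subgroup G) (hA : (A ≤ E ∧ Cfsg.IsElementaryAbelian p A ∧ Nat.card A = p ^ 2)) :
    Cfsg.tau2 M = {p} ∧
      (Nat.card ↥(A ⊓ Subgroup.centralizer (Cfsg.sigmaCore M : Set G)) = p ∧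
        Cfsg.fittingOf M = Cfsg.sigmaCore M ⊔ (A ⊓ Subgroup.centralizer (Cfsg.sigmaCore M : Set G))) ∧
      ∀ X : Subgroup G, X ≤ E → Nat.card X = p → X ≠ A ⊓ Subgroup.centralizer (Cfsg.sigmaCore M : Set G) →
        Cfsg.sigmaCore M ⊓ Subgroup.centralizer (X : Set G) = ⊥ ∧ ¬ Subgroup.centralizer (X : Set G) ≤ M := by
  exact Cfsg.Agent.H58.BG12.st1419_of hG (Cfsg.Agent.H63.BG11.st1416 hG)
    (Cfsg.Agent.H63.BG11.st1417 hG) M hM E hE p hp hS A hA

end Cfsg.Agent.S1419
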