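import Cfsg.Statements.S3745
import Cfsg.Agent.H66.PiHall
import Cfsg.Agent.H66.Frob

set_option autoImplicit false
open Cfsg
open scoped Pointwise

namespace Cfsg.Agent.S3745

open Cfsg.Agent.H1 Cfsg.Agent.H66

section

variable {X : Type*} [Group X] [Finite X]

theorem card_rel (A G H : Subgroup X) (hAG : A ≤ Subgroup.normalizer (G : Set X))
    (hdisj : A ⊓ G = ⊥) (hHG : H ≤ G) (hAH : A ≤ Subgroup.normalizer (H : Set X)) :
    Nat.card (A ⊔ H : Subgroup X) = Nat.card A * Nat.card H ∧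
      (A ⊔ H).relIndex (A ⊔ G) = H.relIndex G := by
  have hdisj' : A ⊓ H = ⊥ := by
    rw [eq_bot_iff, ← hdisj]; exact inf_le_inf_left A hHG
  have h1 := card_sup_of_le_normalizer A H hAH hdisj'
  have h2 := card_sup_of_le_normalizer A G hAG hdisj
  refine ⟨h1, ?_⟩
  have h3 := card_mul_relIndex_of_le (sup_le_sup_left hHG A)
  have h4 := card_mul_relIndex_of_le hHG
  rw [h1, h2, ← h4, mul_assoc] at h3
  have h5 : Nat.card H * (A ⊔ H).relIndex (A ⊔ G) = Nat.card H * H.relIndex G :=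
    Nat.eq_of_mul_eq_mul_left Nat.card_pos h3
  exact Nat.eq_of_mul_eq_mul_left Nat.card_pos h5

omit [Finite X] in
theorem sup_inf_eq (A G H : Subgroup X) (hdisj : A ⊓ G = ⊥) (hHG : H ≤ G)
    (hAH : A ≤ Subgroup.normalizer (H : Set X)) : (A ⊔ H) ⊓ G = H := by
  apply le_antisymm
  · rintro x ⟨hx1, hx2⟩
    have : x ∈ (A : Set X) * (H : Set X) := by
      rw [← Subgroup.coe_mul_of_left_le_normalizer_right A H hAH]; exact hx1
    obtain ⟨a, ha, h, hh, rfl⟩ := Set.mem_mul.mp this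
    have haG : a ∈ G := by
      have := G.mul_mem hx2 (G.inv_mem (hHG hh))
      simpa using this
    have ha1 : a ∈ A ⊓ G := ⟨ha, haG⟩
    rw [hdisj, Subgroup.mem_bot] at ha1
    rw [ha1, one_mul]; exact hh
  · exact le_inf le_sup_right hHG

theorem hall_up (A G H : Subgroup X) (hAG : A ≤ Subgroup.normalizer (G : Set X))
    (hcop : (Nat.card A).Coprime (Nat.card G)) (π : Set ℕ)
    (hH : Cfsg.IsPiHallOf π H G) (hAH : A ≤ Subgroup.normalizer (H : Set X)) :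
    Cfsg.IsPiHallOf {r | r ∈ π ∨ r ∣ Nat.card A} (A ⊔ H) (A ⊔ G) := by
  have hdisj : A ⊓ G = ⊥ := (Subgroup.disjoint_of_coprime_natCard hcop).eq_bot
  obtain ⟨h1, h2⟩ := card_rel A G H hAG hdisj hH.1 hAH
  refine ⟨sup_le_sup_left hH.1 A, ?_, ?_⟩
  · intro r hr hd
    rw [h1] at hd
    rcases (Nat.Prime.dvd_mul hr).mp hd with h | h
    · exact Or.inr h
    · exact Or.inl (hH.2.1 r hr h)
  · intro r hr hrπ hd
    rw [h2] at hd
    rcases hrπ with h | h
    · exact hH.2.2 r hr h hd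
    · exact (Nat.Prime.coprime_iff_not_dvd hr).mp (Nat.Coprime.coprime_dvd_left h hcop)
        (hd.trans (Subgroup.relIndex_dvd_card H G))

theorem hall_down (A G K : Subgroup X) (hAG : A ≤ Subgroup.normalizer (G : Set X))
    (hcop : (Nat.card A).Coprime (Nat.card G)) (π : Set ℕ)
    (hK : Cfsg.IsPiHallOf {r | r ∈ π ∨ r ∣ Nat.card A} K (A ⊔ G)) (hAK : A ≤ K) :
    Cfsg.IsPiHallOf π (K ⊓ G) G ∧ A ≤ Subgroup.normalizer ((K ⊓ G : Subgroup X) : Set X) := by
  have hdisj : A ⊓ G = ⊥ := (Subgroup.disjoint_of_coprime_natCard hcop).eq_bot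
  have hN : A ≤ Subgroup.normalizer ((K ⊓ G : Subgroup X) : Set X) :=
    le_normalizer_inf A K G (hAK.trans Subgroup.le_normalizer) hAG
  have hKeq : A ⊔ (K ⊓ G) = K := by
    apply le_antisymm
    · exact sup_le hAK inf_le_left
    · intro x hx
      have : x ∈ (A : Set X) * (G : Set X) := by
        rw [← Subgroup.coe_mul_of_left_le_normalizer_right A G hAG]; exact hK.1 hx
      obtain ⟨a, ha, g, hg, rfl⟩ := Set.mem_mul.mp this
      have hgK : g ∈ K := by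
        have := K.mul_mem (K.inv_mem (hAK ha)) hx
        simpa using this
      exact Subgroup.mul_mem_sup ha ⟨hgK, hg⟩
  obtain ⟨h1, h2⟩ := card_rel A G (K ⊓ G) hAG hdisj inf_le_right hN
  rw [hKeq] at h1 h2
  refine ⟨⟨inf_le_right, ?_, ?_⟩, hN⟩
  · intro r hr hd
    rcases hK.2.1 r hr (hd.trans (Subgroup.card_dvd_of_le inf_le_left)) with h | h
    · exact h
    · exact absurd (hd.trans (Subgroup.card_dvd_of_le inf_le_right))
        ((Nat.Prime.coprime_iff_not_dvd hr).mp (Nat.Coprime.coprime_dvd_left h hcop))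
  · intro r hr hrπ hd
    rw [← h2] at hd
    exact hK.2.2 r hr (Or.inl hrπ) hd

end

/-- Coprime action on a solvable group and Hall subgroups. Let A and G be subgroups of a finite group with A normalizing G, the orders of A and G coprime, and G solvable, and let π be a set of primes. Then (a) G has an A-invariant Hall π-subgroup; (b) any two A-invariant Hall π-subgroups of G are conjugate by an element of C_G(A); (c) every A-invariant π-subgroup of G lies in an A-invariant Hall π-subgroup of G. -/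
theorem result {X : Type*} [Group X] [Finite X] (A G : Subgroup X) (hAG : A ≤ Subgroup.normalizer (G : Set X)) (hcop : (Nat.card A).Coprime (Nat.card G)) (hsolv : Group.IsSolvable G) (π : Set ℕ) : (∃ H : Subgroup X, Cfsg.IsPiHallOf π H G ∧ A ≤ Subgroup.normalizer (H : Set X)) ∧ (∀ H₁ H₂ : Subgroup X, Cfsg.IsPiHallOf π H₁ G → A ≤ Subgroup.normalizer (H₁ : Set X) → Cfsg.IsPiHallOf π H₂ G → A ≤ Subgroup.normalizer (H₂ : Set X) → ∃ c ∈ G ⊓ Subgroup.centralizer (A : Set X), H₂ = H₁.map (MulAut.conj c).toMonoidHom) ∧ (∀ U : Subgroup X, U ≤ G → A ≤ Subgroup.normalizer (U : Set X) → (∀ p : ℕ, p.Prime → p ∣ Nat.card U → p ∈ π) → ∃ H : Subgroup X, Cfsg.IsPiHallOf π H G ∧ A ≤ Subgroup.normalizer (H : Set X) ∧ U ≤ H) := by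
  have hdisj : A ⊓ G = ⊥ := (Subgroup.disjoint_of_coprime_natCard hcop).eq_bot
  have hΓn : A ⊔ G ≤ Subgroup.normalizer (G : Set X) := sup_le hAG Subgroup.le_normalizer
  have hi : ∀ r : ℕ, r.Prime → r ∣ G.relIndex (A ⊔ G) → r ∈ {r | r ∈ π ∨ r ∣ Nat.card A} := by
    intro r _ hd
    rw [relIndex_sup_of_le_normalizer A G hAG] at hd
    exact Or.inr (hd.trans (Subgroup.relIndex_dvd_card G A))
  obtain ⟨hex, hconj⟩ := pi_hall_internal {r | r ∈ π ∨ r ∣ Nat.card A} (A ⊔ G) G hΓn hsolv hi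
  have hc : ∀ U : Subgroup X, U ≤ G → A ≤ Subgroup.normalizer (U : Set X) →
      (∀ p : ℕ, p.Prime → p ∣ Nat.card U → p ∈ π) →
      ∃ H : Subgroup X, Cfsg.IsPiHallOf π H G ∧ A ≤ Subgroup.normalizer (H : Set X) ∧ U ≤ H := by
    intro U hUG hAU hU
    obtain ⟨h1, -⟩ := card_rel A G U hAG hdisj hUG hAU
    obtain ⟨K, hK, hWK⟩ := hex (A ⊔ U) (sup_le_sup_left hUG A) (by
      intro r hr hd
      rw [h1] at hd
      rcases (Nat.Prime.dvd_mul hr).mp hd with h | h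
      · exact Or.inr h
      · exact Or.inl (hU r hr h))
    obtain ⟨hH, hN⟩ := hall_down A G K hAG hcop π hK (le_sup_left.trans hWK)
    exact ⟨K ⊓ G, hH, hN, le_inf (le_sup_right.trans hWK) hUG⟩
  refine ⟨?_, ?_, hc⟩
  · obtain ⟨H, hH, hN, -⟩ := hc ⊥ bot_le (by
      intro a _
      rw [mem_normalizer_iff_conj_smul]
      exact Subgroup.smul_bot _) (by
      intro p hp hd
      rw [Subgroup.card_bot] at hd
      exact absurd (Nat.dvd_one.mp hd) hp.one_lt.ne')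
    exact ⟨H, hH, hN⟩
  · intro H₁ H₂ hH₁ hA₁ hH₂ hA₂
    have hK₁ := hall_up A G H₁ hAG hcop π hH₁ hA₁
    have hK₂ := hall_up A G H₂ hAG hcop π hH₂ hA₂
    obtain ⟨γ, hγ, hKK⟩ := hconj _ _ hK₁ hK₂
    have hγ' : γ ∈ (G : Set X) * (A : Set X) := by
      rw [← Subgroup.coe_mul_of_right_le_normalizer_left G A hAG, sup_comm]; exact hγ
    obtain ⟨g, hg, a, ha, rfl⟩ := Set.mem_mul.mp hγ'
    have hKK' : A ⊔ H₂ = MulAut.conj g • (A ⊔ H₁) := by
      rw [hKK, conj_mul_smul,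
        (mem_normalizer_iff_conj_smul a (A ⊔ H₁)).mp (Subgroup.le_normalizer ((le_sup_left : A ≤ A ⊔ H₁) ha))]
    have hgA : MulAut.conj g • A ≤ A ⊔ H₂ := by
      rw [hKK']
      intro x hx
      rw [H1.mem_conj_smul_iff] at hx ⊢
      exact (le_sup_left : A ≤ A ⊔ H₁) hx
    have hsolv₂ : Group.IsSolvable H₂ := isSolvable_of_le hH₂.1
    have hcop₂ : (Nat.card A).Coprime (Nat.card H₂) :=
      Nat.Coprime.coprime_dvd_right (Subgroup.card_dvd_of_le hH₂.1) hcop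
    obtain ⟨d, hd, hdA⟩ := sz_conj_internal A H₂ (MulAut.conj g • A) hA₂ hcop₂ (Or.inr hsolv₂)
      hgA (card_conj_smul g A)
    have hcG : d⁻¹ * g ∈ G := G.mul_mem (G.inv_mem (hH₂.1 hd)) hg
    have hcA : MulAut.conj (d⁻¹ * g) • A = A := by
      rw [conj_mul_smul, ← hdA, conj_inv_smul_conj_smul]
    have hcK : MulAut.conj (d⁻¹ * g) • (A ⊔ H₁) = A ⊔ H₂ := by
      rw [conj_mul_smul, ← hKK']
      exact (mem_normalizer_iff_conj_smul d⁻¹ (A ⊔ H₂)).mp
        (Subgroup.le_normalizer ((A ⊔ H₂).inv_mem ((le_sup_right : H₂ ≤ A ⊔ H₂) hd)))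
    have hcG' : MulAut.conj (d⁻¹ * g) • G = G :=
      (mem_normalizer_iff_conj_smul _ G).mp (Subgroup.le_normalizer hcG)
    refine ⟨d⁻¹ * g, ⟨hcG, ?_⟩, ?_⟩
    · show d⁻¹ * g ∈ Subgroup.centralizer (A : Set X)
      rw [Subgroup.mem_centralizer_iff]
      intro a ha
      have h1 : (d⁻¹ * g) * a * (d⁻¹ * g)⁻¹ ∈ A := by
        have := conj_mem_conj_smul (d⁻¹ * g) a A ha
        rwa [hcA] at this
      have h2 : (d⁻¹ * g) * a * (d⁻¹ * g)⁻¹ * a⁻¹ ∈ G := by
        have h3 : a * (d⁻¹ * g)⁻¹ * a⁻¹ ∈ G :=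
          (Subgroup.mem_normalizer_iff.mp (hAG ha) _).mp (G.inv_mem hcG)
        have := G.mul_mem hcG h3
        simpa [mul_assoc] using this
      have h4 : (d⁻¹ * g) * a * (d⁻¹ * g)⁻¹ * a⁻¹ ∈ A ⊓ G := ⟨A.mul_mem h1 (A.inv_mem ha), h2⟩
      rw [hdisj, Subgroup.mem_bot] at h4
      have h5 : (d⁻¹ * g) * a * (d⁻¹ * g)⁻¹ = a := by
        rw [mul_inv_eq_one] at h4; exact h4
      rw [mul_inv_eq_iff_eq_mul] at h5
      exact h5.symm
    · have e1 : H₁ = (A ⊔ H₁) ⊓ G := (sup_inf_eq A G H₁ hdisj hH₁.1 hA₁).symm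
      have e2 : H₂ = (A ⊔ H₂) ⊓ G := (sup_inf_eq A G H₂ hdisj hH₂.1 hA₂).symm
      show H₂ = MulAut.conj (d⁻¹ * g) • H₁
      conv_rhs => rw [e1]
      rw [Subgroup.smul_inf, hcK, hcG']
      exact e2

end Cfsg.Agent.S3745
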