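import Cfsg.Statements.S1414
import Cfsg.Agent.H58.BG10All2
import Cfsg.Agent.H76.BG10x

set_option autoImplicit false
open Cfsg

namespace Cfsg.Agent.S1414

/-- Let G be a minimal simple group of odd order, M a maximal subgroup, β(M) the set of ideal primes in α(M), and M_β = O_{β(M)}(M). Then M_β is a Hall β(M)-subgroup of M and of G; M' and M_σ each have a nilpotent Hall β(M)'-subgroup; and for each prime p dividing the order of M with p ∉ β(M), both M' and M_σ have normal p-complements and every prime dividing the index of O_{p'}(M) in M is at most p. -/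
theorem result {G : Type*} [Group G] [Finite G] (hG : Cfsg.IsMinSimpleOddOrder G)
    (M : Subgroup G) (hM : IsCoatom M) :
    Cfsg.IsPiHallOf (Cfsg.beta M) (Cfsg.piCoreOf (Cfsg.beta M) M) M ∧ Cfsg.IsPiHall (Cfsg.beta M) (Cfsg.piCoreOf (Cfsg.beta M) M) ∧
      (∃ H : Subgroup G, Cfsg.IsPiHallOf {q | q.Prime ∧ q ∉ Cfsg.beta M} H ⁅M, M⁆ ∧ Group.IsNilpotent H) ∧
      (∃ H : Subgroup G, Cfsg.IsPiHallOf {q | q.Prime ∧ q ∉ Cfsg.beta M} H (Cfsg.sigmaCore M) ∧ Group.IsNilpotent H) ∧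
      ∀ p : ℕ, p.Prime → p ∣ Nat.card M → p ∉ Cfsg.beta M →
        Cfsg.HasNormalPComplement p ↥⁅M, M⁆ ∧ Cfsg.HasNormalPComplement p ↥(Cfsg.sigmaCore M) ∧
        ∀ q : ℕ, q.Prime → q ∣ (Cfsg.pPrimeCore p ↥M).index → q ≤ p := by
  exact Cfsg.Agent.H76.BG10.bg108 hG (Cfsg.Agent.H58.BG10.stSigComm hG)
    (Cfsg.Agent.H58.BG10.st1405 hG) (Cfsg.Agent.H58.BG10.st1410 hG) M hM

end Cfsg.Agent.S1414
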