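import Cfsg.Statements.S1428
import Cfsg.Agent.Lib.Helper30.BG134Main
import Cfsg.Agent.Lib.Helper30.BG134CaseA
import Cfsg.Agent.Lib.Helper30.BG134B3B
import Cfsg.Agent.Lib.Helper30.BG12TMain
import Cfsg.Agent.Lib.Helper30.BG12TMain23
import Cfsg.Agent.H35.BG134Det
import Cfsg.Agent.H40.BG134B1
import Cfsg.Agent.H40.BG134B2B
import Cfsg.Agent.H29.BG134LemR
import Cfsg.Agent.H25.BG134Setup
import Cfsg.Agent.H32.BG134LC
import Cfsg.Agent.H32.BG134AB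
import Cfsg.Agent.H37.BG134LA
import Cfsg.Agent.H62.BG134RTau1
import Cfsg.Agent.H76.BG134B2L
import Cfsg.Agent.H47.BG1216E1
import Cfsg.Agent.H31.BG1216Frat
import Cfsg.Agent.H31.BG1216D1
import Cfsg.Agent.H31.BG1216SigDisj
import Cfsg.Agent.H7.BG1216HallA
import Cfsg.Agent.H57.BG129Main
import Cfsg.Agent.H63.BG125Main
import Cfsg.Agent.H58.BG10All
import Cfsg.Agent.H58.BG10All2
import Cfsg.Agent.H76.BG10x

set_option autoImplicit false
open Cfsg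

namespace Cfsg.Agent.S1428

/-- Let G be a minimal simple group of odd order, M a maximal subgroup, E a complement to M_σ in M, p ∈ τ₁(M), P ≤ E a subgroup of order p, and R a subgroup of prime order of E ∩ C_G(P). Then M_σ ∩ C_G(P) ≤ M_σ ∩ C_G(R). -/
theorem result {G : Type*} [Group G] [Finite G] (hG : Cfsg.IsMinSimpleOddOrder G)
    (M : Subgroup G) (hM : IsCoatom M) (E : Subgroup G) (hE : Cfsg.IsComplIn E (Cfsg.sigmaCore M) M) (p : ℕ) (hp : p ∈ Cfsg.tau1 M) (P : Subgroup G) (hPE : P ≤ E) (hP : Nat.card P = p)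
    (R : Subgroup G) (hRE : R ≤ E ⊓ Subgroup.centralizer (P : Set G)) (hR : (Nat.card R).Prime) :
    Cfsg.sigmaCore M ⊓ Subgroup.centralizer (P : Set G) ≤ Cfsg.sigmaCore M ⊓ Subgroup.centralizer (R : Set G) := by
  have h50 := Cfsg.Agent.H58.BG10.st1350 hG
  have h03 := Cfsg.Agent.H58.BG10.st1403 hG
  have h04 := Cfsg.Agent.H58.BG10.st1404 hG
  have h05 := Cfsg.Agent.H58.BG10.st1405 hG
  have h06 := Cfsg.Agent.H58.BG10.st1406 hG
  have h09 := Cfsg.Agent.H58.BG10.st1409 hG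
  have h10 := Cfsg.Agent.H58.BG10.st1410 hG
  have hT := Cfsg.Agent.H58.BG10.stSigComm hG
  have h14 : Cfsg.Agent.H58.BG10.St1414 G := Cfsg.Agent.H76.BG10.bg108 hG hT h05 h10
  have h16 := Cfsg.Agent.H63.BG11.st1416 hG
  have h17 := Cfsg.Agent.H63.BG11.st1417 hG
  have h18 := Cfsg.Agent.H57.BG12.st1418_of hG h16 h17
  have h20c := Cfsg.Agent.Lib.Helper30.BG12.bg129c hG h04 h16
  have h22 := Cfsg.Agent.Lib.Helper30.BG12T.st1422_core hG h16 h17
  have h23 := Cfsg.Agent.Lib.Helper30.BG12T.st1423_core hG h16 h17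
  have h24 := Cfsg.Agent.H76.BG12.bgEmbed h04 h20c
  have hSC := Cfsg.Agent.H57.BG12Hall.sigConj hG h50
  have hF := Cfsg.Agent.H31.BG1216.alphaFrat h05
  have hD1 := Cfsg.Agent.H31.BG1216.embD1 hG hT h50 hF
  have hSD := Cfsg.Agent.H31.BG1216.sigDisj hG h50
  have hHA := Cfsg.Agent.H7.BG1216.hallAlpha hG h05
  have hE1 := Cfsg.Agent.H47.BG12.embE1 hG h50 h03 h17 h18 h20c hSC
  have hAS : Cfsg.Agent.H47.BG12.StAlphaSigma G := by
    intro M' Ms hM' hMs hnc r hrα hrσ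
    obtain ⟨g, hg⟩ := Cfsg.Agent.H92.BG12.conj_of_alpha_sigma hG h03 hMs hM' hrα hrσ
    exact hnc g hg
  -- the pieces of BG134
  have hDet := Cfsg.Agent.H35.BG134.det (G := G)
  have hLR := Cfsg.Agent.H29.BG134.stLR hG
  have hLA := Cfsg.Agent.H37.BG134.la h50 h05 h09 h17 h18 hT hAS hSD hSC
  have hSetup := Cfsg.Agent.H25.BG134.setup hG h50 h22 hLA
  have hAB := Cfsg.Agent.H32.BG134.aB hG h50 h05 h06 h14 hT
  have hLC := Cfsg.Agent.H32.BG134.lC h05 hT hD1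
  have hB1 := Cfsg.Agent.H40.BG134.b1 hG h50 h03 h18 hSC h24 hE1
  have hB2b := Cfsg.Agent.H40.BG134.b2b h50 h05 hT h24 hD1 hE1
  have hRT := Cfsg.Agent.H62.BG134.rTau1 hG h03 h05 h50 h17 h18 hT hAS hSD hSC
  have hB2L := Cfsg.Agent.H76.BG134B2L.b2l hG hT h05 h24
  have hB3b := Cfsg.Agent.Lib.Helper30.BG134.b3b hG h03 h05 h50 hT h24 hD1 hHA hF
  have hA := Cfsg.Agent.Lib.Helper30.BG134.caseA hG h03 h50 h09 h17 h18 h23 h24 hSC hSD hE1 hD1
    hHA hDet hAB hRT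
  exact Cfsg.Agent.Lib.Helper30.BG134.st1428_of hG h03 h05 hSetup hA hRT hB1 hB2L hB2b hLC hB3b
    hLR M hM E hE p hp P hPE hP R hRE hR

end Cfsg.Agent.S1428
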