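import Cfsg.Statements.S1456
import Cfsg.Agent.H3.NarrowAux

set_option autoImplicit false
open Cfsg

namespace Cfsg.Agent.S1456

open scoped commutatorElement

/-- Let G be a solvable group of odd order, p a prime, and E an elementary abelian p-subgroup of the Fitting subgroup F(G) such that F(G) ∩ C_G(E) has no elementary abelian subgroup of order q ^ 3 for any prime q. Then the derived subgroup of G is contained in F(G). -/
theorem result {G : Type*} [Group G] [Finite G] [Group.IsSolvable G] (hodd : Odd (Nat.card G)) (p : ℕ) [Fact p.Prime] (E : Subgroup G) (hE : E ≤ Cfsg.fittingSubgroup G) (hEe : Cfsg.IsElementaryAbelian p E)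
    (hr : Cfsg.RankLE 2 ↥(Cfsg.fittingSubgroup G ⊓ Subgroup.centralizer (E : Set G))) :
    commutator G ≤ Cfsg.fittingSubgroup G := by
  have hpp : p.Prime := Fact.out
  set F := Cfsg.fittingSubgroup G with hF
  have hEp : IsPGroup p E := fun a =>
    ⟨1, by rw [pow_one]; exact Subtype.ext (by rw [Subgroup.coe_pow]; exact hEe.2 a a.2)⟩
  have hEP : E ≤ Cfsg.pCore p G := Cfsg.Agent.H3.le_pCore_of_le_fitting p E hE hEp
  have hEc : ∀ a ∈ E, ∀ b ∈ E, a * b = b * a := fun a ha b hb =>
    congrArg Subtype.val (hEe.1.is_comm.comm ⟨a, ha⟩ ⟨b, hb⟩)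
  have hPF : ∀ q : ℕ, q.Prime → Cfsg.pCore q G ≤ F := by
    intro q hq
    rw [hF, Cfsg.Agent.H1.fitting_eq_iSup_pCore]
    exact le_iSup (fun q : Nat.Primes => Cfsg.pCore (q : ℕ) G) ⟨q, hq⟩
  have hrank : ∀ q : ℕ, q.Prime → ∀ B : Subgroup G, B ≤ F →
      (∀ b ∈ B, ∀ u ∈ E, b * u = u * b) → (∀ a ∈ B, ∀ b ∈ B, a * b = b * a) →
      (∀ a ∈ B, a ^ q = 1) → Nat.card B ≤ q ^ 2 := by
    intro q hq B hBF hBE hBc hBe
    have hle : B ≤ F ⊓ Subgroup.centralizer (E : Set G) := by
      intro b hb
      refine Subgroup.mem_inf.mpr ⟨hBF hb, ?_⟩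
      rw [Subgroup.mem_centralizer_iff]
      intro u hu
      exact (hBE b hb u hu).symm
    have h1 := hr q hq (B.subgroupOf (F ⊓ Subgroup.centralizer (E : Set G))) ⟨⟨fun a b => by
        apply Subtype.ext; apply Subtype.ext
        exact hBc a.1.1 (Subgroup.mem_subgroupOf.mp a.2) b.1.1 (Subgroup.mem_subgroupOf.mp b.2)⟩⟩
      (by
        intro a ha
        apply Subtype.ext
        rw [Subgroup.coe_pow]
        exact hBe a.1 (Subgroup.mem_subgroupOf.mp ha))
    rwa [Nat.card_congr (Subgroup.subgroupOfEquivOfLe hle).toEquiv] at h1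
  -- the key fact: `p'`-elements of `G'` centralize `O_q(G)`
  have hF1 : ∀ q : ℕ, q.Prime → ∀ y ∈ commutator G, (orderOf y).Coprime q →
      ∀ r ∈ Cfsg.pCore q G, y * r * y⁻¹ = r := by
    intro q hq y hy hcop r hr'
    haveI : Fact q.Prime := ⟨hq⟩
    have hPq : IsPGroup q (Cfsg.pCore q G) := Cfsg.Agent.H14.pCore_isPGroup q G
    haveI hPn : (Cfsg.pCore q G).Normal := Cfsg.Agent.H14.pCore_normal q G
    by_cases hq2 : q = 2
    · obtain ⟨k, hk⟩ := hPq ⟨r, hr'⟩
      have hk' : r ^ (q ^ k) = 1 := congrArg Subtype.val hk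
      have h1 : orderOf r ∣ q ^ k := orderOf_dvd_of_pow_eq_one hk'
      have h2 : orderOf r ∣ Nat.card G := orderOf_dvd_natCard r
      have h3 : (Nat.card G).Coprime (q ^ k) := by
        rw [hq2]; exact Nat.Coprime.pow_right k (Nat.coprime_two_right.mpr hodd)
      have h4 : orderOf r ∣ Nat.gcd (Nat.card G) (q ^ k) := Nat.dvd_gcd h2 h1
      rw [h3, Nat.dvd_one, orderOf_eq_one_iff] at h4
      rw [h4]; group
    · have hnormalizer : (⊤ : Subgroup G) ≤ Subgroup.normalizer (Cfsg.pCore q G : Set G) := by
        rw [Subgroup.normalizer_eq_top]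
      have hy' : y ∈ ⁅(⊤ : Subgroup G), (⊤ : Subgroup G)⁆ := by
        rw [← commutator_def]; exact hy
      have hrk_of : (∀ x ∈ Cfsg.pCore q G, ∀ u ∈ E, x * u = u * x) →
          Cfsg.PRankLE q 2 ↥(Cfsg.pCore q G) := by
        intro hcomm B hBc hBe
        have h1 := hrank q hq (B.map (Cfsg.pCore q G).subtype)
          ((Subgroup.map_subtype_le _).trans (hPF q hq))
          (by
            rintro _ ⟨b, -, rfl⟩ u hu
            exact hcomm _ b.2 u hu)
          (by
            rintro _ ⟨a, ha, rfl⟩ _ ⟨b, hb, rfl⟩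
            have h1 := hBc.is_comm.comm ⟨a, ha⟩ ⟨b, hb⟩
            have h2 : a * b = b * a := congrArg Subtype.val h1
            rw [← map_mul, ← map_mul, h2])
          (by
            rintro _ ⟨a, ha, rfl⟩
            rw [← map_pow, hBe a ha, map_one])
        rwa [Subgroup.card_subtype] at h1
      by_cases hrk : Cfsg.PRankLE q 2 ↥(Cfsg.pCore q G)
      · exact Cfsg.Agent.H3.commutator_centralizes_of_rank_two q hq2 (Cfsg.pCore q G) ⊤ hPq hrk
          hnormalizer inferInstance (by rw [Subgroup.card_top]; exact hodd) y hy' hcop r hr'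
      · have hqp : q = p := by
          by_contra hne
          apply hrk
          apply hrk_of
          intro x hx u hu
          have hdis : Disjoint (Cfsg.pCore q G) (Cfsg.pCore p G) := by
            rw [Subgroup.disjoint_def]
            intro g hg1 hg2
            obtain ⟨k, hk⟩ := hPq ⟨g, hg1⟩
            obtain ⟨j, hj⟩ := (Cfsg.Agent.H14.pCore_isPGroup p G) ⟨g, hg2⟩
            have hk' : g ^ (q ^ k) = 1 := congrArg Subtype.val hk
            have hj' : g ^ (p ^ j) = 1 := congrArg Subtype.val hj
            have h1 : orderOf g ∣ Nat.gcd (q ^ k) (p ^ j) :=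
              Nat.dvd_gcd (orderOf_dvd_of_pow_eq_one hk') (orderOf_dvd_of_pow_eq_one hj')
            have h2 : Nat.Coprime (q ^ k) (p ^ j) :=
              Nat.Coprime.pow k j ((Nat.coprime_primes hq hpp).mpr hne)
            rw [h2, Nat.dvd_one, orderOf_eq_one_iff] at h1
            exact h1
          exact (Subgroup.commute_of_normal_of_disjoint _ _ hPn
            (Cfsg.Agent.H14.pCore_normal p G) hdis x u hx (hEP hu)).eq
        subst hqp
        set P := Cfsg.pCore q G with hP
        -- an element of E not central in P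
        have hex : ∃ e ∈ E, ∃ x ∈ P, x * e ≠ e * x := by
          by_contra hcon
          apply hrk
          apply hrk_of
          intro x hx u hu
          by_contra hne
          exact hcon ⟨u, hu, x, hx, hne⟩
        obtain ⟨e, heE, x₀, hx₀, hx₀e⟩ := hex
        have heP : e ∈ P := hEP heE
        have he1 : e ≠ 1 := by
          intro h
          apply hx₀e
          rw [h, mul_one, one_mul]
        have hep : e ^ q = 1 := hEe.2 e heE
        have horde : orderOf e = q := orderOf_eq_prime hep he1
        -- a central element of order q in P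
        have hPne : (⊤ : Subgroup ↥P) ≠ ⊥ := by
          intro h
          have h1 : (⟨e, heP⟩ : ↥P) ∈ (⊤ : Subgroup ↥P) := Subgroup.mem_top _
          rw [h, Subgroup.mem_bot] at h1
          exact he1 (congrArg Subtype.val h1)
        obtain ⟨z', -, hz', hz'1⟩ := Cfsg.Agent.H3.normal_exists_central_order_p hPq
          (⊤ : Subgroup ↥P) hPne
        set z : G := (z' : G) with hz
        have hzP : z ∈ P := z'.2
        have hzcomm : ∀ x ∈ P, x * z = z * x := by
          intro x hx
          have h1 := Subgroup.mem_center_iff.mp hz'.1 ⟨x, hx⟩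
          exact congrArg Subtype.val h1
        have hzp : z ^ q = 1 := by
          have h1 := congrArg Subtype.val hz'.2
          rwa [Subgroup.coe_pow] at h1
        have hz1 : z ≠ 1 := fun h => hz'1 (Subtype.ext h)
        have hze : z ∉ Subgroup.zpowers e := by
          intro h
          have h1 := Cfsg.Agent.H3.mem_zpowers_of_prime horde h hz1
          obtain ⟨k, hk⟩ := Subgroup.mem_zpowers_iff.mp h1
          apply hx₀e
          rw [← hk]
          have h2 : Commute x₀ z := hzcomm x₀ hx₀
          exact (h2.zpow_right k).eq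
        -- E ≤ ⟨e⟩⟨z⟩
        obtain ⟨hE'c, hE'e⟩ := Cfsg.Agent.H3.elemAb_sup_zpowers E hEc hEe.2 z hzp
          (fun u hu => hzcomm u (hEP hu))
        have hE'card : Nat.card (E ⊔ Subgroup.zpowers z : Subgroup G) ≤ q ^ 2 := by
          apply hrank q hq _ (sup_le hE (by
            rw [Subgroup.zpowers_le]; exact hPF q hq hzP))
            (fun b hb u hu => hE'c b hb u (le_sup_left (a := E) hu)) hE'c hE'e
        set E₂ : Subgroup G := Subgroup.zpowers e ⊔ Subgroup.zpowers z with hE₂
        have hE₂le : E₂ ≤ E ⊔ Subgroup.zpowers z :=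
          sup_le_sup_right (by rw [Subgroup.zpowers_le]; exact heE) _
        have hE₂P : E₂ ≤ P := sup_le (by rw [Subgroup.zpowers_le]; exact heP)
          (by rw [Subgroup.zpowers_le]; exact hzP)
        have hE₂card : q ^ 2 ≤ Nat.card E₂ := by
          have hlt : Subgroup.zpowers e < E₂ := by
            refine lt_of_le_of_ne le_sup_left ?_
            intro h
            apply hze
            rw [h]
            exact (le_sup_right : Subgroup.zpowers z ≤ E₂) (Subgroup.mem_zpowers z)
          have h1 := Cfsg.Agent.H3.card_mul_le_of_lt' (hPq.to_le hE₂P) hlt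
          rw [Nat.card_zpowers, horde] at h1
          calc q ^ 2 = q * q := by ring
            _ ≤ Nat.card E₂ := h1
        have hE₂eq : E₂ = E ⊔ Subgroup.zpowers z :=
          Subgroup.eq_of_le_of_card_ge hE₂le (hE'card.trans hE₂card)
        have hstar : ∀ b ∈ P, b * e = e * b → ∀ u ∈ E, b * u = u * b := by
          intro b hb hbe u hu
          have hu2 : u ∈ E₂ := by rw [hE₂eq]; exact le_sup_left (a := E) hu
          have hle : E₂ ≤ Subgroup.centralizer {b} := by
            apply sup_le
            · rw [Subgroup.zpowers_le, Subgroup.mem_centralizer_iff]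
              intro y hy
              rw [Set.mem_singleton_iff] at hy
              rw [hy]; exact hbe
            · rw [Subgroup.zpowers_le, Subgroup.mem_centralizer_iff]
              intro y hy
              rw [Set.mem_singleton_iff] at hy
              rw [hy]; exact hzcomm b hb
          exact Subgroup.mem_centralizer_iff.mp (hle hu2) b (Set.mem_singleton b)
        have hnarrow : Cfsg.IsNarrow q ↥P := by
          apply Cfsg.Agent.H3.isNarrow_of_centralizer hq2 hPq (⟨e, heP⟩ : ↥P)
            (by rw [Subgroup.orderOf_mk]; exact horde)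
          intro B hBc hBe hBcomm
          have h1 := hrank q hq (B.map P.subtype)
            ((Subgroup.map_subtype_le _).trans (hPF q hq))
            (by
              rintro _ ⟨b, hb, rfl⟩ u hu
              apply hstar _ b.2 _ u hu
              exact congrArg Subtype.val (hBcomm b hb))
            (by
              rintro _ ⟨a, ha, rfl⟩ _ ⟨b, hb, rfl⟩
              have h2 : a * b = b * a := hBc a ha b hb
              rw [← map_mul, ← map_mul, h2])
            (by
              rintro _ ⟨a, ha, rfl⟩
              rw [← map_pow, hBe a ha, map_one])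
          rwa [Subgroup.card_subtype] at h1
        have hcore := (Cfsg.Agent.H3.narrow_core hq2 P hPq hnarrow hrk).1
        rw [Subgroup.normalizer_eq_top] at hcore
        exact hcore y hy' hcop r hr'
  -- elements of prime power order of `G'` lie in `F`
  have hprim : ∀ q : ℕ, q.Prime → ∀ y ∈ commutator G, (∃ k : ℕ, y ^ (q ^ k) = 1) → y ∈ F := by
    intro q hq y hy ⟨k, hk⟩
    haveI : Fact q.Prime := ⟨hq⟩
    set Y : Subgroup G := Subgroup.normalClosure {y} with hY
    haveI hYn : Y.Normal := Subgroup.normalClosure_normal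
    haveI hcn : (commutator G).Normal := inferInstance
    have hYc : Y ≤ commutator G :=
      Subgroup.normalClosure_le_normal (Set.singleton_subset_iff.mpr hy)
    have hyord : ∀ r : ℕ, r.Prime → r ≠ q → (orderOf y).Coprime r := by
      intro r hr' hne
      have h1 : orderOf y ∣ q ^ k := orderOf_dvd_of_pow_eq_one hk
      exact Nat.Coprime.coprime_dvd_left h1
        (Nat.Coprime.pow_left k ((Nat.coprime_primes hq hr').mpr (Ne.symm hne)))
    -- (1) Y centralizes the other cores
    have h1 : ∀ r : ℕ, r.Prime → r ≠ q → Y ≤ Subgroup.centralizer (Cfsg.pCore r G : Set G) := by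
      intro r hr' hne
      haveI : (Cfsg.pCore r G).Normal := Cfsg.Agent.H14.pCore_normal r G
      apply Subgroup.normalClosure_le_normal
      rw [Set.singleton_subset_iff]
      show y ∈ Subgroup.centralizer (Cfsg.pCore r G : Set G)
      rw [Subgroup.mem_centralizer_iff]
      intro x hx
      have h2 := hF1 r hr' y hy (hyord r hr' hne) x hx
      rw [mul_inv_eq_iff_eq_mul] at h2
      exact h2.symm
    -- the q'-part of F
    set F' : Subgroup G := ⨆ r : {r : Nat.Primes // (r : ℕ) ≠ q}, Cfsg.pCore ((r : Nat.Primes) : ℕ) G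
      with hF'
    haveI hF'n : F'.Normal := by
      rw [hF']
      show (sSup (Set.range (fun r : {r : Nat.Primes // (r : ℕ) ≠ q} =>
        Cfsg.pCore ((r : Nat.Primes) : ℕ) G))).Normal
      apply Subgroup.sSup_normal
      rintro _ ⟨r, rfl⟩
      exact Cfsg.Agent.H14.pCore_normal _ G
    have hFle : F ≤ Cfsg.pCore q G ⊔ F' := by
      rw [hF, Cfsg.Agent.H1.fitting_eq_iSup_pCore]
      apply iSup_le
      intro r
      by_cases hrq : (r : ℕ) = q
      · rw [hrq]; exact le_sup_left
      · exact le_trans (le_iSup (fun r : {r : Nat.Primes // (r : ℕ) ≠ q} =>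
          Cfsg.pCore ((r : Nat.Primes) : ℕ) G) ⟨r, hrq⟩) le_sup_right
    have hYF' : ∀ g ∈ Y, ∀ x ∈ F', g * x = x * g := by
      intro g hg x hx
      have hle : F' ≤ Subgroup.centralizer {g} := by
        apply iSup_le
        intro r
        intro w hw
        rw [Subgroup.mem_centralizer_iff]
        intro v hv
        rw [Set.mem_singleton_iff] at hv
        rw [hv]
        exact (Subgroup.mem_centralizer_iff.mp (h1 _ r.1.2 r.2 hg) w hw).symm
      exact Subgroup.mem_centralizer_iff.mp (hle hx) g (Set.mem_singleton g)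
    -- (2) q'-elements of Y are central in Y
    have h2 : ∀ g ∈ Y, (orderOf g).Coprime q → ∀ h ∈ Y, g * h = h * g := by
      intro g hg hcop h hh
      have hgc : g ∈ commutator G := hYc hg
      have hgF : g ∈ F := by
        apply Cfsg.Agent.H1.centralizer_fitting_le
        rw [Subgroup.mem_centralizer_iff]
        intro x hx
        have hle : Cfsg.fittingSubgroup G ≤ Subgroup.centralizer {g} := by
          rw [Cfsg.Agent.H1.fitting_eq_iSup_pCore]
          apply iSup_le
          intro r w hw
          rw [Subgroup.mem_centralizer_iff]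
          intro v hv
          rw [Set.mem_singleton_iff] at hv
          rw [hv]
          by_cases hrq : (r : ℕ) = q
          · have h3 := hF1 q hq g hgc hcop w (by rw [← hrq]; exact hw)
            rw [mul_inv_eq_iff_eq_mul] at h3
            exact h3
          · exact (Subgroup.mem_centralizer_iff.mp (h1 _ r.2 hrq hg) w hw).symm
        exact (Subgroup.mem_centralizer_iff.mp (hle hx) g (Set.mem_singleton g)).symm
      have hgF' : g ∈ F' := by
        obtain ⟨a, ha, b, hb, hab⟩ := Subgroup.mem_sup_of_normal_right.mp (hFle hgF)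
        obtain ⟨j, hj⟩ := (Cfsg.Agent.H14.pCore_isPGroup q G) ⟨a, ha⟩
        have hj' : a ^ (q ^ j) = 1 := congrArg Subtype.val hj
        have hb1 : QuotientGroup.mk' F' b = 1 := (QuotientGroup.eq_one_iff b).mpr hb
        have h3 : (QuotientGroup.mk' F' g) = QuotientGroup.mk' F' a := by
          rw [← hab, map_mul, hb1, mul_one]
        have h4 : (QuotientGroup.mk' F' g) ^ (q ^ j) = 1 := by
          rw [h3, ← map_pow, hj', map_one]
        have h5 : (QuotientGroup.mk' F' g) ^ (orderOf g) = 1 := by
          rw [← map_pow, pow_orderOf_eq_one, map_one]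
        have h6 : orderOf (QuotientGroup.mk' F' g) ∣ Nat.gcd (orderOf g) (q ^ j) :=
          Nat.dvd_gcd (orderOf_dvd_of_pow_eq_one h5) (orderOf_dvd_of_pow_eq_one h4)
        rw [Nat.Coprime.pow_right j hcop, Nat.dvd_one, orderOf_eq_one_iff] at h6
        exact (QuotientGroup.eq_one_iff g).mp h6
      exact (hYF' h hh g hgF').symm
    -- (3) Y is nilpotent
    have hYnil : Group.IsNilpotent ↥Y := by
      apply Group.of_quotient_center_nilpotent
      have hQ : IsPGroup q (↥Y ⧸ Subgroup.center ↥Y) := by
        intro gb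
        obtain ⟨g, rfl⟩ := QuotientGroup.mk_surjective gb
        have hn0 : orderOf g ≠ 0 := (orderOf_pos g).ne'
        obtain ⟨j, m, hnd, hnm⟩ := Nat.exists_eq_pow_mul_and_not_dvd hn0 q hq.ne_one
        have hcop : m.Coprime q := ((Nat.Prime.coprime_iff_not_dvd hq).mpr hnd).symm
        refine ⟨j, ?_⟩
        rw [← QuotientGroup.mk_pow, QuotientGroup.eq_one_iff, Subgroup.mem_center_iff]
        intro h
        have hgm : (g ^ (q ^ j)) ^ m = 1 := by
          rw [← pow_mul, ← hnm, pow_orderOf_eq_one]
        have hord : (orderOf ((g ^ (q ^ j) : ↥Y) : G)).Coprime q := by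
          rw [Subgroup.orderOf_coe]
          exact Nat.Coprime.coprime_dvd_left (orderOf_dvd_of_pow_eq_one hgm) hcop
        have h3 := h2 ((g ^ (q ^ j) : ↥Y) : G) (g ^ (q ^ j) : ↥Y).2 hord (h : G) h.2
        exact Subtype.ext h3.symm
      exact hQ.isNilpotent
    have hYF : Y ≤ F := Cfsg.Agent.H1.le_fitting Y hYnil
    exact hYF (Subgroup.subset_normalClosure (Set.mem_singleton y))
  -- conclusion via Sylow subgroups of `G'`
  set H : Subgroup ↥(commutator G) := F.subgroupOf (commutator G) with hH
  have hidx : H.index = 1 := by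
    by_contra hne
    obtain ⟨q, hq, hqd⟩ := Nat.exists_prime_and_dvd hne
    haveI : Fact q.Prime := ⟨hq⟩
    obtain ⟨S⟩ : Nonempty (Sylow q ↥(commutator G)) := inferInstance
    have hSH : (S : Subgroup ↥(commutator G)) ≤ H := by
      intro s hs
      rw [hH, Subgroup.mem_subgroupOf]
      obtain ⟨k, hk⟩ := S.isPGroup' ⟨s, hs⟩
      have hk' : s ^ (q ^ k) = 1 := congrArg Subtype.val hk
      apply hprim q hq (s : G) s.2
      exact ⟨k, by rw [← Subgroup.coe_pow, hk']; rfl⟩
    have h1 : H.index ∣ (S : Subgroup ↥(commutator G)).index := Subgroup.index_dvd_of_le hSH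
    exact S.not_dvd_index (hqd.trans h1)
  have hHtop : H = ⊤ := Subgroup.index_eq_one.mp hidx
  intro x hx
  have h1 : (⟨x, hx⟩ : ↥(commutator G)) ∈ H := by rw [hHtop]; exact Subgroup.mem_top _
  rw [hH, Subgroup.mem_subgroupOf] at h1
  exact h1

end Cfsg.Agent.S1456
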