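import Cfsg.Statements.S4461
import Cfsg.Agent.H32.BrolGar

set_option autoImplicit false
open Cfsg

namespace Cfsg.Agent.S4461

/-- Let χ be an irreducible character of the finite group G and K its kernel (the elements where χ takes the value χ(1)). Suppose either that K is not contained in the Fitting subgroup F(G), or that K = F(G) with G/K solvable and K ≠ G. Then there is an irreducible character ψ of G with ψ(1) > χ(1) whose kernel is properly contained in K. -/
theorem result {G : Type*} [Group G] [Finite G] (χ : Cfsg.IrrCharacter G) (K : Subgroup G) [K.Normal] (hK : (∀ g : G, g ∈ K ↔ (χ : G → ℂ) g = (χ : G → ℂ) 1)) (h : ¬ K ≤ Cfsg.fittingSubgroup G ∨ (K = Cfsg.fittingSubgroup G ∧ Group.IsSolvable (G ⧸ K) ∧ K ≠ ⊤)) : ∃ ψ : Cfsg.IrrCharacter G, Cfsg.charDegree (χ : G → ℂ) < Cfsg.charDegree (ψ : G → ℂ) ∧ ∃ L : Subgroup G, (∀ g : G, g ∈ L ↔ (ψ : G → ℂ) g = (ψ : G → ℂ) 1) ∧ L < K := by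
  classical
  haveI : Fintype G := Fintype.ofFinite G
  have hχ1 : (χ : G → ℂ) 1 ≠ 0 := Cfsg.Agent.Clifford.irr_one_ne_zero' χ.2
  rcases h with h1 | ⟨h2, hsolv, hKtop⟩
  · obtain ⟨p, hp, P, hPK, hPc, hPn⟩ := Cfsg.Agent.H32.exists_sylow_not_normal K h1
    haveI := hp
    have hvan : ∃ a ∈ P, (χ : G → ℂ) a ≠ 0 ∧
        ∃ g : G, g⁻¹ * a * g ∉ Subgroup.normalizer (P : Set G) := by
      by_contra hcon
      push Not at hcon
      apply hPn
      refine ⟨fun a ha g => ?_⟩
      have hχa : (χ : G → ℂ) a ≠ 0 := by rw [(hK a).mp (hPK ha)]; exact hχ1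
      have h3 := hcon a ha hχa g⁻¹
      rw [inv_inv] at h3
      exact Cfsg.Agent.H32.mem_of_conj_mem_normalizer hPK hPc ha g h3
    obtain ⟨ψ, hdeg, hlt⟩ := Cfsg.Agent.H32.bg_sylow K K P p 0 le_rfl
      (by rw [pow_zero, Subgroup.relIndex_eq_one]) hPK hPc χ.2 hK hvan
    exact ⟨ψ, hdeg, Cfsg.Agent.H82.irrKer ψ, fun g => Cfsg.Agent.H82.mem_irrKer ψ g, hlt⟩
  · obtain ⟨q, hq, M, k, hMn, hKM, hne, hidx⟩ := Cfsg.Agent.H32.exists_pgroup_over K hsolv hKtop
    haveI := hq
    haveI := hMn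
    obtain ⟨Q⟩ : Nonempty (Sylow q M) := inferInstance
    obtain ⟨Q', hQ'⟩ : ∃ Q' : Subgroup G, Q' = (Q : Subgroup M).map M.subtype := ⟨_, rfl⟩
    have hQM : Q' ≤ M := by
      rw [hQ']; rintro _ ⟨a, -, rfl⟩; exact a.2
    have hQc : Nat.card Q' = q ^ (Nat.card M).factorization q := by
      rw [hQ', Subgroup.card_map_of_injective M.subtype_injective]
      exact Q.card_eq_multiplicity
    have hvan : ∃ a ∈ Q', (χ : G → ℂ) a ≠ 0 ∧
        ∃ g : G, g⁻¹ * a * g ∉ Subgroup.normalizer (Q' : Set G) := by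
      by_contra hcon
      push Not at hcon
      have hcoreK : ∀ a ∈ Q', (χ : G → ℂ) a ≠ 0 → a ∈ K := by
        intro a ha hne0
        have hmem : a ∈ Q' ⊓ (Subgroup.normalizer (Q' : Set G)).normalCore := by
          refine ⟨ha, fun b => ?_⟩
          have := hcon a ha hne0 b⁻¹
          rwa [inv_inv] at this
        haveI := Cfsg.Agent.H32.sylow_inf_core_normal hQM hQc
        have hQp : IsPGroup q Q' := IsPGroup.of_card hQc
        have hp2 : IsPGroup q (Q' ⊓ (Subgroup.normalizer (Q' : Set G)).normalCore :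
            Subgroup G) := hQp.to_le inf_le_left
        rw [h2]
        exact Cfsg.Agent.H1.le_fitting _ hp2.isNilpotent hmem
      have hvanish : ∀ m ∈ M, m ∉ K → (χ : G → ℂ) m = 0 := by
        intro m hm hmK
        have hmKQ : m ∈ K ⊔ Q' :=
          Cfsg.Agent.H32.le_sup_sylow_of_relIndex K M Q' k hidx hQM hQc hm
        rw [← SetLike.mem_coe, Subgroup.normal_mul] at hmKQ
        obtain ⟨k', hk', a, ha, rfl⟩ := Set.mem_mul.mp hmKQ
        have hak : a ∉ K := fun hak => hmK (K.mul_mem hk' hak)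
        have hχa : (χ : G → ℂ) a = 0 := by
          by_contra h0
          exact hak (hcoreK a ha h0)
        have h4 := (Cfsg.Agent.H82.irr_mul_of_mem_irrKer χ (x := k')
          ((Cfsg.Agent.H82.mem_irrKer χ k').mpr ((hK k').mp hk')) a).1
        rw [h4, hχa]
      haveI : Fintype M := Fintype.ofFinite M
      have hinner : Cfsg.classInner (fun m : M => (χ : G → ℂ) m) (1 : M → ℂ) ≠ 0 := by
        unfold Cfsg.classInner
        have hsum : ∑ m : M, (χ : G → ℂ) m * (starRingEnd ℂ) ((1 : M → ℂ) m) =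
            ((Finset.univ.filter fun m : M => (m : G) ∈ K).card : ℂ) * (χ : G → ℂ) 1 := by
          rw [← nsmul_eq_mul, ← Finset.sum_const, Finset.sum_filter]
          refine Finset.sum_congr rfl fun m _ => ?_
          by_cases hmK : (m : G) ∈ K
          · rw [if_pos hmK, (hK _).mp hmK]; simp
          · rw [if_neg hmK, hvanish m m.2 hmK]; simp
        rw [hsum]
        have hpos : 0 < (Finset.univ.filter fun m : M => (m : G) ∈ K).card :=
          Finset.card_pos.mpr ⟨1, Finset.mem_filter.mpr ⟨Finset.mem_univ _, K.one_mem⟩⟩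
        have hM0 : (Nat.card M : ℂ) ≠ 0 := by
          have : 0 < Nat.card M := Nat.card_pos
          exact_mod_cast this.ne'
        refine mul_ne_zero (inv_ne_zero hM0) (mul_ne_zero ?_ hχ1)
        exact_mod_cast hpos.ne'
      have hconst := Cfsg.Agent.H82.const_of_over_one M χ.2 hinner
      apply hne
      apply le_antisymm hKM
      intro m hm
      exact (hK m).mpr (hconst ⟨m, hm⟩)
    obtain ⟨ψ, hdeg, hlt⟩ := Cfsg.Agent.H32.bg_sylow K M Q' q k hKM hidx hQM hQc χ.2 hK hvan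
    exact ⟨ψ, hdeg, Cfsg.Agent.H82.irrKer ψ, fun g => Cfsg.Agent.H82.mem_irrKer ψ g, hlt⟩

end Cfsg.Agent.S4461
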