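import Cfsg.Statements.S5607
import Cfsg.Agent.H94.D5607

set_option autoImplicit false
open scoped Pointwise
open Cfsg

namespace Cfsg.Agent.S5607

open Cfsg.Agent.H9 Cfsg.Agent.H33 Cfsg.Agent.H94 Cfsg.Agent.S5608

/-! ### kernel checks -/

/-- invalid index of the table `d07` -/
def bad (d : ℕ) : Bool :=
  Nat.blt (Nat.div d 24) 2 || (Nat.blt (Nat.mod d 24) 2 ||
    (Nat.beq (Nat.mod d 24) (Nat.div d 24) || Nat.beq (Nat.mod d 24) (lk r0 (Nat.div d 24))))

/-- the candidates for the elements of the centraliser fixing the point `0` -/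
def T07 (n : ℕ) : ℕ := mulN (fldG d07 (Nat.div n 48)) (fldG u5 (Nat.mod n 48))

/-- the candidates commuting with `r0` -/
def ok07 (n : ℕ) : Bool := !(bad (Nat.div n 48)) && commN (T07 n) r0

theorem chkC : allB (fun q => okElt [] (fldG c07 q) && (commN (fldG c07 q) r0 &&
    (Nat.beq (lk (fldG c07 q) 0) q && sextStep (fldG c07 q) k07 k07))) 24 = true := by
  decide +kernel

theorem chkD : allB (fun d => bad d || (chkInv (fldG d07 d) (fldG d07I d) &&
    (chkM24 (fldG d07 d) && (Nat.beq (lk (fldG d07 d) 0) 0 && (Nat.beq (lk (fldG d07 d) 1) 1 &&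
    (Nat.beq (lk (fldG d07 d) 2) (Nat.div d 24) &&
    (Nat.beq (lk (fldG d07 d) 3) (lk r0 (Nat.div d 24)) &&
    Nat.beq (lk (fldG d07 d) 4) (Nat.mod d 24)))))))) 576 = true := by
  decide +kernel

theorem chkN : sumB (fun d => countB (fun j => ok07 (d * 48 + j)) 48) 576 = 320 := by
  decide +kernel

theorem chkS : allB (fun d => bad d || allB (fun j =>
    !(commN (mulN (fldG d07 d) (fldG u5 j)) r0) ||
      sextStep (mulN (fldG d07 d) (fldG u5 j)) k07 k07) 48) 576 = true := by
  decide +kernel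

/-! ### the stabiliser of the point `0` in the centraliser of `r0e` -/

theorem r0_vals : lk r0 0 = 1 ∧ lk r0 1 = 0 ∧ lk r0 2 = 3 := by decide

theorem k07_lt : k07 < 1771 := by decide

/-- the stabiliser of the point `0` in the centraliser of `r0e` -/
def C0 : Subgroup (Equiv.Perm GolayPt) :=
  centM r0e ⊓ MulAction.stabilizer (Equiv.Perm GolayPt) (gPt 0)

theorem mem_C0 {c : Equiv.Perm GolayPt} :
    c ∈ C0 ↔ (c ∈ M24 ∧ c * r0e = r0e * c) ∧ c (gPt 0) = gPt 0 :=
  Subgroup.mem_inf.trans (Iff.and Iff.rfl MulAction.mem_stabilizer_iff)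

theorem img_ne {c : Equiv.Perm GolayPt} {a b a' b' : ℕ} (ha : a < 24) (hb : b < 24)
    (h1 : c (gPt a) = gPt a') (h2 : c (gPt b) = gPt b') (hab : a ≠ b) : a' ≠ b' := by
  intro h
  rw [h, ← h2] at h1
  have := congrArg gIdx (c.injective h1)
  rw [gIdx_gPt ha, gIdx_gPt hb] at this
  exact hab this

theorem gPt_inj {a b : ℕ} (ha : a < 24) (hb : b < 24) (h : gPt a = gPt b) : a = b := by
  have := congrArg gIdx h
  rwa [gIdx_gPt ha, gIdx_gPt hb] at this

theorem chkD_spec {d : ℕ} (hd : d < 576) (hb : bad d = false) :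
    chkInv (fldG d07 d) (fldG d07I d) = true ∧ chkM24 (fldG d07 d) = true ∧
    lk (fldG d07 d) 0 = 0 ∧ lk (fldG d07 d) 1 = 1 ∧ lk (fldG d07 d) 2 = d / 24 ∧
    lk (fldG d07 d) 3 = lk r0 (d / 24) ∧ lk (fldG d07 d) 4 = d % 24 := by
  have h := (allB_iff _ _).mp chkD d hd
  rw [hb, Bool.false_or] at h
  simp only [Bool.and_eq_true] at h
  obtain ⟨a, b, c0, c1, c2, c3, c4⟩ := h
  exact ⟨a, b, Nat.eq_of_beq_eq_true c0, Nat.eq_of_beq_eq_true c1, Nat.eq_of_beq_eq_true c2,
    Nat.eq_of_beq_eq_true c3, Nat.eq_of_beq_eq_true c4⟩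

theorem u5_perm {j : ℕ} (hj : j < 48) :
    ∃ u ∈ Stab [4, 3, 2, 1, 0], Rep (fldG u5 j) u :=
  exists_of_okElt (l := [4, 3, 2, 1, 0]) (by decide) ((allB_iff _ _).mp u5_ok j hj)

theorem cover {c : Equiv.Perm GolayPt} (hc : c ∈ C0) :
    ∃ d < 576, ∃ j < 48, bad d = false ∧
      commN (mulN (fldG d07 d) (fldG u5 j)) r0 = true ∧
      Rep (mulN (fldG d07 d) (fldG u5 j)) c := by
  obtain ⟨⟨hm, hcomm⟩, h0⟩ := mem_C0.mp hc
  obtain ⟨r00, r01, r02⟩ := r0_vals
  have hct : ∀ p, c (r0e p) = r0e (c p) :=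
    fun p => congrArg (fun f : Equiv.Perm GolayPt => f p) hcomm
  have h1 : c (gPt 1) = gPt 1 := by
    have := hct (gPt 0)
    rw [rep_apply r0e_rep (by norm_num), h0, rep_apply r0e_rep (by norm_num), r00] at this
    exact this
  have hy : c (gPt 2) = gPt (gIdx (c (gPt 2))) := (gPt_gIdx _).symm
  have hz : c (gPt 4) = gPt (gIdx (c (gPt 4))) := (gPt_gIdx _).symm
  have hylt := gIdx_lt (c (gPt 2))
  have hzlt := gIdx_lt (c (gPt 4))
  generalize gIdx (c (gPt 2)) = y at hy hylt
  generalize gIdx (c (gPt 4)) = z at hz hzlt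
  have h3 : c (gPt 3) = gPt (lk r0 y) := by
    have := hct (gPt 2)
    rw [rep_apply r0e_rep (by norm_num), r02, hy, rep_apply r0e_rep hylt] at this
    exact this
  have hy0 : y ≠ 0 := fun h => img_ne (by norm_num) (by norm_num) h0 hy (by norm_num) h.symm
  have hy1 : y ≠ 1 := fun h => img_ne (by norm_num) (by norm_num) h1 hy (by norm_num) h.symm
  have hz0 : z ≠ 0 := fun h => img_ne (by norm_num) (by norm_num) h0 hz (by norm_num) h.symm
  have hz1 : z ≠ 1 := fun h => img_ne (by norm_num) (by norm_num) h1 hz (by norm_num) h.symm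
  have hzy : z ≠ y := fun h => img_ne (by norm_num) (by norm_num) hy hz (by norm_num) h.symm
  have hz3 : z ≠ lk r0 y :=
    fun h => img_ne (by norm_num) (by norm_num) h3 hz (by norm_num) h.symm
  have hd1 : Nat.div (24 * y + z) 24 = y := by
    show (24 * y + z) / 24 = y
    omega
  have hd2 : Nat.mod (24 * y + z) 24 = z := by
    show (24 * y + z) % 24 = z
    omega
  have hd : 24 * y + z < 576 := by omega
  have hbad : bad (24 * y + z) = false := by
    unfold bad
    rw [hd1, hd2]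
    have e1 : Nat.blt y 2 = false := by
      rw [Bool.eq_false_iff]
      intro h
      have : y < 2 := by simpa [Nat.blt_eq] using h
      omega
    have e2 : Nat.blt z 2 = false := by
      rw [Bool.eq_false_iff]
      intro h
      have : z < 2 := by simpa [Nat.blt_eq] using h
      omega
    have e3 : Nat.beq z y = false := by
      rw [Bool.eq_false_iff]
      exact fun h => hzy (Nat.eq_of_beq_eq_true h)
    have e4 : Nat.beq z (lk r0 y) = false := by
      rw [Bool.eq_false_iff]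
      exact fun h => hz3 (Nat.eq_of_beq_eq_true h)
    rw [e1, e2, e3, e4]
    rfl
  obtain ⟨a, b, c0, c1, c2, c3, c4⟩ := chkD_spec hd hbad
  have hd1' : (24 * y + z) / 24 = y := hd1
  have hd2' : (24 * y + z) % 24 = z := hd2
  rw [hd1'] at c2 c3
  rw [hd2'] at c4
  obtain ⟨j, hj, hr⟩ := coset5 a b hm (fun i hi => by
    interval_cases i
    · rw [c0]; exact h0
    · rw [c1]; exact h1
    · rw [c2]; exact hy
    · rw [c3]; exact h3
    · rw [c4]; exact hz)
  exact ⟨_, hd, j, hj, hbad, commN_of hr r0e_rep hcomm, hr⟩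

theorem C0_sext {c : Equiv.Perm GolayPt} (hc : c ∈ C0) : c • sextObj k07 = sextObj k07 := by
  obtain ⟨d, hd, j, hj, hbad, hcm, hr⟩ := cover hc
  have h := (allB_iff _ _).mp chkS d hd
  rw [hbad, Bool.false_or] at h
  have h2 := (allB_iff _ _).mp h j hj
  rw [hcm] at h2
  simp only [Bool.not_true, Bool.false_or] at h2
  exact sextStep_sound (mem_C0.mp hc).1.1 hr k07_lt k07_lt h2

theorem ok07_spec {n : ℕ} (h : ok07 n = true) :
    bad (n / 48) = false ∧ commN (mulN (fldG d07 (n / 48)) (fldG u5 (n % 48))) r0 = true := by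
  unfold ok07 T07 at h
  rw [Bool.and_eq_true] at h
  have h1 : bad (Nat.div n 48) = false := by simpa using h.1
  exact ⟨h1, h.2⟩

/-- the permutations behind a passing candidate -/
theorem cand_perm {n : ℕ} (hn : n < 576 * 48) (h : ok07 n = true) :
    ∃ a ∈ M24, ∃ u ∈ Stab [4, 3, 2, 1, 0], Rep (fldG d07 (n / 48)) a ∧
      Rep (fldG u5 (n % 48)) u ∧ a * u ∈ C0 ∧ Rep (T07 n) (a * u) := by
  obtain ⟨hbad, hcm⟩ := ok07_spec h
  have hd : n / 48 < 576 := by omega
  have hj : n % 48 < 48 := Nat.mod_lt _ (by norm_num)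
  obtain ⟨a, b, c0, c1, c2, c3, c4⟩ := chkD_spec hd hbad
  obtain ⟨u, hu, hru⟩ := u5_perm hj
  have hra := rep_permOf _ _ a
  have hma := permOf_mem_M24 _ _ a b
  have hrep : Rep (T07 n) (permOf _ _ a * u) := rep_mulN hra hru
  refine ⟨permOf _ _ a, hma, u, hu, hra, hru, ?_, hrep⟩
  rw [mem_C0]
  refine ⟨⟨mul_mem hma hu.1, comm_of_commN hrep r0e_rep hcm⟩, ?_⟩
  show permOf _ _ a (u (gPt 0)) = gPt 0
  rw [hu.2 0 (by simp), rep_apply hra (by norm_num), c0]

theorem card_C0 : Nat.card C0 = 320 := by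
  have h := card_of_pass C0 (576 * 48) T07 ok07
    (fun n hn hp => by
      obtain ⟨a, -, u, -, -, -, hmem, hrep⟩ := cand_perm hn hp
      exact ⟨a * u, hmem, hrep⟩)
    (fun m hm n hn hpm hpn g hgm hgn => by
      obtain ⟨a, -, u, hu, hra, hru, -, hrep⟩ := cand_perm hm hpm
      obtain ⟨a', -, u', hu', hra', hru', -, hrep'⟩ := cand_perm hn hpn
      have e1 : g = a * u := rep_uniq hgm hrep
      have e2 : g = a' * u' := rep_uniq hgn hrep'
      obtain ⟨hbad, -⟩ := ok07_spec hpm
      obtain ⟨hbad', -⟩ := ok07_spec hpn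
      have hd : m / 48 < 576 := by omega
      have hd' : n / 48 < 576 := by omega
      obtain ⟨-, -, -, -, c2, -, c4⟩ := chkD_spec hd hbad
      obtain ⟨-, -, -, -, c2', -, c4'⟩ := chkD_spec hd' hbad'
      have g2 : g (gPt 2) = gPt (m / 48 / 24) := by
        rw [e1]
        show a (u (gPt 2)) = _
        rw [hu.2 2 (by simp), rep_apply hra (by norm_num), c2]
      have g2' : g (gPt 2) = gPt (n / 48 / 24) := by
        rw [e2]
        show a' (u' (gPt 2)) = _
        rw [hu'.2 2 (by simp), rep_apply hra' (by norm_num), c2']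
      have g4 : g (gPt 4) = gPt (m / 48 % 24) := by
        rw [e1]
        show a (u (gPt 4)) = _
        rw [hu.2 4 (by simp), rep_apply hra (by norm_num), c4]
      have g4' : g (gPt 4) = gPt (n / 48 % 24) := by
        rw [e2]
        show a' (u' (gPt 4)) = _
        rw [hu'.2 4 (by simp), rep_apply hra' (by norm_num), c4']
      have k1 : m / 48 / 24 = n / 48 / 24 :=
        gPt_inj (by omega) (by omega) (g2.symm.trans g2')
      have k2 : m / 48 % 24 = n / 48 % 24 :=
        gPt_inj (Nat.mod_lt _ (by norm_num)) (Nat.mod_lt _ (by norm_num)) (g4.symm.trans g4')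
      have k3 : m / 48 = n / 48 := by omega
      rw [k3] at hra
      have ea : a = a' := rep_uniq hra hra'
      have eu : u = u' := by
        rw [e1, ea] at e2
        exact mul_left_cancel e2
      rw [eu] at hru
      have hnd := not_differ_of_rep hru hru'
      have hj : m % 48 < 48 := Nat.mod_lt _ (by norm_num)
      have hj' : n % 48 < 48 := Nat.mod_lt _ (by norm_num)
      have hne := (allB_iff _ _).mp ((allB_iff _ _).mp u5_ne (m % 48) hj) (n % 48) hj'
      rw [hnd, Bool.or_false] at hne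
      have k4 : m % 48 = n % 48 := Nat.eq_of_beq_eq_true hne
      omega)
    (fun g hg => by
      obtain ⟨d, hd, j, hj, hbad, hcm, hr⟩ := cover hg
      have e1 : (d * 48 + j) / 48 = d := by omega
      have e2 : (d * 48 + j) % 48 = j := by omega
      refine ⟨d * 48 + j, by omega, ?_, ?_⟩
      · unfold ok07 T07
        show (!(bad ((d * 48 + j) / 48)) &&
          commN (mulN (fldG d07 ((d * 48 + j) / 48)) (fldG u5 ((d * 48 + j) % 48))) r0) = true
        rw [e1, e2, hbad, hcm]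
        rfl
      · unfold T07
        show Rep (mulN (fldG d07 ((d * 48 + j) / 48)) (fldG u5 ((d * 48 + j) % 48))) g
        rw [e1, e2]
        exact hr)
  rw [h, countB_mul]
  exact chkN

/-! ### the centraliser of `r0e` -/

theorem exC {q : ℕ} (hq : q < 24) :
    ∃ c ∈ centM r0e, c (gPt 0) = gPt q ∧ c • sextObj k07 = sextObj k07 := by
  have h := (allB_iff _ _).mp chkC q hq
  simp only [Bool.and_eq_true] at h
  obtain ⟨a, b, c0, d⟩ := h
  obtain ⟨g, hg, hr⟩ := exists_of_okElt (l := []) (by simp) a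
  refine ⟨g, ⟨hg.1, comm_of_commN hr r0e_rep b⟩, ?_, sextStep_sound hg.1 hr k07_lt k07_lt d⟩
  rw [rep_apply hr (by norm_num), Nat.eq_of_beq_eq_true c0]

theorem card_cent : Nat.card (centM r0e) = 7680 := by
  have h := card_eq_orbit_mul_inf (centM r0e) (gPt 0)
  have ho : MulAction.orbit (centM r0e) (gPt 0) = Set.univ := by
    ext q
    simp only [Set.mem_univ, iff_true]
    obtain ⟨c, hc, hc0, -⟩ := exC (gIdx_lt q)
    rw [gPt_gIdx] at hc0
    exact ⟨⟨c, hc⟩, hc0⟩
  have hC : Nat.card ↥(centM r0e ⊓ MulAction.stabilizer (Equiv.Perm GolayPt) (gPt 0)) = 320 :=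
    card_C0
  have h24 : Nat.card GolayPt = 24 := by
    rw [Nat.card_eq_fintype_card, Cfsg.Agent.H9.card_golayPt]
  rw [ho, Set.ncard_univ, h24, hC] at h
  rw [h]

theorem cent_sext {c : Equiv.Perm GolayPt} (hc : c ∈ centM r0e) :
    c • sextObj k07 = sextObj k07 := by
  obtain ⟨a, ha, ha0, haS⟩ := exC (gIdx_lt (c (gPt 0)))
  rw [gPt_gIdx] at ha0
  have hmem : a⁻¹ * c ∈ C0 := by
    unfold C0
    rw [Subgroup.mem_inf]
    refine ⟨mul_mem (inv_mem ha) hc, ?_⟩
    rw [MulAction.mem_stabilizer_iff]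
    show a⁻¹ (c (gPt 0)) = gPt 0
    rw [← ha0]
    exact a.symm_apply_apply _
  have h := C0_sext hmem
  rw [mul_smul, inv_smul_eq_iff, haS] at h
  exact h

theorem cent_trans (p q : GolayPt) : ∃ c ∈ centM r0e, c p = q := by
  obtain ⟨a, ha, ha0, -⟩ := exC (gIdx_lt p)
  obtain ⟨b, hb, hb0, -⟩ := exC (gIdx_lt q)
  rw [gPt_gIdx] at ha0 hb0
  refine ⟨b * a⁻¹, mul_mem hb (inv_mem ha), ?_⟩
  show b (a⁻¹ p) = q
  rw [← ha0]
  have : a⁻¹ (a (gPt 0)) = gPt 0 := a.symm_apply_apply _
  rw [this, hb0]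

/-- For a fixed-point-free involution t of the group of the length-24 code: its centraliser in that group has order 7680, is transitive on the 24 points, and is contained, together with t, in the stabiliser of some sextet. -/
theorem result (t : Equiv.Perm Cfsg.GolayPt) (ht : t ∈ Cfsg.M24) (h₂ : orderOf t = 2) (h₀ : ∀ p, t p ≠ p) : Nat.card {c : Equiv.Perm Cfsg.GolayPt // c ∈ Cfsg.M24 ∧ c * t = t * c} = 7680 ∧ (∀ p q : Cfsg.GolayPt, ∃ c ∈ Cfsg.M24, c * t = t * c ∧ c p = q) ∧ ∃ S ∈ Cfsg.sextets, t • S = S ∧ ∀ c ∈ Cfsg.M24, c * t = t * c → c • S = S := by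
  obtain ⟨k, hk, hk'⟩ := invol_conj ht h₂
  have hkt : k * t * k⁻¹ = r0e := by
    rcases hk' with h | h
    · exfalso
      have h1 := fix_card_conj' k t
      rw [h, r8e_fix] at h1
      have h2 : (Finset.univ.filter fun p => t p = p) = ∅ := by
        rw [Finset.filter_eq_empty_iff]
        exact fun p _ => h₀ p
      rw [h2] at h1
      exact absurd h1 (by decide)
    · exact h
  have hconj : ∀ c, c ∈ M24 → c * t = t * c → k * c * k⁻¹ ∈ centM r0e := by
    intro c hc hct
    have := centM_conj (t := t) hk ⟨hc, hct⟩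
    rwa [hkt] at this
  have hS : ∀ c, c ∈ M24 → c * t = t * c → c • k⁻¹ • sextObj k07 = k⁻¹ • sextObj k07 := by
    intro c hc hct
    have h := cent_sext (hconj c hc hct)
    rw [mul_smul, mul_smul] at h
    have h' := congrArg (fun X => k⁻¹ • X) h
    simp only [inv_smul_smul] at h'
    exact h'
  refine ⟨?_, ?_, ?_⟩
  · rw [card_centM, card_centM_conj hk t, hkt]
    exact card_cent
  · intro p q
    obtain ⟨c, hc, hcp⟩ := cent_trans (k p) (k q)
    have hc' : k⁻¹ * c * k ∈ centM t := centM_conj' hk (by rw [hkt]; exact hc)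
    refine ⟨k⁻¹ * c * k, hc'.1, hc'.2, ?_⟩
    show k⁻¹ (c (k p)) = q
    rw [hcp]
    exact k.symm_apply_apply _
  · exact ⟨k⁻¹ • sextObj k07, smul_mem_sextets (inv_mem hk) (sext_mem k07 k07_lt),
      hS t ht rfl, hS⟩

end Cfsg.Agent.S5607
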