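import Cfsg.Statements.S5610
import Cfsg.Agent.H94.D5610

set_option autoImplicit false
open scoped Pointwise
open Cfsg

namespace Cfsg.Agent.S5610

open Cfsg.Agent.H9 Cfsg.Agent.H33 Cfsg.Agent.H94

theorem hY0 : ∀ g ∈ M24, g • oct0 = oct0 → g • objOf [octM0] = objOf [octM0] := by
  intro g _ h
  rw [objOf_singleton, Finset.smul_finset_singleton]
  exact congrArg _ h

theorem hS0 : ∀ g ∈ stabOf [octM0], g ∈ M24 ∧ g • oct0 = oct0 :=
  fun g hg => ⟨hg.1, hg.2 octM0 (List.mem_singleton.mpr rfl)⟩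

theorem dec_trios : Decomp oct0 trios 3 (fun c => d10tN.getD c 0) :=
  decomp_trio oct0 [octM0] (by decide) hY0 (stabOf [octM0]) hS0 ostG ostNg d10tF d10tR d10tV d10tN
    (gens_sound ostG_ok) d10t_ok (by decide) rfl (by decide) d10t_V d10t_N

theorem dec_sextets : Decomp oct0 sextets 3 (fun c => d10sN.getD c 0) :=
  decomp_sext oct0 [octM0] (by decide) hY0 (stabOf [octM0]) hS0 ostG ostNg d10sF d10sR d10sV d10sN
    (gens_sound ostG_ok) d10s_ok (by decide) rfl (by decide) d10s_V d10s_N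


/-- The stabiliser of an octad in the group of the length-24 code has exactly three orbits on the 3795 trios, of sizes 15, 420 and 3360, and exactly three orbits on the 1771 sextets, of sizes 35, 840 and 896. -/
theorem result (o : Finset Cfsg.GolayPt) (ho : o ∈ Cfsg.octads) : (∃ X₁ ∈ Cfsg.trios, ∃ X₂ ∈ Cfsg.trios, ∃ X₃ ∈ Cfsg.trios, (MulAction.orbit ↥(MulAction.stabilizer Cfsg.M24 o) X₁).ncard = 15 ∧ (MulAction.orbit ↥(MulAction.stabilizer Cfsg.M24 o) X₂).ncard = 420 ∧ (MulAction.orbit ↥(MulAction.stabilizer Cfsg.M24 o) X₃).ncard = 3360 ∧ Cfsg.trios = MulAction.orbit ↥(MulAction.stabilizer Cfsg.M24 o) X₁ ∪ MulAction.orbit ↥(MulAction.stabilizer Cfsg.M24 o) X₂ ∪ MulAction.orbit ↥(MulAction.stabilizer Cfsg.M24 o) X₃) ∧ (∃ Y₁ ∈ Cfsg.sextets, ∃ Y₂ ∈ Cfsg.sextets, ∃ Y₃ ∈ Cfsg.sextets, (MulAction.orbit ↥(MulAction.stabilizer Cfsg.M24 o) Y₁).ncard = 35 ∧ (MulAction.orbit ↥(MulAction.stabilizer Cfsg.M24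 o) Y₂).ncard = 840 ∧ (MulAction.orbit ↥(MulAction.stabilizer Cfsg.M24 o) Y₃).ncard = 896 ∧ Cfsg.sextets = MulAction.orbit ↥(MulAction.stabilizer Cfsg.M24 o) Y₁ ∪ MulAction.orbit ↥(MulAction.stabilizer Cfsg.M24 o) Y₂ ∪ MulAction.orbit ↥(MulAction.stabilizer Cfsg.M24 o) Y₃) := by
  obtain ⟨a, ha, rfl⟩ := exists_smul_oct0 ho
  exact ⟨(dec_trios.smul (fun g hg z hz => smul_mem_trios hg hz) ha).three,
    (dec_sextets.smul (fun g hg z hz => smul_mem_sextets hg hz) ha).three⟩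

end Cfsg.Agent.S5610
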