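import Cfsg.Statements.S5604
import Cfsg.Agent.H34.M24Syl7

set_option autoImplicit false
open scoped Pointwise
open Cfsg

namespace Cfsg.Agent.S5604

open Cfsg.Agent.H9 Cfsg.Agent.H34

/-- Two subgroups whose order is the full power of `p` dividing the order of the group are
conjugate. -/
theorem exists_conj_of_card {G : Type*} [Group G] [Finite G] {p k : ℕ} [Fact p.Prime]
    (hk : (Nat.card G).factorization p = k) {S S0 : Subgroup G} (hS : Nat.card S = p ^ k)
    (hS0 : Nat.card S0 = p ^ k) : ∃ g : G, ∀ x, x ∈ S ↔ g⁻¹ * x * g ∈ S0 := by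
  have h0 : Nat.card S0 = p ^ (Nat.card G).factorization p := by rw [hk]; exact hS0
  have h1 : Nat.card S = p ^ (Nat.card G).factorization p := by rw [hk]; exact hS
  obtain ⟨g, hg⟩ := MulAction.exists_smul_eq G (Sylow.ofCard S0 h0) (Sylow.ofCard S h1)
  refine ⟨g, fun x => ?_⟩
  have e : (S : Subgroup G) = MulAut.conj g • S0 := by
    have := congrArg (fun P : Sylow p G => (P : Subgroup G)) hg
    simpa [Sylow.coe_subgroup_smul] using this.symm
  rw [e, Subgroup.mem_pointwise_smul_iff_inv_smul_mem]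
  simp [MulAut.smul_def, MulAut.conj_inv_apply]

theorem norm_transfer {G : Type*} [Group G] {S S0 : Subgroup G} {g : G}
    (hg : ∀ x, x ∈ S ↔ g⁻¹ * x * g ∈ S0) (n : G) :
    n ∈ Subgroup.normalizer (S : Set G) ↔ g⁻¹ * n * g ∈ Subgroup.normalizer (S0 : Set G) := by
  rw [Subgroup.mem_normalizer_iff, Subgroup.mem_normalizer_iff]
  constructor
  · intro h x
    have h1 := h (g * x * g⁻¹)
    rw [hg, hg] at h1
    have e1 : g⁻¹ * (g * x * g⁻¹) * g = x := by group
    have e2 : g⁻¹ * (n * (g * x * g⁻¹) * n⁻¹) * g = g⁻¹ * n * g * x * (g⁻¹ * n * g)⁻¹ := by group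
    rw [e1, e2] at h1
    exact h1
  · intro h x
    have h1 := h (g⁻¹ * x * g)
    rw [hg, hg]
    have e2 : g⁻¹ * (n * x * n⁻¹) * g = g⁻¹ * n * g * (g⁻¹ * x * g) * (g⁻¹ * n * g)⁻¹ := by group
    rw [e2]
    exact h1

theorem cent_transfer {G : Type*} [Group G] {S S0 : Subgroup G} {g : G}
    (hg : ∀ x, x ∈ S ↔ g⁻¹ * x * g ∈ S0) (n : G) :
    n ∈ Subgroup.centralizer (S : Set G) ↔ g⁻¹ * n * g ∈ Subgroup.centralizer (S0 : Set G) := by
  rw [Subgroup.mem_centralizer_iff, Subgroup.mem_centralizer_iff]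
  constructor
  · intro h x hx
    have hx' : g * x * g⁻¹ ∈ S := by
      rw [hg]
      have e1 : g⁻¹ * (g * x * g⁻¹) * g = x := by group
      rw [e1]
      exact hx
    have h1 := h _ hx'
    have e2 : x * (g⁻¹ * n * g) = g⁻¹ * (g * x * g⁻¹ * n) * g := by group
    rw [e2, h1]
    group
  · intro h x hx
    have h1 := h _ ((hg x).mp hx)
    have e2 : x * n = g * (g⁻¹ * x * g * (g⁻¹ * n * g)) * g⁻¹ := by group
    rw [e2, h1]
    group

theorem card_transfer {G : Type*} [Group G] {K K0 : Subgroup G} {g : G}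
    (h : ∀ n, n ∈ K ↔ g⁻¹ * n * g ∈ K0) : Nat.card K = Nat.card K0 := by
  refine Nat.card_congr ⟨fun n => ⟨g⁻¹ * n.1 * g, (h _).mp n.2⟩,
    fun m => ⟨g * m.1 * g⁻¹, (h _).mpr ?_⟩, ?_, ?_⟩
  · have e : g⁻¹ * (g * m.1 * g⁻¹) * g = m.1 := by group
    rw [e]
    exact m.2
  · intro n
    apply Subtype.ext
    show g * (g⁻¹ * n.1 * g) * g⁻¹ = n.1
    group
  · intro m
    apply Subtype.ext
    show g⁻¹ * (g * m.1 * g⁻¹) * g = m.1
    group

theorem fact_seven : (Nat.card ↥M24).factorization 7 = 1 := by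
  rw [card_M24]
  have e : (244823040 : ℕ) = 7 * 34974720 := by norm_num
  rw [e, Nat.factorization_mul (by norm_num) (by norm_num)]
  have h1 : (7 : ℕ).factorization 7 = 1 := Nat.Prime.factorization_self (by norm_num)
  have h2 : (34974720 : ℕ).factorization 7 = 0 :=
    Nat.factorization_eq_zero_of_not_dvd (by norm_num)
  simp [h1, h2]

/-- For a subgroup S of order 7 of the group of the length-24 code (a Sylow 7-subgroup): the normaliser of S has order 126, the centraliser of S has order 42 and is non-abelian, and the whole normaliser leaves some trio invariant. (These are the orders of a Frobenius group of order 21 times a symmetric group of degree 3; the isomorphism type itself is not asserted here.) -/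
theorem result (S : Subgroup ↥Cfsg.M24) (hS : Nat.card S = 7) : Nat.card ↥(Subgroup.normalizer (S : Set ↥Cfsg.M24)) = 126 ∧ Nat.card ↥(Subgroup.centralizer (S : Set ↥Cfsg.M24)) = 42 ∧ (∃ x ∈ Subgroup.centralizer (S : Set ↥Cfsg.M24), ∃ y ∈ Subgroup.centralizer (S : Set ↥Cfsg.M24), x * y ≠ y * x) ∧ ∃ T ∈ Cfsg.trios, ∀ n ∈ Subgroup.normalizer (S : Set ↥Cfsg.M24), ((n : ↥Cfsg.M24) : Equiv.Perm Cfsg.GolayPt) • T = T := by
  haveI : Fact (Nat.Prime 7) := ⟨by norm_num⟩
  haveI : Finite ↥M24 := Nat.finite_of_card_ne_zero (by rw [card_M24]; norm_num)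
  obtain ⟨g, hg⟩ := exists_conj_of_card (p := 7) (k := 1) fact_seven
    (S := S) (S0 := S7) (by rw [pow_one]; exact hS) (by rw [pow_one]; exact card_S7)
  have hN := norm_transfer hg
  have hC := cent_transfer hg
  refine ⟨?_, ?_, ?_, ?_⟩
  · rw [card_transfer hN, card_N7]
  · rw [card_transfer hC, card_C7]
  · obtain ⟨x, hx, y, hy, hxy⟩ := C7_nonabelian
    have ex : g⁻¹ * (g * x * g⁻¹) * g = x := by group
    have ey : g⁻¹ * (g * y * g⁻¹) * g = y := by group
    refine ⟨g * x * g⁻¹, (hC _).mpr (by rw [ex]; exact hx), g * y * g⁻¹,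
      (hC _).mpr (by rw [ey]; exact hy), ?_⟩
    intro h
    apply hxy
    have h1 : g⁻¹ * (g * x * g⁻¹ * (g * y * g⁻¹)) * g = g⁻¹ * (g * y * g⁻¹ * (g * x * g⁻¹)) * g := by
      rw [h]
    have e1 : g⁻¹ * (g * x * g⁻¹ * (g * y * g⁻¹)) * g = x * y := by group
    have e2 : g⁻¹ * (g * y * g⁻¹ * (g * x * g⁻¹)) * g = y * x := by group
    rw [e1, e2] at h1
    exact h1
  · refine ⟨(g : Equiv.Perm GolayPt) • TR7, smul_trios g.2 TR7_mem, ?_⟩
    intro n hn
    have h1 := N7_trio ((hN n).mp hn)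
    have e : (n : Equiv.Perm GolayPt) * (g : Equiv.Perm GolayPt) =
        (g : Equiv.Perm GolayPt) * ((g⁻¹ * n * g : ↥M24) : Equiv.Perm GolayPt) := by
      show (n : Equiv.Perm GolayPt) * (g : Equiv.Perm GolayPt) =
        (g : Equiv.Perm GolayPt) * ((g : Equiv.Perm GolayPt)⁻¹ * (n : Equiv.Perm GolayPt) *
          (g : Equiv.Perm GolayPt))
      group
    rw [← mul_smul, e, mul_smul, h1]

end Cfsg.Agent.S5604
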