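import Mathlib
import Cfsg.Statements.S0285
import Cfsg.Agent.H7.Herm

set_option autoImplicit false
open Cfsg

namespace Cfsg.Agent.S0285

/-- The standard Hermitian form on F^n, |F| = q^2, has exactly (q^n - (-1)^n)(q^(n-1) + (-1)^n) non-zero isotropic vectors; counting the zero vector too: -/
theorem result {F : Type*} [Field F] [Fintype F] {q : ℕ} (hF : Fintype.card F = q ^ 2) (n : ℕ) : Nat.card {v : Fin n → F // Cfsg.hermForm n F q v v = 0} = (if Even n then (q ^ n - 1) * (q ^ (n - 1) + 1) else (q ^ n + 1) * (q ^ (n - 1) - 1)) + 1 := by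
  have hq := H7.two_le_of_card_sq hF
  have hq0 : (q : ℤ) ≠ 0 := by exact_mod_cast (by omega : q ≠ 0)
  have h := H7.herm_card_zero hF n
  rcases n with _ | k
  · rw [H7.herm_card_zero_dim_zero]; simp
  · have h1 : 1 ≤ q ^ (k + 1) := Nat.one_le_pow _ _ (by omega)
    have h2 : 1 ≤ q ^ k := Nat.one_le_pow _ _ (by omega)
    simp only [Nat.add_sub_cancel]
    split_ifs with he
    · rw [he.neg_one_pow] at h
      have : (q : ℤ) * Nat.card {v : Fin (k + 1) → F // Cfsg.hermForm (k + 1) F q v v = 0} =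
          q * (((q ^ (k + 1) - 1) * (q ^ k + 1) + 1 : ℕ) : ℤ) := by
        rw [h]; push_cast [h1]; ring
      exact_mod_cast mul_left_cancel₀ hq0 this
    · rw [(Nat.not_even_iff_odd.mp he).neg_one_pow] at h
      have : (q : ℤ) * Nat.card {v : Fin (k + 1) → F // Cfsg.hermForm (k + 1) F q v v = 0} =
          q * (((q ^ (k + 1) + 1) * (q ^ k - 1) + 1 : ℕ) : ℤ) := by
        rw [h]; push_cast [h2]; ring
      exact_mod_cast mul_left_cancel₀ hq0 this

end Cfsg.Agent.S0285
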