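import Mathlib
import Cfsg.Statements.S0293
import Cfsg.Agent.H7.OmegaPlus
import Cfsg.Agent.S0287
import Cfsg.Agent.S2613

set_option autoImplicit false
open Cfsg

namespace Cfsg.Agent.S0293

open Matrix Module

section

variable {F : Type*} [Field F] [Fintype F]

/-- In characteristic two, `Ω⁺_{2m}(q)` has index two in the orthogonal group. -/
theorem index_commutator_two (h2 : (2 : F) = 0) (m : ℕ) (hm : 1 ≤ m)
    (hex : Fintype.card F ≠ 2 ∨ m ≠ 2) :
    (commutator ↥(isometryGroup F ⇑(Cfsg.Agent.H49.QP m F))).index = 2 := by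
  classical
  set χ := Cfsg.Agent.H49.tsHom (Cfsg.Agent.H49.QP m F) (Cfsg.Agent.H49.QP_nondeg m F)
    (Cfsg.Agent.H49.finrank_plus m F) (Cfsg.Agent.H49.U0 m F) (Cfsg.Agent.H49.U0_ts m F)
    (Cfsg.Agent.H49.finrank_U0 m F) with hχ
  have hrefl : ∀ v : Fin m ⊕ Fin m → F, Cfsg.Agent.H49.QP m F v ≠ 0 →
      χ (Cfsg.Agent.H49.reflG (Cfsg.Agent.H49.QP m F) v) = -1 := fun v hv =>
    Cfsg.Agent.H49.tsHom_reflG _ _ _ _ _ _ v hv
  have hker : commutator ↥(isometryGroup F ⇑(Cfsg.Agent.H49.QP m F)) = χ.ker :=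
    le_antisymm (Abelianization.commutator_subset_ker χ) (fun g hg =>
      Cfsg.Agent.H49.mem_commutator_of_hom_two (Cfsg.Agent.H49.QP m F) h2
        (Cfsg.Agent.H49.QP_nondeg m F) (Cfsg.Agent.H49.finrank_plus m F) hex χ hrefl g
        (MonoidHom.mem_ker.mp hg))
  rw [hker, Subgroup.index_ker]
  have hsurj : χ.range = ⊤ := by
    rw [eq_top_iff]
    intro x _
    rcases Int.units_eq_one_or x with rfl | rfl
    · exact one_mem _
    · exact ⟨Cfsg.Agent.H49.reflG (Cfsg.Agent.H49.QP m F) (H7.hypP m ⟨0, by omega⟩),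
        hrefl _ (by rw [H7.QP_hypP]; exact one_ne_zero)⟩
  rw [hsurj, Subgroup.card_top, Nat.card_eq_fintype_card, Fintype.card_units_int]

/-- Every element of the centre of `Ω⁺_{2m}(q)` is `± 1`. -/
theorem center_scalar (m : ℕ) (hm : 4 ≤ m)
    (c : ↥(Omega F ⇑(Cfsg.Agent.H49.QP m F)))
    (hc : c ∈ Subgroup.center (Omega F ⇑(Cfsg.Agent.H49.QP m F))) :
    ∃ l : F, (((c : ↥(isometryGroup F ⇑(Cfsg.Agent.H49.QP m F))) : GL (Fin m ⊕ Fin m) F) :
      Matrix (Fin m ⊕ Fin m) (Fin m ⊕ Fin m) F) = l • 1 ∧ l * l = 1 := by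
  classical
  have hz : H7.CentOmega (Cfsg.Agent.H49.QP m F) c.1 := by
    intro h hh
    have := Subgroup.mem_center_iff.mp hc ⟨h, hh⟩
    exact congrArg Subtype.val this
  apply H7.cent_QP_scalar m (by omega) c.1 hz
  · intro u w hu hw
    by_cases h2 : (2 : F) = 0
    · rw [Cfsg.Agent.H49.commutator_eq_evenSub_two (Cfsg.Agent.H49.QP m F) h2
        (Cfsg.Agent.H49.QP_nondeg m F) (Cfsg.Agent.H49.finrank_plus m F) (Or.inr (by omega))]
      exact Subgroup.subset_closure
        ⟨_, ⟨u, by rw [hu]; exact one_ne_zero, rfl⟩, _, ⟨w, by rw [hw]; exact one_ne_zero, rfl⟩,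
          rfl⟩
    · exact Cfsg.Agent.H49.reflG_mul_reflG_mem_commutator (Cfsg.Agent.H49.QP m F) h2 u w
        (by rw [hu]; exact one_ne_zero) (by rw [hw]; exact one_ne_zero)
        (by rw [hu, hw]; exact ⟨1, by ring⟩)
  · intro u u' hu hu'
    by_cases h2 : (2 : F) = 0
    · obtain ⟨h, -, hh, -⟩ := Cfsg.Agent.H49.cd2_step1 (Cfsg.Agent.H49.QP m F) h2
        (Cfsg.Agent.H49.QP_nondeg m F) (Cfsg.Agent.H49.finrank_plus m F) (Or.inr (by omega)) ⊥
        (by simp) u' u (by simp) (by simp) (by rw [hu, hu']) (by rw [hu']; exact one_ne_zero)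
      exact ⟨h, hh⟩
    · exact Cfsg.Agent.H49.exists_isometry_map (Cfsg.Agent.H49.QP m F) h2 u u' (by rw [hu, hu'])
        (by rw [hu]; exact one_ne_zero)

/-- `-1 ∈ Ω⁺_{2m}(q)` iff `q^m ≡ 1 (mod 4)`, for `q` odd. -/
theorem neg_one_mem_iff {q : ℕ} (hF : Fintype.card F = q) (hq : Odd q) (m : ℕ) (hm : 1 ≤ m) :
    (∃ g : ↥(isometryGroup F ⇑(Cfsg.Agent.H49.QP m F)),
      g ∈ commutator ↥(isometryGroup F ⇑(Cfsg.Agent.H49.QP m F)) ∧
      ((g : GL (Fin m ⊕ Fin m) F) : Matrix (Fin m ⊕ Fin m) (Fin m ⊕ Fin m) F) = -1) ↔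
      q ^ m % 4 = 1 := by
  have h := Cfsg.Agent.S2613.result hF hq (m := m) m hm le_rfl
  have hd : Matrix.diagonal (fun k : Fin m ⊕ Fin m =>
      if (Sum.elim (fun j : Fin m => (j : ℕ)) (fun j : Fin m => (j : ℕ)) k) < m
        then (-1 : F) else 1) = -1 := by
    ext a b
    by_cases hab : a = b
    · subst hab
      rcases a with j | j <;> simp [j.2]
    · simp [Matrix.diagonal_apply_ne _ hab, Matrix.one_apply_ne hab]
  rw [hd] at h
  exact h

end

/-- gcd(4, q^m - 1) |PΩ^+_{2m}(q)| = q^(m(m-1)) (q^m - 1) prod_{i=1}^{m-1} (q^(2i) - 1), m at least 4 (type D_m). -/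
theorem result {F : Type*} [Field F] [Fintype F] {q : ℕ} (hF : Fintype.card F = q) (m : ℕ) (hm : 4 ≤ m) : Nat.gcd 4 (q ^ m - 1) * Nat.card (Cfsg.POmega F (Cfsg.quadFormPlus m F)) = q ^ (m * (m - 1)) * (q ^ m - 1) * ∏ i ∈ Finset.range (m - 1), (q ^ (2 * (i + 1)) - 1) := by
  classical
  have hq : 2 ≤ q := by rw [← hF]; exact Fintype.one_lt_card
  have hO := Cfsg.Agent.S0287.result hF m (by omega)
  change Nat.card ↥(isometryGroup F ⇑(Cfsg.Agent.H49.QP m F)) = _ at hO
  change Nat.gcd 4 (q ^ m - 1) * Nat.card (Omega F ⇑(Cfsg.Agent.H49.QP m F) ⧸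
    Subgroup.center (Omega F ⇑(Cfsg.Agent.H49.QP m F))) = _
  have hquot := Subgroup.card_eq_card_quotient_mul_card_subgroup
    (Subgroup.center (Omega F ⇑(Cfsg.Agent.H49.QP m F)))
  have hidx' := Subgroup.card_mul_index (commutator ↥(isometryGroup F ⇑(Cfsg.Agent.H49.QP m F)))
  have hP : 2 * q ^ (m * (m - 1)) * (q ^ m - 1) *
      ∏ i ∈ Finset.range (m - 1), (q ^ (2 * (i + 1)) - 1) =
      2 * (q ^ (m * (m - 1)) * (q ^ m - 1) *
        ∏ i ∈ Finset.range (m - 1), (q ^ (2 * (i + 1)) - 1)) := by ring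
  rw [hO, hP] at hidx'
  change Nat.card ↥(commutator ↥(isometryGroup F ⇑(Cfsg.Agent.H49.QP m F))) = _ at hquot
  generalize q ^ (m * (m - 1)) * (q ^ m - 1) *
        ∏ i ∈ Finset.range (m - 1), (q ^ (2 * (i + 1)) - 1) = P at hidx' ⊢
  generalize Nat.card (Omega F ⇑(Cfsg.Agent.H49.QP m F) ⧸
    Subgroup.center (Omega F ⇑(Cfsg.Agent.H49.QP m F))) = N at hquot ⊢
  have hqm : 1 ≤ q ^ m := Nat.one_le_pow _ _ (by omega)
  have hscal : ∀ (c : ↥(Omega F ⇑(Cfsg.Agent.H49.QP m F))) (l : F),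
      (((c : ↥(isometryGroup F ⇑(Cfsg.Agent.H49.QP m F))) : GL (Fin m ⊕ Fin m) F) :
        Matrix (Fin m ⊕ Fin m) (Fin m ⊕ Fin m) F) = l • 1 → l = 1 → c = 1 := by
    intro c l hl hl1
    apply Subtype.ext
    apply Subtype.ext
    apply Units.ext
    rw [hl, hl1, one_smul]
    rfl
  by_cases h2 : (2 : F) = 0
  · have hidx := index_commutator_two h2 m (by omega) (Or.inr (by omega))
    have hZ : Nat.card (Subgroup.center (Omega F ⇑(Cfsg.Agent.H49.QP m F))) = 1 := by
      have hbot : Subgroup.center (Omega F ⇑(Cfsg.Agent.H49.QP m F)) = ⊥ := by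
        rw [Subgroup.eq_bot_iff_forall]
        intro c hc
        obtain ⟨l, hl, hl2⟩ := center_scalar m hm c hc
        have h3 : (l - 1) * (l - 1) = 0 := by linear_combination hl2 + (1 - l) * h2
        exact hscal c l hl (sub_eq_zero.mp (mul_self_eq_zero.mp h3))
      rw [hbot, Subgroup.card_bot]
    have hgcd : Nat.gcd 4 (q ^ m - 1) = 1 := by
      have hqe : q % 2 = 0 := by
        rw [← hF]
        exact FiniteField.even_card_of_char_two
          (CharP.ringChar_of_prime_eq_zero Nat.prime_two (by exact_mod_cast h2))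
      have h1 : q ^ m % 2 = 0 := by
        rw [Nat.pow_mod, hqe]
        simp [zero_pow (by omega : m ≠ 0)]
      have h3 : (q ^ m - 1) % 4 = 1 ∨ (q ^ m - 1) % 4 = 3 := by omega
      rw [Nat.gcd_rec]
      rcases h3 with h | h <;> rw [h] <;> rfl
    rw [hgcd, one_mul]
    rw [hidx] at hidx'
    rw [hZ, mul_one] at hquot
    omega
  · have hqodd : Odd q := by
      rw [Nat.odd_iff, ← hF]
      exact FiniteField.odd_card_of_char_ne_two (fun h => h2 (by
        haveI := ringChar.of_eq h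
        exact CharTwo.two_eq_zero))
    have hidx := Cfsg.Agent.H18.index_commutator (Cfsg.Agent.H49.QP m F) h2
      (Cfsg.Agent.H49.QP_nondeg m F) (by
        simp only [Fintype.card_sum, Fintype.card_fin]
        omega)
    rw [hidx] at hidx'
    have hqm2 : q ^ m % 2 = 1 := by
      rw [Nat.pow_mod, Nat.odd_iff.mp hqodd]
      simp
    by_cases h4 : q ^ m % 4 = 1
    · obtain ⟨g, hgΩ, hgm⟩ := (neg_one_mem_iff hF hqodd m (by omega)).mpr h4
      have hgc : (⟨g, hgΩ⟩ : ↥(Omega F ⇑(Cfsg.Agent.H49.QP m F))) ∈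
          Subgroup.center (Omega F ⇑(Cfsg.Agent.H49.QP m F)) := by
        rw [Subgroup.mem_center_iff]
        intro h
        apply Subtype.ext
        apply Subtype.ext
        apply Units.ext
        show ((h : ↥(isometryGroup F ⇑(Cfsg.Agent.H49.QP m F))) : GL (Fin m ⊕ Fin m) F).1 *
          (g : GL (Fin m ⊕ Fin m) F).1 = (g : GL (Fin m ⊕ Fin m) F).1 *
          ((h : ↥(isometryGroup F ⇑(Cfsg.Agent.H49.QP m F))) : GL (Fin m ⊕ Fin m) F).1
        rw [hgm]
        simp
      have hZ : Nat.card (Subgroup.center (Omega F ⇑(Cfsg.Agent.H49.QP m F))) = 2 := by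
        rw [Nat.card_eq_two_iff]
        refine ⟨1, ⟨⟨g, hgΩ⟩, hgc⟩, ?_, ?_⟩
        · intro h
          have h5 := congrArg (fun c : ↥(Subgroup.center (Omega F ⇑(Cfsg.Agent.H49.QP m F))) =>
            ((((c : ↥(Omega F ⇑(Cfsg.Agent.H49.QP m F))) :
              ↥(isometryGroup F ⇑(Cfsg.Agent.H49.QP m F))) : GL (Fin m ⊕ Fin m) F) :
              Matrix (Fin m ⊕ Fin m) (Fin m ⊕ Fin m) F) (Sum.inl ⟨0, by omega⟩)
                (Sum.inl ⟨0, by omega⟩)) h
          change (1 : Matrix (Fin m ⊕ Fin m) (Fin m ⊕ Fin m) F) (Sum.inl ⟨0, by omega⟩)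
            (Sum.inl ⟨0, by omega⟩) = ((g : GL (Fin m ⊕ Fin m) F) :
              Matrix (Fin m ⊕ Fin m) (Fin m ⊕ Fin m) F) (Sum.inl ⟨0, by omega⟩)
                (Sum.inl ⟨0, by omega⟩) at h5
          rw [hgm, Matrix.neg_apply, Matrix.one_apply_eq] at h5
          apply h2
          linear_combination h5
        · ext c
          simp only [Set.mem_insert_iff, Set.mem_singleton_iff, Set.mem_univ, iff_true]
          obtain ⟨l, hl, hl2⟩ := center_scalar m hm c.1 c.2
          rcases mul_self_eq_one_iff.mp hl2 with hl1 | hl1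
          · left
            exact Subtype.ext (hscal c.1 l hl hl1)
          · right
            apply Subtype.ext
            apply Subtype.ext
            apply Subtype.ext
            apply Units.ext
            show (((c : ↥(Omega F ⇑(Cfsg.Agent.H49.QP m F))) :
              ↥(isometryGroup F ⇑(Cfsg.Agent.H49.QP m F))) : GL (Fin m ⊕ Fin m) F).1 =
              (g : GL (Fin m ⊕ Fin m) F).1
            rw [hl, hl1, hgm]
            simp
      have hgcd : Nat.gcd 4 (q ^ m - 1) = 4 := by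
        have h3 : (q ^ m - 1) % 4 = 0 := by omega
        rw [Nat.gcd_rec, h3]
        rfl
      rw [hgcd]
      rw [hZ] at hquot
      omega
    · have hZ : Nat.card (Subgroup.center (Omega F ⇑(Cfsg.Agent.H49.QP m F))) = 1 := by
        have hbot : Subgroup.center (Omega F ⇑(Cfsg.Agent.H49.QP m F)) = ⊥ := by
          rw [Subgroup.eq_bot_iff_forall]
          intro c hc
          obtain ⟨l, hl, hl2⟩ := center_scalar m hm c hc
          rcases mul_self_eq_one_iff.mp hl2 with hl1 | hl1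
          · exact hscal c l hl hl1
          · exfalso
            apply h4
            apply (neg_one_mem_iff hF hqodd m (by omega)).mp
            refine ⟨c.1, c.2, ?_⟩
            rw [hl, hl1]
            simp
        rw [hbot, Subgroup.card_bot]
      have hgcd : Nat.gcd 4 (q ^ m - 1) = 2 := by
        have h3 : (q ^ m - 1) % 4 = 2 := by omega
        rw [Nat.gcd_rec, h3]
        rfl
      rw [hgcd]
      rw [hZ, mul_one] at hquot
      omega

end Cfsg.Agent.S0293
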