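import Mathlib
import Cfsg.Statements.S0261
import Cfsg.Agent.H7.SL2Order
import Cfsg.Agent.H7.Quat
import Cfsg.Agent.S0268

set_option autoImplicit false
open Cfsg

namespace Cfsg.Agent.S0261

open Polynomial in
/-- The norm form of a quadratic extension represents `-1`. -/
theorem exists_norm_neg_one {F : Type*} [Field F] [Fintype F] (hF : Odd (Fintype.card F))
    (τ : F) (hτ : τ ^ 2 ≠ 4) : ∃ x z : F, x ^ 2 + τ * x * z + z ^ 2 = -1 := by
  have h2F : (2 : F) ≠ 0 := by
    intro h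
    have hc : ringChar F = 2 := by
      have : CharP F 2 := CharTwo.of_one_ne_zero_of_two_eq_zero one_ne_zero h
      exact ringChar.eq F 2
    have := FiniteField.even_card_of_char_two hc
    rcases hF with ⟨k, hk⟩
    omega
  have h4F : (4 : F) ≠ 0 := by
    have : (4 : F) = 2 * 2 := by norm_num
    rw [this]
    exact mul_ne_zero h2F h2F
  have hδ : (1 - τ ^ 2 / 4 : F) ≠ 0 := by
    intro h
    apply hτ
    field_simp at h
    linear_combination -h
  have hf : degree (X ^ 2 : F[X]) = 2 := degree_X_pow 2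
  have hg : degree (C (1 - τ ^ 2 / 4) * X ^ 2 + C 0 * X + C 1 : F[X]) = 2 := degree_quadratic hδ
  obtain ⟨a, b, hab⟩ := FiniteField.exists_root_sum_quadratic hf hg (Nat.odd_iff.mp hF)
  simp only [eval_pow, eval_X, eval_add, eval_mul, eval_C, zero_mul, add_zero] at hab
  refine ⟨a - τ * b / 2, b, ?_⟩
  field_simp
  field_simp at hab
  linear_combination hab

/-- For q odd, the Sylow 2-subgroups of SL_2(q) are generalised quaternion. -/
theorem result {F : Type*} [Field F] [Fintype F] (hF : Odd (Fintype.card F)) (P : Sylow 2 (Matrix.SpecialLinearGroup (Fin 2) F)) : ∃ k : ℕ, 1 ≤ k ∧ Nonempty ((P : Subgroup (Matrix.SpecialLinearGroup (Fin 2) F)) ≃* QuaternionGroup (2 ^ k)) := by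
  classical
  have hF' := hF
  obtain ⟨t, ht⟩ := hF
  have hcardG : Nat.card (Matrix.SpecialLinearGroup (Fin 2) F) =
      Fintype.card F * (Fintype.card F ^ 2 - 1) := H7.card_SL2
  set m := (Nat.card (Matrix.SpecialLinearGroup (Fin 2) F)).factorization 2 with hm
  have hcardP : Nat.card (P : Subgroup (Matrix.SpecialLinearGroup (Fin 2) F)) = 2 ^ m :=
    Sylow.card_eq_multiplicity P
  have hG0 : Nat.card (Matrix.SpecialLinearGroup (Fin 2) F) ≠ 0 := Nat.card_pos.ne'
  have hfac : Fintype.card F ^ 2 - 1 = (Fintype.card F - 1) * (Fintype.card F + 1) := by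
    rw [ht]
    have : (2 * t + 1) ^ 2 - 1 = (2 * t) * (2 * t + 1 + 1) := by
      have h1 : (2 * t + 1) ^ 2 = (2 * t) * (2 * t + 1 + 1) + 1 := by ring
      omega
    rw [this]
    congr 1
  have h8 : 2 ^ 3 ∣ Nat.card (Matrix.SpecialLinearGroup (Fin 2) F) := by
    rw [hcardG, hfac, ht]
    obtain ⟨s, hs⟩ := (Nat.even_mul_succ_self t).two_dvd
    have h1 : (2 * t + 1 - 1) * (2 * t + 1 + 1) = 2 ^ 3 * s := by
      have : 2 * t + 1 - 1 = 2 * t := by omega
      rw [this]
      have : 2 * t * (2 * t + 1 + 1) = 4 * (t * (t + 1)) := by ring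
      rw [this, hs]
      ring
    rw [h1]
    exact ⟨(2 * t + 1) * s, by ring⟩
  have hm3 : 3 ≤ m := (Nat.Prime.pow_dvd_iff_le_factorization Nat.prime_two hG0).mp h8
  have hdvdG : 2 ^ m ∣ Fintype.card F * (Fintype.card F ^ 2 - 1) := by
    rw [← hcardG]; exact Nat.ordProj_dvd _ _
  have hcop : Nat.Coprime (2 ^ m) (Fintype.card F) :=
    Nat.Coprime.pow_left m (Nat.coprime_two_left.mpr hF')
  have hdvd2 : 2 ^ m ∣ Fintype.card F ^ 2 - 1 := hcop.dvd_of_dvd_mul_left hdvdG
  have hm' : 2 ^ m = 2 * 2 ^ (m - 1) := by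
    rw [← pow_succ']; congr 1; omega
  have hdvd3 : 2 ^ (m - 1) ∣ Fintype.card F - 1 ∨ 2 ^ (m - 1) ∣ Fintype.card F + 1 := by
    rcases Nat.even_or_odd t with hte | hto
    · left
      have h1 : (Fintype.card F - 1) * (Fintype.card F + 1) =
          2 * ((Fintype.card F - 1) * (t + 1)) := by
        have : Fintype.card F + 1 = 2 * (t + 1) := by omega
        rw [this]; ring
      rw [hfac, h1, hm'] at hdvd2
      have h2 : 2 ^ (m - 1) ∣ (Fintype.card F - 1) * (t + 1) :=
        Nat.dvd_of_mul_dvd_mul_left (by norm_num) hdvd2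
      have hc : Nat.Coprime (2 ^ (m - 1)) (t + 1) :=
        Nat.Coprime.pow_left _ (Nat.coprime_two_left.mpr hte.add_one)
      exact hc.dvd_of_dvd_mul_right h2
    · right
      have h1 : (Fintype.card F - 1) * (Fintype.card F + 1) =
          2 * (t * (Fintype.card F + 1)) := by
        have : Fintype.card F - 1 = 2 * t := by omega
        rw [this]; ring
      rw [hfac, h1, hm'] at hdvd2
      have h2 : 2 ^ (m - 1) ∣ t * (Fintype.card F + 1) :=
        Nat.dvd_of_mul_dvd_mul_left (by norm_num) hdvd2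
      have hc : Nat.Coprime (2 ^ (m - 1)) t :=
        Nat.Coprime.pow_left _ (Nat.coprime_two_left.mpr hto)
      exact hc.dvd_of_dvd_mul_left h2
  obtain ⟨k, hk⟩ : ∃ k, m = k + 2 := ⟨m - 2, by omega⟩
  have hk1 : 1 ≤ k := by omega
  have hn2 : 2 ≤ 2 ^ k := by
    calc 2 = 2 ^ 1 := (pow_one 2).symm
      _ ≤ 2 ^ k := Nat.pow_le_pow_right (by norm_num) hk1
  have hmk : 2 ^ (m - 1) = 2 * 2 ^ k := by
    rw [← pow_succ']; congr 1; omega
  have hm3' : 3 ≤ 2 ^ (m - 1) := by rw [hmk]; omega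
  obtain ⟨τ, hτ, hord⟩ := H7.exists_slComp_orderOf (F := F) (2 ^ (m - 1)) hm3' hdvd3
  rw [hmk] at hord
  obtain ⟨x, z, hxz⟩ := exists_norm_neg_one hF' τ hτ
  let w : Matrix.SpecialLinearGroup (Fin 2) F :=
    ⟨!![x, τ * x + z; z, -x], by rw [Matrix.det_fin_two_of]; linear_combination -hxz⟩
  have hw : w * w = (H7.slComp τ) ^ (2 ^ k) := by
    have h1 : (H7.slComp τ) ^ (2 ^ k) ≠ 1 := by
      intro h
      have h2 := orderOf_dvd_of_pow_eq_one h
      rw [hord] at h2
      have := Nat.le_of_dvd (by positivity) h2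
      omega
    have h2 : (H7.slComp τ) ^ (2 ^ k) * (H7.slComp τ) ^ (2 ^ k) = 1 := by
      rw [← pow_add, ← two_mul, ← hord]; exact pow_orderOf_eq_one _
    have h3 := Cfsg.Agent.S0268.result hF' _ h1 h2
    apply Subtype.ext
    rw [h3, Matrix.SpecialLinearGroup.coe_mul]
    ext i j
    fin_cases i <;> fin_cases j
    · simp [w, Matrix.mul_apply, Fin.sum_univ_two]
      linear_combination hxz
    · simp [w, Matrix.mul_apply, Fin.sum_univ_two]
      ring
    · simp [w, Matrix.mul_apply, Fin.sum_univ_two]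
      ring
    · simp [w, Matrix.mul_apply, Fin.sum_univ_two]
      linear_combination hxz
  have hcw : H7.slComp τ * w = w * (H7.slComp τ)⁻¹ := by
    rw [eq_mul_inv_iff_mul_eq]
    apply Subtype.ext
    rw [Matrix.SpecialLinearGroup.coe_mul, Matrix.SpecialLinearGroup.coe_mul]
    ext i j
    fin_cases i <;> fin_cases j <;>
      simp [w, H7.slComp, Matrix.mul_apply, Fin.sum_univ_two] <;> ring
  obtain ⟨φ, hφ⟩ := H7.exists_quaternion_hom (2 ^ k) hn2 (H7.slComp τ) w hord hw hcw
  have hcardR : Nat.card φ.range = 2 ^ m := by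
    rw [Nat.card_congr (MonoidHom.ofInjective hφ).symm.toEquiv, Nat.card_eq_fintype_card,
      QuaternionGroup.card, hk]
    ring
  let Q : Sylow 2 (Matrix.SpecialLinearGroup (Fin 2) F) :=
    Sylow.ofCard φ.range (by rw [hcardR])
  obtain ⟨g, hg⟩ := H7.sylow_exists_conj P Q
  have hiso : (P : Subgroup (Matrix.SpecialLinearGroup (Fin 2) F)) ≃* φ.range :=
    { H7.conjEquivSub g _ _ hg with
      map_mul' := by
        intro a b
        apply Subtype.ext
        show g⁻¹ * (a.1 * b.1) * g = (g⁻¹ * a.1 * g) * (g⁻¹ * b.1 * g)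
        group }
  exact ⟨k, hk1, ⟨hiso.trans (MonoidHom.ofInjective hφ).symm⟩⟩

end Cfsg.Agent.S0261
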