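import Mathlib
import Cfsg.Statements.S0262
import Cfsg.Agent.H7.SL2Order

set_option autoImplicit false
open Cfsg

namespace Cfsg.Agent.S0262

/-- For an odd prime r different from the characteristic, the Sylow r-subgroups of SL_2(q) are cyclic. -/
theorem result {F : Type*} [Field F] [Fintype F] (p : ℕ) [Fact p.Prime] [CharP F p] (r : ℕ) [Fact r.Prime] (hr : r ≠ 2) (hrp : r ≠ p) (R : Sylow r (Matrix.SpecialLinearGroup (Fin 2) F)) : IsCyclic (R : Subgroup (Matrix.SpecialLinearGroup (Fin 2) F)) := by
  have hpP : p.Prime := Fact.out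
  have hrP : r.Prime := Fact.out
  obtain ⟨k, hk0, hk⟩ := H7.card_field_eq_prime_pow F p
  have hq1 : 1 < Fintype.card F := Fintype.one_lt_card
  have hcardG : Nat.card (Matrix.SpecialLinearGroup (Fin 2) F) =
      Fintype.card F * (Fintype.card F ^ 2 - 1) := H7.card_SL2
  set e := (Nat.card (Matrix.SpecialLinearGroup (Fin 2) F)).factorization r with he
  have hcardR : Nat.card (R : Subgroup (Matrix.SpecialLinearGroup (Fin 2) F)) = r ^ e :=
    Sylow.card_eq_multiplicity R
  by_cases he0 : e = 0
  · rw [he0, pow_zero] at hcardR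
    haveI : Subsingleton (R : Subgroup (Matrix.SpecialLinearGroup (Fin 2) F)) :=
      (Nat.card_eq_one_iff_unique.mp hcardR).1
    exact isCyclic_of_subsingleton
  · have hdvdG : r ^ e ∣ Fintype.card F * (Fintype.card F ^ 2 - 1) := by
      rw [← hcardG]; exact Nat.ordProj_dvd _ _
    have hcop : Nat.Coprime (r ^ e) (Fintype.card F) := by
      rw [hk]
      apply Nat.Coprime.pow
      exact (Nat.coprime_primes hrP hpP).mpr hrp
    have hdvd2 : r ^ e ∣ Fintype.card F ^ 2 - 1 := hcop.dvd_of_dvd_mul_left hdvdG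
    have hfac : Fintype.card F ^ 2 - 1 = (Fintype.card F - 1) * (Fintype.card F + 1) := by
      have h1 : 1 ≤ Fintype.card F := by omega
      zify [h1, Nat.one_le_pow 2 _ h1]
      ring
    rw [hfac] at hdvd2
    have hm3 : 3 ≤ r ^ e := by
      have h2 : 2 ≤ r := hrP.two_le
      have h3 : 3 ≤ r := by omega
      calc 3 ≤ r := h3
        _ = r ^ 1 := (pow_one r).symm
        _ ≤ r ^ e := Nat.pow_le_pow_right (by omega) (by omega)
    have hdvd3 : r ^ e ∣ Fintype.card F - 1 ∨ r ^ e ∣ Fintype.card F + 1 := by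
      by_cases h1 : r ∣ Fintype.card F + 1
      · right
        have h2 : ¬ r ∣ Fintype.card F - 1 := by
          intro h3
          have h4 : r ∣ (Fintype.card F + 1) - (Fintype.card F - 1) := Nat.dvd_sub h1 h3
          have h5 : (Fintype.card F + 1) - (Fintype.card F - 1) = 2 := by omega
          rw [h5] at h4
          exact hr ((Nat.prime_dvd_prime_iff_eq hrP Nat.prime_two).mp h4)
        have hc : Nat.Coprime (r ^ e) (Fintype.card F - 1) :=
          Nat.Coprime.pow_left e ((Nat.Prime.coprime_iff_not_dvd hrP).mpr h2)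
        exact hc.dvd_of_dvd_mul_left hdvd2
      · left
        have hc : Nat.Coprime (r ^ e) (Fintype.card F + 1) :=
          Nat.Coprime.pow_left e ((Nat.Prime.coprime_iff_not_dvd hrP).mpr h1)
        exact hc.dvd_of_dvd_mul_right hdvd2
    obtain ⟨τ, -, hord⟩ := H7.exists_slComp_orderOf (F := F) (r ^ e) hm3 hdvd3
    have hcardZ : Nat.card (Subgroup.zpowers (H7.slComp τ)) = r ^ e := by
      rw [Nat.card_zpowers, hord]
    let Q : Sylow r (Matrix.SpecialLinearGroup (Fin 2) F) :=
      Sylow.ofCard (Subgroup.zpowers (H7.slComp τ)) (by rw [hcardZ])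
    obtain ⟨g, hg⟩ := H7.sylow_exists_conj R Q
    have hiso : (R : Subgroup (Matrix.SpecialLinearGroup (Fin 2) F)) ≃*
        Subgroup.zpowers (H7.slComp τ) :=
      { H7.conjEquivSub g _ _ hg with
        map_mul' := by
          intro a b
          apply Subtype.ext
          show g⁻¹ * (a.1 * b.1) * g = (g⁻¹ * a.1 * g) * (g⁻¹ * b.1 * g)
          group }
    exact isCyclic_of_surjective hiso.symm hiso.symm.surjective

end Cfsg.Agent.S0262
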