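import Cfsg.Statements.S0778

set_option autoImplicit false
open Cfsg

namespace Cfsg.Agent.S0778

open Matrix

variable {F : Type*} [Field F] (m : ℕ)

theorem levi_mem (X : Matrix.GeneralLinearGroup (Fin m) F) :
    Matrix.fromBlocks (X : Matrix (Fin m) (Fin m) F) 0 0
      ((X : Matrix (Fin m) (Fin m) F)⁻¹)ᵀ ∈ Matrix.symplecticGroup (Fin m) F := by
  rw [SymplecticGroup.fromBlocks_mem_iff]
  refine ⟨by simp, by simp, ?_⟩
  have hdet : IsUnit (X : Matrix (Fin m) (Fin m) F).det :=
    (Matrix.isUnit_iff_isUnit_det _).mp X.isUnit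
  rw [← Matrix.transpose_mul, Matrix.nonsing_inv_mul _ hdet]
  simp

/-- The Levi embedding `X ↦ diag(X, X⁻ᵀ)`. -/
noncomputable def leviHom : Matrix.GeneralLinearGroup (Fin m) F →* Matrix.symplecticGroup (Fin m) F where
  toFun X := ⟨Matrix.fromBlocks (X : Matrix (Fin m) (Fin m) F) 0 0
      ((X : Matrix (Fin m) (Fin m) F)⁻¹)ᵀ, levi_mem m X⟩
  map_one' := by
    apply Subtype.ext
    simp [Matrix.fromBlocks_one]
  map_mul' X Y := by
    apply Subtype.ext
    simp only [Submonoid.coe_mul, Units.val_mul, Matrix.fromBlocks_multiply]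
    congr 1
    · simp
    · simp
    · simp
    · simp only [Matrix.zero_mul, zero_add]
      rw [Matrix.mul_inv_rev, Matrix.transpose_mul]

theorem leviHom_injective : Function.Injective (leviHom (F := F) m) := by
  intro X Y h
  have h1 := congrArg (fun A : Matrix.symplecticGroup (Fin m) F =>
    (A : Matrix (Fin m ⊕ Fin m) (Fin m ⊕ Fin m) F).toBlocks₁₁) h
  simp only [leviHom, MonoidHom.coe_mk, OneHom.coe_mk, Matrix.toBlocks_fromBlocks₁₁] at h1
  exact Units.ext h1

theorem leviHom_range :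
    (leviHom (F := F) m).range =
      Cfsg.stabilizing (Cfsg.spToMat m F) {v : Fin m ⊕ Fin m → F | ∀ i : Fin m, v (Sum.inr i) = 0} ⊓
      Cfsg.stabilizing (Cfsg.spToMat m F) {v : Fin m ⊕ Fin m → F | ∀ i : Fin m, v (Sum.inl i) = 0} := by
  ext A
  constructor
  · rintro ⟨X, rfl⟩
    have hdet : IsUnit (X : Matrix (Fin m) (Fin m) F).det :=
      (Matrix.isUnit_iff_isUnit_det _).mp X.isUnit
    have hdet' : IsUnit ((X : Matrix (Fin m) (Fin m) F)⁻¹)ᵀ.det := by
      rw [Matrix.det_transpose]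
      exact Matrix.isUnit_nonsing_inv_det _ hdet
    constructor
    · intro v
      show (∀ i : Fin m, v (Sum.inr i) = 0) ↔
        ∀ i : Fin m, (Matrix.fromBlocks (X : Matrix (Fin m) (Fin m) F) 0 0
          ((X : Matrix (Fin m) (Fin m) F)⁻¹)ᵀ *ᵥ v) (Sum.inr i) = 0
      simp only [Matrix.fromBlocks_mulVec, Sum.elim_inr, Matrix.zero_mulVec, zero_add]
      constructor
      · intro h i
        have : v ∘ Sum.inr = 0 := funext h
        rw [this]
        simp
      · intro h i
        have h0 : ((X : Matrix (Fin m) (Fin m) F)⁻¹)ᵀ *ᵥ (v ∘ Sum.inr) = 0 := funext h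
        have h1 : v ∘ Sum.inr = 0 := by
          have := congrArg (fun w => (((X : Matrix (Fin m) (Fin m) F)⁻¹)ᵀ)⁻¹ *ᵥ w) h0
          simp only [Matrix.mulVec_mulVec, Matrix.nonsing_inv_mul _ hdet', Matrix.one_mulVec,
            Matrix.mulVec_zero] at this
          exact this
        exact congrFun h1 i
    · intro v
      show (∀ i : Fin m, v (Sum.inl i) = 0) ↔
        ∀ i : Fin m, (Matrix.fromBlocks (X : Matrix (Fin m) (Fin m) F) 0 0
          ((X : Matrix (Fin m) (Fin m) F)⁻¹)ᵀ *ᵥ v) (Sum.inl i) = 0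
      simp only [Matrix.fromBlocks_mulVec, Sum.elim_inl, Matrix.zero_mulVec, add_zero]
      constructor
      · intro h i
        have : v ∘ Sum.inl = 0 := funext h
        rw [this]
        simp
      · intro h i
        have h0 : (X : Matrix (Fin m) (Fin m) F) *ᵥ (v ∘ Sum.inl) = 0 := funext h
        have h1 : v ∘ Sum.inl = 0 := by
          have := congrArg (fun w => ((X : Matrix (Fin m) (Fin m) F))⁻¹ *ᵥ w) h0
          simp only [Matrix.mulVec_mulVec, Matrix.nonsing_inv_mul _ hdet, Matrix.one_mulVec,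
            Matrix.mulVec_zero] at this
          exact this
        exact congrFun h1 i
  · rintro ⟨hW, hU⟩
    classical
    set M : Matrix (Fin m ⊕ Fin m) (Fin m ⊕ Fin m) F := (A : Matrix (Fin m ⊕ Fin m) (Fin m ⊕ Fin m) F) with hM
    have h21 : M.toBlocks₂₁ = 0 := by
      ext i j
      have := (hW (Pi.single (Sum.inl j) 1)).mp (by
        intro k
        simp [Pi.single_apply]) i
      have h2 : (M *ᵥ (Pi.single (Sum.inl j) 1)) (Sum.inr i) = M (Sum.inr i) (Sum.inl j) := by
        rw [Matrix.mulVec_single_one]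
        rfl
      rw [Matrix.toBlocks₂₁]
      simp only [Matrix.of_apply, Matrix.zero_apply]
      rw [← h2]
      exact this
    have h12 : M.toBlocks₁₂ = 0 := by
      ext i j
      have := (hU (Pi.single (Sum.inr j) 1)).mp (by
        intro k
        simp [Pi.single_apply]) i
      have h2 : (M *ᵥ (Pi.single (Sum.inr j) 1)) (Sum.inl i) = M (Sum.inl i) (Sum.inr j) := by
        rw [Matrix.mulVec_single_one]
        rfl
      rw [Matrix.toBlocks₁₂]
      simp only [Matrix.of_apply, Matrix.zero_apply]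
      rw [← h2]
      exact this
    have hMeq : M = Matrix.fromBlocks M.toBlocks₁₁ 0 0 M.toBlocks₂₂ := by
      conv_lhs => rw [← Matrix.fromBlocks_toBlocks M, h12, h21]
    have hmem : Matrix.fromBlocks M.toBlocks₁₁ 0 0 M.toBlocks₂₂ ∈ Matrix.symplecticGroup (Fin m) F := by
      rw [← hMeq]
      exact A.2
    rw [SymplecticGroup.fromBlocks_mem_iff] at hmem
    obtain ⟨-, -, h3⟩ := hmem
    simp only [Matrix.transpose_zero, Matrix.zero_mul, sub_zero] at h3
    have hdet : M.toBlocks₁₁.det ≠ 0 := by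
      intro h0
      have := congrArg Matrix.det h3
      rw [Matrix.det_mul, Matrix.det_transpose, h0] at this
      simp at this
    have h22 : M.toBlocks₂₂ = (M.toBlocks₁₁⁻¹)ᵀ := by
      rw [Matrix.transpose_nonsing_inv]
      exact (Matrix.inv_eq_right_inv h3).symm
    refine ⟨Matrix.GeneralLinearGroup.mkOfDetNeZero M.toBlocks₁₁ hdet, ?_⟩
    apply Subtype.ext
    show Matrix.fromBlocks M.toBlocks₁₁ 0 0 (M.toBlocks₁₁⁻¹)ᵀ = M
    rw [← h22]
    exact hMeq.symm

/-- The elements of Sp_2m(F) stabilising both W = ⟨e_1..e_m⟩ and U = ⟨f_1..f_m⟩ form a subgroup isomorphic to GL_m(F) (block-diagonal matrices diag(X, X^(−ᵀ)) up to the sign convention of J), for m ≥ 1 or m = 0 alike. -/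
theorem result {F : Type*} [Field F] (m : ℕ) : Nonempty (↥(Cfsg.stabilizing (Cfsg.spToMat m F) {v : Fin m ⊕ Fin m → F | ∀ i : Fin m, v (Sum.inr i) = 0} ⊓ Cfsg.stabilizing (Cfsg.spToMat m F) {v : Fin m ⊕ Fin m → F | ∀ i : Fin m, v (Sum.inl i) = 0}) ≃* Matrix.GeneralLinearGroup (Fin m) F) := by
  refine ⟨((MonoidHom.ofInjective (leviHom_injective m)).trans
    (MulEquiv.subgroupCongr (leviHom_range m))).symm⟩

end Cfsg.Agent.S0778
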