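import Cfsg.Statements.S1078
import Cfsg.Agent.H46.StAll
import Cfsg.Agent.H46.StMain2
import Cfsg.Agent.H46.StUnimod
import Cfsg.Agent.S1025

set_option autoImplicit false
open Cfsg

namespace Cfsg.Agent.S1078

/-- For G₂, F₄, E₈ the presented group has trivial centre (the universal and adjoint groups coincide). -/
theorem result {K : Type*} [Field K] (D : Cfsg.Lie.ChevalleyDatum) (hD : D ∈ [Cfsg.Lie.chevG2, Cfsg.Lie.chevF4, Cfsg.Lie.chevE8]) :
    Subgroup.center (D.SteinbergGroup K) = ⊥ := by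
  simp only [List.mem_cons, List.not_mem_nil, or_false] at hD
  rcases hD with rfl | rfl | rfl
  · have hpk := H46.packSt_G2 K
    exact H46.steinberg_center_bot hpk.tab hpk.hP hpk.hV hpk.tabW
      (fun r s hr hs h1 h2 t u => Cfsg.Agent.S1025.result Cfsg.Lie.chevG2 (by simp) r s hr hs h1 h2 t u)
      H46.unimod_G2
  · have hpk := H46.packSt_F4 K
    exact H46.steinberg_center_bot hpk.tab hpk.hP hpk.hV hpk.tabW
      (fun r s hr hs h1 h2 t u => Cfsg.Agent.S1025.result Cfsg.Lie.chevF4 (by simp) r s hr hs h1 h2 t u)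
      H46.unimod_F4
  · have hpk := H46.packSt_E8 K
    exact H46.steinberg_center_bot hpk.tab hpk.hP hpk.hV hpk.tabW
      (fun r s hr hs h1 h2 t u => Cfsg.Agent.S1025.result Cfsg.Lie.chevE8 (by simp) r s hr hs h1 h2 t u)
      H46.unimod_E8

end Cfsg.Agent.S1078
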