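import Cfsg.Statements.S2160
import Cfsg.Agent.H23.Gens
-- import your own Cfsg.Agent.* helpers here

set_option autoImplicit false
open Cfsg

namespace Cfsg.Agent.S2160

/-- In a Chevalley group of type G₂, B₂, D₄, F₄, E₆, E₇ or E₈ over a finite field, every field automorphism commutes with every graph automorphism. -/
theorem result {F : Type*} [Field F] [Finite F] (D : Cfsg.Lie.ChevalleyDatum) (hD : D ∈ [Cfsg.Lie.chevG2, Cfsg.Lie.chevB2, Cfsg.Lie.chevD4, Cfsg.Lie.chevF4, Cfsg.Lie.chevE6, Cfsg.Lie.chevE7, Cfsg.Lie.chevE8]) (f g : ↥(D.group F) ≃* ↥(D.group F))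
    (hf : D.IsFieldAut f) (hg : D.IsGraphAut g) (y : ↥(D.group F)) : f (g y) = g (f y) := by
  obtain ⟨z, η, w, rT, par, dep, hP⟩ := Cfsg.Agent.H23.packF_all (F := F) D hD
  have hS := hP.packB.sem
  have hN := hP.packB.semN
  have hT := hP.packB.tab
  obtain ⟨σ, hσ⟩ := hf
  obtain ⟨π, -, hg⟩ := hg
  have key : f.toMonoidHom.comp g.toMonoidHom = g.toMonoidHom.comp f.toMonoidHom := by
    apply Cfsg.Agent.H23.hom_ext_fund hS hN hT
    intro k i t hi hk
    show f (g k) = g (f k)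
    apply Subtype.ext
    apply Units.ext
    rcases hk with hk | hk
    · have h1 := (hg k ⟨i, hi⟩ t).1 hk
      have h2 := hσ _ _ _ (hT.simple_lt _ (π ⟨i, hi⟩).isLt) h1
      have h3 := hσ k _ t (hT.simple_lt i hi) hk
      have h4 := (hg _ ⟨i, hi⟩ (σ t)).1 h3
      rw [h2, h4, map_pow]
    · have h1 := (hg k ⟨i, hi⟩ t).2 hk
      have h2 := hσ _ _ _ (hT.neg_lt _ (hT.simple_lt _ (π ⟨i, hi⟩).isLt)) h1
      have h3 := hσ k _ t (hT.neg_lt _ (hT.simple_lt i hi)) hk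
      have h4 := (hg _ ⟨i, hi⟩ (σ t)).2 h3
      rw [h2, h4, map_pow]
  exact DFunLike.congr_fun key y

end Cfsg.Agent.S2160
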