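import Cfsg.Statements.S0750
import Cfsg.Agent.H17.Witt

set_option autoImplicit false
open Cfsg

namespace Cfsg.Agent.S0750

/-- Witt's Lemma for quadratic forms over a finite field, in any characteristic: if Q is a quadratic form on a finite-dimensional space V whose polar bilinear form is non-degenerate, then every linear equivalence between subspaces X, Y of V that preserves Q extends to a Q-preserving linear automorphism of V. (In odd characteristic this is the symmetric-bilinear case; in characteristic two it is the statement for non-degenerate quadratic forms.) -/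
theorem result {F V : Type*} [Field F] [Finite F] [AddCommGroup V] [Module F V] [FiniteDimensional F V] (Q : QuadraticForm F V) (hQ : (QuadraticMap.polarBilin Q).Nondegenerate) (X Y : Submodule F V) (φ : X ≃ₗ[F] Y) (hφ : ∀ x : X, Q (φ x : V) = Q (x : V)) : ∃ g : V ≃ₗ[F] V, (∀ v : V, Q (g v) = Q v) ∧ ∀ x : X, g (x : V) = (φ x : V) := by
  obtain ⟨f, hf⟩ := LinearMap.exists_extend (Y.subtype ∘ₗ (φ : X →ₗ[F] Y))
  have hfx : ∀ x : X, f (x : V) = (φ x : V) := by
    intro x
    have := congrArg (fun l : X →ₗ[F] V => l x) hf
    simpa using this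
  obtain ⟨g, hg, hgX⟩ := Cfsg.Agent.H17.witt_quad Q hQ X f
    (fun x hx => by
      have := hfx ⟨x, hx⟩
      simp only at this
      rw [this]
      exact hφ ⟨x, hx⟩)
    (fun x hx h0 => by
      have h1 := hfx ⟨x, hx⟩
      simp only at h1
      rw [h0] at h1
      have h2 : φ ⟨x, hx⟩ = 0 := Subtype.ext h1.symm
      have h3 : (⟨x, hx⟩ : X) = 0 := by simpa using h2
      exact congrArg Subtype.val h3)
  refine ⟨g, hg, fun x => ?_⟩
  rw [hgX x x.2, hfx]

end Cfsg.Agent.S0750
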