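import Cfsg.Statements.S4437
import Cfsg.Agent.H80.ExtMain

set_option autoImplicit false
open Cfsg Cfsg.Agent.H80 Cfsg.Agent.H20 Cfsg.Agent.H4

namespace Cfsg.Agent.S4437

/-- Let P be a p-subgroup of the finite group G, H = P·C_G(P), and b a block of H (relative to a maximal ideal M of the algebraic integers containing p) having P as a defect group; let B be the block of G induced by b. Let T be the stabilizer of b in N_G(P): the elements g of N_G(P) such that the g-conjugate of every member of b is again a member of b. Then B has defect group P if and only if p does not divide the index of H in T. -/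
theorem result {G : Type*} [Group G] [Fintype G] (p : ℕ) [Fact p.Prime] (M : Ideal Cfsg.AlgInt) (hM : Cfsg.IsPModular p M) (P : Subgroup G) (hP : IsPGroup p P) (H : Subgroup G) [Fintype H] (hH : H = P ⊔ Subgroup.centralizer (P : Set G)) (b : Set (Cfsg.IrrCharacter H)) (hb : Cfsg.IsPBlock M b) (hbP : Cfsg.IsDefectGroup p M b (P.subgroupOf H)) (B : Set (Cfsg.IrrCharacter G)) (hind : Cfsg.IsInducedBlock M H b B) (T : Subgroup G) (hT : ∀ g : G, g ∈ T ↔ (g ∈ Subgroup.normalizer (P : Set G) ∧ ∀ θ ∈ b, ∀ θ' : Cfsg.IrrCharacter H, (∀ h h' : H, (h' : G) = g * h * g⁻¹ → (θ' : H → ℂ) h' = (θ : H → ℂ) h) → θ' ∈ b)) : Cfsg.IsDefectGroup p M B P ↔ ¬ p ∣ H.relIndex T := by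
  have hPH : P ≤ H := by rw [hH]; exact le_sup_left
  have hmap : (P.subgroupOf H).map H.subtype = P := Subgroup.map_subgroupOf_eq_of_le hPH
  have key := isDefectGroup_iff_not_dvd_relIndex p hM H (P.subgroupOf H) hP.comap_subtype
    (by rw [hmap]; exact hH) hb hbP hind T (by rw [hmap]; exact hT)
  rw [hmap] at key
  exact key

end Cfsg.Agent.S4437
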