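import Cfsg.Statements.S4682
import Cfsg.Agent.H80.AbelDefect

set_option autoImplicit false
open Cfsg Cfsg.Agent.H80 Cfsg.Agent.H20 Cfsg.Agent.H4

namespace Cfsg.Agent.S4682

/-- Fix a prime p and a maximal ideal M of the algebraic integers containing p, a p-block B of the finite group G with maximal Brauer pair (P, e), P abelian, and a Brauer pair (Q, f) ≤ (P, e). Let T_Q be the stabilizer of f in N_G(Q) and T_P the stabilizer of e in N_G(P). Then every element of T_Q is a product of an element of T_P and an element of C_G(Q); and the index of C_G(Q) in T_Q equals the index of T_P ∩ C_G(Q) in T_P ∩ N_G(Q). -/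
theorem result {G : Type*} [Group G] [Fintype G] (p : ℕ) [Fact p.Prime] (M : Ideal Cfsg.AlgInt) (hM : Cfsg.IsPModular p M) (B : Set (Cfsg.IrrCharacter G)) (P : Subgroup G) (e : Set (Cfsg.IrrCharacter (Subgroup.centralizer (P : Set G)))) (hmax : Cfsg.IsMaximalBrauerPair p M B P e) (hab : ∀ x ∈ P, ∀ y ∈ P, x * y = y * x) (Q : Subgroup G) (f : Set (Cfsg.IrrCharacter (Subgroup.centralizer (Q : Set G)))) (hQP : Q ≤ P) (hf : Cfsg.IsPBlock M f) (hle : Cfsg.SubpairLE p M Q f P e) (TQ : Subgroup G) (hTQ : ∀ y : G, y ∈ TQ ↔ y ∈ Subgroup.normalizer (Q : Set G) ∧ Cfsg.StabilizesBlock (Subgroup.centralizer (Q : Set G)) f y) (TP : Subgroup G) (hTP : ∀ y : G, y ∈ TP ↔ y ∈ Subgroup.normalizer (P : Set G) ∧ Cfsg.StabilizesBlock (Subgroup.centralizer (P : Set G)) e y) : (∀ x ∈ TQ, ∃ y ∈ TP, ∃ c ∈ Subgroup.centralizer (Q : Set G), x = y * c) ∧ ((Subgroup.centralizer (Q : Set G)).subgroupOf TQ).index = ((TP ⊓ Subgroup.centralizer (Q : Set G)).subgroupOf (TP ⊓ Subgroup.normalizer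 (Q : Set G))).index := by
  classical
  have hMp := isPrime_of_isPModular hM
  have hPe := hmax.1.1
  have hPC : P ≤ Subgroup.centralizer (Q : Set G) := by
    intro x hx
    rw [Subgroup.mem_centralizer_iff]
    intro q hq
    exact hab q (hQP hq) x hx
  have part1 : ∀ x ∈ TQ, ∃ y ∈ TP, ∃ c ∈ Subgroup.centralizer (Q : Set G), x = y * c := by
    intro x hx
    obtain ⟨hxN, hxst⟩ := (hTQ x).mp hx
    have hmax' := isMaximal_conjPair p hmax x
    have hle' : Relation.ReflTransGen (NormalSubpairRel p M) ⟨Q, f⟩ (conjPair x ⟨P, e⟩) := by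
      have h1 := subpairLE_conj p x hle
      rw [conjPair_eq_of_stab hMp hf hxN hxst] at h1
      exact h1
    have hPC' : (conjPair x ⟨P, e⟩).1 ≤ Subgroup.centralizer (Q : Set G) := by
      rintro _ ⟨q, hq, rfl⟩
      rw [Subgroup.mem_centralizer_iff]
      intro r hr
      show r * (x * q * x⁻¹) = x * q * x⁻¹ * r
      have hr' : x⁻¹ * r * x ∈ Q := by
        have := (Subgroup.mem_normalizer_iff.mp (inv_mem hxN) r).mp hr
        simpa using this
      have h1 := hab _ (hQP hr') q hq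
      calc r * (x * q * x⁻¹) = x * ((x⁻¹ * r * x) * q) * x⁻¹ := by group
        _ = x * (q * (x⁻¹ * r * x)) * x⁻¹ := by rw [h1]
        _ = x * q * x⁻¹ * r := by group
    obtain ⟨c, hc, hcc⟩ :=
      exists_centralizer_conj_of_maximal p hM hmax _ hmax' hf hle hle' hPC hPC'
    rw [conjPair_mul] at hcc
    obtain ⟨hyN, hyst⟩ := stab_of_conjPair_eq hMp hPe.2 hcc
    have hyNQ : c * x ∈ Subgroup.normalizer (Q : Set G) :=
      mul_mem (Subgroup.centralizer_le_normalizer _ hc) hxN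
    refine ⟨c * x, (hTP _).mpr ⟨hyN, hyst⟩, (c * x)⁻¹ * c⁻¹ * (c * x), ?_, by group⟩
    have h2 := normalizer_le_normalizer_centralizer Q (inv_mem hyNQ)
    have h3 := (Subgroup.mem_normalizer_iff.mp h2 c⁻¹).mp (inv_mem hc)
    simpa using h3
  refine ⟨part1, ?_⟩
  have hCTQ : Subgroup.centralizer (Q : Set G) ≤ TQ := fun c hc =>
    (hTQ c).mpr ⟨Subgroup.centralizer_le_normalizer _ hc, stabilizesBlock_of_mem _ _ hc⟩
  have hATQ : TP ⊓ Subgroup.normalizer (Q : Set G) ≤ TQ := by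
    intro y hy
    obtain ⟨hyTP, hyN⟩ := Subgroup.mem_inf.mp hy
    obtain ⟨hyNP, hyst⟩ := (hTP y).mp hyTP
    refine (hTQ y).mpr ⟨hyN, ?_⟩
    have h1 := subpairLE_conj p y hle
    rw [conjPair_eq_of_stab hMp hPe.2 hyNP hyst, conjPair_of_mem_normalizer Q hyN f] at h1
    have h2 := subpairLE_unique hM _ P e rfl hPe Q _ f h1 hle
    have hyC := normalizer_le_normalizer_centralizer Q hyN
    rw [stabilizesBlock_iff hMp _ hf]
    exact ⟨hyC, by rw [← conjAut'_eq _ hyC]; exact h2⟩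
  have hAN : TP ⊓ Subgroup.normalizer (Q : Set G)
      ≤ Subgroup.normalizer ((Subgroup.centralizer (Q : Set G) : Subgroup G) : Set G) :=
    fun y hy => normalizer_le_normalizer_centralizer Q (Subgroup.mem_inf.mp hy).2
  have hT : ∀ x ∈ TQ, ∃ y ∈ TP ⊓ Subgroup.normalizer (Q : Set G),
      ∃ c ∈ Subgroup.centralizer (Q : Set G), x = y * c := by
    intro x hx
    obtain ⟨y, hy, c, hc, rfl⟩ := part1 x hx
    refine ⟨y, Subgroup.mem_inf.mpr ⟨hy, ?_⟩, c, hc, rfl⟩
    have hxN := ((hTQ _).mp hx).1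
    have := mul_mem hxN (inv_mem (Subgroup.centralizer_le_normalizer _ hc))
    simpa using this
  have h1 := relIndex_eq_of_mul (TP ⊓ Subgroup.normalizer (Q : Set G))
    (Subgroup.centralizer (Q : Set G)) TQ hATQ hCTQ hAN hT
  show (Subgroup.centralizer (Q : Set G)).relIndex TQ
    = (TP ⊓ Subgroup.centralizer (Q : Set G)).relIndex (TP ⊓ Subgroup.normalizer (Q : Set G))
  have e1 : TP ⊓ Subgroup.centralizer (Q : Set G)
      = (TP ⊓ Subgroup.normalizer (Q : Set G)) ⊓ Subgroup.centralizer (Q : Set G) := by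
    rw [inf_assoc, inf_eq_right.mpr (Subgroup.centralizer_le_normalizer _)]
  rw [h1, e1, Subgroup.inf_relIndex_left]

end Cfsg.Agent.S4682
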