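import Cfsg.Statements.S4687
import Cfsg.Agent.H80.AbelDefect
import Cfsg.Agent.S4682

set_option autoImplicit false
open Cfsg Cfsg.Agent.H80 Cfsg.Agent.H20 Cfsg.Agent.H4

namespace Cfsg.Agent.S4687

/-- Fix a prime p and a maximal ideal M of the algebraic integers containing p, and a p-block B of the finite group G with maximal Brauer pair (P, e), P abelian. Then B is nilpotent if and only if its inertial quotient is trivial: every element of N_G(P) stabilizing e centralizes P. -/
theorem result {G : Type*} [Group G] [Fintype G] (p : ℕ) [Fact p.Prime] (M : Ideal Cfsg.AlgInt) (hM : Cfsg.IsPModular p M) (B : Set (Cfsg.IrrCharacter G)) (P : Subgroup G) (e : Set (Cfsg.IrrCharacter (Subgroup.centralizer (P : Set G)))) (hmax : Cfsg.IsMaximalBrauerPair p M B P e) (hab : ∀ x ∈ P, ∀ y ∈ P, x * y = y * x) : Cfsg.IsNilpotentBlock p M B ↔ ∀ x : G, x ∈ Subgroup.normalizer (P : Set G) → Cfsg.StabilizesBlock (Subgroup.centralizer (P : Set G)) e x → x ∈ Subgroup.centralizer (P : Set G) :=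 by
  classical
  have hMp := isPrime_of_isPModular hM
  have hPe := hmax.1.1
  have hPC : P ≤ Subgroup.centralizer (P : Set G) := by
    intro x hx
    rw [Subgroup.mem_centralizer_iff]
    intro q hq
    exact hab q hq x hx
  obtain ⟨TP, hTP⟩ := exists_stabilizer' hMp P hPe.2
  constructor
  · intro hnil x hxN hxst
    have hxT : x ∈ TP := (hTP x).mpr ⟨hxN, hxst⟩
    obtain ⟨m, k, α, β, -, hv, hw, hdec⟩ := exists_pPart_decomp p x 0
    have h1 : x ^ (p ^ k) ∈ Subgroup.centralizer (P : Set G) := by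
      have hT := (hTP _).mp (pow_mem hxT (p ^ k))
      exact hnil.2 P e hmax.1 _ hT.1 hT.2 hw
    have h2 : x ^ m ∈ Subgroup.centralizer (P : Set G) := by
      have hZ : IsPGroup p (Subgroup.zpowers (x ^ m)) := by
        rintro ⟨y, hy⟩
        obtain ⟨i, rfl⟩ := Subgroup.mem_zpowers_iff.mp hy
        refine ⟨k, Subtype.ext ?_⟩
        show ((x ^ m) ^ i) ^ (p ^ k) = 1
        rw [← zpow_natCast, ← zpow_mul, mul_comm, zpow_mul, zpow_natCast, hv, one_zpow]
      have hZT : Subgroup.zpowers (x ^ m) ≤ TP := by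
        rw [Subgroup.zpowers_le]; exact pow_mem hxT m
      have h3 := le_sup_centralizer_of_maximal p hM hmax _ hZ
        (fun s hs => ((hTP s).mp (hZT hs)).1) (fun s hs => ((hTP s).mp (hZT hs)).2)
      rw [sup_eq_right.mpr hPC] at h3
      exact h3 (Subgroup.mem_zpowers _)
    rw [hdec]
    exact mul_mem (zpow_mem h2 α) (zpow_mem h1 β)
  · intro h
    refine ⟨hmax.1.2.1, ?_⟩
    intro Q' f' hQf x hxN hxst _
    obtain ⟨y, hy⟩ := exists_conj_subpairLE p hM hmax hQf
    have hle : SubpairLE p M (Q'.map (MulAut.conj y).toMonoidHom) (conjBlock Q' y f') P e := hy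
    have hQP : Q'.map (MulAut.conj y).toMonoidHom ≤ P := subpairLE_le hy
    have hf : IsPBlock M (conjBlock Q' y f') := isPBlock_conjBlock Q' y hQf.1.2
    obtain ⟨TQ, hTQ⟩ := exists_stabilizer' hMp (Q'.map (MulAut.conj y).toMonoidHom) hf
    have hx' : y * x * y⁻¹ ∈ TQ := by
      refine (hTQ _).mpr ⟨?_, stabilizesBlock_conjBlock Q' y hxst⟩
      rw [mem_normalizer_map_conj_iff]
      have e1 : y⁻¹ * (y * x * y⁻¹) * y = x := by group
      rw [e1]
      exact hxN
    obtain ⟨y₁, hy₁, c, hc, hyc⟩ :=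
      (Cfsg.Agent.S4682.result p M hM B P e hmax hab _ _ hQP hf hle TQ hTQ TP hTP).1 _ hx'
    have hy₁C : y₁ ∈ Subgroup.centralizer (P : Set G) :=
      h y₁ ((hTP y₁).mp hy₁).1 ((hTP y₁).mp hy₁).2
    have h1 : y * x * y⁻¹ ∈ Subgroup.centralizer
        ((Q'.map (MulAut.conj y).toMonoidHom : Subgroup G) : Set G) := by
      rw [hyc]
      exact mul_mem (Subgroup.centralizer_le hQP hy₁C) hc
    rw [mem_centralizer_map_conj_iff] at h1
    have e1 : y⁻¹ * (y * x * y⁻¹) * y = x := by group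
    rw [e1] at h1
    exact h1

end Cfsg.Agent.S4687
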