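import Cfsg.Statements.S0769

set_option autoImplicit false
open Cfsg

namespace Cfsg.Agent.S0769

open Matrix

/-- the lower triangular matrix with diagonal `d` and strictly lower part `s` -/
def ltMat {F : Type*} [Field F] (n : ℕ) (d : Fin n → Fˣ)
    (s : {p : Fin n × Fin n // p.2 < p.1} → F) : Matrix (Fin n) (Fin n) F :=
  Matrix.of fun i j => if h : j < i then s ⟨(i, j), h⟩ else if i = j then (d i : F) else 0

theorem ltMat_lower {F : Type*} [Field F] (n : ℕ) (d : Fin n → Fˣ)
    (s : {p : Fin n × Fin n // p.2 < p.1} → F) (i j : Fin n) (hij : i < j) :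
    ltMat n d s i j = 0 := by
  simp only [ltMat, Matrix.of_apply]
  rw [dif_neg (not_lt.mpr hij.le), if_neg hij.ne]

theorem ltMat_diag {F : Type*} [Field F] (n : ℕ) (d : Fin n → Fˣ)
    (s : {p : Fin n × Fin n // p.2 < p.1} → F) (i : Fin n) :
    ltMat n d s i i = (d i : F) := by
  simp [ltMat, Matrix.of_apply]

theorem det_lower {F : Type*} [Field F] (n : ℕ) (M : Matrix (Fin n) (Fin n) F)
    (hM : ∀ i j : Fin n, i < j → M i j = 0) : M.det = ∏ i, M i i := by
  apply Matrix.det_of_isLowerTriangular
  intro i j hij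
  exact hM i j hij

theorem ltMat_det {F : Type*} [Field F] (n : ℕ) (d : Fin n → Fˣ)
    (s : {p : Fin n × Fin n // p.2 < p.1} → F) : (ltMat n d s).det ≠ 0 := by
  rw [det_lower n _ (ltMat_lower n d s)]
  simp only [ltMat_diag]
  exact Finset.prod_ne_zero_iff.mpr (fun i _ => (d i).ne_zero)

/-- The equivalence between lower triangular invertible matrices and their entries. -/
noncomputable def borelEquiv {F : Type*} [Field F] (n : ℕ) :
    {g : Matrix.GeneralLinearGroup (Fin n) F //
      ∀ i j : Fin n, i < j → (g : Matrix (Fin n) (Fin n) F) i j = 0} ≃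
    (Fin n → Fˣ) × ({p : Fin n × Fin n // p.2 < p.1} → F) where
  toFun g := (fun i => Units.mk0 ((g.1 : Matrix (Fin n) (Fin n) F) i i) (by
      have hdet : (g.1 : Matrix (Fin n) (Fin n) F).det ≠ 0 := by
        have := Matrix.GeneralLinearGroup.det_ne_zero g.1
        exact this
      rw [det_lower n _ g.2] at hdet
      exact (Finset.prod_ne_zero_iff.mp hdet) i (Finset.mem_univ i)),
    fun p => (g.1 : Matrix (Fin n) (Fin n) F) p.1.1 p.1.2)
  invFun ds := ⟨Matrix.GeneralLinearGroup.mkOfDetNeZero (ltMat n ds.1 ds.2) (ltMat_det n ds.1 ds.2),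
    fun i j hij => ltMat_lower n ds.1 ds.2 i j hij⟩
  left_inv g := by
    apply Subtype.ext
    apply Units.ext
    ext i j
    show ltMat n _ _ i j = (g.1 : Matrix (Fin n) (Fin n) F) i j
    simp only [ltMat, Matrix.of_apply]
    by_cases h1 : j < i
    · rw [dif_pos h1]
    · rw [dif_neg h1]
      by_cases h2 : i = j
      · rw [if_pos h2, Units.val_mk0, h2]
      · rw [if_neg h2]
        exact (g.2 i j (lt_of_le_of_ne (not_lt.mp h1) h2)).symm
  right_inv ds := by
    obtain ⟨d, s⟩ := ds
    apply Prod.ext
    · funext i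
      apply Units.ext
      show ltMat n d s i i = (d i : F)
      exact ltMat_diag n d s i
    · funext p
      show ltMat n d s p.1.1 p.1.2 = s p
      simp only [ltMat, Matrix.of_apply]
      rw [dif_pos p.2]

theorem card_lower_pairs (n : ℕ) :
    Fintype.card {p : Fin n × Fin n // p.2 < p.1} = n * (n - 1) / 2 := by
  rw [Fintype.card_subtype, Finset.card_filter, Fintype.sum_prod_type]
  have h1 : ∀ i : Fin n, (∑ j : Fin n, if j < i then 1 else 0) = (i : ℕ) := by
    intro i
    rw [← Finset.card_filter]
    have : (Finset.univ.filter (fun j : Fin n => j < i)) = Finset.Iio i := by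
      ext j
      simp
    rw [this, Fin.card_Iio]
  simp only [h1]
  rw [Fin.sum_univ_eq_sum_range (fun i => i) n, Finset.sum_range_id]

/-- Order of the Borel subgroup of GL_n(q): the invertible lower-triangular n × n matrices over a field with q elements number q^(n(n-1)/2) (q-1)^n (unitriangular part times the diagonal torus). -/
theorem result {F : Type*} [Field F] [Fintype F] {q : ℕ} (hF : Fintype.card F = q) (n : ℕ) : Nat.card {g : Matrix.GeneralLinearGroup (Fin n) F // ∀ i j : Fin n, i < j → (g : Matrix (Fin n) (Fin n) F) i j = 0} = q ^ (n * (n - 1) / 2) * (q - 1) ^ n := by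
  classical
  rw [Nat.card_congr (borelEquiv n), Nat.card_prod, Nat.card_eq_fintype_card,
    Nat.card_eq_fintype_card, Fintype.card_fun, Fintype.card_fun, Fintype.card_units, hF,
    Fintype.card_fin, card_lower_pairs, mul_comm]

end Cfsg.Agent.S0769
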