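import Cfsg.Statements.S2947
import Cfsg.Agent.Helper55.Basic

set_option autoImplicit false
open Cfsg
open scoped Pointwise

namespace Cfsg.Agent.S2947

open Cfsg.Agent.Helper55

/-- Let G be a finite group of characteristic 2 type in which every 2-local subgroup is solvable and the centralizer of Ω₁(Z(S)) lies in N_G(S) for every Sylow 2-subgroup S; suppose O₂(G) = 1, fix a Sylow 2-subgroup S and a 2-local subgroup M containing N_G(J(S)) (J the Thompson subgroup generated by the elementary abelian 2-subgroups of largest order). Then M is strongly embedded in G (a proper subgroup of even order whose intersection with each conjugate by an element outside M has odd order) if and only if no nontrivial 2-subgroup of M lies in a 2-local subgroup of G not contained in M. -/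
theorem result {G : Type*} [Group G] [Finite G] (hL : Cfsg.IsCharacteristicTwoType G) (hN : ∀ N : Subgroup G, Cfsg.IsTwoLocal N → Group.IsSolvable ↥N)
    (hZ : ∀ S : Sylow 2 G, Subgroup.centralizer (Cfsg.omegaCenterOf (S : Subgroup G) : Set G) ≤ Subgroup.normalizer ((S : Subgroup G) : Set G)) (hO : Cfsg.pCore 2 G = ⊥) (S : Sylow 2 G) (M : Subgroup G) (hM : Cfsg.IsTwoLocal M)
    (hMJ : Subgroup.normalizer (Cfsg.thompsonSubgroupOf 2 (S : Subgroup G) : Set G) ≤ M) :
    Cfsg.IsStronglyEmbedded M ↔ Cfsg.straddlingTwoSubgroups M = ∅ := by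
  classical
  have : Fact (Nat.Prime 2) := ⟨Nat.prime_two⟩
  constructor
  · -- strongly embedded ⟹ no straddling subgroups
    rintro ⟨hMtop, hMeven, hMint⟩
    -- Lemma A: normalizers of nontrivial 2-subgroups of M lie in M
    have hA : ∀ V : Subgroup G, IsPGroup 2 V → V ≠ ⊥ → V ≤ M →
        Subgroup.normalizer (V : Set G) ≤ M := by
      intro V hV hV1 hVM g hg
      by_contra hgM
      have hodd := hMint g hgM
      have hVle : V ≤ M ⊓ M.map (MulAut.conj g).toMonoidHom := by
        refine le_inf hVM ?_
        intro v hv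
        refine ⟨g⁻¹ * v * g, ?_, by simp [mul_assoc]⟩
        apply hVM
        have := ((Subgroup.inv_mem _ hg) v).mp hv
        simpa using this
      have h2 : 2 ∣ Nat.card V := dvd_card_of_isPGroup_ne_bot hV hV1
      have h3 : Nat.card V ∣ Nat.card ↥(M ⊓ M.map (MulAut.conj g).toMonoidHom) :=
        Subgroup.card_dvd_of_le hVle
      have h4 : 2 ∣ Nat.card ↥(M ⊓ M.map (MulAut.conj g).toMonoidHom) := dvd_trans h2 h3
      rw [← even_iff_two_dvd] at h4
      exact (Nat.not_even_iff_odd.mpr hodd) h4
    rw [Set.eq_empty_iff_forall_notMem]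
    rintro T ⟨hT, hT1, hTM, L, ⟨U, hU, hU1, rfl⟩, hTL, hLM⟩
    apply hLM
    -- R = T ⊔ U is a 2-group
    have hR : IsPGroup 2 (T ⊔ U : Subgroup G) := hT.to_sup_of_normal_right' hU hTL
    -- R ≤ M
    have hRM : T ⊔ U ≤ M := by
      have hRM1 : IsPGroup 2 ((T ⊔ U) ⊓ M : Subgroup G) := hR.to_le inf_le_left
      have hne : (T ⊔ U) ⊓ M ≠ ⊥ := by
        intro h
        apply hT1
        rw [eq_bot_iff, ← h]
        exact le_inf le_sup_left hTM
      have h1 : (T ⊔ U) ⊓ M = T ⊔ U := by
        apply eq_of_normalizer_inf_le hR inf_le_left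
        refine le_inf inf_le_left ?_
        exact le_trans inf_le_right (hA _ hRM1 hne inf_le_right)
      rw [← h1]; exact inf_le_right
    exact hA U hU hU1 (le_trans le_sup_right hRM)
  · -- no straddling subgroups ⟹ strongly embedded
    intro hempty
    -- (*) normalizers of nontrivial 2-subgroups of M lie in M
    have hA : ∀ V : Subgroup G, IsPGroup 2 V → V ≠ ⊥ → V ≤ M →
        Subgroup.normalizer (V : Set G) ≤ M := by
      intro V hV hV1 hVM
      by_contra hcon
      have : V ∈ Cfsg.straddlingTwoSubgroups M :=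
        ⟨hV, hV1, hVM, Subgroup.normalizer (V : Set G), ⟨V, hV, hV1, rfl⟩, Subgroup.le_normalizer, hcon⟩
      rw [hempty] at this
      exact this
    obtain ⟨T₀, hT₀, hT₀1, rfl⟩ := hM
    refine ⟨?_, ?_, ?_⟩
    · intro htop
      apply hT₀1
      rw [eq_bot_iff, ← hO]
      have hnorm : T₀.Normal := Subgroup.normalizer_eq_top_iff.mp htop
      exact le_sSup ⟨hnorm, hT₀⟩
    · rw [even_iff_two_dvd]
      exact dvd_trans (dvd_card_of_isPGroup_ne_bot hT₀ hT₀1) (Subgroup.card_dvd_of_le Subgroup.le_normalizer)
    · intro g hg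
      set M := Subgroup.normalizer (T₀ : Set G) with hMdef
      by_contra hnodd
      rw [Nat.not_odd_iff_even, even_iff_two_dvd] at hnodd
      set D : Subgroup G := M ⊓ M.map (MulAut.conj g).toMonoidHom with hD
      -- Sylow 2-subgroup of D
      obtain ⟨P⟩ : Nonempty (Sylow 2 D) := inferInstance
      set U : Subgroup G := (P : Subgroup D).map D.subtype with hU
      have hUD : U ≤ D := Subgroup.map_subtype_le _
      have hU2 : IsPGroup 2 U := P.isPGroup'.map _
      have hU1 : U ≠ ⊥ := by
        intro h
        have hP1 : (P : Subgroup D) ≠ ⊥ := P.ne_bot_of_dvd_card hnodd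
        apply hP1
        rw [eq_bot_iff]
        intro x hx
        have : (D.subtype x) ∈ U := Subgroup.mem_map_of_mem _ hx
        rw [h, Subgroup.mem_bot] at this
        rw [Subgroup.mem_bot]
        exact Subtype.ext this
      have hUmax : ∀ U' : Subgroup G, IsPGroup 2 U' → U ≤ U' → U' ≤ D → U' = U := by
        intro U' hU' hUU' hU'D
        have h1 : IsPGroup 2 (U'.subgroupOf D) := hU'.comap_subtype
        have h2 : (P : Subgroup D) ≤ U'.subgroupOf D := by
          intro x hx
          rw [Subgroup.mem_subgroupOf]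
          exact hUU' (Subgroup.mem_map_of_mem _ hx)
        have h3 := P.is_maximal' h1 h2
        apply le_antisymm _ hUU'
        intro x hx
        have : (⟨x, hU'D hx⟩ : D) ∈ U'.subgroupOf D := by rw [Subgroup.mem_subgroupOf]; exact hx
        rw [h3] at this
        exact ⟨⟨x, hU'D hx⟩, this, rfl⟩
      have hUM : U ≤ M := le_trans hUD inf_le_left
      have hNU : Subgroup.normalizer (U : Set G) ≤ M := hA U hU2 hU1 hUM
      -- the conjugate g⁻¹ U g
      set U₂ : Subgroup G := U.map (MulAut.conj g⁻¹).toMonoidHom with hU₂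
      have hU₂M : U₂ ≤ M := by
        rintro _ ⟨u, hu, rfl⟩
        obtain ⟨m, hm, hmu⟩ := (hUD hu).2
        have : (MulAut.conj g⁻¹).toMonoidHom u = m := by
          rw [← hmu]; simp [mul_assoc]
        rw [this]; exact hm
      have hU₂2 : IsPGroup 2 U₂ := hU2.map _
      have hU₂1 : U₂ ≠ ⊥ := by
        intro h
        apply hU1
        rw [hU₂] at h
        exact (Subgroup.map_eq_bot_iff_of_injective U (MulAut.conj g⁻¹).injective).mp h
      have hNU₂ : Subgroup.normalizer (U₂ : Set G) ≤ M := hA U₂ hU₂2 hU₂1 hU₂M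
      have hNU' : Subgroup.normalizer (U : Set G) ≤ M.map (MulAut.conj g).toMonoidHom := by
        intro n hn
        refine ⟨g⁻¹ * n * g, ?_, by simp [mul_assoc]⟩
        apply hNU₂
        rw [Subgroup.mem_normalizer_iff]
        intro x
        have key : ∀ y : G, y ∈ U₂ ↔ g * y * g⁻¹ ∈ U := by
          intro y
          constructor
          · rintro ⟨u, hu, rfl⟩
            simpa [mul_assoc] using hu
          · intro hy
            exact ⟨g * y * g⁻¹, hy, by simp [mul_assoc]⟩
        rw [key, key]
        have h1 := (Subgroup.mem_normalizer_iff.mp hn) (g * x * g⁻¹)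
        have e : g * (g⁻¹ * n * g * x * (g⁻¹ * n * g)⁻¹) * g⁻¹ = n * (g * x * g⁻¹) * n⁻¹ := by
          simp [mul_assoc]
        rw [e]; exact h1
      -- Sylow of G containing U
      obtain ⟨Q, hUQ⟩ := hU2.exists_le_sylow
      have hUQeq : U = (Q : Subgroup G) := by
        apply eq_of_normalizer_inf_le Q.isPGroup' hUQ
        have hle : (Q : Subgroup G) ⊓ Subgroup.normalizer (U : Set G) ≤ D :=
          le_trans inf_le_right (le_inf hNU hNU')
        have h2 : IsPGroup 2 ((Q : Subgroup G) ⊓ Subgroup.normalizer (U : Set G) : Subgroup G) :=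
          Q.isPGroup'.to_le inf_le_left
        have := hUmax _ h2 (le_inf hUQ Subgroup.le_normalizer) hle
        exact le_of_eq this
      -- second Sylow: g⁻¹ • Q
      have hQM : (Q : Subgroup G) ≤ M := hUQeq ▸ hUM
      have hQ₂M : ((g⁻¹ • Q : Sylow 2 G) : Subgroup G) ≤ M := by
        intro x hx
        have := (sylow_smul_mem_iff (P := Q) (Q := g⁻¹ • Q) (g := g⁻¹) rfl x).mp hx
        rw [inv_inv, ← hUQeq] at this
        apply hU₂M
        exact ⟨g * x * g⁻¹, this, by simp [mul_assoc]⟩
      obtain ⟨m, hmM, hm⟩ := exists_conj_sylow_of_le Q (g⁻¹ • Q) M hQM hQ₂M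
      -- g * m normalizes Q
      have hgm : (g * m) • Q = Q := by
        rw [mul_smul, hm, smul_inv_smul]
      have hgmN : g * m ∈ Subgroup.normalizer ((Q : Subgroup G) : Set G) :=
        Sylow.smul_eq_iff_mem_normalizer.mp hgm
      rw [← hUQeq] at hgmN
      have hgmM : g * m ∈ M := hNU hgmN
      apply hg
      have : g = (g * m) * m⁻¹ := by simp
      rw [this]
      exact M.mul_mem hgmM (M.inv_mem hmM)

end Cfsg.Agent.S2947
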