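import Cfsg.Statements.S1086
import Cfsg.Agent.H23.TwE6b
-- import your own Cfsg.Agent.* helpers here

set_option autoImplicit false
open Cfsg

namespace Cfsg.Agent.S1086

/-- |U¹| = |G¹ ∩ U| = q ^ 36 for ²E₆(q). -/
theorem result {K : Type*} [Field K] [Fintype K] {q : ℕ} (hq : IsPrimePow q) (hK : Fintype.card K = q ^ 2) :
    Nat.card ↥(Cfsg.Lie.chevE6.posUnipotent K ⊓ Cfsg.Lie.twistedE6 K q) = q ^ 36 := by
  obtain ⟨T, B, hG, hblk, hcard, -⟩ := Cfsg.Agent.H23.tw_E6 hq hK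
  have h := Cfsg.Agent.H23.card_pos_inf (Cfsg.Agent.H23.packB_E6 K)
    (Cfsg.Agent.H23.trin_E6.semV Cfsg.Agent.H23.chk_E6.tblOK K) Cfsg.Agent.H23.tabT_E6 Cfsg.Agent.H23.tabL_E6 B hG
    Cfsg.Agent.H23.w0bE6 Cfsg.Agent.H23.tabW_E6b (by rw [hblk]; exact Cfsg.Agent.H23.twE6_bw) q hcard
  rw [Cfsg.Agent.H23.twE6_numPos] at h
  exact h

end Cfsg.Agent.S1086
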