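import Cfsg.Statements.S1467

set_option autoImplicit false
open Cfsg

namespace Cfsg.Agent.S1467

theorem puigStep_anti {G : Type*} [Group G] {X Y : Subgroup G} (h : X ≤ Y) :
    Cfsg.puigStep Y ≤ Cfsg.puigStep X := by
  unfold Cfsg.puigStep
  apply sSup_le_sSup
  intro A hA
  exact ⟨hA.1, h.trans hA.2⟩

theorem puigSeq_succ {G : Type*} [Group G] (n : ℕ) :
    Cfsg.puigSeq G (n + 1) = Cfsg.puigStep (Cfsg.puigSeq G n) := rfl

theorem puigSeq_one {G : Type*} [Group G] : Cfsg.puigSeq G 1 = ⊤ := by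
  rw [puigSeq_succ, eq_top_iff]
  intro g _
  have : Subgroup.zpowers g ≤ Cfsg.puigStep (Cfsg.puigSeq G 0) := by
    unfold Cfsg.puigStep
    apply le_sSup
    refine ⟨?_, ?_⟩
    · infer_instance
    · show (⊥ : Subgroup G) ≤ _
      exact bot_le
  exact this (Subgroup.mem_zpowers g)

theorem even_mono {G : Type*} [Group G] (n : ℕ) :
    Cfsg.puigSeq G (2 * n) ≤ Cfsg.puigSeq G (2 * n + 2) := by
  induction n with
  | zero => show (⊥ : Subgroup G) ≤ _; exact bot_le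
  | succ n ih =>
    show Cfsg.puigStep (Cfsg.puigStep (Cfsg.puigSeq G (2 * n))) ≤
      Cfsg.puigStep (Cfsg.puigStep (Cfsg.puigSeq G (2 * n + 2)))
    exact puigStep_anti (puigStep_anti ih)

theorem odd_anti {G : Type*} [Group G] (m : ℕ) :
    Cfsg.puigSeq G (2 * m + 3) ≤ Cfsg.puigSeq G (2 * m + 1) := by
  induction m with
  | zero => show _ ≤ Cfsg.puigSeq G 1; rw [puigSeq_one]; exact le_top
  | succ n ih =>
    show Cfsg.puigStep (Cfsg.puigStep (Cfsg.puigSeq G (2 * n + 3))) ≤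
      Cfsg.puigStep (Cfsg.puigStep (Cfsg.puigSeq G (2 * n + 1)))
    exact puigStep_anti (puigStep_anti ih)

theorem even_monotone {G : Type*} [Group G] : Monotone (fun n => Cfsg.puigSeq G (2 * n)) :=
  monotone_nat_of_le_succ (fun n => even_mono n)

theorem odd_antitone {G : Type*} [Group G] : Antitone (fun n => Cfsg.puigSeq G (2 * n + 1)) :=
  antitone_nat_of_succ_le (fun n => odd_anti n)

theorem even_le_succ {G : Type*} [Group G] (n : ℕ) :
    Cfsg.puigSeq G (2 * n) ≤ Cfsg.puigSeq G (2 * n + 1) := by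
  induction n with
  | zero => show (⊥ : Subgroup G) ≤ _; exact bot_le
  | succ n ih =>
    have h3 : Cfsg.puigSeq G (2 * n + 1 + 1) ≤ Cfsg.puigSeq G (2 * n + 1) := by
      show Cfsg.puigStep (Cfsg.puigStep (Cfsg.puigSeq G (2 * n))) ≤ Cfsg.puigStep (Cfsg.puigSeq G (2 * n))
      exact puigStep_anti ih
    show Cfsg.puigStep (Cfsg.puigSeq G (2 * n + 1)) ≤ Cfsg.puigStep (Cfsg.puigSeq G (2 * n + 1 + 1))
    exact puigStep_anti h3

theorem even_le_odd {G : Type*} [Group G] (n m : ℕ) :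
    Cfsg.puigSeq G (2 * n) ≤ Cfsg.puigSeq G (2 * m + 1) := by
  have h1 := even_monotone (G := G) (le_max_left n m)
  have h2 := odd_antitone (G := G) (le_max_right n m)
  exact h1.trans ((even_le_succ (max n m)).trans h2)

/-- Let G be a finite group with Puig series L_n(G). Then L_0 = 1, L_1 = G; L_{2n} ≤ L_{2n+2} ≤ L_{2m+3} ≤ L_{2m+1} for all n, m; there is k with L_{2n}(G) = L_*(G) and L_{2n+1}(G) = L(G) for all n ≥ k; L_*(G) ≤ L(G); and applying one Puig step to L_*(G) gives L(G) and to L(G) gives L_*(G). -/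
theorem result {G : Type*} [Group G] [Finite G] :
    Cfsg.puigSeq G 0 = ⊥ ∧ Cfsg.puigSeq G 1 = ⊤ ∧
      (∀ n m : ℕ, Cfsg.puigSeq G (2 * n) ≤ Cfsg.puigSeq G (2 * n + 2) ∧ Cfsg.puigSeq G (2 * n) ≤ Cfsg.puigSeq G (2 * m + 1) ∧
        Cfsg.puigSeq G (2 * m + 3) ≤ Cfsg.puigSeq G (2 * m + 1)) ∧
      (∃ k : ℕ, ∀ n : ℕ, k ≤ n → Cfsg.puigSeq G (2 * n) = Cfsg.puigLower G ∧ Cfsg.puigSeq G (2 * n + 1) = Cfsg.puigSubgroup G) ∧
      Cfsg.puigLower G ≤ Cfsg.puigSubgroup G ∧
      Cfsg.puigStep (Cfsg.puigLower G) = Cfsg.puigSubgroup G ∧ Cfsg.puigStep (Cfsg.puigSubgroup G) = Cfsg.puigLower G := by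
  have hfin : Finite (Subgroup G) := inferInstance
  -- stabilisation of the even terms
  obtain ⟨k1, hk1⟩ := WellFoundedGT.monotone_chain_condition
    (⟨fun n => Cfsg.puigSeq G (2 * n), even_monotone⟩ : ℕ →o Subgroup G)
  obtain ⟨k2, hk2⟩ := WellFoundedLT.antitone_chain_condition (odd_antitone (G := G))
  have hk1' : ∀ n, k1 ≤ n → Cfsg.puigSeq G (2 * n) = Cfsg.puigSeq G (2 * k1) := fun n hn => (hk1 n hn).symm
  have hk2' : ∀ n, k2 ≤ n → Cfsg.puigSeq G (2 * n + 1) = Cfsg.puigSeq G (2 * k2 + 1) := fun n hn => (hk2 n hn).symm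
  have hlow : Cfsg.puigLower G = Cfsg.puigSeq G (2 * k1) := by
    unfold Cfsg.puigLower
    apply le_antisymm
    · apply iSup_le
      intro n
      rcases le_total n k1 with h | h
      · exact even_monotone (G := G) h
      · exact (hk1' n h).le
    · exact le_iSup (fun n => Cfsg.puigSeq G (2 * n)) k1
  have hsub : Cfsg.puigSubgroup G = Cfsg.puigSeq G (2 * k2 + 1) := by
    unfold Cfsg.puigSubgroup
    apply le_antisymm
    · exact iInf_le (fun n => Cfsg.puigSeq G (2 * n + 1)) k2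
    · apply le_iInf
      intro n
      rcases le_total n k2 with h | h
      · exact odd_antitone (G := G) h
      · exact (hk2' n h).ge
  have hstab : ∀ n : ℕ, max k1 k2 ≤ n → Cfsg.puigSeq G (2 * n) = Cfsg.puigLower G ∧ Cfsg.puigSeq G (2 * n + 1) = Cfsg.puigSubgroup G := by
    intro n hn
    exact ⟨by rw [hlow]; exact hk1' n ((le_max_left _ _).trans hn),
      by rw [hsub]; exact hk2' n ((le_max_right _ _).trans hn)⟩
  refine ⟨rfl, puigSeq_one, fun n m => ⟨even_mono n, even_le_odd n m, odd_anti m⟩, ⟨max k1 k2, hstab⟩, ?_, ?_, ?_⟩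
  · rw [hlow, hsub]; exact even_le_odd k1 k2
  · have h := hstab (max k1 k2) le_rfl
    rw [← h.1, ← h.2]; rfl
  · have h := hstab (max k1 k2) le_rfl
    have h' := hstab (max k1 k2 + 1) (Nat.le_succ _)
    rw [← h.2, ← h'.1]; rfl

end Cfsg.Agent.S1467
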