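import Cfsg.Statements.S1466
import Cfsg.Agent.S1467

set_option autoImplicit false
open Cfsg
open scoped commutatorElement

namespace Cfsg.Agent.S1466

theorem puigStep_normal {G : Type*} [Group G] (X : Subgroup G) [hX : X.Normal] :
    (Cfsg.puigStep X).Normal := by
  constructor
  intro n hn g
  have hle : (Cfsg.puigStep X).map (MulAut.conj g).toMonoidHom ≤ Cfsg.puigStep X := by
    unfold Cfsg.puigStep
    rw [Subgroup.map_le_iff_le_comap]
    apply sSup_le
    intro A hA
    rw [← Subgroup.map_le_iff_le_comap]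
    apply le_sSup
    obtain ⟨hA1, hA2⟩ := hA
    refine ⟨?_, ?_⟩
    · have : IsMulCommutative A := hA1
      exact Subgroup.map_isMulCommutative A (MulAut.conj g).toMonoidHom
    · rw [Subgroup.le_normalizer_iff] at hA2 ⊢
      intro h hh k hk
      obtain ⟨a, ha, rfl⟩ := hk
      refine ⟨(g⁻¹ * h * g) * a * (g⁻¹ * h * g)⁻¹, ?_, ?_⟩
      · apply hA2 _ _ a ha
        have := hX.conj_mem h hh g⁻¹
        simpa using this
      · simp [MulAut.conj_apply, mul_assoc]
  exact hle ⟨n, hn, rfl⟩

theorem puigSeq_normal {G : Type*} [Group G] (n : ℕ) : (Cfsg.puigSeq G n).Normal := by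
  induction n with
  | zero => show (⊥ : Subgroup G).Normal; infer_instance
  | succ n ih =>
    show (Cfsg.puigStep (Cfsg.puigSeq G n)).Normal
    exact puigStep_normal _

theorem centralizer_puigStep_le {G : Type*} [Group G] [hG : Group.IsNilpotent G] (X : Subgroup G)
    [hX : X.Normal] :
    Subgroup.centralizer (Cfsg.puigStep X : Set G) ≤ Cfsg.puigStep X := by
  have hLn : (Cfsg.puigStep X).Normal := puigStep_normal X
  set L := Cfsg.puigStep X with hL
  set C := Subgroup.centralizer (L : Set G) with hC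
  have hCn : C.Normal := Subgroup.normal_centralizer
  have key : ∀ i : ℕ, C ⊓ Subgroup.upperCentralSeries G i ≤ L := by
    intro i
    induction i with
    | zero => simp
    | succ i ih =>
      intro c hc
      obtain ⟨hcC, hcZ⟩ := hc
      have hcomm : ∀ g : G, ⁅c, g⁆ ∈ L ⊓ C := by
        intro g
        have h1 : ⁅c, g⁆ ∈ Subgroup.upperCentralSeries G i :=
          Subgroup.mem_upperCentralSeries_succ_iff.mp hcZ g
        have h2 : ⁅c, g⁆ ∈ C := by
          rw [commutatorElement_def]
          have : g * c⁻¹ * g⁻¹ ∈ C := hCn.conj_mem _ (C.inv_mem hcC) g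
          have h3 := C.mul_mem hcC this
          simpa [mul_assoc] using h3
        exact ⟨ih ⟨h2, h1⟩, h2⟩
      have hLCn : (L ⊓ C).Normal := inferInstance
      set s : Set G := {c} ∪ ((L ⊓ C : Subgroup G) : Set G) with hs
      have hA1 : IsMulCommutative (Subgroup.closure s) := by
        apply Subgroup.isMulCommutative_closure
        intro x hx y hy
        rcases hx with hx | hx <;> rcases hy with hy | hy
        · rw [Set.mem_singleton_iff] at hx hy; rw [hx, hy]
        · rw [Set.mem_singleton_iff] at hx; rw [hx]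
          exact (Subgroup.mem_centralizer_iff.mp hcC y hy.1).symm
        · rw [Set.mem_singleton_iff] at hy; rw [hy]
          exact (Subgroup.mem_centralizer_iff.mp hcC x hx.1)
        · exact (Subgroup.mem_centralizer_iff.mp hy.2 x hx.1)
      have hA2 : X ≤ Subgroup.normalizer (Subgroup.closure s : Set G) := by
        rw [Subgroup.le_normalizer_closure_iff]
        intro h _ g hg
        rcases hg with hg | hg
        · rw [Set.mem_singleton_iff] at hg
          rw [hg]
          have h1 : h * c * h⁻¹ = (⁅c, h⁆)⁻¹ * c := by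
            rw [commutatorElement_def]; group
          rw [h1]
          apply Subgroup.mul_mem
          · apply Subgroup.inv_mem
            exact Subgroup.subset_closure (Or.inr (hcomm h))
          · exact Subgroup.subset_closure (Or.inl rfl)
        · exact Subgroup.subset_closure (Or.inr (hLCn.conj_mem g hg h))
      have hAle : Subgroup.closure s ≤ L := by
        rw [hL]
        unfold Cfsg.puigStep
        exact le_sSup ⟨hA1, hA2⟩
      exact hAle (Subgroup.subset_closure (Or.inl rfl))
  obtain ⟨n, hn⟩ := hG.nilpotent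
  have := key n
  rw [hn] at this
  simpa using this

theorem centralizer_puigSeq_le {G : Type*} [Group G] [hG : Group.IsNilpotent G] (i : ℕ) (hi : 0 < i) :
    Subgroup.centralizer ((Cfsg.puigSeq G i : Subgroup G) : Set G) ≤ Cfsg.puigSeq G i := by
  obtain ⟨j, rfl⟩ : ∃ j, i = j + 1 := ⟨i - 1, by omega⟩
  have := puigSeq_normal (G := G) j
  exact centralizer_puigStep_le (Cfsg.puigSeq G j)

/-- Let p be a prime and R a nontrivial finite p-group. Then for every i > 0, Z(R) ≤ C_R(L_i(R)) ≤ L_i(R); likewise Z(R) ≤ C_R(L_*(R)) ≤ L_*(R) and Z(R) ≤ C_R(L(R)) ≤ L(R); and L(R) ≠ 1, L_*(R) ≠ 1. -/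
theorem result {R : Type*} [Group R] [Finite R] (p : ℕ) [Fact p.Prime] (hR : IsPGroup p R) [Nontrivial R] :
    (∀ i : ℕ, 0 < i → Subgroup.center R ≤ Subgroup.centralizer ((Cfsg.puigSeq R i : Subgroup R) : Set R) ∧
        Subgroup.centralizer ((Cfsg.puigSeq R i : Subgroup R) : Set R) ≤ Cfsg.puigSeq R i) ∧
      (Subgroup.center R ≤ Subgroup.centralizer ((Cfsg.puigLower R : Subgroup R) : Set R) ∧ Subgroup.centralizer ((Cfsg.puigLower R : Subgroup R) : Set R) ≤ Cfsg.puigLower R) ∧
      (Subgroup.center R ≤ Subgroup.centralizer ((Cfsg.puigSubgroup R : Subgroup R) : Set R) ∧ Subgroup.centralizer ((Cfsg.puigSubgroup R : Subgroup R) : Set R) ≤ Cfsg.puigSubgroup R) ∧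
      Cfsg.puigSubgroup R ≠ ⊥ ∧ Cfsg.puigLower R ≠ ⊥ := by
  have hnil : Group.IsNilpotent R := hR.isNilpotent
  obtain ⟨-, -, -, ⟨k, hk⟩, -, -, -⟩ := Cfsg.Agent.S1467.result (G := R)
  obtain ⟨hlow, hsub⟩ := hk (k + 1) (Nat.le_succ k)
  have h1 : Subgroup.centralizer ((Cfsg.puigLower R : Subgroup R) : Set R) ≤ Cfsg.puigLower R := by
    rw [← hlow]; exact centralizer_puigSeq_le _ (by omega)
  have h2 : Subgroup.centralizer ((Cfsg.puigSubgroup R : Subgroup R) : Set R) ≤ Cfsg.puigSubgroup R := by
    rw [← hsub]; exact centralizer_puigSeq_le _ (by omega)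
  have hne : ∀ L : Subgroup R, Subgroup.centralizer (L : Set R) ≤ L → L ≠ ⊥ := by
    intro L hL h
    rw [h] at hL
    have : (⊤ : Subgroup R) ≤ ⊥ := by
      intro x _
      apply hL
      rw [Subgroup.mem_centralizer_iff]
      intro y hy
      rw [SetLike.mem_coe, Subgroup.mem_bot] at hy
      rw [hy]; simp
    exact top_ne_bot (le_bot_iff.mp this)
  refine ⟨fun i hi => ⟨Subgroup.center_le_centralizer _, centralizer_puigSeq_le i hi⟩,
    ⟨Subgroup.center_le_centralizer _, h1⟩, ⟨Subgroup.center_le_centralizer _, h2⟩, hne _ h2, hne _ h1⟩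

end Cfsg.Agent.S1466
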