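import Mathlib
import Cfsg.Statements.S1465
import Cfsg.Agent.H58.QStab2
import Cfsg.Agent.H29.ZJ2

set_option autoImplicit false
open Cfsg

namespace Cfsg.Agent.S1465

/-- Let p be an odd prime, G a solvable group of odd order, P a normal p-subgroup of G, and X the subgroup generated by a family of abelian p-subgroups of G each normalized by P. Then the image of X in G/C_G(P) lies in O_p(G/C_G(P)); and if O_{p'}(G) = 1 and O_p(G) ∩ C_G(P) ≤ P then X ≤ O_p(G). -/
theorem result {G : Type*} [Group G] [Finite G] [Group.IsSolvable G] (hodd : Odd (Nat.card G)) (p : ℕ) [Fact p.Prime] (hp : p ≠ 2) (P : Subgroup G) [P.Normal] (hP : IsPGroup p P)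
    (S : Set (Subgroup G)) (hS : ∀ B ∈ S, IsMulCommutative B ∧ IsPGroup p B ∧ P ≤ Subgroup.normalizer (B : Set G)) :
    (sSup S).map (QuotientGroup.mk' (Subgroup.centralizer (P : Set G))) ≤ Cfsg.pCore p (G ⧸ Subgroup.centralizer (P : Set G)) ∧
      (Cfsg.pPrimeCore p G = ⊥ → Cfsg.pCore p G ⊓ Subgroup.centralizer (P : Set G) ≤ P → sSup S ≤ Cfsg.pCore p G) := by
  have hab := Cfsg.Agent.H58.ab2_of_odd hodd
  have hst := Cfsg.Agent.H58.isPStableOn_of_ab2' hp hab P hP
  have key : sSup S ≤ (Cfsg.pCore p (G ⧸ Subgroup.centralizer (P : Set G))).comap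
      (QuotientGroup.mk' (Subgroup.centralizer (P : Set G))) := by
    apply sSup_le
    intro B hB b hb
    obtain ⟨hBc, hBp, hPB⟩ := hS B hB
    rw [Subgroup.mem_comap]
    apply hst b
    have h1 : ⁅⁅P, B⁆, B⁆ = ⊥ := Cfsg.Agent.H29.quadS_of_le_normalizer hPB hBc
    rw [eq_bot_iff, ← h1]
    have hz : Subgroup.zpowers b ≤ B := Subgroup.zpowers_le.mpr hb
    exact Subgroup.commutator_mono (Subgroup.commutator_mono le_rfl hz) hz
  refine ⟨Subgroup.map_le_iff_le_comap.mpr key, fun hO hC => ?_⟩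
  have hcQ : Subgroup.centralizer (Cfsg.pCore p G : Set G) ≤ Cfsg.pCore p G :=
    Cfsg.Agent.H60.centralizer_pCore_le inferInstance hO
  exact key.trans (Cfsg.Agent.H58.comap_pCore_le_pCore hcQ P hP hC)

end Cfsg.Agent.S1465
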