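import Cfsg.Statements.S0233
import Mathlib
import Cfsg.Agent.H6.BrauerFowler

set_option autoImplicit false
open Cfsg

namespace Cfsg.Agent.S0233

/-- Let G be a finite group of even order with exactly n involutions whose centre has odd order, and put a = |G|/n. Then G has a proper subgroup H with |G : H| = 2 or |G : H| < a(a+1)/2; over ℕ the latter reads 2·|G:H|·n² < |G|·(|G| + n). -/
theorem result {G : Type*} [Group G] [Finite G] (heven : Even (Nat.card G)) (hZ : Odd (Nat.card (Subgroup.center G))) : ∃ H : Subgroup G, H ≠ ⊤ ∧ (H.index = 2 ∨ 2 * H.index * (Nat.card {t : G // orderOf t = 2}) ^ 2 < Nat.card G * (Nat.card G + Nat.card {t : G // orderOf t = 2})) := by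
  classical
  have : Fintype G := Fintype.ofFinite G
  by_contra hcon
  push Not at hcon
  have hNpos : 0 < Nat.card G := Nat.card_pos
  have hp2 : Fact (Nat.Prime 2) := ⟨Nat.prime_two⟩
  obtain ⟨t₀, ht₀⟩ := exists_prime_orderOf_dvd_card' 2 (even_iff_two_dvd.mp heven)
  have hmpos : 0 < Nat.card {t : G // orderOf t = 2} := by
    have : Nonempty {t : G // orderOf t = 2} := ⟨⟨t₀, ht₀⟩⟩
    exact Nat.card_pos
  generalize hN : Nat.card G = N at hcon hNpos
  generalize hm : Nat.card {t : G // orderOf t = 2} = m at hcon hmpos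
  -- for proper H, card H * (N + m) ≤ 2 m²
  have hF : ∀ H : Subgroup G, H ≠ ⊤ → Nat.card H * (N + m) ≤ 2 * m ^ 2 := by
    intro H hH
    have h1 := (hcon H hH).2
    have h2 : Nat.card H * H.index = N := by rw [← hN]; exact H.card_mul_index
    have h3 : Nat.card H * (N * (N + m)) ≤ Nat.card H * (2 * H.index * m ^ 2) :=
      Nat.mul_le_mul_left _ h1
    have h4 : Nat.card H * (2 * H.index * m ^ 2) = N * (2 * m ^ 2) := by rw [← h2]; ring
    have h5 : Nat.card H * (N * (N + m)) = N * (Nat.card H * (N + m)) := by ring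
    rw [h4, h5] at h3
    exact Nat.le_of_mul_le_mul_left h3 hNpos
  -- involutions
  have hI : ∀ x : G, orderOf x = 2 → (Nat.card (H6.InvPairs x) + 2) * (N + m) ≤ 2 * m ^ 2 := by
    intro x hx
    have hne : Subgroup.centralizer ({x} : Set G) ≠ ⊤ := by
      intro htop
      have hxc : x ∈ Subgroup.center G := by
        rw [Subgroup.mem_center_iff]
        intro g
        have : g ∈ Subgroup.centralizer ({x} : Set G) := by rw [htop]; trivial
        exact (H6.mem_cent_single.mp this).symm
      have ho : orderOf (⟨x, hxc⟩ : Subgroup.center G) = 2 := by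
        rw [Subgroup.orderOf_mk]; exact hx
      have : 2 ∣ Nat.card (Subgroup.center G) := ho ▸ orderOf_dvd_natCard _
      exact (Nat.not_even_iff_odd.mpr hZ) (even_iff_two_dvd.mpr this)
    have h1 := hF _ hne
    have h2 := H6.card_invPairs_add_two_le x hx
    exact le_trans (Nat.mul_le_mul_right _ h2) h1
  -- the other nontrivial elements
  have hR : ∀ x : G, x ≠ 1 → orderOf x ≠ 2 → Nat.card (H6.InvPairs x) * (N + m) ≤ m ^ 2 := by
    intro x hx1 hx2
    by_cases hreal : IsConj x x⁻¹
    · have hxsq : x ^ 2 ≠ 1 := fun h => hx2 (H6.orderOf_two_iff.mpr ⟨h, hx1⟩)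
      have hcard := H6.card_extCentralizer x hxsq hreal
      have hne : H6.extCentralizer x ≠ ⊤ := by
        intro htop
        have h1 : Nat.card (H6.extCentralizer x) = N := by
          rw [htop, ← hN]; exact Subgroup.card_top
        have h2 : Nat.card (Subgroup.centralizer ({x} : Set G)) *
            (Subgroup.centralizer ({x} : Set G)).index = N := by
          rw [← hN]; exact Subgroup.card_mul_index _
        have h3 : (Subgroup.centralizer ({x} : Set G)).index = 2 := by
          have hpos : 0 < Nat.card (Subgroup.centralizer ({x} : Set G)) := Nat.card_pos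
          rw [hcard] at h1
          rw [← h1] at h2
          have : Nat.card (Subgroup.centralizer ({x} : Set G)) *
              (Subgroup.centralizer ({x} : Set G)).index =
              Nat.card (Subgroup.centralizer ({x} : Set G)) * 2 := by rw [h2]; ring
          exact Nat.eq_of_mul_eq_mul_left hpos this
        have hne' : Subgroup.centralizer ({x} : Set G) ≠ ⊤ := by
          intro h; rw [h, Subgroup.index_top] at h3; omega
        exact (hcon _ hne').1 h3
      have h1 := hF _ hne
      rw [hcard] at h1
      have h2 := H6.card_invPairs_le x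
      have h3 : Nat.card (Subgroup.centralizer ({x} : Set G)) * (N + m) ≤ m ^ 2 := by
        have : 2 * (Nat.card (Subgroup.centralizer ({x} : Set G)) * (N + m)) ≤ 2 * m ^ 2 := by
          rw [← mul_assoc]; exact h1
        omega
      exact le_trans (Nat.mul_le_mul_right _ h2) h3
    · rw [H6.card_invPairs_eq_zero x hreal]; simp
  -- the counting identity
  have hsum := H6.sum_card_invPairs (G := G)
  rw [H6.sum_split_involutions, H6.card_invPairs_one, hm] at hsum
  have hA : (∑ x ∈ Finset.univ.filter (fun x : G => orderOf x = 2), Nat.card (H6.InvPairs x)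
      + 2 * m) * (N + m) ≤ m * (2 * m ^ 2) := by
    have h1 : ∑ x ∈ Finset.univ.filter (fun x : G => orderOf x = 2),
        (Nat.card (H6.InvPairs x) + 2) * (N + m) ≤
        ∑ _x ∈ Finset.univ.filter (fun x : G => orderOf x = 2), 2 * m ^ 2 := by
      apply Finset.sum_le_sum
      intro x hx
      simp only [Finset.mem_filter, Finset.mem_univ, true_and] at hx
      exact hI x hx
    rw [Finset.sum_const, H6.card_filter_involutions, hm, smul_eq_mul, ← Finset.sum_mul,
      Finset.sum_add_distrib, Finset.sum_const, H6.card_filter_involutions, hm, smul_eq_mul] at h1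
    calc _ = (∑ x ∈ Finset.univ.filter (fun x : G => orderOf x = 2), Nat.card (H6.InvPairs x)
          + m * 2) * (N + m) := by ring
      _ ≤ m * (2 * m ^ 2) := h1
  have hB : (∑ x ∈ Finset.univ.filter (fun x : G => x ≠ 1 ∧ orderOf x ≠ 2),
      Nat.card (H6.InvPairs x)) * (N + m) ≤
      (Finset.univ.filter (fun x : G => x ≠ 1 ∧ orderOf x ≠ 2)).card * m ^ 2 := by
    rw [Finset.sum_mul]
    calc _ ≤ ∑ _x ∈ Finset.univ.filter (fun x : G => x ≠ 1 ∧ orderOf x ≠ 2), m ^ 2 := by
          apply Finset.sum_le_sum
          intro x hx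
          simp only [Finset.mem_filter, Finset.mem_univ, true_and] at hx
          exact hR x hx.1 hx.2
      _ = _ := by rw [Finset.sum_const, smul_eq_mul]
  have hRcard := H6.card_filter_rest (G := G)
  rw [hm, hN] at hRcard
  generalize (∑ x ∈ Finset.univ.filter (fun x : G => orderOf x = 2), Nat.card (H6.InvPairs x)) = A
    at hsum hA
  generalize (∑ x ∈ Finset.univ.filter (fun x : G => x ≠ 1 ∧ orderOf x ≠ 2),
    Nat.card (H6.InvPairs x)) = B at hsum hB
  generalize (Finset.univ.filter (fun x : G => x ≠ 1 ∧ orderOf x ≠ 2)).card = r at hB hRcard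
  have h0 : (m + A + B) * (N + m) = m ^ 2 * (N + m) := by rw [hsum]
  have hrm : r * m ^ 2 + m ^ 2 + m ^ 3 = N * m ^ 2 := by rw [← hRcard]; ring
  have hmN : 0 < m * N := Nat.mul_pos hmpos hNpos
  have hmm : 0 < m * m := Nat.mul_pos hmpos hmpos
  nlinarith [h0, hA, hB, hrm, hmN, hmm]

end Cfsg.Agent.S0233
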