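import Cfsg.Statements.S2943
import Cfsg.Agent.H52.SoAsm
import Cfsg.Agent.H14.SnGL
import Cfsg.Agent.H89.SnGLA
import Cfsg.Agent.H5.SnRed
import Cfsg.Agent.H91.SnFinA
import Cfsg.Agent.H63.SnIfSyl
import Cfsg.Agent.H63.SnIfV
import Cfsg.Agent.H63.SnIfZ
import Cfsg.Agent.H71.SnIfS
import Cfsg.Agent.H71.SnIfK
import Cfsg.Agent.H80.SnIfN
import Cfsg.Agent.H25.SoNC
import Cfsg.Agent.H5.SoAbs
import Cfsg.Agent.H54.SoUniq
import Cfsg.Agent.H25.SoInj
import Cfsg.Agent.H36.SoWid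
import Cfsg.Agent.H59.SoConj

set_option autoImplicit false
open Cfsg

namespace Cfsg.Agent.S2943

/-- Let G be a finite group of characteristic 2 type in which every 2-local subgroup is solvable and the centralizer of Ω₁(Z(S)) lies in N_G(S) for every Sylow 2-subgroup S, and let T be a nontrivial 2-subgroup (below, J is the Thompson subgroup generated by the elementary abelian 2-subgroups of largest order), L a subgroup in which T is a Sylow 2-subgroup with J(T) not contained in O₂(L) and C_G(O₂(L)) ≤ O₂(L), and K a J(T)-component contained in L. If Z(T) meets W_K = [Ω₁(Z(O₂(K))), K] nontrivially, then T normalizes K. -/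
theorem result {G : Type*} [Group G] [Finite G] (hL : Cfsg.IsCharacteristicTwoType G) (hN : ∀ N : Subgroup G, Cfsg.IsTwoLocal N → Group.IsSolvable ↥N)
    (hZ : ∀ S : Sylow 2 G, Subgroup.centralizer (Cfsg.omegaCenterOf (S : Subgroup G) : Set G) ≤ Subgroup.normalizer ((S : Subgroup G) : Set G)) (T : Subgroup G) (hT : IsPGroup 2 ↥T) (hT1 : T ≠ ⊥) (L : Subgroup G) (hLT : L ∈ Cfsg.jOvergroups T)
    (K : Subgroup G) (hK : Cfsg.IsJComponent T K) (hKL : K ≤ L)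
    (hZW : T ⊓ Subgroup.centralizer (T : Set G) ⊓ Cfsg.wOf K ≠ ⊥) : T ≤ Subgroup.normalizer (K : Set G) := by
  exact Cfsg.Agent.H52.Sn.main2 (Cfsg.Agent.H14.Sn.gl Cfsg.Agent.H89.Sn.gla) Cfsg.Agent.H5.Sn.red
    Cfsg.Agent.H91.Sn.finA Cfsg.Agent.H63.Sn.ifSyl Cfsg.Agent.H63.Sn.ifV
    Cfsg.Agent.H63.Sn.ifZ Cfsg.Agent.H71.Sn.ifS Cfsg.Agent.H71.Sn.ifK Cfsg.Agent.H80.Sn.ifN
    Cfsg.Agent.H25.So.nc
    (Cfsg.Agent.H5.Sn.abs Cfsg.Agent.H91.Sn.finA Cfsg.Agent.H54.Sn.uniq Cfsg.Agent.H25.So.inj)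
    Cfsg.Agent.H36.So.wid Cfsg.Agent.H59.So.conj
    hL hN hZ T hT hT1 L hLT K hK hKL hZW

end Cfsg.Agent.S2943
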