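import Cfsg.Statements.S1001
import Cfsg.Agent.H21.BrauerTuan
import Cfsg.Agent.H4.PaQb

set_option autoImplicit false
open Cfsg

namespace Cfsg.Agent.S1001

/-- In a finite simple group whose order has the form p * 3^a * 2^b with p prime, the centralizer of any element of order p is the cyclic group it generates. -/
theorem result {G : Type*} [Group G] [Finite G] [IsSimpleGroup G] (p a b : ℕ) (hp : p.Prime) (hG : Nat.card G = p * 3 ^ a * 2 ^ b) (x : G) (hx : orderOf x = p) : Subgroup.centralizer ({x} : Set G) = Subgroup.zpowers x := by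
  classical
  haveI : Fact p.Prime := ⟨hp⟩
  have hx1 : x ≠ 1 := by
    intro h
    rw [h, orderOf_one] at hx
    exact hp.one_lt.ne hx
  -- the centralizer of `x` is the centralizer of `⟨x⟩`
  have hcent : Subgroup.centralizer ({x} : Set G) =
      Subgroup.centralizer ((Subgroup.zpowers x : Subgroup G) : Set G) := by
    ext z
    rw [Subgroup.mem_centralizer_iff, Subgroup.mem_centralizer_iff]
    constructor
    · intro h s hs
      obtain ⟨k, rfl⟩ := Subgroup.mem_zpowers_iff.mp hs
      have hc : Commute x z := h x (Set.mem_singleton x)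
      exact (hc.zpow_left k)
    · intro h s hs
      rw [Set.mem_singleton_iff] at hs
      rw [hs]
      exact h x (Subgroup.mem_zpowers x)
  by_cases hab : ∀ u v : G, u * v = v * u
  · -- abelian case: `⟨x⟩` is a nontrivial normal subgroup
    have hn : (Subgroup.zpowers x).Normal := ⟨fun n hn g => by
      have : g * n * g⁻¹ = n := by rw [hab g n, mul_assoc, mul_inv_cancel, mul_one]
      rw [this]; exact hn⟩
    rcases IsSimpleGroup.eq_bot_or_eq_top_of_normal (Subgroup.zpowers x) hn with h | h
    · exfalso
      apply hx1
      have : x ∈ (⊥ : Subgroup G) := h ▸ Subgroup.mem_zpowers x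
      exact Subgroup.mem_bot.mp this
    · rw [h]
      ext z
      simp only [Subgroup.mem_top, iff_true]
      rw [Subgroup.mem_centralizer_iff]
      intro s _
      exact hab s z
  · -- non-abelian case
    have hnsol : ¬ Group.IsSolvable G := fun h => hab (IsSimpleGroup.comm_iff_isSolvable.mpr h)
    have hp2 : p ≠ 2 := by
      intro h
      apply hnsol
      refine Cfsg.Agent.H4.isSolvable_of_card_eq_prime_pow_mul_prime_pow 2 3 (b + 1) a
        Nat.prime_two Nat.prime_three ?_
      rw [hG, h]; ring
    have hp3 : p ≠ 3 := by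
      intro h
      apply hnsol
      refine Cfsg.Agent.H4.isSolvable_of_card_eq_prime_pow_mul_prime_pow 2 3 b (a + 1)
        Nat.prime_two Nat.prime_three ?_
      rw [hG, h]; ring
    have hcard : Nat.card G = 3 ^ a * 2 ^ b * p := by rw [hG]; ring
    -- a Sylow `p`-subgroup containing `x`
    have hpg : IsPGroup p (Subgroup.zpowers x) := by
      refine IsPGroup.of_card (n := 1) ?_
      rw [Nat.card_zpowers, hx, pow_one]
    obtain ⟨S, hS⟩ := hpg.exists_le_sylow
    have hSp : Nat.card S = p :=
      Cfsg.Agent.H21.BrauerTuan.card_sylow 3 2 p a b Nat.prime_three Nat.prime_two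
        (Ne.symm hp3) (Ne.symm hp2) hcard S
    have hSx : Subgroup.zpowers x = (S : Subgroup G) := by
      refine Subgroup.eq_of_le_of_card_ge hS ?_
      rw [Nat.card_zpowers, hx]
      exact hSp.le
    have hmain := Cfsg.Agent.H21.BrauerTuan.centralizer_sylow_eq 3 2 p a b Nat.prime_three
      Nat.prime_two (Ne.symm hp3) (Ne.symm hp2) hcard S
    rw [hcent, hSx]
    exact hmain

end Cfsg.Agent.S1001
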