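import Cfsg.Statements.S0077
import Cfsg.Agent.H2.Transfer

set_option autoImplicit false
open Cfsg

namespace Cfsg.Agent.S0077

open scoped commutatorElement in
open Cfsg.Agent.H2 in
/-- If a subgroup Z of the centre of a Sylow p-subgroup P is weakly closed in P, then P meets the derived subgroup of G exactly where it meets the derived subgroup of the normalizer of Z. -/
theorem result {G : Type*} [Group G] [Finite G] {p : ℕ} [Fact p.Prime] (P : Sylow p G) (Z : Subgroup G) (hZ : Z ≤ Subgroup.centralizer (P : Set G)) (hW : Cfsg.IsWeaklyClosed Z P) : commutator G ⊓ (P : Subgroup G) = ⁅Subgroup.normalizer (Z : Set G), Subgroup.normalizer (Z : Set G)⁆ ⊓ (P : Subgroup G) := by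
  obtain ⟨hZP, hW⟩ := hW
  have hZp : IsPGroup p Z := P.isPGroup'.to_le hZP
  -- weak closure in elementwise form: if `g Z g⁻¹ ≤ P` then `g` normalises `Z`
  have hWC : ∀ g : G, (∀ z ∈ Z, g * z * g⁻¹ ∈ (P : Subgroup G)) → g ∈ Subgroup.normalizer (Z : Set G) := by
    intro g hg
    rw [Subgroup.mem_normalizer_iff_map_conj_eq]
    apply hW g
    rintro _ ⟨z, hz, rfl⟩
    exact hg z hz
  have hPN : (P : Subgroup G) ≤ Subgroup.normalizer (Z : Set G) := by
    intro s hs
    apply hWC
    intro z hz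
    exact (P : Subgroup G).mul_mem ((P : Subgroup G).mul_mem hs (hZP hz)) ((P : Subgroup G).inv_mem hs)
  apply le_antisymm
  · rw [Subgroup.commutator_inf_eq_focalSubgroup P]
    refine le_inf ?_ (Subgroup.focalSubgroup_le _)
    rw [Subgroup.focalSubgroup_def, Subgroup.closure_le]
    rintro g ⟨hg, x, hx, u, rfl⟩
    -- `y = u x u⁻¹ ∈ P`
    have hy : u * x * u⁻¹ ∈ (P : Subgroup G) := by
      rw [commutatorElement_def] at hg
      have h1 : x⁻¹ * (x * u * x⁻¹ * u⁻¹) ∈ (P : Subgroup G) :=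
        (P : Subgroup G).mul_mem ((P : Subgroup G).inv_mem hx) hg
      have h2 : (x⁻¹ * (x * u * x⁻¹ * u⁻¹))⁻¹ ∈ (P : Subgroup G) := (P : Subgroup G).inv_mem h1
      have e : (x⁻¹ * (x * u * x⁻¹ * u⁻¹))⁻¹ = u * x * u⁻¹ := by group
      rw [e] at h2
      exact h2
    -- work in the centraliser of `y`
    have hZC : Z ≤ Subgroup.centralizer {u * x * u⁻¹} := by
      intro z hz
      rw [Subgroup.mem_centralizer_singleton_iff]
      exact (hZ hz (u * x * u⁻¹) hy).symm
    have hZuC : Z.map (MulAut.conj u).toMonoidHom ≤ Subgroup.centralizer {u * x * u⁻¹} := by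
      rintro _ ⟨z, hz, rfl⟩
      rw [Subgroup.mem_centralizer_singleton_iff]
      have hzx : x * z = z * x := hZ hz x hx
      show u * z * u⁻¹ * (u * x * u⁻¹) = u * x * u⁻¹ * (u * z * u⁻¹)
      calc u * z * u⁻¹ * (u * x * u⁻¹) = u * (z * x) * u⁻¹ := by group
        _ = u * (x * z) * u⁻¹ := by rw [hzx]
        _ = u * x * u⁻¹ * (u * z * u⁻¹) := by group
    obtain ⟨c, hc, R, hR, -, hZR, hcR⟩ := exists_conj_sup_isPGroup
      (Subgroup.centralizer {u * x * u⁻¹}) Z (Z.map (MulAut.conj u).toMonoidHom) hZp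
      (hZp.map _) hZC hZuC
    obtain ⟨Q, hQ⟩ := hR.exists_le_sylow
    obtain ⟨h, rfl⟩ := MulAction.exists_smul_eq G P Q
    have hhN : h⁻¹ ∈ Subgroup.normalizer (Z : Set G) := by
      apply hWC
      intro z hz
      have h1 : z ∈ (h • P : Sylow p G) := hQ (hZR hz)
      rw [mem_sylow_smul] at h1
      have e : h⁻¹ * z * h⁻¹⁻¹ = h⁻¹ * z * h := by group
      rw [e]
      exact h1
    have hcuN : h⁻¹ * (c * u) ∈ Subgroup.normalizer (Z : Set G) := by
      apply hWC
      intro z hz
      have h1 : c * (u * z * u⁻¹) * c⁻¹ ∈ (h • P : Sylow p G) :=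
        hQ (hcR _ ⟨z, hz, rfl⟩)
      rw [mem_sylow_smul] at h1
      have e : h⁻¹ * (c * u) * z * (h⁻¹ * (c * u))⁻¹ = h⁻¹ * (c * (u * z * u⁻¹) * c⁻¹) * h := by
        group
      rw [e]
      exact h1
    have hn : c * u ∈ Subgroup.normalizer (Z : Set G) := by
      have := (Subgroup.normalizer (Z : Set G)).mul_mem
        ((Subgroup.normalizer (Z : Set G)).inv_mem hhN) hcuN
      simpa using this
    have hcy : c * (u * x * u⁻¹) = (u * x * u⁻¹) * c :=
      Subgroup.mem_centralizer_singleton_iff.mp hc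
    have e : ⁅x, u⁆ = ⁅x, c * u⁆ := by
      rw [commutatorElement_def, commutatorElement_def]
      have e1 : x * (c * u) * x⁻¹ * (c * u)⁻¹ = x * (c * (u * x * u⁻¹) * c⁻¹)⁻¹ := by group
      rw [e1, hcy]
      group
    rw [e]
    exact Subgroup.commutator_mem_commutator (hPN hx) hn
  · refine inf_le_inf_right _ ?_
    rw [commutator_def]
    exact Subgroup.commutator_mono le_top le_top

end Cfsg.Agent.S0077
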