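import Mathlib
import Cfsg.Statements.S0585

set_option autoImplicit false
open Cfsg

namespace Cfsg.Agent.S0585

/-- If the Frattini subgroup of a finite group G is trivial, then every abelian normal subgroup of G has a complement in G. -/
theorem result {G : Type*} [Group G] [Finite G] (hΦ : frattini G = ⊥) (A : Subgroup G) [A.Normal] [IsMulCommutative A] : ∃ H : Subgroup G, Subgroup.IsComplement' A H := by
  have hfin : {H : Subgroup G | A ⊔ H = ⊤}.Finite := Set.toFinite _
  have htop : (⊤ : Subgroup G) ∈ {H : Subgroup G | A ⊔ H = ⊤} := sup_top_eq A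
  obtain ⟨H, -, hH⟩ := hfin.exists_le_minimal htop
  obtain ⟨hAH, hmin⟩ := hH
  have hAH' : A ⊔ H = ⊤ := hAH
  -- D = A ⊓ H is normal
  have hDn : (A ⊓ H).Normal := by
    rw [← Subgroup.normalizer_eq_top_iff, eq_top_iff, ← hAH']
    apply sup_le
    · intro a ha
      rw [Subgroup.mem_normalizer_iff]
      intro d
      have key : ∀ d ∈ A ⊓ H, a * d * a⁻¹ = d := by
        intro d hd
        have : a * d = d * a := setLike_mul_comm ha hd.1
        rw [this, mul_inv_cancel_right]
      constructor
      · intro hd; rw [key d hd]; exact hd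
      · intro hd
        have hdA : d ∈ A := by
          have := A.mul_mem (A.mul_mem (A.inv_mem ha) hd.1) ha
          simpa [mul_assoc] using this
        have hcomm : a * d = d * a := setLike_mul_comm ha hdA
        have : a * d * a⁻¹ = d := by rw [hcomm, mul_inv_cancel_right]
        rw [this] at hd; exact hd
    · exact (le_inf ((Subgroup.normalizer_eq_top A).symm ▸ le_top) Subgroup.le_normalizer).trans
        Subgroup.inf_normalizer_le_normalizer_inf
  -- D ≤ frattini G
  have hDΦ : A ⊓ H ≤ frattini G := by
    unfold frattini Order.radical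
    rw [le_iInf_iff]
    intro M
    rw [le_iInf_iff]
    intro hM
    by_contra hcon
    have htop' : (A ⊓ H) ⊔ M = ⊤ := by
      apply hM.2
      exact lt_of_le_of_ne le_sup_right (fun h => hcon (h ▸ le_sup_left))
    have hH1 : A ⊔ (H ⊓ M) = ⊤ := by
      rw [eq_top_iff, ← hAH']
      apply sup_le le_sup_left
      intro h hh
      have hmem : h ∈ ((A ⊓ H) ⊔ M : Subgroup G) := by rw [htop']; trivial
      rw [← SetLike.mem_coe, Subgroup.normal_mul] at hmem
      obtain ⟨d, hd, m, hm, hdm⟩ := hmem
      have hmH : m ∈ H := by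
        have : m = d⁻¹ * h := by rw [← hdm]; simp
        rw [this]
        exact H.mul_mem (H.inv_mem hd.2) hh
      rw [← hdm]
      exact mul_mem (Subgroup.mem_sup_left hd.1) (Subgroup.mem_sup_right ⟨hmH, hm⟩)
    have := hmin hH1 inf_le_left
    exact hcon (inf_le_right.trans (this.trans inf_le_right))
  rw [hΦ, le_bot_iff] at hDΦ
  refine ⟨H, Subgroup.isComplement'_of_disjoint_and_mul_eq_univ (disjoint_iff.mpr hDΦ) ?_⟩
  rw [← Subgroup.normal_mul, hAH']
  rfl

end Cfsg.Agent.S0585
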