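import Mathlib
import Cfsg.Statements.S0586
import Cfsg.Agent.S0575
import Cfsg.Agent.S0585

set_option autoImplicit false
open Cfsg

namespace Cfsg.Agent.S0586

/-- a finite nilpotent group with trivial Frattini subgroup is abelian -/
theorem comm_of_nilpotent_of_frattini_bot {N : Type*} [Group N] [Finite N]
    (hnil : Group.IsNilpotent N) (hΦ : frattini N = ⊥) : IsMulCommutative N := by
  rw [← commutator_eq_bot_iff, eq_bot_iff, ← hΦ]
  unfold frattini Order.radical
  rw [le_iInf_iff]
  intro M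
  rw [le_iInf_iff]
  intro hM
  have h2 := ((Group.isNilpotent_of_finite_tfae (G := N)).out 0 2).mp hnil
  haveI hMn : M.Normal := h2 M hM
  rw [← Subgroup.Normal.quotient_commutative_iff_commutator_le]
  haveI : Nontrivial (N ⧸ M) := by
    rw [QuotientGroup.nontrivial_iff]
    exact hM.1
  have hc : Subgroup.center (N ⧸ M) ≠ ⊥ := Group.IsNilpotent.center_ne_bot (N ⧸ M)
  have hlt : M < (Subgroup.center (N ⧸ M)).comap (QuotientGroup.mk' M) := by
    refine lt_of_le_of_ne ?_ ?_
    · intro x hx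
      rw [Subgroup.mem_comap]
      have : (QuotientGroup.mk' M) x = 1 := (QuotientGroup.eq_one_iff x).mpr hx
      rw [this]; exact one_mem _
    · intro heq
      apply hc
      rw [eq_bot_iff]
      intro z hz
      obtain ⟨x, rfl⟩ := QuotientGroup.mk'_surjective M z
      have hx : x ∈ (Subgroup.center (N ⧸ M)).comap (QuotientGroup.mk' M) := hz
      rw [← heq] at hx
      rw [Subgroup.mem_bot]
      exact (QuotientGroup.eq_one_iff x).mpr hx
  have htop := hM.2 _ hlt
  rw [← Subgroup.center_eq_top_iff, eq_top_iff]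
  intro z _
  obtain ⟨x, rfl⟩ := QuotientGroup.mk'_surjective M z
  have hx : x ∈ (Subgroup.center (N ⧸ M)).comap (QuotientGroup.mk' M) := by rw [htop]; trivial
  exact hx

/-- in a finite group with trivial Frattini subgroup, an abelian normal subgroup is generated by
the minimal normal subgroups it contains -/
theorem abelian_normal_le {G : Type*} [Group G] [Finite G] (hΦ : frattini G = ⊥)
    (A : Subgroup G) [hAn : A.Normal] [hAc : IsMulCommutative A] :
    A ≤ sSup {N : Subgroup G | N.Normal ∧ N ≠ ⊥ ∧ IsMulCommutative N ∧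
      ∀ K : Subgroup G, K.Normal → K ≤ N → K = ⊥ ∨ K = N} := by
  set S : Subgroup G := sSup {K : Subgroup G | K.Normal ∧ K ≠ ⊥ ∧ K ≤ A ∧
      ∀ L : Subgroup G, L.Normal → L ≤ K → L = ⊥ ∨ L = K} with hS
  have hSA : S ≤ A := sSup_le fun K hK => hK.2.2.1
  haveI hSn : S.Normal := Subgroup.sSup_normal _ fun K hK => hK.1
  have hAcomm : ∀ x ∈ A, ∀ y ∈ A, x * y = y * x := fun x hx y hy => setLike_mul_comm hx hy
  haveI hSc : IsMulCommutative S :=
    isMulCommutative_iff_of_setLike.mpr fun x hx y hy => hAcomm x (hSA hx) y (hSA hy)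
  have hST : S ≤ sSup {N : Subgroup G | N.Normal ∧ N ≠ ⊥ ∧ IsMulCommutative N ∧
      ∀ K : Subgroup G, K.Normal → K ≤ N → K = ⊥ ∨ K = N} := by
    apply sSup_le
    intro K hK
    apply le_sSup
    exact ⟨hK.1, hK.2.1, isMulCommutative_iff_of_setLike.mpr
      fun x hx y hy => hAcomm x (hK.2.2.1 hx) y (hK.2.2.1 hy), hK.2.2.2⟩
  obtain ⟨H, hH⟩ := Cfsg.Agent.S0585.result hΦ S
  have hsup : S ⊔ H = ⊤ := hH.sup_eq_top
  have hdisj : S ⊓ H = ⊥ := disjoint_iff.mp hH.disjoint
  -- D = A ⊓ H is normal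
  have hDn : (A ⊓ H).Normal := by
    rw [← Subgroup.normalizer_eq_top_iff, eq_top_iff, ← hsup]
    apply sup_le
    · refine le_trans ?_ (Subgroup.centralizer_le_normalizer _)
      intro s hs
      rw [Subgroup.mem_centralizer_iff]
      intro d hd
      exact hAcomm d hd.1 s (hSA hs)
    · exact (le_inf ((Subgroup.normalizer_eq_top A).symm ▸ le_top) Subgroup.le_normalizer).trans
        Subgroup.inf_normalizer_le_normalizer_inf
  have hD : A ⊓ H = ⊥ := by
    by_contra hne
    have hfin : {K : Subgroup G | K.Normal ∧ K ≠ ⊥ ∧ K ≤ A ⊓ H}.Finite := Set.toFinite _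
    obtain ⟨K0, -, hK0⟩ := hfin.exists_le_minimal (a := A ⊓ H) ⟨hDn, hne, le_rfl⟩
    obtain ⟨⟨hK0n, hK0ne, hK0le⟩, hK0min⟩ := hK0
    have hK0S : K0 ≤ S := by
      apply le_sSup
      refine ⟨hK0n, hK0ne, hK0le.trans inf_le_left, ?_⟩
      intro L hLn hL
      by_cases hLb : L = ⊥
      · exact Or.inl hLb
      · exact Or.inr (le_antisymm hL (hK0min ⟨hLn, hLb, hL.trans hK0le⟩ hL))
    have : K0 ≤ S ⊓ H := le_inf hK0S (hK0le.trans inf_le_right)
    rw [hdisj, le_bot_iff] at this
    exact hK0ne this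
  have hAS : A ≤ S := by
    intro a ha
    have hmem : a ∈ (S ⊔ H : Subgroup G) := by rw [hsup]; trivial
    rw [← SetLike.mem_coe, Subgroup.normal_mul] at hmem
    obtain ⟨s, hs, h, hh, rfl⟩ := hmem
    have hhA : h ∈ A := by
      have := A.mul_mem (A.inv_mem (hSA hs)) ha
      simpa using this
    have : h ∈ A ⊓ H := ⟨hhA, hh⟩
    rw [hD, Subgroup.mem_bot] at this
    subst this
    show s * 1 ∈ S
    rw [mul_one]
    exact hs
  exact hAS.trans hST

/-- If the Frattini subgroup of a finite group G is trivial, then the Fitting subgroup of G equals the join of all abelian minimal normal subgroups of G. -/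
theorem result {G : Type*} [Group G] [Finite G] (hΦ : frattini G = ⊥) : Cfsg.fittingSubgroup G = sSup {N : Subgroup G | N.Normal ∧ N ≠ ⊥ ∧ IsMulCommutative N ∧ ∀ K : Subgroup G, K.Normal → K ≤ N → K = ⊥ ∨ K = N} := by
  apply le_antisymm
  · unfold Cfsg.fittingSubgroup
    apply sSup_le
    rintro N ⟨hNn, hNnil⟩
    haveI := hNn
    have hΦN : frattini ↥N = ⊥ := by
      have h1 := Cfsg.Agent.S0575.result N
      rw [hΦ, le_bot_iff] at h1
      exact (Subgroup.map_eq_bot_iff_of_injective _ N.subtype_injective).mp h1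
    haveI := comm_of_nilpotent_of_frattini_bot hNnil hΦN
    exact abelian_normal_le hΦ N
  · apply sSup_le
    rintro N ⟨hNn, -, hNc, -⟩
    apply le_sSup
    refine ⟨hNn, ?_⟩
    rw [Subgroup.isNilpotent_iff_lowerCentralSeries]
    refine ⟨1, ?_⟩
    rw [Subgroup.lowerCentralSeries_succ, Subgroup.lowerCentralSeries_zero]
    exact Subgroup.commutator_self_eq_bot_iff.mpr hNc

end Cfsg.Agent.S0586
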