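import Mathlib
import Cfsg.Statements.S0661
import Cfsg.Agent.H1.PQLemma
import Cfsg.Agent.H1.Coprime
import Cfsg.Agent.H14.Cores

set_option autoImplicit false
open Cfsg

namespace Cfsg.Agent.S0661

theorem inf_eq_bot_of_pgroup_coprime {G : Type*} [Group G] [Finite G] {p : ℕ} [Fact p.Prime]
    (U X : Subgroup G) (hU : IsPGroup p U) (hX : (Nat.card X).Coprime p) : U ⊓ X = ⊥ := by
  apply Subgroup.inf_eq_bot_of_coprime
  obtain ⟨n, hn⟩ := IsPGroup.iff_card.mp hU
  rw [hn]
  exact (Nat.Coprime.pow_right n hX).symm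

theorem aux {G : Type*} [Group G] [Finite G] {p : ℕ} [Fact p.Prime] (K : Subgroup G)
    [hKn : K.Normal] (hKcop : (Nat.card K).Coprime p)
    (U : Subgroup (G ⧸ K)) [hUn : U.Normal] (hUp : IsPGroup p U)
    (hc : Subgroup.centralizer (U : Set (G ⧸ K)) ≤ U)
    (P : Subgroup G) (hP : IsPGroup p P) (N : Subgroup G)
    (hNdef : Subgroup.normalizer (P : Set G) = N) (Y : Subgroup N) [hYn : Y.Normal]
    (hYcop : (Nat.card Y).Coprime p) :
    Y.map N.subtype ≤ K := by
  classical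
  have hPN : P ≤ N := by rw [← hNdef]; exact Subgroup.le_normalizer
  have hPNn : (P.subgroupOf N).Normal := by
    subst hNdef
    exact Subgroup.normal_in_normalizer
  have hdisj : Y ⊓ P.subgroupOf N = ⊥ := by
    rw [inf_comm]
    exact inf_eq_bot_of_pgroup_coprime _ _ (hP.comap_subtype) hYcop
  have hcomm : ∀ y ∈ Y, ∀ g ∈ P.subgroupOf N, Commute y g := fun y hy g hg =>
    Subgroup.commute_of_normal_of_disjoint Y (P.subgroupOf N) hYn hPNn
      (disjoint_iff.mpr hdisj) y g hy hg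
  have hXcop : (Nat.card (Y.map N.subtype)).Coprime p :=
    Nat.Coprime.coprime_dvd_left (Subgroup.card_map_dvd _ _) hYcop
  have hXbcop : (Nat.card ((Y.map N.subtype).map (QuotientGroup.mk' K))).Coprime p :=
    Nat.Coprime.coprime_dvd_left (Subgroup.card_map_dvd _ _) hXcop
  have hPb : IsPGroup p (P.map (QuotientGroup.mk' K)) := hP.map _
  have hPX : P.map (QuotientGroup.mk' K) ≤
      Subgroup.centralizer (((Y.map N.subtype).map (QuotientGroup.mk' K) : Subgroup (G ⧸ K)) :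
        Set (G ⧸ K)) := by
    rintro _ ⟨a, ha, rfl⟩
    rw [Subgroup.mem_centralizer_iff]
    rintro _ ⟨_, ⟨y, hy, rfl⟩, rfl⟩
    have h1 := hcomm y hy ⟨a, hPN ha⟩ (Subgroup.mem_subgroupOf.mpr ha)
    have h2 : (y : G) * a = a * y := congrArg Subtype.val h1.eq
    show (QuotientGroup.mk' K) (y : G) * (QuotientGroup.mk' K) a =
      (QuotientGroup.mk' K) a * (QuotientGroup.mk' K) (y : G)
    rw [← map_mul, ← map_mul, h2]
  have hC : U ⊓ Subgroup.centralizer ((P.map (QuotientGroup.mk' K) : Subgroup (G ⧸ K)) :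
        Set (G ⧸ K)) ≤
      Subgroup.centralizer (((Y.map N.subtype).map (QuotientGroup.mk' K) : Subgroup (G ⧸ K)) :
        Set (G ⧸ K)) := by
    intro ub hub
    obtain ⟨hubU, hubC⟩ := Subgroup.mem_inf.mp hub
    obtain ⟨u, rfl⟩ := QuotientGroup.mk'_surjective K ub
    have hx : ∀ a ∈ P, u⁻¹ * a * u * a⁻¹ ∈ K := by
      intro a ha
      rw [← QuotientGroup.ker_mk' K, MonoidHom.mem_ker]
      have h1 := (Subgroup.mem_centralizer_iff.mp hubC) ((QuotientGroup.mk' K) a) ⟨a, ha, rfl⟩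
      simp only [map_mul, map_inv]
      rw [mul_assoc ((QuotientGroup.mk' K) u)⁻¹, h1, ← mul_assoc, inv_mul_cancel, one_mul,
        mul_inv_cancel]
    have hPsolv : Group.IsSolvable P := by
      have : Group.IsNilpotent P := hP.isNilpotent
      infer_instance
    obtain ⟨d, hd, hud⟩ := H1.exists_mul_mem_normalizer P K
      (by rw [Subgroup.normalizer_eq_top]; exact le_top)
      (by
        obtain ⟨n, hn⟩ := IsPGroup.iff_card.mp hP
        rw [hn]
        exact (Nat.Coprime.pow_right n hKcop).symm)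
      (Or.inl hPsolv) u hx
    have hπ : (QuotientGroup.mk' K) (u * d) = (QuotientGroup.mk' K) u := by
      rw [map_mul]
      have : (QuotientGroup.mk' K) d = 1 := (QuotientGroup.eq_one_iff d).mpr hd
      rw [this, mul_one]
    rw [← hπ] at hubU ⊢
    rw [hNdef] at hud
    rw [Subgroup.mem_centralizer_iff]
    rintro _ ⟨_, ⟨y, hy, rfl⟩, rfl⟩
    have hmemY : (⟨u * d, hud⟩ : N) * y * (⟨u * d, hud⟩ : N)⁻¹ * y⁻¹ ∈ Y :=
      Y.mul_mem (hYn.conj_mem y hy _) (Y.inv_mem hy)
    have hmemXb : (QuotientGroup.mk' K) ((u * d) * y * (u * d)⁻¹ * (y : G)⁻¹) ∈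
        (Y.map N.subtype).map (QuotientGroup.mk' K) :=
      ⟨_, ⟨_, hmemY, rfl⟩, rfl⟩
    have hmemU : (QuotientGroup.mk' K) ((u * d) * y * (u * d)⁻¹ * (y : G)⁻¹) ∈ U := by
      have e : (QuotientGroup.mk' K) ((u * d) * y * (u * d)⁻¹ * (y : G)⁻¹) =
          (QuotientGroup.mk' K) (u * d) * ((QuotientGroup.mk' K) (y : G) *
            ((QuotientGroup.mk' K) (u * d))⁻¹ * ((QuotientGroup.mk' K) (y : G))⁻¹) := by
        simp only [map_mul, map_inv, mul_assoc]
      rw [e]
      exact U.mul_mem hubU (hUn.conj_mem _ (U.inv_mem hubU) _)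
    have h1 : (QuotientGroup.mk' K) ((u * d) * y * (u * d)⁻¹ * (y : G)⁻¹) = 1 := by
      have hmem := Subgroup.mem_inf.mpr ⟨hmemU, hmemXb⟩
      rw [inf_eq_bot_of_pgroup_coprime U _ hUp hXbcop] at hmem
      exact Subgroup.mem_bot.mp hmem
    rw [map_mul, map_mul, map_inv, map_inv] at h1
    have h2 := mul_inv_eq_one.mp h1
    have h3 := mul_inv_eq_iff_eq_mul.mp h2
    exact h3.symm
  have hcent := H1.pq_lemma p (P.map (QuotientGroup.mk' K))
    ((Y.map N.subtype).map (QuotientGroup.mk' K)) U hPb hXbcop hUp hPX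
    (by rw [Subgroup.normalizer_eq_top]; exact le_top)
    (by rw [Subgroup.normalizer_eq_top]; exact le_top) hC
  have hXbU : (Y.map N.subtype).map (QuotientGroup.mk' K) ≤ U := hcent.trans hc
  have hXbbot : (Y.map N.subtype).map (QuotientGroup.mk' K) = ⊥ := by
    have h1 := inf_eq_bot_of_pgroup_coprime U _ hUp hXbcop
    rwa [inf_eq_right.mpr hXbU] at h1
  intro x hx
  have hmem : (QuotientGroup.mk' K) x ∈ (Y.map N.subtype).map (QuotientGroup.mk' K) :=
    ⟨x, hx, rfl⟩
  rw [hXbbot, Subgroup.mem_bot] at hmem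
  exact (QuotientGroup.eq_one_iff x).mp hmem

/-- core of the normalizer of a `p`-subgroup in a `p`-constrained group -/
theorem result {G : Type*} [Group G] [Finite G] {p : ℕ} [Fact p.Prime] (hc : Subgroup.centralizer (Cfsg.pCore p (G ⧸ Cfsg.pPrimeCore p G) : Set (G ⧸ Cfsg.pPrimeCore p G)) ≤ Cfsg.pCore p (G ⧸ Cfsg.pPrimeCore p G)) (P : Subgroup G) (hP : IsPGroup p P) : (Cfsg.pPrimeCore p ↥(Subgroup.normalizer (P : Set G))).map (Subgroup.normalizer (P : Set G)).subtype = Cfsg.pPrimeCore p G ⊓ Subgroup.normalizer (P : Set G) := by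
  classical
  have hKcop : (Nat.card (Cfsg.pPrimeCore p G)).Coprime p := H14.pPrimeCore_coprime p G
  apply le_antisymm
  · apply le_inf
    · exact aux (Cfsg.pPrimeCore p G) hKcop (Cfsg.pCore p (G ⧸ Cfsg.pPrimeCore p G))
        (H14.pCore_isPGroup p _) hc P hP _ rfl _ (H14.pPrimeCore_coprime p _)
    · exact Subgroup.map_subtype_le _
  · intro x hx
    obtain ⟨hxK, hxN⟩ := Subgroup.mem_inf.mp hx
    have hsub : (Cfsg.pPrimeCore p G).subgroupOf (Subgroup.normalizer (P : Set G)) ≤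
        Cfsg.pPrimeCore p ↥(Subgroup.normalizer (P : Set G)) := by
      apply H14.le_pPrimeCore inferInstance
      rw [H1.card_subgroupOf]
      exact Nat.Coprime.coprime_dvd_left (Subgroup.card_dvd_of_le inf_le_left) hKcop
    exact ⟨⟨x, hxN⟩, hsub (Subgroup.mem_subgroupOf.mpr hxK), rfl⟩

end Cfsg.Agent.S0661
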