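import Cfsg.Statements.S4436
import Cfsg.Agent.H20.FongReynolds2

set_option autoImplicit false
set_option linter.style.haveILetI false
open Cfsg

namespace Cfsg.Agent.S4436

/-- Let N be a normal subgroup of the finite group G, b a block of N (relative to a maximal ideal M of the algebraic integers containing p), T the stabilizer of b in G, N ≤ T, and B′ a block of T covering b (some member of B′ has a constituent in b on restriction to N) that induces the block B of G. Then every defect group of B′ is a defect group of B, and for every ψ ∈ B′ the induced character ψ^G is an irreducible character of G lying in B with the same height as ψ. -/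
theorem result {G : Type*} [Group G] [Fintype G] (p : ℕ) [Fact p.Prime] (M : Ideal Cfsg.AlgInt) (hM : Cfsg.IsPModular p M) (N : Subgroup G) [hN : N.Normal] [Fintype N] (b : Set (Cfsg.IrrCharacter N)) (hb : Cfsg.IsPBlock M b) (T : Subgroup G) [Fintype T] (hT : ∀ g : G, g ∈ T ↔ ∀ θ ∈ b, ∀ θ' : Cfsg.IrrCharacter N, (∀ n : N, (θ' : N → ℂ) n = (θ : N → ℂ) ⟨g * n * g⁻¹, hN.conj_mem n n.2 g⟩) → θ' ∈ b) (hNT : N ≤ T) (B' : Set (Cfsg.IrrCharacter T)) (hB' : Cfsg.IsPBlock M B') (hcov : (∃ ψ ∈ B', ∃ θ ∈ b, Cfsg.classInner (fun n : N => (ψ : T → ℂ) ⟨(n : G), hNT n.2⟩) (θ : N → ℂ) ≠ 0)) (B : Set (Cfsg.IrrCharacter G)) (hind : Cfsg.IsInducedBlock M T B' B) : (∀ D : Subgroup T, Cfsg.IsDefectGroup p M B' D → Cfsg.IsDefectGroup p M B (D.map T.subtype)) ∧ ∀ ψ ∈ B', ∃ χ ∈ B, (χ : G → ℂ) = Cfsg.indFun T (ψ : T → ℂ) ∧ Cfsg.blockHeight p B (χ : G → ℂ) = Cfsg.blockHeight p B' (ψ : T → ℂ) := by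
  classical
  have hMp := Cfsg.Agent.H20.isPrime_of_isPModular hM
  obtain ⟨hst, horth⟩ := Cfsg.Agent.H20.frStab_of_stab N T b hMp hb hT
  have hbR : ∀ n : N, Cfsg.MemLocalRing M (Cfsg.blockCoeff b n) := by
    obtain ⟨θ₀, rfl⟩ := hb
    exact fun n => Cfsg.Agent.H20.blockCoeff_memLocalRing hMp θ₀ n
  obtain ⟨B₀, hind₀, _, hirr, hiff⟩ :=
    Cfsg.Agent.H20.fr_part_one N T hNT b hMp hst horth hbR B' hB' hcov
  have hBB : B = B₀ := Cfsg.Agent.H20.isInducedBlock_unique hMp hind hind₀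
  subst hBB
  refine ⟨?_, ?_⟩
  · intro D hD
    exact Cfsg.Agent.H20.fr_defectGroup T hM B' B hind hirr hiff D hD
  · intro ψ hψ
    refine ⟨⟨Cfsg.indFun T ψ.1, hirr ψ hψ⟩, (hiff _).mpr ⟨ψ, hψ, rfl⟩, rfl, ?_⟩
    exact Cfsg.Agent.H20.fr_height T B' B hirr hiff ψ hψ

end Cfsg.Agent.S4436
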