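import Mathlib
import Cfsg.Statements.S1510
import Cfsg.Agent.H32.Basic

set_option autoImplicit false
open Cfsg

namespace Cfsg.Agent.S1510

theorem sup_zpowers_eq_of_coprime {G : Type*} [Group G] {g₁ g₂ : G} (hc : Commute g₁ g₂)
    (hcop : Nat.Coprime (orderOf g₁) (orderOf g₂)) :
    Subgroup.zpowers g₁ ⊔ Subgroup.zpowers g₂ = Subgroup.zpowers (g₁ * g₂) := by
  apply le_antisymm
  · rw [sup_le_iff]
    constructor
    · rw [Subgroup.zpowers_le]
      obtain ⟨m, hm⟩ := exists_pow_eq_self_of_coprime hcop.symm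
      have : (g₁ * g₂) ^ (orderOf g₂ * m) = g₁ := by
        rw [hc.mul_pow, pow_mul, pow_mul, pow_orderOf_eq_one, one_pow, mul_one, hm]
      have h := Subgroup.pow_mem (Subgroup.zpowers (g₁ * g₂)) (Subgroup.mem_zpowers (g₁ * g₂))
        (orderOf g₂ * m)
      rwa [this] at h
    · rw [Subgroup.zpowers_le]
      obtain ⟨m, hm⟩ := exists_pow_eq_self_of_coprime hcop
      have : (g₁ * g₂) ^ (orderOf g₁ * m) = g₂ := by
        rw [hc.mul_pow, pow_mul, pow_mul, pow_orderOf_eq_one, one_pow, one_mul, hm]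
      have h := Subgroup.pow_mem (Subgroup.zpowers (g₁ * g₂)) (Subgroup.mem_zpowers (g₁ * g₂))
        (orderOf g₁ * m)
      rwa [this] at h
  · rw [Subgroup.zpowers_le]
    exact Subgroup.mul_mem _ (Subgroup.mem_sup_left (Subgroup.mem_zpowers _))
      (Subgroup.mem_sup_right (Subgroup.mem_zpowers _))

/-- Let L be a finite group with a normal subgroup K and a nontrivial cyclic subgroup W₁ of order coprime to its index, K ⊓ W₁ = ⊥ and K ⊔ W₁ = ⊤; let W₂ ≠ ⊥ be a cyclic subgroup of K with K ⊓ C_L(x) = W₂ for every non-identity x ∈ W₁, and suppose W₁ ⊔ W₂ has odd order. Then (W₁, W₂) is a self-normalising cyclic pair in L. -/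
theorem result {L : Type*} [Group L] [Fintype L] (K W₁ W₂ : Subgroup L) [hK : K.Normal] (hKW₁ : K ⊓ W₁ = ⊥) (hKW₁' : K ⊔ W₁ = ⊤) (hW₁ : W₁ ≠ ⊥) (hW₁c : IsCyclic W₁) (hHall : Nat.Coprime (Nat.card W₁) W₁.index) (hW₂ : W₂ ≠ ⊥) (hW₂c : IsCyclic W₂) (hW₂K : W₂ ≤ K) (hC : ∀ x ∈ W₁, x ≠ 1 → K ⊓ Subgroup.centralizer ({x} : Set L) = W₂) (hodd : Odd (Nat.card ↥(W₁ ⊔ W₂))) : Cfsg.IsSelfNormalizingCyclic W₁ W₂ := by
  have hdisj : W₁ ⊓ W₂ = ⊥ := by
    apply le_antisymm _ bot_le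
    rw [← hKW₁]
    exact le_inf (inf_le_right.trans hW₂K) inf_le_left
  have hcomm : ∀ a ∈ W₁, ∀ b ∈ W₂, a * b = b * a := by
    intro a ha b hb
    by_cases ha1 : a = 1
    · subst ha1; simp
    · have : b ∈ K ⊓ Subgroup.centralizer ({a} : Set L) := by rw [hC a ha ha1]; exact hb
      exact Cfsg.Agent.H32.mem_centralizer_singleton.mp this.2
  obtain ⟨g₁, hg₁⟩ := (Subgroup.isCyclic_iff_exists_zpowers_eq_top W₁).mp hW₁c
  obtain ⟨g₂, hg₂⟩ := (Subgroup.isCyclic_iff_exists_zpowers_eq_top W₂).mp hW₂c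
  have hg₁W : g₁ ∈ W₁ := hg₁ ▸ Subgroup.mem_zpowers g₁
  have hg₂W : g₂ ∈ W₂ := hg₂ ▸ Subgroup.mem_zpowers g₂
  have hcg : Commute g₁ g₂ := hcomm g₁ hg₁W g₂ hg₂W
  have hcompl : Subgroup.IsComplement' K W₁ := by
    apply Subgroup.isComplement'_of_disjoint_and_mul_eq_univ
    · exact disjoint_iff.mpr hKW₁
    · rw [← Subgroup.normal_mul, hKW₁']; rfl
  have hidx : W₁.index = Nat.card K := hcompl.index_eq_card
  have hcard₁ : orderOf g₁ = Nat.card W₁ := by rw [← hg₁, Nat.card_zpowers]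
  have hcard₂ : orderOf g₂ = Nat.card W₂ := by rw [← hg₂, Nat.card_zpowers]
  have hcop : Nat.Coprime (Nat.card W₁) (Nat.card W₂) := by
    rw [hidx] at hHall
    exact Nat.Coprime.coprime_dvd_right (Subgroup.card_dvd_of_le hW₂K) hHall
  have hcop' : Nat.Coprime (orderOf g₁) (orderOf g₂) := by rw [hcard₁, hcard₂]; exact hcop
  have hsup : W₁ ⊔ W₂ = Subgroup.zpowers (g₁ * g₂) := by
    rw [← hg₁, ← hg₂]; exact sup_zpowers_eq_of_coprime hcg hcop'
  have hcyc : IsCyclic ↥(W₁ ⊔ W₂) := by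
    rw [hsup]; infer_instance
  have hWcomm : ∀ a ∈ W₁ ⊔ W₂, ∀ b ∈ W₁ ⊔ W₂, a * b = b * a := by
    intro a ha b hb
    rw [hsup] at ha hb
    obtain ⟨i, rfl⟩ := Subgroup.mem_zpowers_iff.mp ha
    obtain ⟨j, rfl⟩ := Subgroup.mem_zpowers_iff.mp hb
    exact ((Commute.refl (g₁ * g₂)).zpow_zpow i j).eq
  refine ⟨hW₁, hW₂, hdisj, hcomm, hcyc, ?_⟩
  intro X hX hXne
  apply le_antisymm
  · intro g hg
    obtain ⟨x, hx⟩ := hXne
    have hxW := (hX hx).1
    have hxn := (hX hx).2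
    have hgx : g * x * g⁻¹ ∈ X := (Subgroup.mem_set_normalizer_iff.mp hg x).mp hx
    have hgxW : g * x * g⁻¹ ∈ W₁ ⊔ W₂ := (hX hgx).1
    -- decompose elements of W
    have hdec : ∀ w ∈ W₁ ⊔ W₂, ∃ w₁ ∈ W₁, ∃ w₂ ∈ W₂, w = w₁ * w₂ := by
      intro w hw
      rw [hsup] at hw
      obtain ⟨i, rfl⟩ := Subgroup.mem_zpowers_iff.mp hw
      exact ⟨g₁ ^ i, W₁.zpow_mem hg₁W i, g₂ ^ i, W₂.zpow_mem hg₂W i, hcg.mul_zpow i⟩
    obtain ⟨w₁, hw₁, w₂, hw₂, hxw⟩ := hdec x hxW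
    obtain ⟨v₁, hv₁, v₂, hv₂, hgxv⟩ := hdec _ hgxW
    have hw₁1 : w₁ ≠ 1 := by
      rintro rfl
      apply hxn
      right
      rw [hxw, one_mul]; exact hw₂
    set m := Nat.card W₂ with hm
    have hpowW₂ : ∀ w ∈ W₂, w ^ m = 1 := by
      intro w hw
      have : (⟨w, hw⟩ : W₂) ^ m = 1 := pow_card_eq_one'
      simpa using congrArg Subtype.val this
    set z := w₁ ^ m with hz
    have hzW : z ∈ W₁ := W₁.pow_mem hw₁ m
    have hz1 : z ≠ 1 := by
      intro h1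
      apply hw₁1
      have h2 : orderOf w₁ ∣ m := orderOf_dvd_of_pow_eq_one h1
      have h3 : orderOf w₁ ∣ Nat.card W₁ := Subgroup.orderOf_dvd_natCard _ hw₁
      have h4 : orderOf w₁ ∣ Nat.gcd (Nat.card W₁) m := Nat.dvd_gcd h3 h2
      rw [Nat.Coprime] at hcop
      rw [hcop] at h4
      exact orderOf_eq_one_iff.mp (Nat.dvd_one.mp h4)
    have hxm : x ^ m = z := by
      rw [hxw, (show Commute w₁ w₂ from hcomm w₁ hw₁ w₂ hw₂).mul_pow, hpowW₂ w₂ hw₂, mul_one]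
    have hgz : g * z * g⁻¹ ∈ W₁ := by
      rw [← hxm, ← conj_pow, hgxv, (show Commute v₁ v₂ from hcomm v₁ hv₁ v₂ hv₂).mul_pow,
        hpowW₂ v₂ hv₂, mul_one]
      exact W₁.pow_mem hv₁ m
    -- write g = k * y
    have hgtop : g ∈ (↑(K ⊔ W₁) : Set L) := by rw [hKW₁']; trivial
    rw [Subgroup.normal_mul] at hgtop
    obtain ⟨k, hk, y, hy, rfl⟩ := Set.mem_mul.mp hgtop
    have hyz : y * z = z * y := by
      have := hWcomm y (Subgroup.mem_sup_left hy) z (Subgroup.mem_sup_left hzW)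
      exact this
    have hkz : k * z * k⁻¹ ∈ W₁ := by
      have e : k * y * z * (k * y)⁻¹ = k * z * k⁻¹ := by
        calc k * y * z * (k * y)⁻¹ = k * (y * z) * y⁻¹ * k⁻¹ := by group
          _ = k * (z * y) * y⁻¹ * k⁻¹ := by rw [hyz]
          _ = k * z * k⁻¹ := by group
      rw [← e]; exact hgz
    have hkzK : k * z * k⁻¹ * z⁻¹ ∈ K := by
      have e : k * z * k⁻¹ * z⁻¹ = k * (z * k⁻¹ * z⁻¹) := by group
      rw [e]
      exact K.mul_mem hk (hK.conj_mem _ (K.inv_mem hk) z)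
    have hkzW : k * z * k⁻¹ * z⁻¹ ∈ W₁ := W₁.mul_mem hkz (W₁.inv_mem hzW)
    have h1 : k * z * k⁻¹ * z⁻¹ = 1 := by
      have : k * z * k⁻¹ * z⁻¹ ∈ K ⊓ W₁ := ⟨hkzK, hkzW⟩
      rw [hKW₁] at this
      simpa using this
    have hkc : k ∈ K ⊓ Subgroup.centralizer ({z} : Set L) := by
      refine ⟨hk, ?_⟩
      show k ∈ Subgroup.centralizer ({z} : Set L)
      rw [Cfsg.Agent.H32.mem_centralizer_singleton]
      have : k * z = z * k := by
        calc k * z = (k * z * k⁻¹ * z⁻¹) * z * k := by group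
          _ = z * k := by rw [h1, one_mul]
      exact this.symm
    rw [hC z hzW hz1] at hkc
    exact Subgroup.mul_mem _ (Subgroup.mem_sup_right hkc) (Subgroup.mem_sup_left hy)
  · intro w hw
    apply Subgroup.mem_normalizer_fintype
    intro n hn
    have hnW := (hX hn).1
    have : w * n * w⁻¹ = n := by
      rw [hWcomm w hw n hnW]; group
    rw [this]; exact hn

end Cfsg.Agent.S1510
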