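import Cfsg.Statements.S1505
import Cfsg.Agent.H32.SNC

set_option autoImplicit false
open Cfsg

namespace Cfsg.Agent.S1505

open Cfsg.Agent.H4 Cfsg.Agent.H32

open Classical in
/-- Let W₁, W₂ ≤ G form a self-normalising cyclic subgroup W = W₁ ⊔ W₂. For nontrivial linear characters φ, φ' of W trivial on W₂ and ψ, ψ' trivial on W₁, put α = (1 − φ)(1 − ψ) and α' = (1 − φ')(1 − ψ'). Then the function induced from α to G has inner product 1 with the principal character, and the inner product of the functions induced from α and α' is 1 + a + b + ab where a = 1 if φ = φ' (else 0) and b = 1 if ψ = ψ' (else 0). -/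
theorem result {G : Type*} [Group G] [Fintype G] (W₁ W₂ : Subgroup G) (hW : Cfsg.IsSelfNormalizingCyclic W₁ W₂) (φ φ' ψ ψ' : ↥(W₁ ⊔ W₂) →* ℂˣ) (hφ : φ ≠ 1) (hφ' : φ' ≠ 1) (hψ : ψ ≠ 1) (hψ' : ψ' ≠ 1) (hφ₂ : ∀ w : ↥(W₁ ⊔ W₂), (w : G) ∈ W₂ → φ w = 1 ∧ φ' w = 1) (hψ₁ : ∀ w : ↥(W₁ ⊔ W₂), (w : G) ∈ W₁ → ψ w = 1 ∧ ψ' w = 1) : Cfsg.classInner (Cfsg.indFun (W₁ ⊔ W₂) (fun w => 1 - (φ w : ℂ) - (ψ w : ℂ) + (φ w : ℂ) * (ψ w : ℂ))) (fun _ => 1) = 1 ∧ Cfsg.classInner (Cfsg.indFun (W₁ ⊔ W₂) (fun w => 1 - (φ w : ℂ) - (ψ w : ℂ) + (φ w : ℂ) * (ψ w : ℂ))) (Cfsg.indFun (W₁ ⊔ W₂) (fun w => 1 - (φ' w : ℂ) - (ψ' w : ℂ) + (φ' w : ℂ) * (ψ' w : ℂ))) = 1 + (if φ = φ' then 1 else 0) + (if ψ = ψ' then 1 else 0) + (if φ = φ' then 1 else 0) * (if ψ = ψ' then 1 else 0) := by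
  classical
  have : Fintype ↥(W₁ ⊔ W₂) := Fintype.ofFinite _
  set e : (↥(W₁ ⊔ W₂) →* ℂˣ) → (↥(W₁ ⊔ W₂) → ℂ) := fun ω w => ((ω w : ℂˣ) : ℂ) with he
  have hα : ∀ φ ψ : ↥(W₁ ⊔ W₂) →* ℂˣ,
      (fun w => 1 - (φ w : ℂ) - (ψ w : ℂ) + (φ w : ℂ) * (ψ w : ℂ)) =
        e 1 - e φ - e ψ + e (φ * ψ) := by
    intro φ ψ
    funext w
    simp [he]
  have hee : ∀ ω ω' : ↥(W₁ ⊔ W₂) →* ℂˣ,
      classInner (e ω) (e ω') = if ω = ω' then 1 else 0 := by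
    intro ω ω'
    exact classInner_unitsHom ω ω'
  have a₂ : ∀ w : ↥(W₁ ⊔ W₂), (w : G) ∈ W₂ → φ w = 1 := fun w hw => (hφ₂ w hw).1
  have a₂' : ∀ w : ↥(W₁ ⊔ W₂), (w : G) ∈ W₂ → φ' w = 1 := fun w hw => (hφ₂ w hw).2
  have b₁ : ∀ w : ↥(W₁ ⊔ W₂), (w : G) ∈ W₁ → ψ w = 1 := fun w hw => (hψ₁ w hw).1
  have b₁' : ∀ w : ↥(W₁ ⊔ W₂), (w : G) ∈ W₁ → ψ' w = 1 := fun w hw => (hψ₁ w hw).2
  have o₂ : ∀ w : ↥(W₁ ⊔ W₂), (w : G) ∈ W₂ → (1 : ↥(W₁ ⊔ W₂) →* ℂˣ) w = 1 := fun _ _ => rfl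
  have o₁ : ∀ w : ↥(W₁ ⊔ W₂), (w : G) ∈ W₁ → (1 : ↥(W₁ ⊔ W₂) →* ℂˣ) w = 1 := fun _ _ => rfl
  have m1 : ∀ ω : ↥(W₁ ⊔ W₂) →* ℂˣ, ω * 1 = ω := fun ω => mul_one ω
  have m2 : ∀ ω : ↥(W₁ ⊔ W₂) →* ℂˣ, 1 * ω = ω := fun ω => one_mul ω
  have h12 : ¬ ((1 : ↥(W₁ ⊔ W₂) →* ℂˣ) = φ') := fun h => hφ' h.symm
  have h13 : ¬ ((1 : ↥(W₁ ⊔ W₂) →* ℂˣ) = ψ') := fun h => hψ' h.symm
  have h14 : ¬ ((1 : ↥(W₁ ⊔ W₂) →* ℂˣ) = φ' * ψ') := by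
    intro h
    have h' : (1 : ↥(W₁ ⊔ W₂) →* ℂˣ) * 1 = φ' * ψ' := by rw [m1]; exact h
    exact hφ' (snc_mul_eq_mul W₁ W₂ 1 φ' 1 ψ' o₂ a₂' o₁ b₁' h').1.symm
  have h21 : ¬ (φ = 1) := hφ
  have h23 : ¬ (φ = ψ') := by
    intro h
    have h' : φ * 1 = 1 * ψ' := by rw [m1, m2]; exact h
    exact hφ (snc_mul_eq_mul W₁ W₂ φ 1 1 ψ' a₂ o₂ o₁ b₁' h').1
  have h24 : ¬ (φ = φ' * ψ') := by
    intro h
    have h' : φ * 1 = φ' * ψ' := by rw [m1]; exact h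
    exact hψ' (snc_mul_eq_mul W₁ W₂ φ φ' 1 ψ' a₂ a₂' o₁ b₁' h').2.symm
  have h31 : ¬ (ψ = 1) := hψ
  have h32 : ¬ (ψ = φ') := by
    intro h
    have h' : 1 * ψ = φ' * 1 := by rw [m1, m2]; exact h
    exact hψ (snc_mul_eq_mul W₁ W₂ 1 φ' ψ 1 o₂ a₂' b₁ o₁ h').2
  have h34 : ¬ (ψ = φ' * ψ') := by
    intro h
    have h' : 1 * ψ = φ' * ψ' := by rw [m2]; exact h
    exact hφ' (snc_mul_eq_mul W₁ W₂ 1 φ' ψ ψ' o₂ a₂' b₁ b₁' h').1.symm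
  have h41 : ¬ (φ * ψ = 1) := by
    intro h
    have h' : φ * ψ = 1 * 1 := by rw [m1]; exact h
    exact hφ (snc_mul_eq_mul W₁ W₂ φ 1 ψ 1 a₂ o₂ b₁ o₁ h').1
  have h42 : ¬ (φ * ψ = φ') := by
    intro h
    have h' : φ * ψ = φ' * 1 := by rw [m1]; exact h
    exact hψ (snc_mul_eq_mul W₁ W₂ φ φ' ψ 1 a₂ a₂' b₁ o₁ h').2
  have h43 : ¬ (φ * ψ = ψ') := by
    intro h
    have h' : φ * ψ = 1 * ψ' := by rw [m2]; exact h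
    exact hφ (snc_mul_eq_mul W₁ W₂ φ 1 ψ ψ' a₂ o₂ b₁ b₁' h').1
  have h44 : φ * ψ = φ' * ψ' ↔ φ = φ' ∧ ψ = ψ' := by
    constructor
    · exact snc_mul_eq_mul W₁ W₂ φ φ' ψ ψ' a₂ a₂' b₁ b₁'
    · rintro ⟨h1, h2⟩
      rw [h1, h2]
  constructor
  · have hcf : IsClassFunction G (fun _ : G => (1 : ℂ)) := fun _ _ => rfl
    rw [frobenius_reciprocity _ _ _ hcf, hα]
    have h1 : (fun h : ↥(W₁ ⊔ W₂) => (fun _ : G => (1 : ℂ)) h) = e 1 := by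
      funext w
      simp [he]
    rw [h1, classInner_add_left, classInner_sub_left, classInner_sub_left, hee, hee, hee, hee,
      if_pos rfl, if_neg h21, if_neg h31, if_neg h41]
    ring
  · have hvan : ∀ w : ↥(W₁ ⊔ W₂), ((w : G) ∈ W₁ ∨ (w : G) ∈ W₂) →
        (fun w : ↥(W₁ ⊔ W₂) => 1 - (φ w : ℂ) - (ψ w : ℂ) + (φ w : ℂ) * (ψ w : ℂ)) w = 0 := by
      intro w hw
      show 1 - (φ w : ℂ) - (ψ w : ℂ) + (φ w : ℂ) * (ψ w : ℂ) = 0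
      rcases hw with hw | hw
      · rw [b₁ w hw]; simp
      · rw [a₂ w hw]; simp
    rw [snc_classInner_indFun W₁ W₂ hW _ _ hvan, hα, hα]
    simp only [classInner_add_left, classInner_sub_left, classInner_add_right,
      classInner_sub_right, hee]
    rw [if_pos trivial, if_neg h12, if_neg h13, if_neg h14, if_neg h21, if_neg h23, if_neg h24,
      if_neg h31, if_neg h32, if_neg h34, if_neg h41, if_neg h42, if_neg h43]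
    by_cases hp : φ = φ'
    · by_cases hq : ψ = ψ'
      · simp only [if_pos hp, if_pos hq, if_pos (h44.mpr ⟨hp, hq⟩)]; norm_num
      · simp only [if_pos hp, if_neg hq, if_neg (fun h => hq (h44.mp h).2)]; norm_num
    · by_cases hq : ψ = ψ'
      · simp only [if_neg hp, if_pos hq, if_neg (fun h => hp (h44.mp h).1)]; norm_num
      · simp only [if_neg hp, if_neg hq, if_neg (fun h => hp (h44.mp h).1)]; norm_num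

end Cfsg.Agent.S1505
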