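import Cfsg.Statements.S4717
import Cfsg.Agent.S0919
import Cfsg.Agent.H84.ThirdMain
import Cfsg.Agent.H84.MajorSub

set_option autoImplicit false
open Cfsg

namespace Cfsg.Agent.S4717

/-- Let p be a prime, M a maximal ideal of the algebraic integers containing p, and r a natural number; say that a finite group X has deficiency class r when X has no non-principal p-block of defect ≥ r. If G has deficiency class r then so does the centralizer of every p-element of G; conversely, if r > 0 and the centralizer of every element of order p has deficiency class r, then G has deficiency class r. -/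
theorem result {G : Type*} [Group G] [Finite G] (p : ℕ) [Fact p.Prime] (M : Ideal Cfsg.AlgInt) (hM : Cfsg.IsPModular p M) (r : ℕ) : ((∀ B' : Set (Cfsg.IrrCharacter G), Cfsg.IsPBlock M B' → B' ≠ Cfsg.principalBlock M G → Cfsg.blockDefect p B' < r) → ∀ y : G, (∃ k : ℕ, orderOf y = p ^ k) → (∀ B' : Set (Cfsg.IrrCharacter ↥(Subgroup.centralizer ({y} : Set G))), Cfsg.IsPBlock M B' → B' ≠ Cfsg.principalBlock M ↥(Subgroup.centralizer ({y} : Set G)) → Cfsg.blockDefect p B' < r)) ∧ (0 < r → (∀ y : G, orderOf y = p → (∀ B' : Set (Cfsg.IrrCharacter ↥(Subgroup.centralizer ({y} : Set G))), Cfsg.IsPBlock M B' → B' ≠ Cfsg.principalBlock M ↥(Subgroup.centralizer ({y} : Set G)) → Cfsg.blockDefect p B' < r)) → (∀ B' : Set (Cfsg.IrrCharacter G), Cfsg.IsPBlock M B' → B' ≠ Cfsg.principalBlock M G → Cfsg.blockDefect p B' < r)) := by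
  classical
  letI : Fintype G := Fintype.ofFinite G
  have hMp := Cfsg.Agent.H20.isPrime_of_isPModular hM
  have transport : ∀ (C C' : Subgroup G), C = C' →
      (∀ B' : Set (Cfsg.IrrCharacter ↥C), Cfsg.IsPBlock M B' → B' ≠ Cfsg.principalBlock M ↥C →
        Cfsg.blockDefect p B' < r) →
      (∀ B' : Set (Cfsg.IrrCharacter ↥C'), Cfsg.IsPBlock M B' → B' ≠ Cfsg.principalBlock M ↥C' →
        Cfsg.blockDefect p B' < r) := by
    intro C C' hC h
    subst hC
    exact h
  refine ⟨fun hG y hy b hb hb0 => ?_, fun hr hC B hB hB0 => ?_⟩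
  · have hdef : InducedBlockDefined M (Subgroup.centralizer ({y} : Set G)) b := by
      refine Cfsg.Agent.S0919.result p M hM (Subgroup.zpowers y)
        (Subgroup.centralizer ({y} : Set G)) ?_ ?_ ?_ ?_ b hb
      · obtain ⟨k, hk⟩ := hy
        exact IsPGroup.of_card (n := k) (by rw [Nat.card_zpowers, hk])
      · rw [Subgroup.zpowers_le]
        exact Subgroup.mem_centralizer_iff.mpr (fun h hh => by
          rw [Set.mem_singleton_iff] at hh
          rw [hh])
      · exact Subgroup.centralizer_le (by
          intro h hh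
          rw [Set.mem_singleton_iff] at hh
          rw [hh]
          exact Subgroup.mem_zpowers y)
      · intro g hg
        have hc : g ∈ Subgroup.centralizer ((Subgroup.zpowers y : Subgroup G) : Set G) := by
          rw [Subgroup.mem_centralizer_iff]
          intro h hh
          obtain ⟨k, rfl⟩ := Subgroup.mem_zpowers_iff.mp hh
          have h1 : Commute y g := Subgroup.mem_centralizer_iff.mp hg y rfl
          exact h1.zpow_left k
        exact Subgroup.centralizer_le_normalizer _ hc
    obtain ⟨B, hind⟩ := hdef
    have hBne : B ≠ Cfsg.principalBlock M G := by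
      rintro rfl
      exact hb0 ((Cfsg.Agent.H84.third_main p hM _ b ⟨_, hind⟩).mp hind)
    exact lt_of_le_of_lt (Cfsg.Agent.H84.defect_le_of_isInducedBlock hM _ b B hind)
      (hG B hind.2.1 hBne)
  · by_cases hd : Cfsg.blockDefect p B = 0
    · rw [hd]
      exact hr
    · obtain ⟨y, hyord, b, hpair, hle⟩ :=
        Cfsg.Agent.H84.exists_major_subsection p hM B hB (Nat.pos_of_ne_zero hd)
      have hQ : (Subgroup.zpowers y : Subgroup G) ≤
          Subgroup.centralizer ((Subgroup.zpowers y : Subgroup G) : Set G) := by
        rw [Subgroup.zpowers_le, Subgroup.mem_centralizer_iff]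
        intro w hw
        obtain ⟨k, rfl⟩ := Subgroup.mem_zpowers_iff.mp hw
        exact ((Commute.refl y).zpow_left k).eq
      have hind := Cfsg.Agent.H84.isInducedBlock_of_isBrauerPairOf hM B (Subgroup.zpowers y) hQ b
        hpair
      have hbne : b ≠ Cfsg.principalBlock M
          ↥(Subgroup.centralizer ((Subgroup.zpowers y : Subgroup G) : Set G)) := by
        intro hb0
        have h1 := (Cfsg.Agent.H84.third_main p hM _ b ⟨_, hind⟩).mpr hb0
        exact hB0 (Cfsg.Agent.H84.isInducedBlock_unique hMp hind h1)
      have h2 := transport _ _ (Cfsg.Agent.H84.centralizer_zpowers_eq y).symm (hC y hyord) b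
        hpair.1.2 hbne
      exact lt_of_le_of_lt hle h2

end Cfsg.Agent.S4717
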