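import Cfsg.Statements.S4718
import Cfsg.Agent.S4494
import Cfsg.Agent.H32.Landau
import Cfsg.Agent.H81.BlockDeg
import Cfsg.Agent.H4.IrrCount
import Cfsg.Agent.H82.Triv

set_option autoImplicit false
universe u
open Cfsg

namespace Cfsg.Agent.S4718

/-- Let p be a prime and a a natural number. There is a bound N such that every finite group whose Sylow p-subgroups have order p^a and whose only p-block (relative to a maximal ideal of the algebraic integers containing p) is the principal block has order at most N. -/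
theorem result (p : ℕ) [Fact p.Prime] (a : ℕ) : ∃ N : ℕ, ∀ (G : Type u) [Group G] [Finite G] (M : Ideal Cfsg.AlgInt), Cfsg.IsPModular p M → (Nat.card G).factorization p = a → (∀ B : Set (Cfsg.IrrCharacter G), Cfsg.IsPBlock M B → B = Cfsg.principalBlock M G) → Nat.card G ≤ N := by
  classical
  obtain ⟨N, hN⟩ := Cfsg.Agent.H32.landau_bound.{u} (p ^ (2 * a) + 1)
  refine ⟨N, ?_⟩
  intro G _ _ M hM ha hB
  apply hN G
  obtain ⟨χ0⟩ : Nonempty (IrrCharacter G) := ⟨Cfsg.Agent.H82.trivChar G⟩
  have hB0 : IsPBlock M (blockOf M (χ0 : G → ℂ)) := ⟨χ0, rfl⟩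
  have huniv : blockOf M (χ0 : G → ℂ) = Set.univ := by
    apply Set.eq_univ_of_forall
    intro χ
    have h1 := hB _ (⟨χ, rfl⟩ : IsPBlock M (blockOf M (χ : G → ℂ)))
    have h2 := hB _ hB0
    rw [h2, ← h1]
    exact Cfsg.Agent.H81.mem_blockOf_self hM χ
  have hbf := Cfsg.Agent.S4494.result p M hM _ hB0
  rw [huniv] at hbf
  have hcard : Nat.card (Set.univ : Set (IrrCharacter G)) = Nat.card (ConjClasses G) := by
    rw [Nat.card_congr (Equiv.Set.univ _)]
    exact Cfsg.Agent.H4.card_irr_eq_card_conjClasses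
  rw [hcard] at hbf
  have hd : blockDefect p (Set.univ : Set (IrrCharacter G)) ≤ a := by
    unfold blockDefect
    rw [ha]
    exact Nat.sub_le _ _
  have hpow : p ^ (2 * blockDefect p (Set.univ : Set (IrrCharacter G))) ≤ p ^ (2 * a) :=
    Nat.pow_le_pow_right (Fact.out : p.Prime).pos (by omega)
  omega

end Cfsg.Agent.S4718
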