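import Cfsg.Statements.S5029
import Cfsg.Agent.H85.RootLine

set_option autoImplicit false
open scoped commutatorElement
open Cfsg

namespace Cfsg.Agent.S5029

/-- Let S be a set of abstract root subgroups of G, A ∈ S having a rank one partner in S, and B ∈ S with C = ⁅A, B⁆ ∈ S. Then the members of S contained in AC are the conjugates of A by elements of B together with C, they partition AC, the members of S inside AC partition AC so that A is a line partner of C, and for every non-identity a ∈ A the map b ↦ a⁻¹ b⁻¹ a b is an isomorphism from B onto C. -/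
theorem result {G : Type*} [Group G] {S : Set (Subgroup G)} (hS : Cfsg.IsRootSubgroupSet S)
    {A B : Subgroup G} (hA : ¬ Cfsg.IsIsolatedIn (Cfsg.FAdj S) S A) (hAS : A ∈ S) (hB : B ∈ S) (hC : ⁅A, B⁆ ∈ S) :
    Cfsg.membersIn S (A ⊔ ⁅A, B⁆) = (fun b : G => Cfsg.conjBy A b) '' (B : Set G) ∪ {⁅A, B⁆} ∧
    Cfsg.IsSubgroupPartition (A ⊔ ⁅A, B⁆) (Cfsg.membersIn S (A ⊔ ⁅A, B⁆)) ∧
    A ∈ Cfsg.linePartners S ⁅A, B⁆ ∧
    ∀ a ∈ A, a ≠ 1 → ∃ φ : ↥B ≃* ↥⁅A, B⁆, ∀ b : ↥B, (φ b : G) = a⁻¹ * (b : G)⁻¹ * a * b := by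
  obtain ⟨A', hA', hAA'⟩ := Cfsg.Agent.H85.exists_partner hA hAS
  have h := Cfsg.Agent.H85.rcc_of_commutator_mem hS hAS hB hC
  have hpart := Cfsg.Agent.H85.rcc_partition hS hAS hA' hAA' h
  refine ⟨Cfsg.Agent.H85.rcc_membersIn hS hAS hA' hAA' h, hpart, ?_, ?_⟩
  · refine ⟨⟨hAS, Cfsg.Agent.H85.rcc_ne hS h, ?_⟩, ?_⟩
    · apply Cfsg.Agent.H85.commutator_eq_bot_of_comm
      intro c hc a ha
      exact h.2.1 c hc a (Subgroup.mem_sup_left ha)
    · rw [sup_comm]; exact hpart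
  · intro a ha ha1
    have key : ∀ b ∈ B, a⁻¹ * b⁻¹ * a * b = ⁅a, b⁆ := by
      intro b hb
      have e1 : a⁻¹ * b⁻¹ * a * b = ⁅a⁻¹, b⁻¹⁆ := by rw [commutatorElement_def]; group
      rw [e1, Cfsg.Agent.H85.rcc_comm_inv_right h (A.inv_mem ha) hb,
        Cfsg.Agent.H85.rcc_comm_inv_left h ha hb, inv_inv]
    let f : ↥B →* ↥⁅A, B⁆ :=
      { toFun := fun b => ⟨⁅a, (b : G)⁆, Subgroup.commutator_mem_commutator ha b.2⟩
        map_one' := by
          apply Subtype.ext
          simp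
        map_mul' := by
          intro b b'
          apply Subtype.ext
          simp only [Subgroup.coe_mul]
          exact Cfsg.Agent.H85.rcc_comm_mul_right h ha b.2 b'.2 }
    have hf : ∀ b : ↥B, ((f b : ↥⁅A, B⁆) : G) = ⁅a, (b : G)⁆ := fun b => rfl
    have hinj : Function.Injective f := by
      rw [injective_iff_map_eq_one]
      intro b hb
      have hb' : ⁅a, (b : G)⁆ = 1 := by
        have := congrArg (Subtype.val) hb
        simpa [hf] using this
      apply Subtype.ext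
      exact Cfsg.Agent.H85.rcc_inj_right hS hAS hA' hAA' h ha ha1 b.2 hb'
    have hsurj : Function.Surjective f := by
      intro c
      obtain ⟨b, hb, hbc⟩ := Cfsg.Agent.H85.rcc_surj_right h ha ha1 c.2
      exact ⟨⟨b, hb⟩, Subtype.ext hbc⟩
    refine ⟨MulEquiv.ofBijective f ⟨hinj, hsurj⟩, ?_⟩
    intro b
    rw [key b b.2]
    rfl

end Cfsg.Agent.S5029
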