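import Cfsg.Statements.S5031
import Cfsg.Agent.H85.RootComp

set_option autoImplicit false
open Cfsg

namespace Cfsg.Agent.S5031

/-- Let S be a set of abstract root subgroups of G and let A, B ∈ S lie in different connected components of the graph of rank one pairs on S, each component having more than one member. Then B is not a line partner of A. -/
theorem result {G : Type*} [Group G] {S : Set (Subgroup G)} (hS : Cfsg.IsRootSubgroupSet S)
    {A B : Subgroup G} (hA : A ∈ S) (hB : B ∈ S)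
    (hne : Cfsg.componentOf (Cfsg.FAdj S) S A ≠ Cfsg.componentOf (Cfsg.FAdj S) S B)
    (hA2 : ∃ A' ∈ Cfsg.componentOf (Cfsg.FAdj S) S A, A' ≠ A) (hB2 : ∃ B' ∈ Cfsg.componentOf (Cfsg.FAdj S) S B, B' ≠ B) :
    B ∉ Cfsg.linePartners S A := by
  open Cfsg.Agent.H85 in
  rintro ⟨⟨hBS, hBA, hcomm⟩, hpart⟩
  obtain ⟨A', hA', hAA'⟩ := exists_partner_of_component hA2
  obtain ⟨B', hB', hBB'⟩ := exists_partner_of_component hB2
  have hAB : ∀ a ∈ A, ∀ b ∈ B, a * b = b * a := fun a ha b hb => comm_of_commutator_eq_bot hcomm ha hb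
  have hBAc : ∀ b ∈ B, ∀ a ∈ A, b * a = a * b := fun b hb a ha => (hAB a ha b hb).symm
  obtain ⟨a, ha, ha1⟩ := rop_exists_left hAA'
  obtain ⟨b, hb, hb1⟩ := rop_exists_left hBB'
  have hinf : A ⊓ B = ⊥ := by
    by_contra hne'
    exact hBA (root_eq_of_inf_ne_bot hS hA' hBS hAA' hne').symm
  have hab1 : a * b ≠ 1 := by
    intro h
    have hmem : a ∈ A ⊓ B := by
      refine ⟨ha, ?_⟩
      have : a = b⁻¹ := eq_inv_of_mul_eq_one_left h
      rw [this]; exact B.inv_mem hb
    rw [hinf] at hmem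
    exact ha1 hmem
  obtain ⟨E, ⟨hE, hEle⟩, habE⟩ := hpart.2.1 (a * b)
    (Subgroup.mul_mem _ (Subgroup.mem_sup_left ha) (Subgroup.mem_sup_right hb)) hab1
  have hEB : E ≠ B := by
    rintro rfl
    have hmem : a ∈ A ⊓ E := by
      refine ⟨ha, ?_⟩
      have : a = (a * b) * b⁻¹ := by group
      rw [this]; exact E.mul_mem habE (E.inv_mem hb)
    rw [hinf] at hmem
    exact ha1 hmem
  have hEA : E ≠ A := by
    rintro rfl
    have hmem : b ∈ E ⊓ B := by
      refine ⟨?_, hb⟩
      have : b = a⁻¹ * (a * b) := by group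
      rw [this]; exact E.mul_mem (E.inv_mem ha) habE
    rw [hinf] at hmem
    exact hb1 hmem
  have c1 : componentOf (FAdj S) S A = componentOf (FAdj S) S A' :=
    component_eq_of_adj ⟨hA, hA', hAA'⟩
  have c2 : componentOf (FAdj S) S B = componentOf (FAdj S) S B' :=
    component_eq_of_adj ⟨hBS, hB', hBB'⟩
  have hBA' : ¬ IsRankOnePair B A' := by
    intro h
    apply hne
    rw [c1]
    exact (component_eq_of_adj ⟨hBS, hA', h⟩).symm
  have hAB' : ¬ IsRankOnePair A B' := by
    intro h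
    apply hne
    rw [c2]
    exact component_eq_of_adj ⟨hA, hB', h⟩
  have r1 : IsRankOnePair E A' :=
    line_rankOne hS hA hBS hA' hAA' hAB hBA' hE hEle ha ha1 hb hb1 habE hEB hab1
  have hEle' : E ≤ B ⊔ A := by rw [sup_comm]; exact hEle
  have hba : b * a = a * b := (hAB a ha b hb).symm
  have r2 : IsRankOnePair E B' :=
    line_rankOne hS hBS hA hB' hBB' hBAc hAB' hE hEle' hb hb1 ha ha1 (hba ▸ habE) hEA
      (hba ▸ hab1)
  apply hne
  rw [c1, c2, ← component_eq_of_adj ⟨hE, hA', r1⟩, ← component_eq_of_adj ⟨hE, hB', r2⟩]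

end Cfsg.Agent.S5031
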