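import Cfsg.Statements.S5032
import Cfsg.Agent.H85.RootConn

set_option autoImplicit false
open Cfsg

namespace Cfsg.Agent.S5032

/-- Let S be a set of abstract root subgroups of G with more than one member. Then the graph of rank one pairs on S is connected if and only if S is a single conjugacy class of G and some member of S has a rank one partner in S. -/
theorem result {G : Type*} [Group G] {S : Set (Subgroup G)} (hS : Cfsg.IsRootSubgroupSet S) (h2 : ∃ A ∈ S, ∃ B ∈ S, A ≠ B) :
    Cfsg.IsConnectedFamily (Cfsg.FAdj S) S ↔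
      (Cfsg.IsConjClassOfSubgroups S ∧ ∃ A ∈ S, ¬ Cfsg.IsIsolatedIn (Cfsg.FAdj S) S A) := by
  open Cfsg.Agent.H85 in
  constructor
  · intro hconn
    obtain ⟨A, hA, B, hB, hAB⟩ := h2
    refine ⟨⟨⟨A, hA⟩, ?_⟩, A, hA, ?_⟩
    · intro C hC D hD
      have key : ∀ D, Relation.ReflTransGen (FAdj S) C D → ∃ g : G, D = conjBy C g := by
        intro D hr
        induction hr with
        | refl => exact ⟨1, (conjBy_one C).symm⟩
        | tail _ hbc ih =>
          obtain ⟨g, rfl⟩ := ih
          obtain ⟨x, _, hx⟩ := rop_right_mem_unipotent hbc.2.2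
          exact ⟨x * g, by rw [hx, conjBy_conjBy]⟩
      exact key D (hconn C hC D hD)
    · intro hiso
      rcases Relation.ReflTransGen.cases_head (hconn A hA B hB) with h0 | ⟨C, hC, _⟩
      · exact hAB h0
      · exact (hiso.2 C).1 hC
  · rintro ⟨⟨_, hconj⟩, A₀, hA₀, hniso⟩
    obtain ⟨A₁, hA₁, h01⟩ := exists_partner hniso hA₀
    have hpart : ∀ A ∈ S, ∃ A' ∈ S, IsRankOnePair A A' := by
      intro A hA
      obtain ⟨g, rfl⟩ := hconj A₀ hA₀ A hA
      exact ⟨conjBy A₁ g, hS.conj_mem A₁ hA₁ g, rop_conj h01 g⟩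
    intro A hA B hB
    obtain ⟨g, rfl⟩ := hconj A hA B hB
    have := component_conj hS hpart g A hA
    have hmem : conjBy A g ∈ componentOf (FAdj S) S (conjBy A g) := mem_component_self hB
    rw [this] at hmem
    exact hmem.2

end Cfsg.Agent.S5032
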