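import Mathlib
import Cfsg.Agent.H8Exch

set_option autoImplicit false

namespace Cfsg.H8Exch

open CoxeterSystem (alternatingWord alternatingWord_succ alternatingWord_succ' length_alternatingWord)

variable {W : Type*} [Group W] {ι : Type*}

theorem wprod_alternatingWord {K : Type*} [Group K] (h : ι → K) (h2 : ∀ i, h i * h i = 1)
    (i i' : ι) (m : ℕ) :
    wprod h (alternatingWord i i' m) = (if Even m then 1 else h i') * (h i * h i') ^ (m / 2) := by
  induction m with
  | zero => simp [alternatingWord]
  | succ m ih =>
    rw [alternatingWord_succ', wprod_cons, ih]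
    by_cases hm : Even m
    · have h₁ : ¬ Even (m + 1) := by simp [hm, parity_simps]
      have h₂ : (m + 1) / 2 = m / 2 := Nat.succ_div_of_not_dvd <| by rwa [← even_iff_two_dvd]
      simp [hm, h₁, h₂]
    · have h₁ : Even (m + 1) := by simp [hm, parity_simps]
      have h₂ : (m + 1) / 2 = m / 2 + 1 := Nat.succ_div_of_dvd h₁.two_dvd
      simp [hm, h₁, h₂, ← pow_succ', ← mul_assoc]

theorem alt_aux {K : Type*} [Group K] (x y : K) (hx : x * x = 1) (k : ℕ) :
    y * (x * y) ^ k = x * ((x * y)⁻¹) ^ k ↔ (x * y) ^ (2 * k + 1) = 1 := by
  have key : y * (x * y) ^ k = x * ((x * y)⁻¹) ^ k ↔ (x * y) ^ (k + 1) = ((x * y)⁻¹) ^ k := by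
    rw [pow_succ', mul_assoc]
    constructor
    · intro H; rw [H, ← mul_assoc, hx, one_mul]
    · intro H
      have := congrArg (x * ·) H
      simp only [← mul_assoc, hx, one_mul] at this
      exact this
  rw [key, inv_pow, eq_inv_iff_mul_eq_one, ← pow_add]
  have : k + 1 + k = 2 * k + 1 := by ring
  rw [this]

theorem alt_eq_iff {K : Type*} [Group K] (h : ι → K) (h2 : ∀ i, h i * h i = 1) (a b : ι)
    (q : ℕ) :
    wprod h (alternatingWord a b q) = wprod h (alternatingWord b a q) ↔ (h a * h b) ^ q = 1 := by
  rw [wprod_alternatingWord h h2, wprod_alternatingWord h h2]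
  have hinv : (h b * h a) = (h a * h b)⁻¹ := by
    rw [mul_inv_rev, inv_gen h h2, inv_gen h h2]
  rw [hinv]
  rcases Nat.even_or_odd' q with ⟨k, rfl | rfl⟩
  · have e : 2 * k / 2 = k := by omega
    have he : Even (2 * k) := even_two_mul k
    simp only [he, if_true, one_mul, e]
    rw [inv_pow, eq_inv_iff_mul_eq_one, ← pow_add, two_mul]
  · have e : (2 * k + 1) / 2 = k := by omega
    have ho : ¬ Even (2 * k + 1) := by simp [parity_simps]
    simp only [ho, if_false, e]
    exact alt_aux (h a) (h b) (h2 a) k

section tits

variable (f : ι → W) (hf2 : ∀ i, f i * f i = 1) (hgen : Subgroup.closure (Set.range f) = ⊤)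
variable (Ps : ι → Set W) (hA : ∀ i, (1 : W) ∈ Ps i)
  (hB : ∀ i w, w ∈ Ps i → f i * w ∉ Ps i)
  (hC : ∀ i j w, w ∈ Ps i → w * f j ∉ Ps i → f i * w = w * f j)

include hf2 hgen in
theorem len_cons_lt_abs {i : ι} {l : List ι} (hl : IsRed f (i :: l)) :
    len f (f i * wprod f (i :: l)) < len f (wprod f (i :: l)) := by
  have hl' := isRed_of_cons f hf2 hgen hl
  unfold IsRed at hl hl'
  rw [hl, wprod_cons, mul_mul_cancel_gen f hf2, hl']
  simp

theorem isRed_of_wprod_eq {l l' : List ι} (h : IsRed f l) (e : wprod f l' = wprod f l)
    (hlen : l'.length = l.length) : IsRed f l' := by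
  unfold IsRed at h ⊢
  rw [e, h, hlen]

include hf2 hgen hA hB hC in
theorem exchange_concat (i : ι) (t : List ι) (z : ι)
    (h : len f (f i * wprod f (t ++ [z])) < len f (wprod f (t ++ [z]))) :
    f i * wprod f (t ++ [z]) = wprod f t ∨
      ∃ j, j < t.length ∧ f i * wprod f (t ++ [z]) = wprod f (t.eraseIdx j ++ [z]) := by
  obtain ⟨j, hj, e⟩ := exchange f hf2 hgen Ps hA hB hC i (t ++ [z]) h
  by_cases hjt : j < t.length
  · right
    refine ⟨j, hjt, ?_⟩
    rw [e, List.eraseIdx_append_of_lt_length hjt]
  · left
    have hj' : t.length ≤ j := by omega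
    rw [e, List.eraseIdx_append_of_length_le hj']
    have : j - t.length = 0 := by
      simp only [List.length_append, List.length_cons, List.length_nil] at hj
      omega
    rw [this]
    simp

variable {K : Type*} [Group K] (γ : ι → K) (hγ2 : ∀ i, γ i * γ i = 1)
  (hbraid : ∀ a b q, (f a * f b) ^ q = 1 → (γ a * γ b) ^ q = 1)

include hf2 hgen hA hB hC hγ2 hbraid in
theorem tits_aux (n : ℕ) : ∀ l l' : List ι, l.length = n → IsRed f l → IsRed f l' →
    wprod f l = wprod f l' → wprod γ l = wprod γ l' := by
  induction n using Nat.strong_induction_on with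
  | _ n IH =>
    have hA' : ∀ (i : ι) (t t' : List ι), (i :: t).length = n → IsRed f (i :: t) →
        IsRed f (i :: t') → wprod f (i :: t) = wprod f (i :: t') →
        wprod γ (i :: t) = wprod γ (i :: t') := by
      intro i t t' hlen h1 h2 h3
      rw [wprod_cons, wprod_cons]
      congr 1
      apply IH t.length (by simp at hlen; omega) t t' rfl
        (isRed_of_cons f hf2 hgen h1) (isRed_of_cons f hf2 hgen h2)
      rw [wprod_cons, wprod_cons] at h3
      exact mul_left_cancel h3
    have hA'' : ∀ (i : ι) (t t' : List ι), (t ++ [i]).length = n → IsRed f (t ++ [i]) →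
        IsRed f (t' ++ [i]) → wprod f (t ++ [i]) = wprod f (t' ++ [i]) →
        wprod γ (t ++ [i]) = wprod γ (t' ++ [i]) := by
      intro i t t' hlen h1 h2 h3
      rw [wprod_append, wprod_append]
      congr 1
      apply IH t.length (by simp at hlen; omega) t t' rfl
        (isRed_of_concat f hf2 hgen h1) (isRed_of_concat f hf2 hgen h2)
      rw [wprod_append, wprod_append] at h3
      exact mul_right_cancel h3
    have finish : ∀ (t : List ι) (z h : ι) (y' : List ι), (t ++ [z]).length = n →
        IsRed f (t ++ [z]) → IsRed f (h :: y') → wprod f (t ++ [z]) = wprod f (h :: y') →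
        (wprod γ (t ++ [z]) = wprod γ (h :: y')) ∨
          (IsRed f (h :: t) ∧ wprod f (h :: t) = wprod f (t ++ [z]) ∧
            wprod γ (h :: t) = wprod γ (h :: y')) := by
      intro t z h y' hlen hx hy hxy
      have hlt : len f (f h * wprod f (t ++ [z])) < len f (wprod f (t ++ [z])) := by
        rw [hxy]; exact len_cons_lt_abs f hf2 hgen hy
      have hlen' : t.length + 1 = n := by simpa using hlen
      rcases exchange_concat f hf2 hgen Ps hA hB hC h t z hlt with e | ⟨j, hj, e⟩
      · right
        have e1 : wprod f (h :: t) = wprod f (t ++ [z]) := by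
          rw [wprod_cons, ← e, mul_mul_cancel_gen f hf2]
        have hred : IsRed f (h :: t) := isRed_of_wprod_eq f hx e1 (by simp)
        exact ⟨hred, e1, hA' h t y' (by simpa using hlen') hred hy (e1.trans hxy)⟩
      · left
        have e1 : wprod f (h :: (t.eraseIdx j ++ [z])) = wprod f (t ++ [z]) := by
          rw [wprod_cons, ← e, mul_mul_cancel_gen f hf2]
        have hl : (h :: (t.eraseIdx j ++ [z])).length = (t ++ [z]).length := by
          simp only [List.length_cons, List.length_append, List.length_nil,
            List.length_eraseIdx_of_lt hj]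
          omega
        have hred : IsRed f (h :: (t.eraseIdx j ++ [z])) := isRed_of_wprod_eq f hx e1 hl
        have s1 : wprod γ (t ++ [z]) = wprod γ ((h :: t.eraseIdx j) ++ [z]) :=
          hA'' z t (h :: t.eraseIdx j) hlen hx hred e1.symm
        have s2 : wprod γ (h :: (t.eraseIdx j ++ [z])) = wprod γ (h :: y') :=
          hA' h _ y' (hl.trans hlen) hred hy (e1.trans hxy)
        exact s1.trans s2
    have hE : ∀ (m k : ℕ) (a b : ι) (c y : List ι), c.length = m → (k + 1) + m = n →
        IsRed f (alternatingWord b a (k + 1) ++ c) → IsRed f y →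
        wprod f (alternatingWord b a (k + 1) ++ c) = wprod f y →
        y.head? = some (if Even (k + 1) then a else b) →
        wprod γ (alternatingWord b a (k + 1) ++ c) = wprod γ y := by
      intro m
      induction m with
      | zero =>
        intro k a b c y hc hn hx hy hxy hhead
        have hc' : c = [] := List.length_eq_zero_iff.1 hc
        subst hc'
        obtain ⟨y', rfl⟩ : ∃ y', y = (if Even (k + 1) then a else b) :: y' := by
          cases y with
          | nil => simp at hhead
          | cons u y' =>
            simp only [List.head?_cons, Option.some.injEq] at hhead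
            exact ⟨y', by rw [hhead]⟩
        rw [List.append_nil] at hx hxy ⊢
        have halt : alternatingWord b a (k + 1) = alternatingWord a b k ++ [a] := by
          rw [alternatingWord_succ, List.concat_eq_append]
        rw [halt] at hx hxy ⊢
        rcases finish (alternatingWord a b k) a _ y' (by simpa using hn) hx hy hxy with e | ⟨_, e1, e2⟩
        · exact e
        · have hx' : alternatingWord a b (k + 1) =
              (if Even (k + 1) then a else b) :: alternatingWord a b k := by
            rw [alternatingWord_succ']
            congr 1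
            by_cases hk : Even k <;> simp [hk, Nat.even_add_one]
          rw [← hx', ← halt] at e1
          have e3 := (alt_eq_iff f hf2 a b (k + 1)).1 e1
          have e4 := (alt_eq_iff γ hγ2 a b (k + 1)).2 (hbraid a b (k + 1) e3)
          rw [← halt, ← e4, hx']
          exact e2
      | succ m ihm =>
        intro k a b c y hc hn hx hy hxy hhead
        obtain ⟨y', rfl⟩ : ∃ y', y = (if Even (k + 1) then a else b) :: y' := by
          cases y with
          | nil => simp at hhead
          | cons u y' =>
            simp only [List.head?_cons, Option.some.injEq] at hhead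
            exact ⟨y', by rw [hhead]⟩
        rcases List.eq_nil_or_concat' c with rfl | ⟨c', z, rfl⟩
        · simp at hc
        · have hc' : c'.length = m := by simpa using hc
          rw [← List.append_assoc] at hx hxy ⊢
          rcases finish (alternatingWord b a (k + 1) ++ c') z _ y'
            (by simp only [List.length_append, length_alternatingWord, List.length_cons,
              List.length_nil]; omega) hx hy hxy with e | ⟨e0, e1, e2⟩
          · exact e
          · have hx' : alternatingWord b a (k + 1 + 1) ++ c' =
                (if Even (k + 1) then a else b) :: (alternatingWord b a (k + 1) ++ c') := by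
              rw [alternatingWord_succ' b a (k + 1)]
              rfl
            rw [← hx'] at e0 e1 e2
            have hhead' : (alternatingWord b a (k + 1) ++ c' ++ [z]).head? =
                some (if Even (k + 1 + 1) then a else b) := by
              rw [alternatingWord_succ' b a k]
              by_cases hk : Even k <;> simp [hk, Nat.even_add_one]
            have e5 := ihm (k + 1) a b c' (alternatingWord b a (k + 1) ++ c' ++ [z]) hc'
              (by omega) e0 hx e1 hhead'
            rw [← e5]
            exact e2
    intro l l' hlen h1 h2 h3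
    match l, l', hlen, h1, h2, h3 with
    | [], l', hlen, h1, h2, h3 =>
      have : l' = [] := by
        unfold IsRed at h2
        rw [← h3, wprod_nil, len_one] at h2
        exact List.length_eq_zero_iff.1 h2.symm
      rw [this]
    | a :: t, [], hlen, h1, h2, h3 =>
      exfalso
      unfold IsRed at h1
      rw [h3, wprod_nil, len_one] at h1
      simp at h1
    | a :: t, b :: t', hlen, h1, h2, h3 =>
      have hlen' : (0 + 1) + t.length = n := by simpa [add_comm] using hlen
      have := hE t.length 0 a b t (b :: t') rfl hlen' (by simpa [alternatingWord] using h1) h2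
        (by simpa [alternatingWord] using h3) (by simp)
      simpa [alternatingWord] using this

include hf2 hgen hA hB hC hγ2 hbraid in
theorem tits {l l' : List ι} (h1 : IsRed f l) (h2 : IsRed f l')
    (h3 : wprod f l = wprod f l') : wprod γ l = wprod γ l' :=
  tits_aux f hf2 hgen Ps hA hB hC γ hγ2 hbraid l.length l l' rfl h1 h2 h3

include hf2 hgen hA hB hC hγ2 hbraid in
theorem exists_lift_fun : ∃ g : W → K, ∀ l, g (wprod f l) = wprod γ l := by
  classical
  let g : W → K := fun w => wprod γ (Classical.choose (exists_isRed f hf2 hgen w))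
  have hg : ∀ w, ∀ l, IsRed f l → wprod f l = w → g w = wprod γ l := by
    intro w l hl hw
    have hs := Classical.choose_spec (exists_isRed f hf2 hgen w)
    exact tits f hf2 hgen Ps hA hB hC γ hγ2 hbraid hs.1 hl (hs.2.trans hw.symm)
  have hmul : ∀ i w, g (f i * w) = γ i * g w := by
    intro i w
    obtain ⟨l, hl1, hl2⟩ := exists_isRed f hf2 hgen w
    obtain ⟨l', hl1', hl2'⟩ := exists_isRed f hf2 hgen (f i * w)
    rw [hg w l hl1 hl2]
    have hne := len_mul_ne f hf2 hgen Ps hA hB hC i w
    have hle1 := len_mul_le f hf2 hgen i w
    have hle2 := len_le_mul f hf2 hgen i w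
    unfold IsRed at hl1 hl1'
    rw [hl2] at hl1
    rw [hl2'] at hl1'
    rcases lt_or_gt_of_ne hne with hlt | hlt
    · -- ℓ(f i * w) < ℓ(w) : `i :: l'` is a reduced word of `w`
      have hred : IsRed f (i :: l') := by
        unfold IsRed
        rw [wprod_cons, hl2', mul_mul_cancel_gen f hf2, List.length_cons, ← hl1']
        omega
      have e : wprod γ l = wprod γ (i :: l') := by
        apply tits f hf2 hgen Ps hA hB hC γ hγ2 hbraid (by unfold IsRed; rw [hl2, hl1]) hred
        rw [wprod_cons, hl2', mul_mul_cancel_gen f hf2, hl2]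
      rw [e, wprod_cons, ← mul_assoc, hγ2, one_mul]
      exact hg _ l' (by unfold IsRed; rw [hl2', hl1']) hl2'
    · have hred : IsRed f (i :: l) := by
        unfold IsRed
        rw [wprod_cons, hl2, List.length_cons, ← hl1]
        omega
      rw [← wprod_cons]
      exact hg _ (i :: l) hred (by rw [wprod_cons, hl2])
  have hone : g 1 = 1 := hg 1 [] (isRed_nil f) rfl
  refine ⟨g, fun l => ?_⟩
  induction l with
  | nil => simpa using hone
  | cons i l ih => rw [wprod_cons, hmul, ih, wprod_cons]

end tits

section coxeter

variable (f : ι → W) (hf2 : ∀ i, f i * f i = 1) (hinj : Function.Injective f)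

/-- the Coxeter matrix of orders of products of generators -/
noncomputable def coxM : CoxeterMatrix ι where
  M := Matrix.of fun i j => orderOf (f i * f j)
  isSymm := by
    ext i j
    simp only [Matrix.transpose_apply, Matrix.of_apply]
    have : f j * f i = (f i * f j)⁻¹ := by
      rw [mul_inv_rev, inv_gen f hf2, inv_gen f hf2]
    rw [this, orderOf_inv]
  diagonal := by
    intro i
    simp [hf2]
  off_diagonal := by
    intro i j hij h
    simp only [Matrix.of_apply, orderOf_eq_one_iff] at h
    apply hij
    apply hinj
    have := congrArg (· * f j) h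
    simpa [mul_assoc, hf2] using this

theorem coxM_apply (i j : ι) : coxM f hf2 hinj i j = orderOf (f i * f j) := rfl

variable (hgen : Subgroup.closure (Set.range f) = ⊤)
variable (Ps : ι → Set W) (hA : ∀ i, (1 : W) ∈ Ps i)
  (hB : ∀ i w, w ∈ Ps i → f i * w ∉ Ps i)
  (hC : ∀ i j w, w ∈ Ps i → w * f j ∉ Ps i → f i * w = w * f j)

include hgen hA hB hC in
theorem exists_coxeterSystem :
    ∃ cs : CoxeterSystem (coxM f hf2 hinj) W, ∀ i, cs.simple i = f i := by
  classical
  set M := coxM f hf2 hinj with hM
  have hlift : M.IsLiftable f := by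
    intro i j
    rw [hM, coxM_apply]
    exact pow_orderOf_eq_one _
  let φ : M.Group →* W := M.toCoxeterSystem.lift ⟨f, hlift⟩
  have hφ : ∀ i, φ (M.simple i) = f i := fun i => M.toCoxeterSystem.lift_apply_simple hlift i
  have hγ2 : ∀ i, M.simple i * M.simple i = 1 :=
    fun i => M.toCoxeterSystem.simple_mul_simple_self i
  have hbraid : ∀ a b q, (f a * f b) ^ q = 1 → (M.simple a * M.simple b) ^ q = 1 := by
    intro a b q h
    have hd : M a b ∣ q := by
      rw [hM, coxM_apply]
      exact orderOf_dvd_of_pow_eq_one h
    obtain ⟨c, rfl⟩ := hd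
    rw [pow_mul]
    have := M.toCoxeterSystem.simple_mul_simple_pow a b
    simp only [CoxeterMatrix.toCoxeterSystem_simple] at this
    rw [this, one_pow]
  obtain ⟨g, hg⟩ := exists_lift_fun f hf2 hgen Ps hA hB hC M.simple hγ2 hbraid
  have hφw : ∀ l : List ι, φ (wprod M.simple l) = wprod f l := by
    intro l
    induction l with
    | nil => simp
    | cons i l ih => rw [wprod_cons, map_mul, hφ, ih, wprod_cons]
  have hgenΓ : Subgroup.closure (Set.range M.simple) = ⊤ := by
    have := M.toCoxeterSystem.subgroup_closure_range_simple
    simpa using this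
  have hbij : Function.Bijective φ := by
    constructor
    · intro x y hxy
      obtain ⟨l, rfl⟩ := exists_word M.simple hγ2 hgenΓ x
      obtain ⟨l', rfl⟩ := exists_word M.simple hγ2 hgenΓ y
      rw [hφw, hφw] at hxy
      rw [← hg l, ← hg l', hxy]
    · intro w
      obtain ⟨l, rfl⟩ := exists_word f hf2 hgen w
      exact ⟨wprod M.simple l, hφw l⟩
  refine ⟨⟨(MulEquiv.ofBijective φ hbij).symm⟩, fun i => ?_⟩
  show (MulEquiv.ofBijective φ hbij).symm.symm (M.simple i) = f i
  rw [MulEquiv.symm_symm]
  exact hφ i

end coxeter

end Cfsg.H8Exch
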