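import Mathlib
import Cfsg.Prelude.Def_LieExceptional
import Cfsg.Agent.H8Exch
import Cfsg.Agent.H8Cox
import Cfsg.Agent.H8BN
import Cfsg.Agent.H8BN2

set_option autoImplicit false

namespace Cfsg.H8BN

open Cfsg Cfsg.H8Exch

variable {G : Type*} [Group G] (P : BNPair G)

theorem exists_coxeter :
    ∃ (M : CoxeterMatrix P.S) (cs : CoxeterSystem M (Wq P)), ∀ s : P.S, cs.simple s = sg P s := by
  obtain ⟨cs, h⟩ := exists_coxeterSystem (sg P) (sg_mul_self P) (sg_injective P)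
    (closure_range_sg P) (Ps P) (Ps_one P) (Ps_B P) (Ps_C P)
  exact ⟨_, cs, h⟩

end Cfsg.H8BN
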