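import Mathlib
import Cfsg.Statements.S0294
import Cfsg.Agent.H7.OmegaMinus
import Cfsg.Agent.H49.StdForms
import Cfsg.Agent.S0288

set_option autoImplicit false
open Cfsg

namespace Cfsg.Agent.S0294

open Matrix Module

section

variable {F : Type*} [Field F] [Fintype F]

theorem stdGram_qMinus (k : ℕ) (a b : F) :
    Cfsg.Agent.H49.stdGram (H7.qMinus k a b) = Cfsg.Agent.H49.minusGram k F a b := by
  ext i j
  show QuadraticMap.polar ⇑(H7.qMinus k a b) (Pi.single i 1) (Pi.single j 1) = _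
  rw [H7.qMinus_coe, Cfsg.Agent.H49.polar_quadFormMinus, Matrix.mulVec_single_one,
    single_dotProduct]
  simp

/-- `-1 ∈ Ω⁻_{2m}(q)` iff `q^m ≡ 3 (mod 4)`, for `q` odd (`m = k + 1`). -/
theorem neg_one_mem_iff {q : ℕ} (hF : Fintype.card F = q) (hq : Odd q) (k : ℕ) (a b : F)
    (hab : ∀ z₁ z₂ : F, z₁ ^ 2 + a * z₁ * z₂ + b * z₂ ^ 2 = 0 → z₁ = 0 ∧ z₂ = 0) :
    (∃ g : ↥(isometryGroup F ⇑(H7.qMinus k a b)),
      g ∈ commutator ↥(isometryGroup F ⇑(H7.qMinus k a b)) ∧
      ((g : GL ((Fin k ⊕ Fin k) ⊕ Fin 2) F) :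
        Matrix ((Fin k ⊕ Fin k) ⊕ Fin 2) ((Fin k ⊕ Fin k) ⊕ Fin 2) F) = -1) ↔
      q ^ (k + 1) % 4 = 3 := by
  have h2 : (2 : F) ≠ 0 := Cfsg.Agent.H49.two_ne_zero_of_odd_card (by rw [hF]; exact hq)
  rw [Cfsg.Agent.H49.neg_one_mem_commutator_iff (H7.qMinus k a b) h2
    (H7.qMinus_nondeg k a b hab) ⟨k + 1, by simp [Fintype.card_sum]; ring⟩,
    stdGram_qMinus, Cfsg.Agent.H49.det_minusGram]
  have hN := Cfsg.Agent.H49.aniso_not_isSquare h2 hab
  have e : (-1 : F) ^ k * (4 * b - a ^ 2) = (-1) ^ (k + 1) * (a ^ 2 - 4 * b) := by ring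
  rw [e, Cfsg.Agent.H49.isSquare_mul_nonsquare_iff
    (pow_ne_zero _ (neg_ne_zero.mpr one_ne_zero)) hN,
    Cfsg.Agent.H49.isSquare_neg_one_pow_iff, hF]
  have h1 := Cfsg.Agent.H49.pow_mod_four hq (k + 1)
  have h3 : q ^ (k + 1) % 4 = 1 ∨ q ^ (k + 1) % 4 = 3 := by
    have : q ^ (k + 1) % 2 = 1 := by
      rw [Nat.pow_mod, Nat.odd_iff.mp hq]
      simp
    omega
  constructor
  · intro h
    rcases h3 with h3 | h3
    · exact absurd (h1.mp h3) h
    · exact h3
  · intro h hcon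
    have := h1.mpr hcon
    omega

end

/-- gcd(4, q^m + 1) |PΩ^-_{2m}(q)| = q^(m(m-1)) (q^m + 1) prod_{i=1}^{m-1} (q^(2i) - 1), m at least 4 (type ²D_m). -/
theorem result {F : Type*} [Field F] [Fintype F] {q : ℕ} (hF : Fintype.card F = q) (m : ℕ) (hm : 4 ≤ m) (a b : F) (hab : ∀ z₁ z₂ : F, z₁ ^ 2 + a * z₁ * z₂ + b * z₂ ^ 2 = 0 → z₁ = 0 ∧ z₂ = 0) : Nat.gcd 4 (q ^ m + 1) * Nat.card (Cfsg.POmega F (Cfsg.quadFormMinus (m - 1) F a b)) = q ^ (m * (m - 1)) * (q ^ m + 1) * ∏ i ∈ Finset.range (m - 1), (q ^ (2 * (i + 1)) - 1) := by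
  classical
  obtain ⟨k, rfl⟩ : ∃ k, m = k + 1 := ⟨m - 1, by omega⟩
  have hk : 3 ≤ k := by omega
  have hq : 2 ≤ q := by rw [← hF]; exact Fintype.one_lt_card
  have hO := Cfsg.Agent.S0288.key hF a b hab k
  change Nat.gcd 4 (q ^ (k + 1) + 1) * Nat.card (POmega F (quadFormMinus k F a b)) =
    q ^ ((k + 1) * k) * (q ^ (k + 1) + 1) * ∏ i ∈ Finset.range k, (q ^ (2 * (i + 1)) - 1)
  rw [← H7.qMinus_coe] at hO ⊢
  have hQ := H7.qMinus_nondeg k a b hab
  have hV : finrank F ((Fin k ⊕ Fin k) ⊕ Fin 2 → F) = 2 * (k + 1) := by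
    rw [Module.finrank_pi]
    simp [Fintype.card_sum]
    ring
  have hb : b ≠ 0 := by
    intro hb
    have := hab 0 1 (by rw [hb]; ring)
    exact one_ne_zero this.2
  have hquot := Subgroup.card_eq_card_quotient_mul_card_subgroup
    (Subgroup.center (Omega F ⇑(H7.qMinus k a b)))
  change Nat.card ↥(commutator ↥(isometryGroup F ⇑(H7.qMinus k a b))) = _ at hquot
  have hidx' := Subgroup.card_mul_index (commutator ↥(isometryGroup F ⇑(H7.qMinus k a b)))
  have hP : 2 * q ^ ((k + 1) * k) * (q ^ (k + 1) + 1) *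
      ∏ i ∈ Finset.range k, (q ^ (2 * (i + 1)) - 1) =
      2 * (q ^ ((k + 1) * k) * (q ^ (k + 1) + 1) *
        ∏ i ∈ Finset.range k, (q ^ (2 * (i + 1)) - 1)) := by ring
  rw [hO, hP] at hidx'
  have hqm : 1 ≤ q ^ (k + 1) := Nat.one_le_pow _ _ (by omega)
  have hscal : ∀ (c : ↥(Omega F ⇑(H7.qMinus k a b))) (l : F),
      (((c : ↥(isometryGroup F ⇑(H7.qMinus k a b))) : GL ((Fin k ⊕ Fin k) ⊕ Fin 2) F) :
        Matrix ((Fin k ⊕ Fin k) ⊕ Fin 2) ((Fin k ⊕ Fin k) ⊕ Fin 2) F) = l • 1 → l = 1 → c = 1 := by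
    intro c l hl hl1
    apply Subtype.ext
    apply Subtype.ext
    apply Units.ext
    rw [hl, hl1, one_smul]
    rfl
  have hcs : ∀ c : ↥(Omega F ⇑(H7.qMinus k a b)),
      c ∈ Subgroup.center (Omega F ⇑(H7.qMinus k a b)) →
      ∃ l : F, (((c : ↥(isometryGroup F ⇑(H7.qMinus k a b))) :
        GL ((Fin k ⊕ Fin k) ⊕ Fin 2) F) :
        Matrix ((Fin k ⊕ Fin k) ⊕ Fin 2) ((Fin k ⊕ Fin k) ⊕ Fin 2) F) = l • 1 ∧ l * l = 1 := by
    intro c hc
    have hz : H7.CentOmega (H7.qMinus k a b) c.1 := by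
      intro h hh
      have := Subgroup.mem_center_iff.mp hc ⟨h, hh⟩
      exact congrArg Subtype.val this
    apply H7.cent_qMinus_scalar k a b hk hb c.1 hz
    · intro u w huw hu
      by_cases h2 : (2 : F) = 0
      · rw [Cfsg.Agent.H49.commutator_eq_evenSub_two (H7.qMinus k a b) h2 hQ hV
          (Or.inr (by omega))]
        exact Subgroup.subset_closure
          ⟨_, ⟨u, hu, rfl⟩, _, ⟨w, by rw [← huw]; exact hu, rfl⟩, rfl⟩
      · exact Cfsg.Agent.H49.reflG_mul_reflG_mem_commutator (H7.qMinus k a b) h2 u w hu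
          (by rw [← huw]; exact hu) (by rw [← huw]; exact ⟨_, rfl⟩)
    · intro u u' huu hu
      by_cases h2 : (2 : F) = 0
      · obtain ⟨h, -, hh, -⟩ := Cfsg.Agent.H49.cd2_step1 (H7.qMinus k a b) h2 hQ hV
          (Or.inr (by omega)) ⊥ (by simp) u' u (by simp) (by simp) huu
          (by rw [← huu]; exact hu)
        exact ⟨h, hh⟩
      · exact Cfsg.Agent.H49.exists_isometry_map (H7.qMinus k a b) h2 u u' huu hu
  generalize q ^ ((k + 1) * k) * (q ^ (k + 1) + 1) *
        ∏ i ∈ Finset.range k, (q ^ (2 * (i + 1)) - 1) = P at hidx' ⊢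
  generalize Nat.card (POmega F ⇑(H7.qMinus k a b)) = N at hquot ⊢
  by_cases h2 : (2 : F) = 0
  · have hidx := H7.index_commutator_char_two (H7.qMinus k a b) h2 hQ hV (Or.inr (by omega))
      (H7.hypM k 1 ⟨0, by omega⟩) (by rw [H7.qMinus_hypM]; exact one_ne_zero)
    have hZ : Nat.card (Subgroup.center (Omega F ⇑(H7.qMinus k a b))) = 1 := by
      have hbot : Subgroup.center (Omega F ⇑(H7.qMinus k a b)) = ⊥ := by
        rw [Subgroup.eq_bot_iff_forall]
        intro c hc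
        obtain ⟨l, hl, hl2⟩ := hcs c hc
        have h3 : (l - 1) * (l - 1) = 0 := by linear_combination hl2 + (1 - l) * h2
        exact hscal c l hl (sub_eq_zero.mp (mul_self_eq_zero.mp h3))
      rw [hbot, Subgroup.card_bot]
    have hgcd : Nat.gcd 4 (q ^ (k + 1) + 1) = 1 := by
      have hqe : q % 2 = 0 := by
        rw [← hF]
        exact FiniteField.even_card_of_char_two
          (CharP.ringChar_of_prime_eq_zero Nat.prime_two (by exact_mod_cast h2))
      have h1 : q ^ (k + 1) % 2 = 0 := by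
        rw [Nat.pow_mod, hqe]
        simp
      have h3 : (q ^ (k + 1) + 1) % 4 = 1 ∨ (q ^ (k + 1) + 1) % 4 = 3 := by omega
      rw [Nat.gcd_rec]
      rcases h3 with h | h <;> rw [h] <;> rfl
    rw [hgcd, one_mul]
    rw [hidx] at hidx'
    rw [hZ, mul_one] at hquot
    omega
  · have hqodd : Odd q := by
      rw [Nat.odd_iff, ← hF]
      exact FiniteField.odd_card_of_char_ne_two (fun h => h2 (by
        haveI := ringChar.of_eq h
        exact CharTwo.two_eq_zero))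
    have hidx := Cfsg.Agent.H18.index_commutator (H7.qMinus k a b) h2 hQ (by
      simp only [Fintype.card_sum, Fintype.card_fin]
      omega)
    rw [hidx] at hidx'
    have hqm2 : q ^ (k + 1) % 2 = 1 := by
      rw [Nat.pow_mod, Nat.odd_iff.mp hqodd]
      simp
    by_cases h4 : q ^ (k + 1) % 4 = 3
    · obtain ⟨g, hgΩ, hgm⟩ := (neg_one_mem_iff hF hqodd k a b hab).mpr h4
      have hgc : (⟨g, hgΩ⟩ : ↥(Omega F ⇑(H7.qMinus k a b))) ∈
          Subgroup.center (Omega F ⇑(H7.qMinus k a b)) := by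
        rw [Subgroup.mem_center_iff]
        intro h
        apply Subtype.ext
        apply Subtype.ext
        apply Units.ext
        show ((h : ↥(isometryGroup F ⇑(H7.qMinus k a b))) :
            GL ((Fin k ⊕ Fin k) ⊕ Fin 2) F).1 * (g : GL ((Fin k ⊕ Fin k) ⊕ Fin 2) F).1 =
          (g : GL ((Fin k ⊕ Fin k) ⊕ Fin 2) F).1 *
            ((h : ↥(isometryGroup F ⇑(H7.qMinus k a b))) : GL ((Fin k ⊕ Fin k) ⊕ Fin 2) F).1
        rw [hgm]
        simp
      have hZ : Nat.card (Subgroup.center (Omega F ⇑(H7.qMinus k a b))) = 2 := by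
        rw [Nat.card_eq_two_iff]
        refine ⟨1, ⟨⟨g, hgΩ⟩, hgc⟩, ?_, ?_⟩
        · intro h
          have h5 := congrArg (fun c : ↥(Subgroup.center (Omega F ⇑(H7.qMinus k a b))) =>
            ((((c : ↥(Omega F ⇑(H7.qMinus k a b))) :
              ↥(isometryGroup F ⇑(H7.qMinus k a b))) : GL ((Fin k ⊕ Fin k) ⊕ Fin 2) F) :
              Matrix ((Fin k ⊕ Fin k) ⊕ Fin 2) ((Fin k ⊕ Fin k) ⊕ Fin 2) F) (Sum.inr 0)
                (Sum.inr 0)) h
          change (1 : Matrix ((Fin k ⊕ Fin k) ⊕ Fin 2) ((Fin k ⊕ Fin k) ⊕ Fin 2) F) (Sum.inr 0)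
            (Sum.inr 0) = ((g : GL ((Fin k ⊕ Fin k) ⊕ Fin 2) F) :
              Matrix ((Fin k ⊕ Fin k) ⊕ Fin 2) ((Fin k ⊕ Fin k) ⊕ Fin 2) F) (Sum.inr 0)
                (Sum.inr 0) at h5
          rw [hgm, Matrix.neg_apply, Matrix.one_apply_eq] at h5
          apply h2
          linear_combination h5
        · ext c
          simp only [Set.mem_insert_iff, Set.mem_singleton_iff, Set.mem_univ, iff_true]
          obtain ⟨l, hl, hl2⟩ := hcs c.1 c.2
          rcases mul_self_eq_one_iff.mp hl2 with hl1 | hl1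
          · left
            exact Subtype.ext (hscal c.1 l hl hl1)
          · right
            apply Subtype.ext
            apply Subtype.ext
            apply Subtype.ext
            apply Units.ext
            show (((c : ↥(Omega F ⇑(H7.qMinus k a b))) :
              ↥(isometryGroup F ⇑(H7.qMinus k a b))) : GL ((Fin k ⊕ Fin k) ⊕ Fin 2) F).1 =
              (g : GL ((Fin k ⊕ Fin k) ⊕ Fin 2) F).1
            rw [hl, hl1, hgm]
            simp
      have hgcd : Nat.gcd 4 (q ^ (k + 1) + 1) = 4 := by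
        have h3 : (q ^ (k + 1) + 1) % 4 = 0 := by omega
        rw [Nat.gcd_rec, h3]
        rfl
      rw [hgcd]
      rw [hZ] at hquot
      omega
    · have hZ : Nat.card (Subgroup.center (Omega F ⇑(H7.qMinus k a b))) = 1 := by
        have hbot : Subgroup.center (Omega F ⇑(H7.qMinus k a b)) = ⊥ := by
          rw [Subgroup.eq_bot_iff_forall]
          intro c hc
          obtain ⟨l, hl, hl2⟩ := hcs c hc
          rcases mul_self_eq_one_iff.mp hl2 with hl1 | hl1
          · exact hscal c l hl hl1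
          · exfalso
            apply h4
            apply (neg_one_mem_iff hF hqodd k a b hab).mp
            refine ⟨c.1, c.2, ?_⟩
            rw [hl, hl1]
            simp
        rw [hbot, Subgroup.card_bot]
      have hgcd : Nat.gcd 4 (q ^ (k + 1) + 1) = 2 := by
        have h3 : (q ^ (k + 1) + 1) % 4 = 2 := by omega
        rw [Nat.gcd_rec, h3]
        rfl
      rw [hgcd]
      rw [hZ, mul_one] at hquot
      omega

end Cfsg.Agent.S0294
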