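import Cfsg.Statements.S5345

set_option autoImplicit false
open Cfsg

namespace Cfsg.Agent.S5345

/-- two members of a set of 3-transpositions whose product has 2-power order commute -/
theorem comm_of_two_power {G : Type*} [Group G] {D : Set G} (hD : Cfsg.IsThreeTranspositionSet D)
    {d e : G} (hd : d ∈ D) (he : e ∈ D) (k : ℕ) (hk : (d * e) ^ (2 ^ k) = 1) : d * e = e * d := by
  have hd2 : d * d = 1 := by
    have := hD.1 d hd
    rw [← pow_two, ← this, pow_orderOf_eq_one]
  have he2 : e * e = 1 := by
    have := hD.1 e he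
    rw [← pow_two, ← this, pow_orderOf_eq_one]
  have key : (d * e) ^ 2 = 1 := by
    rcases hD.2 d hd e he with h | h
    · exact h
    · have h1 : orderOf (d * e) ∣ 3 := orderOf_dvd_of_pow_eq_one h
      have h2 : orderOf (d * e) ∣ 2 ^ k := orderOf_dvd_of_pow_eq_one hk
      have h3 : orderOf (d * e) ∣ Nat.gcd 3 (2 ^ k) := Nat.dvd_gcd h1 h2
      have h4 : Nat.gcd 3 (2 ^ k) = 1 := by
        apply Nat.Coprime.pow_right
        decide
      rw [h4, Nat.dvd_one, orderOf_eq_one_iff] at h3
      rw [h3, one_pow]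
  have h5 : d * e * (d * e) = 1 := by rw [← pow_two]; exact key
  calc d * e = d * e * (d * e) * (e * d) := by
        rw [show d * e * (d * e) * (e * d) = d * e * (d * (e * e) * d) by group, he2, mul_one, hd2,
          mul_one]
    _ = e * d := by rw [h5, one_mul]

/-- Let D be a conjugation-invariant generating set of 3-transpositions of a finite group G and T a Sylow 2-subgroup of G. Then the members of D lying in T generate an abelian subgroup, and their number is the width of D (the largest number of pairwise commuting members of D). -/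
theorem result {G : Type*} [Group G] [Finite G] {D : Set G} (hD : Cfsg.IsThreeTranspositionGroup D) (T : Sylow 2 G) : IsMulCommutative (Subgroup.closure {d : G | d ∈ D ∧ d ∈ T}) ∧ {d : G | d ∈ D ∧ d ∈ T}.ncard = Cfsg.commutingWidth D := by
  obtain ⟨hD3, hDconj, hDgen⟩ := hD
  have hcomm : ∀ x ∈ {d : G | d ∈ D ∧ d ∈ T}, ∀ y ∈ {d : G | d ∈ D ∧ d ∈ T}, x * y = y * x := by
    rintro x ⟨hxD, hxT⟩ y ⟨hyD, hyT⟩
    have hxy : x * y ∈ (T : Subgroup G) := mul_mem hxT hyT
    obtain ⟨k, hk⟩ := T.isPGroup' ⟨x * y, hxy⟩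
    have hk' : (x * y) ^ (2 ^ k) = 1 := by
      have := congrArg Subtype.val hk
      simpa using this
    exact comm_of_two_power hD3 hxD hyD k hk'
  refine ⟨Subgroup.isMulCommutative_closure hcomm, ?_⟩
  unfold commutingWidth
  set W : Set ℕ := {n : ℕ | ∃ E : Set G, E ⊆ D ∧ E.Finite ∧ (∀ a ∈ E, ∀ b ∈ E, Commute a b) ∧ E.ncard = n}
    with hW
  have hE₀fin : {d : G | d ∈ D ∧ d ∈ T}.Finite := Set.toFinite _
  have hmem : {d : G | d ∈ D ∧ d ∈ T}.ncard ∈ W :=
    ⟨_, fun d hd => hd.1, hE₀fin, fun a ha b hb => hcomm a ha b hb, rfl⟩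
  have hub : ∀ n ∈ W, n ≤ {d : G | d ∈ D ∧ d ∈ T}.ncard := by
    rintro n ⟨E, hED, hEfin, hEcomm, rfl⟩
    -- closure E is a 2-group
    have hsq : ∀ x ∈ Subgroup.closure E, x ^ 2 = 1 := by
      intro x hx
      induction hx using Subgroup.closure_induction with
      | mem x hx =>
        have := hD3.1 x (hED hx)
        rw [← this, pow_orderOf_eq_one]
      | one => simp
      | mul x y hx hy ihx ihy =>
        have hc : Commute x y := by
          have : IsMulCommutative (Subgroup.closure E) :=
            Subgroup.isMulCommutative_closure (fun a ha b hb => hEcomm a ha b hb)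
          have := mul_comm' (⟨x, hx⟩ : Subgroup.closure E) ⟨y, hy⟩
          exact congrArg Subtype.val this
        rw [hc.mul_pow, ihx, ihy, one_mul]
      | inv x hx ih => rw [inv_pow, ih, inv_one]
    have hp : IsPGroup 2 (Subgroup.closure E) := by
      intro x
      refine ⟨1, ?_⟩
      apply Subtype.ext
      have := hsq x x.2
      simpa using this
    obtain ⟨T', hT'⟩ := hp.exists_le_sylow
    obtain ⟨g, hg⟩ := MulAction.exists_smul_eq G T' T
    apply Set.ncard_le_ncard_of_injOn (fun x => g * x * g⁻¹) _ _ hE₀fin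
    · intro a ha
      refine ⟨hDconj g a (hED ha), ?_⟩
      have h1 : a ∈ (T' : Subgroup G) := hT' (Subgroup.subset_closure ha)
      rw [← hg]
      have := Subgroup.smul_mem_pointwise_smul _ (MulAut.conj g) _ h1
      exact this
    · intro a _ b _ hab
      simpa using hab
  apply le_antisymm
  · exact le_csSup ⟨_, hub⟩ hmem
  · exact csSup_le ⟨_, hmem⟩ hub

end Cfsg.Agent.S5345
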