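import Cfsg.Statements.S0377
import Cfsg.Agent.H9.M24b
import Cfsg.Agent.H10.PermSimple

set_option autoImplicit false
open Cfsg

namespace Cfsg.Agent.S0377

/-- A point stabiliser in the group of the length-24 code is simple. -/
theorem result (p : Cfsg.GolayPt) : IsSimpleGroup (MulAction.stabilizer Cfsg.M24 p) := by
  have hfaith : ∀ g : Cfsg.M24, g ≠ 1 → ∃ a : Cfsg.GolayPt, g • a ≠ a := by
    intro g hg
    by_contra h
    push Not at h
    apply hg
    apply Subtype.ext
    apply Equiv.ext
    intro x
    exact h x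
  have h4 : MulAction.IsMultiplyPretransitive (MulAction.stabilizer Cfsg.M24 p)
      (SubMulAction.ofStabilizer Cfsg.M24 p) 4 :=
    SubMulAction.ofStabilizer.isMultiplyPretransitive.1 Cfsg.Agent.H9.m24_five_transitive
  exact Cfsg.Agent.H10.simple_deg23 (α := SubMulAction.ofStabilizer Cfsg.M24 p)
    (by rw [SubMulAction.nat_card_ofStabilizer_eq Cfsg.M24 p, Nat.card_eq_fintype_card,
      Cfsg.Agent.H9.card_golayPt])
    h4 (Cfsg.Agent.H10.ofStabilizer_faithful hfaith p) (Cfsg.Agent.H9.card_stabilizer_point p)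

end Cfsg.Agent.S0377
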