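import Cfsg.Statements.S1427
import Cfsg.Agent.H57.BG1218Key
import Cfsg.Agent.H63.BG1218Red
import Cfsg.Agent.H35.BG1218Coat
import Cfsg.Agent.H35.BG1218Gen
import Cfsg.Agent.H92.BG1218Case1
import Cfsg.Agent.H37.BG1218NilConj
import Cfsg.Agent.H92.BG1218SylN
import Cfsg.Agent.H63.BG1218SylH
import Cfsg.Agent.H31.BG1218Nab
import Cfsg.Agent.H58.BG10All2
import Cfsg.Agent.H63.BG125Main
import Cfsg.Agent.H3.BG127PW

set_option autoImplicit false
open Cfsg

namespace Cfsg.Agent.S1427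

/-- Let G be a minimal simple group of odd order, M a maximal subgroup, E a complement to M_σ in M, and S a nontrivial cyclic Sylow subgroup of E (for some prime). Then M_σ ∩ C_G(x) = M_σ ∩ C_G(S) for every non-identity x ∈ S. -/
theorem result {G : Type*} [Group G] [Finite G] (hG : Cfsg.IsMinSimpleOddOrder G)
    (M : Subgroup G) (hM : IsCoatom M) (E : Subgroup G) (hE : Cfsg.IsComplIn E (Cfsg.sigmaCore M) M) (p : ℕ) [Fact p.Prime] (S : Sylow p E) (hS1 : (S : Subgroup E) ≠ ⊥) (hSc : IsCyclic (S : Subgroup E)) :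
    ∀ x ∈ (S : Subgroup E).map E.subtype, x ≠ 1 →
        Cfsg.sigmaCore M ⊓ Subgroup.centralizer ({x} : Set G) = Cfsg.sigmaCore M ⊓ Subgroup.centralizer (((S : Subgroup E).map E.subtype : Subgroup G) : Set G) := by
  have h50 := Cfsg.Agent.H58.BG10.st1350 hG
  have h03 := Cfsg.Agent.H58.BG10.st1403 hG
  have h05 := Cfsg.Agent.H58.BG10.st1405 hG
  have h08 := Cfsg.Agent.H58.BG10.st1408 hG
  have h09 := Cfsg.Agent.H58.BG10.st1409 hG
  have h11 := Cfsg.Agent.H58.BG10.st1411 hG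
  have h12 := Cfsg.Agent.H58.BG10.st1412 hG
  have hSC := Cfsg.Agent.H58.BG10.stSigComm hG
  have h16 := Cfsg.Agent.H63.BG11.st1416 hG
  have h17 := Cfsg.Agent.H63.BG11.st1417 hG
  have hN := Cfsg.Agent.H92.BG1218.sylN hG h03 h50 h11 h16 h17
  have hKey : Cfsg.Agent.H57.BG1218.StKey G :=
    Cfsg.Agent.H57.BG1218.key h09 h17 (Cfsg.Agent.H35.BG1218.coat hG h09)
      (Cfsg.Agent.H92.BG1218.case1 hG h03 h05 h50 hSC)
      (Cfsg.Agent.H37.BG1218.nilConj hG h50)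
      (Cfsg.Agent.H63.BG1218.sylH hG h50 h16 h17 hN)
      (Cfsg.Agent.H31.BG1218.case2Nab hG h08 h16 h17 (Cfsg.Agent.H3.BG12.pw hG h12))
      Cfsg.Agent.H35.BG1218.invGen
  exact Cfsg.Agent.H63.BG1218.red hG h50 hKey M hM E hE p S hS1 hSc

end Cfsg.Agent.S1427
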