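import Cfsg.Statements.S0011
-- (no helper imports)

set_option autoImplicit false
open Cfsg
open scoped Pointwise

namespace Cfsg.Agent.S0011

/-- If the Frattini quotient of a finite group is nilpotent then the group is nilpotent. -/
theorem result {G : Type*} [Group G] [Finite G]
    (h : Group.IsNilpotent (G ⧸ frattini G)) : Group.IsNilpotent G := by
  have tfae := Group.isNilpotent_of_finite_tfae (G := G)
  apply (tfae.out 0 2).mpr
  intro M hM
  have hΦM : frattini G ≤ M := frattini_le_coatom hM
  have hsurj : Function.Surjective (QuotientGroup.mk' (frattini G)) :=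
    QuotientGroup.mk'_surjective _
  have hcm : (M.map (QuotientGroup.mk' (frattini G))).comap (QuotientGroup.mk' (frattini G)) = M := by
    rw [Subgroup.comap_map_eq, QuotientGroup.ker_mk', sup_eq_left.mpr hΦM]
  have hlt : M.map (QuotientGroup.mk' (frattini G)) < ⊤ := by
    rw [lt_top_iff_ne_top]
    intro htop
    apply hM.1
    rw [← hcm, htop, Subgroup.comap_top]
  have hnc : NormalizerCondition (G ⧸ frattini G) := Group.normalizerCondition_of_isNilpotent
  have hlt2 := hnc _ hlt
  have hlt3 : M < (Subgroup.normalizer
      ((M.map (QuotientGroup.mk' (frattini G)) : Subgroup (G ⧸ frattini G)) :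
        Set (G ⧸ frattini G))).comap (QuotientGroup.mk' (frattini G)) := by
    have := (Subgroup.comap_lt_comap_of_surjective hsurj).mpr hlt2
    rwa [hcm] at this
  have htop := hM.2 _ hlt3
  have hnorm : (M.map (QuotientGroup.mk' (frattini G))).Normal := by
    rw [← Subgroup.normalizer_eq_top_iff]
    rw [← Subgroup.map_comap_eq_self_of_surjective hsurj (Subgroup.normalizer _), htop,
      Subgroup.map_top_of_surjective _ hsurj]
  rw [← hcm]
  exact hnorm.comap _


end Cfsg.Agent.S0011
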