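import Cfsg.Statements.S0020
import Cfsg.Agent.H1.SylowSystem

set_option autoImplicit false
open Pointwise
open Cfsg

namespace Cfsg.Agent.S0020

/-- A finite solvable group admits a Sylow system: Sylow subgroups, one for each prime, that pairwise permute as sets. -/
theorem result {G : Type*} [Group G] [Finite G] [Group.IsSolvable G] :
    ∃ S : (p : Nat.Primes) → Sylow (p : ℕ) G,
      ∀ p q : Nat.Primes, (S p : Set G) * (S q : Set G) = (S q : Set G) * (S p : Set G) := by
  exact Cfsg.Agent.H1.exists_sylow_system

end Cfsg.Agent.S0020
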