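import Cfsg.Statements.S0032
-- import your own Cfsg.Agent.* helpers here

set_option autoImplicit false
open Cfsg

namespace Cfsg.Agent.S0032

/-- If an automorphism of a finite group fixes only the identity and maps a normal subgroup N into itself, then the only cosets of N it fixes are those in N: a fixed coset xN forces x ∈ N. -/
theorem result {G : Type*} [Group G] [Finite G] (φ : G ≃* G)
    (hφ : MonoidHom.FixedPointFree (φ : G →* G)) (N : Subgroup G) [N.Normal] (hN : ∀ n ∈ N, φ n ∈ N)
    (x : G) (hx : (φ x)⁻¹ * x ∈ N) : x ∈ N := by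
  let ψ : N →* N := ((φ : G →* G).comp N.subtype).codRestrict N (fun n => hN n n.2)
  have hψ : MonoidHom.FixedPointFree ψ := by
    intro n hn
    have h1 : φ (n : G) = n := congrArg Subtype.val hn
    exact Subtype.ext (hφ _ h1)
  obtain ⟨n, hn⟩ := hψ.commutatorMap_surjective ⟨x⁻¹ * φ x, by
    have h2 := N.inv_mem hx
    simpa [mul_inv_rev] using h2⟩
  have h1 : MonoidHom.commutatorMap (φ : G →* G) (n : G)
      = MonoidHom.commutatorMap (φ : G →* G) x⁻¹ := by
    have h3 := congrArg Subtype.val hn
    simp only [MonoidHom.commutatorMap_apply] at h3 ⊢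
    rw [map_inv, div_eq_mul_inv, div_eq_mul_inv, inv_inv]
    have h5 : ((n / ψ n : N) : G) = (n : G) * (φ (n : G))⁻¹ := by
      rw [div_eq_mul_inv]; rfl
    exact h5.symm.trans h3
  have h4 := hφ.commutatorMap_injective h1
  have hx' : x⁻¹ ∈ N := h4 ▸ n.2
  simpa using N.inv_mem hx'

end Cfsg.Agent.S0032
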