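import Cfsg.Statements.S0037
import Cfsg.Agent.Lib.Helper96.Frob3

set_option autoImplicit false
open Pointwise
open Cfsg

namespace Cfsg.Agent.S0037

/-- Of two Frobenius complements in one finite group, the one of smaller (or equal) order is conjugate to a subgroup of the other. -/
theorem result {G : Type*} [Group G] [Finite G] (H H₀ : Subgroup G)
    (hH : Cfsg.IsFrobeniusComplement H) (hH₀ : Cfsg.IsFrobeniusComplement H₀) (hle : Nat.card H₀ ≤ Nat.card H) :
    ∃ g : G, MulAut.conj g • H₀ ≤ H := by
  exact Lib.Helper96.frob_exists_conj_le hH hH₀ hle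

end Cfsg.Agent.S0037
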