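import Mathlib
import Cfsg.Statements.S0046

set_option autoImplicit false
open Cfsg

namespace Cfsg.Agent.S0046

universe u

/-- Normalizers grow in nilpotent groups. -/
theorem exists_normalizer_mem {G : Type*} [Group G] (S D : Subgroup G)
    (hS : Group.IsNilpotent S) (hDS : D ≤ S) (hne : D ≠ S) :
    ∃ s ∈ S, s ∉ D ∧ s ∈ Subgroup.normalizer (D : Set G) := by
  have hnc : NormalizerCondition S := Group.normalizerCondition_of_isNilpotent
  have hlt : D.subgroupOf S < ⊤ := by
    rw [lt_top_iff_ne_top]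
    intro h
    rw [Subgroup.subgroupOf_eq_top] at h
    exact hne (le_antisymm hDS h)
  have h1 := hnc _ hlt
  obtain ⟨s, hsN, hsD⟩ := SetLike.exists_of_lt h1
  refine ⟨s, s.2, ?_, ?_⟩
  · intro h
    exact hsD (Subgroup.mem_subgroupOf.mpr h)
  · rw [← Subgroup.subgroupOf_normalizer_eq hDS] at hsN
    exact Subgroup.mem_subgroupOf.mp hsN

/-- In a simple group all of whose maximal subgroups are nilpotent, distinct maximal subgroups
meet trivially. -/
theorem coatoms_inf_eq_bot {G : Type*} [Group G] [Finite G] (hs : IsSimpleGroup G)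
    (h : ∀ M : Subgroup G, IsCoatom M → Group.IsNilpotent M) :
    ∀ d : ℕ, ∀ M₁ M₂ : Subgroup G, IsCoatom M₁ → IsCoatom M₂ → M₁ ≠ M₂ →
      Nat.card G - Nat.card ↥(M₁ ⊓ M₂) = d → M₁ ⊓ M₂ = ⊥ := by
  intro d
  induction d using Nat.strong_induction_on with
  | _ d ih =>
    intro M₁ M₂ h₁ h₂ hne hd
    by_contra hD
    have hD1 : M₁ ⊓ M₂ ≠ M₁ := by
      intro heq
      have hle : M₁ ≤ M₂ := by rw [← heq]; exact inf_le_right
      rcases eq_or_lt_of_le hle with h' | h'
      · exact hne h'
      · exact h₂.1 (h₁.2 _ h')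
    have hD2 : M₁ ⊓ M₂ ≠ M₂ := by
      intro heq
      have hle : M₂ ≤ M₁ := by rw [← heq]; exact inf_le_left
      rcases eq_or_lt_of_le hle with h' | h'
      · exact hne h'.symm
      · exact h₁.1 (h₂.2 _ h')
    obtain ⟨s₁, hs₁M, hs₁D, hs₁N⟩ :=
      exists_normalizer_mem M₁ (M₁ ⊓ M₂) (h M₁ h₁) inf_le_left hD1
    obtain ⟨s₂, hs₂M, hs₂D, hs₂N⟩ :=
      exists_normalizer_mem M₂ (M₁ ⊓ M₂) (h M₂ h₂) inf_le_right hD2
    have hNtop : Subgroup.normalizer ((M₁ ⊓ M₂ : Subgroup G) : Set G) ≠ ⊤ := by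
      intro htop
      have hn : (M₁ ⊓ M₂).Normal := Subgroup.normalizer_eq_top_iff.mp htop
      rcases hn.eq_bot_or_eq_top with h' | h'
      · exact hD h'
      · apply h₁.1
        rw [eq_top_iff, ← h']; exact inf_le_left
    obtain ⟨M, hM, hNM⟩ := (eq_top_or_exists_le_coatom
      (Subgroup.normalizer ((M₁ ⊓ M₂ : Subgroup G) : Set G))).resolve_left hNtop
    have key : ∀ M' : Subgroup G, IsCoatom M' → M₁ ⊓ M₂ ≤ M' →
        (∃ s ∈ M', s ∉ M₁ ⊓ M₂ ∧ s ∈ M) → M = M' := by
      rintro M' hM' hDM' ⟨s, hsM', hsD, hsM⟩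
      by_contra hne'
      have hDle : M₁ ⊓ M₂ ≤ M ⊓ M' := le_inf (le_trans Subgroup.le_normalizer hNM) hDM'
      have hneq : M₁ ⊓ M₂ ≠ M ⊓ M' := by
        intro heq
        apply hsD
        rw [heq]
        exact ⟨hsM, hsM'⟩
      have hcard : Nat.card ↥(M₁ ⊓ M₂) < Nat.card ↥(M ⊓ M') := by
        by_contra hc
        push Not at hc
        exact hneq (Subgroup.eq_of_le_of_card_ge hDle hc)
      have hle2 : Nat.card ↥(M ⊓ M') ≤ Nat.card G := Subgroup.card_le_card_group _
      have h0 := ih (Nat.card G - Nat.card ↥(M ⊓ M')) (by omega) M M' hM hM' hne' rfl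
      apply hD
      rw [eq_bot_iff, ← h0]; exact hDle
    have e₁ := key M₁ h₁ inf_le_left ⟨s₁, hs₁M, hs₁D, hNM hs₁N⟩
    have e₂ := key M₂ h₂ inf_le_right ⟨s₂, hs₂M, hs₂D, hNM hs₂N⟩
    exact hne (e₁.symm.trans e₂)

/-- Counting the nonidentity elements lying in conjugates of a malnormal subgroup. -/
theorem ncard_conj_add_index {G : Type*} [Group G] [Finite G] (M : Subgroup G)
    (hTI : ∀ g y : G, y ≠ 1 → y ∈ M → g⁻¹ * y * g ∈ M → g ∈ M) :
    {y : G | y ≠ 1 ∧ ∃ g : G, g⁻¹ * y * g ∈ M}.ncard + M.index = Nat.card G := by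
  classical
  let F : (G ⧸ M) × ↥(({1} : Set ↥M)ᶜ) → G :=
    fun qm => qm.1.out * ((qm.2 : ↥M) : G) * qm.1.out⁻¹
  have hinj : Function.Injective F := by
    rintro ⟨q, ⟨m, hm⟩⟩ ⟨q', ⟨m', hm'⟩⟩ heq
    have heq' : q.out * (m : G) * q.out⁻¹ = q'.out * (m' : G) * q'.out⁻¹ := heq
    have hm1 : (m : G) ≠ 1 := fun h0 => hm (Subtype.ext h0)
    have hg : q.out⁻¹ * q'.out ∈ M := by
      apply hTI _ (m : G) hm1 m.2
      have : (q.out⁻¹ * q'.out)⁻¹ * (m : G) * (q.out⁻¹ * q'.out) =
          q'.out⁻¹ * (q.out * (m : G) * q.out⁻¹) * q'.out := by group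
      rw [this, heq']
      have : q'.out⁻¹ * (q'.out * (m' : G) * q'.out⁻¹) * q'.out = m' := by group
      rw [this]; exact m'.2
    have hq : q = q' := by
      rw [← QuotientGroup.out_eq' q, ← QuotientGroup.out_eq' q']
      exact QuotientGroup.eq.mpr hg
    subst hq
    have hmm : (m : G) = m' := mul_left_cancel (mul_right_cancel heq')
    have : m = m' := Subtype.ext hmm
    subst this
    rfl
  have hrange : Set.range F = {y : G | y ≠ 1 ∧ ∃ g : G, g⁻¹ * y * g ∈ M} := by
    ext y
    constructor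
    · rintro ⟨⟨q, ⟨m, hm⟩⟩, rfl⟩
      have hm1 : (m : G) ≠ 1 := fun h0 => hm (Subtype.ext h0)
      refine ⟨?_, q.out, ?_⟩
      · intro h0
        exact hm1 (conj_eq_one_iff.mp h0)
      · have : q.out⁻¹ * (q.out * (m : G) * q.out⁻¹) * q.out = m := by group
        show q.out⁻¹ * (q.out * (m : G) * q.out⁻¹) * q.out ∈ M
        rw [this]; exact m.2
    · rintro ⟨hy1, g, hg⟩
      obtain ⟨k, hk⟩ := QuotientGroup.mk_out_eq_mul M g
      have hmem : (QuotientGroup.mk g : G ⧸ M).out⁻¹ * y * (QuotientGroup.mk g : G ⧸ M).out ∈ M := by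
        rw [hk]
        have : (g * (k : G))⁻¹ * y * (g * (k : G)) = (k : G)⁻¹ * (g⁻¹ * y * g) * (k : G) := by
          group
        rw [this]
        exact M.mul_mem (M.mul_mem (M.inv_mem k.2) hg) k.2
      have hne1 : (⟨_, hmem⟩ : ↥M) ∈ (({1} : Set ↥M)ᶜ) := by
        intro h0
        have h1 : (QuotientGroup.mk g : G ⧸ M).out⁻¹ * y * (QuotientGroup.mk g : G ⧸ M).out = 1 :=
          congrArg Subtype.val h0
        apply hy1
        have : y = (QuotientGroup.mk g : G ⧸ M).out *
            ((QuotientGroup.mk g : G ⧸ M).out⁻¹ * y * (QuotientGroup.mk g : G ⧸ M).out) *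
            (QuotientGroup.mk g : G ⧸ M).out⁻¹ := by group
        rw [this, h1]; group
      refine ⟨⟨QuotientGroup.mk g, ⟨⟨_, hmem⟩, hne1⟩⟩, ?_⟩
      show (QuotientGroup.mk g : G ⧸ M).out *
            ((QuotientGroup.mk g : G ⧸ M).out⁻¹ * y * (QuotientGroup.mk g : G ⧸ M).out) *
            (QuotientGroup.mk g : G ⧸ M).out⁻¹ = y
      group
  have hcard : {y : G | y ≠ 1 ∧ ∃ g : G, g⁻¹ * y * g ∈ M}.ncard =
      M.index * (({1} : Set ↥M)ᶜ).ncard := by
    rw [← hrange, ← Set.image_univ, Set.ncard_image_of_injective _ hinj, Set.ncard_univ,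
      Nat.card_prod, Nat.card_coe_set_eq]
    rfl
  have h1 := Set.ncard_add_ncard_compl ({1} : Set ↥M)
  rw [Set.ncard_singleton] at h1
  have h2 := M.index_mul_card
  rw [hcard, ← h2, ← h1]
  ring

/-- The simple case of Schmidt's theorem. -/
theorem simple_case {G : Type*} [Group G] [Finite G] (hs : IsSimpleGroup G)
    (h : ∀ M : Subgroup G, IsCoatom M → Group.IsNilpotent M) : Group.IsSolvable G := by
  classical
  have hTI : ∀ M₁ M₂ : Subgroup G, IsCoatom M₁ → IsCoatom M₂ → M₁ ≠ M₂ → M₁ ⊓ M₂ = ⊥ :=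
    fun M₁ M₂ h₁ h₂ hne => coatoms_inf_eq_bot hs h _ M₁ M₂ h₁ h₂ hne rfl
  have hcyc : ∀ x : G, Subgroup.zpowers x = ⊤ → Group.IsSolvable G := by
    intro x hx
    apply Group.isSolvable_of_comm
    intro a b
    have ha : a ∈ Subgroup.zpowers x := by rw [hx]; trivial
    have hb : b ∈ Subgroup.zpowers x := by rw [hx]; trivial
    obtain ⟨i, rfl⟩ := Subgroup.mem_zpowers_iff.mp ha
    obtain ⟨j, rfl⟩ := Subgroup.mem_zpowers_iff.mp hb
    rw [← zpow_add, ← zpow_add, add_comm]
  have hnt : Nontrivial G := hs.toNontrivial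
  obtain ⟨M, hM, -⟩ := (eq_top_or_exists_le_coatom (⊥ : Subgroup G)).resolve_left bot_ne_top
  by_cases hMbot : M = ⊥
  · obtain ⟨x, hx⟩ := exists_ne (1 : G)
    apply hcyc x
    by_contra hne
    have hlt : M < Subgroup.zpowers x := by
      rw [hMbot, bot_lt_iff_ne_bot]
      intro h0
      exact hx (Subgroup.zpowers_eq_bot.mp h0)
    exact hne (hM.2 _ hlt)
  · have hconjmem : ∀ (K : Subgroup G) (g y : G), y ∈ K.map (MulAut.conj g : G →* G) ↔
        g⁻¹ * y * g ∈ K := by
      intro K g y
      constructor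
      · rintro ⟨k, hk, rfl⟩
        have : g⁻¹ * ((MulAut.conj g : G →* G) k) * g = k := by
          simp only [MonoidHom.coe_coe, MulAut.conj_apply]
          group
        rw [this]; exact hk
      · intro hy
        refine ⟨g⁻¹ * y * g, hy, ?_⟩
        simp only [MonoidHom.coe_coe, MulAut.conj_apply]
        group
    have hmal : ∀ M : Subgroup G, IsCoatom M → M ≠ ⊥ →
        ∀ g y : G, y ≠ 1 → y ∈ M → g⁻¹ * y * g ∈ M → g ∈ M := by
      intro M hM hMbot g y hy1 hyM hgy
      have hconj : IsCoatom (M.map (MulAut.conj g : G →* G)) :=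
          (OrderIso.isCoatom_iff ((MulAut.conj g : G ≃* G).mapSubgroup) M).mpr hM
      have hyc : y ∈ M.map (MulAut.conj g : G →* G) := (hconjmem M g y).mpr hgy
      have heq : M.map (MulAut.conj g : G →* G) = M := by
        by_contra hne
        have h0 := hTI _ _ hM hconj (Ne.symm hne)
        have hy' : y ∈ M ⊓ M.map (MulAut.conj g : G →* G) := ⟨hyM, hyc⟩
        rw [h0, Subgroup.mem_bot] at hy'
        exact hy1 hy'
      have hgN : g ∈ Subgroup.normalizer (M : Set G) :=
        Subgroup.mem_normalizer_iff_map_conj_eq.mpr heq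
      have hNM : Subgroup.normalizer (M : Set G) = M := by
        by_contra hne
        have hlt : M < Subgroup.normalizer (M : Set G) :=
          lt_of_le_of_ne Subgroup.le_normalizer (Ne.symm hne)
        have htop := hM.2 _ hlt
        have hn : M.Normal := Subgroup.normalizer_eq_top_iff.mp htop
        rcases hn.eq_bot_or_eq_top with h' | h'
        · exact hMbot h'
        · exact hM.1 h'
      rw [← hNM]; exact hgN
    have hcount : ∀ M : Subgroup G, IsCoatom M → M ≠ ⊥ →
        {y : G | y ≠ 1 ∧ ∃ g : G, g⁻¹ * y * g ∈ M}.ncard + M.index = Nat.card G ∧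
          2 * M.index ≤ Nat.card G ∧ 2 ≤ M.index := by
      intro M hM hMbot
      refine ⟨ncard_conj_add_index M (hmal M hM hMbot), ?_, ?_⟩
      · have h1 := M.index_mul_card
        have h2 : 1 < Nat.card ↥M := (Subgroup.one_lt_card_iff_ne_bot M).mpr hMbot
        calc 2 * M.index = M.index * 2 := by ring
          _ ≤ M.index * Nat.card ↥M := Nat.mul_le_mul_left _ h2
          _ = Nat.card G := h1
      · have h1 : M.index ≠ 1 := fun h0 => hM.1 (Subgroup.index_eq_one.mp h0)
        have h2 : M.index ≠ 0 := Subgroup.index_ne_zero_of_finite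
        omega
    obtain ⟨hc1, hc2, hc3⟩ := hcount M hM hMbot
    have hcompl := Set.ncard_add_ncard_compl ({1} : Set G)
    rw [Set.ncard_singleton] at hcompl
    -- an element outside the conjugates of `M`
    have hx : ∃ x : G, x ≠ 1 ∧ x ∉ {y : G | y ≠ 1 ∧ ∃ g : G, g⁻¹ * y * g ∈ M} := by
      by_contra hall
      push Not at hall
      have hsub : ({1} : Set G)ᶜ ⊆ {y : G | y ≠ 1 ∧ ∃ g : G, g⁻¹ * y * g ∈ M} :=
        fun x hx => hall x hx
      have := Set.ncard_le_ncard hsub (Set.toFinite _)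
      omega
    obtain ⟨x, hx1, hxU⟩ := hx
    by_cases hz : Subgroup.zpowers x = ⊤
    · exact hcyc x hz
    · exfalso
      obtain ⟨M', hM', hxM'⟩ := (eq_top_or_exists_le_coatom (Subgroup.zpowers x)).resolve_left hz
      have hxM'' : x ∈ M' := hxM' (Subgroup.mem_zpowers x)
      have hM'bot : M' ≠ ⊥ := by
        rintro rfl
        exact hx1 (Subgroup.mem_bot.mp hxM'')
      obtain ⟨hc1', hc2', hc3'⟩ := hcount M' hM' hM'bot
      have hdisj : Disjoint {y : G | y ≠ 1 ∧ ∃ g : G, g⁻¹ * y * g ∈ M}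
          {y : G | y ≠ 1 ∧ ∃ g : G, g⁻¹ * y * g ∈ M'} := by
        rw [Set.disjoint_left]
        rintro y ⟨hy1, g, hg⟩ ⟨-, k, hk⟩
        have hA : IsCoatom (M.map (MulAut.conj g : G →* G)) :=
          (OrderIso.isCoatom_iff ((MulAut.conj g : G ≃* G).mapSubgroup) M).mpr hM
        have hB : IsCoatom (M'.map (MulAut.conj k : G →* G)) := (OrderIso.isCoatom_iff ((MulAut.conj k : G ≃* G).mapSubgroup) M').mpr hM'
        have hyA : y ∈ M.map (MulAut.conj g : G →* G) := (hconjmem M g y).mpr hg
        have hyB : y ∈ M'.map (MulAut.conj k : G →* G) := (hconjmem M' k y).mpr hk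
        by_cases hAB : M.map (MulAut.conj g : G →* G) = M'.map (MulAut.conj k : G →* G)
        · apply hxU
          refine ⟨hx1, k⁻¹ * g, ?_⟩
          have h1 : k * x * k⁻¹ ∈ M'.map (MulAut.conj k : G →* G) := by
            rw [hconjmem]
            have : k⁻¹ * (k * x * k⁻¹) * k = x := by group
            rw [this]; exact hxM''
          rw [← hAB, hconjmem] at h1
          have : (k⁻¹ * g)⁻¹ * x * (k⁻¹ * g) = g⁻¹ * (k * x * k⁻¹) * g := by group
          rw [this]; exact h1
        · have h0 := hTI _ _ hA hB hAB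
          have hy' : y ∈ M.map (MulAut.conj g : G →* G) ⊓ M'.map (MulAut.conj k : G →* G) :=
            ⟨hyA, hyB⟩
          rw [h0, Subgroup.mem_bot] at hy'
          exact hy1 hy'
      have hunion := Set.ncard_union_eq hdisj (Set.toFinite _) (Set.toFinite _)
      have hsub : {y : G | y ≠ 1 ∧ ∃ g : G, g⁻¹ * y * g ∈ M} ∪
          {y : G | y ≠ 1 ∧ ∃ g : G, g⁻¹ * y * g ∈ M'} ⊆ ({1} : Set G)ᶜ := by
        rintro y (⟨hy1, -⟩ | ⟨hy1, -⟩) <;> exact hy1
      have hle := Set.ncard_le_ncard hsub (Set.toFinite _)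
      omega

/-- Induction on the order. -/
theorem aux (n : ℕ) : ∀ (G : Type u) [Group G] [Finite G], Nat.card G = n →
    (∀ M : Subgroup G, IsCoatom M → Group.IsNilpotent M) → Group.IsSolvable G := by
  induction n using Nat.strong_induction_on with
  | _ n ih =>
    intro G _ _ hn h
    by_cases hsimp : IsSimpleGroup G
    · exact simple_case hsimp h
    · by_cases hnt : Nontrivial G
      · have hex : ∃ N : Subgroup G, N.Normal ∧ N ≠ ⊥ ∧ N ≠ ⊤ := by
          by_contra hcon
          push Not at hcon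
          apply hsimp
          exact ⟨fun N hN => by
            by_cases h0 : N = ⊥
            · exact Or.inl h0
            · exact Or.inr (hcon N hN h0)⟩
        obtain ⟨N, hNn, hNbot, hNtop⟩ := hex
        obtain ⟨M, hM, hNM⟩ := (eq_top_or_exists_le_coatom N).resolve_left hNtop
        have hMnil := h M hM
        have hNnil : Group.IsNilpotent ↥N :=
          (Group.isNilpotent_congr (Subgroup.subgroupOfEquivOfLe hNM)).mp inferInstance
        have hNsolv : Group.IsSolvable ↥N := inferInstance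
        have hQ : Group.IsSolvable (G ⧸ N) := by
          apply ih (Nat.card (G ⧸ N)) ?_ (G ⧸ N) rfl
          · intro Mb hMb
            have hc : IsCoatom (Mb.comap (QuotientGroup.mk' N)) :=
              Subgroup.isCoatom_comap_of_surjective (QuotientGroup.mk'_surjective N) hMb
            have hnil := h _ hc
            have hmap : (Mb.comap (QuotientGroup.mk' N)).map (QuotientGroup.mk' N) = Mb :=
              Subgroup.map_comap_eq_self_of_surjective (QuotientGroup.mk'_surjective N) Mb
            have h3 : Group.IsNilpotent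
                ↥((Mb.comap (QuotientGroup.mk' N)).map (QuotientGroup.mk' N)) :=
              Group.nilpotent_of_surjective _
                ((QuotientGroup.mk' N).subgroupMap_surjective (Mb.comap (QuotientGroup.mk' N)))
            rwa [hmap] at h3
          · rw [← hn]
            have h1 := N.index_mul_card
            have h2 : 1 < Nat.card ↥N := (Subgroup.one_lt_card_iff_ne_bot N).mpr hNbot
            have h3 : N.index ≠ 0 := Subgroup.index_ne_zero_of_finite
            have h4 : Nat.card (G ⧸ N) = N.index := rfl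
            rw [h4, ← h1]
            nlinarith [Nat.pos_of_ne_zero h3]
        exact Group.isSolvable_of_ker_le_range N.subtype (QuotientGroup.mk' N) (by simp)
      · rw [not_nontrivial_iff_subsingleton] at hnt
        exact Group.isSolvable_of_comm (fun a b => Subsingleton.elim _ _)

/-- Schmidt's Theorem on minimal non-nilpotent groups: a finite group in which every maximal subgroup is nilpotent is solvable. -/
theorem result {G : Type*} [Group G] [Finite G]
    (h : ∀ M : Subgroup G, IsCoatom M → Group.IsNilpotent M) : Group.IsSolvable G :=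
  aux _ G rfl h

end Cfsg.Agent.S0046
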