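import Cfsg.Statements.S0047
import Mathlib.GroupTheory.Solvable
import Mathlib.GroupTheory.Subgroup.Centralizer
import Mathlib.Tactic.Group

set_option autoImplicit false
open Cfsg

namespace Cfsg.Agent.S0047

open scoped commutatorElement

/-- Itô's key computation: conjugating `⁅a, b⁆` by `a₁ b₁` or by `b₁ a₁` gives the same. -/
theorem ito_key {G : Type*} [Group G] (A B : Subgroup G)
    [IsMulCommutative A] [IsMulCommutative B] (hAB : ∀ g : G, ∃ a ∈ A, ∃ b ∈ B, g = a * b)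
    (a a₁ b b₁ : G) (ha : a ∈ A) (ha₁ : a₁ ∈ A) (hb : b ∈ B) (hb₁ : b₁ ∈ B) :
    a₁ * b₁ * (a * b * a⁻¹ * b⁻¹) * (a₁ * b₁)⁻¹ = b₁ * a₁ * (a * b * a⁻¹ * b⁻¹) * (b₁ * a₁)⁻¹ := by
  have cA : ∀ x ∈ A, ∀ y ∈ A, x * y * x⁻¹ = y := by
    intro x hx y hy
    rw [setLike_mul_comm (s := A) hx hy, mul_inv_cancel_right]
  have cB : ∀ x ∈ B, ∀ y ∈ B, x * y * x⁻¹ = y := by
    intro x hx y hy
    rw [setLike_mul_comm (s := B) hx hy, mul_inv_cancel_right]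
  obtain ⟨a₃, ha₃, b₃, hb₃, h3⟩ := hAB (b₁ * a * b₁⁻¹)
  obtain ⟨a', ha', b', hb', h2'⟩ := hAB (a₁ * b * a₁⁻¹)⁻¹
  have h2 : a₁ * b * a₁⁻¹ = b'⁻¹ * a'⁻¹ := by
    have := congrArg (fun x => x⁻¹) h2'
    simpa using this
  have hb'i : b'⁻¹ ∈ B := B.inv_mem hb'
  have ha'i : a'⁻¹ ∈ A := A.inv_mem ha'
  have hL : a₁ * b₁ * (a * b * a⁻¹ * b⁻¹) * (a₁ * b₁)⁻¹ = a₃ * b'⁻¹ * a₃⁻¹ * b'⁻¹⁻¹ := by
    calc a₁ * b₁ * (a * b * a⁻¹ * b⁻¹) * (a₁ * b₁)⁻¹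
        = a₁ * ((b₁ * a * b₁⁻¹) * (b₁ * b * b₁⁻¹) * (b₁ * a * b₁⁻¹)⁻¹ * (b₁ * b * b₁⁻¹)⁻¹) * a₁⁻¹ := by
          group
      _ = a₁ * ((a₃ * b₃) * b * (a₃ * b₃)⁻¹ * b⁻¹) * a₁⁻¹ := by rw [h3, cB b₁ hb₁ b hb]
      _ = a₁ * (a₃ * (b₃ * b * b₃⁻¹) * a₃⁻¹ * b⁻¹) * a₁⁻¹ := by group
      _ = a₁ * (a₃ * b * a₃⁻¹ * b⁻¹) * a₁⁻¹ := by rw [cB b₃ hb₃ b hb]
      _ = (a₁ * a₃ * a₁⁻¹) * (a₁ * b * a₁⁻¹) * (a₁ * a₃ * a₁⁻¹)⁻¹ * (a₁ * b * a₁⁻¹)⁻¹ := by group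
      _ = a₃ * (b'⁻¹ * a'⁻¹) * a₃⁻¹ * (b'⁻¹ * a'⁻¹)⁻¹ := by rw [cA a₁ ha₁ a₃ ha₃, h2]
      _ = a₃ * b'⁻¹ * (a'⁻¹ * a₃⁻¹ * a'⁻¹⁻¹) * b'⁻¹⁻¹ := by group
      _ = a₃ * b'⁻¹ * a₃⁻¹ * b'⁻¹⁻¹ := by rw [cA a'⁻¹ ha'i a₃⁻¹ (A.inv_mem ha₃)]
  have hR : b₁ * a₁ * (a * b * a⁻¹ * b⁻¹) * (b₁ * a₁)⁻¹ = a₃ * b'⁻¹ * a₃⁻¹ * b'⁻¹⁻¹ := by
    calc b₁ * a₁ * (a * b * a⁻¹ * b⁻¹) * (b₁ * a₁)⁻¹
        = b₁ * ((a₁ * a * a₁⁻¹) * (a₁ * b * a₁⁻¹) * (a₁ * a * a₁⁻¹)⁻¹ * (a₁ * b * a₁⁻¹)⁻¹) * b₁⁻¹ := by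
          group
      _ = b₁ * (a * (b'⁻¹ * a'⁻¹) * a⁻¹ * (b'⁻¹ * a'⁻¹)⁻¹) * b₁⁻¹ := by rw [cA a₁ ha₁ a ha, h2]
      _ = b₁ * (a * b'⁻¹ * (a'⁻¹ * a⁻¹ * a'⁻¹⁻¹) * b'⁻¹⁻¹) * b₁⁻¹ := by group
      _ = b₁ * (a * b'⁻¹ * a⁻¹ * b'⁻¹⁻¹) * b₁⁻¹ := by rw [cA a'⁻¹ ha'i a⁻¹ (A.inv_mem ha)]
      _ = (b₁ * a * b₁⁻¹) * (b₁ * b'⁻¹ * b₁⁻¹) * (b₁ * a * b₁⁻¹)⁻¹ * (b₁ * b'⁻¹ * b₁⁻¹)⁻¹ := by group
      _ = (a₃ * b₃) * b'⁻¹ * (a₃ * b₃)⁻¹ * b'⁻¹⁻¹ := by rw [h3, cB b₁ hb₁ b'⁻¹ hb'i]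
      _ = a₃ * (b₃ * b'⁻¹ * b₃⁻¹) * a₃⁻¹ * b'⁻¹⁻¹ := by group
      _ = a₃ * b'⁻¹ * a₃⁻¹ * b'⁻¹⁻¹ := by rw [cB b₃ hb₃ b'⁻¹ hb'i]
  rw [hL, hR]

/-- A finite group which is the product AB of two abelian subgroups A and B is solvable. -/
theorem result {G : Type*} [Group G] [Finite G] (A B : Subgroup G)
    [IsMulCommutative A] [IsMulCommutative B] (hAB : ∀ g : G, ∃ a ∈ A, ∃ b ∈ B, g = a * b) :
    Group.IsSolvable G := by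
  set S : Set G := {g | ∃ a ∈ A, ∃ b ∈ B, g = a * b * a⁻¹ * b⁻¹} with hS
  -- the generators commute pairwise
  have hcomm : ∀ s ∈ S, ∀ t ∈ S, t * s = s * t := by
    rintro s ⟨a, ha, b, hb, rfl⟩ t ⟨a₁, ha₁, b₁, hb₁, rfl⟩
    have key := ito_key A B hAB a a₁⁻¹ b b₁⁻¹ ha (A.inv_mem ha₁) hb (B.inv_mem hb₁)
    have e1 : a₁ * b₁ * a₁⁻¹ * b₁⁻¹ * (a * b * a⁻¹ * b⁻¹) =
        (b₁⁻¹ * a₁⁻¹)⁻¹ * (a₁⁻¹ * b₁⁻¹ * (a * b * a⁻¹ * b⁻¹) * (a₁⁻¹ * b₁⁻¹)⁻¹) * (a₁⁻¹ * b₁⁻¹) := by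
      group
    rw [e1, key]
    group
  have hSc : S ⊆ Subgroup.centralizer S := by
    intro s hs t ht
    exact hcomm s hs t ht
  have hK1 : Subgroup.closure S ≤ Subgroup.centralizer S := (Subgroup.closure_le _).mpr hSc
  have hK2 : Subgroup.closure S ≤ Subgroup.centralizer (Subgroup.closure S : Set G) :=
    (Subgroup.closure_le_centralizer_centralizer S).trans (Subgroup.centralizer_le hK1)
  have hKK : ⁅Subgroup.closure S, Subgroup.closure S⁆ = ⊥ :=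
    Subgroup.commutator_eq_bot_iff_le_centralizer.mpr hK2
  -- `A` normalises the closure
  have hAn : ∀ x ∈ A, ∀ k ∈ Subgroup.closure S, x * k * x⁻¹ ∈ Subgroup.closure S := by
    intro x hx k hk
    induction hk using Subgroup.closure_induction with
    | mem y hy =>
      obtain ⟨a, ha, b, hb, rfl⟩ := hy
      have e : x * (a * b * a⁻¹ * b⁻¹) * x⁻¹ =
          ((x * a) * b * (x * a)⁻¹ * b⁻¹) * (x * b * x⁻¹ * b⁻¹)⁻¹ := by group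
      rw [e]
      exact mul_mem (Subgroup.subset_closure ⟨x * a, A.mul_mem hx ha, b, hb, rfl⟩)
        (inv_mem (Subgroup.subset_closure ⟨x, hx, b, hb, rfl⟩))
    | one => simp
    | mul y z _ _ hy hz =>
      have e : x * (y * z) * x⁻¹ = (x * y * x⁻¹) * (x * z * x⁻¹) := by group
      rw [e]; exact mul_mem hy hz
    | inv y _ hy =>
      have e : x * y⁻¹ * x⁻¹ = (x * y * x⁻¹)⁻¹ := by group
      rw [e]; exact inv_mem hy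
  -- the derived subgroup lies in the closure
  have hcomK : commutator G ≤ Subgroup.closure S := by
    rw [commutator_def, Subgroup.commutator_le]
    intro g _ h _
    obtain ⟨a, ha, b, hb, rfl⟩ := hAB g
    obtain ⟨a', ha', b', hb', rfl⟩ := hAB h
    have hbb : b * b' = b' * b := setLike_mul_comm (s := B) hb hb'
    have haa : a * a' = a' * a := setLike_mul_comm (s := A) ha ha'
    have e : ⁅a * b, a' * b'⁆ =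
        (a * (a' * b * a'⁻¹ * b⁻¹)⁻¹ * a⁻¹) * (a' * (a * b' * a⁻¹ * b'⁻¹) * a'⁻¹) := by
      rw [commutatorElement_def]
      have e1 : a * b * (a' * b') * (a * b)⁻¹ * (a' * b')⁻¹ =
          a * b * a' * (b' * b⁻¹) * a⁻¹ * b'⁻¹ * a'⁻¹ := by group
      have e2 : b' * b⁻¹ = b⁻¹ * b' := by
        rw [eq_inv_mul_iff_mul_eq, ← mul_assoc, hbb, mul_inv_cancel_right]
      have e3 : a * (a' * b * a'⁻¹ * b⁻¹)⁻¹ * a⁻¹ * (a' * (a * b' * a⁻¹ * b'⁻¹) * a'⁻¹) =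
          a * b * a' * b⁻¹ * (a'⁻¹ * a⁻¹ * a' * a) * b' * a⁻¹ * b'⁻¹ * a'⁻¹ := by group
      have e4 : a'⁻¹ * a⁻¹ * a' * a = 1 := by
        rw [mul_assoc, ← haa]; group
      rw [e1, e2, e3, e4]; group
    rw [e]
    refine mul_mem ?_ ?_
    · exact hAn a ha _ (inv_mem (Subgroup.subset_closure ⟨a', ha', b, hb, rfl⟩))
    · exact hAn a' ha' _ (Subgroup.subset_closure ⟨a, ha, b', hb', rfl⟩)
  refine (Group.isSolvable_def G).mpr ⟨2, ?_⟩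
  rw [derivedSeries_succ, derivedSeries_one, eq_bot_iff, ← hKK]
  exact Subgroup.commutator_mono hcomK hcomK

end Cfsg.Agent.S0047
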