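import Cfsg.Statements.S0048
import Cfsg.Agent.H2.Basic

set_option autoImplicit false
open Cfsg

namespace Cfsg.Agent.S0048

universe u

open Cfsg.Agent.H2 in
theorem aux : ∀ (n : ℕ) (G : Type u) [Group G] [Finite G] [Group.IsSolvable G], Nat.card G = n →
    ∀ M : Subgroup G, IsCoatom M → IsPrimePow M.index := by
  intro n
  induction n using Nat.strong_induction_on with
  | _ n ih =>
    intro G _ _ _ hG M hM
    have hnt : Nontrivial G := by
      by_contra h
      rw [not_nontrivial_iff_subsingleton] at h
      exact hM.1 (Subsingleton.elim _ _)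
    obtain ⟨p, N, hp, hNn, hNne, hNc, hNp⟩ := exists_normal_elemAbelian_of_solvable (G := G)
    by_cases hNM : N ≤ M
    · have hcard : Nat.card (G ⧸ N) < n := by
        rw [← hG, ← Subgroup.index_eq_card]
        have h1 := Subgroup.card_mul_index N
        have h2 : 1 < Nat.card N := by
          rcases Nat.lt_or_ge 1 (Nat.card N) with h | h
          · exact h
          · have : Nat.card N = 1 := le_antisymm h Nat.card_pos
            exact absurd (Subgroup.card_eq_one.mp this) hNne
        have h3 : 0 < N.index := Nat.pos_of_ne_zero Subgroup.index_ne_zero_of_finite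
        nlinarith
      have hMq : IsCoatom (M.map (QuotientGroup.mk' N)) := isCoatom_map_mk' N M hNM hM
      have := ih _ hcard (G ⧸ N) rfl _ hMq
      have hidx : (M.map (QuotientGroup.mk' N)).index = M.index :=
        Subgroup.index_map_eq M (QuotientGroup.mk'_surjective N)
          (by rw [QuotientGroup.ker_mk']; exact hNM)
      rwa [hidx] at this
    · have hsup : M ⊔ N = ⊤ :=
        hM.2 _ (lt_of_le_of_ne le_sup_left (fun h => hNM (h ▸ le_sup_right)))
      have hdvd : M.index ∣ Nat.card N := index_dvd_card_of_sup_eq_top N M hsup
      have hNP : IsPGroup p N := by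
        intro g
        refine ⟨1, ?_⟩
        rw [pow_one]
        exact Subtype.ext (by simpa using hNp g g.2)
      have : Fact p.Prime := ⟨hp⟩
      obtain ⟨k, hk⟩ := IsPGroup.iff_card.mp hNP
      rw [hk] at hdvd
      obtain ⟨j, -, hj⟩ := (Nat.dvd_prime_pow hp).mp hdvd
      rw [hj]
      have hj0 : j ≠ 0 := by
        rintro rfl
        rw [pow_zero] at hj
        exact hM.1 (Subgroup.index_eq_one.mp hj)
      exact hp.isPrimePow.pow hj0

/-- In a finite solvable group every maximal subgroup has index a prime power. -/
theorem result {G : Type*} [Group G] [Finite G] [Group.IsSolvable G]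
    (M : Subgroup G) (hM : IsCoatom M) : IsPrimePow M.index :=
  aux _ G rfl M hM

end Cfsg.Agent.S0048
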