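import Cfsg.Statements.S0049
import Mathlib.GroupTheory.SchurZassenhaus

set_option autoImplicit false
open Cfsg

namespace Cfsg.Agent.S0049

/-- A prime divisor of the order of a finite group also divides the index of the Frattini subgroup. -/
theorem result {G : Type*} [Group G] [Finite G] (p : ℕ) (hp : p.Prime) (hdvd : p ∣ Nat.card G) :
    p ∣ (frattini G).index := by
  by_contra hnd
  have : Fact p.Prime := ⟨hp⟩
  obtain ⟨P⟩ : Nonempty (Sylow p (frattini G)) := inferInstance
  -- P (mapped to G) is normal in G by the Frattini argument
  have hnorm : (Subgroup.map (frattini G).subtype (P : Subgroup (frattini G))).Normal :=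
    Subgroup.normalizer_eq_top_iff.mp (frattini_nongenerating (Sylow.normalizer_sup_eq_top P))
  set N : Subgroup G := Subgroup.map (frattini G).subtype (P : Subgroup (frattini G)) with hN
  have hNle : N ≤ frattini G := Subgroup.map_subtype_le _
  have hcardN : Nat.card N = Nat.card (P : Subgroup (frattini G)) :=
    Subgroup.card_map_of_injective (Subgroup.subtype_injective _)
  -- index of N in G is coprime to p
  have hidx : N.index = (P : Subgroup (frattini G)).index * (frattini G).index := by
    rw [hN, Subgroup.index_map_subtype]
  have hPidx : ¬ p ∣ (P : Subgroup (frattini G)).index := P.not_dvd_index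
  have hNidx : ¬ p ∣ N.index := by
    rw [hidx]
    intro h
    rcases (Nat.Prime.dvd_mul hp).mp h with h | h
    · exact hPidx h
    · exact hnd h
  have hNP : IsPGroup p N := by
    have : IsPGroup p (P : Subgroup (frattini G)) := P.isPGroup'
    exact this.map _
  have hcop : Nat.Coprime (Nat.card N) N.index := by
    obtain ⟨k, hk⟩ := IsPGroup.iff_card.mp hNP
    rw [hk]
    exact Nat.Coprime.pow_left k ((Nat.Prime.coprime_iff_not_dvd hp).mpr hNidx)
  obtain ⟨H, hH⟩ := Subgroup.exists_right_complement'_of_coprime hcop
  have hHtop : H = ⊤ := by
    apply frattini_nongenerating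
    rw [eq_top_iff, ← hH.sup_eq_top, sup_comm]
    exact sup_le_sup_left hNle H
  have hNbot : N = ⊥ := by
    rw [hHtop] at hH
    exact Subgroup.isComplement'_top_right.mp hH
  have : N.index = Nat.card G := by rw [hNbot, Subgroup.index_bot]
  exact hNidx (this ▸ hdvd)

end Cfsg.Agent.S0049
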