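import Cfsg.Statements.S0050
import Cfsg.Agent.H1.Hall

set_option autoImplicit false
open Cfsg

namespace Cfsg.Agent.S0050

open Pointwise in
theorem aux {G : Type*} [Group G] [Finite G] (L : Subgroup G) [L.Normal] (hL : Group.IsSolvable L)
    (H : Subgroup G) (hHL : H ≤ L) (hHall : (Nat.card H).Coprime (H.relIndex L)) :
    L ⊔ Subgroup.normalizer (H : Set G) = ⊤ := by
  rw [eq_top_iff]
  intro g _
  have hLn : L.Normal := inferInstance
  have hHgL : MulAut.conj g • H ≤ L := by
    intro x hx
    rw [Cfsg.Agent.H1.mem_conj_smul_iff] at hx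
    have h1 := hHL hx
    have h2 := hLn.conj_mem _ h1 g
    have h3 : g * (g⁻¹ * x * g) * g⁻¹ = x := by group
    rwa [h3] at h2
  have hcardH : Nat.card (H.subgroupOf L) = Nat.card H := Cfsg.Agent.H1.card_subgroupOf_of_le hHL
  have hcardHg : Nat.card ((MulAut.conj g • H).subgroupOf L) = Nat.card H := by
    rw [Cfsg.Agent.H1.card_subgroupOf_of_le hHgL, Cfsg.Agent.H1.card_conj_smul]
  have hLcard : Nat.card L = Nat.card H * H.relIndex L := by
    have := Subgroup.card_mul_index (H.subgroupOf L)
    rw [hcardH] at this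
    exact this.symm
  obtain ⟨l, hl⟩ := Cfsg.Agent.H1.hall_conj (Nat.card H) (H.relIndex L) hLcard hHall
    (H.subgroupOf L) ((MulAut.conj g • H).subgroupOf L) hcardH hcardHg
  have h3 := Cfsg.Agent.H1.conj_smul_eq_of_subgroupOf hHL hHgL l hl
  have h4 : (l : G)⁻¹ * g ∈ Subgroup.normalizer (H : Set G) := by
    rw [Cfsg.Agent.H1.mem_normalizer_iff_conj_smul, Cfsg.Agent.H1.conj_mul_smul, ← h3,
      Cfsg.Agent.H1.conj_inv_smul_conj_smul]
  have h5 : g = (l : G) * ((l : G)⁻¹ * g) := by group
  rw [h5]
  exact Subgroup.mul_mem _ (Subgroup.mem_sup_left l.2) (Subgroup.mem_sup_right h4)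


/-- Frattini argument for Hall subgroups: if L is a solvable normal subgroup and H a subgroup of L of order coprime to its index in L, then L together with the normaliser of H generates the whole group. -/
theorem result {G : Type*} [Group G] [Finite G] (L : Subgroup G) [L.Normal] (hL : Group.IsSolvable L)
    (H : Subgroup G) (hHL : H ≤ L) (hHall : (Nat.card H).Coprime (H.relIndex L)) :
    L ⊔ Subgroup.normalizer (H : Set G) = ⊤ :=
  aux L hL H hHL hHall

end Cfsg.Agent.S0050
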