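import Cfsg.Statements.S0053
import Cfsg.Agent.H2.Basic

set_option autoImplicit false
open Cfsg

namespace Cfsg.Agent.S0053

/-- An abelian minimal normal subgroup N of a finite group is complemented exactly when N is not inside the Frattini subgroup. -/
theorem result {G : Type*} [Group G] [Finite G]
    (N : Subgroup G) [N.Normal] [IsMulCommutative N] (hN : N ≠ ⊥)
    (hmin : ∀ M : Subgroup G, M.Normal → M ≤ N → M = ⊥ ∨ M = N) :
    (∃ H : Subgroup G, Subgroup.IsComplement' N H) ↔ ¬ N ≤ frattini G := by
  constructor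
  · rintro ⟨H, hH⟩ hle
    have hHtop : H = ⊤ := by
      apply frattini_nongenerating
      rw [eq_top_iff, ← hH.sup_eq_top, sup_comm]
      exact sup_le_sup_left hle H
    rw [hHtop] at hH
    exact hN (Subgroup.isComplement'_top_right.mp hH)
  · intro hnle
    have : ∃ M : Subgroup G, IsCoatom M ∧ ¬ N ≤ M := by
      by_contra hcon
      push Not at hcon
      apply hnle
      unfold frattini Order.radical
      exact le_iInf₂ (fun M hM => hcon M hM)
    obtain ⟨M, hM, hNM⟩ := this
    refine ⟨M, ?_⟩
    have hsup : N ⊔ M = ⊤ := by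
      by_contra h
      have hlt : M < N ⊔ M := lt_of_le_of_ne le_sup_right (fun h' => hNM (h' ▸ le_sup_left))
      exact h (hM.2 _ hlt)
    have hinf : (N ⊓ M).Normal := by
      constructor
      intro x hx g
      have hg : g ∈ N ⊔ M := by rw [hsup]; trivial
      obtain ⟨n, hn, m, hm, rfl⟩ := Subgroup.mem_sup_of_normal_left.mp hg
      have h1 : m * x * m⁻¹ ∈ N ⊓ M :=
        ⟨‹N.Normal›.conj_mem _ hx.1 m, M.mul_mem (M.mul_mem hm hx.2) (M.inv_mem hm)⟩
      have h2 : n * (m * x * m⁻¹) = (m * x * m⁻¹) * n :=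
        setLike_mul_comm (s := N) hn h1.1
      have h3 : n * m * x * (n * m)⁻¹ = m * x * m⁻¹ := by
        calc n * m * x * (n * m)⁻¹ = n * (m * x * m⁻¹) * n⁻¹ := by group
          _ = (m * x * m⁻¹) * n * n⁻¹ := by rw [h2]
          _ = m * x * m⁻¹ := by group
      rw [h3]
      exact h1
    rcases hmin _ hinf inf_le_left with h | h
    · exact Cfsg.Agent.H2.isComplement'_of_inf_sup_left N M h hsup
    · exact absurd (h ▸ inf_le_right) hNM

end Cfsg.Agent.S0053
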