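import Cfsg.Statements.S0054
import Mathlib.GroupTheory.Perm.Cycle.Type
import Mathlib.GroupTheory.PGroup

set_option autoImplicit false
open Cfsg

namespace Cfsg.Agent.S0054

/-- A regular normal subgroup of a finite 2-transitive group is elementary abelian: it is commutative and all its elements have order dividing one prime. -/
theorem result {G : Type*} [Group G] [Finite G]
    {X : Type*} [Nonempty X] [MulAction G X] (h2 : MulAction.IsMultiplyPretransitive G X 2)
    (N : Subgroup G) [N.Normal] (htrans : MulAction.IsPretransitive N X) (hreg : ∀ x : X, MulAction.stabilizer N x = ⊥) :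
    IsMulCommutative N ∧ ∃ p : ℕ, p.Prime ∧ ∀ n ∈ N, n ^ p = 1 := by
  classical
  obtain ⟨x₀⟩ := ‹Nonempty X›
  have h2' : ∀ {a b c d : X}, a ≠ b → c ≠ d → ∃ g : G, g • a = c ∧ g • b = d :=
    MulAction.is_two_pretransitive_iff.mp h2
  have hfree : ∀ n ∈ N, n • x₀ = x₀ → n = 1 := by
    intro n hn hfix
    have : (⟨n, hn⟩ : N) ∈ MulAction.stabilizer N x₀ := by
      rw [MulAction.mem_stabilizer_iff]; exact hfix
    rw [hreg x₀, Subgroup.mem_bot] at this
    exact congrArg Subtype.val this
  have hconj : ∀ n ∈ N, ∀ m ∈ N, n ≠ 1 → m ≠ 1 → ∃ g : G, g * n * g⁻¹ = m := by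
    intro n hn m hm hn1 hm1
    have hnx : x₀ ≠ n • x₀ := fun h => hn1 (hfree n hn h.symm)
    have hmx : x₀ ≠ m • x₀ := fun h => hm1 (hfree m hm h.symm)
    obtain ⟨g, hg1, hg2⟩ := h2' hnx hmx
    refine ⟨g, ?_⟩
    have hmem : m⁻¹ * (g * n * g⁻¹) ∈ N :=
      N.mul_mem (N.inv_mem hm) (‹N.Normal›.conj_mem n hn g)
    have hfix : (m⁻¹ * (g * n * g⁻¹)) • x₀ = x₀ := by
      rw [mul_smul, mul_smul, mul_smul]
      have : g⁻¹ • x₀ = x₀ := by rw [inv_smul_eq_iff, hg1]
      rw [this, hg2, inv_smul_smul]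
    have := hfree _ hmem hfix
    exact (inv_mul_eq_one.mp this).symm
  by_cases hN : N = ⊥
  · refine ⟨⟨⟨fun a b => ?_⟩⟩, 2, Nat.prime_two, ?_⟩
    · have ha : (a : G) = 1 := by
        have h1 : (a : G) ∈ (⊥ : Subgroup G) := hN ▸ a.2
        exact Subgroup.mem_bot.mp h1
      have : a = 1 := Subtype.ext ha
      rw [this, one_mul, mul_one]
    · intro n hn
      rw [hN, Subgroup.mem_bot] at hn
      rw [hn, one_pow]
  · have hcard : Nat.card N ≠ 1 := fun h => hN (Subgroup.card_eq_one.mp h)
    obtain ⟨p, hp, hpdvd⟩ := Nat.exists_prime_and_dvd hcard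
    have : Fact p.Prime := ⟨hp⟩
    obtain ⟨w, hw⟩ := exists_prime_orderOf_dvd_card' p hpdvd
    have hw1 : (w : G) ≠ 1 := by
      intro h
      have : w = 1 := Subtype.ext h
      rw [this, orderOf_one] at hw
      exact hp.one_lt.ne hw
    have hwp : (w : G) ^ p = 1 := by
      have h1 : w ^ p = 1 := by rw [← hw]; exact pow_orderOf_eq_one w
      simpa using congrArg Subtype.val h1
    have hpow : ∀ n ∈ N, n ^ p = 1 := by
      intro n hn
      by_cases hn1 : n = 1
      · rw [hn1, one_pow]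
      · obtain ⟨g, hg⟩ := hconj w w.2 n hn hw1 hn1
        rw [← hg, conj_pow, hwp, mul_one, mul_inv_cancel]
    refine ⟨?_, p, hp, hpow⟩
    have hNP : IsPGroup p N := by
      intro g
      exact ⟨1, by rw [pow_one]; exact Subtype.ext (by simpa using hpow g g.2)⟩
    have hnt : Nontrivial N := by
      rw [← Finite.one_lt_card_iff_nontrivial]
      have := Nat.card_pos (α := N)
      omega
    have hZ : Nontrivial (Subgroup.center N) := hNP.center_nontrivial
    obtain ⟨z, hz⟩ := exists_ne (1 : Subgroup.center N)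
    have hz1 : ((z : N) : G) ≠ 1 := by
      intro h
      apply hz
      exact Subtype.ext (Subtype.ext h)
    have hzc : ∀ b ∈ N, ((z : N) : G) * b = b * ((z : N) : G) := by
      intro b hb
      have := Subgroup.mem_center_iff.mp z.2 ⟨b, hb⟩
      exact (congrArg Subtype.val this).symm
    refine ⟨⟨fun a b => ?_⟩⟩
    by_cases ha : (a : G) = 1
    · have : a = 1 := Subtype.ext ha
      rw [this, one_mul, mul_one]
    · obtain ⟨g, hg⟩ := hconj _ (z : N).2 a a.2 hz1 ha
      apply Subtype.ext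
      have hb' : g⁻¹ * b * g ∈ N := by
        have := ‹N.Normal›.conj_mem b b.2 g⁻¹
        simpa using this
      have h3 := hzc _ hb'
      show (a : G) * b = b * a
      rw [← hg]
      calc g * ((z : N) : G) * g⁻¹ * (b : G)
          = g * (((z : N) : G) * (g⁻¹ * (b : G) * g)) * g⁻¹ := by group
        _ = g * ((g⁻¹ * (b : G) * g) * ((z : N) : G)) * g⁻¹ := by rw [h3]
        _ = (b : G) * (g * ((z : N) : G) * g⁻¹) := by group

end Cfsg.Agent.S0054
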