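import Cfsg.Statements.S0057
import Cfsg.Agent.Lib.Helper30.CoprimeAb

set_option autoImplicit false
open Cfsg

namespace Cfsg.Agent.S0057

/-- Under coprime action, if the centraliser of A in K has prime index p in K then the commutator subgroup [K, A] has order exactly p. -/
theorem result {G : Type*} [Group G] [Finite G] (A K : Subgroup G) (hAK : A ≤ Subgroup.normalizer (K : Set G))
    (hcop : (Nat.card A).Coprime (Nat.card K)) (hsolv : Group.IsSolvable A ∨ Group.IsSolvable K)
    (p : ℕ) (hp : p.Prime) (hidx : (K ⊓ Subgroup.centralizer (A : Set G)).relIndex K = p) :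
    Nat.card (⁅K, A⁆ : Subgroup G) = p := by
  exact Cfsg.Agent.Lib.Helper30.card_commutator_of_relIndex_prime A K hAK hcop hsolv p hp hidx

end Cfsg.Agent.S0057
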