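import Cfsg.Statements.S0059
import Cfsg.Agent.H1.Coprime

set_option autoImplicit false
open Cfsg

namespace Cfsg.Agent.S0059

open Pointwise in
theorem aux {G : Type*} [Group G] [Finite G] {X : Type*} [Nonempty X] [MulAction G X]
    (K H : Subgroup G) [K.Normal] (hc : Subgroup.IsComplement' K H) (hcop : (Nat.card K).Coprime K.index)
    (hsolv : Group.IsSolvable K ∨ Group.IsSolvable (G ⧸ K)) (htrans : MulAction.IsPretransitive K X) :
    (∃ x : X, ∀ h ∈ H, h • x = x) ∧
    ∀ x y : X, (∀ h ∈ H, h • x = x) → (∀ h ∈ H, h • y = y) → ∃ k ∈ K ⊓ Subgroup.centralizer (H : Set G), k • x = y := by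
  have hKn : K.Normal := inferInstance
  have hHcard : Nat.card H = K.index := hc.symm.index_eq_card.symm
  have hdisj : K ⊓ H = ⊥ := hc.disjoint.eq_bot
  have hsup : K ⊔ H = ⊤ := hc.sup_eq_top
  have hKconj : ∀ g : G, ∀ k ∈ K, g * k * g⁻¹ ∈ K := fun g k hk => hKn.conj_mem k hk g
  have hHK : H ≤ Subgroup.normalizer (K : Set G) := by
    intro h _
    rw [Subgroup.mem_normalizer_iff]
    intro z
    constructor
    · exact hKconj h z
    · intro hz
      have e : z = h⁻¹ * (h * z * h⁻¹) * h⁻¹⁻¹ := by group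
      rw [e]
      exact hKconj _ _ hz
  have hsolvH : Group.IsSolvable (G ⧸ K) → Group.IsSolvable H := by
    intro h
    apply Group.isSolvable_of_isSolvable_injective (f := (QuotientGroup.mk' K).comp H.subtype)
    intro a b hab
    have h1 : (QuotientGroup.mk' K) (a : G) = (QuotientGroup.mk' K) (b : G) := hab
    rw [QuotientGroup.mk'_apply, QuotientGroup.mk'_apply, QuotientGroup.eq] at h1
    have h2 : (a : G)⁻¹ * (b : G) ∈ K ⊓ H :=
      Subgroup.mem_inf.mpr ⟨h1, H.mul_mem (H.inv_mem a.2) b.2⟩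
    rw [hdisj, Subgroup.mem_bot] at h2
    exact Subtype.ext (inv_mul_eq_one.mp h2)
  have hsolv' : ∀ D : Subgroup G, D ≤ K → Group.IsSolvable H ∨ Group.IsSolvable D := by
    intro D hD
    rcases hsolv with h | h
    · exact Or.inr (Group.isSolvable_of_isSolvable_injective (Subgroup.inclusion_injective hD))
    · exact Or.inl (hsolvH h)
  have hcopH : ∀ D : Subgroup G, D ≤ K → (Nat.card H).Coprime (Nat.card D) := by
    intro D hD
    rw [hHcard]
    exact (Nat.Coprime.coprime_dvd_left (Subgroup.card_dvd_of_le hD) hcop).symm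
  have htr : ∀ x y : X, ∃ k ∈ K, k • x = y := by
    intro x y
    obtain ⟨k, hk⟩ := htrans.exists_smul_eq x y
    exact ⟨k, k.2, hk⟩
  constructor
  · obtain ⟨x₀⟩ := ‹Nonempty X›
    have hSK : MulAction.stabilizer G x₀ ⊔ K = ⊤ := by
      rw [eq_top_iff]
      intro g _
      obtain ⟨k, hk, hkx⟩ := htr x₀ (g • x₀)
      have h1 : k⁻¹ * g ∈ MulAction.stabilizer G x₀ := by
        rw [MulAction.mem_stabilizer_iff, mul_smul, ← hkx, inv_smul_smul]
      have h2 : g = k * (k⁻¹ * g) := by group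
      rw [h2]
      exact Subgroup.mul_mem _ (Subgroup.mem_sup_right hk) (Subgroup.mem_sup_left h1)
    have hrel : K.relIndex (MulAction.stabilizer G x₀) = K.index := by
      rw [← Subgroup.relIndex_sup_right, hSK, Subgroup.relIndex_top_right]
    have hcopS : (Nat.card (K.subgroupOf (MulAction.stabilizer G x₀))).Coprime
        (K.subgroupOf (MulAction.stabilizer G x₀)).index := by
      have h1 : Nat.card (K.subgroupOf (MulAction.stabilizer G x₀)) ∣ Nat.card K := by
        rw [Cfsg.Agent.H1.card_subgroupOf]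
        exact Subgroup.card_dvd_of_le inf_le_left
      have h2 : (K.subgroupOf (MulAction.stabilizer G x₀)).index = K.index := hrel
      rw [h2]
      exact Nat.Coprime.coprime_dvd_left h1 hcop
    obtain ⟨H₁', hH₁'⟩ := Subgroup.exists_right_complement'_of_coprime hcopS
    have hH₁S : H₁'.map (MulAction.stabilizer G x₀).subtype ≤ MulAction.stabilizer G x₀ := by
      rintro z ⟨w, -, rfl⟩
      exact w.2
    have hH₁card : Nat.card (H₁'.map (MulAction.stabilizer G x₀).subtype) = Nat.card H := by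
      have h1 : Nat.card (H₁'.map (MulAction.stabilizer G x₀).subtype) = Nat.card H₁' :=
        Nat.card_congr (Subgroup.equivMapOfInjective H₁' _ (Subgroup.subtype_injective _)).symm.toEquiv
      rw [h1, hHcard, ← hrel]
      exact hH₁'.symm.index_eq_card.symm
    obtain ⟨d, hd, hdH⟩ := Cfsg.Agent.H1.sz_conj_internal H K _ hHK (hcopH K le_rfl)
      (hsolv' K le_rfl) (by rw [sup_comm, hsup]; exact le_top) hH₁card
    refine ⟨d⁻¹ • x₀, fun h hh => ?_⟩
    have h1 : d * h * d⁻¹ ∈ H₁'.map (MulAction.stabilizer G x₀).subtype := by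
      rw [← hdH]
      exact Cfsg.Agent.H1.conj_mem_conj_smul d h H hh
    have h2 : (d * h * d⁻¹) • x₀ = x₀ := hH₁S h1
    calc h • d⁻¹ • x₀ = d⁻¹ • ((d * h * d⁻¹) • x₀) := by simp [mul_smul]
      _ = d⁻¹ • x₀ := by rw [h2]
  · intro x y hx hy
    obtain ⟨k, hk, hkx⟩ := htr x y
    have hHS : H ≤ MulAction.stabilizer G x := fun h hh => hx h hh
    have hkS : ∀ h ∈ H, k⁻¹ * h * k ∈ MulAction.stabilizer G x := by
      intro h hh
      rw [MulAction.mem_stabilizer_iff, mul_smul, mul_smul, hkx, hy h hh, ← hkx, inv_smul_smul]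
    have hD : H ≤ Subgroup.normalizer ((K ⊓ MulAction.stabilizer G x : Subgroup G) : Set G) := by
      intro h hh
      rw [Subgroup.mem_normalizer_iff]
      intro z
      constructor
      · intro hz
        exact Subgroup.mem_inf.mpr ⟨hKconj h z (Subgroup.mem_inf.mp hz).1,
          Subgroup.mul_mem _ (Subgroup.mul_mem _ (hHS hh) (Subgroup.mem_inf.mp hz).2)
            (Subgroup.inv_mem _ (hHS hh))⟩
      · intro hz
        have e : z = h⁻¹ * (h * z * h⁻¹) * h⁻¹⁻¹ := by group
        rw [e]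
        exact Subgroup.mem_inf.mpr ⟨hKconj h⁻¹ _ (Subgroup.mem_inf.mp hz).1,
          Subgroup.mul_mem _ (Subgroup.mul_mem _ (Subgroup.inv_mem _ (hHS hh))
            (Subgroup.mem_inf.mp hz).2) (Subgroup.inv_mem _ (Subgroup.inv_mem _ (hHS hh)))⟩
    have hB : MulAut.conj k⁻¹ • H ≤ H ⊔ (K ⊓ MulAction.stabilizer G x) := by
      intro z hz
      rw [Cfsg.Agent.H1.mem_conj_smul_iff, inv_inv] at hz
      have hz' : z = (k * z * k⁻¹) * ((k * z * k⁻¹)⁻¹ * (k⁻¹ * (k * z * k⁻¹) * k)) := by group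
      rw [hz']
      refine Subgroup.mul_mem _ (Subgroup.mem_sup_left hz)
        (Subgroup.mem_sup_right (Subgroup.mem_inf.mpr ⟨?_, ?_⟩))
      · have e : (k * z * k⁻¹)⁻¹ * (k⁻¹ * (k * z * k⁻¹) * k)
            = ((k * z * k⁻¹)⁻¹ * k⁻¹ * (k * z * k⁻¹)⁻¹⁻¹) * k := by group
        rw [e]
        exact K.mul_mem (hKconj _ _ (K.inv_mem hk)) hk
      · exact Subgroup.mul_mem _ (Subgroup.inv_mem _ (hHS hz)) (hkS _ hz)
    obtain ⟨d, hd, hdH⟩ := Cfsg.Agent.H1.sz_conj_internal H (K ⊓ MulAction.stabilizer G x)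
      (MulAut.conj k⁻¹ • H) hD (hcopH _ inf_le_left) (hsolv' _ inf_le_left) hB
      (Cfsg.Agent.H1.card_conj_smul _ _)
    have hkd : MulAut.conj (k * d) • H = H := by
      rw [Cfsg.Agent.H1.conj_mul_smul, hdH, Cfsg.Agent.H1.conj_smul_conj_inv_smul]
    have hkdK : k * d ∈ K := K.mul_mem hk (Subgroup.mem_inf.mp hd).1
    refine ⟨k * d, Subgroup.mem_inf.mpr ⟨hkdK, ?_⟩, ?_⟩
    · rw [Subgroup.mem_centralizer_iff]
      intro h hh
      have h1 : (k * d) * h * (k * d)⁻¹ ∈ H := by
        have := Cfsg.Agent.H1.conj_mem_conj_smul (k * d) h H hh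
        rwa [hkd] at this
      have h2 : (k * d) * h * (k * d)⁻¹ * h⁻¹ ∈ K ⊓ H := by
        refine Subgroup.mem_inf.mpr ⟨?_, H.mul_mem h1 (H.inv_mem hh)⟩
        have e : (k * d) * h * (k * d)⁻¹ * h⁻¹ = (k * d) * (h * (k * d)⁻¹ * h⁻¹) := by group
        rw [e]
        exact K.mul_mem hkdK (hKconj h _ (K.inv_mem hkdK))
      rw [hdisj, Subgroup.mem_bot] at h2
      have h3 : (k * d) * h * (k * d)⁻¹ = h := by
        rw [mul_inv_eq_one] at h2
        exact h2
      calc h * (k * d) = ((k * d) * h * (k * d)⁻¹) * (k * d) := by rw [h3]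
        _ = k * d * h := by group
    · rw [mul_smul]
      have h1 : d • x = x := (Subgroup.mem_inf.mp hd).2
      rw [h1, hkx]

/-- Let a finite group act on a set on which a normal subgroup K of coprime order and index is transitive, with K or the quotient solvable. Then any complement H of K has a fixed point, and any two H-fixed points are interchanged by an element of K centralising H. -/
theorem result {G : Type*} [Group G] [Finite G] {X : Type*} [Nonempty X] [MulAction G X]
    (K H : Subgroup G) [K.Normal] (hc : Subgroup.IsComplement' K H) (hcop : (Nat.card K).Coprime K.index)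
    (hsolv : Group.IsSolvable K ∨ Group.IsSolvable (G ⧸ K)) (htrans : MulAction.IsPretransitive K X) :
    (∃ x : X, ∀ h ∈ H, h • x = x) ∧
    ∀ x y : X, (∀ h ∈ H, h • x = x) → (∀ h ∈ H, h • y = y) → ∃ k ∈ K ⊓ Subgroup.centralizer (H : Set G), k • x = y :=
  aux K H hc hcop hsolv htrans

end Cfsg.Agent.S0059
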