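import Cfsg.Statements.S0060
import Cfsg.Agent.H2.Basic

set_option autoImplicit false
open Pointwise
open Cfsg

namespace Cfsg.Agent.S0060

open Cfsg.Agent.H2 in
/-- Brodkey's Theorem: in a finite group with abelian Sylow p-subgroups and no nontrivial normal p-subgroup, some conjugate of a Sylow p-subgroup meets it trivially. -/
theorem result {G : Type*} [Group G] [Finite G] (p : ℕ) [Fact p.Prime]
    (S : Sylow p G) (hS : IsMulCommutative S) (hOp : Cfsg.pCore p G = ⊥) :
    ∃ g : G, (S : Subgroup G) ⊓ MulAut.conj g • (S : Subgroup G) = ⊥ := by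
  classical
  -- every Sylow subgroup is commutative
  have hcomm : ∀ P : Sylow p G, ∀ x ∈ P, ∀ y ∈ P, x * y = y * x := by
    intro P x hx y hy
    obtain ⟨g, rfl⟩ := MulAction.exists_smul_eq G S P
    rw [mem_sylow_smul] at hx hy
    have h := setLike_mul_comm (s := (S : Subgroup G)) hx hy
    have e1 : x * y = g * ((g⁻¹ * x * g) * (g⁻¹ * y * g)) * g⁻¹ := by group
    have e2 : y * x = g * ((g⁻¹ * y * g) * (g⁻¹ * x * g)) * g⁻¹ := by group
    rw [e1, e2, h]
  -- a pair of Sylow subgroups with intersection of minimal order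
  obtain ⟨⟨S', T'⟩, hmin⟩ := Finite.exists_min
    (fun PT : Sylow p G × Sylow p G => Nat.card ((PT.1 : Subgroup G) ⊓ (PT.2 : Subgroup G) : Subgroup G))
  simp only at hmin
  set D : Subgroup G := (S' : Subgroup G) ⊓ (T' : Subgroup G) with hD
  have hDle : ∀ P : Sylow p G, D ≤ P := by
    intro P
    set N : Subgroup G := Subgroup.normalizer (D : Set G) with hN
    have hS'N : (S' : Subgroup G) ≤ N := by
      rw [hN, Subgroup.le_normalizer_iff]
      intro s hs d hd
      have : s * d = d * s := hcomm S' s hs d hd.1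
      rw [this, mul_inv_cancel_right]
      exact hd
    have hT'N : (T' : Subgroup G) ≤ N := by
      rw [hN, Subgroup.le_normalizer_iff]
      intro s hs d hd
      have : s * d = d * s := hcomm T' s hs d hd.2
      rw [this, mul_inv_cancel_right]
      exact hd
    have hQ : IsPGroup p ((P : Subgroup G) ⊓ N : Subgroup G) := P.isPGroup'.to_le inf_le_left
    obtain ⟨x, hxN, hx⟩ := exists_conj_le_sylow_of_le S' N ((P : Subgroup G) ⊓ N) hS'N hQ inf_le_right
    -- the conjugate `x • P` meets `T'` inside `D`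
    have hle : ((x • P : Sylow p G) : Subgroup G) ⊓ (T' : Subgroup G) ≤ D := by
      intro y hy
      have hy1 : y ∈ (x • P : Sylow p G) := hy.1
      rw [mem_sylow_smul] at hy1
      have hy2 : x⁻¹ * y * x ∈ N := N.mul_mem (N.mul_mem (N.inv_mem hxN) (hT'N hy.2)) hxN
      have hy3 := hx (x⁻¹ * y * x) ⟨hy1, hy2⟩
      have e : x * (x⁻¹ * y * x) * x⁻¹ = y := by group
      rw [e] at hy3
      exact ⟨hy3, hy.2⟩
    have hcard := hmin (x • P, T')
    simp only at hcard
    have heq : ((x • P : Sylow p G) : Subgroup G) ⊓ (T' : Subgroup G) = D :=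
      Subgroup.eq_of_le_of_card_ge hle hcard
    intro d hd
    -- `x * d * x⁻¹ ∈ D ≤ x • P`
    have hd' : x * d * x⁻¹ ∈ D := by
      have := (Subgroup.mem_normalizer_iff.mp hxN d).mp hd
      exact this
    rw [← heq] at hd'
    have hd1 : x * d * x⁻¹ ∈ (x • P : Sylow p G) := hd'.1
    rw [mem_sylow_smul] at hd1
    have e : x⁻¹ * (x * d * x⁻¹) * x = d := by group
    rw [e] at hd1
    exact hd1
  have hDbot : D = ⊥ := by
    have := le_pCore_of_forall_le_sylow D hDle
    rw [hOp] at this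
    exact le_bot_iff.mp this
  obtain ⟨a, rfl⟩ := MulAction.exists_smul_eq G S S'
  obtain ⟨b, rfl⟩ := MulAction.exists_smul_eq G S T'
  refine ⟨a⁻¹ * b, ?_⟩
  rw [eq_bot_iff]
  intro y hy
  have hy1 : y ∈ (S : Subgroup G) := hy.1
  have hy2 : y ∈ MulAut.conj (a⁻¹ * b) • (S : Subgroup G) := hy.2
  rw [mem_conj_smul] at hy2
  have h1 : a * y * a⁻¹ ∈ (a • S : Sylow p G) := by
    rw [mem_sylow_smul]
    have e : a⁻¹ * (a * y * a⁻¹) * a = y := by group
    rw [e]; exact hy1
  have h2 : a * y * a⁻¹ ∈ (b • S : Sylow p G) := by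
    rw [mem_sylow_smul]
    have e : b⁻¹ * (a * y * a⁻¹) * b = (a⁻¹ * b)⁻¹ * y * (a⁻¹ * b) := by group
    rw [e]; exact hy2
  have h3 : a * y * a⁻¹ ∈ D := ⟨h1, h2⟩
  rw [hDbot, Subgroup.mem_bot] at h3
  rw [Subgroup.mem_bot]
  have e : y = a⁻¹ * (a * y * a⁻¹) * a := by group
  rw [e, h3]; group

end Cfsg.Agent.S0060
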