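import Cfsg.Statements.S0061
import Cfsg.Agent.H2.Basic

set_option autoImplicit false
open Cfsg

namespace Cfsg.Agent.S0061

universe u

open Cfsg.Agent.H2 in
/-- A group of order `p ^ m * q` (`p ≠ q`, `m > 0`) has a nontrivial proper normal subgroup. -/
theorem exists_normal {G : Type u} [Group G] [Finite G] (p q m : ℕ) (hp : p.Prime) (hq : q.Prime)
    (hpq : p ≠ q) (hm : 0 < m) (hG : Nat.card G = p ^ m * q) :
    ∃ N : Subgroup G, N.Normal ∧ N ≠ ⊥ ∧ N ≠ ⊤ := by
  classical
  have : Fact p.Prime := ⟨hp⟩
  have : Fact q.Prime := ⟨hq⟩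
  have hcardP : ∀ P : Sylow p G, Nat.card P = p ^ m := by
    intro P
    rw [Sylow.card_eq_multiplicity, hG, Nat.factorization_mul (pow_ne_zero m hp.ne_zero) hq.ne_zero,
      Nat.Prime.factorization_pow hp, hq.factorization]
    simp [hpq]
  have hidxP : ∀ P : Sylow p G, (P : Subgroup G).index = q := by
    intro P
    have h1 := Subgroup.card_mul_index (P : Subgroup G)
    have h2 : Nat.card (P : Subgroup G) = p ^ m := hcardP P
    rw [h2, hG] at h1
    exact Nat.eq_of_mul_eq_mul_left (pow_pos hp.pos m) h1
  have hPtop : ∀ P : Sylow p G, (P : Subgroup G) ≠ ⊤ := by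
    intro P h
    have h1 := hidxP P
    rw [h, Subgroup.index_top] at h1
    exact hq.one_lt.ne h1
  have hPbot : ∀ P : Sylow p G, (P : Subgroup G) ≠ ⊥ := by
    intro P h
    have h1 : Nat.card (P : Subgroup G) = p ^ m := hcardP P
    rw [h, Subgroup.card_bot] at h1
    exact absurd h1.symm (Nat.one_lt_pow hm.ne' hp.one_lt).ne'
  by_cases hB : ∃ S T : Sylow p G, S ≠ T ∧ (S : Subgroup G) ⊓ (T : Subgroup G) ≠ ⊥
  · -- some two Sylow `p`-subgroups meet nontrivially: the `p`-core is nontrivial
    obtain ⟨S₀, T₀, hne₀, hST₀⟩ := hB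
    have : Nonempty {ST : Sylow p G × Sylow p G // ST.1 ≠ ST.2} := ⟨⟨(S₀, T₀), hne₀⟩⟩
    obtain ⟨⟨⟨S, T⟩, hST⟩, hmax⟩ := Finite.exists_max
      (fun ST : {ST : Sylow p G × Sylow p G // ST.1 ≠ ST.2} =>
        Nat.card ((ST.1.1 : Subgroup G) ⊓ (ST.1.2 : Subgroup G) : Subgroup G))
    simp only at hST hmax
    have hmax' : ∀ S' T' : Sylow p G, S' ≠ T' →
        Nat.card ((S' : Subgroup G) ⊓ (T' : Subgroup G) : Subgroup G) ≤
          Nat.card ((S : Subgroup G) ⊓ (T : Subgroup G) : Subgroup G) :=
      fun S' T' h => hmax ⟨(S', T'), h⟩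
    set D : Subgroup G := (S : Subgroup G) ⊓ (T : Subgroup G) with hD
    have hDbot : D ≠ ⊥ := by
      intro h
      have h1 := hmax' S₀ T₀ hne₀
      rw [h, Subgroup.card_bot] at h1
      have h2 : Nat.card ((S₀ : Subgroup G) ⊓ (T₀ : Subgroup G) : Subgroup G) = 1 :=
        le_antisymm h1 Nat.card_pos
      exact hST₀ (Subgroup.card_eq_one.mp h2)
    have hcardeq : Nat.card (S : Subgroup G) = Nat.card (T : Subgroup G) := by
      rw [show Nat.card (S : Subgroup G) = p ^ m from hcardP S,
        show Nat.card (T : Subgroup G) = p ^ m from hcardP T]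
    have hDS : D < (S : Subgroup G) := by
      refine lt_of_le_of_ne inf_le_left ?_
      intro h
      have h1 : (S : Subgroup G) ≤ T := by rw [← h]; exact inf_le_right
      exact hST (Sylow.ext (Subgroup.eq_of_le_of_card_ge h1 hcardeq.ge))
    have hDT : D < (T : Subgroup G) := by
      refine lt_of_le_of_ne inf_le_right ?_
      intro h
      have h1 : (T : Subgroup G) ≤ S := by rw [← h]; exact inf_le_left
      exact hST (Sylow.ext (Subgroup.eq_of_le_of_card_ge h1 hcardeq.le)).symm
    obtain ⟨x, hxS, hxN, hxD⟩ := exists_mem_normalizer_not_mem S.isPGroup' hDS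
    obtain ⟨y, hyT, hyN, hyD⟩ := exists_mem_normalizer_not_mem T.isPGroup' hDT
    -- `q` divides the order of the normaliser of `D`
    have hqN : q ∣ Nat.card (Subgroup.normalizer (D : Set G)) := by
      by_contra hq'
      have hdvd : Nat.card (Subgroup.normalizer (D : Set G)) ∣ p ^ m * q :=
        hG ▸ Subgroup.card_subgroup_dvd_card _
      have hcop : Nat.Coprime (Nat.card (Subgroup.normalizer (D : Set G))) q :=
        ((Nat.Prime.coprime_iff_not_dvd hq).mpr hq').symm
      have hdvd' : Nat.card (Subgroup.normalizer (D : Set G)) ∣ p ^ m :=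
        Nat.Coprime.dvd_of_dvd_mul_right hcop hdvd
      obtain ⟨k, -, hk⟩ := (Nat.dvd_prime_pow hp).mp hdvd'
      have hNp : IsPGroup p (Subgroup.normalizer (D : Set G)) := IsPGroup.of_card hk
      obtain ⟨R, hR⟩ := hNp.exists_le_sylow
      have hSR : S = R := by
        by_contra hne
        have h1 := hmax' S R hne
        have h2 : D ≤ (S : Subgroup G) ⊓ (R : Subgroup G) :=
          le_inf inf_le_left (Subgroup.le_normalizer.trans hR)
        have h3 := Subgroup.eq_of_le_of_card_ge h2 h1
        exact hxD (h3 ▸ (⟨hxS, hR hxN⟩ : x ∈ (S : Subgroup G) ⊓ (R : Subgroup G)))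
      have hTR : T = R := by
        by_contra hne
        have h1 := hmax' T R hne
        have h2 : D ≤ (T : Subgroup G) ⊓ (R : Subgroup G) :=
          le_inf inf_le_right (Subgroup.le_normalizer.trans hR)
        have h3 := Subgroup.eq_of_le_of_card_ge h2 h1
        exact hyD (h3 ▸ (⟨hyT, hR hyN⟩ : y ∈ (T : Subgroup G) ⊓ (R : Subgroup G)))
      exact hST (hSR.trans hTR.symm)
    obtain ⟨z, hz⟩ := exists_prime_orderOf_dvd_card' q hqN
    have hzo : orderOf (z : G) = q := by rw [Subgroup.orderOf_coe]; exact hz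
    have hQcard : Nat.card (Subgroup.zpowers (z : G)) = q := by rw [Nat.card_zpowers, hzo]
    have hQN : Subgroup.zpowers (z : G) ≤ Subgroup.normalizer (D : Set G) := by
      rw [Subgroup.zpowers_le]; exact z.2
    have hc : Subgroup.IsComplement' (Subgroup.zpowers (z : G)) (S : Subgroup G) := by
      apply Subgroup.isComplement'_of_coprime
      · rw [hQcard, show Nat.card (S : Subgroup G) = p ^ m from hcardP S, hG, mul_comm]
      · rw [hQcard, show Nat.card (S : Subgroup G) = p ^ m from hcardP S]
        exact Nat.Coprime.pow_right m ((Nat.coprime_primes hq hp).mpr (Ne.symm hpq))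
    have hDall : ∀ P : Sylow p G, D ≤ P := by
      intro P
      obtain ⟨g, rfl⟩ := MulAction.exists_smul_eq G S P
      obtain ⟨⟨u, s⟩, hus⟩ := hc.2 g
      simp only at hus
      intro d hd
      show d ∈ (g • S : Sylow p G)
      rw [mem_sylow_smul, ← hus]
      have h1 : (u : G)⁻¹ * d * (u : G) ∈ D := by
        have h2 := ((Subgroup.mem_normalizer_iff.mp
          ((Subgroup.normalizer (D : Set G)).inv_mem (hQN u.2))) d).mp hd
        simpa using h2
      have h3 : ((u : G) * (s : G))⁻¹ * d * ((u : G) * (s : G)) =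
          (s : G)⁻¹ * ((u : G)⁻¹ * d * (u : G)) * (s : G) := by group
      rw [h3]
      exact (S : Subgroup G).mul_mem ((S : Subgroup G).mul_mem ((S : Subgroup G).inv_mem s.2)
        (hDS.le h1)) s.2
    refine ⟨⨅ P : Sylow p G, (P : Subgroup G), sylow_iInf_normal p, ?_, ?_⟩
    · intro h
      exact hDbot (le_bot_iff.mp (h ▸ le_iInf hDall))
    · intro h
      exact hPtop S (top_le_iff.mp (h ▸ iInf_le _ S))
  · -- distinct Sylow `p`-subgroups meet trivially
    push Not at hB
    obtain ⟨P⟩ : Nonempty (Sylow p G) := inferInstance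
    by_cases hPn : (P : Subgroup G).Normal
    · exact ⟨P, hPn, hPbot P, hPtop P⟩
    · have hex : ∃ T : Sylow p G, T ≠ P := by
        by_contra hall
        push Not at hall
        have : Subsingleton (Sylow p G) := ⟨fun a b => (hall a).trans (hall b).symm⟩
        exact hPn (Sylow.normal_of_subsingleton P)
      obtain ⟨T, hT⟩ := hex
      have hlt : p ^ m < Nat.card (Sylow p G) := by
        rw [← hcardP P]
        let f : ↥(P : Subgroup G) → Sylow p G := fun x => (x : G) • T
        have hf : Function.Injective f := by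
          intro x y hxy
          have hxy' : (x : G) • T = (y : G) • T := hxy
          have h1 : ((y : G)⁻¹ * (x : G)) • T = T := by
            rw [mul_smul, hxy', inv_smul_smul]
          have h2 : (y : G)⁻¹ * (x : G) ∈ Subgroup.normalizer ((T : Subgroup G) : Set G) :=
            Sylow.smul_eq_iff_mem_normalizer.mp h1
          have h3 : (y : G)⁻¹ * (x : G) ∈ (P : Subgroup G) ⊓ Subgroup.normalizer ((T : Subgroup G) : Set G) :=
            ⟨(P : Subgroup G).mul_mem ((P : Subgroup G).inv_mem y.2) x.2, h2⟩
          have h4 : (P : Subgroup G) ⊓ Subgroup.normalizer ((T : Subgroup G) : Set G) =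
              (P : Subgroup G) ⊓ (T : Subgroup G) := P.isPGroup'.inf_normalizer_sylow T
          rw [h4, hB P T (Ne.symm hT), Subgroup.mem_bot] at h3
          exact Subtype.ext (inv_mul_eq_one.mp h3).symm
        have hmiss : P ∉ Set.range f := by
          rintro ⟨x, hx⟩
          have hx' : (x : G) • T = P := hx
          have h1 : T = (x : G)⁻¹ • P := (inv_smul_eq_iff.mpr hx'.symm).symm
          have h2 : (x : G)⁻¹ • P = P :=
            Sylow.smul_eq_iff_mem_normalizer.mpr
              (Subgroup.le_normalizer ((P : Subgroup G).inv_mem x.2))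
          exact hT (h1.trans h2)
        have := Fintype.ofFinite (P : Subgroup G)
        have := Fintype.ofFinite (Sylow p G)
        rw [Nat.card_eq_fintype_card, Nat.card_eq_fintype_card]
        exact Fintype.card_lt_of_injective_of_notMem f hf hmiss
      have hqlt : p ^ m < q := by
        obtain ⟨P'⟩ : Nonempty (Sylow p G) := inferInstance
        have h1 := P'.card_dvd_index
        rw [hidxP P'] at h1
        rcases (Nat.dvd_prime hq).mp h1 with h2 | h2
        · rw [h2] at hlt
          have := Nat.one_le_pow m p hp.pos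
          omega
        · rwa [h2] at hlt
      obtain ⟨Q⟩ : Nonempty (Sylow q G) := inferInstance
      have hcardQ : Nat.card Q = q := by
        rw [Sylow.card_eq_multiplicity, hG,
          Nat.factorization_mul (pow_ne_zero m hp.ne_zero) hq.ne_zero,
          Nat.Prime.factorization_pow hp, hq.factorization]
        simp [Ne.symm hpq]
      have hidxQ : (Q : Subgroup G).index = p ^ m := by
        have h1 := Subgroup.card_mul_index (Q : Subgroup G)
        have h2 : Nat.card (Q : Subgroup G) = q := hcardQ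
        rw [h2, hG, mul_comm] at h1
        exact Nat.eq_of_mul_eq_mul_right hq.pos h1
      have hnq1 : Nat.card (Sylow q G) = 1 := by
        have h1 := Q.card_dvd_index
        rw [hidxQ] at h1
        have h2 : Nat.card (Sylow q G) ≤ p ^ m := Nat.le_of_dvd (pow_pos hp.pos m) h1
        have h3 : Nat.card (Sylow q G) ≡ 1 [MOD q] := card_sylow_modEq_one q G
        have h4 : Nat.card (Sylow q G) < q := lt_of_le_of_lt h2 hqlt
        have h5 : Nat.card (Sylow q G) % q = 1 % q := h3
        rw [Nat.mod_eq_of_lt h4, Nat.mod_eq_of_lt hq.one_lt] at h5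
        exact h5
      have : Subsingleton (Sylow q G) := (Nat.card_eq_one_iff_unique.mp hnq1).1
      refine ⟨Q, Sylow.normal_of_subsingleton Q, ?_, ?_⟩
      · intro h
        have h2 : Nat.card (Q : Subgroup G) = q := hcardQ
        rw [h, Subgroup.card_bot] at h2
        exact hq.one_lt.ne h2
      · intro h
        have h2 := hidxQ
        rw [h, Subgroup.index_top] at h2
        exact absurd h2.symm (Nat.one_lt_pow hm.ne' hp.one_lt).ne'

/-- orders of the form `p ^ m * q` -/
def PQ (n : ℕ) : Prop := ∃ p m q, p.Prime ∧ q.Prime ∧ n = p ^ m * q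

theorem PQ_of_dvd {n d : ℕ} (h : PQ n) (hd : d ∣ n) (hd1 : d ≠ 1) : PQ d := by
  obtain ⟨p, m, q, hp, hq, rfl⟩ := h
  obtain ⟨d₁, d₂, h1, h2, rfl⟩ := (Nat.dvd_mul).mp hd
  obtain ⟨j, -, rfl⟩ := (Nat.dvd_prime_pow hp).mp h1
  rcases (Nat.dvd_prime hq).mp h2 with rfl | rfl
  · have hj : j ≠ 0 := by
      rintro rfl
      simp at hd1
    refine ⟨p, j - 1, p, hp, hp, ?_⟩
    rw [mul_one, ← pow_succ]
    congr 1
    omega
  · exact ⟨p, j, _, hp, hq, rfl⟩

theorem aux : ∀ (n : ℕ) (G : Type u) [Group G] [Finite G], Nat.card G = n → PQ n →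
    Group.IsSolvable G := by
  intro n
  induction n using Nat.strong_induction_on with
  | _ n ih =>
    intro G _ _ hG hQ
    obtain ⟨p, m, q, hp, hq, hn⟩ := hQ
    have : Fact p.Prime := ⟨hp⟩
    by_cases hpq : p = q
    · subst hpq
      have hPG : IsPGroup p G := IsPGroup.of_card (n := m + 1) (by rw [hG, hn, pow_succ])
      have := hPG.isNilpotent
      infer_instance
    by_cases hm : m = 0
    · subst hm
      have hcard : Nat.card G = q := by rw [hG, hn]; simp
      have : Fact q.Prime := ⟨hq⟩
      have hcyc : IsCyclic G := isCyclic_of_prime_card hcard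
      have hcomm : IsMulCommutative G := IsCyclic.isMulCommutative
      exact Group.isSolvable_of_comm (fun a b => mul_comm' a b)
    obtain ⟨N, hN, hNbot, hNtop⟩ :=
      exists_normal p q m hp hq hpq (Nat.pos_of_ne_zero hm) (hG.trans hn)
    have hPQ : PQ n := ⟨p, m, q, hp, hq, hn⟩
    have hcardN_dvd : Nat.card N ∣ n := hG ▸ Subgroup.card_subgroup_dvd_card N
    have hcardN_ne : Nat.card N ≠ 1 := fun h => hNbot (Subgroup.card_eq_one.mp h)
    have hidx_ne : N.index ≠ 1 := fun h => hNtop (Subgroup.index_eq_one.mp h)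
    have hmul := Subgroup.card_mul_index N
    rw [hG] at hmul
    have hnpos : 0 < n := hG ▸ Nat.card_pos
    have hcardN_lt : Nat.card N < n := by
      have h1 : 0 < Nat.card N := Nat.card_pos
      have h2 : 2 ≤ N.index := by
        have : N.index ≠ 0 := Subgroup.index_ne_zero_of_finite
        omega
      nlinarith
    have hidx_lt : N.index < n := by
      have h1 : 2 ≤ Nat.card N := by
        have : 0 < Nat.card N := Nat.card_pos
        omega
      have h2 : 0 < N.index := Nat.pos_of_ne_zero Subgroup.index_ne_zero_of_finite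
      nlinarith
    have hidx_dvd : N.index ∣ n := hG ▸ Subgroup.index_dvd_card N
    have hS1 : Group.IsSolvable N := ih _ hcardN_lt N rfl (PQ_of_dvd hPQ hcardN_dvd hcardN_ne)
    have hS2 : Group.IsSolvable (G ⧸ N) :=
      ih _ hidx_lt (G ⧸ N) (Subgroup.index_eq_card N).symm (PQ_of_dvd hPQ hidx_dvd hidx_ne)
    exact Group.isSolvable_of_ker_le_range N.subtype (QuotientGroup.mk' N) (by simp)

/-- A finite group whose order is a prime power times a prime is solvable. -/
theorem result {G : Type*} [Group G] [Finite G] (p q m : ℕ) (hp : p.Prime) (hq : q.Prime)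
    (hG : Nat.card G = p ^ m * q) : Group.IsSolvable G :=
  aux _ G rfl ⟨p, m, q, hp, hq, hG⟩

end Cfsg.Agent.S0061
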