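import Cfsg.Statements.S0062
import Cfsg.Agent.S0061

set_option autoImplicit false
open Cfsg

namespace Cfsg.Agent.S0062

universe u

/-- A group of order `p ^ 2 * q ^ 2` with `q < p` has a nontrivial proper normal subgroup. -/
theorem exists_normal_of_lt {G : Type u} [Group G] [Finite G] (p q : ℕ) (hp : p.Prime)
    (hq : q.Prime) (hqp : q < p) (hG : Nat.card G = p ^ 2 * q ^ 2) :
    ∃ N : Subgroup G, N.Normal ∧ N ≠ ⊥ ∧ N ≠ ⊤ := by
  classical
  have : Fact p.Prime := ⟨hp⟩
  obtain ⟨P⟩ : Nonempty (Sylow p G) := inferInstance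
  have hcardP : Nat.card P = p ^ 2 := by
    rw [Sylow.card_eq_multiplicity, hG,
      Nat.factorization_mul (pow_ne_zero 2 hp.ne_zero) (pow_ne_zero 2 hq.ne_zero),
      Nat.Prime.factorization_pow hp, Nat.Prime.factorization_pow hq]
    simp [hqp.ne]
  have hidxP : (P : Subgroup G).index = q ^ 2 := by
    have h1 := Subgroup.card_mul_index (P : Subgroup G)
    have h2 : Nat.card (P : Subgroup G) = p ^ 2 := hcardP
    rw [h2, hG] at h1
    exact Nat.eq_of_mul_eq_mul_left (pow_pos hp.pos 2) h1
  have hPtop : (P : Subgroup G) ≠ ⊤ := by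
    intro h
    have h1 := hidxP
    rw [h, Subgroup.index_top] at h1
    exact absurd h1 (Nat.one_lt_pow two_ne_zero hq.one_lt).ne
  have hPbot : (P : Subgroup G) ≠ ⊥ := by
    intro h
    have h1 : Nat.card (P : Subgroup G) = p ^ 2 := hcardP
    rw [h, Subgroup.card_bot] at h1
    exact absurd h1 (Nat.one_lt_pow two_ne_zero hp.one_lt).ne
  have hmod : Nat.card (Sylow p G) ≡ 1 [MOD p] := card_sylow_modEq_one p G
  have hdvd : Nat.card (Sylow p G) ∣ q ^ 2 := hidxP ▸ P.card_dvd_index
  obtain ⟨k, hk, hnk⟩ := (Nat.dvd_prime_pow hq).mp hdvd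
  interval_cases k
  · have : Subsingleton (Sylow p G) :=
      (Nat.card_eq_one_iff_unique.mp (by simpa using hnk)).1
    exact ⟨P, Sylow.normal_of_subsingleton P, hPbot, hPtop⟩
  · exfalso
    rw [hnk, pow_one] at hmod
    have h5 : q % p = 1 % p := hmod
    rw [Nat.mod_eq_of_lt hqp, Nat.mod_eq_of_lt hp.one_lt] at h5
    exact hq.one_lt.ne' h5
  · rw [hnk] at hmod
    have hq1 := hq.one_lt
    have h1 : p ∣ q ^ 2 - 1 :=
      (Nat.modEq_iff_dvd' (Nat.one_le_pow 2 q hq.pos)).mp hmod.symm
    have h2 : q ^ 2 - 1 = (q - 1) * (q + 1) := by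
      obtain ⟨r, rfl⟩ : ∃ r, q = r + 1 := ⟨q - 1, by omega⟩
      simp only [Nat.add_sub_cancel]
      have : (r + 1) ^ 2 = r * (r + 1 + 1) + 1 := by ring
      omega
    rw [h2] at h1
    rcases (Nat.Prime.dvd_mul hp).mp h1 with h3 | h3
    · exfalso
      have := Nat.le_of_dvd (by omega) h3
      omega
    · have h4 : p ≤ q + 1 := Nat.le_of_dvd (by omega) h3
      have hpq1 : p = q + 1 := by omega
      have hq2 : q = 2 := by
        rcases hq.eq_two_or_odd with h | h
        · exact h
        · exfalso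
          have h5 : 2 ∣ p := by omega
          have := (Nat.prime_dvd_prime_iff_eq Nat.prime_two hp).mp h5
          omega
      subst hq2
      have hp3 : p = 3 := hpq1
      subst hp3
      refine ⟨(MulAction.toPermHom G (Sylow 3 G)).ker, inferInstance, ?_, ?_⟩
      · intro hbot
        have hinj : Function.Injective (MulAction.toPermHom G (Sylow 3 G)) :=
          (MonoidHom.ker_eq_bot_iff _).mp hbot
        have h1 := Nat.card_le_card_of_injective _ hinj
        rw [hG, Nat.card_perm, hnk] at h1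
        norm_num [Nat.factorial] at h1
      · intro htop
        have hfix : ∀ g : G, g • P = P := by
          intro g
          have hg : g ∈ (MulAction.toPermHom G (Sylow 3 G)).ker := htop ▸ Subgroup.mem_top g
          have h := MonoidHom.mem_ker.mp hg
          have h' := congrArg (fun σ : Equiv.Perm (Sylow 3 G) => σ P) h
          simpa using h'
        have hnorm : Subgroup.normalizer (P : Set G) = ⊤ := by
          rw [eq_top_iff]
          intro g _
          exact Sylow.smul_eq_iff_mem_normalizer.mp (hfix g)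
        have h1 := P.card_eq_index_normalizer
        rw [hnorm, Subgroup.index_top, hnk] at h1
        norm_num at h1

/-- A group of order `p ^ 2 * q ^ 2` with `p ≠ q` has a nontrivial proper normal subgroup. -/
theorem exists_normal {G : Type u} [Group G] [Finite G] (p q : ℕ) (hp : p.Prime)
    (hq : q.Prime) (hpq : p ≠ q) (hG : Nat.card G = p ^ 2 * q ^ 2) :
    ∃ N : Subgroup G, N.Normal ∧ N ≠ ⊥ ∧ N ≠ ⊤ := by
  rcases lt_or_gt_of_ne hpq with h | h
  · exact exists_normal_of_lt q p hq hp h (by rw [hG, mul_comm])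
  · exact exists_normal_of_lt p q hp hq h hG

/-- Groups of order `p ^ a * q ^ b` with `a, b ≤ 2` not both `2` are solvable. -/
theorem solvable_of_card {K : Type u} [Group K] [Finite K] (p q : ℕ) (hp : p.Prime)
    (hq : q.Prime) (a b : ℕ) (ha : a ≤ 2) (hb : b ≤ 2) (hab : ¬ (a = 2 ∧ b = 2))
    (hK : Nat.card K = p ^ a * q ^ b) : Group.IsSolvable K := by
  by_cases hb0 : b = 0
  · subst hb0
    have : Fact p.Prime := ⟨hp⟩
    have hPG : IsPGroup p K := IsPGroup.of_card (n := a) (by rw [hK]; simp)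
    have := hPG.isNilpotent
    infer_instance
  by_cases ha0 : a = 0
  · subst ha0
    have : Fact q.Prime := ⟨hq⟩
    have hPG : IsPGroup q K := IsPGroup.of_card (n := b) (by rw [hK]; simp)
    have := hPG.isNilpotent
    infer_instance
  by_cases hb1 : b = 1
  · subst hb1
    exact Cfsg.Agent.S0061.result p q a hp hq (by rw [hK, pow_one])
  · have hb2 : b = 2 := by omega
    have ha1 : a = 1 := by omega
    subst hb2 ha1
    exact Cfsg.Agent.S0061.result q p 2 hq hp (by rw [hK, pow_one, mul_comm])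

theorem dvd_form {p q d : ℕ} (hp : p.Prime) (hq : q.Prime) (hd : d ∣ p ^ 2 * q ^ 2) :
    ∃ a b, a ≤ 2 ∧ b ≤ 2 ∧ d = p ^ a * q ^ b := by
  obtain ⟨d₁, d₂, h1, h2, rfl⟩ := (Nat.dvd_mul).mp hd
  obtain ⟨a, ha, rfl⟩ := (Nat.dvd_prime_pow hp).mp h1
  obtain ⟨b, hb, rfl⟩ := (Nat.dvd_prime_pow hq).mp h2
  exact ⟨a, b, ha, hb, rfl⟩

/-- A finite group of order p^2 * q^2 with p and q prime is solvable. -/
theorem result {G : Type*} [Group G] [Finite G] (p q : ℕ) (hp : p.Prime) (hq : q.Prime)
    (hG : Nat.card G = p ^ 2 * q ^ 2) : Group.IsSolvable G := by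
  by_cases hpq : p = q
  · subst hpq
    have : Fact p.Prime := ⟨hp⟩
    have hPG : IsPGroup p G := IsPGroup.of_card (n := 4) (by rw [hG]; ring)
    have := hPG.isNilpotent
    infer_instance
  obtain ⟨N, hN, hNbot, hNtop⟩ := exists_normal p q hp hq hpq hG
  have hmul := Subgroup.card_mul_index N
  rw [hG] at hmul
  obtain ⟨a, b, ha, hb, hab⟩ := dvd_form hp hq (Dvd.intro _ hmul)
  obtain ⟨c, d, hc, hd, hcd⟩ := dvd_form hp hq (Dvd.intro_left _ hmul)
  have hS1 : Group.IsSolvable N := by
    refine solvable_of_card p q hp hq a b ha hb ?_ hab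
    rintro ⟨rfl, rfl⟩
    rw [hab] at hmul
    have hpos : 0 < p ^ 2 * q ^ 2 := Nat.mul_pos (pow_pos hp.pos 2) (pow_pos hq.pos 2)
    have h1 : N.index = 1 := by
      have := Nat.eq_of_mul_eq_mul_left hpos (hmul.trans (mul_one _).symm)
      exact this
    exact hNtop (Subgroup.index_eq_one.mp h1)
  have hS2 : Group.IsSolvable (G ⧸ N) := by
    refine solvable_of_card p q hp hq c d hc hd ?_ ((Subgroup.index_eq_card N).symm.trans hcd)
    rintro ⟨rfl, rfl⟩
    rw [hcd] at hmul
    have hpos : 0 < p ^ 2 * q ^ 2 := Nat.mul_pos (pow_pos hp.pos 2) (pow_pos hq.pos 2)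
    have h1 : Nat.card N = 1 := by
      have := Nat.eq_of_mul_eq_mul_right hpos (hmul.trans (one_mul _).symm)
      exact this
    exact hNbot (Subgroup.card_eq_one.mp h1)
  exact Group.isSolvable_of_ker_le_range N.subtype (QuotientGroup.mk' N) (by simp)

end Cfsg.Agent.S0062
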