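import Cfsg.Statements.S0063

set_option autoImplicit false
open Cfsg

namespace Cfsg.Agent.S0063

universe u

theorem aux (p : ℕ) [Fact p.Prime] : ∀ (m : ℕ) (G : Type u) [Group G] [Finite G],
    Nat.card G = p ^ m → Group.nilpotencyClass G ≤ max 1 (m - 1) := by
  intro m
  induction m using Nat.strong_induction_on with
  | _ m ih =>
    intro G _ _ hG
    have hPG : IsPGroup p G := IsPGroup.of_card hG
    have hnil : Group.IsNilpotent G := hPG.isNilpotent
    by_cases hm : m ≤ 2
    · have hcomm : IsMulCommutative G := by
        interval_cases m
        · have : Subsingleton G := (Nat.card_eq_one_iff_unique.mp (by simpa using hG)).1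
          exact ⟨⟨fun a b => Subsingleton.elim _ _⟩⟩
        · have : IsCyclic G := isCyclic_of_prime_card (p := p) (by simpa using hG)
          exact IsCyclic.isMulCommutative
        · exact IsPGroup.isMulCommutative_of_card_eq_prime_sq hG
      have := Group.IsNilpotent.nilpotencyClass_le_one_iff.mpr hcomm
      exact le_trans this (le_max_left _ _)
    · push Not at hm
      have hnt : Nontrivial G := by
        rw [← Finite.one_lt_card_iff_nontrivial, hG]
        exact Nat.one_lt_pow (by omega) (Fact.out : p.Prime).one_lt
      have hZ : Nontrivial (Subgroup.center G) := hPG.center_nontrivial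
      obtain ⟨k, hk⟩ := (hPG.to_subgroup (Subgroup.center G)).exists_card_eq
      have hp1 : 1 < p := (Fact.out : p.Prime).one_lt
      have hk1 : 1 ≤ k := by
        by_contra h
        have hk0 : k = 0 := by omega
        rw [hk0, pow_zero] at hk
        have := Finite.one_lt_card_iff_nontrivial.mpr hZ
        omega
      have hkm : k ≤ m := by
        have h1 : p ^ k ∣ p ^ m := by
          rw [← hk, ← hG]; exact Subgroup.card_subgroup_dvd_card _
        exact (Nat.pow_dvd_pow_iff_le_right hp1).mp h1
      have hquot : Nat.card (G ⧸ Subgroup.center G) = p ^ (m - k) := by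
        have h1 := Subgroup.card_eq_card_quotient_mul_card_subgroup (Subgroup.center G)
        rw [hG, hk] at h1
        have h2 : p ^ m = p ^ (m - k) * p ^ k := by rw [← pow_add]; congr 1; omega
        rw [h2] at h1
        exact (Nat.eq_of_mul_eq_mul_right (pow_pos (by omega) k) h1).symm
      have ih' := ih (m - k) (by omega) (G ⧸ Subgroup.center G) hquot
      rw [Group.nilpotencyClass_eq_quotient_center_plus_one]
      rcases le_max_iff.mp ih' with h | h <;> rw [le_max_iff] <;> right <;> omega

/-- A finite group of prime-power order p ^ m with m > 1 is nilpotent of class at most m - 1. -/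
theorem result {G : Type*} [Group G] [Finite G] (p m : ℕ) [Fact p.Prime]
    (hG : Nat.card G = p ^ m) (hm : 1 < m) : Group.nilpotencyClass G ≤ m - 1 := by
  have := aux p m G hG
  rcases le_max_iff.mp this with h | h <;> omega

end Cfsg.Agent.S0063
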