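import Cfsg.Statements.S0068
import Mathlib.GroupTheory.FixedPointFree
import Mathlib.GroupTheory.Perm.Cycle.Type

set_option autoImplicit false
open Cfsg

namespace Cfsg.Agent.S0068

/-- Frobenius complements of even order: if H complements a nontrivial normal subgroup K, each nonidentity element of H has trivial centraliser in K, and H has even order, then H contains a unique involution s, K is abelian, and s inverts every element of K. -/
theorem result {G : Type*} [Group G] [Finite G] (K H : Subgroup G) [K.Normal]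
    (hc : Subgroup.IsComplement' K H) (hK : K ≠ ⊥) (hfpf : ∀ h ∈ H, h ≠ 1 → K ⊓ Subgroup.centralizer {h} = ⊥)
    (heven : 2 ∣ Nat.card H) :
    (∃ s ∈ H, orderOf s = 2 ∧ (∀ t ∈ H, orderOf t = 2 → t = s) ∧ ∀ k ∈ K, s * k * s⁻¹ = k⁻¹) ∧ IsMulCommutative K := by
  have key : ∀ t ∈ H, orderOf t = 2 →
      (∀ k ∈ K, t * k * t⁻¹ = k⁻¹) ∧ IsMulCommutative K := by
    intro t ht hot
    have ht1 : t ≠ 1 := by
      rintro rfl
      simp at hot
    have ht2 : t * t = 1 := by
      have := pow_orderOf_eq_one t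
      rw [hot, pow_two] at this
      exact this
    have htinv : t⁻¹ = t := inv_eq_of_mul_eq_one_left ht2
    let φ : K →* K := (MulAut.conjNormal t : MulAut K).toMonoidHom
    have hφ_apply : ∀ k : K, (φ k : G) = t * k * t⁻¹ := fun k => MulAut.conjNormal_apply t k
    have hfix : MonoidHom.FixedPointFree φ := by
      intro k hk
      have h1 : (k : G) ∈ K ⊓ Subgroup.centralizer {t} := by
        refine Subgroup.mem_inf.mpr ⟨k.2, ?_⟩
        rw [Subgroup.mem_centralizer_singleton_iff]
        have := congrArg Subtype.val hk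
        rw [hφ_apply] at this
        exact (mul_inv_eq_iff_eq_mul.mp this).symm
      rw [hfpf t ht ht1, Subgroup.mem_bot] at h1
      exact Subtype.ext h1
    have hinv : Function.Involutive φ := by
      intro k
      apply Subtype.ext
      rw [hφ_apply, hφ_apply, htinv]
      calc t * (t * k * t) * t = (t * t) * k * (t * t) := by group
        _ = k := by rw [ht2]; simp
    refine ⟨?_, ?_⟩
    · intro k hk
      have h1 := congrFun (MonoidHom.FixedPointFree.coe_eq_inv_of_involutive hfix hinv) ⟨k, hk⟩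
      have h2 := congrArg Subtype.val h1
      rw [hφ_apply] at h2
      simpa using h2
    · exact ⟨⟨fun a b => (MonoidHom.FixedPointFree.commute_all_of_involutive hfix hinv a b).eq⟩⟩
  have : Fact (Nat.Prime 2) := ⟨Nat.prime_two⟩
  obtain ⟨s, hs⟩ := exists_prime_orderOf_dvd_card' 2 heven
  have hs' : orderOf (s : G) = 2 := by rw [Subgroup.orderOf_coe]; exact hs
  obtain ⟨h1, h2⟩ := key s s.2 hs'
  refine ⟨⟨s, s.2, hs', ?_, h1⟩, h2⟩
  intro t ht hot
  obtain ⟨h3, -⟩ := key t ht hot
  by_contra hne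
  have hu : (s : G)⁻¹ * t ∈ H := H.mul_mem (H.inv_mem s.2) ht
  have hu1 : (s : G)⁻¹ * t ≠ 1 := by
    intro h
    apply hne
    exact (inv_mul_eq_one.mp h).symm
  have hbot := hfpf _ hu hu1
  apply hK
  rw [eq_bot_iff, ← hbot]
  intro k hk
  refine Subgroup.mem_inf.mpr ⟨hk, ?_⟩
  rw [Subgroup.mem_centralizer_singleton_iff]
  have e1 : t * k * t⁻¹ = k⁻¹ := h3 k hk
  have e2 : (s : G) * k * (s : G)⁻¹ = k⁻¹ := h1 k hk
  have e3 : t * k * t⁻¹ = (s : G) * k * (s : G)⁻¹ := by rw [e1, e2]
  calc k * ((s : G)⁻¹ * t) = (s : G)⁻¹ * ((s : G) * k * (s : G)⁻¹) * t := by group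
    _ = (s : G)⁻¹ * (t * k * t⁻¹) * t := by rw [e3]
    _ = (s : G)⁻¹ * t * k := by group

end Cfsg.Agent.S0068
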