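import Cfsg.Statements.S0070
import Cfsg.Agent.H1.Fitting
import Cfsg.Agent.S0584

set_option autoImplicit false
open Cfsg

namespace Cfsg.Agent.S0070

/-- The Fitting subgroup commutes with passing to the Frattini quotient: the Fitting subgroup of G modulo its Frattini subgroup is the image of the Fitting subgroup of G. -/
theorem result {G : Type*} [Group G] [Finite G] :
    Cfsg.fittingSubgroup (G ⧸ frattini G) = (Cfsg.fittingSubgroup G).map (QuotientGroup.mk' (frattini G)) := by
  have hsurj := QuotientGroup.mk'_surjective (frattini G)
  apply le_antisymm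
  · set A : Subgroup G :=
      (Cfsg.fittingSubgroup (G ⧸ frattini G)).comap (QuotientGroup.mk' (frattini G)) with hA
    have hAn : A.Normal := Subgroup.Normal.comap inferInstance _
    have hBA : frattini G ≤ A := by
      intro x hx
      rw [hA, Subgroup.mem_comap]
      have h1 : QuotientGroup.mk' (frattini G) x = 1 := (QuotientGroup.eq_one_iff x).mpr hx
      rw [h1]
      exact one_mem _
    have hnil : Group.IsNilpotent (↥A ⧸ (frattini G).subgroupOf A) := by
      let f : A →* Cfsg.fittingSubgroup (G ⧸ frattini G) :=
        ((QuotientGroup.mk' (frattini G)).comp A.subtype).codRestrict _ (fun a => a.2)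
      have hker : f.ker = (frattini G).subgroupOf A := by
        ext a
        rw [MonoidHom.mem_ker, Subgroup.mem_subgroupOf, Subtype.ext_iff]
        show QuotientGroup.mk' (frattini G) (a : G) = 1 ↔ _
        exact QuotientGroup.eq_one_iff _
      have hfs : Function.Surjective f := by
        rintro ⟨y, hy⟩
        obtain ⟨x, rfl⟩ := hsurj y
        exact ⟨⟨x, hy⟩, rfl⟩
      have hF := H1.fitting_nilpotent (G := G ⧸ frattini G)
      have e := QuotientGroup.quotientKerEquivOfSurjective f hfs
      exact Group.nilpotent_of_mulEquiv (e.symm.trans (QuotientGroup.quotientMulEquivOfEq hker))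
    have hAnil : Group.IsNilpotent A := S0584.result A (frattini G) hBA le_rfl hnil
    have hAle : A ≤ Cfsg.fittingSubgroup G := H1.le_fitting A hAnil
    calc Cfsg.fittingSubgroup (G ⧸ frattini G) = A.map (QuotientGroup.mk' (frattini G)) :=
          (Subgroup.map_comap_eq_self_of_surjective hsurj _).symm
      _ ≤ _ := Subgroup.map_mono hAle
  · have hn : ((Cfsg.fittingSubgroup G).map (QuotientGroup.mk' (frattini G))).Normal :=
      Subgroup.Normal.map inferInstance _ hsurj
    have hF := H1.fitting_nilpotent (G := G)
    have hnil : Group.IsNilpotent ((Cfsg.fittingSubgroup G).map (QuotientGroup.mk' (frattini G))) :=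
      Group.nilpotent_of_surjective _
        ((QuotientGroup.mk' (frattini G)).subgroupMap_surjective (Cfsg.fittingSubgroup G))
    exact H1.le_fitting _ hnil

end Cfsg.Agent.S0070
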