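import Cfsg.Statements.S0073
import Cfsg.Agent.H2.Coprime

set_option autoImplicit false
open Cfsg

namespace Cfsg.Agent.S0073

open Cfsg.Agent.H2 in
/-- For a finite non-abelian simple group, either the cube of the least prime divisor of the order divides the order, or 12 does. -/
theorem result {G : Type*} [Group G] [Finite G] [IsSimpleGroup G] (hG : ∃ x y : G, x * y ≠ y * x) : (Nat.card G).minFac ^ 3 ∣ Nat.card G ∨ 12 ∣ Nat.card G := by
  have hcard1 : Nat.card G ≠ 1 := by
    intro h
    have := (Nat.card_eq_one_iff_unique.mp h).1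
    obtain ⟨x, y, hxy⟩ := hG
    exact hxy (Subsingleton.elim _ _)
  obtain ⟨p, hp⟩ : ∃ p, (Nat.card G).minFac = p := ⟨_, rfl⟩
  rw [hp]
  have hpp : p.Prime := hp ▸ Nat.minFac_prime hcard1
  have : Fact p.Prime := ⟨hpp⟩
  have hpdvd : p ∣ Nat.card G := hp ▸ Nat.minFac_dvd _
  obtain ⟨P⟩ : Nonempty (Sylow p G) := inferInstance
  have hnotle : ¬ (Subgroup.normalizer (P : Set G) ≤ Subgroup.centralizer (P : Set G)) := by
    intro hle
    have hc := MonoidHom.ker_transferSylow_isComplement' P hle
    rcases (MonoidHom.normal_ker (MonoidHom.transferSylow P hle)).eq_bot_or_eq_top with h | h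
    · rw [h] at hc
      have hPtop : (P : Subgroup G) = ⊤ := Subgroup.isComplement'_bot_left.mp hc
      obtain ⟨x, y, hxy⟩ := hG
      have hy : y ∈ (P : Subgroup G) := hPtop ▸ Subgroup.mem_top y
      have hx : x ∈ Subgroup.normalizer ((P : Subgroup G) : Set G) := Subgroup.le_normalizer (hPtop ▸ Subgroup.mem_top x)
      exact hxy (hle hx y hy).symm
    · rw [h] at hc
      have hPbot : (P : Subgroup G) = ⊥ := Subgroup.isComplement'_top_left.mp hc
      exact P.ne_bot_of_dvd_card hpdvd hPbot
  obtain ⟨k, hk⟩ := IsPGroup.iff_card.mp P.isPGroup'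
  have hkdvd : p ^ k ∣ Nat.card G := hk ▸ Subgroup.card_subgroup_dvd_card _
  by_cases hk3 : 3 ≤ k
  · left
    exact (pow_dvd_pow p hk3).trans hkdvd
  right
  have hk0 : k ≠ 0 := by
    rintro rfl
    rw [pow_zero] at hk
    exact P.ne_bot_of_dvd_card hpdvd (Subgroup.card_eq_one.mp hk)
  have hk1 : k ≠ 1 := by
    rintro rfl
    rw [pow_one] at hk
    have hcyc : IsCyclic P := isCyclic_of_prime_card hk
    exact hnotle (hcyc.normalizer_le_centralizer hp)
  have hk2 : k = 2 := by omega
  subst hk2
  have hcomm : IsMulCommutative P := IsPGroup.isMulCommutative_of_card_eq_prime_sq hk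
  have hPC : (P : Subgroup G) ≤ Subgroup.centralizer (P : Set G) := by
    intro x hx y hy
    exact setLike_mul_comm (s := (P : Subgroup G)) hy hx
  have hr1 : (Subgroup.centralizer (P : Set G)).relIndex (Subgroup.normalizer (P : Set G)) ≠ 1 :=
    fun h => hnotle (Subgroup.relIndex_eq_one.mp h)
  obtain ⟨q, hq, hqr⟩ := Nat.exists_prime_and_dvd hr1
  have : Fact q.Prime := ⟨hq⟩
  have hrT : (Subgroup.centralizer (P : Set G)).relIndex (Subgroup.normalizer (P : Set G)) ∣ (P : Subgroup G).index :=
    (Subgroup.relIndex_dvd_of_le_left _ hPC).trans (Subgroup.relIndex_dvd_index_of_le Subgroup.le_normalizer)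
  have hqG : q ∣ Nat.card G := hqr.trans (hrT.trans (Subgroup.index_dvd_card _))
  have hqp : q ≠ p := by
    rintro rfl
    exact P.not_dvd_index (hqr.trans hrT)
  have hpq : p ≤ q := hp ▸ Nat.minFac_le_of_dvd hq.two_le hqG
  have hlt : p < q := lt_of_le_of_ne hpq (Ne.symm hqp)
  -- a Sylow `q`-subgroup of the normaliser, not centralising `P`
  obtain ⟨Q₀⟩ : Nonempty (Sylow q (Subgroup.normalizer (P : Set G))) := inferInstance
  have hQle : ¬ ((Q₀ : Subgroup (Subgroup.normalizer (P : Set G))) ≤
      (Subgroup.centralizer (P : Set G)).subgroupOf (Subgroup.normalizer (P : Set G))) := by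
    intro hle
    have h1 : ((Subgroup.centralizer (P : Set G)).subgroupOf (Subgroup.normalizer (P : Set G))).index ∣
        (Q₀ : Subgroup (Subgroup.normalizer (P : Set G))).index := Subgroup.index_dvd_of_le hle
    exact Q₀.not_dvd_index (hqr.trans h1)
  have hQp : IsPGroup q ((Q₀ : Subgroup (Subgroup.normalizer (P : Set G))).map (Subgroup.normalizer (P : Set G)).subtype) :=
    Q₀.isPGroup'.map _
  have hQN : (Q₀ : Subgroup (Subgroup.normalizer (P : Set G))).map (Subgroup.normalizer (P : Set G)).subtype ≤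
      Subgroup.normalizer (P : Set G) := Subgroup.map_subtype_le _
  have hmod := card_modEq_card_inf_centralizer _ (P : Subgroup G) hQp hQN
  set F : Subgroup G := (P : Subgroup G) ⊓ Subgroup.centralizer
    (((Q₀ : Subgroup (Subgroup.normalizer (P : Set G))).map (Subgroup.normalizer (P : Set G)).subtype : Subgroup G) : Set G) with hF
  have hFP : F ≠ (P : Subgroup G) := by
    intro h
    apply hQle
    intro a ha
    rw [Subgroup.mem_subgroupOf]
    have h1 : (P : Subgroup G) ≤ Subgroup.centralizer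
      (((Q₀ : Subgroup (Subgroup.normalizer (P : Set G))).map (Subgroup.normalizer (P : Set G)).subtype : Subgroup G) : Set G) := by
      rw [← h]; exact inf_le_right
    intro y hy
    have := h1 hy (a : G) ⟨a, ha, rfl⟩
    exact this.symm
  have hFcard : Nat.card F ∣ p ^ 2 := hk ▸ Subgroup.card_dvd_of_le inf_le_left
  obtain ⟨j, hj2, hj⟩ := (Nat.dvd_prime_pow hpp).mp hFcard
  have hjne : j ≠ 2 := by
    rintro rfl
    exact hFP (Subgroup.eq_of_le_of_card_ge inf_le_left (by rw [hj, hk]))
  rw [hk, hj] at hmod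
  have hp2 : 2 ≤ p := hpp.two_le
  have hqeq : q = p + 1 := by
    have hj01 : j = 0 ∨ j = 1 := by omega
    rcases hj01 with rfl | rfl
    · rw [pow_zero] at hmod
      have h1 : q ∣ p ^ 2 - 1 := (Nat.modEq_iff_dvd' (Nat.one_le_pow _ _ hpp.pos)).mp hmod.symm
      obtain ⟨m, rfl⟩ : ∃ m, p = m + 1 := ⟨p - 1, by omega⟩
      have h2 : (m + 1) ^ 2 - 1 = m * (m + 2) := by
        have : (m + 1) ^ 2 = m * (m + 2) + 1 := by ring
        omega
      rw [h2] at h1
      rcases (Nat.Prime.dvd_mul hq).mp h1 with h3 | h3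
      · have := Nat.le_of_dvd (by omega) h3
        omega
      · have := Nat.le_of_dvd (by omega) h3
        omega
    · rw [pow_one] at hmod
      have hle : p ≤ p ^ 2 := by nlinarith
      have h1 : q ∣ p ^ 2 - p := (Nat.modEq_iff_dvd' hle).mp hmod.symm
      have h2 : p ^ 2 - p = p * (p - 1) := by rw [pow_two, Nat.mul_sub_one]
      rw [h2] at h1
      rcases (Nat.Prime.dvd_mul hq).mp h1 with h3 | h3
      · exact absurd ((Nat.prime_dvd_prime_iff_eq hq hpp).mp h3) hqp
      · have := Nat.le_of_dvd (by omega) h3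
        omega
  have hp2' : p = 2 := by
    rcases hpp.eq_two_or_odd' with h | h
    · exact h
    · exfalso
      have h2q : 2 ∣ q := by
        rw [hqeq]
        obtain ⟨t, ht⟩ := h
        exact ⟨t + 1, by omega⟩
      have := (Nat.prime_dvd_prime_iff_eq Nat.prime_two hq).mp h2q
      omega
  have hq3 : q = 3 := by omega
  subst hp2'
  subst hq3
  have h4 : 4 ∣ Nat.card G := by
    have : (2 : ℕ) ^ 2 = 4 := by norm_num
    rw [← this]; exact hkdvd
  have h12 : (12 : ℕ) = 4 * 3 := by norm_num
  rw [h12]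
  exact Nat.Coprime.mul_dvd_of_dvd_of_dvd (by norm_num) h4 hqG

end Cfsg.Agent.S0073
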