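import Cfsg.Statements.S0075
import Cfsg.Agent.H2.Transfer

set_option autoImplicit false
open Cfsg

namespace Cfsg.Agent.S0075

open Cfsg.Agent.H2 in
/-- For an abelian Sylow p-subgroup T, its intersection with the subgroup generated by the elements of order prime to p is the commutator of T with its normalizer. -/
theorem result {G : Type*} [Group G] [Finite G] {p : ℕ} [Fact p.Prime] (T : Sylow p G) (hT : IsMulCommutative T) : (T : Subgroup G) ⊓ Cfsg.pResidual p G = ⁅(T : Subgroup G), Subgroup.normalizer (T : Set G)⁆ := by
  apply le_antisymm
  · have h1 : (T : Subgroup G) ⊓ Cfsg.pResidual p G ≤ commutator G ⊓ (T : Subgroup G) :=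
      le_inf (inf_pResidual_le_commutator T.isPGroup') inf_le_left
    rw [Subgroup.commutator_inf_eq_focalSubgroup T] at h1
    exact h1.trans (focalSubgroup_le_commutator_normalizer_of_comm T hT)
  · refine le_inf ?_ ?_
    · rw [Subgroup.commutator_le]
      intro t ht n hn
      have h1 : n * t⁻¹ * n⁻¹ ∈ (T : Subgroup G) :=
        (Subgroup.mem_normalizer_iff.mp hn t⁻¹).mp ((T : Subgroup G).inv_mem ht)
      have h2 := (T : Subgroup G).mul_mem ht h1
      rw [commutatorElement_def]
      simpa [mul_assoc] using h2
    · refine le_trans ?_ (commutator_le_pResidual_of_sylow_comm T hT)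
      rw [commutator_def]
      exact Subgroup.commutator_mono le_top le_top

end Cfsg.Agent.S0075
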