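import Cfsg.Statements.S0076
import Cfsg.Agent.H2.Basic

set_option autoImplicit false
open Cfsg

namespace Cfsg.Agent.S0076

open Cfsg.Agent.H2 in
/-- Two P-invariant subsets of a Sylow p-subgroup P that are conjugate in G are conjugate under the normalizer of P. -/
theorem result {G : Type*} [Group G] [Finite G] {p : ℕ} [Fact p.Prime] (P : Sylow p G) (X Y : Set G) (hXP : X ⊆ P) (hYP : Y ⊆ P) (hX : ∀ x ∈ P, (fun y => x * y * x⁻¹) '' X = X) (hY : ∀ x ∈ P, (fun y => x * y * x⁻¹) '' Y = Y) (g : G) (hg : (fun y => g * y * g⁻¹) '' X = Y) : ∃ n ∈ Subgroup.normalizer (P : Set G), (fun y => n * y * n⁻¹) '' X = Y := by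
  have hPX : (P : Subgroup G) ≤ Subgroup.normalizer X := le_normalizer_of_forall_conj_image_eq hX
  have hPY : (P : Subgroup G) ≤ Subgroup.normalizer Y := le_normalizer_of_forall_conj_image_eq hY
  -- membership in `Y` in terms of `X`
  have hA : ∀ h : G, h ∈ Y ↔ g⁻¹ * h * g ∈ X := by
    intro h
    constructor
    · intro hh
      rw [← hg] at hh
      obtain ⟨x, hx, rfl⟩ := hh
      have e : g⁻¹ * (g * x * g⁻¹) * g = x := by group
      rw [e]; exact hx
    · intro hh
      rw [← hg]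
      exact ⟨g⁻¹ * h * g, hh, by group⟩
  have hgP : ((g • P : Sylow p G) : Subgroup G) ≤ Subgroup.normalizer Y := by
    intro z hz
    have hz' : z ∈ (g • P : Sylow p G) := hz
    rw [mem_sylow_smul] at hz'
    have hw := hPX hz'
    rw [Subgroup.mem_set_normalizer_iff] at hw ⊢
    intro h
    rw [hA h, hA (z * h * z⁻¹), hw (g⁻¹ * h * g)]
    have e : g⁻¹ * z * g * (g⁻¹ * h * g) * (g⁻¹ * z * g)⁻¹ = g⁻¹ * (z * h * z⁻¹) * g := by group
    rw [e]
  obtain ⟨c, hc, hcP⟩ := sylow_conj_of_le (g • P) P (Subgroup.normalizer Y) hgP hPY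
  refine ⟨c * g, ?_, ?_⟩
  · rw [← Sylow.smul_eq_iff_mem_normalizer, mul_smul, hcP]
  · have h1 : (fun y => c * g * y * (c * g)⁻¹) = (fun y => c * y * c⁻¹) ∘ (fun y => g * y * g⁻¹) := by
      funext y
      simp [mul_assoc]
    rw [h1, Set.image_comp, hg]
    exact conj_image_eq_of_mem_normalizer hc

end Cfsg.Agent.S0076
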