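import Cfsg.Statements.S0078
import Cfsg.Agent.S0077
import Cfsg.Agent.H2.Grun

set_option autoImplicit false
open Cfsg

namespace Cfsg.Agent.S0078

open scoped commutatorElement in
open Cfsg.Agent.H2 in
/-- In a p-normal group, a Sylow p-subgroup P meets O^p(G) exactly where it meets O^p(V), for any subgroup V containing the normalizer of the centre of P. -/
theorem result {G : Type*} [Group G] [Finite G] {p : ℕ} [Fact p.Prime] (P : Sylow p G) (hn : ∀ Q : Sylow p G, (P : Subgroup G) ⊓ Subgroup.centralizer (P : Set G) ≤ (Q : Subgroup G) → (Q : Subgroup G) ⊓ Subgroup.centralizer (Q : Set G) = (P : Subgroup G) ⊓ Subgroup.centralizer (P : Set G)) (V : Subgroup G) (hV : Subgroup.normalizer (((P : Subgroup G) ⊓ Subgroup.centralizer (P : Set G) : Subgroup G) : Set G) ≤ V) : (P : Subgroup G) ⊓ Cfsg.pResidual p G = (P : Subgroup G) ⊓ (Cfsg.pResidual p V).map V.subtype := by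
  set Z : Subgroup G := (P : Subgroup G) ⊓ Subgroup.centralizer (P : Set G) with hZdef
  -- `Z` is weakly closed in `P`
  have hmapsub : ∀ g : G, Z.map (MulAut.conj g).toMonoidHom ≤ (P : Subgroup G) →
      Z.map (MulAut.conj g).toMonoidHom ≤ Z := by
    intro g hg
    -- `Q = g⁻¹ P g`
    have hZQ : Z ≤ ((g⁻¹ • P : Sylow p G) : Subgroup G) := by
      intro z hz
      have h1 : (MulAut.conj g).toMonoidHom z ∈ (P : Subgroup G) := hg ⟨z, hz, rfl⟩
      have e : (MulAut.conj g).toMonoidHom z = g⁻¹⁻¹ * z * g⁻¹ := by simp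
      rw [e] at h1
      exact mem_sylow_smul.mpr h1
    have hQ := hn (g⁻¹ • P) hZQ
    rintro _ ⟨z, hz, rfl⟩
    have hzP : g * z * g⁻¹ ∈ (P : Subgroup G) := by
      have h1 : (MulAut.conj g).toMonoidHom z ∈ (P : Subgroup G) := hg ⟨z, hz, rfl⟩
      simpa using h1
    have hzC : z ∈ Subgroup.centralizer (((g⁻¹ • P : Sylow p G) : Subgroup G) : Set G) := by
      have : z ∈ ((g⁻¹ • P : Sylow p G) : Subgroup G) ⊓
          Subgroup.centralizer (((g⁻¹ • P : Sylow p G) : Subgroup G) : Set G) :=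
        hQ.symm ▸ hz
      exact this.2
    show (MulAut.conj g).toMonoidHom z ∈ Z
    have e : (MulAut.conj g).toMonoidHom z = g * z * g⁻¹ := by simp
    rw [e]
    refine Subgroup.mem_inf.mpr ⟨hzP, ?_⟩
    rw [Subgroup.mem_centralizer_iff]
    intro x hx
    have hxQ : g⁻¹ * x * g ∈ ((g⁻¹ • P : Sylow p G) : Subgroup G) := by
      apply mem_sylow_smul.mpr
      have e2 : g⁻¹⁻¹ * (g⁻¹ * x * g) * g⁻¹ = x := by group
      rw [e2]
      exact hx
    have h2 : g⁻¹ * x * g * z = z * (g⁻¹ * x * g) := hzC _ hxQ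
    calc x * (g * z * g⁻¹) = g * (g⁻¹ * x * g * z) * g⁻¹ := by group
      _ = g * (z * (g⁻¹ * x * g)) * g⁻¹ := by rw [h2]
      _ = g * z * g⁻¹ * x := by group
  have hW : Cfsg.IsWeaklyClosed Z P := by
    refine ⟨inf_le_left, ?_⟩
    intro g hg
    apply Subgroup.eq_of_le_of_card_ge (hmapsub g hg)
    rw [Subgroup.card_map_of_injective (MulAut.conj g).injective]
  have h77 := Cfsg.Agent.S0077.result P Z inf_le_right hW
  have hPN : (P : Subgroup G) ≤ Subgroup.normalizer (Z : Set G) := by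
    intro s hs
    rw [Subgroup.mem_normalizer_iff_map_conj_eq]
    apply hW.2 s
    rintro _ ⟨z, hz, rfl⟩
    have e : (MulAut.conj s).toMonoidHom z = s * z * s⁻¹ := by simp
    rw [e]
    exact (P : Subgroup G).mul_mem ((P : Subgroup G).mul_mem hs hz.1) ((P : Subgroup G).inv_mem hs)
  have hPV : (P : Subgroup G) ≤ V := hPN.trans hV
  have hfoc : commutator G ⊓ (P : Subgroup G) ≤ ⁅V, V⁆ := by
    rw [h77]
    exact inf_le_left.trans (Subgroup.commutator_mono hV hV)
  exact sylow_inf_pResidual_eq_of_commutator_inf_le P V hPV hfoc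

end Cfsg.Agent.S0078
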