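import Cfsg.Statements.S0079
import Cfsg.Agent.H2.Fusion

set_option autoImplicit false
open Cfsg

namespace Cfsg.Agent.S0079

open Cfsg.Agent.H2 in
/-- A nilpotent Hall subgroup has a normal complement exactly when elements of it that are conjugate in the whole group are already conjugate inside it. -/
theorem result {G : Type*} [Group G] [Finite G] (H : Subgroup G) (hH : Group.IsNilpotent H) (hHall : Nat.Coprime (Nat.card H) H.index) : (∃ N : Subgroup G, N.Normal ∧ N.IsComplement' H) ↔ ∀ x ∈ H, ∀ y ∈ H, (∃ g : G, g * x * g⁻¹ = y) → ∃ h ∈ H, h * x * h⁻¹ = y := by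
  constructor
  · rintro ⟨N, hN, hc⟩ x hx y hy ⟨g, hg⟩
    obtain ⟨⟨n, h⟩, hnh⟩ := hc.2 g
    simp only at hnh
    refine ⟨h, h.2, ?_⟩
    have h1 : y * ((h : G) * x * (h : G)⁻¹)⁻¹ ∈ N := by
      have h2 : y * ((h : G) * x * (h : G)⁻¹)⁻¹ =
          (n : G) * (((h : G) * x * (h : G)⁻¹) * (n : G)⁻¹ * ((h : G) * x * (h : G)⁻¹)⁻¹) := by
        rw [← hg, ← hnh]; group
      rw [h2]
      exact N.mul_mem n.2 (hN.conj_mem _ (N.inv_mem n.2) _)
    have h3 : y * ((h : G) * x * (h : G)⁻¹)⁻¹ ∈ H :=
      H.mul_mem hy (H.inv_mem (H.mul_mem (H.mul_mem h.2 hx) (H.inv_mem h.2)))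
    have h4 : y * ((h : G) * x * (h : G)⁻¹)⁻¹ = 1 := (Subgroup.disjoint_def.mp hc.disjoint) h1 h3
    exact (mul_inv_eq_one.mp h4).symm
  · intro hFC
    classical
    let N : Subgroup G := ⨅ p ∈ (Nat.card H).primeFactors, Cfsg.pResidual p G
    have hNn : N.Normal :=
      Subgroup.normal_iInf_normal (fun p => Subgroup.normal_iInf_normal (fun _ => pResidual_normal p))
    have hNle : ∀ p, p.Prime → p ∣ Nat.card H → N ≤ Cfsg.pResidual p G := by
      intro p hp hpH
      exact iInf₂_le p (Nat.mem_primeFactors.mpr ⟨hp, hpH, Nat.card_pos.ne'⟩)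
    have h1 : N ⊓ H = ⊥ := by
      rw [eq_bot_iff]
      intro x hx
      rw [Subgroup.mem_bot]
      by_contra hx1
      have hox : orderOf x ≠ 1 := fun h => hx1 (orderOf_eq_one_iff.mp h)
      have hp : (orderOf x).minFac.Prime := Nat.minFac_prime hox
      have : Fact (orderOf x).minFac.Prime := ⟨hp⟩
      have hpx : (orderOf x).minFac ∣ orderOf x := Nat.minFac_dvd _
      have hxH : orderOf x ∣ Nat.card H := by
        have := orderOf_dvd_natCard (⟨x, hx.2⟩ : H)
        rwa [Subgroup.orderOf_mk] at this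
      have hpH : (orderOf x).minFac ∣ Nat.card H := hpx.trans hxH
      have hoy : orderOf (x ^ (orderOf x / (orderOf x).minFac)) = (orderOf x).minFac :=
        orderOf_pow_orderOf_div (orderOf_pos x).ne' hpx
      have hK : IsPGroup (orderOf x).minFac
          (Subgroup.zpowers (x ^ (orderOf x / (orderOf x).minFac))) :=
        IsPGroup.of_card (n := 1) (by rw [Nat.card_zpowers, hoy, pow_one])
      have hKH : Subgroup.zpowers (x ^ (orderOf x / (orderOf x).minFac)) ≤ H := by
        rw [Subgroup.zpowers_le]; exact H.pow_mem hx.2 _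
      obtain ⟨P, hKP, hPH⟩ := exists_sylow_le_of_hall H hHall hpH _ hK hKH
      have hbot := pResidual_inf_sylow_eq_bot_of_fusion P H hH hPH
        (fun a ha b hb hab => hFC a (hPH ha) b (hPH hb) hab)
      have hy : x ^ (orderOf x / (orderOf x).minFac) ∈
          Cfsg.pResidual (orderOf x).minFac G ⊓ (P : Subgroup G) :=
        Subgroup.mem_inf.mpr ⟨hNle _ hp hpH (N.pow_mem hx.1 _),
          hKP (Subgroup.mem_zpowers _)⟩
      rw [hbot, Subgroup.mem_bot] at hy
      rw [hy, orderOf_one] at hoy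
      exact hp.one_lt.ne hoy
    have h2 : N ⊔ H = ⊤ := by
      rw [← Subgroup.index_eq_one]
      by_contra hne
      obtain ⟨q, hq, hqd⟩ := Nat.exists_prime_and_dvd hne
      have : Fact q.Prime := ⟨hq⟩
      have hqH : q ∣ H.index := hqd.trans (Subgroup.index_dvd_of_le le_sup_right)
      have hqN : q ∣ N.index := hqd.trans (Subgroup.index_dvd_of_le le_sup_left)
      obtain ⟨Q⟩ : Nonempty (Sylow q G) := inferInstance
      have hQN : (Q : Subgroup G) ≤ N := by
        intro x hx
        refine Subgroup.mem_iInf.mpr (fun p => Subgroup.mem_iInf.mpr (fun hp => ?_))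
        have hpp := (Nat.mem_primeFactors.mp hp).1
        have hpH := (Nat.mem_primeFactors.mp hp).2.1
        apply Subgroup.subset_closure
        show Nat.Coprime (orderOf x) p
        obtain ⟨k, hk⟩ := IsPGroup.iff_orderOf.mp Q.isPGroup' ⟨x, hx⟩
        rw [Subgroup.orderOf_mk] at hk
        rw [hk]
        have hne : q ≠ p := by
          rintro rfl
          exact hq.one_lt.ne' (Nat.eq_one_of_dvd_coprimes hHall hpH hqH)
        exact Nat.Coprime.pow_left k ((Nat.coprime_primes hq hpp).mpr hne)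
      exact Q.not_dvd_index (hqN.trans (Subgroup.index_dvd_of_le hQN))
    exact ⟨N, hNn, isComplement'_of_inf_sup_left N H h1 h2⟩

end Cfsg.Agent.S0079
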