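import Cfsg.Statements.S0082
import Cfsg.Agent.H2.Transfer

set_option autoImplicit false
open Cfsg

namespace Cfsg.Agent.S0082

open Cfsg.Agent.H2 in
/-- With a cyclic Sylow p-subgroup, either there is a normal p-complement or the elements of order prime to p generate the whole group. -/
theorem result {G : Type*} [Group G] [Finite G] {p : ℕ} [Fact p.Prime] (P : Sylow p G) (hP : IsCyclic P) : Cfsg.HasNormalPComplement p G ∨ Cfsg.pResidual p G = ⊤ := by
  rcases Sylow.normalizer_le_centralizer_or_le_commutator P with h | h
  · left; exact hasNormalPComplement_of_normalizer_le_centralizer P h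
  · right
    have hcomm : IsMulCommutative P := IsCyclic.isMulCommutative
    have h1 := commutator_le_pResidual_of_sylow_comm P hcomm
    have h2 := sylow_sup_pResidual_eq_top P
    rw [← h2]; exact (sup_eq_right.mpr (h.trans h1)).symm

end Cfsg.Agent.S0082
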