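import Cfsg.Statements.S0083
import Cfsg.Agent.H2.Transfer

set_option autoImplicit false
open Cfsg

namespace Cfsg.Agent.S0083

open Cfsg.Agent.H2 in
/-- For an abelian Sylow p-subgroup P, a normal p-complement exists exactly when the normalizer of P is an internal direct product of P with some subgroup. -/
theorem result {G : Type*} [Group G] [Finite G] {p : ℕ} [Fact p.Prime] (P : Sylow p G) (hP : IsMulCommutative P) : Cfsg.HasNormalPComplement p G ↔ ∃ Q : Subgroup G, Q ≤ Subgroup.centralizer (P : Set G) ∧ Q ⊓ (P : Subgroup G) = ⊥ ∧ Q ⊔ (P : Subgroup G) = Subgroup.normalizer (P : Set G) := by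
  have hPC : (P : Subgroup G) ≤ Subgroup.centralizer (P : Set G) := by
    intro x hx y hy
    exact setLike_mul_comm (s := (P : Subgroup G)) hy hx
  constructor
  · rintro ⟨P', N, hN, hc⟩
    -- `N` is also a complement of `P`
    have hcardP : Nat.card (P : Subgroup G) = Nat.card (P' : Subgroup G) := by
      rw [Sylow.card_eq_multiplicity, Sylow.card_eq_multiplicity]
    have hcard : Nat.card N * Nat.card (P : Subgroup G) = Nat.card G := by
      rw [hcardP]; exact hc.card_mul_card
    have hcop : Nat.Coprime (Nat.card N) (Nat.card (P : Subgroup G)) := by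
      have h1 : Nat.card N = (P' : Subgroup G).index := hc.index_eq_card.symm
      rw [h1, hcardP]
      exact (P'.card_coprime_index).symm
    have hc' : Subgroup.IsComplement' N (P : Subgroup G) :=
      Subgroup.isComplement'_of_coprime hcard hcop
    have hdisj : N ⊓ (P : Subgroup G) = ⊥ := hc'.disjoint.eq_bot
    refine ⟨N ⊓ Subgroup.normalizer (P : Set G), ?_, ?_, ?_⟩
    · intro q hq x hx
      have hx' : x ∈ (P : Subgroup G) := hx
      have h1 : q * x * q⁻¹ * x⁻¹ ∈ (P : Subgroup G) :=
        (P : Subgroup G).mul_mem ((Subgroup.mem_normalizer_iff.mp hq.2 x).mp hx')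
          ((P : Subgroup G).inv_mem hx')
      have h2 : q * x * q⁻¹ * x⁻¹ ∈ N := by
        have h3 : x * q⁻¹ * x⁻¹ ∈ N := hN.conj_mem _ (N.inv_mem hq.1) x
        have := N.mul_mem hq.1 h3
        simpa [mul_assoc] using this
      have h3 : q * x * q⁻¹ * x⁻¹ ∈ N ⊓ (P : Subgroup G) := ⟨h2, h1⟩
      rw [hdisj, Subgroup.mem_bot] at h3
      have h4 : q * x * q⁻¹ = x := mul_inv_eq_one.mp h3
      exact (mul_inv_eq_iff_eq_mul.mp h4).symm
    · rw [eq_bot_iff, ← hdisj]
      exact inf_le_inf_right _ inf_le_left
    · apply le_antisymm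
      · exact sup_le inf_le_right Subgroup.le_normalizer
      · intro n hn
        have hn' : n ∈ N ⊔ (P : Subgroup G) := by rw [hc'.sup_eq_top]; trivial
        obtain ⟨y, hy, z, hz, rfl⟩ := Subgroup.mem_sup_of_normal_left.mp hn'
        have hzn : z ∈ Subgroup.normalizer ((P : Subgroup G) : Set G) := Subgroup.le_normalizer hz
        have hyn : y ∈ Subgroup.normalizer ((P : Subgroup G) : Set G) := by
          have := (Subgroup.normalizer ((P : Subgroup G) : Set G)).mul_mem hn
            ((Subgroup.normalizer ((P : Subgroup G) : Set G)).inv_mem hzn)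
          simpa using this
        exact Subgroup.mul_mem_sup ⟨hy, hyn⟩ hz
  · rintro ⟨Q, hQC, -, hQP⟩
    apply hasNormalPComplement_of_normalizer_le_centralizer P
    rw [← hQP]
    exact sup_le hQC hPC

end Cfsg.Agent.S0083
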