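import Cfsg.Statements.S0084
import Cfsg.Agent.H2.Transfer

set_option autoImplicit false
open Cfsg

namespace Cfsg.Agent.S0084

open Cfsg.Agent.H2 in
/-- A group whose Sylow 2-subgroups are Klein four-groups and whose order is prime to 3 has a normal 2-complement. -/
theorem result {G : Type*} [Group G] [Finite G] (T : Sylow 2 G) (hT : IsKleinFour T) (h3 : ¬ 3 ∣ Nat.card G) : Cfsg.HasNormalPComplement 2 G := by
  have : Fact (Nat.Prime 2) := ⟨Nat.prime_two⟩
  apply hasNormalPComplement_of_normalizer_le_centralizer T
  have hcard4 : Nat.card T = 4 := hT.card_four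
  have hcomm : IsMulCommutative T := IsPGroup.isMulCommutative_of_card_eq_prime_sq (p := 2) (by rw [hcard4]; norm_num)
  have hTC : (T : Subgroup G) ≤ Subgroup.centralizer (T : Set G) := by
    intro x hx y hy
    exact setLike_mul_comm (s := (T : Subgroup G)) hy hx
  have key := Subgroup.card_dvd_of_injective _ (QuotientGroup.kerLift_injective (T : Subgroup G).normalizerMonoidHom)
  rw [Subgroup.normalizerMonoidHom_ker, ← Subgroup.index, ← Subgroup.relIndex] at key
  -- `MulAut T` embeds in `Perm T`, of order `24`
  have h24 : Nat.card (MulAut T) ∣ 24 := by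
    have h1 : Nat.card (MulAut T) ∣ Nat.card (Equiv.Perm T) :=
      Subgroup.card_dvd_of_injective (MulAut.toPerm T) (fun a b h => by
        apply MulEquiv.ext
        intro x
        exact congrFun (congrArg (fun e : Equiv.Perm T => (e : T → T)) h) x)
    have h2 : Nat.card (Equiv.Perm T) = 24 := by
      rw [Nat.card_perm, hcard4]; rfl
    rwa [h2] at h1
  have hr24 := key.trans h24
  have hrT : (Subgroup.centralizer (T : Set G)).relIndex (Subgroup.normalizer (T : Set G)) ∣ (T : Subgroup G).index :=
    (Subgroup.relIndex_dvd_of_le_left _ hTC).trans (Subgroup.relIndex_dvd_index_of_le Subgroup.le_normalizer)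
  have hc2 : Nat.Coprime ((Subgroup.centralizer (T : Set G)).relIndex (Subgroup.normalizer (T : Set G))) 2 := by
    apply Nat.Coprime.coprime_dvd_left hrT
    rw [Nat.coprime_comm, Nat.Prime.coprime_iff_not_dvd Nat.prime_two]
    exact T.not_dvd_index
  have hc3 : Nat.Coprime ((Subgroup.centralizer (T : Set G)).relIndex (Subgroup.normalizer (T : Set G))) 3 := by
    apply Nat.Coprime.coprime_dvd_left hrT
    rw [Nat.coprime_comm, Nat.Prime.coprime_iff_not_dvd Nat.prime_three]
    exact fun h => h3 (h.trans (Subgroup.index_dvd_card _))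
  have hc24 : Nat.Coprime ((Subgroup.centralizer (T : Set G)).relIndex (Subgroup.normalizer (T : Set G))) 24 := by
    have : (24 : ℕ) = 2 ^ 3 * 3 := by norm_num
    rw [this]
    exact Nat.Coprime.mul_right (Nat.Coprime.pow_right 3 hc2) hc3
  exact Subgroup.relIndex_eq_one.mp (Nat.Coprime.eq_one_of_dvd hc24 hr24)

end Cfsg.Agent.S0084
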