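import Cfsg.Statements.S0085

set_option autoImplicit false
open Cfsg

namespace Cfsg.Agent.S0085

/-- An automorphism of prime order `q ∉ {2, 3, 7}` of a group of order 8 does not exist. -/
theorem no_aut_of_order {T : Type*} [Group T] (h8 : Nat.card T = 8) (α : MulAut T) (q : ℕ)
    (hq : q.Prime) (hα : orderOf α = q) (h2 : q ≠ 2) (h3 : q ≠ 3) (h7 : q ≠ 7) : False := by
  have : Finite T := Nat.finite_of_card_ne_zero (by rw [h8]; norm_num)
  have : Fact q.Prime := ⟨hq⟩
  have hH : IsPGroup q (Subgroup.zpowers α) := by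
    apply IsPGroup.of_card (n := 1)
    rw [Nat.card_zpowers, hα, pow_one]
  have hmod := hH.card_modEq_card_fixedPoints T
  let F : Subgroup T := (α : T →* T).eqLocus (MonoidHom.id T)
  have hset : (MulAction.fixedPoints (Subgroup.zpowers α) T) = (F : Set T) := by
    ext x
    constructor
    · intro hx
      have := hx ⟨α, Subgroup.mem_zpowers α⟩
      exact this
    · intro hx g
      have hx' : α x = x := hx
      have hα' : α ∈ MulAction.stabilizer (MulAut T) x := hx'
      have hle : Subgroup.zpowers α ≤ MulAction.stabilizer (MulAut T) x := by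
        rw [Subgroup.zpowers_le]; exact hα'
      exact hle g.2
  have hcard : Nat.card (MulAction.fixedPoints (Subgroup.zpowers α) T) = Nat.card F := by
    rw [hset]; rfl
  rw [hcard, h8] at hmod
  have hdvd : Nat.card F ∣ 8 := by
    rw [← h8]; exact Subgroup.card_subgroup_dvd_card F
  have hle : Nat.card F ≤ 8 := Nat.le_of_dvd (by norm_num) hdvd
  have hq8 : q ∣ 8 - Nat.card F := (Nat.modEq_iff_dvd' hle).mp hmod.symm
  have hcases : Nat.card F = 1 ∨ Nat.card F = 2 ∨ Nat.card F = 4 ∨ Nat.card F = 8 := by
    have : Nat.card F ∈ Nat.divisors 8 := Nat.mem_divisors.mpr ⟨hdvd, by norm_num⟩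
    have h8d : Nat.divisors 8 = {1, 2, 4, 8} := by decide
    rw [h8d] at this
    simpa using this
  rcases hcases with h | h | h | h
  · rw [h] at hq8
    have h7p : Nat.Prime 7 := by decide
    have : q = 7 := (Nat.prime_dvd_prime_iff_eq hq h7p).mp hq8
    exact h7 this
  · rw [h] at hq8
    have h6 : q ∣ 2 * 3 := hq8
    rcases (Nat.Prime.dvd_mul hq).mp h6 with h' | h'
    · exact h2 ((Nat.prime_dvd_prime_iff_eq hq Nat.prime_two).mp h')
    · exact h3 ((Nat.prime_dvd_prime_iff_eq hq Nat.prime_three).mp h')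
  · rw [h] at hq8
    have h4 : q ∣ 2 * 2 := hq8
    rcases (Nat.Prime.dvd_mul hq).mp h4 with h' | h'
    · exact h2 ((Nat.prime_dvd_prime_iff_eq hq Nat.prime_two).mp h')
    · exact h2 ((Nat.prime_dvd_prime_iff_eq hq Nat.prime_two).mp h')
  · have hF : F = ⊤ := by
      apply Subgroup.eq_top_of_card_eq
      rw [h, h8]
    have hα1 : α = 1 := by
      ext x
      have : x ∈ F := by rw [hF]; trivial
      exact this
    rw [hα1, orderOf_one] at hα
    exact hq.one_lt.ne hα

/-- A group whose Sylow 2-subgroups are elementary abelian of order 8 and whose order is prime to 3 and to 7 has a normal 2-complement. -/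
theorem result {G : Type*} [Group G] [Finite G] (T : Sylow 2 G) (h8 : Nat.card T = 8) (he : ∀ x : T, x * x = 1) (h3 : ¬ 3 ∣ Nat.card G) (h7 : ¬ 7 ∣ Nat.card G) : Cfsg.HasNormalPComplement 2 G := by
  have : Fact (Nat.Prime 2) := ⟨Nat.prime_two⟩
  -- T is abelian
  have hcomm : ∀ a b : (T : Subgroup G), a * b = b * a := by
    intro a b
    have h1 := he (a * b)
    have ha := he a
    have hb := he b
    calc a * b = a * (a * b * (a * b)) * b := by rw [h1, mul_one]
      _ = (a * a) * b * a * (b * b) := by group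
      _ = b * a := by rw [ha, hb, one_mul, mul_one]
  have hTC : (T : Subgroup G) ≤ Subgroup.centralizer ((T : Subgroup G) : Set G) := by
    intro a ha
    rw [Subgroup.mem_centralizer_iff]
    intro b hb
    have := hcomm ⟨b, hb⟩ ⟨a, ha⟩
    exact congrArg Subtype.val this
  let φ := (T : Subgroup G).normalizerMonoidHom
  have hker : φ.ker = (Subgroup.centralizer ((T : Subgroup G) : Set G)).subgroupOf
      (Subgroup.normalizer ((T : Subgroup G) : Set G)) := Subgroup.normalizerMonoidHom_ker _
  have hTker : (T : Subgroup G).subgroupOf (Subgroup.normalizer ((T : Subgroup G) : Set G)) ≤ φ.ker := by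
    rw [hker]
    intro x hx
    exact hTC hx
  have hdvd : Nat.card φ.range ∣ (T : Subgroup G).index := by
    rw [← Subgroup.index_ker]
    exact (Subgroup.index_dvd_of_le hTker).trans
      (Subgroup.relIndex_dvd_index_of_le Subgroup.le_normalizer)
  have hrange : Nat.card φ.range = 1 := by
    by_contra hne
    obtain ⟨q, hq, hqd⟩ := Nat.exists_prime_and_dvd hne
    have : Fact q.Prime := ⟨hq⟩
    obtain ⟨a, ha⟩ := exists_prime_orderOf_dvd_card' q hqd
    have ha' : orderOf (a : MulAut (T : Subgroup G)) = q := by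
      rw [Subgroup.orderOf_coe]; exact ha
    have hqT : q ∣ (T : Subgroup G).index := hqd.trans hdvd
    have hqG : q ∣ Nat.card G := hqT.trans (Subgroup.index_dvd_card _)
    apply no_aut_of_order h8 (a : MulAut (T : Subgroup G)) q hq ha'
    · rintro rfl; exact T.not_dvd_index hqT
    · rintro rfl; exact h3 hqG
    · rintro rfl; exact h7 hqG
  have hNC : Subgroup.normalizer ((T : Subgroup G) : Set G) ≤ Subgroup.centralizer ((T : Subgroup G) : Set G) := by
    intro n hn
    have h1 : φ ⟨n, hn⟩ ∈ φ.range := ⟨_, rfl⟩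
    have h2 : φ.range = ⊥ := Subgroup.card_eq_one.mp hrange
    rw [h2, Subgroup.mem_bot] at h1
    have h3 : (⟨n, hn⟩ : Subgroup.normalizer ((T : Subgroup G) : Set G)) ∈ φ.ker := h1
    rw [hker] at h3
    exact h3
  exact ⟨T, (MonoidHom.transferSylow T hNC).ker, inferInstance,
    MonoidHom.ker_transferSylow_isComplement' T hNC⟩

end Cfsg.Agent.S0085
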