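import Cfsg.Statements.S0089
import Cfsg.Agent.S0088

set_option autoImplicit false
open Cfsg

namespace Cfsg.Agent.S0089

/-- When all Sylow subgroups are abelian, the derived subgroup meets the centre trivially. -/
theorem result {G : Type*} [Group G] [Finite G] (h : ∀ p : ℕ, p.Prime → ∀ P : Sylow p G, IsMulCommutative P) : commutator G ⊓ Subgroup.center G = ⊥ := by
  rw [eq_bot_iff]
  rintro z ⟨hzC, hzZ⟩
  rw [Subgroup.mem_bot]
  by_contra hz1
  have hord : orderOf z ≠ 1 := fun h1 => hz1 (orderOf_eq_one_iff.mp h1)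
  have hpos : 0 < orderOf z := orderOf_pos z
  set p := (orderOf z).minFac with hp
  have hpp : p.Prime := Nat.minFac_prime hord
  have hpd : p ∣ orderOf z := Nat.minFac_dvd _
  haveI : Fact p.Prime := ⟨hpp⟩
  set w := z ^ (orderOf z / p) with hw
  have hwo : orderOf w = p := orderOf_pow_orderOf_div hpos.ne' hpd
  have hwC : w ∈ commutator G := Subgroup.pow_mem _ hzC _
  have hwZ : w ∈ Subgroup.center G := Subgroup.pow_mem _ hzZ _
  have hpg : IsPGroup p (Subgroup.zpowers w) := by
    apply IsPGroup.of_card (n := 1)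
    rw [Nat.card_zpowers, hwo, pow_one]
  obtain ⟨P, hP⟩ := hpg.exists_le_sylow
  have hwP : w ∈ (P : Subgroup G) := hP (Subgroup.mem_zpowers w)
  have h1 := Cfsg.Agent.S0088.result (P : Subgroup G) (h p hpp P) P.card_coprime_index
  have h2 : w ∈ (P : Subgroup G) ⊓ commutator G ⊓ Subgroup.center G := ⟨⟨hwP, hwC⟩, hwZ⟩
  rw [h1, Subgroup.mem_bot] at h2
  rw [h2, orderOf_one] at hwo
  exact hpp.one_lt.ne hwo

end Cfsg.Agent.S0089
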