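import Cfsg.Statements.S0090
import Cfsg.Agent.S0088
import Cfsg.Agent.S0026

set_option autoImplicit false
open Cfsg

namespace Cfsg.Agent.S0090

open scoped Pointwise

/-- An abelian normal Hall subgroup A splits as the internal direct product of G' ∩ A and Z(G) ∩ A, and [A, G] = G' ∩ A. -/
theorem result {G : Type*} [Group G] [Finite G] (A : Subgroup G) [A.Normal] (hc : IsMulCommutative A) (hHall : Nat.Coprime (Nat.card A) A.index) : ⁅A, (⊤ : Subgroup G)⁆ = commutator G ⊓ A ∧ (commutator G ⊓ A) ⊓ (Subgroup.center G ⊓ A) = ⊥ ∧ (commutator G ⊓ A) ⊔ (Subgroup.center G ⊓ A) = A := by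
  obtain ⟨L, hL⟩ := Subgroup.exists_left_complement'_of_coprime hHall
  have hLcard : Nat.card L = A.index := hL.index_eq_card.symm
  have hcomm : ∀ a b : A, a * b = b * a := fun a b => mul_comm' a b
  have : Group.IsSolvable A := Group.isSolvable_of_comm hcomm
  have hAK : L ≤ Subgroup.normalizer (A : Set G) := by
    rw [Subgroup.normalizer_eq_top]; exact le_top
  have h26 := Cfsg.Agent.S0026.result L A hAK (by rw [hLcard]; exact hHall.symm) (Or.inr inferInstance)
  have h88 := Cfsg.Agent.S0088.result A hc hHall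
  have h1 : ⁅A, L⁆ ≤ ⁅A, (⊤ : Subgroup G)⁆ := Subgroup.commutator_mono le_rfl le_top
  have htop : L ⊔ A = ⊤ := hL.sup_eq_top
  have h2 : A ⊓ Subgroup.centralizer (L : Set G) ≤ Subgroup.center G ⊓ A := by
    intro x hx
    obtain ⟨hxA, hxL⟩ := Subgroup.mem_inf.mp hx
    refine Subgroup.mem_inf.mpr ⟨?_, hxA⟩
    rw [Subgroup.mem_center_iff]
    have hLx : L ≤ Subgroup.centralizer ({x} : Set G) := by
      intro l hl
      rw [Subgroup.mem_centralizer_iff]
      intro y hy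
      rw [Set.mem_singleton_iff] at hy
      subst hy
      exact ((Subgroup.mem_centralizer_iff.mp hxL) l hl).symm
    have hAx : A ≤ Subgroup.centralizer ({x} : Set G) := by
      intro a ha
      rw [Subgroup.mem_centralizer_iff]
      intro y hy
      rw [Set.mem_singleton_iff] at hy
      subst hy
      exact congrArg Subtype.val (hcomm ⟨y, hxA⟩ ⟨a, ha⟩)
    intro g
    have hg : g ∈ Subgroup.centralizer ({x} : Set G) := by
      have : g ∈ L ⊔ A := by rw [htop]; trivial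
      exact (sup_le hLx hAx) this
    exact ((Subgroup.mem_centralizer_iff.mp hg) x rfl).symm
  have h3 : ⁅A, (⊤ : Subgroup G)⁆ ≤ commutator G ⊓ A :=
    le_inf (Subgroup.commutator_mono le_top le_rfl) (Subgroup.commutator_le_left _ _)
  have hbot : (commutator G ⊓ A) ⊓ (Subgroup.center G ⊓ A) = ⊥ := by
    rw [eq_bot_iff, ← h88]
    intro x hx
    obtain ⟨hx12, hx34⟩ := Subgroup.mem_inf.mp hx
    obtain ⟨hx1, hx2⟩ := Subgroup.mem_inf.mp hx12
    obtain ⟨hx3, -⟩ := Subgroup.mem_inf.mp hx34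
    exact Subgroup.mem_inf.mpr ⟨Subgroup.mem_inf.mpr ⟨hx2, hx1⟩, hx3⟩
  have hsup' : ⁅A, (⊤ : Subgroup G)⁆ ⊔ (Subgroup.center G ⊓ A) = A := by
    apply le_antisymm
    · exact sup_le (h3.trans inf_le_right) inf_le_right
    · calc A = ⁅A, L⁆ ⊔ (A ⊓ Subgroup.centralizer (L : Set G)) := h26.symm
        _ ≤ ⁅A, (⊤ : Subgroup G)⁆ ⊔ (Subgroup.center G ⊓ A) := sup_le_sup h1 h2
  refine ⟨?_, hbot, ?_⟩
  · apply le_antisymm h3
    intro x hx0
    obtain ⟨hxC, hxA⟩ := Subgroup.mem_inf.mp hx0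
    have hx : x ∈ (↑(⁅A, (⊤ : Subgroup G)⁆ ⊔ (Subgroup.center G ⊓ A)) : Set G) := by
      rw [hsup']; exact hxA
    rw [Subgroup.normal_mul] at hx
    obtain ⟨f, hf, z, hz, rfl⟩ := hx
    have hf' : f ∈ commutator G := (Subgroup.mem_inf.mp (h3 hf)).1
    have hxC' : f * z ∈ commutator G := hxC
    have hzC : z ∈ commutator G := by
      have : z = f⁻¹ * (f * z) := by group
      rw [this]
      exact Subgroup.mul_mem _ (Subgroup.inv_mem _ hf') hxC'
    have hz' : z ∈ Subgroup.center G ⊓ A := hz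
    have hz1 : z ∈ (commutator G ⊓ A) ⊓ (Subgroup.center G ⊓ A) :=
      Subgroup.mem_inf.mpr ⟨Subgroup.mem_inf.mpr ⟨hzC, (Subgroup.mem_inf.mp hz').2⟩, hz'⟩
    rw [hbot, Subgroup.mem_bot] at hz1
    show f * z ∈ ⁅A, (⊤ : Subgroup G)⁆
    rw [hz1, mul_one]; exact hf
  · apply le_antisymm
    · exact sup_le inf_le_right inf_le_right
    · calc A = ⁅A, (⊤ : Subgroup G)⁆ ⊔ (Subgroup.center G ⊓ A) := hsup'.symm
        _ ≤ (commutator G ⊓ A) ⊔ (Subgroup.center G ⊓ A) := sup_le_sup h3 le_rfl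

end Cfsg.Agent.S0090
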