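import Cfsg.Statements.S0091

set_option autoImplicit false
open Cfsg

namespace Cfsg.Agent.S0091

open scoped commutatorElement in
/-- If a nontrivial Sylow p-subgroup controls its own fusion then it is not contained in the derived subgroup. -/
theorem result {G : Type*} [Group G] [Finite G] {p : ℕ} [Fact p.Prime] (P : Sylow p G) (hp : p ∣ Nat.card G) (h : ∀ x ∈ P, ∀ y ∈ P, (∃ g : G, g * x * g⁻¹ = y) → ∃ z ∈ P, z * x * z⁻¹ = y) : ¬ (P : Subgroup G) ≤ commutator G := by
  intro hle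
  have hfocal := Subgroup.commutator_inf_eq_focalSubgroup P
  rw [inf_eq_right.mpr hle] at hfocal
  -- the focal subgroup lies in ⁅P, P⁆
  have hfoc_le : (P : Subgroup G).focalSubgroup ≤ ⁅(P : Subgroup G), (P : Subgroup G)⁆ := by
    rw [Subgroup.focalSubgroup_def, Subgroup.closure_le]
    rintro g ⟨hgP, x, hxP, u, rfl⟩
    -- u x⁻¹ u⁻¹ ∈ P
    have h1 : u * x⁻¹ * u⁻¹ ∈ (P : Subgroup G) := by
      have : u * x⁻¹ * u⁻¹ = x⁻¹ * ⁅x, u⁆ := by
        rw [commutatorElement_def]; group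
      rw [this]
      exact Subgroup.mul_mem _ (Subgroup.inv_mem _ hxP) hgP
    obtain ⟨z, hz, hzx⟩ := h x⁻¹ (Subgroup.inv_mem _ hxP) _ h1 ⟨u, rfl⟩
    have h2 : ⁅x, u⁆ = ⁅x, z⁆ := by
      rw [commutatorElement_def, commutatorElement_def]
      calc x * u * x⁻¹ * u⁻¹ = x * (u * x⁻¹ * u⁻¹) := by group
        _ = x * (z * x⁻¹ * z⁻¹) := by rw [hzx]
        _ = x * z * x⁻¹ * z⁻¹ := by group
    rw [h2]
    exact Subgroup.commutator_mem_commutator hxP hz
  have hPP : (P : Subgroup G) ≤ ⁅(P : Subgroup G), (P : Subgroup G)⁆ :=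
    hfocal.le.trans hfoc_le
  rw [← Subgroup.map_subtype_commutator] at hPP
  have htop : commutator (P : Subgroup G) = ⊤ := by
    rw [eq_top_iff]
    intro x _
    obtain ⟨y, hy, hyx⟩ := hPP x.2
    have : y = x := Subtype.ext hyx
    rw [← this]; exact hy
  have : Nontrivial (P : Subgroup G) := by
    rw [Subgroup.nontrivial_iff_ne_bot]
    exact P.ne_bot_of_dvd_card hp
  have : Group.IsNilpotent (P : Subgroup G) := P.2.isNilpotent
  exact (Group.IsSolvable.commutator_lt_top_of_nontrivial (P : Subgroup G)).ne htop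

end Cfsg.Agent.S0091
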