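import Cfsg.Statements.S0092
import Cfsg.Agent.H3.SplitResidual

set_option autoImplicit false
open Cfsg

namespace Cfsg.Agent.S0092

/-- If the Sylow p-subgroups of O^p(G) are abelian then G splits over O^p(G). -/
theorem result {G : Type*} [Group G] [Finite G] {p : ℕ} [Fact p.Prime] (h : ∀ Q : Sylow p (Cfsg.pResidual p G), IsMulCommutative Q) : ∃ K : Subgroup G, K.IsComplement' (Cfsg.pResidual p G) := by
  have hp : p.Prime := Fact.out
  have hMn : (Cfsg.pResidual p G).Normal := Cfsg.Agent.H53.pResidual_normal p G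
  obtain ⟨Q₀⟩ : Nonempty (Sylow p (Cfsg.pResidual p G)) := inferInstance
  have hab := h Q₀
  obtain ⟨N, hN, ⟨e⟩⟩ := Cfsg.Agent.S0105.result Q₀ hab
  have hNtop : N = ⊤ := by
    have hpq : IsPGroup p (↥(Cfsg.pResidual p G) ⧸ N) := by
      have h1 : IsPGroup p ((Q₀ : Subgroup (Cfsg.pResidual p G)) ⊓ Subgroup.centralizer
          (Subgroup.normalizer (Q₀ : Set (Cfsg.pResidual p G)) : Set (Cfsg.pResidual p G)) :
          Subgroup (Cfsg.pResidual p G)) := Q₀.isPGroup'.to_le inf_le_left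
      exact h1.of_equiv e.symm
    have h2 := Cfsg.Agent.H53.pResidual_le_of_isPGroup_quotient N hpq
    rw [Cfsg.Agent.H53.pResidual_pResidual] at h2
    exact top_le_iff.mp h2
  have hZbot : ((Q₀ : Subgroup (Cfsg.pResidual p G)) ⊓ Subgroup.centralizer
      (Subgroup.normalizer (Q₀ : Set (Cfsg.pResidual p G)) : Set (Cfsg.pResidual p G)) :
      Subgroup (Cfsg.pResidual p G)) = ⊥ := by
    subst hNtop
    rw [← Subgroup.card_eq_one, ← Nat.card_congr e.toEquiv]
    have h3 : (⊤ : Subgroup (Cfsg.pResidual p G)).index = 1 := Subgroup.index_top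
    exact h3
  have hmemQ : ∀ y : (Cfsg.pResidual p G), (y : G) ∈ (Q₀ : Subgroup (Cfsg.pResidual p G)).map
      (Cfsg.pResidual p G).subtype ↔ y ∈ (Q₀ : Subgroup (Cfsg.pResidual p G)) :=
    fun y => Subgroup.mem_map_iff_mem (Subgroup.subtype_injective _)
  have hQM : (Q₀ : Subgroup (Cfsg.pResidual p G)).map (Cfsg.pResidual p G).subtype ≤
      Cfsg.pResidual p G := by
    rintro _ ⟨y, _, rfl⟩
    exact y.2
  apply Cfsg.Agent.H3.complement_core (p := p) (Cfsg.pResidual p G)
    ((Q₀ : Subgroup (Cfsg.pResidual p G)).map (Cfsg.pResidual p G).subtype) hQM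
  · exact Q₀.isPGroup'.map _
  · rintro _ ⟨a, ha, rfl⟩ _ ⟨b, hb, rfl⟩
    have := hab.1.1 ⟨a, ha⟩ ⟨b, hb⟩
    have h4 : a * b = b * a := congrArg Subtype.val this
    exact congrArg Subtype.val h4
  · have h5 : ((Q₀ : Subgroup (Cfsg.pResidual p G)).map (Cfsg.pResidual p G).subtype).relIndex
        (Cfsg.pResidual p G) = (Q₀ : Subgroup (Cfsg.pResidual p G)).index := by
      rw [Subgroup.relIndex, Subgroup.subgroupOf,
        Subgroup.comap_map_eq_self_of_injective (Subgroup.subtype_injective _)]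
    rw [h5]
    exact Q₀.not_dvd_index
  · have h6 := Cfsg.Agent.H53.isPGroup_quotient_pResidual p G
    obtain ⟨k, hk⟩ := IsPGroup.iff_card.mp h6
    exact ⟨k, hk⟩
  · exact Sylow.normalizer_sup_eq_top Q₀
  · rw [eq_bot_iff]
    intro x hx
    obtain ⟨hx1, hx2⟩ := Subgroup.mem_inf.mp hx
    obtain ⟨y, hy, rfl⟩ := hx1
    have hyc : y ∈ Subgroup.centralizer
        (Subgroup.normalizer (Q₀ : Set (Cfsg.pResidual p G)) : Set (Cfsg.pResidual p G)) := by
      rw [Subgroup.mem_centralizer_iff]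
      intro r hr
      have hrN : (r : G) ∈ Subgroup.normalizer
          (((Q₀ : Subgroup (Cfsg.pResidual p G)).map (Cfsg.pResidual p G).subtype : Subgroup G) :
            Set G) := by
        rw [Subgroup.mem_normalizer_iff]
        intro g
        constructor
        · rintro ⟨g', hg', rfl⟩
          have h8 : r * g' * r⁻¹ ∈ (Q₀ : Subgroup (Cfsg.pResidual p G)) :=
            (Subgroup.mem_normalizer_iff.mp hr g').mp hg'
          exact (hmemQ (r * g' * r⁻¹)).mpr h8
        · intro hg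
          have hgM : g ∈ Cfsg.pResidual p G := by
            have h9 : (r : G) * g * (r : G)⁻¹ ∈ Cfsg.pResidual p G := hQM hg
            have e : g = (r : G)⁻¹ * ((r : G) * g * (r : G)⁻¹) * (r : G) := by group
            rw [e]
            exact Subgroup.mul_mem _ (Subgroup.mul_mem _ (Subgroup.inv_mem _ r.2) h9) r.2
          have h10 : r * ⟨g, hgM⟩ * r⁻¹ ∈ (Q₀ : Subgroup (Cfsg.pResidual p G)) :=
            (hmemQ (r * ⟨g, hgM⟩ * r⁻¹)).mp hg
          have h11 : (⟨g, hgM⟩ : Cfsg.pResidual p G) ∈ (Q₀ : Subgroup (Cfsg.pResidual p G)) :=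
            (Subgroup.mem_normalizer_iff.mp hr ⟨g, hgM⟩).mpr h10
          exact (hmemQ ⟨g, hgM⟩).mpr h11
      have h12 := Subgroup.mem_centralizer_iff.mp hx2 (r : G) (Subgroup.mem_inf.mpr ⟨hrN, r.2⟩)
      exact Subtype.ext h12
    have h13 : y ∈ ((Q₀ : Subgroup (Cfsg.pResidual p G)) ⊓ Subgroup.centralizer
      (Subgroup.normalizer (Q₀ : Set (Cfsg.pResidual p G)) : Set (Cfsg.pResidual p G)) :
      Subgroup (Cfsg.pResidual p G)) := Subgroup.mem_inf.mpr ⟨hy, hyc⟩
    rw [hZbot, Subgroup.mem_bot] at h13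
    rw [Subgroup.mem_bot, h13]
    rfl

end Cfsg.Agent.S0092
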