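import Cfsg.Statements.S0094
import Cfsg.Agent.H3.Class2
import Cfsg.Agent.H3.PGroup

set_option autoImplicit false
open Cfsg

namespace Cfsg.Agent.S0094

open scoped commutatorElement in
/-- In a special p-group every central element has order dividing p. -/
theorem result {P : Type*} [Group P] [Finite P] {p : ℕ} [Fact p.Prime] (h : Cfsg.IsSpecial p P) (z : P) (hz : z ∈ Subgroup.center P) : z ^ p = 1 := by
  obtain ⟨hP, hfr, hcom⟩ := h
  have hz' : z ∈ commutator P := by rw [hcom]; exact hz
  rw [commutator_eq_closure] at hz'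
  have key : ∀ w ∈ Subgroup.closure (commutatorSet P), w ^ p = 1 := by
    intro w hw
    induction hw using Subgroup.closure_induction with
    | mem w hw =>
      obtain ⟨g₁, g₂, rfl⟩ := hw
      have hrel := Cfsg.Agent.H3.basic_rel g₂⁻¹ g₁⁻¹
      have e : g₁⁻¹⁻¹ * g₂⁻¹⁻¹ * g₁⁻¹ * g₂⁻¹ = ⁅g₁, g₂⁆ := by
        rw [commutatorElement_def]; group
      rw [e] at hrel
      have ht : ⁅g₁, g₂⁆ ∈ Subgroup.center P := by
        rw [← hcom]
        exact Subgroup.commutator_mem_commutator (Subgroup.mem_top _) (Subgroup.mem_top _)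
      apply Cfsg.Agent.H3.rel_pow_eq_one hrel ht p
      have hpow : g₁⁻¹ ^ p ∈ Subgroup.center P := by
        rw [← hfr]; exact Cfsg.Agent.H3.pow_mem_frattini hP _
      exact ((Subgroup.mem_center_iff.mp hpow) g₂⁻¹).symm
    | one => exact one_pow p
    | mul a b ha hb iha ihb =>
      have hac : a ∈ Subgroup.center P := by rw [← hcom, commutator_eq_closure]; exact ha
      have hcomm : Commute a b := ((Subgroup.mem_center_iff.mp hac) b).symm
      rw [hcomm.mul_pow, iha, ihb, one_mul]
    | inv a _ iha => rw [inv_pow, iha, inv_one]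
  exact key z hz'

end Cfsg.Agent.S0094
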