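import Cfsg.Statements.S0097
import Cfsg.Agent.H3.Class2
import Cfsg.Agent.H3.PGroup

set_option autoImplicit false
open Cfsg

namespace Cfsg.Agent.S0097

/-- For odd p and E extraspecial, the subgroup generated by the elements of order dividing p has exponent dividing p and index at most p. -/
theorem result {E : Type*} [Group E] [Finite E] {p : ℕ} [Fact p.Prime] (hp : p ≠ 2) (h : Cfsg.IsExtraspecial p E) : (Subgroup.closure {x : E | x ^ p = 1}).index ≤ p ∧ ∀ g ∈ Subgroup.closure {x : E | x ^ p = 1}, g ^ p = 1 := by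
  obtain ⟨⟨hP, hfr, hcom⟩, hcard⟩ := h
  have hpp : p.Prime := Fact.out
  have hc : commutator E ≤ Subgroup.center E := hcom.le
  refine ⟨?_, fun g hg => Cfsg.Agent.H3.omega_exponent_of_class_two hpp hp hc hg⟩
  -- central elements have order dividing p
  have hzp : ∀ z ∈ Subgroup.center E, z ^ p = 1 := by
    intro z hz
    have h1 : (⟨z, hz⟩ : Subgroup.center E) ^ Nat.card (Subgroup.center E) = 1 := pow_card_eq_one'
    rw [hcard] at h1
    have h2 := congrArg Subtype.val h1
    exact h2
  have hmul : ∀ x y : E, (x * y) ^ p = x ^ p * y ^ p := by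
    intro x y
    have ht : y⁻¹ * x⁻¹ * y * x ∈ Subgroup.center E := hc (Cfsg.Agent.H3.basic_rel_mem_commutator x y)
    rw [Cfsg.Agent.H3.mul_pow_of_rel (Cfsg.Agent.H3.basic_rel x y) ht p]
    have hdvd : p ∣ p.choose 2 := hpp.dvd_choose_self (by norm_num) (by
      have := hpp.two_le; omega)
    obtain ⟨k, hk⟩ := hdvd
    rw [hk, pow_mul, hzp _ ht, one_pow, mul_one]
  let π : E →* E := MonoidHom.mk' (fun x => x ^ p) hmul
  have hker : π.ker ≤ Subgroup.closure {x : E | x ^ p = 1} := by
    intro x hx
    exact Subgroup.subset_closure (MonoidHom.mem_ker.mp hx)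
  have hrange : π.range ≤ Subgroup.center E := by
    rintro _ ⟨x, rfl⟩
    show x ^ p ∈ Subgroup.center E
    rw [← hfr]; exact Cfsg.Agent.H3.pow_mem_frattini hP x
  calc (Subgroup.closure {x : E | x ^ p = 1}).index ≤ π.ker.index := Subgroup.index_antitone hker
    _ = Nat.card π.range := Subgroup.index_ker π
    _ ≤ Nat.card (Subgroup.center E) := Subgroup.card_le_of_le hrange
    _ = p := hcard

end Cfsg.Agent.S0097
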