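import Cfsg.Statements.S0098
import Cfsg.Agent.H54.ES2

set_option autoImplicit false
set_option linter.unusedSectionVars false
open Cfsg

namespace Cfsg.Agent.S0098

open scoped commutatorElement
open Cfsg.Agent.H54

universe u v

/-! ### The Heisenberg model -/

section model

variable (p : ℕ)

/-- the cocycle -/
def hb (m : ℕ) (v w : Fin m → ZMod p × ZMod p) : ZMod p := ∑ i, (v i).1 * (w i).2

theorem hb_add_left (m : ℕ) (u v w : Fin m → ZMod p × ZMod p) :
    hb p m (u + v) w = hb p m u w + hb p m v w := by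
  unfold hb
  rw [← Finset.sum_add_distrib]
  apply Finset.sum_congr rfl
  intro i _
  simp [add_mul]

theorem hb_add_right (m : ℕ) (u v w : Fin m → ZMod p × ZMod p) :
    hb p m u (v + w) = hb p m u v + hb p m u w := by
  unfold hb
  rw [← Finset.sum_add_distrib]
  apply Finset.sum_congr rfl
  intro i _
  simp [mul_add]

theorem hb_zero_left (m : ℕ) (w : Fin m → ZMod p × ZMod p) : hb p m 0 w = 0 := by
  unfold hb
  simp

theorem hb_zero_right (m : ℕ) (w : Fin m → ZMod p × ZMod p) : hb p m w 0 = 0 := by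
  unfold hb
  simp

/-- the Heisenberg-type group of order `p ^ (2 m + 1)` -/
@[ext] structure HG (m : ℕ) where
  v : Fin m → ZMod p × ZMod p
  a : ZMod p

instance instGroupHG (m : ℕ) : Group (HG p m) where
  mul g h := ⟨g.v + h.v, g.a + h.a + hb p m g.v h.v⟩
  one := ⟨0, 0⟩
  inv g := ⟨-g.v, -g.a + hb p m g.v g.v⟩
  mul_assoc g h k := by
    apply HG.ext
    · exact add_assoc _ _ _
    · show g.a + h.a + hb p m g.v h.v + k.a + hb p m (g.v + h.v) k.v
        = g.a + (h.a + k.a + hb p m h.v k.v) + hb p m g.v (h.v + k.v)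
      rw [hb_add_left, hb_add_right]
      abel
  one_mul g := by
    apply HG.ext
    · exact zero_add _
    · show 0 + g.a + hb p m 0 g.v = g.a
      rw [hb_zero_left, zero_add, add_zero]
  mul_one g := by
    apply HG.ext
    · exact add_zero _
    · show g.a + 0 + hb p m g.v 0 = g.a
      rw [hb_zero_right, add_zero, add_zero]
  inv_mul_cancel g := by
    apply HG.ext
    · exact neg_add_cancel _
    · show -g.a + hb p m g.v g.v + g.a + hb p m (-g.v) g.v = 0
      have h : hb p m g.v g.v + hb p m (-g.v) g.v = 0 := by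
        rw [← hb_add_left, add_neg_cancel, hb_zero_left]
      calc -g.a + hb p m g.v g.v + g.a + hb p m (-g.v) g.v
          = (hb p m g.v g.v + hb p m (-g.v) g.v) := by abel
        _ = 0 := h

variable {p}

theorem hmul_v {m : ℕ} (g h : HG p m) : (g * h).v = g.v + h.v := rfl
theorem hmul_a {m : ℕ} (g h : HG p m) : (g * h).a = g.a + h.a + hb p m g.v h.v := rfl

variable (p)

/-- the underlying equivalence with a product -/
def hgEquiv (m : ℕ) : HG p m ≃ (Fin m → ZMod p × ZMod p) × ZMod p where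
  toFun g := (g.v, g.a)
  invFun q := ⟨q.1, q.2⟩
  left_inv _ := rfl
  right_inv _ := rfl

theorem card_hg (m : ℕ) : Nat.card (HG p m) = p ^ (2 * m + 1) := by
  rw [Nat.card_congr (hgEquiv p m), Nat.card_prod, Nat.card_pi]
  simp only [Nat.card_prod, Nat.card_zmod, Finset.prod_const, Finset.card_univ, Fintype.card_fin]
  ring

instance instFiniteHG [Fact p.Prime] (m : ℕ) : Finite (HG p m) := by
  apply Nat.finite_of_card_ne_zero
  rw [card_hg]
  exact pow_ne_zero _ (Fact.out : p.Prime).ne_zero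

/-- the central elements -/
def zel (m : ℕ) (t : ZMod p) : HG p m := ⟨0, t⟩

theorem zel_central (m : ℕ) (t : ZMod p) (g : HG p m) : zel p m t * g = g * zel p m t := by
  apply HG.ext
  · show (0 : Fin m → ZMod p × ZMod p) + g.v = g.v + 0
    rw [zero_add, add_zero]
  · show t + g.a + hb p m 0 g.v = g.a + t + hb p m g.v 0
    rw [hb_zero_left, hb_zero_right]
    abel

theorem zel_pow (m : ℕ) (n : ℕ) : zel p m 1 ^ n = zel p m (n : ZMod p) := by
  induction n with
  | zero =>
    rw [pow_zero]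
    apply HG.ext
    · rfl
    · show (0 : ZMod p) = ((0 : ℕ) : ZMod p)
      simp
  | succ n ih =>
    rw [pow_succ, ih]
    apply HG.ext
    · show (0 : Fin m → ZMod p × ZMod p) + 0 = 0
      rw [add_zero]
    · show (n : ZMod p) + 1 + hb p m 0 0 = ((n + 1 : ℕ) : ZMod p)
      rw [hb_zero_left]
      push_cast
      ring

end model

/-! ### The class of groups -/

section cls

variable {p : ℕ} {E : Type u} [Group E]

/-- centre of order `p`, central commutators, exponent `p` -/
structure K (p : ℕ) (E : Type u) [Group E] : Prop where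
  comm_mem : ∀ x y : E, ⁅x, y⁆ ∈ Subgroup.center E
  pow_p : ∀ x : E, x ^ p = 1
  card_center : Nat.card (Subgroup.center E) = p

theorem K.central_pow [Fact p.Prime] (hK : K p E) {c d : E} (hc : c ∈ Subgroup.center E)
    (hc1 : c ≠ 1) (hd : d ∈ Subgroup.center E) : ∃ k : ℕ, d = c ^ k := by
  have hfin : Finite (Subgroup.center E) := Nat.finite_of_card_ne_zero (by
    rw [hK.card_center]; exact (Fact.out : p.Prime).ne_zero)
  have h1 : Subgroup.zpowers (⟨c, hc⟩ : Subgroup.center E) = ⊤ :=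
    zpowers_eq_top_of_prime_card hK.card_center (fun e => hc1 (congrArg Subtype.val e))
  have h2 : (⟨d, hd⟩ : Subgroup.center E) ∈ Subgroup.zpowers (⟨c, hc⟩ : Subgroup.center E) := by
    rw [h1]; trivial
  rw [← mem_powers_iff_mem_zpowers] at h2
  obtain ⟨k, hk⟩ := h2
  refine ⟨k, ?_⟩
  have := congrArg Subtype.val hk
  simpa using this.symm

/-- `c ^ t` for `t : ZMod p` -/
def pz (c : E) (t : ZMod p) : E := c ^ t.val

theorem pz_zero [Fact p.Prime] (c : E) : pz c (0 : ZMod p) = 1 := by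
  unfold pz
  rw [ZMod.val_zero, pow_zero]

theorem pz_add [Fact p.Prime] {c : E} (hc : c ^ p = 1) (s t : ZMod p) :
    pz c (s + t) = pz c s * pz c t := by
  unfold pz
  rw [← pow_add, ZMod.val_add]
  exact (pow_eq_pow_mod _ hc).symm

theorem pz_mul [Fact p.Prime] {c : E} (hc : c ^ p = 1) (s t : ZMod p) :
    pz c (s * t) = c ^ (s.val * t.val) := by
  unfold pz
  rw [ZMod.val_mul]
  exact (pow_eq_pow_mod _ hc).symm

theorem pz_eq_one [Fact p.Prime] {c : E} (hc : c ^ p = 1) (hc1 : c ≠ 1) {t : ZMod p}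
    (h : pz c t = 1) : t = 0 := by
  unfold pz at h
  have ho : orderOf c = p := orderOf_eq_prime hc hc1
  have hd := orderOf_dvd_of_pow_eq_one h
  rw [ho] at hd
  have hlt := ZMod.val_lt t
  have h0 : t.val = 0 := Nat.eq_zero_of_dvd_of_lt hd hlt
  exact (ZMod.val_eq_zero t).mp h0

theorem pow_comm_aux {x y c : E} (hc : ∀ g : E, c * g = g * c) (h : x * y = y * x * c) (j : ℕ) :
    x * y ^ j = y ^ j * x * c ^ j := by
  induction j with
  | zero => simp
  | succ j ih =>
    calc x * y ^ (j + 1) = (x * y ^ j) * y := by rw [pow_succ, mul_assoc]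
      _ = y ^ j * x * c ^ j * y := by rw [ih]
      _ = y ^ j * (x * y) * c ^ j := by
          rw [mul_assoc (y ^ j * x), (Commute.pow_left (hc y) j).eq]
          simp only [mul_assoc]
      _ = y ^ j * (y * x * c) * c ^ j := by rw [h]
      _ = y ^ (j + 1) * x * c ^ (j + 1) := by
          rw [pow_succ, pow_succ']
          simp only [mul_assoc]

theorem pow_comm {x y c : E} (hc : ∀ g : E, c * g = g * c) (h : x * y = y * x * c) (i j : ℕ) :
    x ^ i * y ^ j = y ^ j * x ^ i * c ^ (i * j) := by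
  induction i with
  | zero => simp
  | succ i ih =>
    have hcx : c ^ (i * j) * x = x * c ^ (i * j) := (Commute.pow_left (hc x) (i * j)).eq
    calc x ^ (i + 1) * y ^ j = x ^ i * (x * y ^ j) := by rw [pow_succ, mul_assoc]
      _ = x ^ i * (y ^ j * x * c ^ j) := by rw [pow_comm_aux hc h j]
      _ = (x ^ i * y ^ j) * x * c ^ j := by simp only [mul_assoc]
      _ = y ^ j * x ^ i * c ^ (i * j) * x * c ^ j := by rw [ih]
      _ = y ^ j * x ^ i * (c ^ (i * j) * x) * c ^ j := by simp only [mul_assoc]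
      _ = y ^ j * x ^ i * (x * c ^ (i * j)) * c ^ j := by rw [hcx]
      _ = y ^ j * x ^ (i + 1) * c ^ ((i + 1) * j) := by
          rw [pow_succ, add_mul, one_mul, pow_add]
          simp only [mul_assoc]

/-- the coset representatives -/
def sg (x y : E) (q : ZMod p × ZMod p) : E := y ^ q.2.val * x ^ q.1.val

theorem sg_zero [Fact p.Prime] (x y : E) : sg x y (0 : ZMod p × ZMod p) = 1 := by
  show y ^ (0 : ZMod p).val * x ^ (0 : ZMod p).val = 1
  rw [ZMod.val_zero, pow_zero, pow_zero, one_mul]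

theorem sg_mul [Fact p.Prime] {x y c : E} (hx : x ^ p = 1) (hy : y ^ p = 1) (hcp : c ^ p = 1)
    (hc : ∀ g : E, c * g = g * c) (h : x * y = y * x * c) (q q' : ZMod p × ZMod p) :
    sg x y q * sg x y q' = sg x y (q + q') * pz c (q.1 * q'.2) := by
  obtain ⟨a, b⟩ := q
  obtain ⟨a', b'⟩ := q'
  show y ^ b.val * x ^ a.val * (y ^ b'.val * x ^ a'.val)
    = y ^ (b + b').val * x ^ (a + a').val * pz c (a * b')
  have e1 := pow_comm hc h a.val b'.val
  have e2 : y ^ b.val * y ^ b'.val = y ^ (b + b').val := (pz_add hy b b').symm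
  have e3 : x ^ a.val * x ^ a'.val = x ^ (a + a').val := (pz_add hx a a').symm
  have c1 : c ^ (a.val * b'.val) * x ^ a'.val = x ^ a'.val * c ^ (a.val * b'.val) :=
    (Commute.pow_left (hc (x ^ a'.val)) (a.val * b'.val)).eq
  calc y ^ b.val * x ^ a.val * (y ^ b'.val * x ^ a'.val)
      = y ^ b.val * (x ^ a.val * y ^ b'.val) * x ^ a'.val := by simp only [mul_assoc]
    _ = y ^ b.val * (y ^ b'.val * x ^ a.val * c ^ (a.val * b'.val)) * x ^ a'.val := by rw [e1]
    _ = y ^ b.val * y ^ b'.val * x ^ a.val * (c ^ (a.val * b'.val) * x ^ a'.val) := by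
        simp only [mul_assoc]
    _ = y ^ b.val * y ^ b'.val * x ^ a.val * (x ^ a'.val * c ^ (a.val * b'.val)) := by rw [c1]
    _ = (y ^ b.val * y ^ b'.val) * (x ^ a.val * x ^ a'.val) * c ^ (a.val * b'.val) := by
        simp only [mul_assoc]
    _ = y ^ (b + b').val * x ^ (a + a').val * pz c (a * b') := by rw [e2, e3, pz_mul hcp]

/-- the common centralizer of `x` and `y` -/
def CC (x y : E) : Subgroup E := Subgroup.centralizer {x} ⊓ Subgroup.centralizer {y}

theorem mem_CC {x y c : E} : c ∈ CC x y ↔ x * c = c * x ∧ y * c = c * y := by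
  unfold CC
  rw [Subgroup.mem_inf, Subgroup.mem_centralizer_iff, Subgroup.mem_centralizer_iff]
  simp

theorem commHom_eq_one_iff (hc : ∀ x y : E, ⁅x, y⁆ ∈ Subgroup.center E) (y g : E) :
    commHomCenter hc y g = 1 ↔ y * g = g * y := by
  rw [← MonoidHom.mem_ker, commHomCenter_ker, Subgroup.mem_centralizer_iff]
  simp

end cls

section cls2

variable {p : ℕ} [Fact p.Prime] {E : Type u} [Group E]

/-- the element with `x * y = y * x * cel x y` -/
def cel (x y : E) : E := x⁻¹ * y⁻¹ * x * y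

theorem cel_spec (x y : E) : x * y = y * x * cel x y := by
  unfold cel
  group

theorem cel_central (hK : K p E) (x y : E) (g : E) : cel x y * g = g * cel x y := by
  have h := hK.comm_mem x⁻¹ y⁻¹
  rw [commutatorElement_def, inv_inv, inv_inv] at h
  exact (Subgroup.mem_center_iff.mp h g).symm

theorem cel_mem_center (hK : K p E) (x y : E) : cel x y ∈ Subgroup.center E := by
  have h := hK.comm_mem x⁻¹ y⁻¹
  rw [commutatorElement_def, inv_inv, inv_inv] at h
  exact h

theorem cel_ne_one {x y : E} (hxy : x * y ≠ y * x) : cel x y ≠ 1 := by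
  intro e
  apply hxy
  have := cel_spec x y
  rw [e, mul_one] at this
  exact this

theorem center_pow (hK : K p E) (a b : Subgroup.center E) (ha : a ≠ 1) : ∃ k : ℕ, b = a ^ k := by
  have hfin : Finite (Subgroup.center E) := Nat.finite_of_card_ne_zero (by
    rw [hK.card_center]; exact (Fact.out : p.Prime).ne_zero)
  have h1 : Subgroup.zpowers a = ⊤ := zpowers_eq_top_of_prime_card hK.card_center ha
  have h2 : b ∈ Subgroup.zpowers a := by rw [h1]; trivial
  rw [← mem_powers_iff_mem_zpowers] at h2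
  obtain ⟨k, hk⟩ := h2
  exact ⟨k, hk.symm⟩

theorem decomp (hK : K p E) {x y : E} (hxy : x * y ≠ y * x) (e : E) :
    ∃ i j : ℕ, (y ^ i * x ^ j)⁻¹ * e ∈ CC x y := by
  have kx := commHom_eq_one_iff hK.comm_mem x
  have ky := commHom_eq_one_iff hK.comm_mem y
  have hxx : commHomCenter hK.comm_mem x x = 1 := (kx x).mpr rfl
  have hyy : commHomCenter hK.comm_mem y y = 1 := (ky y).mpr rfl
  have hyx : commHomCenter hK.comm_mem x y ≠ 1 := fun e => hxy ((kx y).mp e)
  have hxy' : commHomCenter hK.comm_mem y x ≠ 1 := fun e => hxy ((ky x).mp e).symm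
  obtain ⟨i, hi⟩ := center_pow hK _ (commHomCenter hK.comm_mem x e) hyx
  obtain ⟨j, hj⟩ := center_pow hK _ (commHomCenter hK.comm_mem y e) hxy'
  refine ⟨i, j, ?_⟩
  rw [mem_CC, ← kx, ← ky]
  constructor
  · rw [map_mul, map_inv, map_mul, map_pow, map_pow, hxx, one_pow, mul_one, hi, inv_mul_cancel]
  · rw [map_mul, map_inv, map_mul, map_pow, map_pow, hyy, one_pow, one_mul, hj, inv_mul_cancel]

theorem center_CC (hK : K p E) {x y : E} (hxy : x * y ≠ y * x) (d : ↥(CC x y))
    (hd : d ∈ Subgroup.center ↥(CC x y)) : (d : E) ∈ Subgroup.center E := by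
  rw [Subgroup.mem_center_iff]
  intro e
  obtain ⟨i, j, hc⟩ := decomp hK hxy e
  have hdx : Commute x (d : E) := (mem_CC.mp d.2).1
  have hdy : Commute y (d : E) := (mem_CC.mp d.2).2
  have hdw : (y ^ i * x ^ j) * (d : E) = d * (y ^ i * x ^ j) :=
    ((hdy.pow_left i).mul_left (hdx.pow_left j)).eq
  have hdc : ((y ^ i * x ^ j)⁻¹ * e) * (d : E) = d * ((y ^ i * x ^ j)⁻¹ * e) :=
    congrArg Subtype.val (Subgroup.mem_center_iff.mp hd ⟨(y ^ i * x ^ j)⁻¹ * e, hc⟩)
  calc e * d = (y ^ i * x ^ j) * (((y ^ i * x ^ j)⁻¹ * e) * d) := by group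
    _ = (y ^ i * x ^ j) * (d * ((y ^ i * x ^ j)⁻¹ * e)) := by rw [hdc]
    _ = ((y ^ i * x ^ j) * d) * ((y ^ i * x ^ j)⁻¹ * e) := by simp only [mul_assoc]
    _ = (d * (y ^ i * x ^ j)) * ((y ^ i * x ^ j)⁻¹ * e) := by rw [hdw]
    _ = d * e := by group

theorem k_CC (hK : K p E) {x y : E} (hxy : x * y ≠ y * x) : K p ↥(CC x y) := by
  refine ⟨?_, ?_, ?_⟩
  · intro c d
    rw [Subgroup.mem_center_iff]
    intro g
    apply Subtype.ext
    have := Subgroup.mem_center_iff.mp (hK.comm_mem (c : E) (d : E)) (g : E)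
    simpa [commutatorElement_def] using this
  · intro c
    apply Subtype.ext
    simpa using hK.pow_p (c : E)
  · rw [← hK.card_center]
    symm
    apply Nat.card_congr
    exact
      { toFun := fun c => ⟨⟨c.1, mem_CC.mpr ⟨Subgroup.mem_center_iff.mp c.2 x,
            Subgroup.mem_center_iff.mp c.2 y⟩⟩, by
            rw [Subgroup.mem_center_iff]
            intro g
            apply Subtype.ext
            exact Subgroup.mem_center_iff.mp c.2 (g : E)⟩
        invFun := fun d => ⟨d.1.1, center_CC hK hxy d.1 d.2⟩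
        left_inv := fun c => rfl
        right_inv := fun d => rfl }

theorem card_CC [Finite E] (hK : K p E) {x y : E} (hxy : x * y ≠ y * x) :
    Nat.card E = p * p * Nat.card ↥(CC x y) := by
  have kx := commHom_eq_one_iff hK.comm_mem x
  have ky := commHom_eq_one_iff hK.comm_mem y
  have hxx : commHomCenter hK.comm_mem x x = 1 := (kx x).mpr rfl
  have hyy : commHomCenter hK.comm_mem y y = 1 := (ky y).mpr rfl
  have hyx : commHomCenter hK.comm_mem x y ≠ 1 := fun e => hxy ((kx y).mp e)
  have hxy' : commHomCenter hK.comm_mem y x ≠ 1 := fun e => hxy ((ky x).mp e).symm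
  let f : E →* Subgroup.center E × Subgroup.center E :=
    (commHomCenter hK.comm_mem x).prod (commHomCenter hK.comm_mem y)
  have hker : f.ker = CC x y := by
    ext g
    rw [MonoidHom.mem_ker, mem_CC, ← kx, ← ky]
    exact Prod.ext_iff
  have hsurj : Function.Surjective f := by
    rintro ⟨a, b⟩
    obtain ⟨i, hi⟩ := center_pow hK _ a hyx
    obtain ⟨j, hj⟩ := center_pow hK _ b hxy'
    refine ⟨y ^ i * x ^ j, Prod.ext ?_ ?_⟩
    · show commHomCenter hK.comm_mem x (y ^ i * x ^ j) = a
      rw [map_mul, map_pow, map_pow, hxx, one_pow, mul_one, hi]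
    · show commHomCenter hK.comm_mem y (y ^ i * x ^ j) = b
      rw [map_mul, map_pow, map_pow, hyy, one_pow, one_mul, hj]
  have hidx : (CC x y).index = p * p := by
    rw [← hker, Subgroup.index_ker, MonoidHom.range_eq_top.mpr hsurj, Subgroup.card_top,
      Nat.card_prod, hK.card_center]
  rw [← Subgroup.card_mul_index (CC x y), hidx, mul_comm]

theorem sg_comm_CC {x y : E} {c : E} (hc : c ∈ CC x y) (k : ℕ) (q : ZMod p × ZMod p) :
    c * sg x (y ^ k) q = sg x (y ^ k) q * c := by
  have hx : Commute x c := (mem_CC.mp hc).1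
  have hy : Commute y c := (mem_CC.mp hc).2
  exact ((((hy.pow_left k).pow_left q.2.val).mul_left (hx.pow_left q.1.val)).symm).eq

theorem sg_central {x y' z' : E} (hz : ∀ g : E, z' * g = g * z') (hzp : z' ^ p = 1)
    (hz1 : z' ≠ 1) (hrel : x * y' = y' * x * z') (q : ZMod p × ZMod p)
    (h1 : x * sg x y' q = sg x y' q * x) (h2 : y' * sg x y' q = sg x y' q * y') : q = 0 := by
  obtain ⟨a, b⟩ := q
  have hb : b = 0 := by
    apply pz_eq_one hzp hz1
    have e1 := pow_comm_aux hz hrel b.val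
    have e2 : x * (y' ^ b.val * x ^ a.val) = y' ^ b.val * x ^ a.val * x * z' ^ b.val := by
      calc x * (y' ^ b.val * x ^ a.val) = (x * y' ^ b.val) * x ^ a.val := by simp only [mul_assoc]
        _ = y' ^ b.val * x * z' ^ b.val * x ^ a.val := by rw [e1]
        _ = y' ^ b.val * x * (z' ^ b.val * x ^ a.val) := by simp only [mul_assoc]
        _ = y' ^ b.val * x * (x ^ a.val * z' ^ b.val) := by
            rw [(Commute.pow_left (hz (x ^ a.val)) b.val).eq]
        _ = y' ^ b.val * (x * x ^ a.val) * z' ^ b.val := by simp only [mul_assoc]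
        _ = y' ^ b.val * (x ^ a.val * x) * z' ^ b.val := by
            rw [((Commute.refl x).pow_right a.val).eq]
        _ = y' ^ b.val * x ^ a.val * x * z' ^ b.val := by simp only [mul_assoc]
    have h1' : x * (y' ^ b.val * x ^ a.val) = y' ^ b.val * x ^ a.val * x := h1
    rw [e2] at h1'
    exact mul_left_cancel (h1'.trans (mul_one _).symm)
  have ha : a = 0 := by
    apply pz_eq_one hzp hz1
    have e1 := pow_comm hz hrel a.val 1
    rw [pow_one, mul_one] at e1
    have e2 : y' ^ b.val * x ^ a.val * y' = y' * (y' ^ b.val * x ^ a.val) * z' ^ a.val := by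
      calc y' ^ b.val * x ^ a.val * y' = y' ^ b.val * (x ^ a.val * y') := by simp only [mul_assoc]
        _ = y' ^ b.val * (y' * x ^ a.val * z' ^ a.val) := by rw [e1]
        _ = (y' ^ b.val * y') * x ^ a.val * z' ^ a.val := by simp only [mul_assoc]
        _ = (y' * y' ^ b.val) * x ^ a.val * z' ^ a.val := by
            rw [((Commute.refl y').pow_left b.val).eq]
        _ = y' * (y' ^ b.val * x ^ a.val) * z' ^ a.val := by simp only [mul_assoc]
    have h2' : y' * (y' ^ b.val * x ^ a.val) = y' ^ b.val * x ^ a.val * y' := h2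
    rw [e2] at h2'
    exact mul_left_cancel (h2'.symm.trans (mul_one _).symm)
  rw [ha, hb]
  rfl

/-- peeling off a non-commuting pair -/
theorem ext_iso [Finite E] (hK : K p E) {x y : E} (hxy : x * y ≠ y * x) {m : ℕ}
    (φ : HG p m ≃* ↥(CC x y)) : Nonempty (HG p (m + 1) ≃* E) := by
  have hne : NeZero p := ⟨(Fact.out : p.Prime).ne_zero⟩
  -- the image of the central generator
  have hcen : φ (zel p m 1) ∈ Subgroup.center ↥(CC x y) := by
    rw [Subgroup.mem_center_iff]
    intro c
    obtain ⟨c', rfl⟩ := φ.surjective c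
    rw [← map_mul, ← map_mul, zel_central]
  have hz'c := center_CC hK hxy _ hcen
  have hz'1 : ((φ (zel p m 1) : ↥(CC x y)) : E) ≠ 1 := by
    intro e
    have e' : φ (zel p m 1) = 1 := Subtype.ext e
    have e'' : zel p m 1 = 1 := φ.injective (by rw [e', map_one])
    have e3 : (zel p m 1).a = (1 : HG p m).a := by rw [e'']
    have e4 : (1 : ZMod p) = 0 := e3
    exact one_ne_zero e4
  obtain ⟨k, hk⟩ := hK.central_pow (cel_mem_center hK x y) (cel_ne_one hxy) hz'c
  have hz : ∀ g : E, ((φ (zel p m 1) : ↥(CC x y)) : E) * g = g * ((φ (zel p m 1) : ↥(CC x y)) : E) :=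
    fun g => (Subgroup.mem_center_iff.mp hz'c g).symm
  have hrel : x * y ^ k = y ^ k * x * ((φ (zel p m 1) : ↥(CC x y)) : E) := by
    rw [hk]
    exact pow_comm_aux (cel_central hK x y) (cel_spec x y) k
  have hzp := hK.pow_p ((φ (zel p m 1) : ↥(CC x y)) : E)
  have hxp := hK.pow_p x
  have hyp := hK.pow_p (y ^ k)
  let tl : HG p (m + 1) → HG p m := fun g => ⟨fun i => g.v i.succ, g.a⟩
  have htl : ∀ g h : HG p (m + 1),
      tl (g * h) = tl g * tl h * zel p m ((g.v 0).1 * (h.v 0).2) := by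
    intro g h
    apply HG.ext
    · rw [hmul_v, hmul_v]
      show (fun i : Fin m => (g * h).v i.succ)
        = (fun i : Fin m => g.v i.succ) + (fun i : Fin m => h.v i.succ) + 0
      rw [add_zero]
      rfl
    · rw [hmul_a, hmul_a]
      show (g * h).a = g.a + h.a + hb p m (tl g).v (tl h).v + (g.v 0).1 * (h.v 0).2
        + hb p m (tl g * tl h).v 0
      rw [hb_zero_right, add_zero, hmul_a]
      unfold hb
      rw [Fin.sum_univ_succ]
      show g.a + h.a + ((g.v 0).1 * (h.v 0).2 + ∑ i : Fin m, (g.v i.succ).1 * (h.v i.succ).2)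
        = g.a + h.a + (∑ i : Fin m, (g.v i.succ).1 * (h.v i.succ).2) + (g.v 0).1 * (h.v 0).2
      abel
  have hφz : ∀ t : ZMod p, ((φ (zel p m t) : ↥(CC x y)) : E)
      = pz ((φ (zel p m 1) : ↥(CC x y)) : E) t := by
    intro t
    have e : zel p m t = zel p m 1 ^ t.val := by
      rw [zel_pow, ZMod.natCast_zmod_val]
    rw [e, map_pow, Subgroup.coe_pow]
    rfl
  let ψ : HG p (m + 1) → E := fun g => sg x (y ^ k) (g.v 0) * ((φ (tl g) : ↥(CC x y)) : E)
  have hmul : ∀ g h : HG p (m + 1), ψ (g * h) = ψ g * ψ h := by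
    intro g h
    show sg x (y ^ k) ((g * h).v 0) * ((φ (tl (g * h)) : ↥(CC x y)) : E)
      = sg x (y ^ k) (g.v 0) * ((φ (tl g) : ↥(CC x y)) : E)
        * (sg x (y ^ k) (h.v 0) * ((φ (tl h) : ↥(CC x y)) : E))
    have hv : (g * h).v 0 = g.v 0 + h.v 0 := rfl
    rw [htl, map_mul, map_mul, hv, Subgroup.coe_mul, Subgroup.coe_mul, hφz]
    have c1 := sg_comm_CC (p := p) (φ (tl g)).2 k (h.v 0)
    have c2 : pz ((φ (zel p m 1) : ↥(CC x y)) : E) ((g.v 0).1 * (h.v 0).2)
        * (((φ (tl g) : ↥(CC x y)) : E) * ((φ (tl h) : ↥(CC x y)) : E))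
        = (((φ (tl g) : ↥(CC x y)) : E) * ((φ (tl h) : ↥(CC x y)) : E))
          * pz ((φ (zel p m 1) : ↥(CC x y)) : E) ((g.v 0).1 * (h.v 0).2) :=
      (Commute.pow_left (hz _) _).eq
    symm
    calc sg x (y ^ k) (g.v 0) * ((φ (tl g) : ↥(CC x y)) : E)
          * (sg x (y ^ k) (h.v 0) * ((φ (tl h) : ↥(CC x y)) : E))
        = sg x (y ^ k) (g.v 0) * (((φ (tl g) : ↥(CC x y)) : E) * sg x (y ^ k) (h.v 0))
          * ((φ (tl h) : ↥(CC x y)) : E) := by simp only [mul_assoc]
      _ = sg x (y ^ k) (g.v 0) * (sg x (y ^ k) (h.v 0) * ((φ (tl g) : ↥(CC x y)) : E))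
          * ((φ (tl h) : ↥(CC x y)) : E) := by rw [c1]
      _ = (sg x (y ^ k) (g.v 0) * sg x (y ^ k) (h.v 0))
          * (((φ (tl g) : ↥(CC x y)) : E) * ((φ (tl h) : ↥(CC x y)) : E)) := by
          simp only [mul_assoc]
      _ = (sg x (y ^ k) (g.v 0 + h.v 0)
            * pz ((φ (zel p m 1) : ↥(CC x y)) : E) ((g.v 0).1 * (h.v 0).2))
          * (((φ (tl g) : ↥(CC x y)) : E) * ((φ (tl h) : ↥(CC x y)) : E)) := by
          rw [sg_mul hxp hyp hzp hz hrel]
      _ = sg x (y ^ k) (g.v 0 + h.v 0)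
          * (pz ((φ (zel p m 1) : ↥(CC x y)) : E) ((g.v 0).1 * (h.v 0).2)
          * (((φ (tl g) : ↥(CC x y)) : E) * ((φ (tl h) : ↥(CC x y)) : E))) := by
          simp only [mul_assoc]
      _ = sg x (y ^ k) (g.v 0 + h.v 0) * (((φ (tl g) : ↥(CC x y)) : E)
          * ((φ (tl h) : ↥(CC x y)) : E)
          * pz ((φ (zel p m 1) : ↥(CC x y)) : E) ((g.v 0).1 * (h.v 0).2)) := by rw [c2]
  let f : HG p (m + 1) →* E := MonoidHom.mk' ψ hmul
  have hinj : Function.Injective f := by
    rw [injective_iff_map_eq_one]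
    intro g hg
    have hg' : sg x (y ^ k) (g.v 0) * ((φ (tl g) : ↥(CC x y)) : E) = 1 := hg
    have hs : sg x (y ^ k) (g.v 0) = (((φ (tl g) : ↥(CC x y)) : E))⁻¹ :=
      eq_inv_of_mul_eq_one_left hg'
    have hmem : sg x (y ^ k) (g.v 0) ∈ CC x y := by
      rw [hs]; exact (CC x y).inv_mem (φ (tl g)).2
    have hcx : x * sg x (y ^ k) (g.v 0) = sg x (y ^ k) (g.v 0) * x := (mem_CC.mp hmem).1
    have hcy : Commute y (sg x (y ^ k) (g.v 0)) := (mem_CC.mp hmem).2
    have hq := sg_central hz hzp hz'1 hrel (g.v 0) hcx (hcy.pow_left k).eq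
    rw [hq, sg_zero, one_mul] at hg'
    have ht : tl g = 1 := φ.injective (by rw [map_one]; exact Subtype.ext hg')
    have ht1 : ∀ j : Fin m, g.v j.succ = 0 := fun j =>
      congrArg (fun t : HG p m => t.v j) ht
    have ht3 : g.a = 0 := congrArg (fun t : HG p m => t.a) ht
    apply HG.ext
    · funext i
      refine Fin.cases ?_ ?_ i
      · exact hq
      · exact ht1
    · exact ht3
  have hbij : Function.Bijective f := by
    apply hinj.bijective_of_nat_card_le
    rw [card_CC hK hxy, ← Nat.card_congr φ.toEquiv, card_hg, card_hg]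
    apply le_of_eq
    ring
  exact ⟨MulEquiv.ofBijective f hbij⟩

/-- classification: every group of the class is a Heisenberg model -/
theorem classify : ∀ (N : ℕ) (E : Type u) [Group E] [Finite E], K p E → Nat.card E = N →
    ∃ m : ℕ, Nonempty (HG p m ≃* E) := by
  intro N
  induction N using Nat.strong_induction_on with
  | _ N ih =>
    intro E _ _ hK hN
    by_cases hab : ∀ x y : E, x * y = y * x
    · have htop : Subgroup.center E = ⊤ := by
        rw [Subgroup.eq_top_iff']
        intro g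
        rw [Subgroup.mem_center_iff]
        intro k
        exact hab k g
      have hcard : Nat.card E = p := by
        rw [← hK.card_center, htop, Subgroup.card_top]
      exact ⟨0, ⟨mulEquivOfPrimeCardEq (by rw [card_hg]; simp) hcard⟩⟩
    · push Not at hab
      obtain ⟨x, y, hxy⟩ := hab
      have hC := k_CC hK hxy
      have hcard := card_CC hK hxy
      have hp2 : 2 ≤ p := (Fact.out : p.Prime).two_le
      have hpos : 0 < Nat.card ↥(CC x y) := Nat.card_pos
      have hlt : Nat.card ↥(CC x y) < N := by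
        rw [← hN, hcard]
        have h4 : 4 ≤ p * p := by nlinarith
        have h5 : 4 * Nat.card ↥(CC x y) ≤ p * p * Nat.card ↥(CC x y) :=
          Nat.mul_le_mul_right _ h4
        omega
      obtain ⟨m, ⟨φ⟩⟩ := ih _ hlt ↥(CC x y) hC rfl
      exact ⟨m + 1, ext_iso hK hxy φ⟩

end cls2

theorem k_of_extraspecial {E : Type u} [Group E] [Finite E] {p : ℕ} [Fact p.Prime]
    (h : Cfsg.IsExtraspecial p E) (he : Monoid.exponent E = p) : K p E := by
  refine ⟨?_, ?_, h.2⟩
  · intro x y
    rw [← h.1.2.2, commutator_def]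
    exact Subgroup.commutator_mem_commutator (Subgroup.mem_top x) (Subgroup.mem_top y)
  · intro x
    rw [← he]
    exact Monoid.pow_exponent_eq_one x

/-- For odd p, extraspecial p-groups of exponent p are determined up to isomorphism by their order. -/
theorem result {E₁ : Type*} {E₂ : Type*} [Group E₁] [Group E₂] [Finite E₁] [Finite E₂] {p : ℕ} [Fact p.Prime] (hp : p ≠ 2) (h₁ : Cfsg.IsExtraspecial p E₁) (h₂ : Cfsg.IsExtraspecial p E₂) (he₁ : Monoid.exponent E₁ = p) (he₂ : Monoid.exponent E₂ = p) (hc : Nat.card E₁ = Nat.card E₂) : Nonempty (E₁ ≃* E₂) := by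
  obtain ⟨m1, ⟨e1⟩⟩ := classify (Nat.card E₁) E₁ (k_of_extraspecial h₁ he₁) rfl
  obtain ⟨m2, ⟨e2⟩⟩ := classify (Nat.card E₂) E₂ (k_of_extraspecial h₂ he₂) rfl
  have c1 := Nat.card_congr e1.toEquiv
  have c2 := Nat.card_congr e2.toEquiv
  rw [card_hg] at c1 c2
  have hm : m1 = m2 := by
    have h : p ^ (2 * m1 + 1) = p ^ (2 * m2 + 1) := by rw [c1, c2, hc]
    have h' := Nat.pow_right_injective (Fact.out : p.Prime).two_le h
    omega
  subst hm
  exact ⟨e1.symm.trans e2⟩

end Cfsg.Agent.S0098
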