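import Cfsg.Statements.S0099
import Cfsg.Agent.H91.ES2Class

set_option autoImplicit false
open Cfsg

namespace Cfsg.Agent.S0099

open Cfsg.Agent.S5396 Cfsg.Agent.S3763 Cfsg.Agent.H91

/-- Among three extraspecial 2-groups of equal order, some two are isomorphic. -/
theorem result {E₁ : Type*} {E₂ : Type*} {E₃ : Type*} [Group E₁] [Group E₂] [Group E₃] [Finite E₁] [Finite E₂] [Finite E₃] (h₁ : Cfsg.IsExtraspecial 2 E₁) (h₂ : Cfsg.IsExtraspecial 2 E₂) (h₃ : Cfsg.IsExtraspecial 2 E₃) (h12 : Nat.card E₁ = Nat.card E₂) (h23 : Nat.card E₂ = Nat.card E₃) : Nonempty (E₁ ≃* E₂) ∨ Nonempty (E₂ ≃* E₃) ∨ Nonempty (E₁ ≃* E₃) := by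
  obtain ⟨m1, s1, ⟨e1⟩⟩ := es_classify h₁
  obtain ⟨m2, s2, ⟨e2⟩⟩ := es_classify h₂
  obtain ⟨m3, s3, ⟨e3⟩⟩ := es_classify h₃
  have c1 := Nat.card_congr e1.toEquiv
  have c2 := Nat.card_congr e2.toEquiv
  have c3 := Nat.card_congr e3.toEquiv
  rw [card_esg] at c1 c2 c3
  have hm12 : m1 = m2 := by
    have h : 2 ^ (2 * (m1 + 1) + 1) = 2 ^ (2 * (m2 + 1) + 1) := by rw [c1, c2, h12]
    have h' := Nat.pow_right_injective (le_refl 2) h
    omega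
  have hm23 : m2 = m3 := by
    have h : 2 ^ (2 * (m2 + 1) + 1) = 2 ^ (2 * (m3 + 1) + 1) := by rw [c2, c3, h23]
    have h' := Nat.pow_right_injective (le_refl 2) h
    omega
  subst hm12
  subst hm23
  rcases z2_cases s1 with rfl | rfl <;> rcases z2_cases s2 with rfl | rfl <;>
    rcases z2_cases s3 with rfl | rfl
  · exact Or.inl ⟨e1.symm.trans e2⟩
  · exact Or.inl ⟨e1.symm.trans e2⟩
  · exact Or.inr (Or.inr ⟨e1.symm.trans e3⟩)
  · exact Or.inr (Or.inl ⟨e2.symm.trans e3⟩)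
  · exact Or.inr (Or.inl ⟨e2.symm.trans e3⟩)
  · exact Or.inr (Or.inr ⟨e1.symm.trans e3⟩)
  · exact Or.inl ⟨e1.symm.trans e2⟩
  · exact Or.inl ⟨e1.symm.trans e2⟩

end Cfsg.Agent.S0099
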