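import Cfsg.Statements.S0101
import Cfsg.Agent.H3.PGroup

set_option autoImplicit false
open Cfsg

namespace Cfsg.Agent.S0101

/-- In a perfect central extension, the kernel meets each Sylow p-subgroup P inside the Frattini subgroup of P. -/
theorem result {H : Type*} {G : Type*} [Group H] [Group G] [Finite H] (σ : H →* G) (hσ : Function.Surjective σ) (hc : σ.ker ≤ Subgroup.center H) (hH : commutator H = ⊤) {p : ℕ} [Fact p.Prime] (P : Sylow p H) : σ.ker ⊓ (P : Subgroup H) ≤ (frattini P).map (P : Subgroup H).subtype := by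
  rintro z ⟨hzk, hzP⟩
  have hzZ : z ∈ Subgroup.center H := hc hzk
  have key : ∀ (k : ℕ) (g₀ : H), g₀⁻¹ * z ^ k * g₀ ∈ (P : Subgroup H) → g₀⁻¹ * z ^ k * g₀ = z ^ k := by
    intro k g₀ _
    have hzk : z ^ k ∈ Subgroup.center H := Subgroup.pow_mem _ hzZ k
    have := (Subgroup.mem_center_iff.mp hzk) g₀
    rw [mul_assoc, ← this, inv_mul_cancel_left]
  let ϕ : (P : Subgroup H) →* Abelianization (P : Subgroup H) := Abelianization.of
  have h1 := MonoidHom.transfer_eq_pow ϕ z key
  have h2 : MonoidHom.transfer ϕ z = 1 := by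
    have : z ∈ commutator H := by rw [hH]; trivial
    exact Abelianization.commutator_subset_ker (MonoidHom.transfer ϕ) this
  rw [h2] at h1
  have h3 : (⟨z ^ (P : Subgroup H).index, MonoidHom.transfer_eq_pow_aux z key⟩ : (P : Subgroup H)) ∈ commutator (P : Subgroup H) := by
    rw [← Abelianization.ker_of, MonoidHom.mem_ker]
    exact h1.symm
  have h4 : (⟨z, hzP⟩ : (P : Subgroup H)) ^ (P : Subgroup H).index ∈ commutator (P : Subgroup H) := h3
  have hQ : IsPGroup p ((P : Subgroup H) ⧸ commutator (P : Subgroup H)) := P.2.to_quotient _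
  have h5 : ((⟨z, hzP⟩ : (P : Subgroup H)) : (P : Subgroup H) ⧸ commutator (P : Subgroup H)) = 1 := by
    apply (hQ.powEquiv' P.not_dvd_index).injective
    simp only [IsPGroup.powEquiv_apply, one_pow]
    rw [← QuotientGroup.mk_pow]
    exact (QuotientGroup.eq_one_iff _).mpr h4
  have h6 : (⟨z, hzP⟩ : (P : Subgroup H)) ∈ commutator (P : Subgroup H) := (QuotientGroup.eq_one_iff _).mp h5
  have h7 : (⟨z, hzP⟩ : (P : Subgroup H)) ∈ frattini (P : Subgroup H) :=
    Cfsg.Agent.H3.commutator_le_frattini P.2 h6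
  exact Subgroup.mem_map.mpr ⟨⟨z, hzP⟩, h7, rfl⟩

end Cfsg.Agent.S0101
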