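import Cfsg.Statements.S0102
import Cfsg.Agent.S0088

set_option autoImplicit false
open Cfsg

namespace Cfsg.Agent.S0102

/-- A finite perfect group with cyclic Sylow p-subgroups has no perfect central extension whose kernel has order divisible by p. -/
theorem result {G : Type*} {H : Type*} [Group G] [Group H] [Finite G] [Finite H] (hG : commutator G = ⊤) {p : ℕ} [Fact p.Prime] (hcyc : ∀ P : Sylow p G, IsCyclic P) (σ : H →* G) (hσ : Function.Surjective σ) (hz : σ.ker ≤ Subgroup.center H) (hH : commutator H = ⊤) : ¬ p ∣ Nat.card σ.ker := by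
  intro hdvd
  obtain ⟨w, hw⟩ := exists_prime_orderOf_dvd_card' p hdvd
  have hwo : orderOf (w : H) = p := by rw [Subgroup.orderOf_coe]; exact hw
  have hpg : IsPGroup p (Subgroup.zpowers (w : H)) := by
    apply IsPGroup.of_card (n := 1)
    rw [Nat.card_zpowers, hwo, pow_one]
  obtain ⟨P, hP⟩ := hpg.exists_le_sylow
  have hwP : (w : H) ∈ (P : Subgroup H) := hP (Subgroup.mem_zpowers _)
  -- the image of P in G is a p-subgroup, contained in a cyclic Sylow subgroup
  have himg : IsPGroup p ((P : Subgroup H).map σ) := P.2.map σ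
  obtain ⟨Q, hQ⟩ := himg.exists_le_sylow
  haveI : IsCyclic (Q : Subgroup G) := hcyc Q
  let f : (P : Subgroup H) →* (Q : Subgroup G) :=
    (σ.comp (P : Subgroup H).subtype).codRestrict (Q : Subgroup G)
      (fun x => hQ (Subgroup.mem_map.mpr ⟨x, x.2, rfl⟩))
  have hf : f.ker ≤ Subgroup.center (P : Subgroup H) := by
    intro x hx
    rw [MonoidHom.mem_ker] at hx
    have hx' : σ (x : H) = 1 := by
      have := congrArg Subtype.val hx
      simpa [f] using this
    have hxZ : (x : H) ∈ Subgroup.center H := hz (MonoidHom.mem_ker.mpr hx')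
    rw [Subgroup.mem_center_iff]
    intro y
    apply Subtype.ext
    exact (Subgroup.mem_center_iff.mp hxZ) (y : H)
  have hcomm : IsMulCommutative (P : Subgroup H) :=
    MonoidHom.isMulCommutative_of_isCyclic_of_ker_le_center f hf
  have h1 := Cfsg.Agent.S0088.result (P : Subgroup H) hcomm P.card_coprime_index
  have h2 : (w : H) ∈ (P : Subgroup H) ⊓ commutator H ⊓ Subgroup.center H :=
    ⟨⟨hwP, by rw [hH]; trivial⟩, hz w.2⟩
  rw [h1, Subgroup.mem_bot] at h2
  rw [h2, orderOf_one] at hwo
  exact (Fact.out : p.Prime).one_lt.ne hwo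

end Cfsg.Agent.S0102
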