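import Cfsg.Statements.S0104

set_option autoImplicit false
open Cfsg

namespace Cfsg.Agent.S0104

open scoped Pointwise

theorem mem_smul_sylow {G : Type*} [Group G] {p : ℕ} (P : Sylow p G) (g x : G) :
    x ∈ ((g • P : Sylow p G) : Subgroup G) ↔ g⁻¹ * x * g ∈ (P : Subgroup G) := by
  rw [Sylow.coe_subgroup_smul, Subgroup.mem_pointwise_smul_iff_inv_smul_mem]
  simp [MulAut.smul_def]

/-- A subgroup Z of a Sylow p-subgroup P that is normalized by N_G(P) is weakly closed in P exactly when it is normal in every Sylow p-subgroup containing it. -/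
theorem result {G : Type*} [Group G] [Finite G] {p : ℕ} [Fact p.Prime] (P : Sylow p G) (Z : Subgroup G) (hZP : Z ≤ (P : Subgroup G)) (hZN : Subgroup.normalizer (P : Set G) ≤ Subgroup.normalizer (Z : Set G)) : Cfsg.IsWeaklyClosed Z P ↔ ∀ R : Sylow p G, Z ≤ (R : Subgroup G) → (R : Subgroup G) ≤ Subgroup.normalizer (Z : Set G) := by
  have hPN : (P : Subgroup G) ≤ Subgroup.normalizer (Z : Set G) :=
    le_trans (Subgroup.le_normalizer (H := (P : Subgroup G))) hZN
  constructor
  · rintro ⟨-, hw⟩ R hZR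
    obtain ⟨g, rfl⟩ := MulAction.exists_smul_eq G P R
    have h1 : Z.map (MulAut.conj g⁻¹).toMonoidHom ≤ (P : Subgroup G) := by
      rintro _ ⟨z, hz, rfl⟩
      have := (mem_smul_sylow P g z).mp (hZR hz)
      simpa using this
    have h2 := hw g⁻¹ h1
    have hg : g⁻¹ ∈ Subgroup.normalizer (Z : Set G) :=
      Subgroup.mem_normalizer_iff_map_conj_eq.mpr h2
    have hg' : g ∈ Subgroup.normalizer (Z : Set G) := by simpa using inv_mem hg
    intro r hr
    have h3 := (mem_smul_sylow P g r).mp hr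
    have h4 : g⁻¹ * r * g ∈ Subgroup.normalizer (Z : Set G) := hPN h3
    have h5 : g * (g⁻¹ * r * g) * g⁻¹ ∈ Subgroup.normalizer (Z : Set G) :=
      mul_mem (mul_mem hg' h4) hg
    have h6 : g * (g⁻¹ * r * g) * g⁻¹ = r := by group
    rwa [h6] at h5
  · intro h
    refine ⟨hZP, fun g hg => ?_⟩
    have hZR : Z ≤ ((g⁻¹ • P : Sylow p G) : Subgroup G) := by
      intro z hz
      rw [mem_smul_sylow]
      have : g * z * g⁻¹ ∈ (P : Subgroup G) := hg (Subgroup.mem_map.mpr ⟨z, hz, rfl⟩)
      simpa using this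
    have hRN := h (g⁻¹ • P) hZR
    obtain ⟨n, hn⟩ := MulAction.exists_smul_eq (Subgroup.normalizer (Z : Set G))
      (P.subtype hPN) ((g⁻¹ • P : Sylow p G).subtype hRN)
    rw [Sylow.smul_subtype] at hn
    have hn' : (n : G) • P = g⁻¹ • P := Sylow.subtype_injective hn
    have h7 : (g * (n : G)) • P = P := by
      rw [mul_smul, hn', smul_inv_smul]
    have h8 : g * (n : G) ∈ Subgroup.normalizer (Z : Set G) :=
      hZN (Sylow.smul_eq_iff_mem_normalizer.mp h7)
    have h9 : g ∈ Subgroup.normalizer (Z : Set G) := by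
      have := mul_mem h8 (inv_mem n.2)
      simpa using this
    exact Subgroup.mem_normalizer_iff_map_conj_eq.mp h9

end Cfsg.Agent.S0104
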