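import Cfsg.Statements.S0107
import Cfsg.Agent.S0111

set_option autoImplicit false
open Cfsg

namespace Cfsg.Agent.S0107

open scoped Pointwise

theorem mem_smul_sylow {G : Type*} [Group G] {p : ℕ} (P : Sylow p G) (g x : G) :
    x ∈ ((g • P : Sylow p G) : Subgroup G) ↔ g⁻¹ * x * g ∈ (P : Subgroup G) := by
  rw [Sylow.coe_subgroup_smul, Subgroup.mem_pointwise_smul_iff_inv_smul_mem]
  simp [MulAut.smul_def]

/-- A rotation of order two in the dihedral group of order `2 * 2 ^ n` is the central one. -/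
theorem rot_involution (n : ℕ) (hn : 1 ≤ n) (i : ZMod (2 ^ n))
    (h2 : orderOf (DihedralGroup.r i) = 2) : i = ((2 ^ (n - 1) : ℕ) : ZMod (2 ^ n)) := by
  have : NeZero (2 ^ n) := ⟨by positivity⟩
  have hpow : (DihedralGroup.r i) ^ 2 = 1 := by
    have := pow_orderOf_eq_one (DihedralGroup.r i)
    rwa [h2] at this
  rw [DihedralGroup.r_pow, DihedralGroup.one_def] at hpow
  have hi2 : i * ((2 : ℕ) : ZMod (2 ^ n)) = 0 := DihedralGroup.r.inj hpow
  have hi0 : i ≠ 0 := by
    rintro rfl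
    rw [DihedralGroup.r_zero, orderOf_one] at h2
    omega
  have hval : ((i.val * 2 : ℕ) : ZMod (2 ^ n)) = 0 := by
    rw [Nat.cast_mul, ZMod.natCast_zmod_val]; exact hi2
  rw [ZMod.natCast_eq_zero_iff] at hval
  have hlt : i.val < 2 ^ n := ZMod.val_lt i
  have hne : i.val ≠ 0 := by
    intro h0
    exact hi0 ((ZMod.val_eq_zero i).mp h0)
  have e : 2 ^ n = 2 ^ (n - 1) * 2 := by
    rw [← pow_succ]; congr 1; omega
  have hval' : 2 ^ (n - 1) * 2 ∣ i.val * 2 := (dvd_of_eq e.symm).trans hval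
  have hlt' : i.val < 2 ^ (n - 1) * 2 := lt_of_lt_of_eq hlt e
  have hdvd : 2 ^ (n - 1) ∣ i.val := Nat.dvd_of_mul_dvd_mul_right (by norm_num) hval'
  obtain ⟨c, hc⟩ := hdvd
  have hc1 : c = 1 := by
    rw [hc] at hlt'
    have hpos : 0 < 2 ^ (n - 1) := by positivity
    have : c < 2 := by
      by_contra hcon
      have : 2 ^ (n - 1) * 2 ≤ 2 ^ (n - 1) * c := Nat.mul_le_mul_left _ (by omega)
      omega
    have : c ≠ 0 := by
      rintro rfl
      rw [mul_zero] at hc
      exact hne hc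
    omega
  rw [hc1, mul_one] at hc
  have h3 : i = ((i.val : ℕ) : ZMod (2 ^ n)) := (ZMod.natCast_zmod_val i).symm
  rw [h3, hc]

/-- A finite group with no nontrivial 2-group quotient and dihedral Sylow 2-subgroups of order at least 8 has a single class of involutions. -/
theorem result {G : Type*} [Group G] [Finite G] (T : Sylow 2 G) (n : ℕ) (hn : 2 ≤ n) (hT : Nonempty ((T : Subgroup G) ≃* DihedralGroup (2 ^ n))) (hO : Cfsg.pResidual 2 G = ⊤) (x y : G) (hx : orderOf x = 2) (hy : orderOf y = 2) : ∃ g : G, g * x * g⁻¹ = y := by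
  have : Fact (Nat.Prime 2) := ⟨Nat.prime_two⟩
  have : NeZero (2 ^ n) := ⟨by positivity⟩
  obtain ⟨φ⟩ := hT
  -- no normal subgroup of index two
  have hno : ∀ M : Subgroup G, M.Normal → M.index ≠ 2 := by
    intro M _ hM
    have hle : Cfsg.pResidual 2 G ≤ M := by
      show Subgroup.closure {g : G | Nat.Coprime (orderOf g) 2} ≤ M
      rw [Subgroup.closure_le]
      intro g hg
      have hodd : Odd (orderOf g) := by
        rw [← Nat.not_even_iff_odd, even_iff_two_dvd]
        intro h2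
        have : (2 : ℕ) ∣ Nat.gcd (orderOf g) 2 := Nat.dvd_gcd h2 dvd_rfl
        have hg' : Nat.gcd (orderOf g) 2 = 1 := hg
        rw [hg'] at this
        omega
      obtain ⟨k, hk⟩ := hodd
      have h1 : g ^ 2 ∈ M := Subgroup.sq_mem_of_index_two hM g
      have h2 : (g ^ 2) ^ (k + 1) ∈ M := Subgroup.pow_mem _ h1 _
      have h3 : (g ^ 2) ^ (k + 1) = g := by
        rw [← pow_mul, show 2 * (k + 1) = orderOf g + 1 by omega, pow_succ, pow_orderOf_eq_one,
          one_mul]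
      rw [h3] at h2
      exact h2
    rw [hO, top_le_iff] at hle
    rw [hle, Subgroup.index_top] at hM
    omega
  -- the rotation subgroup
  set Q₀ : Subgroup (T : Subgroup G) :=
    (Subgroup.zpowers (DihedralGroup.r (1 : ZMod (2 ^ n)))).comap φ.toMonoidHom with hQ₀
  have hQ₀idx : Q₀.index = 2 := by
    rw [hQ₀, Subgroup.index_comap_of_surjective _ φ.surjective]
    have h1 : Nat.card (Subgroup.zpowers (DihedralGroup.r (1 : ZMod (2 ^ n)))) = 2 ^ n := by
      rw [Nat.card_zpowers, DihedralGroup.orderOf_r_one]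
    have h2 := Subgroup.card_mul_index (Subgroup.zpowers (DihedralGroup.r (1 : ZMod (2 ^ n))))
    rw [h1, DihedralGroup.nat_card] at h2
    have hpos : 0 < 2 ^ n := by positivity
    have : 2 ^ n * (Subgroup.zpowers (DihedralGroup.r (1 : ZMod (2 ^ n)))).index = 2 ^ n * 2 := by
      rw [h2]; ring
    exact Nat.eq_of_mul_eq_mul_left hpos this
  set Q : Subgroup G := Q₀.map (T : Subgroup G).subtype with hQ
  have hQT : Q ≤ (T : Subgroup G) := by
    rintro _ ⟨w, -, rfl⟩
    exact w.2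
  have hQi : Q.relIndex (T : Subgroup G) = 2 := by
    have : Q.subgroupOf (T : Subgroup G) = Q₀ :=
      Subgroup.comap_map_eq_self_of_injective (Subgroup.subtype_injective _) Q₀
    rw [Subgroup.relIndex, this, hQ₀idx]
  let z₀ : DihedralGroup (2 ^ n) := DihedralGroup.r ((2 ^ (n - 1) : ℕ) : ZMod (2 ^ n))
  -- an involution of T mapping to a rotation is the central one
  have hB : ∀ w : (T : Subgroup G), ∀ j : ZMod (2 ^ n), φ w = DihedralGroup.r j →
      orderOf (w : G) = 2 → w = φ.symm z₀ := by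
    intro w j hw ho
    have h1 : orderOf (φ w) = 2 := by
      rw [MulEquiv.orderOf_eq, Subgroup.orderOf_coe] at *; exact ho
    rw [hw] at h1
    have := rot_involution n (by omega) j h1
    rw [this] at hw
    apply φ.injective
    rw [MulEquiv.apply_symm_apply]
    exact hw
  -- every involution of T is conjugate to the central one
  have hA : ∀ u : G, u ∈ (T : Subgroup G) → orderOf u = 2 →
      ∃ g : G, g * u * g⁻¹ = ((φ.symm z₀ : (T : Subgroup G)) : G) := by
    intro u hu ho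
    rcases hφ : φ ⟨u, hu⟩ with j | j
    · refine ⟨1, ?_⟩
      have := hB ⟨u, hu⟩ j hφ ho
      rw [← this]; simp
    · have huQ : u ∉ Q := by
        rintro ⟨w, hw, hwu⟩
        have hw' : w = ⟨u, hu⟩ := Subtype.ext hwu
        rw [hw'] at hw
        have hw2 : φ ⟨u, hu⟩ ∈ Subgroup.zpowers (DihedralGroup.r (1 : ZMod (2 ^ n))) := hw
        rw [hφ] at hw2
        obtain ⟨k, hk⟩ := hw2
        simp only [DihedralGroup.r_one_zpow] at hk
        cases hk
      rcases Cfsg.Agent.S0111.result T Q hQT hQi u ho hu huQ with ⟨M, hMn, hMi, -⟩ | ⟨g, hg⟩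
      · exact absurd hMi (hno M hMn)
      · obtain ⟨w, hw, hwu⟩ := hg
        have hw2 : φ w ∈ Subgroup.zpowers (DihedralGroup.r (1 : ZMod (2 ^ n))) := hw
        obtain ⟨k, hk⟩ := hw2
        simp only [DihedralGroup.r_one_zpow] at hk
        have ho' : orderOf (w : G) = 2 := by
          have e : ((T : Subgroup G).subtype w : G) = (MulAut.conj g) u := by
            rw [hwu]; simp [MulAut.conj_apply]
          have : (w : G) = (MulAut.conj g) u := e
          rw [this, MulEquiv.orderOf_eq]; exact ho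
        have := hB w _ hk.symm ho'
        refine ⟨g, ?_⟩
        rw [← this]; exact hwu.symm
  -- every involution of G is conjugate into T
  have hC : ∀ v : G, orderOf v = 2 → ∃ g : G, g * v * g⁻¹ ∈ (T : Subgroup G) ∧
      orderOf (g * v * g⁻¹) = 2 := by
    intro v hv
    have hpg : IsPGroup 2 (Subgroup.zpowers v) := by
      apply IsPGroup.of_card (n := 1)
      rw [Nat.card_zpowers, hv, pow_one]
    obtain ⟨T', hT'⟩ := hpg.exists_le_sylow
    obtain ⟨g, hg⟩ := MulAction.exists_smul_eq G T' T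
    refine ⟨g, ?_, ?_⟩
    · rw [← hg, mem_smul_sylow]
      have : g⁻¹ * (g * v * g⁻¹) * g = v := by group
      rw [this]
      exact hT' (Subgroup.mem_zpowers v)
    · have : g * v * g⁻¹ = (MulAut.conj g) v := by simp [MulAut.conj_apply]
      rw [this, MulEquiv.orderOf_eq]; exact hv
  obtain ⟨g₁, hg₁, ho₁⟩ := hC x hx
  obtain ⟨g₂, hg₂⟩ := hA _ hg₁ ho₁
  obtain ⟨h₁, hh₁, hp₁⟩ := hC y hy
  obtain ⟨h₂, hh₂⟩ := hA _ hh₁ hp₁
  refine ⟨(h₂ * h₁)⁻¹ * (g₂ * g₁), ?_⟩
  have e1 : g₂ * g₁ * x * (g₂ * g₁)⁻¹ = h₂ * h₁ * y * (h₂ * h₁)⁻¹ := by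
    have a1 : g₂ * g₁ * x * (g₂ * g₁)⁻¹ = g₂ * (g₁ * x * g₁⁻¹) * g₂⁻¹ := by group
    have a2 : h₂ * h₁ * y * (h₂ * h₁)⁻¹ = h₂ * (h₁ * y * h₁⁻¹) * h₂⁻¹ := by group
    rw [a1, a2, hg₂, hh₂]
  calc (h₂ * h₁)⁻¹ * (g₂ * g₁) * x * ((h₂ * h₁)⁻¹ * (g₂ * g₁))⁻¹
      = (h₂ * h₁)⁻¹ * (g₂ * g₁ * x * (g₂ * g₁)⁻¹) * (h₂ * h₁) := by group
    _ = (h₂ * h₁)⁻¹ * (h₂ * h₁ * y * (h₂ * h₁)⁻¹) * (h₂ * h₁) := by rw [e1]
    _ = y := by group

end Cfsg.Agent.S0107
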