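import Mathlib
import Cfsg.Statements.S0109
import Cfsg.Agent.H58.SolvFact

set_option autoImplicit false
open Cfsg

namespace Cfsg.Agent.S0109

/-- The Thompson factorization Theorem for solvable groups states that, with p odd (and abelian Sylow 2-subgroups when p = 3) and no nontrivial normal subgroup of order prime to p, every element of G is a product of an element normalizing J(P) and an element centralizing the elements of order dividing p in the centre of P. -/
theorem result {G : Type*} [Group G] [Finite G] {p : ℕ} [Fact p.Prime] (hp : p ≠ 2) (hs : Group.IsSolvable G) (h3 : p = 3 → ∀ T : Sylow 2 G, IsMulCommutative T) (hF : ∀ N : Subgroup G, N.Normal → Nat.Coprime (Nat.card N) p → N = ⊥) (P : Sylow p G) (g : G) : ∃ a ∈ Subgroup.normalizer (Cfsg.thompsonSubgroupOf p (P : Subgroup G) : Set G), ∃ c ∈ Subgroup.centralizer {x : G | x ∈ (P : Subgroup G) ∧ (∀ y ∈ (P : Subgroup G), x * y = y * x) ∧ x ^ p = 1}, g = a * c := by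
  have hO : pPrimeCore p G = ⊥ := hF _ inferInstance (Cfsg.Agent.H14.pPrimeCore_coprime p G)
  have hJ := Cfsg.Agent.H58.thompson_le_centralizer_of_solvable hp hs h3 hO
  obtain ⟨c, hc, n, hn, hg⟩ := Cfsg.Agent.H14.factorizable_of_thompson_le_centralizer hJ P g⁻¹
  refine ⟨n⁻¹, inv_mem hn, c⁻¹, ?_, ?_⟩
  · apply inv_mem
    rw [Subgroup.mem_centralizer_iff]
    rintro x ⟨hxP, hxc, hxp⟩
    have hxV : x ∈ Cfsg.Agent.H14.sylowCenterV p G := by
      unfold Cfsg.Agent.H14.sylowCenterV
      refine Subgroup.mem_iSup_of_mem P ?_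
      unfold omegaOne
      apply Subgroup.subset_closure
      exact ⟨Subgroup.mem_inf.mpr ⟨hxP, Subgroup.mem_centralizer_iff.mpr
        (fun y hy => (hxc y hy).symm)⟩, hxp⟩
    exact Subgroup.mem_centralizer_iff.mp hc x hxV
  · rw [← inv_inv g, hg]; group

end Cfsg.Agent.S0109
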