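import Cfsg.Statements.S0117
import Cfsg.Agent.H58.GTe

set_option autoImplicit false
open Cfsg

namespace Cfsg.Agent.S0117

/-- The Glauberman–Thompson Theorem states that for odd p, a single p-local subgroup, the normalizer of the centre of the Thompson subgroup of a Sylow p-subgroup, decides whether G has a normal p-complement. -/
theorem result {G : Type*} [Group G] [Finite G] {p : ℕ} [Fact p.Prime] (hp : p ≠ 2) (P : Sylow p G) : Cfsg.HasNormalPComplement p G ↔ Cfsg.HasNormalPComplement p (Subgroup.normalizer (Cfsg.centerThompsonOf p (P : Subgroup G) : Set G)) := by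
  constructor
  · intro h
    exact Cfsg.Agent.H67.hnpc_of_injective (Subgroup.subtype _) (Subgroup.subtype_injective _) h
  · intro h
    rw [Cfsg.Agent.H58.centerThompsonOf_eq_cJ] at h
    exact Cfsg.Agent.H58.glauberman_thompson_e hp p (Or.inr rfl) P (P : Subgroup G)
      (Cfsg.Agent.H29.isStronglyClosed_self _) h

end Cfsg.Agent.S0117
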