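import Cfsg.Statements.S0120
import Cfsg.Agent.H3.OmegaAut

set_option autoImplicit false
open Cfsg

namespace Cfsg.Agent.S0120

/-- For odd p, a p'-automorphism of a p-group acting trivially on the elements of order dividing p is trivial. -/
theorem result {G : Type*} [Group G] [Finite G] {p : ℕ} [Fact p.Prime] (hp : p ≠ 2) (hG : IsPGroup p G) (a : MulAut G) (ha : Nat.Coprime (orderOf a) p) (h : ∀ x : G, x ^ p = 1 → a x = x) : a = 1 := by
  exact Cfsg.Agent.H3.coprime_aut_trivial_of_omega hp hG a ha h

end Cfsg.Agent.S0120
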