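import Cfsg.Statements.S0121

set_option autoImplicit false
open Cfsg

namespace Cfsg.Agent.S0121

/-- A p'-automorphism of a p-group acting trivially on a critical subgroup is trivial. -/
theorem result {G : Type*} [Group G] [Finite G] {p : ℕ} [Fact p.Prime] (hG : IsPGroup p G) (H : Subgroup G) (hH : H.Characteristic) (h1 : (frattini H).map H.subtype ≤ Subgroup.centralizer (H : Set G)) (h2 : ⁅H, (⊤ : Subgroup G)⁆ ≤ H ⊓ Subgroup.centralizer (H : Set G)) (h3 : Subgroup.centralizer (H : Set G) ≤ H) (a : MulAut G) (ha : Nat.Coprime (orderOf a) p) (h : ∀ x ∈ H, a x = x) : a = 1 := by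
  have hn : H.Normal := inferInstance
  ext g
  show a g = g
  set w := g⁻¹ * a g with hw
  have hwC : w ∈ Subgroup.centralizer (H : Set G) := by
    rw [Subgroup.mem_centralizer_iff]
    intro x hx
    have hx' : g * x * g⁻¹ ∈ H := hn.conj_mem x hx g
    have e1 := h _ hx'
    rw [map_mul, map_mul, h x hx, map_inv] at e1
    -- e1 : a g * x * (a g)⁻¹ = g * x * g⁻¹
    have e2 : a g * x = g * x * g⁻¹ * a g := by
      rw [← e1]; group
    rw [hw]
    calc x * (g⁻¹ * a g) = g⁻¹ * (g * x * g⁻¹ * a g) := by group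
      _ = g⁻¹ * (a g * x) := by rw [e2]
      _ = g⁻¹ * a g * x := by group
  have hwH : w ∈ H := h3 hwC
  have haw : a w = w := h w hwH
  have hag : a g = g * w := by rw [hw]; group
  have hpow : ∀ k : ℕ, (a ^ k) g = g * w ^ k := by
    intro k
    induction k with
    | zero => simp
    | succ k ih =>
      rw [pow_succ', MulAut.mul_apply, ih, map_mul, map_pow, haw, hag, pow_succ', mul_assoc]
  have hk := hpow (orderOf a)
  rw [pow_orderOf_eq_one, MulAut.one_apply] at hk
  have hwk : w ^ orderOf a = 1 := by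
    have : g * w ^ orderOf a = g * 1 := by rw [mul_one]; exact hk.symm
    exact mul_left_cancel this
  obtain ⟨n, hn'⟩ := hG w
  have hw1 : w = 1 := by
    have h4 : orderOf w ∣ orderOf a := orderOf_dvd_of_pow_eq_one hwk
    have h5 : orderOf w ∣ p ^ n := orderOf_dvd_of_pow_eq_one hn'
    have h6 : orderOf w ∣ Nat.gcd (orderOf a) (p ^ n) := Nat.dvd_gcd h4 h5
    rw [Nat.Coprime.pow_right n ha] at h6
    exact orderOf_eq_one_iff.mp (Nat.dvd_one.mp h6)
  rw [hag, hw1, mul_one]

end Cfsg.Agent.S0121
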