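import Cfsg.Statements.S0123
import Cfsg.Agent.H3.Class2

set_option autoImplicit false
open Cfsg

namespace Cfsg.Agent.S0123

/-- For a p-group of small class relative to p (class ≤ 2 with p odd, or class ≤ 3 with p > 3) whose derived subgroup is generated by elements of order dividing p, the p-th power map is multiplicative. -/
theorem result {R : Type*} [Group R] [Finite R] {p : ℕ} [Fact p.Prime] (hR : IsPGroup p R) (hcl : (p ≠ 2 ∧ ⁅commutator R, (⊤ : Subgroup R)⁆ = ⊥) ∨ (3 < p ∧ ⁅⁅commutator R, (⊤ : Subgroup R)⁆, (⊤ : Subgroup R)⁆ = ⊥)) (hder : commutator R ≤ Subgroup.closure {x : R | x ^ p = 1}) (x y : R) : (x * y) ^ p = x ^ p * y ^ p := by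
  have hpp : p.Prime := Fact.out
  rcases hcl with ⟨hp2, h2⟩ | ⟨hp3, h3⟩
  · have hc := Cfsg.Agent.H3.commutator_le_center_of_class_two h2
    have hmem := Cfsg.Agent.H3.basic_rel_mem_commutator x y
    have ht : y⁻¹ * x⁻¹ * y * x ∈ Subgroup.center R := hc hmem
    have htp : (y⁻¹ * x⁻¹ * y * x) ^ p = 1 :=
      Cfsg.Agent.H3.omega_exponent_of_class_two hpp hp2 hc (hder hmem)
    rw [Cfsg.Agent.H3.mul_pow_of_rel (Cfsg.Agent.H3.basic_rel x y) ht p]
    have hdvd : p ∣ p.choose 2 := hpp.dvd_choose_self (by norm_num) (by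
      have := hpp.two_le; omega)
    obtain ⟨k, hk⟩ := hdvd
    rw [hk, pow_mul, htp, one_pow, mul_one]
  · have hc := Cfsg.Agent.H3.le_center_of_comm_top_eq_bot h3
    have hexp : ∀ g ∈ commutator R, g ^ p = 1 := fun g hg =>
      Cfsg.Agent.H3.omega_exponent_of_class_three hpp hp3 hc (hder hg)
    have hsub : ⁅commutator R, (⊤ : Subgroup R)⁆ ≤ commutator R :=
      Subgroup.commutator_mono le_top le_rfl
    have hz1 : y⁻¹ * x⁻¹ * y * x ∈ commutator R := Cfsg.Agent.H3.basic_rel_mem_commutator x y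
    have h1 : y * x = x * y * (y⁻¹ * x⁻¹ * y * x) := Cfsg.Agent.H3.basic_rel x y
    have h2 := Cfsg.Agent.H3.basic_rel x (y⁻¹ * x⁻¹ * y * x)
    have h3' := Cfsg.Agent.H3.basic_rel y (y⁻¹ * x⁻¹ * y * x)
    have hm2 := Cfsg.Agent.H3.basic_rel_mem_commutator_top x hz1
    have hm3 := Cfsg.Agent.H3.basic_rel_mem_commutator_top y hz1
    exact Cfsg.Agent.H3.mul_pow_class3_prime hpp hp3 h1 h2 h3' (hc hm2) (hc hm3)
      (hexp _ hz1) (hexp _ (hsub hm2)) (hexp _ (hsub hm3))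

end Cfsg.Agent.S0123
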