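import Cfsg.Statements.S0125
import Cfsg.Agent.H3.PGroup

set_option autoImplicit false
open Cfsg

namespace Cfsg.Agent.S0125

/-- The centralizer of a self-centralizing normal subgroup A of a Sylow p-subgroup is the direct product of A with a normal p'-subgroup. -/
theorem result {G : Type*} [Group G] [Finite G] {p : ℕ} [Fact p.Prime] (R : Sylow p G) (A : Subgroup G) (hAR : A ≤ (R : Subgroup G)) (hAn : (R : Subgroup G) ≤ Subgroup.normalizer (A : Set G)) (hC : (R : Subgroup G) ⊓ Subgroup.centralizer (A : Set G) = A) : ∃ H : Subgroup G, H ≤ Subgroup.centralizer (A : Set G) ∧ Nat.Coprime (Nat.card H) p ∧ Subgroup.centralizer (A : Set G) ≤ Subgroup.normalizer (H : Set G) ∧ H ⊓ A = ⊥ ∧ H ⊔ A = Subgroup.centralizer (A : Set G) := by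
  have hp : p.Prime := Fact.out
  set C := Subgroup.centralizer (A : Set G) with hCdef
  have hAC : A ≤ C := by rw [← hC]; exact inf_le_right
  -- R normalises C
  have hRC : (R : Subgroup G) ≤ Subgroup.normalizer (C : Set G) := by
    intro n hn
    have hnA := hAn hn
    have hnA' := Subgroup.inv_mem _ hnA
    rw [Subgroup.mem_normalizer_iff]
    have key : ∀ m ∈ Subgroup.normalizer (A : Set G), ∀ c ∈ C, m * c * m⁻¹ ∈ C := by
      intro m hm c hc
      rw [hCdef, Subgroup.mem_centralizer_iff]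
      intro a ha
      have ha' : m⁻¹ * a * m ∈ A := by
        have := (Subgroup.mem_normalizer_iff''.mp hm a).mp ha
        exact this
      have hc' := (Subgroup.mem_centralizer_iff.mp hc) _ ha'
      calc a * (m * c * m⁻¹) = m * ((m⁻¹ * a * m) * c) * m⁻¹ := by group
        _ = m * (c * (m⁻¹ * a * m)) * m⁻¹ := by rw [hc']
        _ = m * c * m⁻¹ * a := by group
    intro c
    constructor
    · exact key n hnA c
    · intro h
      have := key n⁻¹ hnA' _ h
      have e : n⁻¹ * (n * c * n⁻¹) * n⁻¹⁻¹ = c := by group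
      rwa [e] at this
  have hidx := Cfsg.Agent.H3.sylow_inf_relIndex_of_le_normalizer R C hRC
  rw [hC] at hidx
  -- A as a Sylow subgroup of C
  have hApg : IsPGroup p (A.subgroupOf C) := (R.2.to_le hAR).comap_subtype
  let S : Sylow p C := hApg.toSylow hidx
  have hS : (S : Subgroup C) = A.subgroupOf C := rfl
  have hSc : Subgroup.normalizer ((S : Subgroup C) : Set C) ≤ Subgroup.centralizer ((S : Subgroup C) : Set C) := by
    intro c _
    rw [Subgroup.mem_centralizer_iff]
    intro a ha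
    have haA : (a : G) ∈ A := ha
    apply Subtype.ext
    exact (Subgroup.mem_centralizer_iff.mp c.2) _ haA
  obtain ⟨K, hKn, hcomp, hKcard⟩ : ∃ K : Subgroup C, K.Normal ∧ K.IsComplement' (A.subgroupOf C) ∧
      ¬ p ∣ Nat.card K :=
    ⟨(MonoidHom.transferSylow S hSc).ker, inferInstance,
      MonoidHom.ker_transferSylow_isComplement' S hSc,
      MonoidHom.not_dvd_card_ker_transferSylow S hSc⟩
  clear_value S
  clear hS hSc S
  refine ⟨K.map C.subtype, ?_, ?_, ?_, ?_, ?_⟩
  · rintro _ ⟨k, -, rfl⟩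
    exact k.2
  · have h1 : Nat.card (K.map C.subtype) = Nat.card K :=
      Subgroup.card_map_of_injective C.subtype_injective
    rw [h1, Nat.coprime_comm, hp.coprime_iff_not_dvd]
    exact hKcard
  · intro c hc
    rw [Subgroup.mem_normalizer_iff]
    intro h
    constructor
    · rintro ⟨k, hk, rfl⟩
      exact ⟨⟨c, hc⟩ * k * ⟨c, hc⟩⁻¹, hKn.conj_mem k hk ⟨c, hc⟩, rfl⟩
    · rintro ⟨k, hk, hkeq⟩
      refine ⟨⟨c, hc⟩⁻¹ * k * ⟨c, hc⟩, ?_, ?_⟩
      · have := hKn.conj_mem k hk ⟨c, hc⟩⁻¹
        simpa using this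
      · simp only [Subgroup.subtype_apply, Subgroup.coe_mul, Subgroup.coe_inv]
        have : (k : G) = c * h * c⁻¹ := hkeq
        rw [this]; group
  · rw [eq_bot_iff]
    rintro x ⟨⟨k, hk, rfl⟩, hxA⟩
    have hkS : k ∈ A.subgroupOf C := hxA
    have : k ∈ K ⊓ A.subgroupOf C := ⟨hk, hkS⟩
    rw [hcomp.disjoint.eq_bot, Subgroup.mem_bot] at this
    rw [this]; simp
  · have h1 : K ⊔ A.subgroupOf C = ⊤ := hcomp.sup_eq_top
    have h2 : (K ⊔ A.subgroupOf C).map C.subtype = K.map C.subtype ⊔ (A.subgroupOf C).map C.subtype :=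
      Subgroup.map_sup _ _ _
    rw [h1, Subgroup.map_subgroupOf_eq_of_le hAC] at h2
    rw [← h2, ← MonoidHom.range_eq_map, Subgroup.range_subtype]

end Cfsg.Agent.S0125
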