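import Cfsg.Statements.S0131
import Mathlib

set_option autoImplicit false
open Cfsg
open scoped commutatorElement

namespace Cfsg.Agent.S0131

/-- P/P' has a normal complement in G exactly when the focal subgroup G' ∩ P is as small as possible, namely P'. -/
theorem result {G : Type*} [Group G] [Finite G] {p : ℕ} [Fact p.Prime] (P : Sylow p G) : (∃ N : Subgroup G, N.Normal ∧ N ⊓ (P : Subgroup G) = ⁅(P : Subgroup G), (P : Subgroup G)⁆ ∧ N ⊔ (P : Subgroup G) = ⊤) ↔ commutator G ⊓ (P : Subgroup G) = ⁅(P : Subgroup G), (P : Subgroup G)⁆ := by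
  have hPP : ⁅(P : Subgroup G), (P : Subgroup G)⁆ ≤ commutator G ⊓ (P : Subgroup G) := by
    refine le_inf (Subgroup.commutator_mono le_top le_top) ?_
    rw [Subgroup.commutator_le]
    intro a ha b hb
    exact (P : Subgroup G).mul_mem ((P : Subgroup G).mul_mem ((P : Subgroup G).mul_mem ha hb)
      ((P : Subgroup G).inv_mem ha)) ((P : Subgroup G).inv_mem hb)
  constructor
  · rintro ⟨N, hN, hNP, hsup⟩
    refine le_antisymm ?_ hPP
    have hcomm : commutator G ≤ N := by
      rw [commutator_def, Subgroup.commutator_le]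
      intro x _ y _
      have hx : x ∈ N ⊔ (P : Subgroup G) := hsup ▸ Subgroup.mem_top x
      have hy : y ∈ N ⊔ (P : Subgroup G) := hsup ▸ Subgroup.mem_top y
      rw [← SetLike.mem_coe, Subgroup.normal_mul] at hx hy
      obtain ⟨n₁, hn₁, p₁, hp₁, rfl⟩ := hx
      obtain ⟨n₂, hn₂, p₂, hp₂, rfl⟩ := hy
      have h1 : ⁅p₁, p₂⁆ ∈ N := by
        have : ⁅p₁, p₂⁆ ∈ ⁅(P : Subgroup G), (P : Subgroup G)⁆ :=
          Subgroup.commutator_mem_commutator hp₁ hp₂
        rw [← hNP] at this
        exact this.1
      have e1 : ((n₁ : G) : G ⧸ N) = 1 := (QuotientGroup.eq_one_iff _).mpr hn₁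
      have e2 : ((n₂ : G) : G ⧸ N) = 1 := (QuotientGroup.eq_one_iff _).mpr hn₂
      have e3 : ((⁅p₁, p₂⁆ : G) : G ⧸ N) = 1 := (QuotientGroup.eq_one_iff _).mpr h1
      rw [← QuotientGroup.eq_one_iff]
      simp only [commutatorElement_def, QuotientGroup.mk_mul, QuotientGroup.mk_inv, e1, e2,
        one_mul] at e3 ⊢
      exact e3
    calc commutator G ⊓ (P : Subgroup G) ≤ N ⊓ (P : Subgroup G) := inf_le_inf_right _ hcomm
      _ = ⁅(P : Subgroup G), (P : Subgroup G)⁆ := hNP
  · intro h
    obtain ⟨k, hk⟩ := IsPGroup.iff_card.mp P.isPGroup'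
    set m := (P : Subgroup G).index with hm
    have hcard : Nat.card G = p ^ k * m := by
      rw [← hk, hm, Subgroup.card_mul_index]
    have hpm : ¬ p ∣ m := P.not_dvd_index
    have hcop : Nat.Coprime (p ^ k) m :=
      Nat.Coprime.pow_left k ((Nat.Prime.coprime_iff_not_dvd Fact.out).mpr hpm)
    let N : Subgroup G := (powMonoidHom m : Abelianization G →* Abelianization G).ker.comap
      Abelianization.of
    have hNmem : ∀ g : G, g ∈ N ↔ g ^ m ∈ commutator G := by
      intro g
      simp only [N, Subgroup.mem_comap, MonoidHom.mem_ker, powMonoidHom_apply]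
      rw [← map_pow]
      exact QuotientGroup.eq_one_iff (g ^ m)
    have hcN : commutator G ≤ N := by
      intro g hg
      rw [hNmem]
      exact (commutator G).pow_mem hg m
    have hNnormal : N.Normal := Subgroup.Normal.comap inferInstance _
    refine ⟨N, hNnormal, ?_, ?_⟩
    · refine le_antisymm ?_ (le_trans hPP (inf_le_inf_right _ hcN))
      rw [← h]
      intro g hg
      refine ⟨?_, hg.2⟩
      have hg1 : g ^ m ∈ commutator G := (hNmem g).mp hg.1
      have hg2 : g ^ p ^ k = 1 := by
        have := pow_card_eq_one' (G := (P : Subgroup G)) (x := ⟨g, hg.2⟩)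
        rw [hk] at this
        exact congrArg Subtype.val this
      have hgcd : ((Nat.gcd (p ^ k) m : ℕ) : ℤ) = (p ^ k : ℕ) * Nat.gcdA (p ^ k) m + m * Nat.gcdB (p ^ k) m :=
        Nat.gcd_eq_gcd_ab _ _
      rw [hcop] at hgcd
      have : g = (g ^ m) ^ Nat.gcdB (p ^ k) m := by
        have h3 : g ^ (((1 : ℕ) : ℤ)) = g := by simp
        conv_lhs => rw [← h3, hgcd]
        rw [zpow_add, zpow_mul, zpow_mul, zpow_natCast, zpow_natCast, hg2, one_zpow, one_mul]
      rw [this]
      exact (commutator G).zpow_mem hg1 _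
    · have hidx1 : (N ⊔ (P : Subgroup G)).index ∣ m := Subgroup.index_dvd_of_le le_sup_right
      have hidx2 : (N ⊔ (P : Subgroup G)).index ∣ N.index := Subgroup.index_dvd_of_le le_sup_left
      have hNp : IsPGroup p (G ⧸ N) := by
        intro x
        induction x using QuotientGroup.induction_on with
        | H g =>
          refine ⟨k, ?_⟩
          rw [← QuotientGroup.mk_pow, QuotientGroup.eq_one_iff, hNmem, ← pow_mul, ← hcard]
          rw [pow_card_eq_one']
          exact (commutator G).one_mem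
      obtain ⟨j, hj⟩ := IsPGroup.iff_card.mp hNp
      rw [← Subgroup.index_eq_card] at hj
      rw [hj] at hidx2
      obtain ⟨i, _, hi⟩ := (Nat.dvd_prime_pow Fact.out).mp hidx2
      rw [hi] at hidx1
      have hi0 : i = 0 := by
        by_contra hne
        exact hpm (dvd_trans (dvd_pow_self p hne) hidx1)
      rw [hi0, pow_zero] at hi
      exact Subgroup.index_eq_one.mp hi

end Cfsg.Agent.S0131
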