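import Cfsg.Statements.S0166
import Cfsg.Agent.H16.SplitMain

set_option autoImplicit false
open Cfsg

namespace Cfsg.Agent.S0166

open Cfsg.Agent.H16 in
/-- Brauer's splitting field Theorem: a complex representation of a finite group of exponent m is equivalent to a representation by matrices with entries in ℚ adjoined exp(2πi/m). -/
theorem result {G : Type*} [Group G] [Finite G] (n : ℕ) (ρ : Representation ℂ G (Fin n → ℂ)) : ∃ σ : Representation ℂ G (Fin n → ℂ), Nonempty (ρ.Equiv σ) ∧ ∀ g : G, ∀ i j : Fin n, LinearMap.toMatrix' (σ g) i j ∈ Algebra.adjoin ℚ ({Complex.exp (2 * Real.pi * Complex.I / (Monoid.exponent G : ℂ))} : Set ℂ) := by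
  have hm : Monoid.exponent G ≠ 0 := Monoid.exponent_ne_zero_of_finite
  have hprim : IsPrimitiveRoot (Complex.exp (2 * Real.pi * Complex.I / (Monoid.exponent G : ℂ)))
      (Monoid.exponent G) := Complex.isPrimitiveRoot_exp _ hm
  generalize Complex.exp (2 * Real.pi * Complex.I / (Monoid.exponent G : ℂ)) = ζ at hprim ⊢
  let K := IntermediateField.adjoin ℚ ({ζ} : Set ℂ)
  let φ : K →+* ℂ := algebraMap K ℂ
  have hζK : ζ ∈ K := IntermediateField.mem_adjoin_simple_self ℚ ζ
  have hK : ∀ z : ℂ, z ^ Monoid.exponent G = 1 → z ∈ Set.range φ := by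
    intro z hz
    have : NeZero (Monoid.exponent G) := ⟨hm⟩
    obtain ⟨i, -, rfl⟩ := hprim.eq_pow_of_pow_eq_one hz
    exact ⟨⟨ζ ^ i, pow_mem hζK i⟩, rfl⟩
  obtain ⟨τ, hτ⟩ := exists_bc_equiv φ hK n ρ
  refine ⟨bc φ τ, hτ, ?_⟩
  intro g i j
  rw [toMatrix'_bc]
  have hint : IsIntegral ℚ ζ := (hprim.isIntegral (Nat.pos_of_ne_zero hm)).tower_top
  have h1 : (φ (LinearMap.toMatrix' (τ g) i j) : ℂ) ∈ K.toSubalgebra :=
    (LinearMap.toMatrix' (τ g) i j).2
  rw [IntermediateField.adjoin_simple_toSubalgebra_of_isAlgebraic hint.isAlgebraic] at h1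
  exact h1

end Cfsg.Agent.S0166
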