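import Cfsg.Statements.S0168
import Cfsg.Agent.H4.BurnsideBrauer

set_option autoImplicit false
open Cfsg

namespace Cfsg.Agent.S0168

/-- The Burnside–Brauer Theorem. Let χ be the character of a faithful complex representation of a finite group, taking m distinct values. Then every irreducible character has nonzero inner product with χ ^ i for some i < m. -/
theorem result {G : Type*} [Group G] [Fintype G] {V : Type*} [AddCommGroup V] [Module ℂ V] [FiniteDimensional ℂ V] (ρ : Representation ℂ G V) (hfaithful : Function.Injective ρ) (ψ : G → ℂ) (hψ : Cfsg.IsIrrCharacter G ψ) : ∃ i : ℕ, i < Nat.card (Set.range ρ.character) ∧ Cfsg.classInner (fun g => ρ.character g ^ i) ψ ≠ 0 := by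
  exact Cfsg.Agent.H4.burnside_brauer ρ hfaithful ψ hψ

end Cfsg.Agent.S0168
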