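import Cfsg.Statements.S0172
import Cfsg.Agent.H4.Frob

set_option autoImplicit false
open Cfsg

namespace Cfsg.Agent.S0172

/-- The order of the centralizer of an element. -/
noncomputable def cc (X : Type*) [Group X] (x : X) : ℕ := Nat.card {t : X // Commute x t}

theorem sum_cc (X : Type*) [Group X] [Fintype X] :
    ∑ x : X, cc X x = Nat.card (ConjClasses X) * Nat.card X := by
  rw [← card_comm_eq_card_conjClasses_mul_card,
    Nat.card_congr (Equiv.subtypeProdEquivSigmaSubtype (fun a b : X => Commute a b)),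
    Nat.card_sigma]
  rfl

theorem cc_one (X : Type*) [Group X] : cc X (1 : X) = Nat.card X :=
  Nat.card_congr (Equiv.subtypeUnivEquiv (fun t => Commute.one_left t))

theorem cc_conj {X : Type*} [Group X] (u x : X) : cc X (u * x * u⁻¹) = cc X x := by
  apply Nat.card_congr
  refine (MulAut.conj u⁻¹).toEquiv.subtypeEquiv (fun t => ?_)
  simp only [MulEquiv.toEquiv_eq_coe, EquivLike.coe_coe, MulAut.conj_apply, inv_inv]
  constructor
  · intro h
    show x * (u⁻¹ * t * u) = u⁻¹ * t * u * x
    calc x * (u⁻¹ * t * u) = u⁻¹ * (u * x * u⁻¹ * t) * u := by group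
      _ = u⁻¹ * (t * (u * x * u⁻¹)) * u := by rw [h.eq]
      _ = u⁻¹ * t * u * x := by group
  · intro h
    show u * x * u⁻¹ * t = t * (u * x * u⁻¹)
    calc u * x * u⁻¹ * t = u * (x * (u⁻¹ * t * u)) * u⁻¹ := by group
      _ = u * (u⁻¹ * t * u * x) * u⁻¹ := by rw [h.eq]
      _ = t * (u * x * u⁻¹) := by group

/-- Class number of a Frobenius group: if G = K H with K normal, K ⊓ H trivial and no non-identity element of H commuting with a non-identity element of K, then |H| * k(G) + 1 = |H| * k(H) + k(K), where k denotes the number of conjugacy classes. -/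
theorem result {G : Type*} [Group G] [Finite G] (K H : Subgroup G) [K.Normal] (hKH : K ⊓ H = ⊥) (hKH' : K ⊔ H = ⊤) (hfpf : ∀ h ∈ H, h ≠ 1 → ∀ k ∈ K, h * k = k * h → k = 1) : Nat.card H * Nat.card (ConjClasses G) + 1 = Nat.card H * Nat.card (ConjClasses H) + Nat.card (ConjClasses K) := by
  classical
  haveI := Fintype.ofFinite G
  haveI : Fintype K := Fintype.ofFinite K
  haveI : Fintype H := Fintype.ofFinite H
  have hKn : K.Normal := inferInstance
  have huniq : ∀ (a a' b b' : G), a ∈ K → a' ∈ K → b ∈ H → b' ∈ H → a * b = a' * b' →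
      a = a' ∧ b = b' := by
    intro a a' b b' ha ha' hb hb' h
    have h1 : a'⁻¹ * a = b' * b⁻¹ := by
      calc a'⁻¹ * a = a'⁻¹ * (a * b) * b⁻¹ := by group
        _ = a'⁻¹ * (a' * b') * b⁻¹ := by rw [h]
        _ = b' * b⁻¹ := by group
    have h2 : a'⁻¹ * a ∈ K ⊓ H :=
      ⟨K.mul_mem (K.inv_mem ha') ha, by rw [h1]; exact H.mul_mem hb' (H.inv_mem hb)⟩
    rw [hKH, Subgroup.mem_bot] at h2
    have h3 : a = a' := by
      have := inv_mul_eq_one.mp h2
      exact this.symm
    refine ⟨h3, ?_⟩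
    rw [h3] at h
    exact mul_left_cancel h
  have hdecomp : ∀ g : G, ∃ k ∈ K, ∃ h ∈ H, k * h = g := by
    intro g
    have : g ∈ ((K ⊔ H : Subgroup G) : Set G) := by rw [hKH']; trivial
    rw [Subgroup.normal_mul] at this
    obtain ⟨k, hk, h, hh, rfl⟩ := Set.mem_mul.mp this
    exact ⟨k, hk, h, hh, rfl⟩
  let e : K × H ≃ G := Equiv.ofBijective (fun p => (p.1 : G) * (p.2 : G)) ⟨by
      rintro ⟨a, b⟩ ⟨a', b'⟩ h
      obtain ⟨h1, h2⟩ := huniq a a' b b' a.2 a'.2 b.2 b'.2 h
      exact Prod.ext (Subtype.ext h1) (Subtype.ext h2), by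
      intro g
      obtain ⟨k, hk, h, hh, rfl⟩ := hdecomp g
      exact ⟨(⟨k, hk⟩, ⟨h, hh⟩), rfl⟩⟩
  have hcard : Nat.card K * Nat.card H = Nat.card G := by
    rw [← Nat.card_prod]
    exact Nat.card_congr e
  -- F1: centralizers of nonidentity elements of H lie in H
  have F1 : ∀ h ∈ H, h ≠ 1 → ∀ t : G, Commute h t → t ∈ H := by
    intro h hh hh1 t ht
    obtain ⟨k', hk', h', hh', rfl⟩ := hdecomp t
    have h1 : (h * k' * h⁻¹) * (h * h') = k' * (h' * h) := by
      calc (h * k' * h⁻¹) * (h * h') = h * (k' * h') := by group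
        _ = k' * h' * h := ht.eq
        _ = k' * (h' * h) := by group
    obtain ⟨h2, -⟩ := huniq _ _ _ _ (hKn.conj_mem k' hk' h) hk' (H.mul_mem hh hh')
      (H.mul_mem hh' hh) h1
    have h3 : h * k' = k' * h := by
      calc h * k' = (h * k' * h⁻¹) * h := by group
        _ = k' * h := by rw [h2]
    have h4 := hfpf h hh hh1 k' hk' h3
    rw [h4, one_mul]
    exact hh'
  -- F2: centralizers of nonidentity elements of K lie in K
  have F2 : ∀ k ∈ K, k ≠ 1 → ∀ t : G, Commute k t → t ∈ K := by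
    intro k hk hk1 t ht
    by_contra htK
    exact hk1 (Cfsg.Agent.H4.frobenius_commute_eq_one K H hKH' hfpf t htK k hk ht.eq.symm)
  -- F3: elements of the coset K h are K-conjugate to h
  have F3 : ∀ h ∈ H, h ≠ 1 → ∀ k ∈ K, ∃ u ∈ K, u * h * u⁻¹ = k * h := by
    intro h hh hh1 k hk
    let ψ : K → K := fun u => ⟨(u : G) * (h * (u : G)⁻¹ * h⁻¹),
      K.mul_mem u.2 (hKn.conj_mem _ (K.inv_mem u.2) h)⟩
    have hψ : Function.Injective ψ := by
      intro u v huv
      have h1 : (u : G) * (h * (u : G)⁻¹ * h⁻¹) = (v : G) * (h * (v : G)⁻¹ * h⁻¹) :=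
        congrArg Subtype.val huv
      have h2 : h * ((v : G)⁻¹ * u) = ((v : G)⁻¹ * u) * h := by
        calc h * ((v : G)⁻¹ * u) = (v : G)⁻¹ * ((v : G) * (h * (v : G)⁻¹ * h⁻¹)) * h * u := by group
          _ = (v : G)⁻¹ * ((u : G) * (h * (u : G)⁻¹ * h⁻¹)) * h * u := by rw [h1]
          _ = ((v : G)⁻¹ * u) * h := by group
      have h3 := hfpf h hh hh1 _ (K.mul_mem (K.inv_mem v.2) u.2) h2
      apply Subtype.ext
      exact (inv_mul_eq_one.mp h3).symm
    obtain ⟨u, hu⟩ := (Finite.injective_iff_surjective.mp hψ) ⟨k, hk⟩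
    refine ⟨u, u.2, ?_⟩
    have h1 : (u : G) * (h * (u : G)⁻¹ * h⁻¹) = k := congrArg Subtype.val hu
    rw [← h1]; group
  -- (a)
  have ha : ∀ k : K, k ≠ 1 → cc G (k : G) = cc K k := by
    intro k hk1
    have hk1' : (k : G) ≠ 1 := fun h => hk1 (Subtype.ext h)
    apply Nat.card_congr
    exact {
      toFun := fun t => ⟨⟨t.1, F2 k k.2 hk1' t.1 t.2⟩, by
        have := t.2.eq
        apply Subtype.ext
        exact this⟩
      invFun := fun t => ⟨t.1, by
        have := congrArg Subtype.val t.2.eq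
        exact this⟩
      left_inv := fun t => rfl
      right_inv := fun t => rfl }
  -- (c)
  have hc : ∀ h : H, h ≠ 1 → ∀ k : K, cc G ((k : G) * (h : G)) = cc H h := by
    intro h hh1 k
    have hh1' : (h : G) ≠ 1 := fun hh => hh1 (Subtype.ext hh)
    obtain ⟨u, -, hu⟩ := F3 h h.2 hh1' k k.2
    rw [← hu, cc_conj]
    apply Nat.card_congr
    exact {
      toFun := fun t => ⟨⟨t.1, F1 h h.2 hh1' t.1 t.2⟩, by
        have := t.2.eq
        apply Subtype.ext
        exact this⟩
      invFun := fun t => ⟨t.1, by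
        have := congrArg Subtype.val t.2.eq
        exact this⟩
      left_inv := fun t => rfl
      right_inv := fun t => rfl }
  -- the sum
  have hG : ∑ g : G, cc G g = Nat.card (ConjClasses G) * Nat.card G := sum_cc G
  have hKs : ∑ k : K, cc K k = Nat.card (ConjClasses K) * Nat.card K := sum_cc K
  have hHs : ∑ h : H, cc H h = Nat.card (ConjClasses H) * Nat.card H := sum_cc H
  have hsplit : ∑ g : G, cc G g = ∑ h : H, ∑ k : K, cc G ((k : G) * (h : G)) := by
    rw [← Equiv.sum_comp e (fun g => cc G g), Fintype.sum_prod_type, Finset.sum_comm]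
    rfl
  rw [← Finset.add_sum_erase Finset.univ _ (Finset.mem_univ (1 : H))] at hsplit
  have hT1 : ∑ k : K, cc G ((k : G) * ((1 : H) : G)) + Nat.card K =
      Nat.card G + Nat.card (ConjClasses K) * Nat.card K := by
    rw [← hKs, ← Finset.add_sum_erase Finset.univ _ (Finset.mem_univ (1 : K)),
      ← Finset.add_sum_erase Finset.univ (fun k : K => cc K k) (Finset.mem_univ (1 : K))]
    have h1 : cc G (((1 : K) : G) * ((1 : H) : G)) = Nat.card G := by
      simp only [Subgroup.coe_one, mul_one]; exact cc_one G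
    have h2 : cc K (1 : K) = Nat.card K := cc_one K
    have h3 : ∑ k ∈ Finset.univ.erase (1 : K), cc G ((k : G) * ((1 : H) : G)) =
        ∑ k ∈ Finset.univ.erase (1 : K), cc K k := by
      refine Finset.sum_congr rfl fun k hk => ?_
      rw [Subgroup.coe_one, mul_one]
      exact ha k (Finset.ne_of_mem_erase hk)
    rw [h1, h2, h3]
    ring
  have hB : ∑ h ∈ Finset.univ.erase (1 : H), ∑ k : K, cc G ((k : G) * (h : G)) +
      Nat.card K * Nat.card H = Nat.card K * (Nat.card (ConjClasses H) * Nat.card H) := by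
    rw [← hHs, ← Finset.add_sum_erase Finset.univ (fun h : H => cc H h) (Finset.mem_univ (1 : H))]
    have h2 : cc H (1 : H) = Nat.card H := cc_one H
    have h3 : ∑ h ∈ Finset.univ.erase (1 : H), ∑ k : K, cc G ((k : G) * (h : G)) =
        Nat.card K * ∑ h ∈ Finset.univ.erase (1 : H), cc H h := by
      rw [Finset.mul_sum]
      refine Finset.sum_congr rfl fun h hh => ?_
      rw [Finset.sum_congr rfl (fun k _ => hc h (Finset.ne_of_mem_erase hh) k), Finset.sum_const,
        Finset.card_univ, Nat.card_eq_fintype_card, smul_eq_mul]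
    rw [h2, h3]
    ring
  have hKpos : 0 < Nat.card K := Nat.card_pos
  apply Nat.eq_of_mul_eq_mul_left hKpos
  rw [hG, ← hcard] at hsplit
  nlinarith [hsplit, hT1, hB, hcard]

end Cfsg.Agent.S0172
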