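import Cfsg.Statements.S0173
import Cfsg.Agent.H4.RealClasses
import Cfsg.Agent.H83.Gagola2

set_option autoImplicit false
open Cfsg

namespace Cfsg.Agent.S0173

open Cfsg.Agent.H4

/-- Brauer's permutation lemma for a single automorphism: the number of conjugacy classes mapped to themselves equals the number of irreducible complex characters χ with χ ∘ α = χ. -/
theorem result {G : Type*} [Group G] [Finite G] (α : G ≃* G) : Nat.card {C : ConjClasses G // ConjClasses.map α.toMonoidHom C = C} = Nat.card {χ : Cfsg.IrrCharacter G // (χ : G → ℂ) ∘ α = (χ : G → ℂ)} := by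
  classical
  haveI := Fintype.ofFinite G
  haveI : Fintype (ConjClasses G) := Fintype.ofFinite _
  have hN : (Nat.card G : ℂ) ≠ 0 := (neZero_card_complex G).out
  set σ : IrrCharacter G → IrrCharacter G := fun χ =>
    ⟨fun g => χ.1 (α g), Cfsg.Agent.H83.isIrrCharacter_comp_mulEquiv α χ.2⟩ with hσ
  have hA := brauer_permutation (G := G) (fun g => α g) σ (fun χ g => rfl)
  have hsub : Nat.card {χ : IrrCharacter G // σ χ = χ} =
      Nat.card {χ : Cfsg.IrrCharacter G // (χ : G → ℂ) ∘ α = (χ : G → ℂ)} := by
    apply Nat.card_congr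
    refine Equiv.subtypeEquivRight fun χ => ?_
    constructor
    · intro h
      funext g
      exact congrFun (congrArg Subtype.val h) g
    · intro h
      apply Subtype.ext
      funext g
      exact congrFun h g
  rw [hsub] at hA
  have hterm : ∀ h : G, (Nat.card {c : G // c * α h * c⁻¹ = h} : ℂ) = (Nat.card G : ℂ) *
      (if IsConj h (α h) then
        (((Finset.univ.filter fun x : G => ConjClasses.mk x = ConjClasses.mk h).card : ℂ))⁻¹
          else 0) := by
    intro h
    split_ifs with hreal
    · obtain ⟨c₀, hc₀⟩ := isConj_iff.mp hreal.symm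
      have h1 : Nat.card {c : G // c * α h * c⁻¹ = h} =
          Nat.card (Subgroup.centralizer ({α h} : Set G)) := by
        rw [← card_conj_fiber (α h) c₀, hc₀]
      have h2 : (Finset.univ.filter fun x : G => ConjClasses.mk x = ConjClasses.mk h).card =
          (Subgroup.centralizer ({α h} : Set G)).index := by
        rw [← card_filter_isConj (α h)]
        congr 1
        ext x
        simp only [Finset.mem_filter, Finset.mem_univ, true_and]
        rw [ConjClasses.mk_eq_mk_iff_isConj]
        constructor
        · intro hx; exact hreal.symm.trans hx.symm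
        · intro hx; exact (hreal.trans hx).symm
      rw [h1, h2, ← Subgroup.card_mul_index (Subgroup.centralizer ({α h} : Set G))]
      have hidx : ((Subgroup.centralizer ({α h} : Set G)).index : ℂ) ≠ 0 := by
        have : (Subgroup.centralizer ({α h} : Set G)).index ≠ 0 := Subgroup.index_ne_zero_of_finite
        exact_mod_cast this
      push_cast
      field_simp
    · have : IsEmpty {c : G // c * α h * c⁻¹ = h} :=
        ⟨fun ⟨c, hc⟩ => hreal (isConj_iff.mpr ⟨c, hc⟩).symm⟩
      rw [Nat.card_of_isEmpty]; simp
  have hmap : ∀ {g h : G}, IsConj g h → IsConj (α g) (α h) := by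
    intro g h hgh
    obtain ⟨c, hc⟩ := isConj_iff.mp hgh
    refine isConj_iff.mpr ⟨α c, ?_⟩
    rw [← hc]; simp
  rw [Finset.sum_congr rfl (fun h _ => hterm h), ← Finset.mul_sum,
    sum_class_indicator (fun h : G => IsConj h (α h))
      (fun g h hgh hg => (hgh.symm.trans hg).trans (hmap hgh))] at hA
  have h3 := mul_left_cancel₀ hN hA
  have h4 : Nat.card {χ : Cfsg.IrrCharacter G // (χ : G → ℂ) ∘ α = (χ : G → ℂ)} =
      Nat.card {C : ConjClasses G // ∀ g : G, ConjClasses.mk g = C → IsConj g (α g)} := by
    exact_mod_cast h3
  rw [h4]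
  apply Nat.card_congr
  refine Equiv.subtypeEquivRight fun C => ?_
  constructor
  · intro hC g hg
    subst hg
    have : ConjClasses.mk (α g) = ConjClasses.mk g := hC
    exact (ConjClasses.mk_eq_mk_iff_isConj.mp this).symm
  · intro hC
    obtain ⟨g, rfl⟩ := ConjClasses.mk_surjective C
    have := hC g rfl
    exact (ConjClasses.mk_eq_mk_iff_isConj.mpr this).symm
end Cfsg.Agent.S0173
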