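import Cfsg.Statements.S0177
import Cfsg.Agent.H4.Chars
import Cfsg.Agent.H4.Induction
import Cfsg.Agent.H4.RealClasses
import Cfsg.Agent.H83.Gagola2
import Cfsg.Agent.H5.Galois3

set_option autoImplicit false
open Cfsg

namespace Cfsg.Agent.S0177

open Cfsg.Agent.H4 Cfsg.Agent.H5
open scoped ComplexConjugate

section
variable {G : Type*} [Group G] [Fintype G]

/-- Functions that are integer combinations of functions induced from linear characters of
cyclic subgroups. -/
def Rep (ψ : G → ℂ) : Prop :=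
  ∃ l : List ((A : Subgroup G) × ((A →* ℂˣ) × ℤ)), (∀ t ∈ l, IsCyclic t.1) ∧
    ψ = (l.map fun t => (t.2.2 : ℂ) • Cfsg.indFun t.1 (fun a => (t.2.1 a : ℂ))).sum

theorem rep_zero : Rep (0 : G → ℂ) := ⟨[], by simp, by simp⟩

theorem rep_add {ψ₁ ψ₂ : G → ℂ} (h₁ : Rep ψ₁) (h₂ : Rep ψ₂) : Rep (ψ₁ + ψ₂) := by
  obtain ⟨l₁, c₁, e₁⟩ := h₁
  obtain ⟨l₂, c₂, e₂⟩ := h₂
  refine ⟨l₁ ++ l₂, ?_, ?_⟩
  · intro t ht
    rcases List.mem_append.mp ht with h | h
    · exact c₁ t h
    · exact c₂ t h
  · rw [List.map_append, List.sum_append, ← e₁, ← e₂]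

theorem rep_sum {ι : Type*} (s : Finset ι) (f : ι → G → ℂ) (h : ∀ i ∈ s, Rep (f i)) :
    Rep (∑ i ∈ s, f i) := by
  classical
  induction s using Finset.induction_on with
  | empty => simpa using rep_zero
  | insert a s ha ih =>
    rw [Finset.sum_insert ha]
    exact rep_add (h a (Finset.mem_insert_self a s))
      (ih fun i hi => h i (Finset.mem_insert_of_mem hi))

theorem rep_single (A : Subgroup G) (hA : IsCyclic A) (lam : A →* ℂˣ) (z : ℤ) :
    Rep ((z : ℂ) • Cfsg.indFun A (fun a => (lam a : ℂ))) :=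
  ⟨[⟨A, (lam, z)⟩], by simpa using hA, by simp⟩

theorem extendByZero_sum {ι : Type*} (A : Subgroup G) (s : Finset ι) (c : ι → ℂ)
    (f : ι → A → ℂ) (y : G) :
    extendByZero A (∑ i ∈ s, c i • f i) y = ∑ i ∈ s, c i * extendByZero A (f i) y := by
  by_cases hy : y ∈ A
  · rw [extendByZero_of_mem A _ hy]
    simp [extendByZero_of_mem A _ hy, Finset.sum_apply]
  · rw [extendByZero_of_not_mem A _ hy]
    simp [extendByZero_of_not_mem A _ hy]

theorem indFun_sum {ι : Type*} (A : Subgroup G) (s : Finset ι) (c : ι → ℂ) (f : ι → A → ℂ) :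
    indFun A (∑ i ∈ s, c i • f i) = ∑ i ∈ s, c i • indFun A (f i) := by
  funext g
  simp only [indFun_apply, extendByZero_sum, Finset.sum_apply, Pi.smul_apply, smul_eq_mul]
  rw [Finset.sum_comm, Finset.mul_sum]
  refine Finset.sum_congr rfl fun i _ => ?_
  rw [← Finset.mul_sum]; ring

open Classical in
/-- The function `|A| χ` on the generators of `A`, zero elsewhere. -/
noncomputable def thetaChi (A : Subgroup G) (χ : G → ℂ) : A → ℂ :=
  fun a => if Subgroup.zpowers a = ⊤ then (Nat.card A : ℂ) * χ a else 0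

omit [Fintype G] in
theorem zpowers_coe_eq_iff (A : Subgroup G) (a : A) :
    Subgroup.zpowers (a : G) = A ↔ Subgroup.zpowers a = ⊤ := by
  have hmap : (Subgroup.zpowers a).map A.subtype = Subgroup.zpowers (a : G) :=
    MonoidHom.map_zpowers A.subtype a
  rw [← hmap]
  constructor
  · intro h
    rw [eq_top_iff]
    intro b _
    have hb : (b : G) ∈ (Subgroup.zpowers a).map A.subtype := by rw [h]; exact b.2
    obtain ⟨c, hc, hcb⟩ := hb
    have : c = b := Subtype.ext hcb
    rw [← this]; exact hc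
  · intro h
    rw [h]
    ext y
    simp

open Classical in
theorem extend_thetaChi (A : Subgroup G) (χ : G → ℂ) (y : G) :
    extendByZero A (thetaChi A χ) y =
      if Subgroup.zpowers y = A then (Nat.card A : ℂ) * χ y else 0 := by
  by_cases hy : y ∈ A
  · rw [extendByZero_of_mem A _ hy]
    unfold thetaChi
    have := zpowers_coe_eq_iff A ⟨y, hy⟩
    by_cases h : Subgroup.zpowers (⟨y, hy⟩ : A) = ⊤
    · rw [if_pos h, if_pos (this.mpr h)]
    · rw [if_neg h, if_neg (fun h' => h (this.mp h'))]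
  · rw [extendByZero_of_not_mem A _ hy, if_neg]
    intro h
    apply hy
    rw [← h]
    exact Subgroup.mem_zpowers y

open Classical in
theorem indFun_thetaChi (A : Subgroup G) (χ : G → ℂ) (hχ : IsClassFunction G χ) (g : G) :
    indFun A (thetaChi A χ) g =
      ∑ x : G, if Subgroup.zpowers (x⁻¹ * g * x) = A then χ g else 0 := by
  rw [indFun_apply, Finset.mul_sum]
  refine Finset.sum_congr rfl fun x _ => ?_
  rw [extend_thetaChi]
  split_ifs with h
  · have hA : (Nat.card A : ℂ) ≠ 0 := (neZero_card_complex A).out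
    have h1 : χ (x⁻¹ * g * x) = χ g := by
      have := hχ g x⁻¹
      simpa using this
    rw [h1, ← mul_assoc, inv_mul_cancel₀ hA, one_mul]
  · rw [mul_zero]

theorem formulaI (χ : G → ℂ) (hχ : IsClassFunction G χ) [Fintype (Subgroup G)]
    [DecidablePred (fun A : Subgroup G => IsCyclic A)] :
    (Nat.card G : ℂ) • χ = ∑ A ∈ (Finset.univ : Finset (Subgroup G)).filter
      (fun A : Subgroup G => IsCyclic A), indFun A (thetaChi A χ) := by
  classical
  funext g
  rw [Finset.sum_apply]
  simp only [indFun_thetaChi _ _ hχ]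
  rw [Finset.sum_comm]
  have h1 : ∀ x : G, ∑ A ∈ (Finset.univ : Finset (Subgroup G)).filter
      (fun A : Subgroup G => IsCyclic A),
      (if Subgroup.zpowers (x⁻¹ * g * x) = A then χ g else 0) = χ g := by
    intro x
    rw [Finset.sum_ite_eq, if_pos]
    rw [Finset.mem_filter]
    exact ⟨Finset.mem_univ _, inferInstance⟩
  simp [h1, Nat.card_eq_fintype_card]

theorem thetaChi_inner_int (A : Subgroup G) (hA : IsCyclic A) (χ : G → ℂ)
    (hχ : IsCharacter G χ) [Fintype A] (ψ : IrrCharacter A) :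
    ∃ z : ℤ, classInner (thetaChi A χ) ψ.1 = z := by
  classical
  obtain ⟨a₀, ha₀⟩ := hA.exists_generator
  have htop : Subgroup.zpowers a₀ = ⊤ := eq_top_iff.mpr fun x _ => ha₀ x
  haveI : NeZero (orderOf a₀) := ⟨(orderOf_pos a₀).ne'⟩
  have hη : IsCharacter A (fun a => χ a * conj (ψ.1 a)) :=
    isCharacter_mul (isCharacter_restrict A hχ)
      (isCharacter_conj (isCharacter_of_isIrrCharacter ψ.2))
  obtain ⟨m, ρ', hρ'⟩ := hη
  have hAC : (Nat.card A : ℂ) ≠ 0 := (neZero_card_complex A).out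
  have h1 : classInner (thetaChi A χ) ψ.1 =
      ∑ b ∈ Finset.univ.filter (fun b : A => Subgroup.zpowers b = Subgroup.zpowers a₀),
        ρ'.character b := by
    unfold classInner
    rw [Finset.mul_sum, Finset.sum_filter]
    refine Finset.sum_congr rfl fun b _ => ?_
    unfold thetaChi
    rw [htop]
    split_ifs with h
    · rw [hρ']
      field_simp
    · simp
  rw [h1, sum_generators_eq_sum_units a₀ (fun b => ρ'.character b)]
  simp only [character_pow]
  exact rootsOfUnity_trace_int (orderOf a₀) (eigFinset ρ' a₀) (eigMult ρ' a₀)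
    (fun μ hμ => eigFinset_pow_orderOf ρ' hμ)

end

/-- The Artin induction Theorem: for a character χ of a finite group, |G| • χ is a ℤ-linear combination of functions induced from homomorphisms of cyclic subgroups into ℂˣ. -/
theorem result {G : Type*} [Group G] [Fintype G] (χ : G → ℂ) (hχ : Cfsg.IsCharacter G χ) : ∃ l : List ((A : Subgroup G) × ((A →* ℂˣ) × ℤ)), (∀ t ∈ l, IsCyclic t.1) ∧ (Nat.card G : ℂ) • χ = (l.map fun t => (t.2.2 : ℂ) • Cfsg.indFun t.1 (fun a => (t.2.1 a : ℂ))).sum := by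
  classical
  haveI : Fintype (Subgroup G) := Fintype.ofFinite _
  have hcf : IsClassFunction G χ := isClassFunction_of_isCharacter hχ
  show Rep ((Nat.card G : ℂ) • χ)
  rw [formulaI χ hcf]
  apply rep_sum
  intro A hA
  have hAcyc : IsCyclic A := (Finset.mem_filter.mp hA).2
  haveI : Fintype A := Fintype.ofFinite A
  letI := fintypeIrr A
  have hcomm : ∀ a b : A, a * b = b * a := by
    haveI := hAcyc
    letI : CommGroup A := IsCyclic.commGroup
    exact fun a b => mul_comm a b
  have hcfA : IsClassFunction A (thetaChi A χ) := fun g h => by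
    rw [hcomm h g, mul_inv_cancel_right]
  have hdec := classFunction_eq_finsum hcfA
  rw [finsum_irr_eq_sum] at hdec
  rw [hdec, indFun_sum]
  apply rep_sum
  intro ψ _
  obtain ⟨z, hz⟩ := thetaChi_inner_int A hAcyc χ hχ ψ
  obtain ⟨h1, hmul⟩ := Cfsg.Agent.H83.IsIrrCharacter.linear_of_comm hcomm ψ.2
  let f : A →* ℂ := { toFun := ψ.1, map_one' := h1, map_mul' := hmul }
  have hψ : ψ.1 = fun a => ((f.toHomUnits a : ℂˣ) : ℂ) := by
    funext a
    rw [MonoidHom.coe_toHomUnits]
    rfl
  rw [hz, hψ]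
  exact rep_single A hAcyc f.toHomUnits z

end Cfsg.Agent.S0177
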