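import Cfsg.Statements.S0178
import Cfsg.Agent.H5.RepBasic

set_option autoImplicit false
open Cfsg

namespace Cfsg.Agent.S0178

open Cfsg.Agent.H4 Cfsg.Agent.H5 in
/-- The degree of an irreducible complex representation of a finite group is at most the index of any abelian subgroup. -/
theorem result {G : Type*} [Group G] [Finite G] {V : Type*} [AddCommGroup V] [Module ℂ V] [FiniteDimensional ℂ V] (ρ : Representation ℂ G V) [ρ.IsIrreducible] (A : Subgroup G) (hA : ∀ a ∈ A, ∀ b ∈ A, a * b = b * a) : Module.finrank ℂ V ≤ A.index := by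
  classical
  have hirr := (isIrreducible_iff ρ).mp inferInstance
  have := hirr.1
  obtain ⟨w, hw, hAw⟩ := exists_common_eigenvector ρ A hA
  have : Fintype (G ⧸ A) := Fintype.ofFinite _
  let b : G ⧸ A → V := fun q => ρ q.out w
  have hinv : ∀ g : G, ∀ v ∈ Submodule.span ℂ (Set.range b), ρ g v ∈ Submodule.span ℂ (Set.range b) := by
    intro g v hv
    induction hv using Submodule.span_induction with
    | mem x hx =>
      obtain ⟨q, rfl⟩ := hx
      -- g * q.out = q'.out * a
      have hmem : ((g * q.out : G) : G ⧸ A).out⁻¹ * (g * q.out) ∈ A := by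
        rw [← QuotientGroup.eq]
        exact QuotientGroup.out_eq' _
      obtain ⟨c, hc⟩ := hAw _ hmem
      have e : g * q.out = ((g * q.out : G) : G ⧸ A).out * (((g * q.out : G) : G ⧸ A).out⁻¹ * (g * q.out)) := by
        group
      show ρ g (ρ q.out w) ∈ _
      rw [← rho_mul_apply, e, rho_mul_apply, hc, map_smul]
      exact Submodule.smul_mem _ _ (Submodule.subset_span ⟨_, rfl⟩)
    | zero => rw [map_zero]; exact Submodule.zero_mem _
    | add x y _ _ hx hy => rw [map_add]; exact Submodule.add_mem _ hx hy
    | smul c x _ hx => rw [map_smul]; exact Submodule.smul_mem _ _ hx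
  have htop : Submodule.span ℂ (Set.range b) = ⊤ := by
    rcases hirr.2 _ hinv with h | h
    · exfalso
      have h1 : b ((1 : G) : G ⧸ A) ∈ Submodule.span ℂ (Set.range b) :=
        Submodule.subset_span ⟨_, rfl⟩
      rw [h, Submodule.mem_bot] at h1
      have h2 : ρ (((1 : G) : G ⧸ A).out) w = ρ (((1 : G) : G ⧸ A).out) 0 := by
        rw [map_zero]; exact h1
      exact hw (rho_injective ρ _ h2)
    · exact h
  have h1 := finrank_range_le_card (R := ℂ) b
  unfold Set.finrank at h1
  rw [htop, finrank_top] at h1
  rw [Subgroup.index_eq_card, Nat.card_eq_fintype_card]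
  exact h1

end Cfsg.Agent.S0178
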