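import Cfsg.Statements.S0179
import Cfsg.Agent.H4.Integral

set_option autoImplicit false
open Cfsg

namespace Cfsg.Agent.S0179

open Cfsg.Agent.H4 Module
open scoped ComplexConjugate

/-- The bijection `(G ⧸ Z) × Z ≃ G`, `(q, z) ↦ q.out * z`. -/
noncomputable def cosetEquiv {G : Type*} [Group G] (Z : Subgroup G) : (G ⧸ Z) × Z ≃ G where
  toFun p := p.1.out * p.2
  invFun g := ((g : G ⧸ Z), ⟨(g : G ⧸ Z).out⁻¹ * g, by
    rw [← QuotientGroup.eq]
    exact QuotientGroup.out_eq' _⟩)
  left_inv := by
    rintro ⟨q, z⟩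
    have h : ((q.out * (z : G) : G) : G ⧸ Z) = q := by
      rw [QuotientGroup.mk_mul_of_mem _ z.2]
      exact QuotientGroup.out_eq' q
    refine Prod.ext h ?_
    apply Subtype.ext
    simp only
    rw [h, inv_mul_cancel_left]
  right_inv := by
    intro g
    simp

/-- The degree of an irreducible complex representation of a finite group divides the index of the centre. -/
theorem result {G : Type*} [Group G] [Finite G] {V : Type*} [AddCommGroup V] [Module ℂ V] [FiniteDimensional ℂ V] (ρ : Representation ℂ G V) [ρ.IsIrreducible] : Module.finrank ℂ V ∣ (Subgroup.center G).index := by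
  classical
  haveI := Fintype.ofFinite G
  have hV : Nontrivial V := ((isIrreducible_iff ρ).mp inferInstance).1
  have hd : 0 < finrank ℂ V := finrank_pos_of_irreducible ρ
  have hN : (Nat.card G : ℂ) ≠ 0 := (neZero_card_complex G).out
  set Z : Subgroup G := Subgroup.center G with hZ
  have hZC : (Nat.card Z : ℂ) ≠ 0 := (neZero_card_complex Z).out
  -- the function from H4's proof of `finrank_dvd_card`
  set f : G → ℂ := fun x => ρ.character x⁻¹ with hf
  have hclass : IsClassFunction G f := by
    intro x y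
    simp only [hf]
    have : (y * x * y⁻¹)⁻¹ = y * x⁻¹ * y⁻¹ := by simp [mul_assoc]
    rw [this]
    exact Representation.char_conj ρ x⁻¹ y
  have hint : ∀ x, IsIntegral ℤ (f x) := fun x => character_isIntegral ρ x⁻¹
  have hsum : ∑ x : G, f x * ρ.character x = (Nat.card G : ℂ) := by
    have h1 := classInner_irr_self ρ
    unfold classInner at h1
    have h2 : ∑ g : G, ρ.character g * conj (ρ.character g) = (Nat.card G : ℂ) := by
      have := congrArg (fun t => (Nat.card G : ℂ) * t) h1
      simp only [← mul_assoc, mul_inv_cancel₀ hN, one_mul, mul_one] at this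
      exact this
    rw [← h2]
    refine Finset.sum_congr rfl fun x _ => ?_
    change ρ.character x⁻¹ * ρ.character x = _
    rw [character_inv, mul_comm]
  have h := wSum_eq_smul_id hclass ρ
  rw [hsum] at h
  -- invariance under central translation
  have hinv : ∀ (t : G) (z : Z), f (t * z) • ρ (t * z) = f t • ρ t := by
    intro t z
    obtain ⟨c, hc⟩ : ∃ c : ℂ, ρ (z : G) = c • (LinearMap.id : V →ₗ[ℂ] V) := by
      apply exists_smul_id_of_comm ρ
      intro g
      have h1 : (z : G) * g = g * z := ((Subgroup.mem_center_iff.mp z.2) g).symm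
      have h2 : ρ ((z : G) * g) = ρ (g * z) := by rw [h1]
      rw [map_mul, map_mul] at h2
      exact h2
    have hc0 : c ≠ 0 := by
      intro hc0
      have h1 : ρ ((z : G) * (z : G)⁻¹) = 1 := by rw [mul_inv_cancel, map_one]
      rw [map_mul, hc, hc0, zero_smul, zero_mul] at h1
      obtain ⟨v, hv⟩ := exists_ne (0 : V)
      have := LinearMap.congr_fun h1 v
      simp at this
      exact hv this.symm
    have hcinv : ρ ((z : G)⁻¹) = c⁻¹ • (LinearMap.id : V →ₗ[ℂ] V) := by
      have h1 : ρ ((z : G)⁻¹ * (z : G)) = 1 := by rw [inv_mul_cancel, map_one]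
      rw [map_mul, hc] at h1
      have h2 : c • ρ ((z : G)⁻¹) = 1 := by
        rw [← h1]
        ext v
        simp
      calc ρ ((z : G)⁻¹) = c⁻¹ • (c • ρ ((z : G)⁻¹)) := by
            rw [smul_smul, inv_mul_cancel₀ hc0, one_smul]
        _ = c⁻¹ • (LinearMap.id : V →ₗ[ℂ] V) := by rw [h2]; rfl
    have hf1 : f (t * z) = c⁻¹ * f t := by
      simp only [hf, Representation.character]
      rw [mul_inv_rev, map_mul, hcinv]
      have : (c⁻¹ • (LinearMap.id : V →ₗ[ℂ] V)) * ρ t⁻¹ = c⁻¹ • ρ t⁻¹ := by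
        ext v; simp
      rw [this, map_smul, smul_eq_mul]
    have hρ1 : ρ (t * z) = c • ρ t := by
      rw [map_mul, hc]
      ext v; simp
    rw [hf1, hρ1, smul_smul, mul_comm c⁻¹, mul_assoc, inv_mul_cancel₀ hc0, mul_one]
  haveI : Fintype (G ⧸ Z) := Fintype.ofFinite _
  haveI : Fintype Z := Fintype.ofFinite _
  set f' : G → ℂ := fun g => if (g : G ⧸ Z).out = g then f g else 0 with hf'
  have hint' : ∀ x, IsIntegral ℤ (f' x) := by
    intro x
    simp only [hf']
    split_ifs
    · exact hint x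
    · exact isIntegral_zero
  have hout : ∀ (q : G ⧸ Z) (z : Z), (((q.out * (z : G) : G) : G ⧸ Z)).out = q.out := by
    intro q z
    have h1 : ((q.out * (z : G) : G) : G ⧸ Z) = q := by
      rw [QuotientGroup.mk_mul_of_mem _ z.2]
      exact QuotientGroup.out_eq' q
    rw [h1]
  have hsplit : wSum f ρ = (Nat.card Z : ℂ) • wSum f' ρ := by
    unfold wSum
    rw [← Equiv.sum_comp (cosetEquiv Z) (fun g => f g • ρ g),
      ← Equiv.sum_comp (cosetEquiv Z) (fun g => f' g • ρ g), Fintype.sum_prod_type,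
      Fintype.sum_prod_type, Finset.smul_sum]
    refine Finset.sum_congr rfl fun q _ => ?_
    have h1 : ∀ z : Z, f (cosetEquiv Z (q, z)) • ρ (cosetEquiv Z (q, z)) = f q.out • ρ q.out :=
      fun z => hinv q.out z
    have h2 : ∑ z : Z, f' (cosetEquiv Z (q, z)) • ρ (cosetEquiv Z (q, z)) = f q.out • ρ q.out := by
      rw [Finset.sum_eq_single (1 : Z)]
      · have : cosetEquiv Z (q, (1 : Z)) = q.out := by
          show q.out * ((1 : Z) : G) = q.out
          simp
        rw [this]
        simp only [hf']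
        rw [if_pos (by rw [QuotientGroup.out_eq' q])]
      · intro z _ hz
        have : cosetEquiv Z (q, z) = q.out * (z : G) := rfl
        rw [this]
        simp only [hf']
        rw [hout q z, if_neg, zero_smul]
        intro hcon
        apply hz
        apply Subtype.ext
        have : q.out * (z : G) = q.out * 1 := by rw [mul_one]; exact hcon.symm
        exact mul_left_cancel this
      · intro h; exact absurd (Finset.mem_univ _) h
    rw [Finset.sum_congr rfl (fun z _ => h1 z), h2, Finset.sum_const, Finset.card_univ,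
      Nat.card_eq_fintype_card, Nat.cast_smul_eq_nsmul]
  have h' : wSum f' ρ = ((Nat.card G : ℂ) / (finrank ℂ V : ℂ) / (Nat.card Z : ℂ)) •
      (LinearMap.id : V →ₗ[ℂ] V) := by
    have h1 : (Nat.card Z : ℂ) • wSum f' ρ =
        ((Nat.card G : ℂ) / (finrank ℂ V : ℂ)) • (LinearMap.id : V →ₗ[ℂ] V) := by
      rw [← hsplit, h]
    calc wSum f' ρ = (Nat.card Z : ℂ)⁻¹ • ((Nat.card Z : ℂ) • wSum f' ρ) := by
          rw [smul_smul, inv_mul_cancel₀ hZC, one_smul]
      _ = _ := by rw [h1, smul_smul]; congr 1; field_simp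
  have hint2 : IsIntegral ℤ ((Nat.card G : ℂ) / (finrank ℂ V : ℂ) / (Nat.card Z : ℂ)) :=
    isIntegral_of_wSum_eq_smul f' hint' ρ _ h'
  have hidx : (Nat.card G : ℂ) / (finrank ℂ V : ℂ) / (Nat.card Z : ℂ) =
      ((Z.index : ℚ) / (finrank ℂ V : ℚ) : ℚ) := by
    have hdc : (finrank ℂ V : ℂ) ≠ 0 := by exact_mod_cast hd.ne'
    rw [← Subgroup.card_mul_index Z]
    push_cast
    field_simp
  rw [hidx] at hint2
  have hq : IsIntegral ℤ ((Z.index : ℚ) / (finrank ℂ V : ℚ)) := by
    rw [← isIntegral_algebraMap_iff (algebraMap ℚ ℂ).injective]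
    simpa using hint2
  obtain ⟨y, hy⟩ := IsIntegrallyClosed.isIntegral_iff.mp hq
  have hdq : (finrank ℂ V : ℚ) ≠ 0 := by exact_mod_cast hd.ne'
  have h3 : (Z.index : ℚ) = (y : ℚ) * (finrank ℂ V : ℚ) := by
    have : (algebraMap ℤ ℚ) y = (y : ℚ) := rfl
    rw [this] at hy
    rw [hy, div_mul_cancel₀ _ hdq]
  have h4 : (Z.index : ℤ) = y * (finrank ℂ V : ℤ) := by exact_mod_cast h3
  have h5 : ((finrank ℂ V : ℕ) : ℤ) ∣ ((Z.index : ℕ) : ℤ) := ⟨y, by rw [h4, mul_comm]⟩
  exact Int.natCast_dvd_natCast.mp h5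

end Cfsg.Agent.S0179
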