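import Cfsg.Statements.S0180
import Cfsg.Agent.H4.IrrCount
import Cfsg.Agent.H5.Galois

set_option autoImplicit false
open Cfsg

namespace Cfsg.Agent.S0180

open Cfsg.Agent.H4

/-- Every irreducible complex character of a finite group takes only rational values if and only if g is conjugate to g ^ m for every element g and every m coprime to the group order. -/
theorem result {G : Type*} [Group G] [Finite G] : (∀ χ : Cfsg.IrrCharacter G, ∀ g : G, ∃ q : ℚ, (χ : G → ℂ) g = (q : ℂ)) ↔ ∀ m : ℕ, m.Coprime (Nat.card G) → ∀ g : G, IsConj g (g ^ m) := by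
  haveI : NeZero (Nat.card G) := ⟨Nat.card_pos.ne'⟩
  have hS : ∀ {n : ℕ} (ρ : Representation ℂ G (Fin n → ℂ)) (g : G),
      ∀ μ ∈ eigFinset ρ g, μ ^ Nat.card G = 1 := by
    intro n ρ g μ hμ
    obtain ⟨d, hd⟩ := orderOf_dvd_natCard g
    rw [hd, pow_mul, eigFinset_pow_orderOf ρ hμ, one_pow]
  constructor
  · intro hrat m hm g
    rw [isConj_iff_irr]
    intro χ
    obtain ⟨n, ρ, -, hρ⟩ := χ.2
    obtain ⟨q, hq⟩ := hrat χ g
    rw [← hρ] at hq ⊢
    rw [character_eq_sum] at hq
    have := (Cfsg.Agent.H5.rootsOfUnity_sum_rat_iff (Nat.card G) (eigFinset ρ g) (eigMult ρ g)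
      (hS ρ g)).mp ⟨q, hq⟩ m hm
    rw [character_pow, character_eq_sum, this]
  · intro hconj χ g
    obtain ⟨n, ρ, -, hρ⟩ := χ.2
    have hcf : ∀ m : ℕ, m.Coprime (Nat.card G) → ρ.character (g ^ m) = ρ.character g := by
      intro m hm
      have h1 := (isConj_iff_irr g (g ^ m)).mp (hconj m hm g) χ
      rw [← hρ] at h1
      exact h1.symm
    have := (Cfsg.Agent.H5.rootsOfUnity_sum_rat_iff (Nat.card G) (eigFinset ρ g) (eigMult ρ g)
      (hS ρ g)).mpr (fun m hm => by
        rw [← character_pow, ← character_eq_sum]; exact hcf m hm)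
    obtain ⟨q, hq⟩ := this
    refine ⟨q, ?_⟩
    rw [← hρ, character_eq_sum, hq]

end Cfsg.Agent.S0180
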