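import Cfsg.Statements.S0181
import Cfsg.Agent.H5.RepBasic

set_option autoImplicit false
open Cfsg

namespace Cfsg.Agent.S0181

open Cfsg.Agent.H4 Cfsg.Agent.H5 in
/-- Let H be a normal subgroup of a finite group G and ρ an irreducible complex representation whose kernel does not contain H. If g commutes with no non-identity element of H, then the character of ρ vanishes at g. -/
theorem result {G : Type*} [Group G] [Finite G] {V : Type*} [AddCommGroup V] [Module ℂ V] [FiniteDimensional ℂ V] (ρ : Representation ℂ G V) [ρ.IsIrreducible] (H : Subgroup G) [H.Normal] (hker : ∃ h ∈ H, ρ h ≠ LinearMap.id) (g : G) (hg : ∀ h ∈ H, h * g = g * h → h = 1) : ρ.character g = 0 := by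
  classical
  have hHn : H.Normal := inferInstance
  have : Fintype H := Fintype.ofFinite H
  -- the averaging operator vanishes
  have hfix : fixedSub ρ H = ⊥ := by
    rcases fixedSub_eq_bot_or_trivial ρ H with h | h
    · exact h
    · obtain ⟨h₀, hh₀, hne⟩ := hker
      exact absurd (h h₀ hh₀) hne
  have hE : sumSub ρ H = 0 := by
    refine LinearMap.ext fun v => ?_
    have := sumSub_mem_fixedSub ρ H v
    rw [hfix, Submodule.mem_bot] at this
    simpa using this
  have hsum : ∑ k : H, ρ.character (g * k) = 0 := by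
    rw [← trace_mul_sumSub, hE, mul_zero, map_zero]
  -- each g * k is conjugate to g
  let ψ : H → H := fun k => ⟨g⁻¹ * k * g * (k : G)⁻¹, by
    have h1 : g⁻¹ * k * g ∈ H := by
      have := hHn.conj_mem k k.2 g⁻¹
      simpa using this
    exact H.mul_mem h1 (H.inv_mem k.2)⟩
  have hψinj : Function.Injective ψ := by
    intro k k' hkk'
    have h1 : g⁻¹ * k * g * (k : G)⁻¹ = g⁻¹ * k' * g * (k' : G)⁻¹ := congrArg Subtype.val hkk'
    have h2 : ((k' : G)⁻¹ * k) * g = g * ((k' : G)⁻¹ * k) := by
      have e1 : (k : G) * g * (k : G)⁻¹ = k' * g * (k' : G)⁻¹ := by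
        have := congrArg (fun t => g * t) h1
        have l1 : g * (g⁻¹ * ↑k * g * (↑k)⁻¹) = k * g * (k : G)⁻¹ := by group
        have l2 : g * (g⁻¹ * ↑k' * g * (↑k')⁻¹) = k' * g * (k' : G)⁻¹ := by group
        calc (k : G) * g * (k : G)⁻¹ = g * (g⁻¹ * ↑k * g * (↑k)⁻¹) := l1.symm
          _ = g * (g⁻¹ * ↑k' * g * (↑k')⁻¹) := this
          _ = k' * g * (k' : G)⁻¹ := l2
      calc ((k' : G)⁻¹ * k) * g = (k' : G)⁻¹ * (k * g * (k : G)⁻¹) * k := by group
        _ = (k' : G)⁻¹ * (k' * g * (k' : G)⁻¹) * k := by rw [e1]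
        _ = g * ((k' : G)⁻¹ * k) := by group
    have h3 := hg _ (H.mul_mem (H.inv_mem k'.2) k.2) h2
    apply Subtype.ext
    have : (k : G) = k' * ((k' : G)⁻¹ * k) := by group
    rw [this, h3, mul_one]
  have hψsurj : Function.Surjective ψ := Finite.injective_iff_surjective.mp hψinj
  have hconst : ∀ k : H, ρ.character (g * k) = ρ.character g := by
    intro k
    obtain ⟨k₀, rfl⟩ := hψsurj k
    have e : g * ((ψ k₀ : H) : G) = k₀ * g * (k₀ : G)⁻¹ := by
      show g * (g⁻¹ * k₀ * g * (k₀ : G)⁻¹) = _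
      group
    rw [e, Representation.char_conj]
  rw [Finset.sum_congr rfl (fun k _ => hconst k), Finset.sum_const, Finset.card_univ,
    nsmul_eq_mul] at hsum
  have hne : (Fintype.card H : ℂ) ≠ 0 := by
    exact_mod_cast Fintype.card_ne_zero
  exact (mul_eq_zero.mp hsum).resolve_left hne

end Cfsg.Agent.S0181
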