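import Cfsg.Statements.S0184
import Cfsg.Agent.H4.Integral
import Cfsg.Agent.H4.IrrCount
import Cfsg.Agent.H83.Basic
import Cfsg.Agent.S0065

set_option autoImplicit false
open Cfsg

namespace Cfsg.Agent.S0184

open Cfsg.Agent.H4

/-- In a finite cyclic group, an element killed by the prime `p` lies in the subgroup generated
by any element of order `p`. -/
theorem mem_zpowers_of_orderOf_eq {Z : Type*} [Group Z] [Finite Z] [IsCyclic Z] {p : ℕ}
    (hp : p.Prime) {a b : Z} (ha : orderOf a = p) (hb : b ^ p = 1) : b ∈ Subgroup.zpowers a := by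
  classical
  haveI := Fintype.ofFinite Z
  have h1 : (Finset.univ.filter (fun x : Z => x ^ p = 1)).card ≤ p :=
    IsCyclic.card_pow_eq_one_le hp.pos
  have h2 : ((Finset.range p).image (fun i => a ^ i)) ⊆
      Finset.univ.filter (fun x : Z => x ^ p = 1) := by
    intro x hx
    obtain ⟨i, _, rfl⟩ := Finset.mem_image.mp hx
    rw [Finset.mem_filter]
    refine ⟨Finset.mem_univ _, ?_⟩
    rw [← pow_mul, mul_comm, pow_mul, ← ha, pow_orderOf_eq_one, one_pow]
  have h3 : ((Finset.range p).image (fun i => a ^ i)).card = p := by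
    rw [Finset.card_image_of_injOn, Finset.card_range]
    intro i hi j hj hij
    rw [Finset.coe_range, Set.mem_Iio] at hi hj
    exact pow_injOn_Iio_orderOf (by rw [ha]; exact hi) (by rw [ha]; exact hj) hij
  have h4 := Finset.eq_of_subset_of_card_le h2 (by rw [h3]; exact h1)
  have h5 : b ∈ Finset.univ.filter (fun x : Z => x ^ p = 1) := by simp [hb]
  rw [← h4] at h5
  obtain ⟨i, _, rfl⟩ := Finset.mem_image.mp h5
  exact Subgroup.npow_mem_zpowers a i

theorem forward {G : Type*} [Group G] [Finite G] (n : ℕ) (ρ : Representation ℂ G (Fin n → ℂ))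
    (hirr : ρ.IsIrreducible) (hinj : Function.Injective ρ) : IsCyclic (Subgroup.center G) := by
  haveI := hirr
  have hnt : Nontrivial (Fin n → ℂ) := ((isIrreducible_iff ρ).mp hirr).1
  obtain ⟨v, hv⟩ := exists_ne (0 : Fin n → ℂ)
  have hsc : ∀ z : Subgroup.center G, ∃ c : ℂ, ρ (z : G) = c • (LinearMap.id : (Fin n → ℂ) →ₗ[ℂ] _) := by
    intro z
    apply exists_smul_id_of_comm ρ
    intro g
    have h1 : (z : G) * g = g * z := ((Subgroup.mem_center_iff.mp z.2) g).symm
    have h2 : ρ ((z : G) * g) = ρ (g * z) := by rw [h1]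
    rw [map_mul, map_mul] at h2
    exact h2
  choose c hc using hsc
  have hcv : ∀ z : Subgroup.center G, ρ (z : G) v = c z • v := by
    intro z; rw [hc z]; simp
  have hc1 : c 1 = 1 := by
    have h1 := hcv 1
    rw [Subgroup.coe_one, map_one] at h1
    have h2 : (1 : ℂ) • v = c 1 • v := by rw [one_smul]; exact h1
    exact (smul_left_injective ℂ hv h2).symm
  have hcmul : ∀ z w : Subgroup.center G, c (z * w) = c z * c w := by
    intro z w
    have h1 := hcv (z * w)
    rw [Subgroup.coe_mul, map_mul, Module.End.mul_apply, hcv w, map_smul, hcv z, smul_smul] at h1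
    have h2 : (c w * c z) • v = c (z * w) • v := h1
    rw [mul_comm]
    exact (smul_left_injective ℂ hv h2).symm
  let f : Subgroup.center G →* ℂ :=
    { toFun := c
      map_one' := hc1
      map_mul' := hcmul }
  have hf : Function.Injective f := by
    intro z w hzw
    have h1 : c z = c w := hzw
    apply Subtype.ext
    apply hinj
    rw [hc z, hc w, h1]
  exact isCyclic_of_injective_ringHom f hf

theorem backward {G : Type*} [Group G] [Finite G] (p : ℕ) [hp : Fact p.Prime] (hG : IsPGroup p G)
    (hcyc : IsCyclic (Subgroup.center G)) :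
    ∃ (n : ℕ) (ρ : Representation ℂ G (Fin n → ℂ)), ρ.IsIrreducible ∧ Function.Injective ρ := by
  classical
  rcases subsingleton_or_nontrivial G with hsub | hnt
  · refine ⟨1, Representation.trivial ℂ G (Fin 1 → ℂ), ?_, fun a b _ => Subsingleton.elim a b⟩
    exact Cfsg.Agent.H83.isIrreducible_of_finrank_eq_one _ (by simp)
  · haveI : Group.IsNilpotent G := hG.isNilpotent
    have hZnt : Nontrivial (Subgroup.center G) := hG.center_nontrivial
    have hZp : IsPGroup p (Subgroup.center G) := hG.to_subgroup _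
    have hdvd : p ∣ Nat.card (Subgroup.center G) := by
      rcases hZp.card_eq_or_dvd with h | h
      · exfalso
        have := (Nat.card_eq_one_iff_unique.mp h).1
        exact not_subsingleton _ this
      · exact h
    obtain ⟨z₀, hz₀⟩ := exists_prime_orderOf_dvd_card' p hdvd
    have hz₀ne : (z₀ : G) ≠ 1 := by
      intro h
      have h1 : z₀ = 1 := Subtype.ext h
      rw [h1, orderOf_one] at hz₀
      exact hp.out.one_lt.ne hz₀
    have hnc : ¬ IsConj (z₀ : G) 1 := fun h => hz₀ne (isConj_one_left.mp h)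
    rw [isConj_iff_irr] at hnc
    push Not at hnc
    obtain ⟨χ, hχ⟩ := hnc
    obtain ⟨n, ρ, hirr, hρχ⟩ := χ.2
    refine ⟨n, ρ, hirr, ?_⟩
    have hρz₀ : ρ (z₀ : G) ≠ 1 := by
      intro h
      apply hχ
      rw [← hρχ]
      simp only [Representation.character]
      rw [h, map_one (ρ : G →* _)]
    by_contra hninj
    have hker : (ρ : G →* _).ker ≠ ⊥ := by
      intro hbot
      apply hninj
      intro x y hxy
      have h1 : x * y⁻¹ ∈ (ρ : G →* _).ker := by
        rw [MonoidHom.mem_ker, map_mul, hxy, ← map_mul, mul_inv_cancel, map_one]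
      rw [hbot, Subgroup.mem_bot] at h1
      exact mul_inv_eq_one.mp h1
    have hmeet := Cfsg.Agent.S0065.result (ρ : G →* _).ker hker
    have hMp : IsPGroup p ((ρ : G →* _).ker ⊓ Subgroup.center G : Subgroup G) := hG.to_subgroup _
    have hdvd2 : p ∣ Nat.card ((ρ : G →* _).ker ⊓ Subgroup.center G : Subgroup G) := by
      rcases hMp.card_eq_or_dvd with h | h
      · exfalso
        exact hmeet (Subgroup.card_eq_one.mp h)
      · exact h
    obtain ⟨w, hw⟩ := exists_prime_orderOf_dvd_card' p hdvd2
    have hwZ : (w : G) ∈ Subgroup.center G := w.2.2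
    have hwK : (w : G) ∈ (ρ : G →* _).ker := w.2.1
    have hword : orderOf (⟨(w : G), hwZ⟩ : Subgroup.center G) = p := by
      rw [← hw, ← Subgroup.orderOf_coe, ← Subgroup.orderOf_coe]
    have hz₀p : z₀ ^ p = 1 := by rw [← hz₀, pow_orderOf_eq_one]
    have hmem := mem_zpowers_of_orderOf_eq hp.out hword hz₀p
    obtain ⟨k, hk⟩ := Subgroup.mem_zpowers_iff.mp hmem
    have hz₀K : (z₀ : G) ∈ (ρ : G →* _).ker := by
      have h1 : (z₀ : G) = (w : G) ^ k := by
        rw [← hk]; simp
      rw [h1]
      exact Subgroup.zpow_mem _ hwK k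
    exact hρz₀ (MonoidHom.mem_ker.mp hz₀K)

/-- A finite p-group admits a faithful irreducible complex representation if and only if its centre is cyclic. -/
theorem result {G : Type*} [Group G] [Finite G] (p : ℕ) [Fact p.Prime] (hG : IsPGroup p G) : (∃ (n : ℕ) (ρ : Representation ℂ G (Fin n → ℂ)), ρ.IsIrreducible ∧ Function.Injective ρ) ↔ IsCyclic (Subgroup.center G) := by
  constructor
  · rintro ⟨n, ρ, hirr, hinj⟩
    exact forward n ρ hirr hinj
  · exact backward p hG

end Cfsg.Agent.S0184
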