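import Cfsg.Statements.S0185
import Cfsg.Agent.H4.Irr
import Cfsg.Agent.H81.Degree

set_option autoImplicit false
open Cfsg

namespace Cfsg.Agent.S0185

open Cfsg.Agent.H4

/-- If all prime divisors of `|G|` exceed `dim V`, then `ρ(G)` is commutative. -/
theorem commute_of_small_degree {G : Type*} [Group G] [Finite G] :
    ∀ (V : Type*) [AddCommGroup V] [Module ℂ V] [FiniteDimensional ℂ V]
      (ρ : Representation ℂ G V),
      (∀ p : ℕ, p.Prime → p ∣ Nat.card G → Module.finrank ℂ V < p) →
      ∀ a b : G, ρ a * ρ b = ρ b * ρ a := by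
  apply rep_induction
  · intro V _ _ _ ρ hV _ a b
    exact LinearMap.ext fun v => Subsingleton.elim _ _
  · intro V _ _ _ ρ U W hUW hU hW hdeg a b
    have hsum := finrank_of_isCompl ρ U W hUW
    have hcompl := isCompl_toSubmodule hUW
    -- U is one-dimensional
    have hUnt := ((isIrreducible_iff _).mp hU).1
    have hUpos : 0 < Module.finrank ℂ U.toSubmodule := Module.finrank_pos
    have hUdvd : Module.finrank ℂ U.toSubmodule ∣ Nat.card G := by
      classical
      have := Fintype.ofFinite G
      exact Cfsg.Agent.H81.finrank_dvd_card U.toRepresentation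
    have hU1 : Module.finrank ℂ U.toSubmodule = 1 := by
      by_contra hne
      obtain ⟨p, hp, hpdvd⟩ := Nat.exists_prime_and_dvd hne
      have h1 := hdeg p hp (dvd_trans hpdvd hUdvd)
      have h2 := Nat.le_of_dvd hUpos hpdvd
      omega
    obtain ⟨u₀, hu₀, hspan⟩ := finrank_eq_one_iff'.mp hU1
    -- commutation on U
    have hcommU : ∀ u ∈ U.toSubmodule, ρ a (ρ b u) = ρ b (ρ a u) := by
      intro u hu
      obtain ⟨c, hc⟩ := hspan ⟨u, hu⟩
      obtain ⟨α, hα⟩ := hspan ⟨ρ a u₀, U.apply_mem_toSubmodule a u₀.2⟩
      obtain ⟨β, hβ⟩ := hspan ⟨ρ b u₀, U.apply_mem_toSubmodule b u₀.2⟩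
      have hc' : u = c • (u₀ : V) := by
        have := congrArg Subtype.val hc
        simpa using this.symm
      have hα' : ρ a (u₀ : V) = α • (u₀ : V) := by
        have := congrArg Subtype.val hα
        simpa using this.symm
      have hβ' : ρ b (u₀ : V) = β • (u₀ : V) := by
        have := congrArg Subtype.val hβ
        simpa using this.symm
      rw [hc']
      simp only [map_smul, hα', hβ', smul_smul]
      congr 1
      ring
    -- commutation on W
    have hcommW : ∀ w ∈ W.toSubmodule, ρ a (ρ b w) = ρ b (ρ a w) := by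
      intro w hw
      have h1 := hW (fun p hp hpd => by have := hdeg p hp hpd; omega) a b
      have h2 := congrArg (fun T : Module.End ℂ W.toSubmodule => ((T ⟨w, hw⟩ : W.toSubmodule) : V)) h1
      exact h2
    refine LinearMap.ext fun v => ?_
    have hv : v ∈ U.toSubmodule ⊔ W.toSubmodule := by
      rw [hcompl.sup_eq_top]; exact Submodule.mem_top
    obtain ⟨u, hu, w, hw, rfl⟩ := Submodule.mem_sup.mp hv
    simp only [Module.End.mul_apply, map_add]
    rw [hcommU u hu, hcommW w hw]

/-- If a finite group has a faithful complex representation of degree less than the smallest prime dividing its order, the group is abelian. -/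
theorem result {G : Type*} [Group G] [Finite G] {V : Type*} [AddCommGroup V] [Module ℂ V] [FiniteDimensional ℂ V] (ρ : Representation ℂ G V) (hfaithful : Function.Injective ρ) (hdeg : ∀ p : ℕ, p.Prime → p ∣ Nat.card G → Module.finrank ℂ V < p) (a b : G) : a * b = b * a := by
  apply hfaithful
  rw [map_mul, map_mul]
  exact commute_of_small_degree V ρ hdeg a b

end Cfsg.Agent.S0185
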