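import Cfsg.Statements.S0186
import Cfsg.Agent.S0185
import Cfsg.Agent.H4.IrrCount
import Cfsg.Agent.H83.Basic

set_option autoImplicit false
open Cfsg

namespace Cfsg.Agent.S0186

open Cfsg.Agent.H4

/-- In a finite group with `p^2 ∣ |G|` and more than `|G|/p^2` classes, some non-principal
irreducible character has degree `< p`. -/
theorem exists_small_irr {G : Type*} [Group G] [Finite G] (p : ℕ) (hp0 : 0 < p)
    (hp2 : p ^ 2 ∣ Nat.card G) (hmany : Nat.card G < p ^ 2 * Nat.card (ConjClasses G)) :
    ∃ χ : IrrCharacter G, (χ : G → ℂ) ≠ (fun _ => 1) ∧ ∃ d : ℕ, d < p ∧ (χ : G → ℂ) 1 = d := by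
  classical
  let _ := fintypeIrr G
  by_contra hcon
  push Not at hcon
  -- degrees
  choose deg hdegpos hdeg using fun χ : IrrCharacter G => irr_one_eq_natCast χ
  have hbig : ∀ χ : IrrCharacter G, (χ : G → ℂ) ≠ (fun _ => 1) → p ≤ deg χ := by
    intro χ hχ
    by_contra hlt
    exact hcon χ hχ (deg χ) (not_le.mp hlt) (hdeg χ)
  have hsum := sum_irr_sq (G := G)
  rw [finsum_irr_eq_sum] at hsum
  have hsumN : ∑ χ : IrrCharacter G, deg χ ^ 2 = Nat.card G := by
    have : ((∑ χ : IrrCharacter G, deg χ ^ 2 : ℕ) : ℂ) = (Nat.card G : ℂ) := by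
      rw [← hsum]
      push_cast
      exact Finset.sum_congr rfl (fun χ _ => by rw [hdeg χ])
    exact_mod_cast this
  let χ₀ : IrrCharacter G := Cfsg.Agent.H83.trivChar G
  have hcard : Fintype.card (IrrCharacter G) = Nat.card (ConjClasses G) := by
    rw [← Nat.card_eq_fintype_card, card_irr_eq_card_conjClasses]
  have hlow : (Fintype.card (IrrCharacter G) - 1) * p ^ 2 ≤ ∑ χ ∈ Finset.univ.erase χ₀, deg χ ^ 2 := by
    have h1 : (Finset.univ.erase χ₀).card = Fintype.card (IrrCharacter G) - 1 := by
      rw [Finset.card_erase_of_mem (Finset.mem_univ _), Finset.card_univ]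
    rw [← h1, ← smul_eq_mul]
    apply Finset.card_nsmul_le_sum
    intro χ hχ
    have hne : χ ≠ χ₀ := Finset.ne_of_mem_erase hχ
    have hne' : (χ : G → ℂ) ≠ (fun _ => 1) := by
      intro h
      apply hne
      apply Subtype.ext
      exact h
    exact Nat.pow_le_pow_left (hbig χ hne') 2
  have hsplit := Finset.add_sum_erase Finset.univ (fun χ : IrrCharacter G => deg χ ^ 2)
    (Finset.mem_univ χ₀)
  have hpos0 : 0 < deg χ₀ ^ 2 := by have := hdegpos χ₀; positivity
  obtain ⟨q, hq⟩ := hp2
  rw [hcard] at hlow
  rw [hq] at hmany hsumN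
  have hqk : q < Nat.card (ConjClasses G) := by
    have hp2pos : 0 < p ^ 2 := by positivity
    exact lt_of_mul_lt_mul_left hmany (Nat.zero_le _)
  have h3 : q * p ^ 2 ≤ (Nat.card (ConjClasses G) - 1) * p ^ 2 :=
    Nat.mul_le_mul_right _ (by omega)
  nlinarith [hlow, hsplit, hsumN, h3, hpos0]

/-- Let G be a finite simple group of order n and p a prime dividing n. If G has more than n / p^2 conjugacy classes, then every Sylow p-subgroup of G is abelian. -/
theorem result {G : Type*} [Group G] [Finite G] [IsSimpleGroup G] (p : ℕ) [Fact p.Prime] (hp : p ∣ Nat.card G) (hmany : Nat.card G < p ^ 2 * Nat.card (ConjClasses G)) (P : Sylow p G) (a b : G) (ha : a ∈ P) (hb : b ∈ P) : a * b = b * a := by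
  classical
  have hpp : p.Prime := Fact.out
  obtain ⟨v, hv⟩ : ∃ v, Nat.card (P : Subgroup G) = p ^ v := ⟨_, P.card_eq_multiplicity⟩
  by_cases hp2 : p ^ 2 ∣ Nat.card G
  · obtain ⟨χ, hχ1, d, hdp, hd⟩ := exists_small_irr p hpp.pos hp2 hmany
    obtain ⟨n, ρ, hρ, hρχ⟩ := χ.2
    have hirr := (isIrreducible_iff ρ).mp hρ
    have hnd : Module.finrank ℂ (Fin n → ℂ) = d := by
      have h1 : ρ.character 1 = (d : ℂ) := by rw [hρχ]; exact hd
      rw [Representation.char_one] at h1
      exact_mod_cast h1
    -- ρ is injective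
    have hinj : Function.Injective ρ := by
      rw [← MonoidHom.ker_eq_bot_iff]
      rcases IsSimpleGroup.eq_bot_or_eq_top_of_normal ρ.ker inferInstance with h | h
      · exact h
      · exfalso
        have htriv : ∀ g : G, ρ g = 1 := by
          intro g
          have : g ∈ ρ.ker := by rw [h]; exact Subgroup.mem_top g
          exact this
        have hdim : Module.finrank ℂ (Fin n → ℂ) = 1 := by
          have := hirr.1
          obtain ⟨w, hw⟩ := exists_ne (0 : Fin n → ℂ)
          rcases hirr.2 (Submodule.span ℂ {w}) (by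
            intro g u hu
            rw [htriv g]
            exact hu) with h' | h'
          · exfalso
            rw [Submodule.span_singleton_eq_bot] at h'
            exact hw h'
          · have h1 : Module.finrank ℂ (Submodule.span ℂ {w}) = 1 := finrank_span_singleton hw
            rw [h'] at h1
            rwa [finrank_top] at h1
        apply hχ1
        rw [← hρχ]
        funext g
        unfold Representation.character
        rw [htriv g, LinearMap.trace_one, hdim]
        simp
    -- restrict to P
    obtain ⟨σ, hσ⟩ : ∃ σ : Representation ℂ ↥(P : Subgroup G) (Fin n → ℂ),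
        ∀ g : ↥(P : Subgroup G), σ g = ρ (g : G) := ⟨ρ.comp (P : Subgroup G).subtype, fun _ => rfl⟩
    have hσinj : Function.Injective σ := by
      intro x y hxy
      rw [hσ, hσ] at hxy
      exact Subtype.ext (hinj hxy)
    have hdeg : ∀ q : ℕ, q.Prime → q ∣ Nat.card (P : Subgroup G) → Module.finrank ℂ (Fin n → ℂ) < q := by
      intro q hq hqd
      rw [hv] at hqd
      have := (Nat.prime_dvd_prime_iff_eq hq hpp).mp (hq.dvd_of_dvd_pow hqd)
      rw [this, hnd]
      exact hdp
    have := Cfsg.Agent.S0185.result σ hσinj hdeg ⟨a, ha⟩ ⟨b, hb⟩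
    exact congrArg Subtype.val this
  · -- |P| divides p
    have hv1 : v ≤ 1 := by
      by_contra hv2
      apply hp2
      have h1 : p ^ 2 ∣ p ^ v := pow_dvd_pow p (by omega)
      rw [← hv] at h1
      exact dvd_trans h1 (Subgroup.card_subgroup_dvd_card _)
    have hcyc : IsCyclic (P : Subgroup G) := by
      rcases Nat.lt_or_ge v 1 with h0 | h1
      · have : v = 0 := by omega
        rw [this, pow_zero] at hv
        have : Subsingleton (P : Subgroup G) := (Nat.card_eq_one_iff_unique.mp hv).1
        infer_instance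
      · have : v = 1 := by omega
        rw [this, pow_one] at hv
        exact isCyclic_of_prime_card hv
    have := (IsCyclic.isMulCommutative (α := (P : Subgroup G))).is_comm.comm (⟨a, ha⟩ : (P : Subgroup G)) ⟨b, hb⟩
    exact congrArg Subtype.val this

end Cfsg.Agent.S0186
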