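import Cfsg.Statements.S0187
import Cfsg.Agent.H4.IrrCount

set_option autoImplicit false
open Cfsg

namespace Cfsg.Agent.S0187

open Cfsg.Agent.H4 in
/-- A finite group is commutative if and only if every irreducible complex character has degree 1. -/
theorem result {G : Type*} [Group G] [Finite G] : (∀ a b : G, a * b = b * a) ↔ ∀ χ : Cfsg.IrrCharacter G, (χ : G → ℂ) 1 = 1 := by
  constructor
  · intro hcomm χ
    obtain ⟨n, ρ, hρ, h⟩ := χ.2
    have : IsMulCommutative G := ⟨⟨hcomm⟩⟩
    have h1 := Representation.IsIrreducible.finrank_eq_one_of_isMulCommutative ρ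
    rw [← h, Representation.char_one, h1]
    simp
  · intro hdeg
    classical
    letI := fintypeIrr G
    have hsum := sum_irr_sq (G := G)
    rw [finsum_irr_eq_sum] at hsum
    have h2 : ∑ χ : IrrCharacter G, (χ : G → ℂ) 1 ^ 2 = (Nat.card (IrrCharacter G) : ℂ) := by
      rw [Finset.sum_congr rfl (fun χ _ => by rw [hdeg χ, one_pow])]
      simp [Nat.card_eq_fintype_card]
    have hcard : Nat.card (ConjClasses G) = Nat.card G := by
      rw [← card_irr_eq_card_conjClasses]
      have : (Nat.card (IrrCharacter G) : ℂ) = (Nat.card G : ℂ) := by rw [← h2]; exact hsum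
      exact_mod_cast this
    have hbij : Function.Bijective (ConjClasses.mk : G → ConjClasses G) := by
      rw [Nat.bijective_iff_surjective_and_card]
      exact ⟨ConjClasses.mk_surjective, hcard.symm⟩
    intro a b
    have h3 : ConjClasses.mk (b * a * b⁻¹) = ConjClasses.mk a := by
      rw [ConjClasses.mk_eq_mk_iff_isConj]
      exact (isConj_iff.mpr ⟨b, rfl⟩).symm
    have h4 := hbij.1 h3
    calc a * b = (b * a * b⁻¹) * b := by rw [h4]
      _ = b * a := by group

end Cfsg.Agent.S0187
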