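import Cfsg.Statements.S0189
import Mathlib

set_option autoImplicit false
open Cfsg

namespace Cfsg.Agent.S0189

/-- If a complex character of a finite group vanishes at every non-identity element of a Sylow p-subgroup P, then |P| divides its degree. -/
theorem result {G : Type*} [Group G] [Finite G] (p : ℕ) [Fact p.Prime] (P : Sylow p G) (χ : G → ℂ) (hχ : Cfsg.IsCharacter G χ) (hvan : ∀ g : G, g ∈ P → g ≠ 1 → χ g = 0) : ∃ k : ℕ, χ 1 = (Nat.card P : ℂ) * k := by
  classical
  obtain ⟨n, ρ, rfl⟩ := hχ
  have : Fintype (P : Subgroup G) := Fintype.ofFinite _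
  have hne : (Nat.card (P : Subgroup G) : ℂ) ≠ 0 := by
    exact_mod_cast (Nat.card_pos (α := (P : Subgroup G))).ne'
  have : Invertible (Nat.card (P : Subgroup G) : ℂ) := invertibleOfNonzero hne
  obtain ⟨σ, hσ⟩ : ∃ σ : Representation ℂ ↥(P : Subgroup G) (Fin n → ℂ),
      ∀ g : ↥(P : Subgroup G), σ g = ρ (g : G) := ⟨ρ.comp (P : Subgroup G).subtype, fun _ => rfl⟩
  have key := Representation.card_inv_mul_sum_char_eq_finrank σ
  refine ⟨Module.finrank ℂ (Representation.invariants σ), ?_⟩
  rw [← key]
  have hchar : ∀ g : ↥(P : Subgroup G), σ.character g = ρ.character (g : G) := by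
    intro g
    unfold Representation.character
    rw [hσ]
  have hsum : ∑ g : (P : Subgroup G), σ.character g = ρ.character 1 := by
    rw [Finset.sum_eq_single (1 : (P : Subgroup G))]
    · rw [hchar]; rfl
    · intro b _ hb
      have hb' : (b : G) ≠ 1 := fun h => hb (Subtype.ext h)
      rw [hchar]
      exact hvan b b.2 hb'
    · intro h; exact absurd (Finset.mem_univ _) h
  rw [hsum]
  field_simp

end Cfsg.Agent.S0189
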