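import Cfsg.Statements.S0190
import Cfsg.Agent.H19.IndFun

set_option autoImplicit false
open Cfsg

namespace Cfsg.Agent.S0190

/-- For a transitive action of a finite group on X, the permutation character g ↦ (number of fixed points of g) is the function induced from the principal character of the stabilizer of any point. -/
theorem result {G : Type*} [Group G] [Fintype G] (X : Type*) [MulAction G X] [Finite X] [MulAction.IsPretransitive G X] (x : X) : (fun g : G => (Nat.card (MulAction.fixedBy X g) : ℂ)) = Cfsg.indFun (MulAction.stabilizer G x) (fun _ => 1) := by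
  funext g
  rw [Cfsg.Agent.H19.indFun_one_eq_card_fixedBy]
  congr 1
  symm
  apply Nat.card_eq_of_bijective
    (fun q : MulAction.fixedBy (G ⧸ MulAction.stabilizer G x) g =>
      (⟨MulAction.ofQuotientStabilizer G x q.1, by
        rw [MulAction.mem_fixedBy, ← MulAction.ofQuotientStabilizer_smul]
        exact congrArg _ (MulAction.mem_fixedBy.mp q.2)⟩ : MulAction.fixedBy X g))
  constructor
  · intro a b hab
    apply Subtype.ext
    exact MulAction.injective_ofQuotientStabilizer G x (congrArg Subtype.val hab)
  · rintro ⟨y, hy⟩
    obtain ⟨k, rfl⟩ := MulAction.exists_smul_eq G x y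
    refine ⟨⟨(k : G ⧸ MulAction.stabilizer G x), ?_⟩, ?_⟩
    · rw [MulAction.mem_fixedBy]
      apply MulAction.injective_ofQuotientStabilizer G x
      rw [MulAction.ofQuotientStabilizer_smul, MulAction.ofQuotientStabilizer_mk]
      exact MulAction.mem_fixedBy.mp hy
    · apply Subtype.ext
      exact MulAction.ofQuotientStabilizer_mk G x k

end Cfsg.Agent.S0190
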