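import Cfsg.Statements.S0191
import Cfsg.Agent.H4.Irr
import Cfsg.Agent.H5.Galois2

set_option autoImplicit false
open Cfsg

namespace Cfsg.Agent.S0191

open Cfsg.Agent.H4 Cfsg.Agent.H5 Module
open scoped ComplexConjugate

/-- An irreducible complex representation of a finite group of degree greater than 1 has a character that vanishes somewhere. -/
theorem result {G : Type*} [Group G] [Finite G] {V : Type*} [AddCommGroup V] [Module ℂ V] [FiniteDimensional ℂ V] (ρ : Representation ℂ G V) [ρ.IsIrreducible] (hdeg : 1 < Module.finrank ℂ V) : ∃ g : G, ρ.character g = 0 := by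
  classical
  haveI := Fintype.ofFinite G
  by_contra hcon
  push Not at hcon
  haveI : NeZero (Nat.card G) := ⟨Nat.card_pos.ne'⟩
  have hNC : (Nat.card G : ℂ) ≠ 0 := (neZero_card_complex G).out
  -- norm sum
  have hnorm : ∑ g : G, ‖ρ.character g‖ ^ 2 = (Nat.card G : ℝ) := by
    have h1 := classInner_irr_self ρ
    unfold classInner at h1
    have h2 : ∑ g : G, ρ.character g * conj (ρ.character g) = (Nat.card G : ℂ) := by
      have := congrArg (fun t => (Nat.card G : ℂ) * t) h1
      simp only [← mul_assoc, mul_inv_cancel₀ hNC, one_mul, mul_one] at this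
      exact this
    have h3 : ∀ g, ρ.character g * conj (ρ.character g) = ((‖ρ.character g‖ ^ 2 : ℝ) : ℂ) := by
      intro g
      rw [Complex.mul_conj, Complex.normSq_eq_norm_sq]
    simp only [h3] at h2
    exact_mod_cast h2
  have hS : ∀ g : G, ∀ μ ∈ eigFinset ρ g, μ ^ Nat.card G = 1 := by
    intro g μ hμ
    obtain ⟨d, hd⟩ := orderOf_dvd_natCard g
    rw [hd, pow_mul, eigFinset_pow_orderOf ρ hμ, one_pow]
  have hA : ∀ g : G, (Fintype.card (ZMod (Nat.card G))ˣ : ℝ) ≤
      ∑ u : (ZMod (Nat.card G))ˣ, ‖ρ.character (g ^ (u : ZMod (Nat.card G)).val)‖ ^ 2 := by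
    intro g
    obtain ⟨z, hz, hz0⟩ := rootsOfUnity_norm_int (Nat.card G) (eigFinset ρ g) (eigMult ρ g) (hS g)
    have hz1 : z ≠ 0 := hz0 (by rw [← character_eq_sum]; exact hcon g)
    apply card_le_sum_of_one_le_prod
    · intro u; positivity
    · rw [Finset.prod_pow, ← norm_prod]
      have h1 : ∏ u : (ZMod (Nat.card G))ˣ, ρ.character (g ^ (u : ZMod (Nat.card G)).val) = z := by
        rw [← hz]
        exact Finset.prod_congr rfl fun u _ => character_pow ρ g _
      rw [h1]
      have h2 : (1 : ℝ) ≤ ‖(z : ℂ)‖ := by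
        rw [Complex.norm_intCast]
        exact_mod_cast Int.one_le_abs hz1
      exact one_le_pow₀ h2
  have hperm : ∀ u : (ZMod (Nat.card G))ˣ,
      ∑ g : G, ‖ρ.character (g ^ (u : ZMod (Nat.card G)).val)‖ ^ 2 =
        ∑ g : G, ‖ρ.character g‖ ^ 2 := by
    intro u
    have hcop : (Nat.card G).Coprime (u : ZMod (Nat.card G)).val :=
      (ZMod.val_coe_unit_coprime u).symm
    exact Equiv.sum_comp (powCoprime hcop) (fun g => ‖ρ.character g‖ ^ 2)
  have htotal : ∑ g : G, ∑ u : (ZMod (Nat.card G))ˣ,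
      ‖ρ.character (g ^ (u : ZMod (Nat.card G)).val)‖ ^ 2 =
        (Fintype.card (ZMod (Nat.card G))ˣ : ℝ) * Nat.card G := by
    rw [Finset.sum_comm]
    simp only [hperm, hnorm]
    simp [Finset.sum_const, Finset.card_univ]
  have hone : ∑ u : (ZMod (Nat.card G))ˣ,
      ‖ρ.character ((1 : G) ^ (u : ZMod (Nat.card G)).val)‖ ^ 2 =
        (Fintype.card (ZMod (Nat.card G))ˣ : ℝ) * (finrank ℂ V : ℝ) ^ 2 := by
    simp [one_pow, Representation.char_one, Finset.sum_const, Finset.card_univ]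
  have hlow : (Fintype.card (ZMod (Nat.card G))ˣ : ℝ) * (finrank ℂ V : ℝ) ^ 2 +
      ((Nat.card G : ℝ) - 1) * Fintype.card (ZMod (Nat.card G))ˣ ≤
      ∑ g : G, ∑ u : (ZMod (Nat.card G))ˣ,
        ‖ρ.character (g ^ (u : ZMod (Nat.card G)).val)‖ ^ 2 := by
    rw [← Finset.add_sum_erase Finset.univ _ (Finset.mem_univ (1 : G)), hone]
    apply add_le_add_right
    have hcard : ((Finset.univ.erase (1 : G)).card : ℝ) = (Nat.card G : ℝ) - 1 := by
      rw [Finset.card_erase_of_mem (Finset.mem_univ _), Finset.card_univ,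
        Nat.card_eq_fintype_card, Nat.cast_sub Fintype.card_pos]
      simp
    calc ((Nat.card G : ℝ) - 1) * Fintype.card (ZMod (Nat.card G))ˣ
        = ∑ g ∈ Finset.univ.erase (1 : G), (Fintype.card (ZMod (Nat.card G))ˣ : ℝ) := by
          rw [Finset.sum_const, nsmul_eq_mul, hcard]
      _ ≤ _ := Finset.sum_le_sum fun g _ => hA g
  rw [htotal] at hlow
  have hU : (0 : ℝ) < Fintype.card (ZMod (Nat.card G))ˣ := by exact_mod_cast Fintype.card_pos
  have hd : (2 : ℝ) ≤ finrank ℂ V := by exact_mod_cast hdeg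
  have h1 : (Fintype.card (ZMod (Nat.card G))ˣ : ℝ) * (finrank ℂ V : ℝ) ^ 2 ≤
      (Fintype.card (ZMod (Nat.card G))ˣ : ℝ) * 1 := by linarith
  have h2 : (finrank ℂ V : ℝ) ^ 2 ≤ 1 := le_of_mul_le_mul_left h1 hU
  nlinarith

end Cfsg.Agent.S0191
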