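import Cfsg.Statements.S0192
import Cfsg.Agent.H4.Irr

set_option autoImplicit false
open Cfsg

namespace Cfsg.Agent.S0192

open scoped ComplexConjugate

variable {G : Type*} [Group G] {V : Type*} [AddCommGroup V] [Module ℂ V]

/-- vectors fixed by a subgroup -/
def fixedSub (ρ : Representation ℂ G V) (K : Subgroup G) : Submodule ℂ V where
  carrier := {v | ∀ k ∈ K, ρ k v = v}
  add_mem' := by
    intro a b ha hb k hk
    rw [map_add, ha k hk, hb k hk]
  zero_mem' := by
    intro k _
    exact map_zero _
  smul_mem' := by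
    intro c v hv k hk
    rw [map_smul, hv k hk]

theorem mem_fixedSub (ρ : Representation ℂ G V) (K : Subgroup G) (v : V) :
    v ∈ fixedSub ρ K ↔ ∀ k ∈ K, ρ k v = v := Iff.rfl

theorem fixedSub_anti (ρ : Representation ℂ G V) {K L : Subgroup G} (h : K ≤ L) :
    fixedSub ρ L ≤ fixedSub ρ K := fun _ hv k hk => hv k (h hk)

theorem fixedSub_inf_le_sup (ρ : Representation ℂ G V) (K L : Subgroup G) :
    fixedSub ρ K ⊓ fixedSub ρ L ≤ fixedSub ρ (K ⊔ L) := by
  rintro v ⟨hK, hL⟩
  -- the stabilizer of v is a subgroup containing K and L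
  let S : Subgroup G :=
    { carrier := {g | ρ g v = v}
      mul_mem' := by
        intro a b ha hb
        show ρ (a * b) v = v
        rw [map_mul, Module.End.mul_apply, hb, ha]
      one_mem' := by
        show ρ 1 v = v
        rw [map_one, Module.End.one_apply]
      inv_mem' := by
        intro a ha
        show ρ a⁻¹ v = v
        have h1 : ρ a⁻¹ (ρ a v) = v := by
          rw [← Module.End.mul_apply, ← map_mul, inv_mul_cancel, map_one, Module.End.one_apply]
        rw [ha] at h1
        exact h1 }
  have hle : K ⊔ L ≤ S := sup_le (fun k hk => hK k hk) (fun l hl => hL l hl)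
  intro g hg
  exact hle hg

theorem classInner_restrict_one [FiniteDimensional ℂ V] (ρ : Representation ℂ G V)
    (K : Subgroup G) [Fintype K] :
    Cfsg.classInner (fun x : K => ρ.character x) (fun _ => 1)
      = (Module.finrank ℂ (fixedSub ρ K) : ℂ) := by
  have hne : (Nat.card K : ℂ) ≠ 0 := by
    exact_mod_cast (Nat.card_pos (α := K)).ne'
  have : Invertible (Nat.card K : ℂ) := invertibleOfNonzero hne
  obtain ⟨σ, hσ⟩ : ∃ σ : Representation ℂ ↥K V,
      ∀ g : ↥K, σ g = ρ (g : G) := ⟨ρ.comp K.subtype, fun _ => rfl⟩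
  have key := Representation.card_inv_mul_sum_char_eq_finrank σ
  have hchar : ∀ g : ↥K, σ.character g = ρ.character (g : G) := by
    intro g
    unfold Representation.character
    rw [hσ]
  have hinv : Representation.invariants σ = fixedSub ρ K := by
    ext v
    rw [Representation.mem_invariants, mem_fixedSub]
    constructor
    · intro h k hk
      have := h ⟨k, hk⟩
      rwa [hσ] at this
    · intro h g
      rw [hσ]
      exact h g g.2
  rw [hinv] at key
  rw [← key]
  unfold Cfsg.classInner
  congr 1
  apply Finset.sum_congr rfl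
  intro g _
  rw [hchar]
  simp

/-- Brauer's generation criterion. Let G be a finite simple group, H₁ and H₂ subgroups, and χ a non-principal irreducible character. If the multiplicity of the principal character in χ restricted to H₁ ⊓ H₂ is less than the sum of the corresponding multiplicities for H₁ and H₂, then H₁ and H₂ do not generate G. -/
theorem result {G : Type*} [Group G] [Fintype G] [IsSimpleGroup G] (H₁ H₂ : Subgroup G) [Fintype H₁] [Fintype H₂] [Fintype ↥(H₁ ⊓ H₂)] (χ : G → ℂ) (hχ : Cfsg.IsIrrCharacter G χ) (hχ1 : χ ≠ fun _ => 1) (hlt : (Cfsg.classInner (fun x : ↥(H₁ ⊓ H₂) => χ x) (fun _ => 1)).re < (Cfsg.classInner (fun x : H₁ => χ x) (fun _ => 1)).re + (Cfsg.classInner (fun x : H₂ => χ x) (fun _ => 1)).re) : H₁ ⊔ H₂ ≠ ⊤ := by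
  obtain ⟨n, ρ, hρ, rfl⟩ := hχ
  intro htop
  rw [classInner_restrict_one ρ (H₁ ⊓ H₂), classInner_restrict_one ρ H₁,
    classInner_restrict_one ρ H₂] at hlt
  simp only [Complex.natCast_re] at hlt
  have hlt' : Module.finrank ℂ (fixedSub ρ (H₁ ⊓ H₂))
      < Module.finrank ℂ (fixedSub ρ H₁) + Module.finrank ℂ (fixedSub ρ H₂) := by
    exact_mod_cast hlt
  -- G-invariants vanish
  have hirr := (Cfsg.Agent.H4.isIrreducible_iff ρ).mp hρ
  have hGinv : fixedSub ρ (⊤ : Subgroup G) = ⊥ := by
    rcases hirr.2 (fixedSub ρ ⊤) (by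
      intro g v hv k hk
      rw [hv g (Subgroup.mem_top g)]
      exact hv k hk) with h | h
    · exact h
    · exfalso
      -- ρ is trivial, hence one-dimensional, so χ = 1
      have htriv : ∀ g : G, ρ g = LinearMap.id := by
        intro g
        refine LinearMap.ext fun v => ?_
        have hv : v ∈ fixedSub ρ (⊤ : Subgroup G) := by rw [h]; exact Submodule.mem_top
        simpa using hv g (Subgroup.mem_top g)
      have hdim : Module.finrank ℂ (Fin n → ℂ) = 1 := by
        have := hirr.1
        obtain ⟨v, hv⟩ := exists_ne (0 : Fin n → ℂ)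
        rcases hirr.2 (Submodule.span ℂ {v}) (by
          intro g w hw
          rw [htriv g]
          exact hw) with h' | h'
        · exfalso
          rw [Submodule.span_singleton_eq_bot] at h'
          exact hv h'
        · have h1 : Module.finrank ℂ (Submodule.span ℂ {v}) = 1 := finrank_span_singleton hv
          rw [h'] at h1
          rwa [finrank_top] at h1
      apply hχ1
      funext g
      unfold Representation.character
      rw [htriv g]
      change LinearMap.trace ℂ (Fin n → ℂ) (1 : Module.End ℂ (Fin n → ℂ)) = 1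
      rw [LinearMap.trace_one, hdim]
      simp
  have hinf : fixedSub ρ H₁ ⊓ fixedSub ρ H₂ = ⊥ := by
    have := fixedSub_inf_le_sup ρ H₁ H₂
    rw [htop, hGinv] at this
    exact le_bot_iff.mp this
  have hsup : fixedSub ρ H₁ ⊔ fixedSub ρ H₂ ≤ fixedSub ρ (H₁ ⊓ H₂) :=
    sup_le (fixedSub_anti ρ inf_le_left) (fixedSub_anti ρ inf_le_right)
  have hdim := Submodule.finrank_sup_add_finrank_inf_eq (fixedSub ρ H₁) (fixedSub ρ H₂)
  rw [hinf, finrank_bot, add_zero] at hdim
  have hmono := Submodule.finrank_mono hsup
  omega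

end Cfsg.Agent.S0192
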