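import Cfsg.Statements.S0193
import Cfsg.Agent.S1485
import Cfsg.Agent.H31.Char
import Cfsg.Agent.H4.Induction

set_option autoImplicit false
open Cfsg

namespace Cfsg.Agent.S0193

open scoped ComplexConjugate

open Cfsg.Agent.H4 in
/-- Let H be a normal subgroup of a finite group G and θ an irreducible character of H. Then |H| times the inner product of the induced function of θ with itself equals the number of g in G with θ(g h g⁻¹) = θ(h) for all h in H; in particular the induced character is irreducible when only elements of H stabilise θ. -/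
theorem result {G : Type*} [Group G] [Fintype G] (H : Subgroup G) [hN : H.Normal] (θ : H → ℂ) (hθ : Cfsg.IsIrrCharacter H θ) : (Nat.card H : ℂ) * Cfsg.classInner (Cfsg.indFun H θ) (Cfsg.indFun H θ) = (Nat.card {g : G // ∀ h : H, θ ⟨g * h * g⁻¹, hN.conj_mem h h.2 g⟩ = θ h} : ℂ) := by
  classical
  have : Fintype H := Fintype.ofFinite H
  have hHne : (Nat.card H : ℂ) ≠ 0 := by exact_mod_cast (Nat.card_pos (α := H)).ne'
  rw [frobenius_reciprocity H θ (indFun H θ) (indFun_isClassFunction H θ)]
  rw [Cfsg.Agent.S1485.result H θ hθ]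
  set cθ : G → (H → ℂ) := fun g => fun h : H => θ ⟨g * h * g⁻¹, hN.conj_mem h h.2 g⟩ with hcθ
  have hS : {ψ : H → ℂ | ∃ g : G, ψ = fun h : H => θ ⟨g * h * g⁻¹, hN.conj_mem h h.2 g⟩} =
      ↑(Finset.univ.image cθ) := by
    ext ψ
    simp only [Set.mem_setOf_eq, Finset.coe_image, Finset.coe_univ, Set.image_univ, Set.mem_range]
    constructor
    · rintro ⟨g, rfl⟩; exact ⟨g, rfl⟩
    · rintro ⟨g, rfl⟩; exact ⟨g, rfl⟩
  rw [hS, finsum_mem_coe_finset, classInner_smul_right, classInner_sum_right]
  have hterm : ∀ ψ ∈ Finset.univ.image cθ, classInner θ ψ = if θ = ψ then 1 else 0 := by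
    intro ψ hψ
    obtain ⟨g, -, rfl⟩ := Finset.mem_image.mp hψ
    have hirr : IsIrrCharacter H (cθ g) := Cfsg.Agent.H31.conj_irr H θ hθ g
    have := irr_inner (⟨θ, hθ⟩ : IrrCharacter H) ⟨cθ g, hirr⟩
    simp only [Subtype.mk.injEq] at this
    exact this
  rw [Finset.sum_congr rfl hterm, Finset.sum_ite_eq]
  have hmem : θ ∈ Finset.univ.image cθ := by
    apply Finset.mem_image.mpr
    refine ⟨1, Finset.mem_univ _, ?_⟩
    funext h
    simp only [hcθ]
    congr 1
    apply Subtype.ext
    simp
  rw [if_pos hmem, mul_one, map_div₀, Complex.conj_natCast, Complex.conj_natCast]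
  field_simp

end Cfsg.Agent.S0193
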