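import Cfsg.Statements.S0194
import Cfsg.Agent.H4.RealClasses
import Cfsg.Agent.S0161
import Cfsg.Agent.S1486

set_option autoImplicit false
open scoped ComplexConjugate
open Cfsg

namespace Cfsg.Agent.S0194

open Cfsg.Agent.H4

theorem conj_indFun {G : Type*} [Group G] [Fintype G] (H : Subgroup G) (θ : H → ℂ) :
    (fun g => conj (Cfsg.indFun H θ g)) = Cfsg.indFun H (fun h => conj (θ h)) := by
  classical
  funext g
  unfold Cfsg.indFun
  rw [map_mul, map_inv₀, Complex.conj_natCast, map_sum]
  congr 1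
  refine Finset.sum_congr rfl fun x _ => ?_
  by_cases hx : x⁻¹ * g * x ∈ H
  · rw [extendByZero_of_mem H θ hx, extendByZero_of_mem H _ hx]
  · rw [extendByZero_of_not_mem H θ hx, extendByZero_of_not_mem H _ hx, map_zero]

/-- Let G have odd order, H be a normal subgroup and θ a non-principal irreducible character of H. Then the function induced from θ is orthogonal to its complex conjugate. -/
theorem result {G : Type*} [Group G] [Fintype G] (hodd : Odd (Nat.card G)) (H : Subgroup G) [H.Normal] (θ : H → ℂ) (hθ : Cfsg.IsIrrCharacter H θ) (hθ1 : θ ≠ fun _ => 1) : Cfsg.classInner (fun g => conj (Cfsg.indFun H θ g)) (Cfsg.indFun H θ) = 0 := by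
  classical
  have hN : H.Normal := inferInstance
  rw [conj_indFun]
  have hφ : Cfsg.IsIrrCharacter H (fun h => conj (θ h)) := isIrrCharacter_conj hθ
  refine (Cfsg.Agent.S1486.result H θ (fun h => conj (θ h)) hθ hφ).2 ?_
  rintro ⟨g, hg⟩
  apply hθ1
  -- the stabilizer property
  have hg' : ∀ h : H, conj (θ h) = θ ⟨g * h * g⁻¹, hN.conj_mem h h.2 g⟩ := fun h => congrFun hg h
  -- g^2 stabilizes θ
  have hstab : ∀ n : ℕ, ∀ h : H,
      θ ⟨(g * g) ^ n * h * ((g * g) ^ n)⁻¹, hN.conj_mem h h.2 _⟩ = θ h := by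
    intro n
    induction n with
    | zero => intro h; congr 1; apply Subtype.ext; simp
    | succ n ih =>
      intro h
      have h1 := ih ⟨g * (g * h * g⁻¹) * g⁻¹, hN.conj_mem _ (hN.conj_mem h h.2 g) g⟩
      have h2 := hg' ⟨g * h * g⁻¹, hN.conj_mem h h.2 g⟩
      have h3 := hg' h
      have h4 : θ ⟨g * (g * h * g⁻¹) * g⁻¹, hN.conj_mem _ (hN.conj_mem h h.2 g) g⟩ = θ h := by
        rw [← h2, ← h3, Complex.conj_conj]
      rw [← h4, ← h1]
      congr 1
      apply Subtype.ext
      simp only [pow_succ, mul_inv_rev]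
      group
  -- g is a power of g^2
  have hgodd : Odd (orderOf g) := by
    have : orderOf g ∣ Nat.card G := orderOf_dvd_natCard g
    exact hodd.of_dvd_nat this
  obtain ⟨k, hk⟩ := hgodd
  have hgpow : (g * g) ^ (k + 1) = g := by
    rw [← pow_two, ← pow_mul]
    have : 2 * (k + 1) = orderOf g + 1 := by omega
    rw [this, pow_succ, pow_orderOf_eq_one, one_mul]
  have hfix : ∀ h : H, θ ⟨g * h * g⁻¹, hN.conj_mem h h.2 g⟩ = θ h := by
    intro h
    have := hstab (k + 1) h
    rw [← this]
    congr 1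
    apply Subtype.ext
    simp only [hgpow]
  have hreal : ∀ h : H, (θ h).im = 0 := by
    intro h
    apply Complex.conj_eq_iff_im.mp
    rw [hg' h, hfix h]
  have hHodd : Odd (Nat.card H) := hodd.of_dvd_nat (Subgroup.card_subgroup_dvd_card H)
  exact Cfsg.Agent.S0161.result hHodd ⟨θ, hθ⟩ hreal

end Cfsg.Agent.S0194
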