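import Cfsg.Statements.S0197
import Cfsg.Agent.H81.GL23Main
import Cfsg.Agent.H81.GL23TabA
import Cfsg.Agent.H81.GL23TabB
import Cfsg.Agent.H81.GL23Data
import Cfsg.Agent.H26.GL23Mat
import Cfsg.Agent.H26.GL23GenVec
import Cfsg.Agent.H36.GL23Lift
import Cfsg.Agent.H36.GL23Syl
import Cfsg.Agent.H36.GL23Perf
import Cfsg.Agent.H79.GL23CC
import Cfsg.Agent.H2.GL23Bridge
import Cfsg.Agent.H39.GL23Lat
import Cfsg.Agent.H40.GL23Sum
import Cfsg.Agent.H40.GL23Num

set_option autoImplicit false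
open Cfsg

namespace Cfsg.Agent.S0197

/-- If a finite simple group has an involution whose centralizer is isomorphic to the general linear group GL(2, 3), then the group has order 5616 or 7920. -/
theorem result {G : Type*} [Group G] [Finite G] [IsSimpleGroup G] (t : G) (ht : orderOf t = 2) (e : Subgroup.centralizer ({t} : Set G) ≃* Matrix.GeneralLinearGroup (Fin 2) (ZMod 3)) : Nat.card G = 5616 ∨ Nat.card G = 7920 :=
  Cfsg.Agent.H81.GL23.main_of_pieces Cfsg.Agent.H26.GL23.mat Cfsg.Agent.H36.GL23.lift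
    Cfsg.Agent.H36.GL23.syl Cfsg.Agent.H36.GL23.perf Cfsg.Agent.H81.GL23.tabA
    Cfsg.Agent.H81.GL23.tabB Cfsg.Agent.H81.GL23.data Cfsg.Agent.H79.GL23.cc
    (Cfsg.Agent.H2.GL23.bridge Cfsg.Agent.H26.GL23.genVec) Cfsg.Agent.H39.GL23.lat
    Cfsg.Agent.H40.GL23.sum Cfsg.Agent.H40.GL23.num t ht e

end Cfsg.Agent.S0197
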