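import Cfsg.Statements.S0198
import Cfsg.Agent.H4.Chars
import Cfsg.Agent.H4.IrrCount
import Cfsg.Agent.H83.Basic

set_option autoImplicit false
open Cfsg

namespace Cfsg.Agent.S0198

open Cfsg.Agent.H4
open scoped ComplexConjugate

/-- Integer vectors of square norm two have exactly two nonzero entries, each `±1`. -/
theorem int_norm_two {ι : Type*} [DecidableEq ι] (s : Finset ι) (a : ι → ℤ)
    (h : ∑ i ∈ s, a i * a i = 2) :
    ∃ x ∈ s, ∃ y ∈ s, x ≠ y ∧ (a x = 1 ∨ a x = -1) ∧ (a y = 1 ∨ a y = -1) ∧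
      ∀ z ∈ s, z ≠ x → z ≠ y → a z = 0 := by
  have hnn : ∀ i, 0 ≤ a i * a i := fun i => mul_self_nonneg _
  have hx : ∃ x ∈ s, a x ≠ 0 := by
    by_contra hcon
    push Not at hcon
    have : ∑ i ∈ s, a i * a i = 0 := Finset.sum_eq_zero fun i hi => by rw [hcon i hi, mul_zero]
    omega
  obtain ⟨x, hxs, hx0⟩ := hx
  have hxle : a x * a x ≤ 2 := by
    rw [← h]
    exact Finset.single_le_sum (f := fun i => a i * a i) (fun i _ => hnn i) hxs
  have hx1 : a x = 1 ∨ a x = -1 := by
    have h1 : -1 ≤ a x := by nlinarith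
    have h2 : a x ≤ 1 := by nlinarith
    omega
  have hxx : a x * a x = 1 := by rcases hx1 with h | h <;> rw [h] <;> norm_num
  have h' : ∑ i ∈ s.erase x, a i * a i = 1 := by
    have := Finset.add_sum_erase s (fun i => a i * a i) hxs
    omega
  have hy : ∃ y ∈ s.erase x, a y ≠ 0 := by
    by_contra hcon
    push Not at hcon
    have : ∑ i ∈ s.erase x, a i * a i = 0 :=
      Finset.sum_eq_zero fun i hi => by rw [hcon i hi, mul_zero]
    omega
  obtain ⟨y, hys, hy0⟩ := hy
  have hyle : a y * a y ≤ 1 := by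
    rw [← h']
    exact Finset.single_le_sum (f := fun i => a i * a i) (fun i _ => hnn i) hys
  have hy1 : a y = 1 ∨ a y = -1 := by
    have h1 : -1 ≤ a y := by nlinarith
    have h2 : a y ≤ 1 := by nlinarith
    omega
  have hyy : a y * a y = 1 := by rcases hy1 with h | h <;> rw [h] <;> norm_num
  have h'' : ∑ i ∈ (s.erase x).erase y, a i * a i = 0 := by
    have := Finset.add_sum_erase (s.erase x) (fun i => a i * a i) hys
    omega
  have hz := (Finset.sum_eq_zero_iff_of_nonneg (fun i _ => hnn i)).mp h''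
  refine ⟨x, hxs, y, (Finset.mem_erase.mp hys).2, (Finset.mem_erase.mp hys).1.symm, hx1, hy1, ?_⟩
  intro z hzs hzx hzy
  have := hz z (Finset.mem_erase.mpr ⟨hzy, Finset.mem_erase.mpr ⟨hzx, hzs⟩⟩)
  exact mul_self_eq_zero.mp this

/-- A generalized character of norm two vanishing at the identity is a difference of two
distinct irreducible characters. -/
theorem lemmaA {G : Type*} [Group G] [Fintype G] {θ : G → ℂ}
    (hθ : IsGeneralizedCharacter G θ) (h2 : classInner θ θ = 2) (h1 : θ 1 = 0) :
    ∃ α β : IrrCharacter G, α ≠ β ∧ θ = α.1 - β.1 := by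
  classical
  letI := fintypeIrr G
  obtain ⟨χ, ψ, hχ, hψ, rfl⟩ := hθ
  obtain ⟨m, hm⟩ := isCharacter_iff.mp hχ
  obtain ⟨k, hk⟩ := isCharacter_iff.mp hψ
  set a : IrrCharacter G → ℤ := fun φ => (m φ : ℤ) - k φ with ha
  have hθ : χ - ψ = ∑ φ : IrrCharacter G, ((a φ : ℤ) : ℂ) • φ.1 := by
    rw [hm, hk, finsum_irr_eq_sum, finsum_irr_eq_sum, ← Finset.sum_sub_distrib]
    refine Finset.sum_congr rfl fun φ _ => ?_
    simp only [ha]; push_cast; rw [sub_smul]
  have hinner : ∀ φ : IrrCharacter G, classInner (χ - ψ) φ.1 = a φ := by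
    intro φ
    rw [hθ, classInner_sum_left]
    simp only [classInner_smul_left, irr_inner]
    simp
  have hnorm : (∑ φ : IrrCharacter G, a φ * a φ : ℤ) = 2 := by
    have h3 : classInner (χ - ψ) (χ - ψ) = ((∑ φ : IrrCharacter G, a φ * a φ : ℤ) : ℂ) := by
      have h4 : classInner (χ - ψ) (χ - ψ) =
          classInner (∑ φ : IrrCharacter G, ((a φ : ℤ) : ℂ) • φ.1) (χ - ψ) := by rw [← hθ]
      rw [h4, classInner_sum_left]
      push_cast
      refine Finset.sum_congr rfl fun φ _ => ?_
      rw [classInner_smul_left, ← classInner_conj_symm, hinner, map_intCast]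
    rw [h2] at h3
    exact_mod_cast h3.symm
  obtain ⟨x, -, y, -, hxy, hx, hy, hz⟩ := int_norm_two Finset.univ a hnorm
  have hsum : χ - ψ = ((a x : ℤ) : ℂ) • x.1 + ((a y : ℤ) : ℂ) • y.1 := by
    rw [hθ]
    apply Finset.sum_eq_add x y hxy
    · intro c _ hc
      rw [hz c (Finset.mem_univ c) hc.1 hc.2]; simp
    · intro h; exact absurd (Finset.mem_univ x) h
    · intro h; exact absurd (Finset.mem_univ y) h
  obtain ⟨dx, hdx, hx1⟩ := irr_one_eq_natCast x
  obtain ⟨dy, hdy, hy1⟩ := irr_one_eq_natCast y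
  have hval : ((a x : ℤ) : ℂ) * dx + ((a y : ℤ) : ℂ) * dy = 0 := by
    have := congrFun hsum 1
    rw [h1] at this
    simp only [Pi.add_apply, Pi.smul_apply, smul_eq_mul, hx1, hy1] at this
    exact this.symm
  have hvalZ : a x * dx + a y * dy = 0 := by exact_mod_cast hval
  rcases hx with hx | hx <;> rcases hy with hy | hy
  · exfalso; rw [hx, hy] at hvalZ; omega
  · refine ⟨x, y, hxy, ?_⟩
    rw [hsum, hx, hy]; funext g; simp; ring
  · refine ⟨y, x, hxy.symm, ?_⟩
    rw [hsum, hx, hy]; funext g; simp; ring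
  · exfalso; rw [hx, hy] at hvalZ; omega

/-- The isometry lemma behind exceptional characters. Let τ be a family of generalized characters of a finite group G indexed by Fin n, with τ i₀ = 0, every τ i vanishing at the identity, and inner products ⟨τ i, τ j⟩ = 2 if i = j and 1 otherwise for i, j ≠ i₀. Then there are a sign ε and pairwise distinct irreducible characters μ i with τ i = ε (μ i − μ i₀) for all i. -/
theorem result {G : Type*} [Group G] [Fintype G] (n : ℕ) (i₀ : Fin n) (τ : Fin n → (G → ℂ)) (h0 : τ i₀ = 0) (hgen : ∀ i, Cfsg.IsGeneralizedCharacter G (τ i)) (hone : ∀ i, τ i 1 = 0) (hgram : ∀ i j, i ≠ i₀ → j ≠ i₀ → Cfsg.classInner (τ i) (τ j) = if i = j then 2 else 1) : ∃ ε : ℂ, (ε = 1 ∨ ε = -1) ∧ ∃ μ : Fin n → (G → ℂ), (∀ i, Cfsg.IsIrrCharacter G (μ i)) ∧ Function.Injective μ ∧ ∀ i, τ i = ε • (μ i - μ i₀) := by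
  classical
  set triv : IrrCharacter G := Cfsg.Agent.H83.trivChar G with htriv
  have hA : ∀ i, ∃ α β : IrrCharacter G, i ≠ i₀ → (α ≠ β ∧ τ i = α.1 - β.1) := by
    intro i
    by_cases hi : i = i₀
    · exact ⟨triv, triv, fun h => absurd hi h⟩
    · obtain ⟨α, β, hne, h⟩ := lemmaA (hgen i)
        (by have := hgram i i hi hi; simpa using this) (hone i)
      exact ⟨α, β, fun _ => ⟨hne, h⟩⟩
  choose α β hαβ using hA
  have hB : ∀ i j, i ≠ i₀ → j ≠ i₀ → i ≠ j →
      (α i = α j ∧ β i ≠ β j) ∨ (β i = β j ∧ α i ≠ α j) := by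
    intro i j hi hj hij
    have h := hgram i j hi hj
    rw [if_neg hij, (hαβ i hi).2, (hαβ j hj).2, classInner_sub_left, classInner_sub_right,
      classInner_sub_right, irr_inner, irr_inner, irr_inner, irr_inner] at h
    have hi' := (hαβ i hi).1
    have hj' := (hαβ j hj).1
    by_cases h1 : α i = α j
    · left
      refine ⟨h1, fun h4 => ?_⟩
      have h2 : α i ≠ β j := h1 ▸ hj'
      have h3 : β i ≠ α j := fun h => hi' (h1.trans h.symm)
      rw [if_pos h1, if_neg h2, if_neg h3, if_pos h4] at h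
      norm_num at h
    · right
      by_cases h4 : β i = β j
      · exact ⟨h4, h1⟩
      · exfalso
        rw [if_neg h1, if_neg h4] at h
        split_ifs at h <;> norm_num at h
  by_cases hP : ∀ i j, i ≠ i₀ → j ≠ i₀ → α i = α j
  · -- all share the positive constituent
    obtain ⟨a, ha⟩ : ∃ a : IrrCharacter G, ∀ i, i ≠ i₀ → α i = a := by
      by_cases hI : ∃ i₁, i₁ ≠ i₀
      · obtain ⟨i₁, hi₁⟩ := hI
        exact ⟨α i₁, fun i hi => hP i i₁ hi hi₁⟩
      · push Not at hI
        exact ⟨triv, fun i hi => absurd (hI i) hi⟩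
    refine ⟨-1, Or.inr rfl, fun i => if i = i₀ then a.1 else (β i).1, ?_, ?_, ?_⟩
    · intro i
      by_cases hi : i = i₀
      · simp only [if_pos hi]; exact a.2
      · simp only [if_neg hi]; exact (β i).2
    · intro i j hij
      simp only at hij
      by_cases hi : i = i₀ <;> by_cases hj : j = i₀
      · rw [hi, hj]
      · rw [if_pos hi, if_neg hj] at hij
        exact absurd (Subtype.ext hij) (by rw [← ha j hj]; exact (hαβ j hj).1)
      · rw [if_neg hi, if_pos hj] at hij
        exact absurd (Subtype.ext hij.symm) (by rw [← ha i hi]; exact (hαβ i hi).1)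
      · rw [if_neg hi, if_neg hj] at hij
        by_contra hne
        rcases hB i j hi hj hne with ⟨_, h⟩ | ⟨_, h⟩
        · exact h (Subtype.ext hij)
        · exact h (hP i j hi hj)
    · intro i
      by_cases hi : i = i₀
      · rw [hi, h0]; simp
      · simp only [if_neg hi, if_true]
        rw [(hαβ i hi).2, ha i hi]
        funext g; simp
  · -- all share the negative constituent
    push Not at hP
    obtain ⟨i₁, j₁, hi₁, hj₁, hne⟩ := hP
    have hij₁ : i₁ ≠ j₁ := fun h => hne (by rw [h])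
    have hb : β i₁ = β j₁ := by
      rcases hB i₁ j₁ hi₁ hj₁ hij₁ with ⟨h, _⟩ | ⟨h, _⟩
      · exact absurd h hne
      · exact h
    have hQ : ∀ k, k ≠ i₀ → β k = β i₁ := by
      intro k hk
      by_contra hkb
      have h1 : α k = α i₁ := by
        by_cases hki : k = i₁
        · rw [hki]
        · rcases hB k i₁ hk hi₁ hki with ⟨h, _⟩ | ⟨h, _⟩
          · exact h
          · exact absurd h hkb
      have h2 : α k = α j₁ := by
        by_cases hkj : k = j₁
        · rw [hkj]
        · rcases hB k j₁ hk hj₁ hkj with ⟨h, _⟩ | ⟨h, _⟩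
          · exact h
          · exact absurd (h.trans hb.symm) hkb
      exact hne (h1.symm.trans h2)
    refine ⟨1, Or.inl rfl, fun i => if i = i₀ then (β i₁).1 else (α i).1, ?_, ?_, ?_⟩
    · intro i
      by_cases hi : i = i₀
      · simp only [if_pos hi]; exact (β i₁).2
      · simp only [if_neg hi]; exact (α i).2
    · intro i j hij
      simp only at hij
      by_cases hi : i = i₀ <;> by_cases hj : j = i₀
      · rw [hi, hj]
      · rw [if_pos hi, if_neg hj] at hij
        exact absurd (Subtype.ext hij.symm) (by rw [← hQ j hj]; exact (hαβ j hj).1)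
      · rw [if_neg hi, if_pos hj] at hij
        exact absurd (Subtype.ext hij) (by rw [← hQ i hi]; exact (hαβ i hi).1)
      · rw [if_neg hi, if_neg hj] at hij
        by_contra hne'
        rcases hB i j hi hj hne' with ⟨_, h⟩ | ⟨_, h⟩
        · exact h ((hQ i hi).trans (hQ j hj).symm)
        · exact h (Subtype.ext hij)
    · intro i
      by_cases hi : i = i₀
      · rw [hi, h0]; simp
      · simp only [if_neg hi, if_true]
        rw [(hαβ i hi).2, hQ i hi]
        funext g; simp

end Cfsg.Agent.S0198
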