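import Cfsg.Statements.S0199
import Cfsg.Agent.H5.BaerSuzuki

set_option autoImplicit false
open Cfsg

namespace Cfsg.Agent.S0199

/-- Baer–Suzuki Theorem: a p-subgroup X of a finite group such that X and any of its conjugates generate a p-group is contained in a normal p-subgroup. -/
theorem result {G : Type*} [Group G] [Finite G] {p : ℕ} [Fact p.Prime] (X : Subgroup G) (hX : IsPGroup p X) (h : ∀ g : G, IsPGroup p ↥(X ⊔ X.map (MulAut.conj g).toMonoidHom)) : ∃ N : Subgroup G, N.Normal ∧ IsPGroup p N ∧ X ≤ N :=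
  Cfsg.Agent.H5.baer_suzuki X hX h

end Cfsg.Agent.S0199
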