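import Cfsg.Statements.S0200
import Cfsg.Agent.H5.BaerSuzuki
import Cfsg.Agent.H5.Dihedral

set_option autoImplicit false
open Cfsg

namespace Cfsg.Agent.S0200

open Cfsg.Agent.H5 in
/-- An involution lying in no normal 2-subgroup of a finite group inverts a nontrivial element of odd order (a consequence of the Baer–Suzuki Theorem). -/
theorem result {G : Type*} [Group G] [Finite G] (t : G) (ht : orderOf t = 2) (hO : ∀ N : Subgroup G, N.Normal → IsPGroup 2 N → t ∉ N) : ∃ h : G, h ≠ 1 ∧ Odd (orderOf h) ∧ t * h * t⁻¹ = h⁻¹ := by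
  have ht2 := sq_eq_one_of_orderOf_two ht
  have ht1 := ne_one_of_orderOf_two ht
  by_contra hcon
  push Not at hcon
  have hX : IsPGroup 2 (Subgroup.zpowers t) := by
    apply IsPGroup.of_card (n := 1)
    rw [Nat.card_zpowers, ht, pow_one]
  have key : ∀ g : G, IsPGroup 2
      ↥(Subgroup.zpowers t ⊔ (Subgroup.zpowers t).map (MulAut.conj g).toMonoidHom) := by
    intro g
    have hs2 : (g * t * g⁻¹) * (g * t * g⁻¹) = 1 := by
      calc (g * t * g⁻¹) * (g * t * g⁻¹) = g * (t * t) * g⁻¹ := by group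
        _ = 1 := by rw [ht2]; group
    have hs1 : g * t * g⁻¹ ≠ 1 := by
      intro h
      apply ht1
      have : t = g⁻¹ * (g * t * g⁻¹) * g := by group
      rw [this, h]; group
    have hclo : Subgroup.zpowers t ⊔ (Subgroup.zpowers t).map (MulAut.conj g).toMonoidHom
        = Subgroup.closure ({t, g * t * g⁻¹} : Set G) := by
      rw [Subgroup.zpowers_eq_closure, MonoidHom.map_closure, ← Subgroup.closure_union]
      congr 1
      ext w
      simp [MulAut.conj_apply, or_comm]
    rw [hclo]
    have e := closurePairEquivDihedral ht2 hs2 ht1 hs1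
    obtain ⟨a, m, hm, hn⟩ := Nat.exists_eq_two_pow_mul_odd (orderOf_pos (t * (g * t * g⁻¹))).ne'
    have hm1 : m = 1 := by
      by_contra hm1
      have hord : orderOf ((t * (g * t * g⁻¹)) ^ (2 ^ a)) = m := by
        rw [orderOf_pow_of_dvd (by positivity) ⟨m, hn⟩, hn]
        exact Nat.mul_div_cancel_left _ (by positivity)
      have hinv : t * (t * (g * t * g⁻¹)) ^ (2 ^ a) * t⁻¹ = ((t * (g * t * g⁻¹)) ^ (2 ^ a))⁻¹ := by
        have := inv_conj_zpow ht2 hs2 ((2 ^ a : ℕ) : ℤ)
        rwa [zpow_neg, zpow_natCast] at this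
      apply hcon _ _ (hord ▸ hm) hinv
      intro h1
      rw [h1, orderOf_one] at hord
      exact hm1 hord.symm
    apply IsPGroup.of_card (n := a + 1)
    rw [Nat.card_congr e.toEquiv, DihedralGroup.nat_card, hn, hm1]
    ring
  obtain ⟨N, hN, hN2, hle⟩ := baer_suzuki (Subgroup.zpowers t) hX key
  exact hO N hN hN2 (hle (Subgroup.mem_zpowers t))

end Cfsg.Agent.S0200
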