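import Cfsg.Statements.S0203
import Cfsg.Agent.H5.KleinSylow

set_option autoImplicit false
open Cfsg

namespace Cfsg.Agent.S0203

open scoped Pointwise

open Cfsg.Agent.H5 in
/-- If a Sylow 2-subgroup P of a finite group G is a Klein four-group, then G has three classes of involutions if and only if P has a normal complement in G. -/
theorem result {G : Type*} [Group G] [Finite G] (P : Sylow 2 G) (hP : IsKleinFour (P : Subgroup G)) : Nat.card {C : ConjClasses G // ∃ t : G, orderOf t = 2 ∧ ConjClasses.mk t = C} = 3 ↔ ∃ N : Subgroup G, N.Normal ∧ Subgroup.IsComplement' N (P : Subgroup G) := by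
  constructor
  · intro h3
    have hF : ¬ Fused P := by
      intro hF
      have := card_invClasses_of_fused P hP hF
      change Nat.card {C : ConjClasses G // ∃ t : G, orderOf t = 2 ∧ ConjClasses.mk t = C} = 1 at this
      omega
    have hNC : Subgroup.normalizer ((P : Subgroup G) : Set G) ≤ Subgroup.centralizer ((P : Subgroup G) : Set G) := by
      intro n hn
      rw [Subgroup.mem_centralizer_iff]
      intro x hx
      have hx' : x ∈ (P : Subgroup G) := hx
      by_cases hx1 : x = 1
      · rw [hx1]; simp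
      · have hy : n * x * n⁻¹ ∈ (P : Subgroup G) := (Subgroup.mem_normalizer_iff.mp hn x).mp hx'
        have hy1 : n * x * n⁻¹ ≠ 1 := by
          intro h
          apply hx1
          have e : x = n⁻¹ * (n * x * n⁻¹) * n := by group
          rw [e, h]; group
        by_contra hne
        apply hF
        refine ⟨x, n * x * n⁻¹, hx', hy, hx1, hy1, ?_, isConj_iff.mpr ⟨n, rfl⟩⟩
        intro h
        apply hne
        nth_rewrite 1 [h]
        group
    exact ⟨_, MonoidHom.normal_ker _, MonoidHom.ker_transferSylow_isComplement' P hNC⟩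
  · rintro ⟨N, hN, hc⟩
    apply card_invClasses_of_not_fused P hP
    rintro ⟨x, y, hx, hy, hx1, hy1, hxy, hconj⟩
    obtain ⟨g, rfl⟩ := isConj_iff.mp hconj
    have hg : g ∈ (N : Set G) * ((P : Subgroup G) : Set G) := by
      rw [(Subgroup.isComplement'_def.mp hc).mul_eq]; exact Set.mem_univ _
    obtain ⟨n, hn, p, hp, rfl⟩ := Set.mem_mul.mp hg
    have hp' : p ∈ (P : Subgroup G) := hp
    have hn' : n ∈ N := hn
    have hx' : x ∈ (P : Subgroup G) := hx
    have e1 : n * p * x * (n * p)⁻¹ = n * x * n⁻¹ := by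
      have := klein_comm P hP hp' hx'
      calc n * p * x * (n * p)⁻¹ = n * (p * x) * p⁻¹ * n⁻¹ := by group
        _ = n * (x * p) * p⁻¹ * n⁻¹ := by rw [this]
        _ = n * x * n⁻¹ := by group
    rw [e1] at hxy hy
    have h1 : n * x * n⁻¹ * x⁻¹ ∈ N := by
      have : n * x * n⁻¹ * x⁻¹ = n * (x * n⁻¹ * x⁻¹) := by group
      rw [this]
      exact N.mul_mem hn' (hN.conj_mem _ (N.inv_mem hn') x)
    have h2 : n * x * n⁻¹ * x⁻¹ ∈ (P : Subgroup G) :=
      Subgroup.mul_mem _ hy (Subgroup.inv_mem _ hx')
    have h3 := Subgroup.disjoint_def.mp hc.disjoint h1 h2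
    apply hxy
    have : x = (n * x * n⁻¹ * x⁻¹)⁻¹ * (n * x * n⁻¹) := by group
    rw [h3] at this
    simpa using this

end Cfsg.Agent.S0203
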