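import Cfsg.Statements.S0209
import Cfsg.Agent.H5.Dihedral

set_option autoImplicit false
open Cfsg

namespace Cfsg.Agent.S0209

open Cfsg.Agent.H5 in
/-- If x, y are involutions whose product has even order n, the element (xy)^(n/2) is an involution that commutes with x and with y. -/
theorem result {G : Type*} [Group G] [Finite G] (x y : G) (hx : orderOf x = 2) (hy : orderOf y = 2) (heven : Even (orderOf (x * y))) : orderOf ((x * y) ^ (orderOf (x * y) / 2)) = 2 ∧ Commute ((x * y) ^ (orderOf (x * y) / 2)) x ∧ Commute ((x * y) ^ (orderOf (x * y) / 2)) y := by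
  have hx2 := sq_eq_one_of_orderOf_two hx
  have hy2 := sq_eq_one_of_orderOf_two hy
  have hpos : orderOf (x * y) ≠ 0 := (orderOf_pos (x * y)).ne'
  have hord : orderOf ((x * y) ^ (orderOf (x * y) / 2)) = 2 :=
    orderOf_pow_orderOf_div hpos (even_iff_two_dvd.mp heven)
  set z := (x * y) ^ (orderOf (x * y) / 2) with hz
  have hz2 : z * z = 1 := sq_eq_one_of_orderOf_two hord
  have hzinv : z⁻¹ = z := inv_eq_self_of_mul_self hz2
  have hzx : Commute z x := by
    have h := inv_conj_zpow hx2 hy2 ((orderOf (x * y) / 2 : ℕ) : ℤ)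
    rw [zpow_neg, zpow_natCast, ← hz, hzinv] at h
    -- x * z * x⁻¹ = z
    have : x * z = z * x := by
      rw [← h, inv_mul_cancel_right]
      rw [h]
    exact this.symm
  refine ⟨hord, hzx, ?_⟩
  have hy' : y = (x * y)⁻¹ * x := by
    have := y_eq_zpow_mul hx2 hy2
    rwa [zpow_neg, zpow_one] at this
  rw [hy']
  apply Commute.mul_right _ hzx
  apply Commute.inv_right
  exact (Commute.refl (x * y)).pow_left _

end Cfsg.Agent.S0209
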