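import Cfsg.Statements.S0210
import Cfsg.Agent.H5.Dihedral

set_option autoImplicit false
open Cfsg

namespace Cfsg.Agent.S0210

open Cfsg.Agent.H5 in
/-- If x, y are involutions whose product has even order, no element of the subgroup generated by x and y conjugates x to y. -/
theorem result {G : Type*} [Group G] [Finite G] (x y : G) (hx : orderOf x = 2) (hy : orderOf y = 2) (heven : Even (orderOf (x * y))) (d : G) (hd : d ∈ Subgroup.closure ({x, y} : Set G)) : d * x * d⁻¹ ≠ y := by
  have hx2 := sq_eq_one_of_orderOf_two hx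
  have hy2 := sq_eq_one_of_orderOf_two hy
  intro h
  obtain ⟨k, hk⟩ := conj_x_of_mem_closure_pair hx2 hy2 hd
  rw [h] at hk
  nth_rewrite 1 [y_eq_zpow_mul hx2 hy2] at hk
  have hk' : (x * y) ^ (-1 : ℤ) = (x * y) ^ (2 * k) := mul_right_cancel hk
  rw [zpow_eq_zpow_iff_modEq, Int.modEq_iff_dvd] at hk'
  have h2 : (2 : ℤ) ∣ (orderOf (x * y) : ℤ) := by
    exact_mod_cast even_iff_two_dvd.mp heven
  have := dvd_trans h2 hk'
  omega

end Cfsg.Agent.S0210
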