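import Cfsg.Statements.S0211
import Cfsg.Agent.H5.Dihedral

set_option autoImplicit false
open Cfsg

namespace Cfsg.Agent.S0211

open Cfsg.Agent.H5 in
/-- Let x, y be involutions with xy of even order n and z = (xy)^(n/2). Then xz is conjugate to x by an element of the subgroup generated by x, y if and only if 4 divides n. -/
theorem result {G : Type*} [Group G] [Finite G] (x y : G) (hx : orderOf x = 2) (hy : orderOf y = 2) (heven : Even (orderOf (x * y))) : (∃ d ∈ Subgroup.closure ({x, y} : Set G), d * x * d⁻¹ = x * (x * y) ^ (orderOf (x * y) / 2)) ↔ 4 ∣ orderOf (x * y) := by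
  have hx2 := sq_eq_one_of_orderOf_two hx
  have hy2 := sq_eq_one_of_orderOf_two hy
  obtain ⟨m, hm⟩ := heven
  have hm' : orderOf (x * y) / 2 = m := by omega
  rw [hm']
  have hswap : x * (x * y) ^ m = (x * y) ^ (-(m : ℤ)) * x := by
    have := mul_zpow_swap hx2 hy2 (m : ℤ)
    rwa [zpow_natCast] at this
  constructor
  · rintro ⟨d, hd, h⟩
    obtain ⟨k, hk⟩ := conj_x_of_mem_closure_pair hx2 hy2 hd
    rw [h, hswap] at hk
    have hk' : (x * y) ^ (-(m : ℤ)) = (x * y) ^ (2 * k) := mul_right_cancel hk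
    rw [zpow_eq_zpow_iff_modEq, Int.modEq_iff_dvd, hm] at hk'
    obtain ⟨c, hc⟩ := hk'
    push_cast at hc
    have : (2 : ℤ) ∣ (m : ℤ) := ⟨m * c - k, by linear_combination hc⟩
    have h2 : 2 ∣ m := by exact_mod_cast this
    obtain ⟨j, rfl⟩ := h2
    rw [hm]
    exact ⟨j, by ring⟩
  · rintro ⟨j, hj⟩
    have hmj : m = 2 * j := by omega
    refine ⟨(x * y) ^ (j : ℤ), zpow_mem_closure_pair x y j, ?_⟩
    rw [conj_zpow_x hx2 hy2, hswap]
    congr 1
    rw [zpow_eq_zpow_iff_modEq, Int.modEq_iff_dvd, hj, hmj]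
    exact ⟨-1, by push_cast; ring⟩

end Cfsg.Agent.S0211
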