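import Cfsg.Statements.S0212
import Cfsg.Agent.H5.Involutions

set_option autoImplicit false
open Cfsg

namespace Cfsg.Agent.S0212

open Cfsg.Agent.H5

/-- A simple group with a proper subgroup of index at most `r` has order at most `r!`. -/
theorem card_le_factorial_of_index_le {G : Type*} [Group G] [Finite G] [IsSimpleGroup G]
    (K : Subgroup G) (hK : K ≠ ⊤) (r : ℕ) (hr : K.index ≤ r) : Nat.card G ≤ r.factorial := by
  have hker : (MulAction.toPermHom G (G ⧸ K)).ker = ⊥ := by
    rcases IsSimpleGroup.eq_bot_or_eq_top_of_normal (MulAction.toPermHom G (G ⧸ K)).ker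
      inferInstance with h | h
    · exact h
    · exfalso
      apply hK
      rw [← Subgroup.normalCore_eq_ker] at h
      exact top_le_iff.mp (h ▸ Subgroup.normalCore_le K)
  have hinj : Function.Injective (MulAction.toPermHom G (G ⧸ K)) :=
    (MonoidHom.ker_eq_bot_iff _).mp hker
  calc Nat.card G ≤ Nat.card (Equiv.Perm (G ⧸ K)) := Nat.card_le_card_of_injective _ hinj
    _ = (Nat.card (G ⧸ K)).factorial := Nat.card_perm
    _ = K.index.factorial := by rw [Subgroup.index_eq_card]
    _ ≤ r.factorial := Nat.factorial_le hr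

theorem sq_one_of_isConj {G : Type*} [Group G] {x t : G} (hx : x * x = 1) (h : IsConj x t) :
    t * t = 1 := by
  obtain ⟨g, rfl⟩ := isConj_iff.mp h
  calc g * x * g⁻¹ * (g * x * g⁻¹) = g * (x * x) * g⁻¹ := by group
    _ = 1 := by rw [hx]; group

/-- The Brauer–Fowler bound: if G is a finite simple group and t an involution of G whose centralizer has order n, then |G| ≤ (2n^2)!. -/
theorem result {G : Type*} [Group G] [Finite G] [IsSimpleGroup G] (t : G) (ht : orderOf t = 2) : Nat.card G ≤ Nat.factorial (2 * (Nat.card (Subgroup.centralizer ({t} : Set G))) ^ 2) := by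
  classical
  have := Fintype.ofFinite G
  have ht2 := sq_eq_one_of_orderOf_two ht
  have ht1 := ne_one_of_orderOf_two ht
  by_cases hCt : Subgroup.centralizer ({t} : Set G) = ⊤
  · -- trivial case
    have hn : Nat.card (Subgroup.centralizer ({t} : Set G)) = Nat.card G := by
      rw [hCt]; exact Subgroup.card_top
    rw [hn]
    have hpos : 0 < Nat.card G := Nat.card_pos
    have h1 : Nat.card G ≤ 2 * Nat.card G ^ 2 := by nlinarith
    exact le_trans h1 (Nat.self_le_factorial _)
  -- the centre is trivial
  have hcenter : Subgroup.center G = ⊥ := by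
    rcases IsSimpleGroup.eq_bot_or_eq_top_of_normal (Subgroup.center G) inferInstance with h | h
    · exact h
    · exfalso
      apply hCt
      rw [Subgroup.centralizer_eq_top_iff_subset, h]
      exact Set.subset_univ _
  have hCg : ∀ g : G, g ≠ 1 → Subgroup.centralizer ({g} : Set G) ≠ ⊤ := by
    intro g hg h
    apply hg
    rw [Subgroup.centralizer_eq_top_iff_subset, hcenter] at h
    simpa using h
  by_contra hcon
  -- every proper subgroup has index > 2 n ^ 2
  have hbig : ∀ K : Subgroup G, K ≠ ⊤ →
      2 * (Nat.card (Subgroup.centralizer ({t} : Set G))) ^ 2 < K.index := by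
    intro K hK
    by_contra hle
    exact hcon (card_le_factorial_of_index_le K hK _ (not_lt.mp hle))
  -- counting
  let I : Finset G := Finset.univ.filter (fun u => IsConj t u)
  let B : G → ℕ := fun g => ((I ×ˢ I).filter (fun p => p.1 * p.2 = g)).card
  have hI2 : ∀ u ∈ I, u * u = 1 := by
    intro u hu
    exact sq_one_of_isConj ht2 (Finset.mem_filter.mp hu).2
  have hsum : I.card * I.card = ∑ g : G, B g := by
    rw [← Finset.card_product]
    exact Finset.card_eq_sum_card_fiberwise (f := fun p : G × G => p.1 * p.2) (fun _ _ => Finset.mem_coe.mpr (Finset.mem_univ _))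
  have hB1 : B 1 ≤ I.card := by
    apply Finset.card_le_card_of_injOn (fun p => p.1)
    · intro p hp
      have hp' := Finset.mem_filter.mp (Finset.mem_coe.mp hp)
      exact Finset.mem_coe.mpr (Finset.mem_product.mp hp'.1).1
    · intro p hp q hq hpq
      have hp' := Finset.mem_filter.mp (Finset.mem_coe.mp hp)
      have hq' := Finset.mem_filter.mp (Finset.mem_coe.mp hq)
      have h1 : p.1 = q.1 := hpq
      have h2 : p.2 = q.2 := by
        have e1 : p.2 = p.1⁻¹ := eq_inv_of_mul_eq_one_right hp'.2
        have e2 : q.2 = q.1⁻¹ := eq_inv_of_mul_eq_one_right hq'.2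
        rw [e1, e2, h1]
      exact Prod.ext h1 h2
  have hBg : ∀ g : G, B g ≤ Nat.card (Subgroup.centralizer ({g} : Set G)) := by
    intro g
    have hcard : Nat.card (Subgroup.centralizer ({g} : Set G))
        = (Finset.univ.filter (fun x => x ∈ Subgroup.centralizer ({g} : Set G))).card := by
      rw [Nat.card_eq_fintype_card, Fintype.card_subtype]
    rw [hcard]
    by_cases hne : ((I ×ˢ I).filter (fun p => p.1 * p.2 = g)).Nonempty
    · obtain ⟨p₀, hp₀⟩ := hne
      have hp₀' := Finset.mem_filter.mp hp₀
      have hu₀ := hI2 _ (Finset.mem_product.mp hp₀'.1).1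
      have hv₀ := hI2 _ (Finset.mem_product.mp hp₀'.1).2
      have hinv₀ : p₀.1 * g * p₀.1⁻¹ = g⁻¹ := by
        rw [← hp₀'.2]; exact inv_conj_mul hu₀ hv₀
      apply Finset.card_le_card_of_injOn (fun p => p₀.1⁻¹ * p.1)
      · intro p hp
        have hp' := Finset.mem_filter.mp (Finset.mem_coe.mp hp)
        have hu := hI2 _ (Finset.mem_product.mp hp'.1).1
        have hv := hI2 _ (Finset.mem_product.mp hp'.1).2
        have hinv : p.1 * g * p.1⁻¹ = g⁻¹ := by
          rw [← hp'.2]; exact inv_conj_mul hu hv
        apply Finset.mem_coe.mpr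
        apply Finset.mem_filter.mpr
        refine ⟨Finset.mem_univ _, ?_⟩
        rw [Subgroup.mem_centralizer_singleton_iff]
        -- (u₀⁻¹ u) g = g (u₀⁻¹ u)
        have e1 : p.1 * g = g⁻¹ * p.1 := by rw [← hinv]; group
        have e2 : p₀.1⁻¹ * g⁻¹ = g * p₀.1⁻¹ := by
          have : g⁻¹ = p₀.1 * g * p₀.1⁻¹ := hinv₀.symm
          rw [this]; group
        calc p₀.1⁻¹ * p.1 * g = p₀.1⁻¹ * (p.1 * g) := by group
          _ = p₀.1⁻¹ * (g⁻¹ * p.1) := by rw [e1]
          _ = (p₀.1⁻¹ * g⁻¹) * p.1 := by group
          _ = g * p₀.1⁻¹ * p.1 := by rw [e2]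
          _ = g * (p₀.1⁻¹ * p.1) := by group
      · intro p hp q hq hpq
        have hp' := Finset.mem_filter.mp (Finset.mem_coe.mp hp)
        have hq' := Finset.mem_filter.mp (Finset.mem_coe.mp hq)
        have h1 : p.1 = q.1 := mul_left_cancel hpq
        have h2 : p.2 = q.2 := by
          have e1 : p.2 = p.1⁻¹ * g := by rw [← hp'.2]; group
          have e2 : q.2 = q.1⁻¹ * g := by rw [← hq'.2]; group
          rw [e1, e2, h1]
        exact Prod.ext h1 h2
    · rw [Finset.not_nonempty_iff_eq_empty] at hne
      simp only [B, hne, Finset.card_empty]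
      exact Nat.zero_le _
  -- arithmetic
  have hmn := card_conj_mul_card_centralizer t
  have hIcard : Nat.card {u : G // IsConj t u} = I.card := by
    rw [Nat.card_eq_fintype_card, Fintype.card_subtype]
  rw [hIcard] at hmn
  have hnN : Nat.card (Subgroup.centralizer ({t} : Set G)) ≠ Nat.card G := by
    intro h
    exact hCt ((Subgroup.card_eq_iff_eq_top _).mp h)
  have hNpos : 0 < Nat.card G := Nat.card_pos
  have hnpos : 0 < Nat.card (Subgroup.centralizer ({t} : Set G)) := Nat.card_pos
  have hBg' : ∀ g : G, g ≠ 1 →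
      2 * (Nat.card (Subgroup.centralizer ({t} : Set G))) ^ 2 * B g ≤ Nat.card G := by
    intro g hg
    have h1 := hbig _ (hCg g hg)
    have h2 := Subgroup.card_mul_index (Subgroup.centralizer ({g} : Set G))
    calc 2 * (Nat.card (Subgroup.centralizer ({t} : Set G))) ^ 2 * B g
        ≤ (Subgroup.centralizer ({g} : Set G)).index * Nat.card (Subgroup.centralizer ({g} : Set G)) :=
          Nat.mul_le_mul h1.le (hBg g)
      _ = Nat.card G := by rw [mul_comm]; exact h2
  have hsum2 : 2 * (Nat.card (Subgroup.centralizer ({t} : Set G))) ^ 2 * (I.card * I.card) + Nat.card G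
      ≤ 2 * (Nat.card (Subgroup.centralizer ({t} : Set G))) ^ 2 * I.card + Nat.card G * Nat.card G := by
    rw [hsum, ← Finset.add_sum_erase Finset.univ B (Finset.mem_univ (1 : G)), mul_add, Finset.mul_sum]
    have h3 : ∑ g ∈ Finset.univ.erase (1 : G), 2 * (Nat.card (Subgroup.centralizer ({t} : Set G))) ^ 2 * B g
        ≤ ∑ _g ∈ Finset.univ.erase (1 : G), Nat.card G := by
      apply Finset.sum_le_sum
      intro g hg
      exact hBg' g (Finset.ne_of_mem_erase hg)
    rw [Finset.sum_const, smul_eq_mul, Finset.card_erase_of_mem (Finset.mem_univ _),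
      Finset.card_univ, ← Nat.card_eq_fintype_card] at h3
    have h4 : 2 * (Nat.card (Subgroup.centralizer ({t} : Set G))) ^ 2 * B 1
        ≤ 2 * (Nat.card (Subgroup.centralizer ({t} : Set G))) ^ 2 * I.card :=
      Nat.mul_le_mul_left _ hB1
    have h5 : (Nat.card G - 1) * Nat.card G + Nat.card G = Nat.card G * Nat.card G := by
      obtain ⟨k, hk⟩ := Nat.exists_eq_succ_of_ne_zero hNpos.ne'
      rw [hk, Nat.succ_sub_one, Nat.succ_eq_add_one]
      ring
    linarith
  generalize Nat.card ↥(Subgroup.centralizer ({t} : Set G)) = n at *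
  generalize Nat.card G = N at *
  generalize I.card = m at *
  have hmpos : 0 < m := by
    rcases Nat.eq_zero_or_pos m with h | h
    · rw [h, zero_mul] at hmn; omega
    · exact h
  have hm2 : 2 ≤ m := by
    by_contra h
    have : m = 1 := by omega
    rw [this, one_mul] at hmn
    exact hnN hmn
  subst hmn
  have h6 : n ^ 2 * m * 2 ≤ n ^ 2 * m * m := Nat.mul_le_mul_left _ hm2
  have h7 : 0 < m * n := Nat.mul_pos hmpos hnpos
  nlinarith [h6, h7, hsum2]

end Cfsg.Agent.S0212
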