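import Cfsg.Statements.S0216
import Cfsg.Agent.H5.Dihedral

set_option autoImplicit false
open Cfsg

namespace Cfsg.Agent.S0216

open Cfsg.Agent.H5 in
/-- For an involution u in a Sylow 2-subgroup P of a finite group G, the following are equivalent: no G-conjugate of u other than u lies in P; every commutator of u with an element of G has odd order. -/
theorem result {G : Type*} [Group G] [Finite G] (P : Sylow 2 G) (u : G) (hu : orderOf u = 2) (huP : u ∈ P) : (∀ g : G, g * u * g⁻¹ ∈ P → g * u * g⁻¹ = u) ↔ (∀ g : G, Odd (orderOf (u * g * u⁻¹ * g⁻¹))) := by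
  have hu2 := sq_eq_one_of_orderOf_two hu
  have hu1 := ne_one_of_orderOf_two hu
  have huinv := inv_eq_self_of_mul_self hu2
  -- conjugates of u are involutions
  have hconj2 : ∀ g : G, (g * u * g⁻¹) * (g * u * g⁻¹) = 1 := by
    intro g
    calc (g * u * g⁻¹) * (g * u * g⁻¹) = g * (u * u) * g⁻¹ := by group
      _ = 1 := by rw [hu2]; group
  have hconj1 : ∀ g : G, g * u * g⁻¹ ≠ 1 := by
    intro g h
    apply hu1
    have : u = g⁻¹ * (g * u * g⁻¹) * g := by group
    rw [this, h]; group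
  have hcomm : ∀ g : G, u * g * u⁻¹ * g⁻¹ = u * (g * u * g⁻¹) := by
    intro g; rw [huinv]; group
  constructor
  · intro hiso g
    rw [hcomm]
    by_contra hodd
    rw [Nat.not_odd_iff_even] at hodd
    obtain ⟨j, a, ha, hord⟩ := exists_conj_two_pow hu2 (hconj2 g)
      (orderOf_pos (u * (g * u * g⁻¹))).ne' hodd
    obtain ⟨d, hd⟩ : ∃ d : G, d = (u * (g * u * g⁻¹)) ^ j := ⟨_, rfl⟩
    rw [← hd] at hord
    have hyconj : d * (g * u * g⁻¹) * d⁻¹ = (d * g) * u * (d * g)⁻¹ := by group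
    rw [hyconj] at hord
    obtain ⟨y, hy⟩ : ∃ y : G, y = (d * g) * u * (d * g)⁻¹ := ⟨_, rfl⟩
    rw [← hy] at hord
    have hy2 : y * y = 1 := by rw [hy]; exact hconj2 _
    have hy1 : y ≠ 1 := by rw [hy]; exact hconj1 _
    -- T = ⟨u, y⟩ is a 2-group
    have e := closurePairEquivDihedral hu2 hy2 hu1 hy1
    have hT : IsPGroup 2 ↥(Subgroup.closure ({u, y} : Set G)) := by
      apply IsPGroup.of_card (n := a + 1)
      rw [Nat.card_congr e.toEquiv, DihedralGroup.nat_card, hord]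
      ring
    obtain ⟨Q, hQ⟩ := hT.exists_le_sylow
    obtain ⟨h, rfl⟩ := MulAction.exists_smul_eq G P Q
    have hmem : ∀ z : G, z ∈ Subgroup.closure ({u, y} : Set G) → h⁻¹ * z * h⁻¹⁻¹ ∈ P := by
      intro z hz
      have := hQ hz
      rw [Sylow.coe_subgroup_smul, Subgroup.mem_pointwise_smul_iff_inv_smul_mem] at this
      have h3 : h⁻¹ * z * h⁻¹⁻¹ ∈ (P : Subgroup G) := by simpa [MulAut.smul_def] using this
      exact h3
    have h1 := hiso h⁻¹ (hmem u (x_mem_closure_pair u y))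
    have h2' := hmem y (y_mem_closure_pair u y)
    have h2e : h⁻¹ * y * h⁻¹⁻¹ = (h⁻¹ * d * g) * u * (h⁻¹ * d * g)⁻¹ := by
      rw [hy]; group
    rw [h2e] at h2'
    have h2 := hiso _ h2'
    rw [← h2e] at h2
    have hyu : y = u := by
      have : h⁻¹ * y * h⁻¹⁻¹ = h⁻¹ * u * h⁻¹⁻¹ := by rw [h1, h2]
      simpa using this
    rw [hyu, hu2, orderOf_one] at hord
    have : 2 ^ a ≥ 2 := by
      calc 2 ^ a ≥ 2 ^ 1 := Nat.pow_le_pow_right (by omega) (by omega)
        _ = 2 := by norm_num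
    omega
  · intro hodd g hg
    have h1 := hodd g
    rw [hcomm] at h1
    -- u * v ∈ P has 2-power order and odd order, so is 1
    have hmem : u * (g * u * g⁻¹) ∈ (P : Subgroup G) := Subgroup.mul_mem _ huP hg
    obtain ⟨j, hj⟩ := (IsPGroup.iff_orderOf.mp P.isPGroup') ⟨u * (g * u * g⁻¹), hmem⟩
    rw [Subgroup.orderOf_mk] at hj
    rw [hj] at h1
    have hj0 : j = 0 := by
      by_contra hj0
      have : Even (2 ^ j) := (Nat.even_pow' hj0).mpr even_two
      exact (Nat.not_even_iff_odd.mpr h1) this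
    rw [hj0, pow_zero, orderOf_eq_one_iff] at hj
    rw [eq_inv_of_mul_eq_one_right hj, huinv]

end Cfsg.Agent.S0216
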