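import Cfsg.Statements.S0218

set_option autoImplicit false
open Cfsg

namespace Cfsg.Agent.S0218

/-- The generalized quaternion group of order 2^(n+3) contains exactly one element of order 2. -/
theorem result (n : ℕ) : Nat.card {x : QuaternionGroup (2 ^ (n + 1)) // orderOf x = 2} = 1 := by
  have hm : NeZero (2 ^ (n + 1)) := ⟨by positivity⟩
  rw [Nat.card_eq_one_iff_unique]
  have key : ∀ x : QuaternionGroup (2 ^ (n + 1)), orderOf x = 2 →
      x = QuaternionGroup.a ((2 ^ (n + 1) : ℕ) : ZMod (2 * 2 ^ (n + 1))) := by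
    intro x hx
    cases x with
    | a i =>
      have h1 : (QuaternionGroup.a i : QuaternionGroup (2 ^ (n + 1))) ^ 2 = 1 := by
        have := pow_orderOf_eq_one (QuaternionGroup.a i : QuaternionGroup (2 ^ (n + 1)))
        rwa [hx] at this
      have h2 : (QuaternionGroup.a i : QuaternionGroup (2 ^ (n + 1))) ≠ 1 := by
        intro h
        rw [h, orderOf_one] at hx
        omega
      rw [sq, QuaternionGroup.a_mul_a, QuaternionGroup.one_def] at h1
      rw [QuaternionGroup.one_def] at h2
      have h3 : i + i = 0 := by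
        injection h1
      have h4 : i ≠ 0 := fun h => h2 (by rw [h])
      congr 1
      -- i + i = 0 in ZMod (2 * m), i ≠ 0 → i = m
      have hi := ZMod.natCast_zmod_val i
      have hlt := ZMod.val_lt i
      rw [← hi] at h3 h4 ⊢
      have h5 : ((i.val + i.val : ℕ) : ZMod (2 * 2 ^ (n + 1))) = 0 := by
        push_cast; exact h3
      rw [ZMod.natCast_eq_zero_iff] at h5
      obtain ⟨c, hc⟩ := h5
      have hc1 : c = 0 ∨ c = 1 := by
        rcases c with _ | _ | c
        · left; rfl
        · right; rfl
        · exfalso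
          have : 2 * 2 ^ (n + 1) * (c + 1 + 1) ≥ 2 * 2 ^ (n + 1) * 2 := Nat.mul_le_mul_left _ (by omega)
          omega
      rcases hc1 with rfl | rfl
      · exfalso; apply h4
        have : i.val = 0 := by omega
        rw [this]; simp
      · have : i.val = 2 ^ (n + 1) := by omega
        rw [this]
    | xa i =>
      rw [QuaternionGroup.orderOf_xa] at hx
      omega
  constructor
  · constructor
    intro ⟨x, hx⟩ ⟨y, hy⟩
    apply Subtype.ext
    simp only
    rw [key x hx, key y hy]
  · refine ⟨⟨QuaternionGroup.a ((2 ^ (n + 1) : ℕ) : ZMod (2 * 2 ^ (n + 1))), ?_⟩⟩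
    rw [QuaternionGroup.orderOf_a]
    have hpos : 0 < 2 ^ (n + 1) := by positivity
    rw [ZMod.val_natCast, Nat.mod_eq_of_lt (by omega)]
    have : Nat.gcd (2 * 2 ^ (n + 1)) (2 ^ (n + 1)) = 2 ^ (n + 1) := by
      apply Nat.gcd_eq_right
      exact Dvd.intro_left 2 rfl
    rw [this]
    exact Nat.mul_div_cancel _ (by positivity)

end Cfsg.Agent.S0218
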