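import Cfsg.Statements.S0221
import Cfsg.Agent.H25.RankThree

set_option autoImplicit false
open Cfsg

namespace Cfsg.Agent.S0221

/-- Let G be a finite group with no subgroup of index 2 whose 2-rank is at least 3 (it contains an elementary abelian subgroup of order 8). Then the centralizer of every involution of G also contains an elementary abelian subgroup of order 8. -/
theorem result {G : Type*} [Group G] [Finite G] (hno : ∀ H : Subgroup G, H.index ≠ 2) (hrank : ∃ E : Subgroup G, Nat.card E = 8 ∧ ∀ e ∈ E, e ^ 2 = 1) (x : G) (hx : orderOf x = 2) : ∃ E : Subgroup G, E ≤ Subgroup.centralizer ({x} : Set G) ∧ Nat.card E = 8 ∧ ∀ e ∈ E, e ^ 2 = 1 := by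
  have : Fact (Nat.Prime 2) := ⟨Nat.prime_two⟩
  obtain ⟨E, hE8, hEsq⟩ := hrank
  have hEsq' : ∀ e ∈ E, e * e = 1 := fun e he => by rw [← pow_two]; exact hEsq e he
  have hEp : IsPGroup 2 E := IsPGroup.of_card (n := 3) (by rw [hE8]; norm_num)
  obtain ⟨S, hES⟩ := hEp.exists_le_sylow
  -- the normal four-group of `S`
  have hcard : Nat.card (E.subgroupOf (S : Subgroup G)) = 8 := by
    rw [← hE8]
    exact Nat.card_congr (Subgroup.subgroupOfEquivOfLe hES).toEquiv
  obtain ⟨z, v, hz1, hzz, hv1, hvv, hzv, hcomm, hzc, hvc⟩ :=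
    Cfsg.Agent.H25.exists_normal_four (P := (S : Subgroup G)) S.isPGroup'
      (E.subgroupOf (S : Subgroup G)) hcard
      (fun e he => Subtype.ext (hEsq' e.1 (Subgroup.mem_subgroupOf.mp he)))
  obtain ⟨E', h1, h2, h3⟩ := Cfsg.Agent.H25.rank_three_core hno S E hES hE8 hEsq' (z : G) (v : G)
    z.2 v.2 (fun h => hz1 (Subtype.ext h)) (congrArg Subtype.val hzz)
    (fun h => hv1 (Subtype.ext h)) (congrArg Subtype.val hvv)
    (fun h => hzv (Subtype.ext h)) (congrArg Subtype.val hcomm)
    (fun h hh => congrArg Subtype.val (hzc ⟨h, hh⟩))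
    (fun h hh => by
      rcases hvc ⟨h, hh⟩ with e | e
      · exact Or.inl (congrArg Subtype.val e)
      · exact Or.inr (congrArg Subtype.val e)) x hx
  exact ⟨E', h1, h2, fun e he => by rw [pow_two]; exact h3 e he⟩

end Cfsg.Agent.S0221
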