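import Cfsg.Statements.S0226
import Mathlib

set_option autoImplicit false
open Cfsg

namespace Cfsg.Agent.S0226

/-- A finite group of even order has an odd number of involutions. -/
theorem result {G : Type*} [Group G] [Finite G] (heven : Even (Nat.card G)) : Odd (Nat.card {t : G // orderOf t = 2}) := by
  classical
  have : Fintype G := Fintype.ofFinite G
  have h2 : Fact (Nat.Prime 2) := ⟨Nat.prime_two⟩
  -- the inversion map
  let f : Function.End G := fun g => g⁻¹
  have hf : f ^ 2 ^ 1 = 1 := by
    rw [pow_one, pow_two]
    funext g
    show (g⁻¹)⁻¹ = g
    simp
  have key := Equiv.Perm.card_fixedPoints_modEq (p := 2) (n := 1) hf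
  -- fixed points are 1 together with the involutions
  have hfix : Fintype.card (Function.fixedPoints f) = Nat.card {t : G // orderOf t = 2} + 1 := by
    rw [← Nat.card_eq_fintype_card]
    have e : Function.fixedPoints f ≃ Option {t : G // orderOf t = 2} :=
      { toFun := fun x => if h : (x : G) = 1 then none else some ⟨x, by
          have hx : (x : G)⁻¹ = x := x.2
          exact orderOf_eq_prime (by rw [pow_two]; nth_rewrite 1 [← hx]; simp) h⟩
        invFun := fun o => match o with
          | none => ⟨1, by simp [Function.IsFixedPt, f, Function.fixedPoints]⟩
          | some t => ⟨t.1, by
              have h1 : (t.1) ^ 2 = 1 := by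
                have := pow_orderOf_eq_one t.1
                rwa [t.2] at this
              show (t.1)⁻¹ = t.1
              rw [inv_eq_iff_mul_eq_one, ← pow_two]; exact h1⟩
        left_inv := by
          intro x
          by_cases h : (x : G) = 1
          · simp [h]; exact Subtype.ext h.symm
          · simp [h]
        right_inv := by
          intro o
          cases o with
          | none => simp
          | some t =>
            have : (t : G) ≠ 1 := by
              intro h
              have := t.2
              rw [h, orderOf_one] at this
              omega
            simp [this] }
    rw [Nat.card_congr e]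
    simp [Nat.card_eq_fintype_card]
  rw [hfix, ← Nat.card_eq_fintype_card] at key
  have key' : Nat.card G % 2 = (Nat.card {t : G // orderOf t = 2} + 1) % 2 := key
  have : Nat.card G % 2 = 0 := Nat.even_iff.mp heven
  rw [Nat.odd_iff]; omega

end Cfsg.Agent.S0226
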