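import Cfsg.Statements.S0229
import Mathlib
import Cfsg.Agent.H6.Dihedral

set_option autoImplicit false
open Cfsg

namespace Cfsg.Agent.S0229

/-- Let t be an involution of a Sylow 2-subgroup S of a finite group G, conjugate in G to no other element of S, and let s be an involution of G not conjugate to t. Then the order of st is twice an odd number. -/
theorem result {G : Type*} [Group G] [Finite G] (S : Sylow 2 G) (t : G) (ht : orderOf t = 2) (htS : t ∈ S) (hiso : ∀ g : G, g * t * g⁻¹ ∈ S → g * t * g⁻¹ = t) (s : G) (hs : orderOf s = 2) (hns : ¬ IsConj s t) : orderOf (s * t) % 4 = 2 := by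
  have hpos := orderOf_pos (s * t)
  rcases Nat.even_or_odd (orderOf (s * t)) with he | ho
  swap
  · exact absurd (H6.isConj_of_odd_orderOf_mul hs ht ho) hns
  -- even case
  by_contra hcon
  obtain ⟨j, hj⟩ : ∃ j, orderOf (s * t) = 2 * (2 * j) := by
    obtain ⟨m, hm⟩ := he
    exact ⟨orderOf (s * t) / 4, by omega⟩
  have hj0 : 2 * j ≠ 0 := by omega
  obtain ⟨hzo, hzs, hzt⟩ := H6.central_involution_of_even hs ht hj hj0
  -- t * u is conjugate to t, where u = (s * t) ^ (2 * j)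
  have hconj : ((s * t) ^ j)⁻¹ * t * (s * t) ^ j = t * (s * t) ^ (2 * j) := by
    have h1 := H6.inverts_pow (H6.inv_right_inverts hs ht) j
    have h2 : t * (s * t) ^ j = ((s * t) ^ j)⁻¹ * t := by
      calc t * (s * t) ^ j = t * (s * t) ^ j * t⁻¹ * t := by group
        _ = ((s * t) ^ j)⁻¹ * t := by rw [h1]
    calc ((s * t) ^ j)⁻¹ * t * (s * t) ^ j = ((s * t) ^ j)⁻¹ * (t * (s * t) ^ j) := by group
      _ = ((s * t) ^ j)⁻¹ * (((s * t) ^ j)⁻¹ * t) := by rw [h2]
      _ = (((s * t) ^ j) * ((s * t) ^ j))⁻¹ * t := by group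
      _ = ((s * t) ^ (2 * j))⁻¹ * t := by rw [← pow_add, ← two_mul]
      _ = (s * t) ^ (2 * j) * t := by rw [H6.inv_of_orderOf_two hzo]
      _ = t * (s * t) ^ (2 * j) := hzt.eq
  -- t and u commute, both involutions, so they lie in a conjugate of S
  obtain ⟨g, hg1, hg2⟩ := H6.exists_conj_sylow_of_commute S ht hzo hzt.symm
  have e1 : g⁻¹ * t * g = t := by
    have := hiso g⁻¹ (by rw [inv_inv]; exact hg1)
    rwa [inv_inv] at this
  have hg3 : g⁻¹ * (t * (s * t) ^ (2 * j)) * g ∈ S := by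
    have : g⁻¹ * (t * (s * t) ^ (2 * j)) * g = (g⁻¹ * t * g) * (g⁻¹ * (s * t) ^ (2 * j) * g) := by
      group
    rw [this]; exact mul_mem hg1 hg2
  have e2 : g⁻¹ * (t * (s * t) ^ (2 * j)) * g = t := by
    have e3 : g⁻¹ * (t * (s * t) ^ (2 * j)) * g =
        (g⁻¹ * ((s * t) ^ j)⁻¹) * t * (g⁻¹ * ((s * t) ^ j)⁻¹)⁻¹ := by
      rw [← hconj]; group
    rw [e3] at hg3 ⊢
    exact hiso _ hg3
  have hu1 : (s * t) ^ (2 * j) = 1 := by
    have e4 : g⁻¹ * (t * (s * t) ^ (2 * j)) * g = g⁻¹ * t * g := by rw [e1, e2]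
    have e5 : t * (s * t) ^ (2 * j) = t := mul_left_cancel (mul_right_cancel e4)
    exact mul_left_cancel (a := t) (by rw [e5, mul_one])
  exact H6.ne_one_of_orderOf_two hzo hu1

end Cfsg.Agent.S0229
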