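import Cfsg.Statements.S0230
import Mathlib
import Cfsg.Agent.H6.Dihedral
import Cfsg.Agent.H6.Count

set_option autoImplicit false
open Cfsg

namespace Cfsg.Agent.S0230

/-- Let G be a finite group with two non-conjugate involutions, and let t be an involution whose centralizer has maximal order among centralizers of involutions. Then |G| < |C_G(t)|^3. -/
theorem result {G : Type*} [Group G] [Finite G] (s t : G) (hs : orderOf s = 2) (ht : orderOf t = 2) (hnc : ¬ IsConj s t) (hmax : ∀ u : G, orderOf u = 2 → Nat.card (Subgroup.centralizer ({u} : Set G)) ≤ Nat.card (Subgroup.centralizer ({t} : Set G))) : Nat.card G < Nat.card (Subgroup.centralizer ({t} : Set G)) ^ 3 := by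
  classical
  have : Fintype G := Fintype.ofFinite G
  have hcpos : 0 < Nat.card (Subgroup.centralizer ({t} : Set G)) := Nat.card_pos
  generalize hc : Nat.card (Subgroup.centralizer ({t} : Set G)) = c at hmax hcpos ⊢
  have hG := H6.card_conj_mul_card_centralizer t
  rw [hc] at hG
  rw [← hG]
  suffices h : Nat.card {y : G // IsConj t y} ≤ (c - 1) * (c - 1) by
    have h1 : (c - 1) * (c - 1) * c < c ^ 3 := by
      obtain ⟨d, rfl⟩ : ∃ d, c = d + 1 := ⟨c - 1, by omega⟩
      simp only [Nat.add_sub_cancel]
      nlinarith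
    exact lt_of_le_of_lt (Nat.mul_le_mul_right _ h) h1
  let Z : Finset G := Finset.univ.filter (fun z => orderOf z = 2 ∧ Commute z s)
  let D : G → Finset G := fun z => Finset.univ.filter (fun y => y ≠ 1 ∧ Commute y z)
  have hsub : (Finset.univ.filter (fun y => IsConj t y)) ⊆ Z.biUnion D := by
    intro y hy
    simp only [Finset.mem_filter, Finset.mem_univ, true_and] at hy
    obtain ⟨g, hg⟩ := isConj_iff.mp hy
    have hyo : orderOf y = 2 := by rw [← hg, H6.orderOf_conj_eq]; exact ht
    have hnc' : ¬ IsConj s y := fun h => hnc (h.trans hy.symm)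
    obtain ⟨z, hz, hzs, hzy⟩ := H6.exists_common_involution hs hyo hnc'
    rw [Finset.mem_biUnion]
    refine ⟨z, ?_, ?_⟩
    · simp only [Z, Finset.mem_filter, Finset.mem_univ, true_and]
      exact ⟨hz, hzs⟩
    · simp only [D, Finset.mem_filter, Finset.mem_univ, true_and]
      exact ⟨H6.ne_one_of_orderOf_two hyo, hzy.symm⟩
  have hD : ∀ z ∈ Z, (D z).card ≤ c - 1 := by
    intro z hz
    simp only [Z, Finset.mem_filter, Finset.mem_univ, true_and] at hz
    have h1 : (D z).card + 1 ≤ Nat.card (Subgroup.centralizer ({z} : Set G)) := by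
      apply H6.card_add_one_le_card_subgroup
      intro a ha
      simp only [D, Finset.mem_filter, Finset.mem_univ, true_and] at ha
      exact ⟨H6.mem_cent_single.mpr ha.2.symm.eq, ha.1⟩
    have := hmax z hz.1
    omega
  have hZ : Z.card ≤ c - 1 := by
    have h1 : Z.card + 1 ≤ Nat.card (Subgroup.centralizer ({s} : Set G)) := by
      apply H6.card_add_one_le_card_subgroup
      intro a ha
      simp only [Z, Finset.mem_filter, Finset.mem_univ, true_and] at ha
      exact ⟨H6.mem_cent_single.mpr ha.2.symm.eq, H6.ne_one_of_orderOf_two ha.1⟩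
    have := hmax s hs
    omega
  calc Nat.card {y : G // IsConj t y} = (Finset.univ.filter (fun y => IsConj t y)).card := by
        rw [Nat.card_eq_fintype_card, Fintype.card_subtype]
    _ ≤ (Z.biUnion D).card := Finset.card_le_card hsub
    _ ≤ ∑ z ∈ Z, (D z).card := Finset.card_biUnion_le
    _ ≤ ∑ z ∈ Z, (c - 1) := Finset.sum_le_sum hD
    _ = Z.card * (c - 1) := by simp
    _ ≤ (c - 1) * (c - 1) := Nat.mul_le_mul_right _ hZ

end Cfsg.Agent.S0230
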