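import Cfsg.Statements.S0231
import Mathlib
import Cfsg.Agent.H6.Dihedral

set_option autoImplicit false
open scoped Pointwise
open Cfsg

namespace Cfsg.Agent.S0231

/-- Let T be a Sylow 2-subgroup of the finite group G which is not normal and which intersects every other Sylow 2-subgroup trivially. Then G has a single conjugacy class of involutions. -/
theorem result {G : Type*} [Group G] [Finite G] (T : Sylow 2 G) (hnn : ¬ (T : Subgroup G).Normal) (hTI : ∀ g : G, MulAut.conj g • (T : Subgroup G) ≠ T → MulAut.conj g • (T : Subgroup G) ⊓ T = ⊥) (s t : G) (hs : orderOf s = 2) (ht : orderOf t = 2) : IsConj s t := by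
  have hp2 : Fact (Nat.Prime 2) := ⟨Nat.prime_two⟩
  -- membership in conjugates
  have hmem : ∀ (a x : G), x ∈ MulAut.conj a • (T : Subgroup G) ↔ a⁻¹ * x * a ∈ T := by
    intro a x
    rw [Subgroup.mem_pointwise_smul_iff_inv_smul_mem]
    simp only [MulAut.smul_def, MulAut.conj_inv_apply]
    exact Iff.rfl
  -- a nontrivial element lies in a unique conjugate of T
  have hU : ∀ (a b u : G), u ≠ 1 → a⁻¹ * u * a ∈ T → b⁻¹ * u * b ∈ T →
      ∀ x, a⁻¹ * x * a ∈ T → b⁻¹ * x * b ∈ T := by
    intro a b u hu ha hb x hx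
    have hg : MulAut.conj (b⁻¹ * a) • (T : Subgroup G) = T := by
      by_contra hne
      have hbot := hTI (b⁻¹ * a) hne
      have hin : b⁻¹ * u * b ∈ MulAut.conj (b⁻¹ * a) • (T : Subgroup G) ⊓ T := by
        rw [Subgroup.mem_inf]
        refine ⟨?_, hb⟩
        rw [hmem]
        have : (b⁻¹ * a)⁻¹ * (b⁻¹ * u * b) * (b⁻¹ * a) = a⁻¹ * u * a := by group
        rw [this]; exact ha
      rw [hbot, Subgroup.mem_bot] at hin
      apply hu
      have : u = b * (b⁻¹ * u * b) * b⁻¹ := by group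
      rw [this, hin]; group
    have h1 : b⁻¹ * x * b ∈ MulAut.conj (b⁻¹ * a) • (T : Subgroup G) := by
      rw [hmem]
      have : (b⁻¹ * a)⁻¹ * (b⁻¹ * x * b) * (b⁻¹ * a) = a⁻¹ * x * a := by group
      rw [this]; exact hx
    rw [hg] at h1; exact h1
  -- commuting involutions lie in the same conjugates of T
  have hC : ∀ (a u v : G), orderOf u = 2 → orderOf v = 2 → Commute u v →
      a⁻¹ * u * a ∈ T → a⁻¹ * v * a ∈ T := by
    intro a u v hu hv huv ha
    obtain ⟨c, hc1, hc2⟩ := H6.exists_conj_sylow_of_commute T hu hv huv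
    exact hU c a u (H6.ne_one_of_orderOf_two hu) hc1 ha v hc2
  -- non-conjugate involutions lie in the same conjugates of T
  have hM : ∀ (a u v : G), orderOf u = 2 → orderOf v = 2 → ¬ IsConj u v →
      a⁻¹ * u * a ∈ T → a⁻¹ * v * a ∈ T := by
    intro a u v hu hv hnc ha
    obtain ⟨z, hz, hzu, hzv⟩ := H6.exists_common_involution hu hv hnc
    exact hC a z v hz hv hzv (hC a u z hu hz hzu.symm ha)
  by_contra hns
  obtain ⟨a, ha, _⟩ := H6.exists_conj_sylow_of_commute T hs hs (Commute.refl s)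
  have hta := hM a s t hs ht hns ha
  -- T is not normal
  have hex : ∃ g : G, MulAut.conj g • (T : Subgroup G) ≠ T := by
    by_contra hall
    push Not at hall
    apply hnn
    constructor
    intro n hn g
    have h1 : g * n * g⁻¹ ∈ MulAut.conj g • (T : Subgroup G) := by
      rw [hmem]
      have : g⁻¹ * (g * n * g⁻¹) * g = n := by group
      rw [this]; exact hn
    rw [hall g] at h1; exact h1
  obtain ⟨g, hg⟩ := hex
  have hs' : orderOf ((a * g * a⁻¹) * s * (a * g * a⁻¹)⁻¹) = 2 := by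
    rw [H6.orderOf_conj_eq]; exact hs
  have hs'mem : (a * g)⁻¹ * ((a * g * a⁻¹) * s * (a * g * a⁻¹)⁻¹) * (a * g) ∈ T := by
    have : (a * g)⁻¹ * ((a * g * a⁻¹) * s * (a * g * a⁻¹)⁻¹) * (a * g) = a⁻¹ * s * a := by group
    rw [this]; exact ha
  have hnc' : ¬ IsConj ((a * g * a⁻¹) * s * (a * g * a⁻¹)⁻¹) t := by
    intro hc
    apply hns
    exact (isConj_iff.mpr ⟨a * g * a⁻¹, rfl⟩).trans hc
  have ht2 := hM (a * g) _ t hs' ht hnc' hs'mem
  apply hg
  ext x
  rw [hmem]
  constructor
  · intro hx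
    have h1 := hU (a * g) a t (H6.ne_one_of_orderOf_two ht) ht2 hta (a * x * a⁻¹) (by
      have : (a * g)⁻¹ * (a * x * a⁻¹) * (a * g) = g⁻¹ * x * g := by group
      rw [this]; exact hx)
    have e : a⁻¹ * (a * x * a⁻¹) * a = x := by group
    rwa [e] at h1
  · intro hx
    have h1 := hU a (a * g) t (H6.ne_one_of_orderOf_two ht) hta ht2 (a * x * a⁻¹) (by
      have e : a⁻¹ * (a * x * a⁻¹) * a = x := by group
      rw [e]; exact hx)
    have e : (a * g)⁻¹ * (a * x * a⁻¹) * (a * g) = g⁻¹ * x * g := by group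
    rwa [e] at h1

end Cfsg.Agent.S0231
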