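import Cfsg.Statements.S0236
import Mathlib
import Cfsg.Agent.H6Inv

set_option autoImplicit false
open Cfsg

namespace Cfsg.Agent.S0236

/-- If x is an involution, the number of ordered pairs (u, v) of involutions with uv = x, plus one, equals the number of involutions in the centralizer of x. -/
theorem result {G : Type*} [Group G] [Finite G] (x : G) (hx : orderOf x = 2) : Nat.card {p : G × G // orderOf p.1 = 2 ∧ orderOf p.2 = 2 ∧ p.1 * p.2 = x} + 1 = Nat.card {t : G // orderOf t = 2 ∧ Commute t x} := by
  exact H6.card_invPairs_add_one x hx

end Cfsg.Agent.S0236
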