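import Cfsg.Statements.S0238
import Mathlib
import Cfsg.Agent.H6Inv

set_option autoImplicit false
open Cfsg

namespace Cfsg.Agent.S0238

/-- For every x in a finite group G, the number c of ordered pairs (u, v) of involutions with uv = x is at most |C_G(x)|; c = 0 when x is not conjugate to x⁻¹; and c + 2 ≤ |C_G(x)| when x is an involution. -/
theorem result {G : Type*} [Group G] [Finite G] (x : G) : Nat.card {p : G × G // orderOf p.1 = 2 ∧ orderOf p.2 = 2 ∧ p.1 * p.2 = x} ≤ Nat.card (Subgroup.centralizer ({x} : Set G)) ∧ (¬ IsConj x x⁻¹ → Nat.card {p : G × G // orderOf p.1 = 2 ∧ orderOf p.2 = 2 ∧ p.1 * p.2 = x} = 0) ∧ (orderOf x = 2 → Nat.card {p : G × G // orderOf p.1 = 2 ∧ orderOf p.2 = 2 ∧ p.1 * p.2 = x} + 2 ≤ Nat.card (Subgroup.centralizer ({x} : Set G))) := by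
  exact ⟨H6.card_invPairs_le x, H6.card_invPairs_eq_zero x, H6.card_invPairs_add_two_le x⟩

end Cfsg.Agent.S0238
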