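import Cfsg.Statements.S0239
import Mathlib
import Cfsg.Agent.H6Inv

set_option autoImplicit false
open Cfsg

namespace Cfsg.Agent.S0239

/-- If some nontrivial element x of a finite group G is conjugate to x⁻¹, then |G| is even. -/
theorem result {G : Type*} [Group G] [Finite G] (x : G) (hx : x ≠ 1) (hreal : IsConj x x⁻¹) : Even (Nat.card G) := by
  by_contra hodd
  rw [Nat.not_even_iff_odd] at hodd
  obtain ⟨g, hg⟩ := isConj_iff.mp hreal
  have hgo : Odd (orderOf g) := hodd.of_dvd_nat (orderOf_dvd_natCard g)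
  obtain ⟨k, hk⟩ := hgo
  have hg2 : Commute (g ^ 2) x := H6.sq_commute_of_inverts hg
  have hgg : g = (g ^ 2) ^ (k + 1) := by
    rw [← pow_mul]
    have : 2 * (k + 1) = orderOf g + 1 := by omega
    rw [this, pow_succ, pow_orderOf_eq_one, one_mul]
  have hc : Commute g x := by rw [hgg]; exact hg2.pow_left _
  have hxx : x = x⁻¹ := by
    rw [← hg, hc.eq]; group
  have hx2 : orderOf x = 2 := by
    apply H6.orderOf_two_of_mul_self _ hx
    nth_rewrite 2 [hxx]
    group
  have h2 : 2 ∣ Nat.card G := hx2 ▸ orderOf_dvd_natCard x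
  exact (Nat.not_even_iff_odd.mpr hodd) (even_iff_two_dvd.mpr h2)

end Cfsg.Agent.S0239
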