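import Cfsg.Statements.S0240
import Mathlib
import Cfsg.Agent.H6Inv

set_option autoImplicit false
open Cfsg

namespace Cfsg.Agent.S0240

/-- Let G be a finite group with n involutions and H a subgroup with |H|·(n+1) > |G|. Then some nontrivial h ∈ H is strongly real in G: an involution t of G satisfies t h t⁻¹ = h⁻¹. -/
theorem result {G : Type*} [Group G] [Finite G] (H : Subgroup G) (hH : Nat.card G < Nat.card H * (Nat.card {t : G // orderOf t = 2} + 1)) : ∃ h : G, h ∈ H ∧ h ≠ 1 ∧ ∃ t : G, orderOf t = 2 ∧ t * h * t⁻¹ = h⁻¹ := by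
  classical
  have hcard : Nat.card G = Nat.card (G ⧸ H) * Nat.card H := Subgroup.card_eq_card_quotient_mul_card_subgroup H
  have hHpos : 0 < Nat.card H := Nat.card_pos
  have hlt : Nat.card (G ⧸ H) < Nat.card (Option {t : G // orderOf t = 2}) := by
    have : Nat.card (Option {t : G // orderOf t = 2}) = Nat.card {t : G // orderOf t = 2} + 1 := by
      simp
    rw [this]
    rw [hcard] at hH
    by_contra hcon
    rw [not_lt] at hcon
    have := Nat.mul_le_mul_right (Nat.card H) hcon
    nlinarith
  let f : Option {t : G // orderOf t = 2} → G ⧸ H := fun o =>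
    match o with
    | none => ((1 : G) : G ⧸ H)
    | some t => ((t.1 : G) : G ⧸ H)
  have hninj : ¬ Function.Injective f := fun hinj =>
    absurd (Nat.card_le_card_of_injective f hinj) (not_le.mpr hlt)
  obtain ⟨a, b, hf, hab⟩ := Function.not_injective_iff.mp hninj
  cases a with
  | none =>
    cases b with
    | none => exact absurd rfl hab
    | some t =>
      have h1 : (1 : G)⁻¹ * t.1 ∈ H := QuotientGroup.eq.mp hf
      have htH : t.1 ∈ H := by simpa using h1
      refine ⟨t.1, htH, H6.ne_one_of_orderOf_two t.2, t.1, t.2, ?_⟩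
      rw [H6.inv_of_orderOf_two t.2, mul_assoc, H6.sq_of_orderOf_two t.2, mul_one]
  | some s =>
    cases b with
    | none =>
      have h1 : (s.1)⁻¹ * 1 ∈ H := QuotientGroup.eq.mp hf
      have hsH : s.1 ∈ H := by
        have : (s.1)⁻¹ ∈ H := by simpa using h1
        simpa using H.inv_mem this
      refine ⟨s.1, hsH, H6.ne_one_of_orderOf_two s.2, s.1, s.2, ?_⟩
      rw [H6.inv_of_orderOf_two s.2, mul_assoc, H6.sq_of_orderOf_two s.2, mul_one]
    | some t =>
      have h1 : (s.1)⁻¹ * t.1 ∈ H := QuotientGroup.eq.mp hf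
      have hsi := H6.inv_of_orderOf_two s.2
      have hti := H6.inv_of_orderOf_two t.2
      have hss := H6.sq_of_orderOf_two s.2
      rw [hsi] at h1
      refine ⟨s.1 * t.1, h1, ?_, s.1, s.2, ?_⟩
      · intro h
        apply hab
        have : s.1 = t.1 := by
          have : s.1 = (t.1)⁻¹ := eq_inv_of_mul_eq_one_left h
          rw [this, hti]
        exact congrArg some (Subtype.ext this)
      · rw [mul_inv_rev, hsi, hti]
        calc s.1 * (s.1 * t.1) * s.1 = (s.1 * s.1) * t.1 * s.1 := by group
          _ = t.1 * s.1 := by rw [hss, one_mul]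

end Cfsg.Agent.S0240
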