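import Cfsg.Statements.S0241
import Mathlib
import Cfsg.Agent.H6Inv

set_option autoImplicit false
open Cfsg

namespace Cfsg.Agent.S0241

/-- If x ≠ 1 is conjugate to x⁻¹ in a finite group G and |C_G(x)| is odd, then some involution t satisfies t x t⁻¹ = x⁻¹. -/
theorem result {G : Type*} [Group G] [Finite G] (x : G) (hx : x ≠ 1) (hreal : IsConj x x⁻¹) (hodd : Odd (Nat.card (Subgroup.centralizer ({x} : Set G)))) : ∃ t : G, orderOf t = 2 ∧ t * x * t⁻¹ = x⁻¹ := by
  obtain ⟨g, hg⟩ := isConj_iff.mp hreal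
  have hn : orderOf g ≠ 0 := (orderOf_pos g).ne'
  obtain ⟨a, k, hk, hak⟩ := Nat.exists_eq_two_pow_mul_odd hn
  -- the centralizer has no involution
  have hx2 : x ^ 2 ≠ 1 := by
    intro h
    have hx2 : orderOf x = 2 := H6.orderOf_two_iff.mpr ⟨h, hx⟩
    have hxC : x ∈ Subgroup.centralizer ({x} : Set G) := H6.mem_cent_single.mpr rfl
    have : orderOf (⟨x, hxC⟩ : Subgroup.centralizer ({x} : Set G)) = 2 := by
      rw [← hx2]; exact Subgroup.orderOf_mk x hxC
    have h2 : 2 ∣ Nat.card (Subgroup.centralizer ({x} : Set G)) := this ▸ orderOf_dvd_natCard _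
    exact (Nat.not_even_iff_odd.mpr hodd) (even_iff_two_dvd.mpr h2)
  refine ⟨g ^ k, ?_, H6.odd_pow_inverts hg hk⟩
  have hinv := H6.odd_pow_inverts hg hk
  have ht1 : g ^ k ≠ 1 := by
    intro h
    rw [h] at hinv
    apply hx2
    have : x = x⁻¹ := by simpa using hinv
    rw [pow_two]; nth_rewrite 2 [this]; group
  apply H6.orderOf_two_iff.mpr ⟨?_, ht1⟩
  -- (g^k)^2 lies in the centralizer and is a 2-element, so it is trivial
  have hcomm : Commute ((g ^ k) ^ 2) x := H6.sq_commute_of_inverts hinv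
  have hmem : (g ^ k) ^ 2 ∈ Subgroup.centralizer ({x} : Set G) := H6.mem_cent_single.mpr hcomm.symm.eq
  have hpow : ((g ^ k) ^ 2) ^ (2 ^ a) = 1 := by
    rw [← pow_mul, ← pow_mul]
    have : k * (2 * 2 ^ a) = orderOf g * 2 := by rw [hak]; ring
    rw [this, pow_mul, pow_orderOf_eq_one, one_pow]
  have hd1 : orderOf ((g ^ k) ^ 2) ∣ 2 ^ a := orderOf_dvd_of_pow_eq_one hpow
  have hd2 : orderOf ((g ^ k) ^ 2) ∣ Nat.card (Subgroup.centralizer ({x} : Set G)) := by
    have := orderOf_dvd_natCard (⟨(g ^ k) ^ 2, hmem⟩ : Subgroup.centralizer ({x} : Set G))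
    rwa [Subgroup.orderOf_mk] at this
  have hodd' : Odd (orderOf ((g ^ k) ^ 2)) := hodd.of_dvd_nat hd2
  have h1 : orderOf ((g ^ k) ^ 2) = 1 := by
    have hcop : Nat.Coprime (orderOf ((g ^ k) ^ 2)) (2 ^ a) :=
      Nat.Coprime.pow_right a (Nat.coprime_two_right.mpr hodd')
    exact Nat.Coprime.eq_one_of_dvd hcop hd1
  exact orderOf_eq_one_iff.mp h1

end Cfsg.Agent.S0241
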