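import Cfsg.Statements.S0244
import Mathlib

set_option autoImplicit false
open Cfsg

namespace Cfsg.Agent.S0244

/-- Sp_2 = SL_2: a matrix on Fin 1 ⊕ Fin 1 lies in Mathlib's symplectic group iff its determinant is 1. -/
theorem result {R : Type*} [CommRing R] (A : Matrix (Fin 1 ⊕ Fin 1) (Fin 1 ⊕ Fin 1) R) : A ∈ Matrix.symplecticGroup (Fin 1) R ↔ A.det = 1 := by
  have hdet : A.det = A (Sum.inl 0) (Sum.inl 0) * A (Sum.inr 0) (Sum.inr 0) - A (Sum.inl 0) (Sum.inr 0) * A (Sum.inr 0) (Sum.inl 0) := by
    rw [← Matrix.det_reindex_self finSumFinEquiv A, Matrix.det_fin_two]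
    have e0 : (finSumFinEquiv (m := 1) (n := 1)).symm 0 = Sum.inl 0 := rfl
    have e1 : (finSumFinEquiv (m := 1) (n := 1)).symm 1 = Sum.inr 0 := rfl
    simp [Matrix.reindex_apply, Matrix.submatrix_apply, e0, e1]
  constructor
  · exact SymplecticGroup.det_eq_one
  · intro h
    rw [hdet] at h
    rw [SymplecticGroup.mem_iff]
    ext i j
    rcases i with i | i <;> rcases j with j | j <;>
    · fin_cases i; fin_cases j
      simp [Matrix.mul_apply, Matrix.J, Fintype.sum_sum_type, Matrix.fromBlocks]
      try linear_combination h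
      try linear_combination -h
      try ring

end Cfsg.Agent.S0244
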