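import Cfsg.Statements.S0247
import Cfsg.Agent.H48.SymSp
import Cfsg.Agent.S0245

set_option autoImplicit false
open Cfsg

namespace Cfsg.Agent.S0247

/-- The symplectic group Sp_4(2) is isomorphic to the symmetric group on six letters. -/
theorem result {F : Type*} [Field F] [Fintype F] (hF : Fintype.card F = 2) : Nonempty (Matrix.symplecticGroup (Fin 2) F ≃* Equiv.Perm (Fin 6)) := by
  classical
  obtain ⟨N, hNinj, hNmem⟩ := Cfsg.Agent.H48.exists_perm_hom_symplectic
  let σ : ZMod 2 ≃+* F := ZMod.ringEquivOfPrime F Nat.prime_two hF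
  let μ : Matrix (Fin 2 ⊕ Fin 2) (Fin 2 ⊕ Fin 2) (ZMod 2) →*
      Matrix (Fin 2 ⊕ Fin 2) (Fin 2 ⊕ Fin 2) F :=
    ((σ : ZMod 2 →+* F).mapMatrix).toMonoidHom
  have hμ : ∀ A, μ A = A.map (σ : ZMod 2 →+* F) := fun A => rfl
  have hJ : (Matrix.J (Fin 2) (ZMod 2)).map (σ : ZMod 2 →+* F) = Matrix.J (Fin 2) F := by
    unfold Matrix.J
    rw [Matrix.fromBlocks_map]
    congr 1
    · ext i j
      simp
    · ext i j
      simp only [Matrix.map_apply, Matrix.neg_apply, Matrix.one_apply]
      by_cases h : i = j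
      · rw [if_pos h, if_pos h, map_neg, map_one]
      · rw [if_neg h, if_neg h, neg_zero, map_zero, neg_zero]
    · ext i j
      simp only [Matrix.map_apply, Matrix.one_apply]
      by_cases h : i = j
      · rw [if_pos h, if_pos h, map_one]
      · rw [if_neg h, if_neg h, map_zero]
    · ext i j
      simp
  have hmem : ∀ π, μ (N π) ∈ Matrix.symplecticGroup (Fin 2) F := by
    intro π
    rw [SymplecticGroup.mem_iff, hμ]
    have h1 := (SymplecticGroup.mem_iff).mp (hNmem π)
    have h2 := congrArg (fun A => A.map (σ : ZMod 2 →+* F)) h1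
    simp only [Matrix.map_mul, Matrix.transpose_map, hJ] at h2
    exact h2
  let φ : Equiv.Perm (Fin 6) →* Matrix.symplecticGroup (Fin 2) F :=
    (μ.comp N).codRestrict _ hmem
  have hinj : Function.Injective φ := by
    intro a b hab
    have h1 : μ (N a) = μ (N b) := congrArg Subtype.val hab
    rw [hμ, hμ] at h1
    exact hNinj (Matrix.map_injective σ.injective h1)
  have hc1 : Nat.card (Matrix.symplecticGroup (Fin 2) F) = 720 := by
    rw [Cfsg.Agent.S0245.result hF 2]
    decide
  have hc2 : Nat.card (Equiv.Perm (Fin 6)) = 720 := by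
    rw [Nat.card_eq_fintype_card, Fintype.card_perm, Fintype.card_fin]
    decide
  have hbij : Function.Bijective φ := hinj.bijective_of_nat_card_le (by rw [hc1, hc2])
  exact ⟨(MulEquiv.ofBijective φ hbij).symm⟩

end Cfsg.Agent.S0247
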