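import Cfsg.Statements.S0251
import Mathlib
import Cfsg.Agent.H6.PSL2Alt

set_option autoImplicit false
open Cfsg

namespace Cfsg.Agent.S0251

/-- PSL_2(3) is isomorphic to A_4. -/
theorem result {F : Type*} [Field F] [Fintype F] (hF : Fintype.card F = 3) : Nonempty (Matrix.ProjectiveSpecialLinearGroup (Fin 2) F ≃* alternatingGroup (Fin 4)) := by
  apply H6.psl2_equiv_alternating 4 (by omega)
  have h := Cfsg.Agent.S0243.result hF 2 (le_refl 2)
  simp only [Fin.prod_univ_two] at h
  norm_num at h
  have : Nat.factorial 4 = 24 := by decide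
  omega

end Cfsg.Agent.S0251
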