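import Cfsg.Statements.S0253
import Mathlib
import Cfsg.Agent.S0243
import Cfsg.Agent.S0494

set_option autoImplicit false
open Cfsg

namespace Cfsg.Agent.S0253

/-- PSL_2(5) is isomorphic to A_5. -/
theorem result {F : Type*} [Field F] [Fintype F] (hF : Fintype.card F = 5) : Nonempty (Matrix.ProjectiveSpecialLinearGroup (Fin 2) F ≃* alternatingGroup (Fin 5)) := by
  have hs : IsSimpleGroup (Matrix.ProjectiveSpecialLinearGroup (Fin 2) F) := by
    apply Matrix.ProjectiveSpecialLinearGroup.rank_two_simple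
    rw [Nat.card_eq_fintype_card, hF]
    norm_num
  have h := Cfsg.Agent.S0243.result hF 2 (le_refl 2)
  simp only [Fin.prod_univ_two] at h
  have h60 : Nat.card (Matrix.ProjectiveSpecialLinearGroup (Fin 2) F) = 60 := by
    have h2 : Nat.gcd 2 (5 - 1) * ((5 - 1) * Nat.card (Matrix.ProjectiveSpecialLinearGroup (Fin 2) F)) = 480 := by
      rw [h]; rfl
    have h3 : Nat.gcd 2 (5 - 1) = 2 := by decide
    rw [h3] at h2
    omega
  exact Cfsg.Agent.S0494.result h60

end Cfsg.Agent.S0253
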