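import Mathlib
import Cfsg.Statements.S0259
import Cfsg.Agent.H7.GL2

set_option autoImplicit false
open Cfsg

namespace Cfsg.Agent.S0259

/-- Distinct Sylow p-subgroups of GL_2(q), p the characteristic, intersect trivially. -/
theorem result {F : Type*} [Field F] [Fintype F] (p : ℕ) [Fact p.Prime] [CharP F p] (P Q : Sylow p (Matrix.GeneralLinearGroup (Fin 2) F)) (h : P ≠ Q) : (P : Subgroup (Matrix.GeneralLinearGroup (Fin 2) F)) ⊓ (Q : Subgroup (Matrix.GeneralLinearGroup (Fin 2) F)) = ⊥ := by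
  obtain ⟨g, hg⟩ := H7.gl2_sylow_conj p P
  obtain ⟨k, hk⟩ := H7.gl2_sylow_conj p Q
  rw [eq_bot_iff]
  intro x hx
  rw [Subgroup.mem_bot]
  by_contra hx1
  apply h
  obtain ⟨hxP, hxQ⟩ := Subgroup.mem_inf.mp hx
  have huU : g⁻¹ * x * g ∈ H7.glUnip F := (hg x).1 hxP
  have hu1 : g⁻¹ * x * g ≠ 1 := by
    intro h1
    apply hx1
    have : x = g * (g⁻¹ * x * g) * g⁻¹ := by group
    rw [this, h1]; group
  have hkU : (g⁻¹ * k)⁻¹ * (g⁻¹ * x * g) * (g⁻¹ * k) ∈ H7.glUnip F := by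
    have e : (g⁻¹ * k)⁻¹ * (g⁻¹ * x * g) * (g⁻¹ * k) = k⁻¹ * x * k := by group
    rw [e]
    exact (hk x).1 hxQ
  have hB := H7.gl2_borel_of_conj_mem (g⁻¹ * k) (g⁻¹ * x * g) huU hu1 hkU
  apply Sylow.ext
  ext y
  change y ∈ P ↔ y ∈ Q
  rw [hg y, hk y, ← H7.gl2_conj_mem_iff_of_borel (g⁻¹ * k) (g⁻¹ * y * g) hB]
  have e : (g⁻¹ * k)⁻¹ * (g⁻¹ * y * g) * (g⁻¹ * k) = k⁻¹ * y * k := by group
  rw [e]

end Cfsg.Agent.S0259
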