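import Mathlib
import Cfsg.Statements.S0260
import Cfsg.Agent.H7.SL2

set_option autoImplicit false
open Cfsg

namespace Cfsg.Agent.S0260

/-- Any two distinct Sylow p-subgroups of SL_2(q), p the characteristic, generate SL_2(q). -/
theorem result {F : Type*} [Field F] [Fintype F] (p : ℕ) [Fact p.Prime] [CharP F p] (P Q : Sylow p (Matrix.SpecialLinearGroup (Fin 2) F)) (h : P ≠ Q) : (P : Subgroup (Matrix.SpecialLinearGroup (Fin 2) F)) ⊔ (Q : Subgroup (Matrix.SpecialLinearGroup (Fin 2) F)) = ⊤ := by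
  obtain ⟨g, hg⟩ := H7.sl2_sylow_conj p P
  obtain ⟨k, hk⟩ := H7.sl2_sylow_conj p Q
  -- the element t = g⁻¹ k is not upper triangular
  have ht : (g⁻¹ * k).1 1 0 ≠ 0 := by
    intro hB
    apply h
    apply Sylow.ext
    ext y
    change y ∈ P ↔ y ∈ Q
    rw [hg y, hk y, ← H7.sl2_conj_mem_iff_of_borel (g⁻¹ * k) (g⁻¹ * y * g) hB]
    have e : (g⁻¹ * k)⁻¹ * (g⁻¹ * y * g) * (g⁻¹ * k) = k⁻¹ * y * k := by group
    rw [e]
  -- conjugate the join back by g
  set H : Subgroup (Matrix.SpecialLinearGroup (Fin 2) F) :=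
    ((P : Subgroup (Matrix.SpecialLinearGroup (Fin 2) F)) ⊔
      (Q : Subgroup (Matrix.SpecialLinearGroup (Fin 2) F))).comap (MulAut.conj g).toMonoidHom
    with hH
  have hHtop : H = ⊤ := by
    apply H7.sl2_eq_top_of_unip_of_conj H (g⁻¹ * k) ht
    · intro u hu
      rw [hH, Subgroup.mem_comap]
      apply Subgroup.mem_sup_left
      change g * u * g⁻¹ ∈ P
      rw [hg]
      have e : g⁻¹ * (g * u * g⁻¹) * g = u := by group
      rw [e]; exact hu
    · intro x hx
      rw [hH, Subgroup.mem_comap]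
      apply Subgroup.mem_sup_right
      change g * x * g⁻¹ ∈ Q
      rw [hk]
      have e : k⁻¹ * (g * x * g⁻¹) * k = (g⁻¹ * k)⁻¹ * x * (g⁻¹ * k) := by group
      rw [e]; exact hx
  rw [eq_top_iff]
  intro y _
  have : g⁻¹ * y * g ∈ H := by rw [hHtop]; trivial
  rw [hH, Subgroup.mem_comap] at this
  have e : (MulAut.conj g).toMonoidHom (g⁻¹ * y * g) = y := by
    change g * (g⁻¹ * y * g) * g⁻¹ = y
    group
  rwa [e] at this

end Cfsg.Agent.S0260
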