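import Mathlib
import Cfsg.Statements.S0263
import Cfsg.Agent.H7.Basic

set_option autoImplicit false
open Cfsg

namespace Cfsg.Agent.S0263

/-- A Sylow p-subgroup of GL_n(q), p the characteristic, has order q^(n(n-1)/2). -/
theorem result {F : Type*} [Field F] [Fintype F] {q : ℕ} (hF : Fintype.card F = q) (p : ℕ) [Fact p.Prime] [CharP F p] (n : ℕ) (P : Sylow p (Matrix.GeneralLinearGroup (Fin n) F)) : Nat.card P = q ^ (n * (n - 1) / 2) := by
  have hp : p.Prime := Fact.out
  obtain ⟨k, hk0, hk⟩ := H7.card_field_eq_prime_pow F p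
  rw [Sylow.card_eq_multiplicity, H7.card_GL_factored, ← hF, hk, ← pow_mul]
  have hnd := H7.not_dvd_prod_pow_sub_one (F := F) p n
  rw [hk] at hnd
  have hne : (∏ i : Fin n, ((p ^ k) ^ (n - (i : ℕ)) - 1)) ≠ 0 := by
    intro h
    rw [h] at hnd
    exact hnd (dvd_zero p)
  rw [Nat.factorization_mul (pow_ne_zero _ hp.ne_zero) hne, Nat.Prime.factorization_pow hp]
  simp [Nat.factorization_eq_zero_of_not_dvd hnd]

end Cfsg.Agent.S0263
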