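import Mathlib
import Cfsg.Statements.S0265
import Cfsg.Agent.H7.Basic

set_option autoImplicit false
open Cfsg

namespace Cfsg.Agent.S0265

/-- |PGL_n(q)| = |SL_n(q)|: GL_n modulo its centre (the q-1 non-zero scalars) has the same order as the kernel of det. -/
theorem result {F : Type*} [Field F] [Fintype F] (n : ℕ) : Nat.card (Matrix.ProjGenLinGroup (Fin n) F) = Nat.card (Matrix.SpecialLinearGroup (Fin n) F) := by
  rcases Nat.eq_zero_or_pos n with rfl | hn
  · have h1 : Subsingleton (Matrix.SpecialLinearGroup (Fin 0) F) := by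
      constructor
      intro a b
      ext i j
      exact i.elim0
    have h2 : Subsingleton (Matrix.ProjGenLinGroup (Fin 0) F) := by
      have : Subsingleton (GL (Fin 0) F) := by
        constructor
        intro a b
        ext i j
        exact i.elim0
      exact Matrix.ProjGenLinGroup.mk_surjective.subsingleton
    rw [Nat.card_eq_one_iff_unique.mpr ⟨h1, ⟨1⟩⟩, Nat.card_eq_one_iff_unique.mpr ⟨h2, ⟨1⟩⟩]
  · haveI : Nonempty (Fin n) := ⟨⟨0, hn⟩⟩
    have h1 := H7.card_GL_eq_card_SL_mul (Fin n) F
    have h2 := H7.card_GL_eq_card_PGL_mul (Fin n) F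
    rw [h1] at h2
    have h3 : 0 < Nat.card Fˣ := Nat.card_pos
    exact (Nat.eq_of_mul_eq_mul_right h3 h2).symm

end Cfsg.Agent.S0265
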