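import Cfsg.Statements.S0275
import Cfsg.Agent.H2.OddSL2
import Cfsg.Agent.H59.UniqueOrderP
import Cfsg.Agent.H60.QuatSylow
import Cfsg.Agent.H61.SL2Sylow

set_option autoImplicit false
open Cfsg

namespace Cfsg.Agent.S0275

/-- If p is odd and H is a subgroup of SL_2(q), q a power of p, with more than one Sylow p-subgroup, then the Sylow 2-subgroups of H are generalised quaternion. -/
theorem result {F : Type*} [Field F] [Fintype F] (p : ℕ) [Fact p.Prime] [CharP F p] (hp : p ≠ 2) (H : Subgroup (Matrix.SpecialLinearGroup (Fin 2) F)) (hH : 1 < Nat.card (Sylow p H)) (S : Sylow 2 H) : ∃ k : ℕ, 1 ≤ k ∧ Nonempty ((S : Subgroup H) ≃* QuaternionGroup (2 ^ k)) := by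
  classical
  have h2 : (2 : F) ≠ 0 := Cfsg.Agent.H2.two_ne_zero_of_charP (F := F) (p := p) hp
  have key : ∀ K : Subgroup ↥(S : Subgroup H), Nat.card K = 2 →
      ∀ z : ↥(S : Subgroup H), z ∈ K ↔
        (z = 1 ∨ (((z : H) : Matrix.SpecialLinearGroup (Fin 2) F) :
          Matrix (Fin 2) (Fin 2) F) = -1) := by
    intro K hK
    have hneg : ∀ h ∈ K, h ≠ 1 → (((h : H) : Matrix.SpecialLinearGroup (Fin 2) F) :
        Matrix (Fin 2) (Fin 2) F) = -1 := by
      intro h hh hne
      have hord : orderOf (⟨h, hh⟩ : K) ∣ 2 := by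
        have := orderOf_dvd_natCard (⟨h, hh⟩ : K)
        rwa [hK] at this
      have hsq : (⟨h, hh⟩ : K) ^ 2 = 1 := orderOf_dvd_iff_pow_eq_one.mp hord
      have hsq' : ((h : H) : Matrix.SpecialLinearGroup (Fin 2) F) *
          ((h : H) : Matrix.SpecialLinearGroup (Fin 2) F) = 1 := by
        have h' := congrArg (fun t : K =>
          (((t : ↥(S : Subgroup H)) : H) : Matrix.SpecialLinearGroup (Fin 2) F)) hsq
        simpa [pow_two] using h'
      rcases Cfsg.Agent.H61.sl2_sq_eq_one h2 _ hsq' with h1 | h1
      · exfalso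
        apply hne
        apply Subtype.ext
        apply Subtype.ext
        apply Matrix.SpecialLinearGroup.ext
        intro i j
        rw [h1]; rfl
      · exact h1
    have hne : K ≠ ⊥ := by
      rintro rfl
      rw [Subgroup.card_bot] at hK
      omega
    obtain ⟨⟨h, hh⟩, hh1⟩ := (Subgroup.ne_bot_iff_exists_ne_one).mp hne
    have hh1' : h ≠ 1 := fun hc => hh1 (Subtype.ext hc)
    have hhm := hneg h hh hh1'
    intro z
    constructor
    · intro hz
      by_cases hz1 : z = 1
      · exact Or.inl hz1
      · exact Or.inr (hneg z hz hz1)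
    · rintro (rfl | hz)
      · exact one_mem K
      · have : z = h := by
          apply Subtype.ext
          apply Subtype.ext
          apply Matrix.SpecialLinearGroup.ext
          intro i j
          rw [hz, hhm]
        rw [this]; exact hh
  have huniq : ∀ A B : Subgroup ↥(S : Subgroup H), Nat.card A = 2 → Nat.card B = 2 →
      A = B := by
    intro A B hA hB
    ext z
    rw [key A hA, key B hB]
  -- the Sylow 2-subgroup is not cyclic
  have hnc : ¬ IsCyclic ↥(S : Subgroup H) := by
    intro hc
    obtain ⟨K, hKn, hKc⟩ := Cfsg.Agent.H60.exists_normal_complement_of_cyclic_sylow_two S hc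
    have hidx : K.index = Nat.card (S : Subgroup H) := hKc.symm.index_eq_card
    have hKodd : Odd (Nat.card K) := by
      have h1 : (S : Subgroup H).index = Nat.card K := hKc.index_eq_card
      rw [← h1]
      exact Nat.not_even_iff_odd.mp (fun he => S.not_dvd_index (even_iff_two_dvd.mp he))
    let φ : K →* Matrix (Fin 2) (Fin 2) F :=
      { toFun := fun g => (((g : H) : Matrix.SpecialLinearGroup (Fin 2) F) :
          Matrix (Fin 2) (Fin 2) F)
        map_one' := rfl
        map_mul' := fun a b => rfl }
    have hinj : Function.Injective φ := by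
      intro a b hab
      apply Subtype.ext
      apply Subtype.ext
      apply Subtype.ext
      exact hab
    have hdet : ∀ g, (φ g).det = 1 := fun g => ((g : H) : Matrix.SpecialLinearGroup (Fin 2) F).2
    obtain ⟨P, hPn⟩ := Cfsg.Agent.H2.sl2_odd_sylow_normal (F := F) p hp (Nat.card K) K le_rfl
      hKodd φ hinj hdet
    have hPuniq : ∀ R : Sylow p K, R = P := by
      intro R
      have := Sylow.unique_of_normal P hPn
      exact Subsingleton.elim _ _
    obtain ⟨m, hm⟩ := IsPGroup.iff_card.mp S.isPGroup'
    have hQle : ∀ Q : Sylow p H, (Q : Subgroup H) = (P : Subgroup K).map K.subtype := by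
      intro Q
      have hQK : (Q : Subgroup H) ≤ K := by
        intro x hx
        obtain ⟨j, hj⟩ := (IsPGroup.iff_orderOf.mp Q.isPGroup') ⟨x, hx⟩
        have hox : orderOf x = p ^ j := by
          rw [← hj]
          exact (Subgroup.orderOf_mk x hx).symm
        have hcop : (2 ^ m).Coprime (orderOf x) := by
          rw [hox]
          apply Nat.Coprime.pow
          exact (Nat.coprime_primes Nat.prime_two Fact.out).mpr (Ne.symm hp)
        obtain ⟨k, hk⟩ := exists_pow_eq_self_of_coprime hcop
        have hmem : x ^ 2 ^ m ∈ K := by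
          have := Subgroup.pow_index_mem K x
          rwa [hidx, hm] at this
        rw [← hk]
        exact K.pow_mem hmem k
      have hQp : IsPGroup p ((Q : Subgroup H).subgroupOf K) :=
        Q.isPGroup'.comap_subtype
      obtain ⟨R, hR⟩ := hQp.exists_le_sylow
      rw [hPuniq R] at hR
      have hle : (Q : Subgroup H) ≤ (P : Subgroup K).map K.subtype := by
        intro x hx
        exact ⟨⟨x, hQK hx⟩, hR (Subgroup.mem_subgroupOf.mpr hx), rfl⟩
      have hPp : IsPGroup p ((P : Subgroup K).map K.subtype) := P.isPGroup'.map _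
      exact (Q.is_maximal' hPp hle).symm
    have hss : Subsingleton (Sylow p H) :=
      ⟨fun Q1 Q2 => Sylow.ext (by rw [hQle Q1, hQle Q2])⟩
    have : Nat.card (Sylow p H) ≤ 1 := Finite.card_le_one_iff_subsingleton.mpr hss
    omega
  rcases Cfsg.Agent.H59.cyclic_or_quaternion_of_unique 2 S.isPGroup' huniq with hc | ⟨-, n, ⟨e⟩⟩
  · exact absurd hc hnc
  · rcases Nat.eq_zero_or_pos n with h0 | hpos
    · exfalso
      subst h0
      apply hnc
      have : IsCyclic (QuaternionGroup (2 ^ 0)) := by
        rw [pow_zero]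
        exact QuaternionGroup.quaternionGroup_one_isCyclic
      exact isCyclic_of_surjective e.symm e.symm.surjective
    · exact ⟨n, hpos, ⟨e⟩⟩

end Cfsg.Agent.S0275
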