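import Cfsg.Statements.S0297
import Cfsg.Agent.H49.SimpleForms
import Cfsg.Agent.H49.Disc

set_option autoImplicit false
open Cfsg

namespace Cfsg.Agent.S0297

/-- PΩ^-_{2m}(q) is simple for m at least 4 (the form is quadFormMinus (m-1) with anisotropic binary part). -/
theorem result {F : Type*} [Field F] [Fintype F] (m : ℕ) (hm : 4 ≤ m) (a b : F) (hab : ∀ z₁ z₂ : F, z₁ ^ 2 + a * z₁ * z₂ + b * z₂ ^ 2 = 0 → z₁ = 0 ∧ z₂ = 0) : IsSimpleGroup (Cfsg.POmega F (Cfsg.quadFormMinus (m - 1) F a b)) := by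
  have hd := H49.disc_ne_zero_of_aniso a b hab
  exact H49.pOmega_simple (H49.QMin (m - 1) F a b) (H49.QMin_nondeg (m - 1) a b hd)
    (H49.hasTS3_QMin (m - 1) (by omega) a b)

end Cfsg.Agent.S0297
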