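import Mathlib
import Cfsg.Statements.S0299
import Cfsg.Agent.H7.Omega4

set_option autoImplicit false
open Cfsg

namespace Cfsg.Agent.S0299

open Matrix
open scoped MatrixGroups

/-- PΩ^+_4(q) is isomorphic to PSL_2(q) x PSL_2(q) for q at least 3. -/
theorem result {F : Type*} [Field F] [Fintype F] (hF : 3 ≤ Fintype.card F) : Nonempty (Cfsg.POmega F (Cfsg.quadFormPlus 2 F) ≃* Matrix.ProjectiveSpecialLinearGroup (Fin 2) F × Matrix.ProjectiveSpecialLinearGroup (Fin 2) F) := by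
  classical
  have hF' : ∃ a : F, a ≠ 0 ∧ a ≠ 1 := H7.exists_ne_zero_ne_one hF
  let p : SL(2, F) × SL(2, F) →* Matrix.ProjectiveSpecialLinearGroup (Fin 2) F ×
      Matrix.ProjectiveSpecialLinearGroup (Fin 2) F :=
    (QuotientGroup.mk' (Subgroup.center SL(2, F))).prodMap
      (QuotientGroup.mk' (Subgroup.center SL(2, F)))
  have hp : Function.Surjective p :=
    Function.Surjective.prodMap (QuotientGroup.mk'_surjective _) (QuotientGroup.mk'_surjective _)
  have hpk : ∀ x : SL(2, F) × SL(2, F), x ∈ p.ker ↔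
      x.1 ∈ Subgroup.center SL(2, F) ∧ x.2 ∈ Subgroup.center SL(2, F) := by
    intro x
    rw [MonoidHom.mem_ker]
    show ((QuotientGroup.mk x.1 : Matrix.ProjectiveSpecialLinearGroup (Fin 2) F),
      (QuotientGroup.mk x.2 : Matrix.ProjectiveSpecialLinearGroup (Fin 2) F)) = 1 ↔ _
    rw [Prod.ext_iff]
    show (QuotientGroup.mk x.1 : Matrix.ProjectiveSpecialLinearGroup (Fin 2) F) = 1 ∧
      (QuotientGroup.mk x.2 : Matrix.ProjectiveSpecialLinearGroup (Fin 2) F) = 1 ↔ _
    rw [QuotientGroup.eq_one_iff, QuotientGroup.eq_one_iff]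
  refine H7.quotient_center_equiv (H7.sigma4 hF') (H7.sigma4_surjective hF hF') p hp ?_ ?_
    (H7.center_prod_eq_bot H7.center_PSL2_eq_bot H7.center_PSL2_eq_bot)
  · intro x hx
    rw [H7.sigma4_ker] at hx
    rw [hpk]
    exact ⟨hx.2, hx.1 ▸ hx.2⟩
  · intro x hx
    rw [hpk] at hx
    rw [Subgroup.mem_center_iff]
    intro y
    exact Prod.ext (Subgroup.mem_center_iff.mp hx.1 y.1) (Subgroup.mem_center_iff.mp hx.2 y.2)

end Cfsg.Agent.S0299
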