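import Cfsg.Statements.S0301
import Cfsg.Agent.H17.O5Sp4
import Cfsg.Agent.H6.SpCenter
import Cfsg.Agent.S0245
import Cfsg.Agent.S0269
import Cfsg.Agent.S0270
import Cfsg.Agent.S0286

set_option autoImplicit false
open Cfsg

namespace Cfsg.Agent.S0301

/-- PΩ_5(q) is isomorphic to PSp_4(q) for q odd. -/
theorem result {F : Type*} [Field F] [Fintype F] (hodd : Odd (Fintype.card F)) : Nonempty (Cfsg.POmega F (Cfsg.quadFormOdd 2 F) ≃* Cfsg.PSp 2 F) := by
  classical
  have h2 : (2 : F) ≠ 0 := H17.two_ne_zero_of_odd hodd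
  have hq3 : 3 ≤ Fintype.card F := by
    have := Fintype.one_lt_card (α := F)
    rcases hodd with ⟨k, hk⟩
    omega
  have hperf : commutator (Matrix.symplecticGroup (Fin 2) F) = ⊤ :=
    S0269.result 2 (Or.inr (Or.inl ⟨rfl, hq3⟩))
  have hsimple : IsSimpleGroup (Cfsg.PSp 2 F) := S0270.result 2 le_rfl (fun _ => hq3)
  obtain ⟨φ, hφ⟩ : ∃ φ : Matrix.symplecticGroup (Fin 2) F →*
      ↥(Cfsg.isometryGroup F (Cfsg.quadFormOdd 2 F)), φ = H17.o5hom h2 := ⟨_, rfl⟩
  have hZK : Subgroup.center (Matrix.symplecticGroup (Fin 2) F) ≤ φ.ker := by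
    intro g hg
    have hg' : g ∈ (Subgroup.center (Matrix.symplecticGroup (Fin 2) F) :
        Set (Matrix.symplecticGroup (Fin 2) F)) := hg
    rw [H6.center_symplectic_eq] at hg'
    rcases hg' with rfl | h
    · exact Subgroup.one_mem _
    · rw [Set.mem_singleton_iff] at h
      rw [h, MonoidHom.mem_ker, hφ]
      exact H17.o5hom_neg_one h2
  have hJ : φ (SymplecticGroup.symJ (Fin 2) F) ≠ 1 := by
    rw [hφ]
    exact H17.o5hom_J_ne_one h2
  have hker : φ.ker = Subgroup.center (Matrix.symplecticGroup (Fin 2) F) :=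
    H17.ker_eq_center_of_simple φ hsimple hZK ⟨_, hJ⟩
  have hZne : Subgroup.center (Matrix.symplecticGroup (Fin 2) F) ≠ ⊤ := by
    intro h
    have : SymplecticGroup.symJ (Fin 2) F ∈ φ.ker := by
      rw [hker, h]
      trivial
    exact hJ this
  -- cardinalities
  have hgcd : Nat.gcd 2 (Fintype.card F - 1) = 2 := by
    apply Nat.gcd_eq_left
    obtain ⟨k, hk⟩ := hodd
    rw [hk]
    simp
  have hcardG : Nat.card (Matrix.symplecticGroup (Fin 2) F) = 2 * Nat.card φ.range := by
    have h1 := Subgroup.card_mul_index φ.ker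
    rw [Subgroup.index_ker, hker, H6.card_center_symplectic (q := Fintype.card F) rfl, hgcd] at h1
    exact h1.symm
  have hcardO : Nat.card ↥(Cfsg.isometryGroup F (Cfsg.quadFormOdd 2 F)) = 4 * Nat.card φ.range := by
    have h1 := S0286.result (F := F) (q := Fintype.card F) rfl hodd 2
    have h3 := S0245.result (F := F) (q := Fintype.card F) rfl 2
    rw [hcardG] at h3
    rw [h1]
    linarith
  -- the central element -1 of the isometry group
  have hzmem : (-1 : Matrix.GeneralLinearGroup (H17.I5) F) ∈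
      Cfsg.isometryGroup F (Cfsg.quadFormOdd 2 F) := by
    intro u v
    show Cfsg.quadFormOdd 2 F (Matrix.mulVec (-1 : Matrix H17.I5 H17.I5 F) u) = Cfsg.quadFormOdd 2 F u
    rw [Matrix.neg_mulVec, Matrix.one_mulVec]
    unfold Cfsg.quadFormOdd
    simp
  obtain ⟨z, hzdef⟩ : ∃ z : ↥(Cfsg.isometryGroup F (Cfsg.quadFormOdd 2 F)),
      z = ⟨-1, hzmem⟩ := ⟨_, rfl⟩
  have hz : z ∈ Subgroup.center ↥(Cfsg.isometryGroup F (Cfsg.quadFormOdd 2 F)) := by
    rw [Subgroup.mem_center_iff]
    intro g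
    apply Subtype.ext
    rw [hzdef]
    show (g : Matrix.GeneralLinearGroup (H17.I5) F) * (-1) = (-1) * g
    rw [mul_neg, neg_mul, mul_one, one_mul]
  have hz2 : z * z = 1 := by
    apply Subtype.ext
    rw [hzdef]
    show (-1 : Matrix.GeneralLinearGroup (H17.I5) F) * (-1) = 1
    rw [neg_mul_neg, one_mul]
  have hdz : (Matrix.GeneralLinearGroup.det.comp
      (Subgroup.subtype (Cfsg.isometryGroup F (Cfsg.quadFormOdd 2 F)))) z ≠ 1 := by
    intro h
    have h1 := congrArg Units.val h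
    rw [hzdef] at h1
    simp [Matrix.det_neg] at h1
    apply h2
    linear_combination (-1 : F) * h1
  have hC := H17.commutator_eq_range_of_card φ (Matrix.GeneralLinearGroup.det.comp
      (Subgroup.subtype (Cfsg.isometryGroup F (Cfsg.quadFormOdd 2 F)))) z hz hz2 hdz hperf hcardO
  -- the isomorphisms
  have e1 : Cfsg.PSp 2 F ≃* ↥φ.range :=
    (QuotientGroup.quotientMulEquivOfEq hker.symm).trans (QuotientGroup.quotientKerEquivRange φ)
  have e2 : ↥φ.range ≃* ↥(Cfsg.Omega F (Cfsg.quadFormOdd 2 F)) := MulEquiv.subgroupCongr hC.symm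
  have hcenter : Subgroup.center ↥(Cfsg.Omega F (Cfsg.quadFormOdd 2 F)) = ⊥ :=
    H17.center_eq_bot_of_mulEquiv (e1.trans e2) (H17.center_quot_eq_bot hsimple hperf hZne)
  exact ⟨((QuotientGroup.quotientMulEquivOfEq hcenter).trans QuotientGroup.quotientBot).trans
    (e1.trans e2).symm⟩

end Cfsg.Agent.S0301
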