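import Cfsg.Statements.S0302
import Cfsg.Agent.H17.O6Plus
import Cfsg.Agent.S0242
import Cfsg.Agent.S0248
import Cfsg.Agent.S0249
import Cfsg.Agent.S0287
import Cfsg.Agent.H18.Spin
import Cfsg.Agent.H49.Plus
import Cfsg.Agent.H7.Omega4

set_option autoImplicit false
open Cfsg

namespace Cfsg.Agent.S0302

/-- PΩ^+_6(q) is isomorphic to PSL_4(q). -/
theorem result {F : Type*} [Field F] [Fintype F] : Nonempty (Cfsg.POmega F (Cfsg.quadFormPlus 3 F) ≃* Matrix.ProjectiveSpecialLinearGroup (Fin 4) F) := by
  classical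
  have hperf := S0248.result (F := F) 4 (by norm_num)
  have hsimple : IsSimpleGroup (Matrix.SpecialLinearGroup (Fin 4) F ⧸
      Subgroup.center (Matrix.SpecialLinearGroup (Fin 4) F)) := S0249.result (F := F) 4 (by norm_num)
  obtain ⟨f, hf⟩ : ∃ f : Matrix.SpecialLinearGroup (Fin 4) F →*
      ↥(Cfsg.isometryGroup F (Cfsg.quadFormPlus 3 F)), f = H17.hom6 := ⟨_, rfl⟩
  have hne : ∃ g, f g ≠ 1 := by
    rw [hf]
    exact H17.hom6_ne_one
  have hkerc : f.ker ≤ Subgroup.center (Matrix.SpecialLinearGroup (Fin 4) F) :=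
    H17.ker_le_center_of_simple f hsimple hperf hne
  have hker2 : ∀ g ∈ f.ker, (g : Matrix (Fin 4) (Fin 4) F) = 1 ∨
      (g : Matrix (Fin 4) (Fin 4) F) = -1 := by
    intro g hg
    have hg' : H17.hom6 g = 1 := by
      rw [← hf]
      exact hg
    exact H17.hom6_ker_pm g hg' (hkerc hg)
  have hRC : f.range ≤ commutator ↥(Cfsg.isometryGroup F (Cfsg.quadFormPlus 3 F)) := by
    rw [MonoidHom.range_eq_map, ← hperf, commutator_def, Subgroup.map_commutator, commutator_def]
    exact Subgroup.commutator_mono le_top le_top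
  -- cardinalities
  obtain ⟨q, hq⟩ : ∃ q, q = Fintype.card F := ⟨_, rfl⟩
  have hq2 : 2 ≤ q := by
    rw [hq]
    exact Fintype.one_lt_card
  have hcardO : Nat.card ↥(Cfsg.isometryGroup F (Cfsg.quadFormPlus 3 F)) =
      2 * Nat.card (Matrix.SpecialLinearGroup (Fin 4) F) := by
    have hSL := S0242.result (F := F) hq.symm 4 (by norm_num)
    have hO := S0287.result (F := F) hq.symm 3 (by norm_num)
    rw [Fin.prod_univ_four] at hSL
    simp only [Fin.val_zero, Fin.val_one, Fin.val_two, pow_zero, pow_one] at hSL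
    have h3 : ((3 : Fin 4) : ℕ) = 3 := rfl
    rw [h3] at hSL
    have hO' : Nat.card ↥(Cfsg.isometryGroup F (Cfsg.quadFormPlus 3 F)) =
        2 * q ^ 6 * (q ^ 3 - 1) * ((q ^ 2 - 1) * (q ^ 4 - 1)) := by
      rw [hO]
      simp [Finset.prod_range_succ]
    have e1 : q ^ 4 - q = q * (q ^ 3 - 1) := by
      have : q ^ 4 = q * q ^ 3 := by ring
      rw [this, Nat.mul_sub, mul_one]
    have e2 : q ^ 4 - q ^ 2 = q ^ 2 * (q ^ 2 - 1) := by
      have : q ^ 4 = q ^ 2 * q ^ 2 := by ring
      rw [this, Nat.mul_sub, mul_one]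
    have e3 : q ^ 4 - q ^ 3 = q ^ 3 * (q - 1) := by
      have : q ^ 4 = q ^ 3 * q := by ring
      rw [this, Nat.mul_sub, mul_one]
    rw [e1, e2, e3] at hSL
    have hpos : 0 < q - 1 := by omega
    apply Nat.eq_of_mul_eq_mul_left hpos
    rw [hO']
    calc (q - 1) * (2 * q ^ 6 * (q ^ 3 - 1) * ((q ^ 2 - 1) * (q ^ 4 - 1)))
        = 2 * ((q ^ 4 - 1) * (q * (q ^ 3 - 1)) * (q ^ 2 * (q ^ 2 - 1)) * (q ^ 3 * (q - 1))) := by
          ring
      _ = (q - 1) * (2 * Nat.card (Matrix.SpecialLinearGroup (Fin 4) F)) := by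
          rw [← hSL]
          ring
  have hcardK : Nat.card f.ker * Nat.card f.range =
      Nat.card (Matrix.SpecialLinearGroup (Fin 4) F) := by
    have h1 := Subgroup.card_mul_index f.ker
    rw [Subgroup.index_ker] at h1
    exact h1
  have hposR : 0 < Nat.card f.range := Nat.card_pos
  have hC : commutator ↥(Cfsg.isometryGroup F (Cfsg.quadFormPlus 3 F)) = f.range := by
    by_cases h2 : (2 : F) = 0
    · have hbot : f.ker = ⊥ := by
        rw [eq_bot_iff]
        intro g hg
        rw [Subgroup.mem_bot]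
        apply Subtype.ext
        rcases hker2 g hg with h' | h'
        · exact h'
        · rw [h']
          have : (-1 : F) = 1 := by linear_combination (-1 : F) * h2
          ext i j
          simp [Matrix.neg_apply, Matrix.one_apply]
          split_ifs
          · exact this
          · exact neg_zero
      rw [hbot, Subgroup.card_bot, one_mul] at hcardK
      have hidx : f.range.index = 2 := by
        have h1 := Subgroup.card_mul_index f.range
        rw [hcardO, ← hcardK] at h1
        have h3 : Nat.card f.range * f.range.index = Nat.card f.range * 2 := by linarith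
        exact Nat.eq_of_mul_eq_mul_left hposR h3
      exact le_antisymm (H17.commutator_le_of_index_two _ hidx) hRC
    · have hk2 : Nat.card f.ker ≤ 2 := by
        have hinj : Function.Injective (fun g : f.ker =>
            decide (((g : Matrix.SpecialLinearGroup (Fin 4) F) : Matrix (Fin 4) (Fin 4) F) = 1)) := by
          intro g g' hgg'
          apply Subtype.ext
          apply Subtype.ext
          simp only [decide_eq_decide] at hgg'
          rcases hker2 g g.2 with h' | h'
          · rw [h', hgg'.mp h']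
          · rcases hker2 g' g'.2 with h'' | h''
            · rw [hgg'.mpr h'', h'']
            · rw [h', h'']
        have := Nat.card_le_card_of_injective _ hinj
        simpa using this
      have hidx := H18.index_commutator (H49.QP 3 F) h2 (H49.QP_nondeg 3 F)
        (by simp [Fintype.card_sum])
      rw [H49.QP_coe] at hidx
      have h1 := Subgroup.card_mul_index
        (commutator ↥(Cfsg.isometryGroup F (Cfsg.quadFormPlus 3 F)))
      rw [hidx, hcardO, ← hcardK] at h1
      have hle : Nat.card ↥(commutator ↥(Cfsg.isometryGroup F (Cfsg.quadFormPlus 3 F))) ≤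
          Nat.card f.range := by nlinarith
      exact (Subgroup.eq_of_le_of_card_ge hRC hle).symm
  -- the isomorphism
  have hZne : Subgroup.center (Matrix.SpecialLinearGroup (Fin 4) F) ≠ ⊤ := by
    intro h
    have h1 := (commutator_eq_bot_iff_center_eq_top (G := Matrix.SpecialLinearGroup (Fin 4) F)).mpr h
    rw [hperf] at h1
    obtain ⟨g, hg⟩ := hne
    have : g ∈ (⊥ : Subgroup (Matrix.SpecialLinearGroup (Fin 4) F)) := by
      rw [← h1]
      trivial
    rw [Subgroup.mem_bot] at this
    rw [this, map_one] at hg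
    exact hg rfl
  have hcenterPSL : Subgroup.center (Matrix.SpecialLinearGroup (Fin 4) F ⧸
      Subgroup.center (Matrix.SpecialLinearGroup (Fin 4) F)) = ⊥ :=
    H17.center_quot_eq_bot hsimple hperf hZne
  have key := H7.quotient_center_equiv f.rangeRestrict f.rangeRestrict_surjective
    (QuotientGroup.mk' (Subgroup.center (Matrix.SpecialLinearGroup (Fin 4) F)))
    (QuotientGroup.mk'_surjective _)
    (by rw [MonoidHom.ker_rangeRestrict, QuotientGroup.ker_mk']; exact hkerc)
    (by rw [QuotientGroup.ker_mk']) hcenterPSL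
  show Nonempty (↥(commutator ↥(Cfsg.isometryGroup F (Cfsg.quadFormPlus 3 F))) ⧸
    Subgroup.center ↥(commutator ↥(Cfsg.isometryGroup F (Cfsg.quadFormPlus 3 F))) ≃*
    Matrix.ProjectiveSpecialLinearGroup (Fin 4) F)
  rw [hC]
  exact key

end Cfsg.Agent.S0302
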