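import Cfsg.Statements.S0307
import Cfsg.Agent.H17.GUDet

set_option autoImplicit false
open Cfsg

namespace Cfsg.Agent.S0307

/-- PSL_n(q) is normal in PGL_n(q) with cyclic quotient of order gcd(n, q-1): the image of the natural map PSL_n → PGL_n is the kernel of a surjective homomorphism onto the cyclic group of that order. -/
theorem result {F : Type*} [Field F] [Fintype F] {q : ℕ} (hF : Fintype.card F = q) (n : ℕ) (hn : 1 ≤ n) : ∃ g : Matrix.ProjGenLinGroup (Fin n) F →* Multiplicative (ZMod (Nat.gcd n (q - 1))), Function.Surjective g ∧ g.ker = (Matrix.ProjectiveSpecialLinearGroup.toPGL : Matrix.ProjectiveSpecialLinearGroup (Fin n) F →* Matrix.ProjGenLinGroup (Fin n) F).range := by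
  classical
  have hn' : Nonempty (Fin n) := ⟨⟨0, by omega⟩⟩
  have hcard : Nat.card Fˣ = q - 1 := by
    rw [Nat.card_units, Nat.card_eq_fintype_card, hF]
  obtain ⟨ψ, hψs, hψk⟩ := Cfsg.Agent.H17.cyclic_quot_hom (C := Fˣ) n (q - 1) hcard
  have hf : (ψ.comp (Matrix.GeneralLinearGroup.det :
      Matrix.GeneralLinearGroup (Fin n) F →* Fˣ)).comp (Matrix.GeneralLinearGroup.scalar (Fin n)) = 1 := by
    ext u
    rw [MonoidHom.comp_apply, MonoidHom.comp_apply, Matrix.GeneralLinearGroup.det_scalar,
      MonoidHom.one_apply]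
    exact (hψk _).mpr ⟨u, by rw [Fintype.card_fin]⟩
  refine ⟨Matrix.ProjGenLinGroup.lift _ hf, ?_, ?_⟩
  · intro y
    obtain ⟨x, hx⟩ := hψs y
    obtain ⟨A, hA⟩ := Matrix.GeneralLinearGroup.det_surjective (n := Fin n) x
    refine ⟨Matrix.ProjGenLinGroup.mk A, ?_⟩
    rw [Matrix.ProjGenLinGroup.lift_mk, MonoidHom.comp_apply, hA, hx]
  · ext x
    rw [MonoidHom.mem_ker, MonoidHom.mem_range]
    constructor
    · intro hx
      induction x using Matrix.ProjGenLinGroup.induction_on with | mk A =>
      rw [Matrix.ProjGenLinGroup.lift_mk, MonoidHom.comp_apply, hψk] at hx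
      obtain ⟨c, hc⟩ := hx
      have hdet : Matrix.det ((A * Matrix.GeneralLinearGroup.scalar (Fin n) c⁻¹ :
          Matrix.GeneralLinearGroup (Fin n) F) : Matrix (Fin n) (Fin n) F) = 1 := by
        rw [← Matrix.GeneralLinearGroup.val_det_apply, map_mul,
          Matrix.GeneralLinearGroup.det_scalar, hc, Fintype.card_fin, inv_pow, mul_inv_cancel,
          Units.val_one]
      let S : Matrix.SpecialLinearGroup (Fin n) F := ⟨_, hdet⟩
      have hS : Matrix.SpecialLinearGroup.toGL S =
          A * Matrix.GeneralLinearGroup.scalar (Fin n) c⁻¹ := by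
        apply Units.ext
        rfl
      refine ⟨(QuotientGroup.mk S : Matrix.ProjectiveSpecialLinearGroup (Fin n) F), ?_⟩
      rw [Matrix.ProjectiveSpecialLinearGroup.toPGL_mk, Matrix.ProjGenLinGroup.mk_eq_mk_iff]
      refine ⟨c, ?_⟩
      rw [hS, mul_assoc, ← map_mul, inv_mul_cancel, map_one, mul_one]
    · rintro ⟨y, rfl⟩
      induction y using QuotientGroup.induction_on with | H S =>
      rw [Matrix.ProjectiveSpecialLinearGroup.toPGL_mk, Matrix.ProjGenLinGroup.lift_mk,
        MonoidHom.comp_apply]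
      have : Matrix.GeneralLinearGroup.det (Matrix.SpecialLinearGroup.toGL S) = 1 := by
        apply Units.ext
        rw [Matrix.GeneralLinearGroup.val_det_apply]
        simp
      rw [this, map_one]

end Cfsg.Agent.S0307
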