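import Cfsg.Statements.S0313
import Cfsg.Agent.H8BN2

set_option autoImplicit false
open Cfsg

namespace Cfsg.Agent.S0313

/-- Two standard parabolic subgroups of a group with a (B,N)-pair which are conjugate in `G` coincide. -/
theorem result {G : Type*} [Group G] (P : Cfsg.BNPair G) {J K : Set G}
    (hJ : J ⊆ P.S) (hK : K ⊆ P.S) (g : G)
    (h : (P.parabolic J).map (MulAut.conj g).toMonoidHom = P.parabolic K) :
    P.parabolic J = P.parabolic K := by
  exact Cfsg.H8BN.parabolic_eq_of_conj P g h

end Cfsg.Agent.S0313
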