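import Cfsg.Statements.S0318
import Cfsg.Agent.H8BN2

set_option autoImplicit false
open Cfsg

namespace Cfsg.Agent.S0318

/-- For `n ∈ N`, the subgroup generated by `B` and `n` coincides with the subgroup generated by `B` and the
conjugate `n B n⁻¹`. -/
theorem result {G : Type*} [Group G] (P : Cfsg.BNPair G) {n : G}
    (hn : n ∈ P.N) :
    P.B ⊔ Subgroup.closure {n} = P.B ⊔ P.B.map (MulAut.conj n).toMonoidHom := by
  exact Cfsg.H8BN.sup_closure_eq_sup_conj P hn

end Cfsg.Agent.S0318
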