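import Cfsg.Statements.S0321
import Cfsg.Agent.H8BN3

set_option autoImplicit false
open Cfsg

namespace Cfsg.Agent.S0321

/-- For `n ∈ N` not in `B`, the union `B ∪ B n B` is (the underlying set of) a subgroup exactly when `n` agrees
modulo `B ⊓ N` with one of the distinguished representatives; thus the distinguished involutions are
determined by `B` and `N`. -/
theorem result {G : Type*} [Group G] (P : Cfsg.BNPair G) {n : G}
    (hn : n ∈ P.N) (hnB : n ∉ P.B) :
    (∃ H : Subgroup G, (H : Set G) = (P.B : Set G) ∪ DoubleCoset.doubleCoset n (P.B : Set G) P.B) ↔ ∃ s ∈ P.S, s⁻¹ * n ∈ P.B := by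
  exact Cfsg.H8BN.union_dc_subgroup_iff P hn hnB

end Cfsg.Agent.S0321
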