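import Cfsg.Statements.S0323


set_option autoImplicit false
open scoped Pointwise
open Cfsg

namespace Cfsg.Agent.S0323

/-- A doubly transitive action on a set with at least three points yields a (B,N)-pair of rank one:
`B` is the stabiliser of a point `x`, `N` the setwise stabiliser of a pair `{x, y}`. -/
theorem result {G Ω : Type*} [Group G] [MulAction G Ω]
    (h2 : MulAction.IsMultiplyPretransitive G Ω 2) {x y z : Ω} (hxy : x ≠ y) (hyz : y ≠ z) (hxz : x ≠ z) :
    ∃ P : Cfsg.BNPair G, P.B = MulAction.stabilizer G x ∧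
      P.N = MulAction.stabilizer G ({x, y} : Set Ω) ∧ P.rank = 1 := by
  classical
  rw [MulAction.is_two_pretransitive_iff] at h2
  obtain ⟨s, hsx, hsy⟩ := h2 hxy hxy.symm
  have hBt : ∀ u : Ω, u ≠ x → ∃ b : G, b • x = x ∧ b • y = u := fun u hu => h2 hxy (Ne.symm hu)
  have hNcases : ∀ n : G, n ∈ MulAction.stabilizer G ({x, y} : Set Ω) →
      (n • x = x ∧ n • y = y) ∨ (n • x = y ∧ n • y = x) := by
    intro n hn
    rw [MulAction.mem_stabilizer_iff] at hn
    have h1 : n • x ∈ ({x, y} : Set Ω) := by
      rw [← hn]; exact Set.smul_mem_smul_set (by simp)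
    have h2' : n • y ∈ ({x, y} : Set Ω) := by
      rw [← hn]; exact Set.smul_mem_smul_set (by simp)
    have h3 : n • x ≠ n • y := fun h => hxy (MulAction.injective n h)
    rcases h1 with h1 | h1 <;> rcases h2' with h2' | h2'
    · exact absurd (h1.trans h2'.symm) h3
    · exact Or.inl ⟨h1, h2'⟩
    · exact Or.inr ⟨h1, h2'⟩
    · exact absurd (h1.trans h2'.symm) h3
  have hNmem : ∀ n : G, ((n • x = x ∧ n • y = y) ∨ (n • x = y ∧ n • y = x)) →
      n ∈ MulAction.stabilizer G ({x, y} : Set Ω) := by
    intro n hn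
    rw [MulAction.mem_stabilizer_iff]
    rcases hn with ⟨h1, h2'⟩ | ⟨h1, h2'⟩
    · rw [Set.smul_set_insert, Set.smul_set_singleton, h1, h2']
    · rw [Set.smul_set_insert, Set.smul_set_singleton, h1, h2', Set.pair_comm]
  have hsN : s ∈ MulAction.stabilizer G ({x, y} : Set Ω) := hNmem s (Or.inr ⟨hsx, hsy⟩)
  have hG : ∀ g : G, g • x ≠ x →
      g ∈ DoubleCoset.doubleCoset s (MulAction.stabilizer G x : Set G) (MulAction.stabilizer G x) := by
    intro g hg
    obtain ⟨b, hb1, hb2⟩ := hBt (g • x) hg
    rw [DoubleCoset.mem_doubleCoset]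
    refine ⟨b, hb1, s⁻¹ * b⁻¹ * g, ?_, by group⟩
    rw [SetLike.mem_coe, MulAction.mem_stabilizer_iff, mul_smul, mul_smul, ← hb2, inv_smul_smul,
      ← hsx, inv_smul_smul]
  refine ⟨{ B := MulAction.stabilizer G x
            N := MulAction.stabilizer G ({x, y} : Set Ω)
            S := {s}
            sup_eq_top := ?_
            conj_mem := ?_
            subset := ?_
            sq_mem := ?_
            inj := ?_
            closure_sup := ?_
            mul_mem_union := ?_
            conj_ne := ?_ }, rfl, rfl, ?_⟩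
  · rw [eq_top_iff]
    intro g _
    by_cases hg : g • x = x
    · exact (le_sup_left : MulAction.stabilizer G x ≤ _) hg
    · obtain ⟨b, hb, b', hb', rfl⟩ := DoubleCoset.mem_doubleCoset.1 (hG g hg)
      exact Subgroup.mul_mem _ (Subgroup.mul_mem _ ((le_sup_left : MulAction.stabilizer G x ≤ _) hb)
        ((le_sup_right : MulAction.stabilizer G ({x, y} : Set Ω) ≤ _) hsN))
        ((le_sup_left : MulAction.stabilizer G x ≤ _) hb')
  · rintro n hn t ⟨ht1, ht2⟩
    have ht1' : t • x = x := ht1
    have hty : t • y = y := by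
      rcases hNcases t ht2 with ⟨_, h⟩ | ⟨h, _⟩
      · exact h
      · exact absurd (ht1'.symm.trans h) hxy
    have hn' := hNcases n⁻¹ (Subgroup.inv_mem _ hn)
    show (n * t * n⁻¹) • x = x
    rw [mul_smul, mul_smul]
    rcases hn' with ⟨h, _⟩ | ⟨h, _⟩
    · rw [h, ht1']
      exact eq_inv_smul_iff.1 h.symm
    · rw [h, hty]
      exact eq_inv_smul_iff.1 h.symm
  · intro a ha
    rw [Set.mem_singleton_iff] at ha
    rw [ha]; exact hsN
  · intro a ha
    rw [Set.mem_singleton_iff] at ha
    rw [ha]
    show (s * s) • x = x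
    rw [mul_smul, hsx, hsy]
  · intro a ha a' ha' _
    rw [Set.mem_singleton_iff] at ha ha'
    rw [ha, ha']
  · apply le_antisymm
    · apply sup_le
      · rw [Subgroup.closure_le, Set.singleton_subset_iff]; exact hsN
      · exact inf_le_right
    · intro n hn
      rcases hNcases n hn with ⟨h1, h2'⟩ | ⟨h1, h2'⟩
      · exact (le_sup_right : MulAction.stabilizer G x ⊓ MulAction.stabilizer G ({x, y} : Set Ω) ≤ _)
          ⟨h1, hn⟩
      · have e : n = s * (s⁻¹ * n) := by group
        rw [e]
        refine Subgroup.mul_mem_sup (Subgroup.subset_closure rfl) ⟨?_, ?_⟩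
        · show (s⁻¹ * n) • x = x
          rw [mul_smul, h1, ← hsx, inv_smul_smul]
        · exact Subgroup.mul_mem _ (Subgroup.inv_mem _ hsN) hn
  · intro a ha n hn b hb
    rw [Set.mem_singleton_iff] at ha
    subst ha
    have hb' : b • x = x := hb
    by_cases hnx : n • x = x
    · left
      rw [DoubleCoset.mem_doubleCoset]
      refine ⟨1, Subgroup.one_mem _, n⁻¹ * b * n, ?_, by group⟩
      show (n⁻¹ * b * n) • x = x
      rw [mul_smul, mul_smul, hnx, hb', inv_smul_eq_iff]
      exact hnx.symm
    · have hn' : n • x = y ∧ n • y = x := by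
        rcases hNcases n hn with ⟨h, _⟩ | h
        · exact absurd h hnx
        · exact h
      by_cases hg : (a * b * n) • x = x
      · left
        rw [DoubleCoset.mem_doubleCoset]
        refine ⟨a * b * n * (a * n)⁻¹, ?_, 1, Subgroup.one_mem _, by group⟩
        have h1 : (a * n) • x = x := by rw [mul_smul, hn'.1, hsy]
        show (a * b * n * (a * n)⁻¹) • x = x
        rw [mul_smul, ← h1, inv_smul_smul, h1, hg]
      · right
        obtain ⟨c, hc, c', hc', e1⟩ := DoubleCoset.mem_doubleCoset.1 (hG n hnx)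
        obtain ⟨d, hd, d', hd', e2⟩ := DoubleCoset.mem_doubleCoset.1 (hG _ hg)
        rw [DoubleCoset.mem_doubleCoset]
        refine ⟨d * c⁻¹, Subgroup.mul_mem _ hd (Subgroup.inv_mem _ hc), c'⁻¹ * d',
          Subgroup.mul_mem _ (Subgroup.inv_mem _ hc') hd', ?_⟩
        rw [e2]
        have : a = c⁻¹ * n * c'⁻¹ := by rw [e1]; group
        conv_lhs => rw [this]
        group
  · intro a ha
    rw [Set.mem_singleton_iff] at ha
    subst ha
    intro heq
    obtain ⟨b, hb1, hb2⟩ := hBt z (Ne.symm hxz)
    have h1 : a * b * a ∈ (MulAction.stabilizer G x : Set G) := by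
      rw [← heq]; exact ⟨b, hb1, rfl⟩
    have h2' : (a * b * a) • x = x := h1
    rw [mul_smul, mul_smul, hsx, hb2] at h2'
    have h3 : z = y := by
      rw [← hsy] at h2'
      exact MulAction.injective a h2'
    exact hyz h3.symm
  · show Nat.card ({s} : Set G) = 1
    simp

end Cfsg.Agent.S0323
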