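import Mathlib
import Cfsg.Statements.S0341
import Cfsg.Agent.H19.RegN3

set_option autoImplicit false
open Cfsg

namespace Cfsg.Agent.S0341

/-- If a finite group acts faithfully and doubly transitively, no non-identity element fixes three points, some
non-identity element fixes two points, and some normal subgroup acts regularly, then the number of points
is `2^p` with `p` prime. -/
theorem result {G Ω : Type*} [Group G]
    [MulAction G Ω] [Fintype Ω] [FaithfulSMul G Ω] (h2 : MulAction.IsMultiplyPretransitive G Ω 2)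
    (h3 : ∀ g : G, ∀ a b c : Ω, a ≠ b → b ≠ c → a ≠ c → g • a = a → g • b = b → g • c = c → g = 1)
    (hfix : ∃ g : G, g ≠ 1 ∧ ∃ a b : Ω, a ≠ b ∧ g • a = a ∧ g • b = b)
    (N : Subgroup G) [N.Normal] (hNt : MulAction.IsPretransitive N Ω)
    (hNr : ∀ a : Ω, MulAction.stabilizer N a = ⊥) :
    ∃ p : ℕ, p.Prime ∧ Fintype.card Ω = 2 ^ p := by
  classical
  haveI : Finite G := Finite.of_injective (MulAction.toPermHom G Ω) MulAction.toPerm_injective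
  have hZ : Cfsg.Agent.H19.PreZass G Ω := ⟨inferInstance, h2, h3, hfix, trivial⟩
  have hn3 := Cfsg.Agent.H19.pz_three_le_card hZ
  obtain ⟨g₀, hg₀1, a₀, b₀, hab₀, hg₀a, hg₀b⟩ := hfix
  have hNt' : ∀ x y : Ω, ∃ n ∈ N, n • x = y := by
    intro x y
    obtain ⟨n, hn⟩ := hNt.exists_smul_eq x y
    exact ⟨n, n.2, hn⟩
  have hNr' : ∀ n ∈ N, ∀ x : Ω, n • x = x → n = 1 := by
    intro n hn x hx
    have h1 : (⟨n, hn⟩ : N) ∈ MulAction.stabilizer N x := hx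
    rw [hNr x, Subgroup.mem_bot] at h1
    exact congrArg Subtype.val h1
  have hord1 : orderOf g₀ ≠ 1 := fun h => hg₀1 (orderOf_eq_one_iff.mp h)
  obtain ⟨s, hs, hsdvd⟩ := Nat.exists_prime_and_dvd hord1
  have hord0 : orderOf g₀ ≠ 0 := (orderOf_pos g₀).ne'
  obtain ⟨h₀, hh₀⟩ : ∃ h₀ : G, h₀ = g₀ ^ (orderOf g₀ / s) := ⟨_, rfl⟩
  have hh₀ord : orderOf h₀ = s := by
    rw [hh₀]
    exact orderOf_pow_orderOf_div hord0 hsdvd
  have hh₀1 : h₀ ≠ 1 := by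
    intro h
    rw [h, orderOf_one] at hh₀ord
    exact hs.one_lt.ne hh₀ord
  have hpowfix : ∀ (c : Ω), g₀ • c = c → ∀ n : ℕ, g₀ ^ n • c = c := by
    intro c hc n
    induction n with
    | zero => rw [pow_zero, one_smul]
    | succ n ih => rw [pow_succ, mul_smul, hc, ih]
  have hh₀a : h₀ • a₀ = a₀ := by
    rw [hh₀]
    exact hpowfix a₀ hg₀a _
  have hh₀b : h₀ • b₀ = b₀ := by
    rw [hh₀]
    exact hpowfix b₀ hg₀b _
  have hh₀s : h₀ ^ s = 1 := by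
    rw [← hh₀ord]
    exact pow_orderOf_eq_one h₀
  obtain ⟨K₀, hKa, hKcard, hKfix⟩ := Cfsg.Agent.H19.pz_exists_kernel hZ hab₀
  have hKnil := Cfsg.Agent.H19.pz_kernel_nilpotent hZ hab₀ K₀ hKa hKcard hKfix
  have hKconj : ∀ k ∈ K₀, h₀ * k * h₀⁻¹ ∈ K₀ := fun k hk =>
    Cfsg.Agent.H19.pz_conj_mem_kernel hZ a₀ K₀ hKa hKcard hKfix h₀ hh₀a k hk
  obtain ⟨K, iF, iFt, τ, hKΩ, h2K, hτadd, hτmul, hτone, hτinj, hτfix, hτs⟩ :=
    Cfsg.Agent.H19.regn_tau hn3 N inferInstance hNt' hNr' h3 hab₀ h₀ hh₀1 hh₀a hh₀b K₀ hKa hKcard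
      hKfix hKconj hKnil s hh₀s
  refine ⟨s, hs, ?_⟩
  rw [← hKΩ]
  exact Cfsg.Agent.H19.card_eq_two_pow_of_aut h2K τ s hs hτadd hτmul hτone hτinj hτfix hτs
    (by rw [hKΩ]; omega)

end Cfsg.Agent.S0341
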