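import Mathlib
import Cfsg.Statements.S0344
import Cfsg.Agent.H19.K3H
import Cfsg.Agent.H19.ZId6
import Cfsg.Agent.S0741

set_option autoImplicit false
open Cfsg

namespace Cfsg.Agent.S0344

/-- A finite simple Zassenhaus group with a two-point stabiliser of even order is isomorphic to `PSL₂(F)` for a finite
field `F` with more than three elements. -/
theorem result {G Ω : Type*} [Group G] [Finite G] [MulAction G Ω] [Finite Ω]
    (hZ : Cfsg.IsZassenhausGroup G Ω) [IsSimpleGroup G]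
    {a b : Ω} (hab : a ≠ b) (heven : Even (Nat.card ↥(MulAction.stabilizer G a ⊓ MulAction.stabilizer G b))) :
    ∃ (F : Type) (_ : Field F) (_ : Fintype F), 3 < Fintype.card F ∧ Nonempty (G ≃* Matrix.ProjectiveSpecialLinearGroup (Fin 2) F) := by
  classical
  haveI := Fintype.ofFinite Ω
  have hle := Cfsg.Agent.S0741.result hZ hab heven
  have hn3 := Cfsg.Agent.H19.zass_three_le_card hZ
  have hpos : 0 < Nat.card ↥(MulAction.stabilizer G a ⊓ MulAction.stabilizer G b) := Nat.card_pos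
  obtain ⟨m, hm⟩ := heven
  obtain ⟨F, hFle, hFcard, hFfix⟩ := Cfsg.Agent.H19.zass_exists_kernel hZ hab
  rcases Cfsg.Agent.H19.zass_half_or_full hZ hab hle with hfull | hhalf
  · exfalso
    obtain ⟨h3, hsharp⟩ := Cfsg.Agent.H19.zass_sharp3 hZ hab hfull
    haveI := hZ.1
    exact Cfsg.Agent.H19.sharp3_not_simple (G := G) (Ω := Ω) ⟨m + 1, by omega⟩ (by omega) h3 hsharp
  · obtain ⟨p, f, K, iK, iKt, hp, hp2, hKc, hΩ, hchar, hiso⟩ :=
      Cfsg.Agent.H19.zass_psl_even hZ hab ⟨m, hm⟩ hhalf F hFle hFcard hFfix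
    refine ⟨K, iK, iKt, ?_, hiso⟩
    omega

end Cfsg.Agent.S0344
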