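import Mathlib
import Cfsg.Statements.S0345
import Cfsg.Agent.H19.K3I
import Cfsg.Agent.S0740

set_option autoImplicit false
open Cfsg

namespace Cfsg.Agent.S0345

/-- In a finite simple Zassenhaus group the stabiliser `H` of two points `a ≠ b` is cyclic, and some involution
interchanging `a` and `b` inverts every element of `H`. -/
theorem result {G Ω : Type*} [Group G] [Finite G] [MulAction G Ω] [Finite Ω]
    (hZ : Cfsg.IsZassenhausGroup G Ω) [IsSimpleGroup G]
    {a b : Ω} (hab : a ≠ b) :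
    IsCyclic ↥(MulAction.stabilizer G a ⊓ MulAction.stabilizer G b) ∧
      ∃ v : G, orderOf v = 2 ∧ v • a = b ∧ v • b = a ∧ ∀ h ∈ MulAction.stabilizer G a ⊓ MulAction.stabilizer G b, v * h * v⁻¹ = h⁻¹ := by
  classical
  haveI := Fintype.ofFinite Ω
  obtain ⟨hcyc, hinv⟩ := Cfsg.Agent.H19.zass_simple_two_stab hZ hab
  obtain ⟨⟨t, ht2, hta, htb⟩, -, -⟩ := Cfsg.Agent.S0740.result hZ hab
  exact ⟨hcyc, t, ht2, hta, htb, hinv t hta htb⟩

end Cfsg.Agent.S0345
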