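import Cfsg.Statements.S0352
import Cfsg.Agent.H8.Steiner

set_option autoImplicit false
open Cfsg

namespace Cfsg.Agent.S0352

/-- In a Steiner system S(5, 8, 24), two distinct blocks intersect in 0, 2 or 4 points. -/
theorem result {α : Type*} [Fintype α] [DecidableEq α] (hα : Fintype.card α = 24) {B : Set (Finset α)} (hB : Cfsg.IsSteinerSystem 5 8 B) {b c : Finset α} (hb : b ∈ B) (hc : c ∈ B) (hbc : b ≠ c) : (b ∩ c).card = 0 ∨ (b ∩ c).card = 2 ∨ (b ∩ c).card = 4 := by
  exact Cfsg.Agent.H8.steiner_5_8_24_inter hα hB hb hc hbc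

end Cfsg.Agent.S0352
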