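import Cfsg.Statements.S0353
import Cfsg.Agent.H8.Steiner

set_option autoImplicit false
open Cfsg

namespace Cfsg.Agent.S0353

theorem inter_cases {α : Type*} [Fintype α] [DecidableEq α] (hα : Fintype.card α = 24)
    {B : Set (Finset α)} (hB : Cfsg.IsSteinerSystem 5 8 B) {x y : Finset α} (hx : x ∈ B)
    (hy : y ∈ B) (hxy : x ≠ y) :
    (x ∩ y).card = 0 ∨ (x ∩ y).card = 2 ∨ (x ∩ y).card = 4 :=
  Cfsg.Agent.H8.steiner_5_8_24_inter hα hB hx hy hxy

theorem eq_of_four_subset {α : Type*} [DecidableEq α] {B : Set (Finset α)}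
    (hB : Cfsg.IsSteinerSystem 5 8 B) {x y s : Finset α} (hx : x ∈ B) (hy : y ∈ B) (hxy : x ≠ y)
    (hs : s.card = 4) (hsx : s ⊆ x) (hsy : s ⊆ y) : x ∩ y = s := by
  have hlt := Cfsg.Agent.H8.inter_card_le_of_ne hB hx hy hxy
  symm
  apply Finset.eq_of_subset_of_card_le (Finset.subset_inter hsx hsy)
  rw [hs]; omega

theorem lemA {α : Type*} [Fintype α] [DecidableEq α] (hα : Fintype.card α = 24)
    {B : Set (Finset α)} (hB : Cfsg.IsSteinerSystem 5 8 B) {b c : Finset α} (hb : b ∈ B)
    (hc : c ∈ B) (h4 : (b ∩ c).card = 4) (hnot : symmDiff b c ∉ B) {r : α} (hr : r ∈ c \ b) :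
    ∃ C ∈ B, b \ c ⊆ C ∧ r ∈ C ∧ C ∩ b = b \ c ∧ (C ∩ (c \ b)).card = 2 := by
  have hQ : (b \ c).card = 4 := by
    have := Finset.card_sdiff_add_card_inter b c
    rw [hB.1 b hb, h4] at this; omega
  have hR : (c \ b).card = 4 := by
    have := Finset.card_sdiff_add_card_inter c b
    rw [hB.1 c hc, Finset.inter_comm, h4] at this; omega
  have hrb : r ∉ b := (Finset.mem_sdiff.1 hr).2
  have hrQ : r ∉ b \ c := fun h => hrb (Finset.mem_sdiff.1 h).1
  obtain ⟨C, ⟨hCB, hsC⟩, -⟩ := hB.2 (insert r (b \ c))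
    (by rw [Finset.card_insert_of_notMem hrQ, hQ])
  have hrC : r ∈ C := hsC (Finset.mem_insert_self _ _)
  have hQC : b \ c ⊆ C := fun x hx => hsC (Finset.mem_insert_of_mem hx)
  have hCb : C ≠ b := by rintro rfl; exact hrb hrC
  have hCbQ : C ∩ b = b \ c := eq_of_four_subset hB hCB hb hCb hQ hQC Finset.sdiff_subset
  obtain ⟨q, hq⟩ : (b \ c).Nonempty := Finset.card_pos.1 (by rw [hQ]; norm_num)
  have hCc : C ≠ c := by
    rintro rfl
    exact (Finset.mem_sdiff.1 hq).2 (hQC hq)
  have hCcR : C ∩ c = C ∩ (c \ b) := by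
    ext x
    simp only [Finset.mem_inter, Finset.mem_sdiff]
    constructor
    · rintro ⟨h1, h2⟩
      refine ⟨h1, h2, fun h3 => ?_⟩
      have : x ∈ C ∩ b := Finset.mem_inter.2 ⟨h1, h3⟩
      rw [hCbQ] at this
      exact (Finset.mem_sdiff.1 this).2 h2
    · rintro ⟨h1, h2, -⟩
      exact ⟨h1, h2⟩
  have hpos : 0 < (C ∩ (c \ b)).card := Finset.card_pos.2 ⟨r, Finset.mem_inter.2 ⟨hrC, hr⟩⟩
  refine ⟨C, hCB, hQC, hrC, hCbQ, ?_⟩
  rcases inter_cases hα hB hCB hc hCc with h | h | h
  · rw [hCcR] at h; omega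
  · rw [hCcR] at h; exact h
  · exfalso
    rw [hCcR] at h
    have hRC : c \ b ⊆ C := by
      have : C ∩ (c \ b) = c \ b :=
        Finset.eq_of_subset_of_card_le Finset.inter_subset_right (by rw [h, hR])
      rw [← this]; exact Finset.inter_subset_left
    apply hnot
    have hdisj : Disjoint (b \ c) (c \ b) := by
      rw [Finset.disjoint_left]
      intro x hx hx'
      exact (Finset.mem_sdiff.1 hx').2 (Finset.mem_sdiff.1 hx).1
    have : symmDiff b c = C := by
      rw [symmDiff_def, Finset.sup_eq_union]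
      apply Finset.eq_of_subset_of_card_le (Finset.union_subset hQC hRC)
      rw [hB.1 C hCB, Finset.card_union_of_disjoint hdisj, hQ, hR]
    rw [this]; exact hCB


/-- In an S(5, 8, 24), the symmetric difference of two blocks meeting in four points is a block. -/
theorem result {α : Type*} [Fintype α] [DecidableEq α] (hα : Fintype.card α = 24) {B : Set (Finset α)} (hB : Cfsg.IsSteinerSystem 5 8 B) {b c : Finset α} (hb : b ∈ B) (hc : c ∈ B) (h4 : (b ∩ c).card = 4) : symmDiff b c ∈ B := by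
  classical
  by_contra hnot
  have hQ : (b \ c).card = 4 := by
    have := Finset.card_sdiff_add_card_inter b c
    rw [hB.1 b hb, h4] at this; omega
  have hR : (c \ b).card = 4 := by
    have := Finset.card_sdiff_add_card_inter c b
    rw [hB.1 c hc, Finset.inter_comm, h4] at this; omega
  obtain ⟨r1, hr1⟩ : (c \ b).Nonempty := Finset.card_pos.1 (by rw [hR]; norm_num)
  obtain ⟨q4, hq4⟩ : (b \ c).Nonempty := Finset.card_pos.1 (by rw [hQ]; norm_num)
  have hr1b : r1 ∉ b := (Finset.mem_sdiff.1 hr1).2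
  obtain ⟨C, hCB, hQC, hr1C, hCb, hCR⟩ := lemA hα hB hb hc h4 hnot hr1
  -- a point of `R` outside `C`
  obtain ⟨r3, hr3, hr3C⟩ : ∃ r3 ∈ c \ b, r3 ∉ C := by
    by_contra hcon
    push Not at hcon
    have : C ∩ (c \ b) = c \ b := by
      apply Finset.Subset.antisymm Finset.inter_subset_right
      intro x hx
      exact Finset.mem_inter.2 ⟨hcon x hx, hx⟩
    rw [this, hR] at hCR
    omega
  have hr3b : r3 ∉ b := (Finset.mem_sdiff.1 hr3).2
  obtain ⟨D, hDB, hQD, hr3D, hDb, hDR⟩ := lemA hα hB hb hc h4 hnot hr3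
  have hDC : D ≠ C := by rintro rfl; exact hr3C hr3D
  have hDCQ : D ∩ C = b \ c := eq_of_four_subset hB hDB hCB hDC hQ hQD hQC
  have hr1D : r1 ∉ D := by
    intro h
    have : r1 ∈ D ∩ C := Finset.mem_inter.2 ⟨h, hr1C⟩
    rw [hDCQ] at this
    exact hr1b (Finset.mem_sdiff.1 this).1
  -- `R ⊆ C ∪ D`
  have hRCD : ∀ x ∈ c \ b, x ∈ C ∨ x ∈ D := by
    have hdisj : Disjoint (C ∩ (c \ b)) (D ∩ (c \ b)) := by
      rw [Finset.disjoint_left]
      intro x hx hx'
      have : x ∈ D ∩ C :=
        Finset.mem_inter.2 ⟨(Finset.mem_inter.1 hx').1, (Finset.mem_inter.1 hx).1⟩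
      rw [hDCQ] at this
      exact (Finset.mem_sdiff.1 (Finset.mem_inter.1 hx).2).2 (Finset.mem_sdiff.1 this).1
    have hun : (C ∩ (c \ b)) ∪ (D ∩ (c \ b)) = c \ b := by
      apply Finset.eq_of_subset_of_card_le
        (Finset.union_subset Finset.inter_subset_right Finset.inter_subset_right)
      rw [Finset.card_union_of_disjoint hdisj, hCR, hDR, hR]
    intro x hx
    rw [← hun, Finset.mem_union] at hx
    rcases hx with hx | hx
    · exact Or.inl (Finset.mem_inter.1 hx).1
    · exact Or.inr (Finset.mem_inter.1 hx).1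
  -- the third block
  have hq4b : q4 ∈ b := (Finset.mem_sdiff.1 hq4).1
  have hQ' : ((b \ c).erase q4).card = 3 := by
    rw [Finset.card_erase_of_mem hq4, hQ]
  have hQ'b : ∀ x ∈ (b \ c).erase q4, x ∈ b := fun x hx =>
    (Finset.mem_sdiff.1 (Finset.mem_of_mem_erase hx)).1
  have hr3Q' : r3 ∉ (b \ c).erase q4 := fun h => hr3b (hQ'b _ h)
  have hr1Q' : r1 ∉ (b \ c).erase q4 := fun h => hr1b (hQ'b _ h)
  have hr13 : r1 ≠ r3 := by rintro rfl; exact hr3C hr1C
  have hr1s : r1 ∉ insert r3 ((b \ c).erase q4) := by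
    rw [Finset.mem_insert]
    rintro (h | h)
    · exact hr13 h
    · exact hr1Q' h
  obtain ⟨E, ⟨hEB, hsE⟩, -⟩ := hB.2 (insert r1 (insert r3 ((b \ c).erase q4)))
    (by rw [Finset.card_insert_of_notMem hr1s, Finset.card_insert_of_notMem hr3Q', hQ'])
  have hr1E : r1 ∈ E := hsE (Finset.mem_insert_self _ _)
  have hr3E : r3 ∈ E := hsE (Finset.mem_insert_of_mem (Finset.mem_insert_self _ _))
  have hQ'E : ∀ x ∈ (b \ c).erase q4, x ∈ E := fun x hx =>
    hsE (Finset.mem_insert_of_mem (Finset.mem_insert_of_mem hx))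
  have hEC : E ≠ C := by rintro rfl; exact hr3C hr3E
  have hED : E ≠ D := by rintro rfl; exact hr1D hr1E
  have hEb : E ≠ b := by rintro rfl; exact hr1b hr1E
  have hECs : E ∩ C = insert r1 ((b \ c).erase q4) := by
    apply eq_of_four_subset hB hEB hCB hEC
    · rw [Finset.card_insert_of_notMem hr1Q', hQ']
    · intro x hx
      rw [Finset.mem_insert] at hx
      rcases hx with rfl | hx
      · exact hr1E
      · exact hQ'E x hx
    · intro x hx
      rw [Finset.mem_insert] at hx
      rcases hx with rfl | hx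
      · exact hr1C
      · exact hQC (Finset.mem_of_mem_erase hx)
  have hEDs : E ∩ D = insert r3 ((b \ c).erase q4) := by
    apply eq_of_four_subset hB hEB hDB hED
    · rw [Finset.card_insert_of_notMem hr3Q', hQ']
    · intro x hx
      rw [Finset.mem_insert] at hx
      rcases hx with rfl | hx
      · exact hr3E
      · exact hQ'E x hx
    · intro x hx
      rw [Finset.mem_insert] at hx
      rcases hx with rfl | hx
      · exact hr3D
      · exact hQD (Finset.mem_of_mem_erase hx)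
  have hq4E : q4 ∉ E := by
    intro h
    have : q4 ∈ E ∩ C := Finset.mem_inter.2 ⟨h, hQC hq4⟩
    rw [hECs, Finset.mem_insert] at this
    rcases this with rfl | h'
    · exact hr1b hq4b
    · exact Finset.notMem_erase _ _ h'
  -- `E ∩ R = {r1, r3}`
  have hER : E ∩ (c \ b) = {r1, r3} := by
    ext x
    rw [Finset.mem_inter, Finset.mem_insert, Finset.mem_singleton]
    constructor
    · rintro ⟨hxE, hxR⟩
      have hxb : x ∉ b := (Finset.mem_sdiff.1 hxR).2
      rcases hRCD x hxR with hxC | hxD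
      · have : x ∈ E ∩ C := Finset.mem_inter.2 ⟨hxE, hxC⟩
        rw [hECs, Finset.mem_insert] at this
        rcases this with h | h
        · exact Or.inl h
        · exact absurd (hQ'b x h) hxb
      · have : x ∈ E ∩ D := Finset.mem_inter.2 ⟨hxE, hxD⟩
        rw [hEDs, Finset.mem_insert] at this
        rcases this with h | h
        · exact Or.inr h
        · exact absurd (hQ'b x h) hxb
    · rintro (rfl | rfl)
      · exact ⟨hr1E, hr1⟩
      · exact ⟨hr3E, hr3⟩
  have hERc : (E ∩ (c \ b)).card = 2 := by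
    rw [hER, Finset.card_pair hr13]
  -- `E ∩ Q = Q'`
  have hEQ : E ∩ (b \ c) = (b \ c).erase q4 := by
    ext x
    rw [Finset.mem_inter, Finset.mem_erase]
    constructor
    · rintro ⟨hxE, hxQ⟩
      refine ⟨?_, hxQ⟩
      rintro rfl
      exact hq4E hxE
    · intro h
      exact ⟨hQ'E x (Finset.mem_erase.2 h), h.2⟩
  have hEQc : (E ∩ (b \ c)).card = 3 := by rw [hEQ, hQ']
  have hb1 : (E ∩ (b \ c)).card + (E ∩ (b ∩ c)).card = (E ∩ b).card := by
    have := Finset.card_sdiff_add_card_inter (E ∩ b) c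
    rwa [Finset.inter_sdiff_assoc, Finset.inter_assoc] at this
  have hc1 : (E ∩ (c \ b)).card + (E ∩ (b ∩ c)).card = (E ∩ c).card := by
    have := Finset.card_sdiff_add_card_inter (E ∩ c) b
    rwa [Finset.inter_sdiff_assoc, Finset.inter_assoc, Finset.inter_comm c b] at this
  have hEbc := inter_cases hα hB hEB hb hEb
  by_cases hEc : E = c
  · have h8 : (E ∩ c).card = 8 := by rw [hEc, Finset.inter_self]; exact hB.1 c hc
    have hle : (E ∩ (b ∩ c)).card ≤ 4 := by
      rw [← h4]; exact Finset.card_le_card Finset.inter_subset_right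
    omega
  · have hEcc := inter_cases hα hB hEB hc hEc
    omega

end Cfsg.Agent.S0353
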