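import Cfsg.Statements.S0355
import Cfsg.Agent.H8.Steiner

set_option autoImplicit false
open Cfsg

namespace Cfsg.Agent.S0355

/-- In a Steiner system S(4, 7, 23), two distinct blocks intersect in 1 or 3 points. -/
theorem result {α : Type*} [Fintype α] [DecidableEq α] (hα : Fintype.card α = 23) {B : Set (Finset α)} (hB : Cfsg.IsSteinerSystem 4 7 B) {b c : Finset α} (hb : b ∈ B) (hc : c ∈ B) (hbc : b ≠ c) : (b ∩ c).card = 1 ∨ (b ∩ c).card = 3 := by
  classical
  have e0 := Cfsg.Agent.H8.sum_choose_inter hB hb 0 (by norm_num)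
  have e1 := Cfsg.Agent.H8.sum_choose_inter hB hb 1 (by norm_num)
  have e2 := Cfsg.Agent.H8.sum_choose_inter hB hb 2 (by norm_num)
  have e3 := Cfsg.Agent.H8.sum_choose_inter hB hb 3 (by norm_num)
  rw [hα] at e0 e1 e2 e3
  have hbmem : b ∈ Cfsg.Agent.H8.blocksThrough B ∅ :=
    Cfsg.Agent.H8.mem_blocksThrough.2 ⟨hb, Finset.empty_subset _⟩
  have hbb : (b ∩ b).card = 7 := by rw [Finset.inter_self]; exact hB.1 b hb
  rw [← Finset.add_sum_erase _ _ hbmem, hbb] at e0 e1 e2 e3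
  have c0 : Nat.choose 7 0 = 1 := by decide
  have c1 : Nat.choose 7 1 = 7 := by decide
  have c2 : Nat.choose 7 2 = 21 := by decide
  have c3 : Nat.choose 7 3 = 35 := by decide
  have d0 : Nat.choose (7 - 0) (4 - 0) = 35 := by decide
  have d1 : Nat.choose (7 - 1) (4 - 1) = 20 := by decide
  have d2 : Nat.choose (7 - 2) (4 - 2) = 10 := by decide
  have d3 : Nat.choose (7 - 3) (4 - 3) = 4 := by decide
  have f0 : Nat.choose (23 - 0) (4 - 0) = 8855 := by decide
  have f1 : Nat.choose (23 - 1) (4 - 1) = 1540 := by decide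
  have f2 : Nat.choose (23 - 2) (4 - 2) = 210 := by decide
  have f3 : Nat.choose (23 - 3) (4 - 3) = 20 := by decide
  rw [c0, d0, f0] at e0
  rw [c1, d1, f1] at e1
  rw [c2, d2, f2] at e2
  rw [c3, d3, f3] at e3
  have g0 : ∑ x ∈ (Cfsg.Agent.H8.blocksThrough B ∅).erase b, Nat.choose (b ∩ x).card 0 = 252 := by
    omega
  have g1 : ∑ x ∈ (Cfsg.Agent.H8.blocksThrough B ∅).erase b, Nat.choose (b ∩ x).card 1 = 532 := by
    omega
  have g2 : ∑ x ∈ (Cfsg.Agent.H8.blocksThrough B ∅).erase b, Nat.choose (b ∩ x).card 2 = 420 := by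
    omega
  have g3 : ∑ x ∈ (Cfsg.Agent.H8.blocksThrough B ∅).erase b, Nat.choose (b ∩ x).card 3 = 140 := by
    omega
  have hsum : ∑ x ∈ (Cfsg.Agent.H8.blocksThrough B ∅).erase b,
      (1 * Nat.choose (b ∩ x).card 1 + 4 * Nat.choose (b ∩ x).card 3) =
      ∑ x ∈ (Cfsg.Agent.H8.blocksThrough B ∅).erase b,
      (1 * Nat.choose (b ∩ x).card 0 + 2 * Nat.choose (b ∩ x).card 2) := by
    rw [Finset.sum_add_distrib, Finset.sum_add_distrib, ← Finset.mul_sum, ← Finset.mul_sum,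
      ← Finset.mul_sum, ← Finset.mul_sum, g0, g1, g2, g3]
    norm_num
  have hle : ∀ x ∈ (Cfsg.Agent.H8.blocksThrough B ∅).erase b,
      1 * Nat.choose (b ∩ x).card 1 + 4 * Nat.choose (b ∩ x).card 3 ≤
      1 * Nat.choose (b ∩ x).card 0 + 2 * Nat.choose (b ∩ x).card 2 := by
    intro x hx
    rw [Finset.mem_erase, Cfsg.Agent.H8.mem_blocksThrough] at hx
    have hlt := Cfsg.Agent.H8.inter_card_le_of_ne hB hb hx.2.1 (Ne.symm hx.1)
    interval_cases (b ∩ x).card <;> decide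
  have hall := (Finset.sum_eq_sum_iff_of_le hle).1 hsum c
    (Finset.mem_erase.2 ⟨Ne.symm hbc, Cfsg.Agent.H8.mem_blocksThrough.2 ⟨hc, Finset.empty_subset _⟩⟩)
  have hlt := Cfsg.Agent.H8.inter_card_le_of_ne hB hb hc hbc
  revert hall
  interval_cases (b ∩ c).card <;> decide

end Cfsg.Agent.S0355
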