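-- Statement S0356 (helper10).
import Cfsg.Statements.S0356
import Cfsg.Agent.H10.Steiner22

set_option autoImplicit false
open Cfsg

namespace Cfsg.Agent.S0356

/-- Two distinct blocks of a Steiner system S(3, 6, 22) meet in 0 or 2 points. -/
theorem result {α : Type*} [Fintype α] [DecidableEq α] (hα : Fintype.card α = 22) {B : Set (Finset α)} (hB : Cfsg.IsSteinerSystem 3 6 B) {b c : Finset α} (hb : b ∈ B) (hc : c ∈ B) (hbc : b ≠ c) : (b ∩ c).card = 0 ∨ (b ∩ c).card = 2 := by
  exact Cfsg.Agent.H10.steiner3_inter_zero_or_two hα hB hc hb hbc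

end Cfsg.Agent.S0356
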