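import Cfsg.Statements.S0357
import Cfsg.Agent.H8.Steiner

set_option autoImplicit false
open Cfsg

namespace Cfsg.Agent.S0357

/-- In a Steiner system S(5, 6, 12), the complement of every block is again a block. -/
theorem result {α : Type*} [Fintype α] [DecidableEq α] (hα : Fintype.card α = 12) {B : Set (Finset α)} (hB : Cfsg.IsSteinerSystem 5 6 B) {b : Finset α} (hb : b ∈ B) : bᶜ ∈ B := by
  classical
  have e0 := Cfsg.Agent.H8.sum_choose_inter hB hb 0 (by norm_num)
  have e1 := Cfsg.Agent.H8.sum_choose_inter hB hb 1 (by norm_num)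
  have e2 := Cfsg.Agent.H8.sum_choose_inter hB hb 2 (by norm_num)
  have e3 := Cfsg.Agent.H8.sum_choose_inter hB hb 3 (by norm_num)
  have e4 := Cfsg.Agent.H8.sum_choose_inter hB hb 4 (by norm_num)
  rw [hα] at e0 e1 e2 e3 e4
  have hbmem : b ∈ Cfsg.Agent.H8.blocksThrough B ∅ :=
    Cfsg.Agent.H8.mem_blocksThrough.2 ⟨hb, Finset.empty_subset _⟩
  have hbb : (b ∩ b).card = 6 := by rw [Finset.inter_self]; exact hB.1 b hb
  rw [← Finset.add_sum_erase _ _ hbmem, hbb] at e0 e1 e2 e3 e4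
  have c0 : Nat.choose 6 0 = 1 := by decide
  have c1 : Nat.choose 6 1 = 6 := by decide
  have c2 : Nat.choose 6 2 = 15 := by decide
  have c3 : Nat.choose 6 3 = 20 := by decide
  have c4 : Nat.choose 6 4 = 15 := by decide
  have d0 : Nat.choose (6 - 0) (5 - 0) = 6 := by decide
  have d1 : Nat.choose (6 - 1) (5 - 1) = 5 := by decide
  have d2 : Nat.choose (6 - 2) (5 - 2) = 4 := by decide
  have d3 : Nat.choose (6 - 3) (5 - 3) = 3 := by decide
  have d4 : Nat.choose (6 - 4) (5 - 4) = 2 := by decide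
  have f0 : Nat.choose (12 - 0) (5 - 0) = 792 := by decide
  have f1 : Nat.choose (12 - 1) (5 - 1) = 330 := by decide
  have f2 : Nat.choose (12 - 2) (5 - 2) = 120 := by decide
  have f3 : Nat.choose (12 - 3) (5 - 3) = 36 := by decide
  have f4 : Nat.choose (12 - 4) (5 - 4) = 8 := by decide
  rw [c0, d0, f0] at e0
  rw [c1, d1, f1] at e1
  rw [c2, d2, f2] at e2
  rw [c3, d3, f3] at e3
  rw [c4, d4, f4] at e4
  have g0 : ∑ x ∈ (Cfsg.Agent.H8.blocksThrough B ∅).erase b, Nat.choose (b ∩ x).card 0 = 131 := by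
    omega
  have g1 : ∑ x ∈ (Cfsg.Agent.H8.blocksThrough B ∅).erase b, Nat.choose (b ∩ x).card 1 = 390 := by
    omega
  have g2 : ∑ x ∈ (Cfsg.Agent.H8.blocksThrough B ∅).erase b, Nat.choose (b ∩ x).card 2 = 435 := by
    omega
  have g3 : ∑ x ∈ (Cfsg.Agent.H8.blocksThrough B ∅).erase b, Nat.choose (b ∩ x).card 3 = 220 := by
    omega
  have g4 : ∑ x ∈ (Cfsg.Agent.H8.blocksThrough B ∅).erase b, Nat.choose (b ∩ x).card 4 = 45 := by
    omega
  -- the indicator of `i = 0` on `{0,…,4}` in the binomial basis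
  have hterm : ∀ x ∈ (Cfsg.Agent.H8.blocksThrough B ∅).erase b,
      (if (b ∩ x).card = 0 then 1 else 0) + Nat.choose (b ∩ x).card 1 + Nat.choose (b ∩ x).card 3 =
      Nat.choose (b ∩ x).card 0 + Nat.choose (b ∩ x).card 2 + Nat.choose (b ∩ x).card 4 := by
    intro x hx
    rw [Finset.mem_erase, Cfsg.Agent.H8.mem_blocksThrough] at hx
    have hlt := Cfsg.Agent.H8.inter_card_le_of_ne hB hb hx.2.1 (Ne.symm hx.1)
    interval_cases (b ∩ x).card <;> decide
  have hsum := Finset.sum_congr rfl hterm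
  rw [Finset.sum_add_distrib, Finset.sum_add_distrib, Finset.sum_add_distrib,
    Finset.sum_add_distrib, g0, g1, g2, g3, g4, ← Finset.card_filter] at hsum
  have hcard : (((Cfsg.Agent.H8.blocksThrough B ∅).erase b).filter
      (fun x => (b ∩ x).card = 0)).card = 1 := by omega
  obtain ⟨x, hx⟩ := Finset.card_pos.1 (by rw [hcard]; exact Nat.one_pos)
  rw [Finset.mem_filter, Finset.mem_erase, Cfsg.Agent.H8.mem_blocksThrough, Finset.card_eq_zero,
    ← Finset.disjoint_iff_inter_eq_empty] at hx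
  obtain ⟨⟨-, hxB, -⟩, hdisj⟩ := hx
  have hxc : x = bᶜ := by
    apply Finset.eq_of_subset_of_card_le
    · intro a ha
      rw [Finset.mem_compl]
      exact fun hab => (Finset.disjoint_left.1 hdisj) hab ha
    · rw [Finset.card_compl, hα, hB.1 b hb, hB.1 x hxB]
  rw [← hxc]
  exact hxB

end Cfsg.Agent.S0357
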