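import Cfsg.Statements.S0371
import Cfsg.Agent.H9.Golay2

set_option autoImplicit false
open Cfsg

namespace Cfsg.Agent.S0371

/-- packed permutation of multiplication by `c` on the residues -/
def mulPk (c : ℕ) : ℕ :=
  ((List.range 23).map (fun i => (c * i) % 23) ++ [23]).foldr (fun x acc => x + 32 * acc) 0

theorem lk_mulPk : ∀ c x : ZMod 23, Cfsg.Agent.H9.lk (mulPk c.val) x.val = (c * x).val := by
  decide +kernel

theorem lk_mulPk' : ∀ c : ZMod 23, Cfsg.Agent.H9.lk (mulPk c.val) 23 = 23 := by decide +kernel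

theorem chk_mulPk : ∀ a : ZMod 23, a ≠ 0 → Cfsg.Agent.H9.chkM24 (mulPk (a * a).val) = true := by
  decide +kernel

/-- Multiplication by a nonzero square residue modulo 23, fixing the extra point, lies in the group of the length-24 code. -/
theorem result (u : (ZMod 23)ˣ) (hu : IsSquare u) : Equiv.optionCongr (Units.mulLeft u) ∈ Cfsg.M24 := by
  obtain ⟨r, rfl⟩ := hu
  have hrep : Cfsg.Agent.H9.Rep (mulPk ((r : ZMod 23) * r).val)
      (Equiv.optionCongr (Units.mulLeft (r * r))) := by
    intro p
    cases p with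
    | none => exact (lk_mulPk' _).symm
    | some x =>
      show (((r * r : (ZMod 23)ˣ) : ZMod 23) * x).val = _
      rw [Units.val_mul]
      exact (lk_mulPk _ x).symm
  haveI : Fact (1 < 23) := ⟨by decide⟩
  exact Cfsg.Agent.H9.mem_M24_of_chk hrep (chk_mulPk r (Units.ne_zero r))

end Cfsg.Agent.S0371
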