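import Cfsg.Statements.S0385
import Cfsg.Agent.H33.DodOct
import Cfsg.Agent.H33.OctStab
import Cfsg.Agent.H9.Golay2

set_option autoImplicit false
open Cfsg

namespace Cfsg.Agent.S0385

/-- The 6-point intersections of octads with a fixed dodecad form a Steiner system S(5, 6, 12) on the dodecad. -/
theorem result (d : Finset Cfsg.GolayPt) (hd : d ∈ Cfsg.dodecads) : Cfsg.IsSteinerSystem 5 6 {h : Finset {p : Cfsg.GolayPt // p ∈ d} | ∃ o ∈ Cfsg.octads, (o ∩ d).card = 6 ∧ h = Finset.subtype (fun p => p ∈ d) o} := by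
  classical
  refine ⟨?_, ?_⟩
  · rintro b ⟨o, _, ho6, rfl⟩
    rw [Finset.card_subtype, Finset.filter_mem_eq_inter]
    exact ho6
  · intro s hs
    set s' : Finset Cfsg.GolayPt := s.map (Function.Embedding.subtype _) with hs'
    have hs'card : s'.card = 5 := by rw [hs', Finset.card_map]; exact hs
    have hs'd : s' ⊆ d := by
      intro x hx
      rw [hs', Finset.mem_map] at hx
      obtain ⟨y, _, rfl⟩ := hx
      exact y.2
    obtain ⟨o, ⟨ho, hso⟩, huniq⟩ := Cfsg.Agent.H9.octads_steiner.2 s' hs'card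
    have h6 : (o ∩ d).card = 6 := by
      have h1 : s' ⊆ o ∩ d := Finset.subset_inter hso hs'd
      have h2 := Finset.card_le_card h1
      rw [hs'card] at h2
      rcases Cfsg.Agent.H33.octad_dodecad_inter Cfsg.Agent.H33.hW ho hd with h | h | h <;> omega
    have hmem : ∀ (o' : Finset Cfsg.GolayPt), s ⊆ Finset.subtype (fun p => p ∈ d) o' → s' ⊆ o' := by
      intro o' hsub x hx
      rw [hs', Finset.mem_map] at hx
      obtain ⟨y, hy, rfl⟩ := hx
      exact Finset.mem_subtype.mp (hsub hy)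
    refine ⟨Finset.subtype (fun p => p ∈ d) o, ⟨⟨o, ho, h6, rfl⟩, ?_⟩, ?_⟩
    · intro y hy
      rw [Finset.mem_subtype]
      exact hso (by rw [hs', Finset.mem_map]; exact ⟨y, hy, rfl⟩)
    · rintro b ⟨⟨o', ho', _, rfl⟩, hsub⟩
      rw [huniq o' ⟨ho', hmem o' hsub⟩]
end Cfsg.Agent.S0385
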