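import Cfsg.Statements.S0392
import Cfsg.Agent.H93.Leech

set_option autoImplicit false
open Cfsg

namespace Cfsg.Agent.S0392

/-- Sum of squares of every lattice vector is divisible by 16 (even lattice at scale 1/8). -/
theorem result (x : Cfsg.GolayPt → ℤ) (hx : x ∈ Cfsg.leechLattice) : (16 : ℤ) ∣ Cfsg.sqNorm x := by
  exact Cfsg.Agent.H93.sixteen_dvd_sqNorm hx

end Cfsg.Agent.S0392
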