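import Cfsg.Statements.S0406
import Cfsg.Agent.H93.ConwayMain
import Cfsg.Agent.H53.ConwayOrth
import Cfsg.Agent.H53.ConwayPars
import Cfsg.Agent.H53.ConwayShapeOdd
import Cfsg.Agent.H53.ConwayL4
import Cfsg.Agent.H61.ConwayClass
import Cfsg.Agent.H61.ConwayT2
import Cfsg.Agent.H65.ConwayFrame
import Cfsg.Agent.H65.ConwayCnt
import Cfsg.Agent.Lib.Helper96.ConwayCoord
import Cfsg.Agent.H11.ConwayCode
import Cfsg.Agent.H11.ConwayShape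
import Cfsg.Agent.H84.ConwayDim
import Cfsg.Agent.H84.ConwayOct
import Cfsg.Agent.H7.ConwayT3
import Cfsg.Agent.H8.ConwaySub
import Cfsg.Agent.H8.ConwaySup

set_option autoImplicit false
open Matrix
open Cfsg

namespace Cfsg.Agent.S0406

/-- A rank-24 even lattice with no roots and the stated numbers of vectors of norms 4, 6, 8 is isomorphic to the Leech lattice. -/
theorem result (B : Matrix (Fin 24) (Fin 24) ℤ) (hsymm : B.IsSymm) (hpos : ∀ x : Fin 24 → ℤ, x ≠ 0 → 0 < x ⬝ᵥ (B *ᵥ x)) (heven : ∀ x : Fin 24 → ℤ, (2 : ℤ) ∣ x ⬝ᵥ (B *ᵥ x)) (h2 : ∀ x : Fin 24 → ℤ, x ⬝ᵥ (B *ᵥ x) ≠ 2) (h4 : {x : Fin 24 → ℤ | x ⬝ᵥ (B *ᵥ x) = 4}.ncard = 196560) (h6 : {x : Fin 24 → ℤ | x ⬝ᵥ (B *ᵥ x) = 6}.ncard = 16773120) (h8 : {x : Fin 24 → ℤ | x ⬝ᵥ (B *ᵥ x) = 8}.ncard = 398034000) : ∃ f : (Fin 24 → ℤ) ≃+ Cfsg.leechLattice, ∀ x : Fin 24 → ℤ, Cfsg.sqNorm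 ((f x : Cfsg.leechLattice) : Cfsg.GolayPt → ℤ) = 8 * (x ⬝ᵥ (B *ᵥ x)) := by
  exact Cfsg.Agent.H93.Conway.main_of Cfsg.Agent.H53.Conway.orth Cfsg.Agent.H61.Conway.cls
    Cfsg.Agent.H65.Conway.frame Cfsg.Agent.H53.Conway.pars Cfsg.Agent.Lib.Helper96.Conway.coord
    Cfsg.Agent.H53.Conway.l4 Cfsg.Agent.H11.Conway.code Cfsg.Agent.H84.Conway.dim
    Cfsg.Agent.H53.Conway.shapeOdd Cfsg.Agent.H11.Conway.shape Cfsg.Agent.H84.Conway.oct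
    Cfsg.Agent.H61.Conway.t2 Cfsg.Agent.H7.Conway.t3 Cfsg.Agent.H65.Conway.cnt
    Cfsg.Agent.H8.Conway.sub Cfsg.Agent.H8.Conway.sup B hsymm hpos heven h2 h4 h6 h8

end Cfsg.Agent.S0406
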