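import Cfsg.Statements.S0412
import Cfsg.Agent.H9.AutIso
import Cfsg.Agent.S0407
import Cfsg.Agent.S0363
import Cfsg.Agent.S0364
import Cfsg.Agent.S0365
import Cfsg.Agent.S0366
import Cfsg.Agent.S0369

set_option autoImplicit false
open Cfsg

namespace Cfsg.Agent.S0412

/-- Aut of an S(5, 8, 24) is simple of order 244823040 and 5-transitive on points. -/
theorem result {α : Type*} [Fintype α] [DecidableEq α] (hα : Fintype.card α = 24) {B : Set (Finset α)} (hB : Cfsg.IsSteinerSystem 5 8 B) : Cfsg.IsM24 (Cfsg.setSystemAut B) ∧ MulAction.IsMultiplyPretransitive (Cfsg.setSystemAut B) α 5 := by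
  have hcard : Fintype.card Cfsg.GolayPt = 24 := by
    rw [Fintype.card_option, ZMod.card]
  obtain ⟨e, he⟩ := Cfsg.Agent.S0407.result hα hcard hB Cfsg.Agent.S0363.result
  have hM : Cfsg.M24 = Cfsg.setSystemAut Cfsg.octads := Cfsg.Agent.S0369.result
  refine ⟨⟨?_, ?_⟩, ?_⟩
  · have h1 : IsSimpleGroup (Cfsg.setSystemAut Cfsg.octads) := by
      rw [← hM]
      exact Cfsg.Agent.S0365.result
    exact (Cfsg.Agent.H9.AutIso.autCongr e he).isSimpleGroup_congr.mpr h1
  · rw [Nat.card_congr (Cfsg.Agent.H9.AutIso.autCongr e he).toEquiv, ← hM]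
    exact Cfsg.Agent.S0364.result
  · apply Cfsg.Agent.H9.AutIso.pretransitive_of_iso e he 5
    rw [← hM]
    exact Cfsg.Agent.S0366.result

end Cfsg.Agent.S0412
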