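import Cfsg.Statements.S0413
import Cfsg.Agent.H9.AutIso
import Cfsg.Agent.H9.Stg24b
import Cfsg.Agent.S0409
import Cfsg.Agent.S0363
import Cfsg.Agent.S0366
import Cfsg.Agent.S0369
import Cfsg.Agent.S0376
import Cfsg.Agent.S0377

set_option autoImplicit false
open Cfsg

namespace Cfsg.Agent.S0413

/-- Aut of an S(4, 7, 23) is simple of order 10200960 and 4-transitive. -/
theorem result {α : Type*} [Fintype α] [DecidableEq α] (hα : Fintype.card α = 23) {B : Set (Finset α)} (hB : Cfsg.IsSteinerSystem 4 7 B) : Cfsg.IsM23 (Cfsg.setSystemAut B) ∧ MulAction.IsMultiplyPretransitive (Cfsg.setSystemAut B) α 4 := by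
  have hcard : Fintype.card Cfsg.GolayPt = 24 := by
    rw [Fintype.card_option, ZMod.card]
  have hO : Cfsg.IsSteinerSystem 5 8 Cfsg.octads := Cfsg.Agent.S0363.result
  have hD := Cfsg.Agent.H9.Stg.derived_steiner hO (none : Cfsg.GolayPt)
  have hcard' : Fintype.card {a : Cfsg.GolayPt // a ≠ none} = 23 :=
    Cfsg.Agent.H9.Stg.card_subtype_ne_24 hcard none
  obtain ⟨e, he⟩ := Cfsg.Agent.S0409.result hα hcard' hB hD
  have hM : Cfsg.M24 = Cfsg.setSystemAut Cfsg.octads := Cfsg.Agent.S0369.result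
  have key : IsSimpleGroup (MulAction.stabilizer (Cfsg.setSystemAut Cfsg.octads)
      (none : Cfsg.GolayPt)) ∧ Nat.card (MulAction.stabilizer (Cfsg.setSystemAut Cfsg.octads)
      (none : Cfsg.GolayPt)) = 10200960 := by
    rw [← hM]
    exact ⟨Cfsg.Agent.S0377.result none, Cfsg.Agent.S0376.result none⟩
  have h5 : MulAction.IsMultiplyPretransitive (Cfsg.setSystemAut Cfsg.octads) Cfsg.GolayPt
      (4 + 1) := by
    rw [← hM]
    exact Cfsg.Agent.S0366.result
  let ψ := (Cfsg.Agent.H9.AutIso.autCongr e he).trans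
    (Cfsg.Agent.H9.Stg.derivedAutEquiv (Cfsg.Agent.H9.Stg.w24_aut_ext hcard hO none))
  refine ⟨⟨ψ.isSimpleGroup_congr.mpr key.1, ?_⟩, ?_⟩
  · rw [Nat.card_congr ψ.toEquiv]
    exact key.2
  · exact Cfsg.Agent.H9.AutIso.pretransitive_of_iso e he 4
      (Cfsg.Agent.H9.Stg.derived_pretransitive 4 h5)

end Cfsg.Agent.S0413
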