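import Cfsg.Statements.S0414
import Cfsg.Agent.H9.Aut22
import Cfsg.Agent.S0410
import Cfsg.Agent.S0363
import Cfsg.Agent.S0366
import Cfsg.Agent.S0369
import Cfsg.Agent.S0378
import Cfsg.Agent.S0379

set_option autoImplicit false
open Cfsg

namespace Cfsg.Agent.S0414

/-- Aut of an S(3, 6, 22) has order 887040, is 3-transitive, and contains a simple subgroup of index 2. -/
theorem result {α : Type*} [Fintype α] [DecidableEq α] (hα : Fintype.card α = 22) {B : Set (Finset α)} (hB : Cfsg.IsSteinerSystem 3 6 B) : Nat.card (Cfsg.setSystemAut B) = 887040 ∧ MulAction.IsMultiplyPretransitive (Cfsg.setSystemAut B) α 3 ∧ ∃ H : Subgroup (Cfsg.setSystemAut B), H.index = 2 ∧ Cfsg.IsM22 H := by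
  have hcard : Fintype.card Cfsg.GolayPt = 24 := by
    rw [Fintype.card_option, ZMod.card]
  have hO : Cfsg.IsSteinerSystem 5 8 Cfsg.octads := Cfsg.Agent.S0363.result
  have hD23 := Cfsg.Agent.H9.Stg.derived_steiner hO (none : Cfsg.GolayPt)
  have hc23 : Fintype.card {a : Cfsg.GolayPt // a ≠ none} = 23 :=
    Cfsg.Agent.H9.Stg.card_subtype_ne_24 hcard none
  obtain ⟨q, hq⟩ : ∃ q : {a : Cfsg.GolayPt // a ≠ none}, q.val = some 0 := ⟨⟨some 0, by simp⟩, rfl⟩
  have hD22 := Cfsg.Agent.H9.Stg.derived_steiner hD23 q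
  have hc22 : Fintype.card {a : {a : Cfsg.GolayPt // a ≠ none} // a ≠ q} = 22 :=
    Cfsg.Agent.H9.Stg.card_subtype_ne_23 hc23 q
  obtain ⟨e, he⟩ := Cfsg.Agent.S0410.result hα hc22 hB hD22
  have hM : Cfsg.M24 = Cfsg.setSystemAut Cfsg.octads := Cfsg.Agent.S0369.result
  have hKi := Cfsg.Agent.H9.Stg.extSub_index hc23 hD23 q
  have key : IsSimpleGroup ↥(MulAction.stabilizer (Cfsg.setSystemAut Cfsg.octads)
        (none : Cfsg.GolayPt) ⊓ MulAction.stabilizer (Cfsg.setSystemAut Cfsg.octads)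
        (some 0 : Cfsg.GolayPt)) ∧
      Nat.card ↥(MulAction.stabilizer (Cfsg.setSystemAut Cfsg.octads)
        (none : Cfsg.GolayPt) ⊓ MulAction.stabilizer (Cfsg.setSystemAut Cfsg.octads)
        (some 0 : Cfsg.GolayPt)) = 443520 := by
    rw [← hM]
    exact ⟨Cfsg.Agent.S0379.result none (some 0) (by simp),
      Cfsg.Agent.S0378.result none (some 0) (by simp)⟩
  have h5 : MulAction.IsMultiplyPretransitive (Cfsg.setSystemAut Cfsg.octads) Cfsg.GolayPt
      (4 + 1) := by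
    rw [← hM]
    exact Cfsg.Agent.S0366.result
  let ψ := Cfsg.Agent.H9.Stg.derivedAutEquiv (Cfsg.Agent.H9.Stg.w24_aut_ext hcard hO none)
  have hcompat : ∀ g : Cfsg.setSystemAut (Cfsg.Agent.H9.Stg.derived Cfsg.octads
      (none : Cfsg.GolayPt)), g • q = q ↔ ψ g • (some 0 : Cfsg.GolayPt) = some 0 := by
    intro g
    have h1 : ψ g • (some 0 : Cfsg.GolayPt) = ((g : Equiv.Perm _) q).val := by
      rw [← hq]
      exact Equiv.Perm.ofSubtype_apply_coe g.1 q
    rw [h1, ← hq]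
    exact Subtype.ext_iff
  let θ := (Cfsg.Agent.H9.Stg.extSubEquiv (Cfsg.Agent.H9.Stg.derived Cfsg.octads
      (none : Cfsg.GolayPt)) q).trans
    ((Cfsg.Agent.H9.Stg.stabEquiv ψ q (some 0 : Cfsg.GolayPt) hcompat).trans
      (Cfsg.Agent.H9.Stg.stabStabEquiv (Cfsg.setSystemAut Cfsg.octads) (none : Cfsg.GolayPt)
        (some 0 : Cfsg.GolayPt)))
  have hKM : Cfsg.IsM22 (Cfsg.Agent.H9.Stg.extSub (Cfsg.Agent.H9.Stg.derived Cfsg.octads
      (none : Cfsg.GolayPt)) q) :=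
    ⟨θ.isSimpleGroup_congr.mpr key.1, by rw [Nat.card_congr θ.toEquiv]; exact key.2⟩
  have hGcard : Nat.card (Cfsg.setSystemAut (Cfsg.Agent.H9.Stg.derived
      (Cfsg.Agent.H9.Stg.derived Cfsg.octads (none : Cfsg.GolayPt)) q)) = 887040 := by
    have := Subgroup.index_mul_card (Cfsg.Agent.H9.Stg.extSub (Cfsg.Agent.H9.Stg.derived
      Cfsg.octads (none : Cfsg.GolayPt)) q)
    rw [hKi, hKM.2] at this
    omega
  let φ := Cfsg.Agent.H9.AutIso.autCongr e he
  refine ⟨?_, ?_, ?_⟩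
  · rw [Nat.card_congr φ.toEquiv]
    exact hGcard
  · exact Cfsg.Agent.H9.AutIso.pretransitive_of_iso e he 3
      (Cfsg.Agent.H9.Stg.derived_pretransitive 3 (Cfsg.Agent.H9.Stg.derived_pretransitive 4 h5))
  · refine ⟨(Cfsg.Agent.H9.Stg.extSub (Cfsg.Agent.H9.Stg.derived Cfsg.octads
      (none : Cfsg.GolayPt)) q).map (φ.symm : _ →* _), ?_, ?_⟩
    · rw [Subgroup.index_map_equiv]
      exact hKi
    · let χ := φ.symm.subgroupMap (Cfsg.Agent.H9.Stg.extSub (Cfsg.Agent.H9.Stg.derived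
        Cfsg.octads (none : Cfsg.GolayPt)) q)
      exact ⟨χ.symm.isSimpleGroup_congr.mpr hKM.1, by
        rw [Nat.card_congr χ.symm.toEquiv]; exact hKM.2⟩

end Cfsg.Agent.S0414
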