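import Cfsg.Statements.S0423
import Cfsg.Agent.H10.J2T.Main

set_option autoImplicit false
open Cfsg

namespace Cfsg.Agent.S0423

/-- Existence of a simple group of order 604800. -/
theorem result : ∃ G : Subgroup (Equiv.Perm (Fin 100)), Cfsg.IsJ2 G := by
  obtain ⟨ρ, hinj, hcard, hsimple⟩ := Cfsg.Agent.H10.J2T.j2_main
  let e := MonoidHom.ofInjective hinj
  refine ⟨(ρ.range : Subgroup (Equiv.Perm (Fin 100))), ?_, ?_⟩
  · exact e.symm.isSimpleGroup
  · exact (Nat.card_congr e.symm.toEquiv).trans hcard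

end Cfsg.Agent.S0423
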