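-- Statement S0427 (helper10).
import Cfsg.Statements.S0427
import Cfsg.Agent.H10.Steiner22

set_option autoImplicit false
open Cfsg

namespace Cfsg.Agent.S0427

open Cfsg.Agent.H10

/-- Cardinality of a set of blocks (as a set in the subtype) via the block finset. -/
theorem card_subtype_set {α : Type*} [Fintype α] [DecidableEq α] {B : Set (Finset α)}
    (X : Set B) [Fintype X] (P : Finset α → Prop) [DecidablePred P]
    (h : ∀ v : B, v ∈ X ↔ P v.1) :
    Fintype.card X = ((blockFinset B).filter P).card := by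
  rw [Fintype.card_eq_nat_card, Nat.card_coe_set_eq,
    ← Set.ncard_image_of_injective X Subtype.val_injective, ← Set.ncard_coe_finset]
  congr 1
  ext d
  simp only [Set.mem_image, Finset.coe_filter, Set.mem_ofPred_eq, mem_blockFinset]
  constructor
  · rintro ⟨v, hv, rfl⟩
    exact ⟨v.2, (h v).1 hv⟩
  · rintro ⟨hd, hP⟩
    exact ⟨⟨d, hd⟩, (h ⟨d, hd⟩).2 hP, rfl⟩

theorem adj_iff {α : Type*} [DecidableEq α] {B : Set (Finset α)} (hB : Cfsg.IsSteinerSystem 3 6 B)
    (v w : B) : (Cfsg.blockGraph B).Adj v w ↔ Disjoint v.1 w.1 := by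
  unfold Cfsg.blockGraph
  rw [SimpleGraph.fromRel_adj]
  constructor
  · rintro ⟨-, h | h⟩
    · exact h
    · exact h.symm
  · intro h
    refine ⟨fun hvw => ?_, Or.inl h⟩
    rw [hvw] at h
    exact steiner3_not_disjoint_self hB w.2 h

/-- The block graph (adjacent = disjoint) of an S(3, 6, 22) is strongly regular with parameters (77, 16, 0, 4). -/
theorem result {α : Type*} [Fintype α] (hα : Fintype.card α = 22) {B : Set (Finset α)} (hB : Cfsg.IsSteinerSystem 3 6 B) [Fintype B] [DecidableRel (Cfsg.blockGraph B).Adj] : (Cfsg.blockGraph B).IsSRGWith 77 16 0 4 := by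
  classical
  refine ⟨?_, ?_, ?_, ?_⟩
  · have h := card_subtype_set (Set.univ : Set B) (fun _ => True) (fun v => by simp)
    rw [Finset.filter_true_of_mem (fun _ _ => trivial), steiner3_card_blocks hα hB] at h
    rw [← h, Fintype.card_congr (Equiv.Set.univ B)]
  · intro v
    rw [← SimpleGraph.card_neighborSet_eq_degree]
    rw [card_subtype_set ((Cfsg.blockGraph B).neighborSet v) (fun d => Disjoint v.1 d)
      (fun w => by rw [SimpleGraph.mem_neighborSet, adj_iff hB])]
    exact steiner3_card_disjoint hα hB v.2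
  · intro v w hvw
    rw [card_subtype_set ((Cfsg.blockGraph B).commonNeighbors v w)
      (fun d => Disjoint v.1 d ∧ Disjoint w.1 d)
      (fun u => by rw [SimpleGraph.mem_commonNeighbors, adj_iff hB, adj_iff hB])]
    have hne : v.1 ≠ w.1 := fun h => (Cfsg.blockGraph B).ne_of_adj hvw (Subtype.ext h)
    rw [steiner3_card_disjoint_two hα hB v.2 w.2 hne]
    have hdis := (adj_iff hB v w).1 hvw
    rw [Finset.disjoint_iff_inter_eq_empty.1 hdis, Finset.card_empty]
  · intro v w hvw hnadj
    rw [card_subtype_set ((Cfsg.blockGraph B).commonNeighbors v w)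
      (fun d => Disjoint v.1 d ∧ Disjoint w.1 d)
      (fun u => by rw [SimpleGraph.mem_commonNeighbors, adj_iff hB, adj_iff hB])]
    have hne : v.1 ≠ w.1 := fun h => hvw (Subtype.ext h)
    rw [steiner3_card_disjoint_two hα hB v.2 w.2 hne]
    have hnd : ¬ Disjoint v.1 w.1 := fun h => hnadj ((adj_iff hB v w).2 h)
    rcases steiner3_inter_zero_or_two hα hB w.2 v.2 hne with h | h
    · exact absurd (Finset.disjoint_iff_inter_eq_empty.2 (Finset.card_eq_zero.1 h)) hnd
    · rw [h]

end Cfsg.Agent.S0427
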