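-- Statement S0429 (helper9; team project, pieces by helper3, helper13, helper18, helper19, helper51, helper73, helper89).
-- Uniqueness of the strongly regular graph with parameters (77, 16, 0, 4): the graph has no K_{3,3},
-- non-adjacent pairs span 5-cocliques ("lines"), there are exactly 22 cocliques of size 21 ("planes"),
-- which are the points of a Steiner system S(3, 6, 22) whose blocks are the vertices; then S0410's library.
import Cfsg.Statements.S0429
import Cfsg.Agent.H9.S77Iso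
import Cfsg.Agent.H9.S77Count
import Cfsg.Agent.H9.S77K33
import Cfsg.Agent.H9.S77Ex
import Cfsg.Agent.H9.S77Plane
import Cfsg.Agent.H19.S77ZZ
import Cfsg.Agent.H89.S77Line
import Cfsg.Agent.H89.S77Two
import Cfsg.Agent.H89.S77N0
import Cfsg.Agent.H51.S77Perp
import Cfsg.Agent.H51.S77Meet
import Cfsg.Agent.H3.S77Hoff
import Cfsg.Agent.H3.S77Sub
import Cfsg.Agent.H73.S77Six
import Cfsg.Agent.H73.S77Pair
import Cfsg.Agent.H18.S77Three
import Cfsg.Agent.H18.S77Steiner

set_option autoImplicit false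
open Cfsg

namespace Cfsg.Agent.S0429

universe u

/-- The Steiner-system description of an srg(77,16,0,4). -/
theorem steiner {V : Type u} [Fintype V] (G : SimpleGraph V) (h : Cfsg.Agent.H9.S77.Hyp G) :
    Cfsg.Agent.H9.S77.StSteiner G :=
  Cfsg.Agent.H9.S77.steiner_of_pieces Cfsg.Agent.H9.S77.count Cfsg.Agent.H9.S77.nbW
    Cfsg.Agent.H9.S77.k33 Cfsg.Agent.H9.S77.znb Cfsg.Agent.H19.S77.zz Cfsg.Agent.H89.S77.line
    Cfsg.Agent.H89.S77.two Cfsg.Agent.H89.S77.n0 Cfsg.Agent.H51.S77.perp Cfsg.Agent.H9.S77.plane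
    Cfsg.Agent.H3.S77.hoff Cfsg.Agent.H3.S77.sub Cfsg.Agent.H9.S77.uniq Cfsg.Agent.H9.S77.ex
    Cfsg.Agent.H73.S77.six Cfsg.Agent.H73.S77.pair Cfsg.Agent.H9.S77.n22 Cfsg.Agent.H51.S77.meet
    Cfsg.Agent.H18.S77.three Cfsg.Agent.H18.S77.steiner G h

/-- Uniqueness of the strongly regular graph with parameters (77, 16, 0, 4). -/
theorem result {V W : Type*} [Fintype V] [Fintype W] {G : SimpleGraph V} {H : SimpleGraph W} [DecidableRel G.Adj] [DecidableRel H.Adj] (hG : G.IsSRGWith 77 16 0 4) (hH : H.IsSRGWith 77 16 0 4) : Nonempty (G ≃g H) :=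
  Cfsg.Agent.H9.S77.unique_of_steiner (steiner G (Cfsg.Agent.H9.S77.hyp_of_srg hG))
    (steiner H (Cfsg.Agent.H9.S77.hyp_of_srg hH))

end Cfsg.Agent.S0429
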