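-- Statement S0439 (helper10).
import Cfsg.Statements.S0439
import Cfsg.Agent.H10.ThreeTransp

set_option autoImplicit false
open Cfsg

namespace Cfsg.Agent.S0439

theorem swap_mul_swap_pow {α : Type*} [DecidableEq α] [Fintype α] (i j k l : α) (hij : i ≠ j) (hkl : k ≠ l) :
    (Equiv.swap i j * Equiv.swap k l) ^ 2 = 1 ∨ (Equiv.swap i j * Equiv.swap k l) ^ 3 = 1 := by
  have three : ∀ a b c : α, a ≠ b → a ≠ c → b ≠ c → (Equiv.swap a b * Equiv.swap a c) ^ 3 = 1 := by
    intro a b c hab hac hbc
    have h := (Equiv.Perm.isThreeCycle_swap_mul_swap_same hab hac hbc).orderOf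
    rw [← h]; exact pow_orderOf_eq_one _
  by_cases hik : i = k
  · subst hik
    by_cases hjl : j = l
    · subst hjl
      left; simp
    · right; exact three i j l hij hkl hjl
  by_cases hil : i = l
  · subst hil
    by_cases hjk : j = k
    · subst hjk
      left; rw [Equiv.swap_comm j i]; simp
    · right; rw [Equiv.swap_comm k i]; exact three i j k hij (Ne.symm hkl) hjk
  by_cases hjk : j = k
  · subst hjk
    right; rw [Equiv.swap_comm i j]; exact three j i l (Ne.symm hij) hkl hil
  by_cases hjl : j = l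
  · subst hjl
    right; rw [Equiv.swap_comm i j, Equiv.swap_comm k j]; exact three j i k (Ne.symm hij) (Ne.symm hkl) hik
  left
  have hd : Equiv.Perm.Disjoint (Equiv.swap i j) (Equiv.swap k l) := by
    rw [Equiv.Perm.disjoint_iff_disjoint_support, Equiv.Perm.support_swap hij, Equiv.Perm.support_swap hkl]
    simp only [Finset.disjoint_insert_left, Finset.disjoint_singleton_left, Finset.mem_insert,
      Finset.mem_singleton, not_or]
    exact ⟨⟨hik, hil⟩, hjk, hjl⟩
  have hc : Commute (Equiv.swap i j) (Equiv.swap k l) := hd.commute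
  rw [hc.mul_pow]; simp [pow_two]

/-- In the symmetric group of degree n ≥ 2, the set of transpositions is a conjugacy class of 3-transpositions which generates the group. -/
theorem result (n : ℕ) (hn : 2 ≤ n) : Cfsg.IsThreeTranspositionClass {σ : Equiv.Perm (Fin n) | σ.IsSwap} := by
  refine ⟨⟨?_, ?_⟩, ?_, ?_⟩
  · intro d hd
    exact Equiv.Perm.IsSwap.orderOf hd
  · rintro d ⟨i, j, hij, rfl⟩ e ⟨k, l, hkl, rfl⟩
    exact swap_mul_swap_pow i j k l hij hkl
  · have h01 : (⟨0, by omega⟩ : Fin n) ≠ ⟨1, by omega⟩ := by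
      intro h; simp [Fin.ext_iff] at h
    refine ⟨Equiv.swap ⟨0, by omega⟩ ⟨1, by omega⟩, ⟨_, _, h01, rfl⟩, ?_⟩
    ext σ
    constructor
    · rintro ⟨k, l, hkl, rfl⟩
      exact Equiv.Perm.isConj_swap h01 hkl
    · intro h
      have h' : IsConj (Equiv.swap (⟨0, by omega⟩ : Fin n) ⟨1, by omega⟩) σ := h
      rw [isConj_iff] at h'
      obtain ⟨c, hc⟩ := h'
      show σ.IsSwap
      rw [← Equiv.Perm.card_support_eq_two, ← hc, Equiv.Perm.card_support_conj,
        Equiv.Perm.card_support_eq_two]
      exact ⟨_, _, h01, rfl⟩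
  · exact Equiv.Perm.closure_isSwap

end Cfsg.Agent.S0439
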