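import Cfsg.Statements.S0440
import Cfsg.Agent.H17.SympGen

set_option autoImplicit false
open Cfsg

namespace Cfsg.Agent.S0440

section helpers

open Matrix Cfsg.Agent.H17

variable (n : ℕ)

theorem z2_cases (c : ZMod 2) : c = 0 ∨ c = 1 := by
  revert c; decide

theorem z2_neg (c : ZMod 2) : -c = c := by
  revert c; decide

theorem z2_add_self (c : ZMod 2) : c + c = 0 := by
  revert c; decide

/-- the form is symmetric over `ZMod 2` -/
theorem form_symm (u v : Fin n ⊕ Fin n → ZMod 2) :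
    Cfsg.sympForm n (ZMod 2) u v = Cfsg.sympForm n (ZMod 2) v u := by
  rw [sympForm_swap, z2_neg]

/-- nondegeneracy -/
theorem form_nondeg {v : Fin n ⊕ Fin n → ZMod 2} (hv : v ≠ 0) :
    ∃ x, Cfsg.sympForm n (ZMod 2) x v = 1 := by
  have hJ : Matrix.J (Fin n) (ZMod 2) *ᵥ v ≠ 0 := by
    intro h
    apply hv
    have h2 : Matrix.J (Fin n) (ZMod 2) *ᵥ (Matrix.J (Fin n) (ZMod 2) *ᵥ v) = 0 := by
      rw [h, Matrix.mulVec_zero]
    rw [Matrix.mulVec_mulVec, Matrix.J_squared, Matrix.neg_mulVec, Matrix.one_mulVec,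
      neg_eq_zero] at h2
    exact h2
  obtain ⟨i, hi⟩ : ∃ i, (Matrix.J (Fin n) (ZMod 2) *ᵥ v) i ≠ 0 := by
    by_contra h
    push Not at h
    exact hJ (funext h)
  refine ⟨Pi.single i 1, ?_⟩
  unfold Cfsg.sympForm
  rw [single_one_dotProduct]
  rcases z2_cases ((Matrix.J (Fin n) (ZMod 2) *ᵥ v) i) with h | h
  · exact absurd h hi
  · exact h

/-- The transvection attached to `v`, as an element of the symplectic group. -/
noncomputable def T (v : Fin n ⊕ Fin n → ZMod 2) : Matrix.symplecticGroup (Fin n) (ZMod 2) :=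
  spTransv n v 1

theorem T_coe (v : Fin n ⊕ Fin n → ZMod 2) :
    ((T n v : Matrix.symplecticGroup (Fin n) (ZMod 2)) :
      Matrix (Fin n ⊕ Fin n) (Fin n ⊕ Fin n) (ZMod 2)) = Cfsg.sympTransvection n v 1 := rfl

theorem T_mulVec (v x : Fin n ⊕ Fin n → ZMod 2) :
    ((T n v : Matrix.symplecticGroup (Fin n) (ZMod 2)) :
      Matrix (Fin n ⊕ Fin n) (Fin n ⊕ Fin n) (ZMod 2)) *ᵥ x =
      x + Cfsg.sympForm n (ZMod 2) x v • v := by
  rw [T_coe, sympTransvection_mulVec, one_mul]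

theorem T_mul_self (v : Fin n ⊕ Fin n → ZMod 2) : T n v * T n v = 1 := by
  apply Subtype.ext
  rw [Submonoid.coe_mul, T_coe, sympTransvection_mul, z2_add_self, sympTransvection_zero]
  rfl

theorem T_ne_one {v : Fin n ⊕ Fin n → ZMod 2} (hv : v ≠ 0) : T n v ≠ 1 := by
  intro h
  obtain ⟨x, hx⟩ := form_nondeg n hv
  have h1 := T_mulVec n v x
  rw [h, hx, one_smul] at h1
  have h2 : ((1 : Matrix.symplecticGroup (Fin n) (ZMod 2)) :
      Matrix (Fin n ⊕ Fin n) (Fin n ⊕ Fin n) (ZMod 2)) *ᵥ x = x := by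
    rw [Submonoid.coe_one, Matrix.one_mulVec]
  rw [h2] at h1
  exact hv (by simpa using h1)

theorem T_inv (v : Fin n ⊕ Fin n → ZMod 2) : (T n v)⁻¹ = T n v :=
  inv_eq_of_mul_eq_one_left (T_mul_self n v)

/-- conjugation of transvections -/
theorem T_conj (g : Matrix.symplecticGroup (Fin n) (ZMod 2)) (v : Fin n ⊕ Fin n → ZMod 2) :
    g * T n v * g⁻¹ =
      T n ((g : Matrix (Fin n ⊕ Fin n) (Fin n ⊕ Fin n) (ZMod 2)) *ᵥ v) := by
  apply Subtype.ext
  apply matrix_ext_mulVec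
  intro x
  rw [Submonoid.coe_mul, Submonoid.coe_mul, ← Matrix.mulVec_mulVec, ← Matrix.mulVec_mulVec,
    T_mulVec, T_mulVec, Matrix.mulVec_add, Matrix.mulVec_smul, sp_inv_mulVec]
  congr 2
  have := sp_form n g ((g⁻¹ : Matrix.symplecticGroup (Fin n) (ZMod 2)) *ᵥ x) v
  rw [sp_inv_mulVec] at this
  exact this.symm

theorem T_prod (u v : Fin n ⊕ Fin n → ZMod 2) :
    (T n u * T n v) ^ 2 = 1 ∨ (T n u * T n v) ^ 3 = 1 := by
  have he := T_mul_self n v
  have h1 := T_conj n (T n u) v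
  have h2 := T_conj n (T n v) u
  rw [T_inv, T_mulVec] at h1 h2
  rcases z2_cases (Cfsg.sympForm n (ZMod 2) u v) with h | h
  · left
    rw [form_symm n v u, h, zero_smul, add_zero] at h1
    rw [pow_two, ← mul_assoc, h1, he]
  · right
    rw [form_symm n v u, h, one_smul, add_comm] at h1
    rw [h, one_smul] at h2
    have hf := T_mul_self n (u + v)
    have : (T n u * T n v) ^ 3 = (T n u * T n v * T n u) * (T n v * T n u * T n v) := by
      rw [pow_succ, pow_two]
      simp only [mul_assoc]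
    rw [this, h1, h2, hf]

/-- transitivity of the symplectic group on nonzero vectors -/
theorem exists_sp_mulVec {u v : Fin n ⊕ Fin n → ZMod 2} (hu : u ≠ 0) (hv : v ≠ 0) :
    ∃ g : Matrix.symplecticGroup (Fin n) (ZMod 2),
      (g : Matrix (Fin n ⊕ Fin n) (Fin n ⊕ Fin n) (ZMod 2)) *ᵥ u = v := by
  have step : ∀ x y : Fin n ⊕ Fin n → ZMod 2, Cfsg.sympForm n (ZMod 2) x y ≠ 0 →
      ∃ g : Matrix.symplecticGroup (Fin n) (ZMod 2),
        (g : Matrix (Fin n ⊕ Fin n) (Fin n ⊕ Fin n) (ZMod 2)) *ᵥ x = y := by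
    intro x y hxy
    obtain ⟨A, -, hA, -⟩ := transv_step n (⊤ : Submodule (ZMod 2) (Fin n ⊕ Fin n → ZMod 2)) x y
      trivial trivial hxy
    exact ⟨A, hA⟩
  obtain ⟨w, hw1, hw2⟩ : ∃ w, Cfsg.sympForm n (ZMod 2) u w ≠ 0 ∧
      Cfsg.sympForm n (ZMod 2) w v ≠ 0 := by
    obtain ⟨x, hx⟩ := form_nondeg n hu
    obtain ⟨y, hy⟩ := form_nondeg n hv
    have hux : Cfsg.sympForm n (ZMod 2) u x = 1 := by rw [form_symm]; exact hx
    by_cases h1 : Cfsg.sympForm n (ZMod 2) x v = 0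
    · by_cases h2 : Cfsg.sympForm n (ZMod 2) u y = 0
      · refine ⟨x + y, ?_, ?_⟩
        · rw [sympForm_add_right, hux, h2, add_zero]
          exact one_ne_zero
        · rw [sympForm_add_left, h1, hy, zero_add]
          exact one_ne_zero
      · exact ⟨y, h2, by rw [hy]; exact one_ne_zero⟩
    · exact ⟨x, by rw [hux]; exact one_ne_zero, h1⟩
  obtain ⟨g₁, hg₁⟩ := step u w hw1
  obtain ⟨g₂, hg₂⟩ := step w v hw2
  refine ⟨g₂ * g₁, ?_⟩
  rw [Submonoid.coe_mul, ← Matrix.mulVec_mulVec, hg₁, hg₂]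

/-- rank one matrices are outer products -/
theorem exists_vecMulVec_of_rank_one {ι : Type*} [Fintype ι] [DecidableEq ι] {K : Type*} [Field K]
    (M : Matrix ι ι K) (h : M.rank = 1) : ∃ u w : ι → K, M = Matrix.vecMulVec u w := by
  have h1 : Module.finrank K (LinearMap.range M.mulVecLin) = 1 := h
  obtain ⟨u, -, hu⟩ := finrank_eq_one_iff'.1 h1
  have : ∀ j, ∃ c : K, c • (u : ι → K) = M *ᵥ Pi.single j 1 := by
    intro j
    obtain ⟨c, hc⟩ := hu ⟨M *ᵥ Pi.single j 1, ⟨Pi.single j 1, rfl⟩⟩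
    exact ⟨c, congrArg Subtype.val hc⟩
  choose w hw using this
  refine ⟨u, w, ?_⟩
  ext i j
  have := congrFun (hw j) i
  rw [Matrix.mulVec_single_one] at this
  rw [Matrix.vecMulVec_apply]
  simp only [Pi.smul_apply, smul_eq_mul, Matrix.col_apply] at this
  rw [mul_comm, this]

theorem eq_zero_of_rank_eq_zero {ι : Type*} [Fintype ι] [DecidableEq ι] {K : Type*} [Field K]
    (M : Matrix ι ι K) (h : M.rank = 0) : M = 0 := by
  have h1 : Module.finrank K (LinearMap.range M.mulVecLin) = 0 := h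
  rw [Submodule.finrank_eq_zero, LinearMap.range_eq_bot] at h1
  ext i j
  have := congrFun (LinearMap.congr_fun h1 (Pi.single j 1)) i
  simpa [Matrix.mulVec_single_one] using this

theorem eq_T_of_rank_one (g : Matrix.symplecticGroup (Fin n) (ZMod 2))
    (h : ((g : Matrix (Fin n ⊕ Fin n) (Fin n ⊕ Fin n) (ZMod 2)) - 1).rank = 1) :
    ∃ v, v ≠ 0 ∧ g = T n v := by
  obtain ⟨u, w, huw⟩ := exists_vecMulVec_of_rank_one _ h
  have hg : ∀ x, (g : Matrix (Fin n ⊕ Fin n) (Fin n ⊕ Fin n) (ZMod 2)) *ᵥ x =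
      x + (w ⬝ᵥ x) • u := by
    intro x
    have h1 : (g : Matrix (Fin n ⊕ Fin n) (Fin n ⊕ Fin n) (ZMod 2)) =
        1 + Matrix.vecMulVec u w := by rw [← huw]; abel
    rw [h1, Matrix.add_mulVec, Matrix.one_mulVec, Matrix.vecMulVec_mulVec]
    congr 1
    ext i
    simp [mul_comm]
  have hM0 : Matrix.vecMulVec u w ≠ 0 := by
    intro h0
    rw [huw, h0, Matrix.rank_zero] at h
    exact zero_ne_one h
  have hu0 : u ≠ 0 := by
    rintro rfl
    apply hM0
    ext i j
    simp [Matrix.vecMulVec_apply]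
  have hw0 : w ≠ 0 := by
    rintro rfl
    apply hM0
    ext i j
    simp [Matrix.vecMulVec_apply]
  obtain ⟨j, hj⟩ : ∃ j, w j ≠ 0 := by
    by_contra hcon
    push Not at hcon
    exact hw0 (funext hcon)
  have hy₀ : w ⬝ᵥ Pi.single j 1 = 1 := by
    rw [dotProduct_single_one]
    rcases z2_cases (w j) with h0 | h1
    · exact absurd h0 hj
    · exact h1
  have key : ∀ x y, (w ⬝ᵥ y) * Cfsg.sympForm n (ZMod 2) x u =
      (w ⬝ᵥ x) * Cfsg.sympForm n (ZMod 2) y u := by
    intro x y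
    have h1 := sp_form n g x y
    rw [hg x, hg y] at h1
    simp only [sympForm_add_left, sympForm_add_right, sympForm_smul_left, sympForm_smul_right,
      sympForm_self, mul_zero, add_zero] at h1
    rw [form_symm n u y] at h1
    have h2 : (w ⬝ᵥ y) * Cfsg.sympForm n (ZMod 2) x u +
        (w ⬝ᵥ x) * Cfsg.sympForm n (ZMod 2) y u = 0 := by
      linear_combination h1
    calc (w ⬝ᵥ y) * Cfsg.sympForm n (ZMod 2) x u
        = (w ⬝ᵥ y) * Cfsg.sympForm n (ZMod 2) x u + ((w ⬝ᵥ y) * Cfsg.sympForm n (ZMod 2) x u +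
          (w ⬝ᵥ x) * Cfsg.sympForm n (ZMod 2) y u) := by rw [h2, add_zero]
      _ = (w ⬝ᵥ x) * Cfsg.sympForm n (ZMod 2) y u := by
          rw [← add_assoc, z2_add_self, zero_add]
  have hBu : ∀ x, Cfsg.sympForm n (ZMod 2) x u =
      (w ⬝ᵥ x) * Cfsg.sympForm n (ZMod 2) (Pi.single j 1) u := by
    intro x
    have := key x (Pi.single j 1)
    rw [hy₀, one_mul] at this
    exact this
  have hB1 : Cfsg.sympForm n (ZMod 2) (Pi.single j 1) u = 1 := by
    rcases z2_cases (Cfsg.sympForm n (ZMod 2) (Pi.single j 1) u) with h0 | h1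
    · exfalso
      obtain ⟨x, hx⟩ := form_nondeg n hu0
      rw [hBu x, h0, mul_zero] at hx
      exact zero_ne_one hx
    · exact h1
  refine ⟨u, hu0, ?_⟩
  apply Subtype.ext
  apply matrix_ext_mulVec
  intro x
  rw [hg x, T_mulVec, hBu x, hB1, mul_one]

theorem mem_D_iff (g : Matrix.symplecticGroup (Fin n) (ZMod 2)) :
    ((g : Matrix (Fin n ⊕ Fin n) (Fin n ⊕ Fin n) (ZMod 2)) - 1).rank = 1 ↔
      ∃ v, v ≠ 0 ∧ g = T n v := by
  constructor
  · exact eq_T_of_rank_one n g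
  · rintro ⟨v, hv, rfl⟩
    have h1 : ((T n v : Matrix.symplecticGroup (Fin n) (ZMod 2)) :
        Matrix (Fin n ⊕ Fin n) (Fin n ⊕ Fin n) (ZMod 2)) - 1 =
        Matrix.vecMulVec v (Matrix.J (Fin n) (ZMod 2) *ᵥ v) := by
      rw [T_coe]
      unfold Cfsg.sympTransvection
      rw [one_smul, add_sub_cancel_left]
    apply le_antisymm
    · rw [h1]
      exact Matrix.rank_vecMulVec_le _ _
    · rw [Nat.one_le_iff_ne_zero]
      intro h0
      have h2 := eq_zero_of_rank_eq_zero _ h0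
      apply T_ne_one n hv
      apply Subtype.ext
      rw [Submonoid.coe_one]
      exact sub_eq_zero.1 h2

theorem main (hn : 1 ≤ n) : Cfsg.IsThreeTranspositionClass
    {g : Matrix.symplecticGroup (Fin n) (ZMod 2) | ∃ v, v ≠ 0 ∧ g = T n v} := by
  refine ⟨⟨?_, ?_⟩, ?_, ?_⟩
  · rintro d ⟨v, hv, rfl⟩
    exact orderOf_eq_prime (by rw [pow_two]; exact T_mul_self n v) (T_ne_one n hv)
  · rintro d ⟨u, hu, rfl⟩ e ⟨v, hv, rfl⟩
    exact T_prod n u v
  · have hv₀ : (Pi.single (Sum.inl ⟨0, hn⟩) 1 : Fin n ⊕ Fin n → ZMod 2) ≠ 0 := by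
      intro h
      have := congrFun h (Sum.inl ⟨0, hn⟩)
      simp at this
    refine ⟨T n (Pi.single (Sum.inl ⟨0, hn⟩) 1), ⟨_, hv₀, rfl⟩, ?_⟩
    ext g
    change (∃ v, v ≠ 0 ∧ g = T n v) ↔ IsConj (T n (Pi.single (Sum.inl ⟨0, hn⟩) 1)) g
    rw [isConj_iff]
    constructor
    · rintro ⟨v, hv, rfl⟩
      obtain ⟨c, hc⟩ := exists_sp_mulVec n hv₀ hv
      exact ⟨c, by rw [T_conj, hc]⟩
    · rintro ⟨c, rfl⟩
      refine ⟨_, ?_, T_conj n c _⟩
      intro h
      apply hv₀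
      have := sp_inv_mulVec' n c (Pi.single (Sum.inl ⟨0, hn⟩) 1)
      rw [h, Matrix.mulVec_zero] at this
      exact this.symm
  · rw [eq_top_iff, ← closure_transvSet_top n (F := ZMod 2)]
    apply (Subgroup.closure_le _).2
    rintro A ⟨w, -, c, hA⟩
    rcases z2_cases c with rfl | rfl
    · have : A = 1 := Subtype.ext (by rw [hA, sympTransvection_zero]; rfl)
      rw [this]
      exact Subgroup.one_mem _
    · by_cases hw : w = 0
      · have : A = 1 := by
          apply Subtype.ext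
          rw [hA, hw]
          unfold Cfsg.sympTransvection
          simp
        rw [this]
        exact Subgroup.one_mem _
      · apply Subgroup.subset_closure
        exact ⟨w, hw, Subtype.ext hA⟩

end helpers

/-- In the symplectic group in dimension 2n ≥ 2 over the field with two elements, the elements g for which g - 1 has rank one (the symplectic transvections) form a conjugacy class of 3-transpositions generating the group. -/
theorem result (n : ℕ) (hn : 1 ≤ n) : Cfsg.IsThreeTranspositionClass {g : Matrix.symplecticGroup (Fin n) (ZMod 2) | ((g : Matrix (Fin n ⊕ Fin n) (Fin n ⊕ Fin n) (ZMod 2)) - 1).rank = 1} := by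
  have hD : {g : Matrix.symplecticGroup (Fin n) (ZMod 2) |
      ((g : Matrix (Fin n ⊕ Fin n) (Fin n ⊕ Fin n) (ZMod 2)) - 1).rank = 1} =
      {g : Matrix.symplecticGroup (Fin n) (ZMod 2) | ∃ v, v ≠ 0 ∧ g = T n v} := by
    ext g
    exact mem_D_iff n g
  rw [hD]
  exact main n hn

end Cfsg.Agent.S0440
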