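-- Statement S0442 (helper10).
import Cfsg.Statements.S0442

set_option autoImplicit false
open Cfsg

namespace Cfsg.Agent.S0442

theorem invol_conj_pow {G : Type*} [Group G] {a c : G} (ha : a * a = 1) (hc : c * c = 1) (k : ℕ) :
    (a * c) ^ k * a = a * ((a * c) ^ k)⁻¹ := by
  have hai : a⁻¹ = a := inv_eq_of_mul_eq_one_left ha
  have hci : c⁻¹ = c := inv_eq_of_mul_eq_one_left hc
  have h1 : a * (a * c) * a⁻¹ = (a * c)⁻¹ := by
    rw [mul_inv_rev, hai, hci, ← mul_assoc, ha, one_mul]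
  have h2 : a * (a * c) ^ k * a⁻¹ = ((a * c) ^ k)⁻¹ := by
    rw [← conj_pow, h1, inv_pow]
  rw [← h2, hai]
  simp only [mul_assoc]
  rw [← mul_assoc a a, ha, one_mul]

theorem commute_pow_of_even {G : Type*} [Group G] {a c : G} (ha : a * a = 1) (hc : c * c = 1) (m : ℕ)
    (h : (a * c) ^ (2 * m) = 1) : Commute ((a * c) ^ m) a := by
  have h1 : ((a * c) ^ m)⁻¹ = (a * c) ^ m := by
    apply inv_eq_of_mul_eq_one_left
    rw [← pow_add, ← two_mul, h]
  show (a * c) ^ m * a = a * (a * c) ^ m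
  rw [invol_conj_pow ha hc, h1]

/-- A standard trick for producing elements of an involution centraliser: for an involution a and an element g, let b be the conjugate g⁻¹ * a * g. If a * b has odd order 2m + 1 then g * (a * b) ^ m commutes with a; if a * b has even order 2m then (a * b) ^ m and (a * (g * a * g⁻¹)) ^ m commute with a. -/
theorem result {G : Type*} [Group G] (a g : G) (ha : orderOf a = 2) : (∀ m : ℕ, orderOf (a * (g⁻¹ * a * g)) = 2 * m + 1 → Commute (g * (a * (g⁻¹ * a * g)) ^ m) a) ∧ (∀ m : ℕ, orderOf (a * (g⁻¹ * a * g)) = 2 * m → Commute ((a * (g⁻¹ * a * g)) ^ m) a ∧ Commute ((a * (g * a * g⁻¹)) ^ m) a) := by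
  have ha2 : a * a = 1 := by rw [← pow_two, ← ha, pow_orderOf_eq_one]
  have hai : a⁻¹ = a := inv_eq_of_mul_eq_one_left ha2
  have hb2 : (g⁻¹ * a * g) * (g⁻¹ * a * g) = 1 := by
    simp only [mul_assoc, mul_inv_cancel_left]
    rw [← mul_assoc a a, ha2, one_mul, inv_mul_cancel]
  have hc2 : (g * a * g⁻¹) * (g * a * g⁻¹) = 1 := by
    simp only [mul_assoc, inv_mul_cancel_left]
    rw [← mul_assoc a a, ha2, one_mul, mul_inv_cancel]
  constructor
  · intro m hm
    set u := a * (g⁻¹ * a * g) with hu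
    have hu1 : u ^ (2 * m + 1) = 1 := by rw [← hm]; exact pow_orderOf_eq_one _
    have key1 : u ^ m * a = a * (u ^ m)⁻¹ := invol_conj_pow ha2 hb2 m
    have key2 : u ^ m * u ^ m = u⁻¹ := by
      symm
      apply inv_eq_of_mul_eq_one_left
      rw [← pow_add, ← two_mul, ← pow_succ, hu1]
    have key3 : a * g * u⁻¹ = g * a := by
      rw [hu, mul_inv_rev, mul_inv_rev, mul_inv_rev, inv_inv, hai]
      simp only [mul_assoc, mul_inv_cancel_left]
      rw [← mul_assoc a a, ha2, one_mul]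
    show g * u ^ m * a = a * (g * u ^ m)
    calc g * u ^ m * a = g * (u ^ m * a) := by rw [mul_assoc]
      _ = g * a * (u ^ m)⁻¹ := by rw [key1, mul_assoc]
      _ = a * g * u⁻¹ * (u ^ m)⁻¹ := by rw [key3]
      _ = a * g * (u ^ m * u ^ m) * (u ^ m)⁻¹ := by rw [key2]
      _ = a * (g * u ^ m) := by simp only [mul_assoc, mul_inv_cancel, mul_one]
  · intro m hm
    have hu1 : (a * (g⁻¹ * a * g)) ^ (2 * m) = 1 := by rw [← hm]; exact pow_orderOf_eq_one _
    refine ⟨commute_pow_of_even ha2 hb2 m hu1, commute_pow_of_even ha2 hc2 m ?_⟩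
    have hv : a * (g * a * g⁻¹) = g * (a * (g⁻¹ * a * g))⁻¹ * g⁻¹ := by
      rw [mul_inv_rev, mul_inv_rev, mul_inv_rev, inv_inv, hai]
      simp only [mul_assoc, mul_inv_cancel_left]
    rw [hv, conj_pow, inv_pow, hu1]
    simp

end Cfsg.Agent.S0442
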