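-- Statement S0443 (helper10).
import Cfsg.Statements.S0443

set_option autoImplicit false
open Cfsg

namespace Cfsg.Agent.S0443

/-- Two definitions of a 2-central involution agree: an element t of order 2 of a finite group lies in the centre of some Sylow 2-subgroup if and only if its centraliser contains some Sylow 2-subgroup. -/
theorem result {G : Type*} [Group G] [Finite G] (t : G) (ht : orderOf t = 2) : Cfsg.IsTwoCentralInvolution t ↔ ∃ P : Sylow 2 G, (P : Subgroup G) ≤ Subgroup.centralizer ({t} : Set G) := by
  constructor
  · rintro ⟨-, P, -, hP⟩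
    refine ⟨P, fun x hx => ?_⟩
    rw [Subgroup.mem_centralizer_iff]
    intro h hh
    rw [Set.mem_singleton_iff] at hh
    subst hh
    exact (hP x hx).symm
  · rintro ⟨P, hP⟩
    refine ⟨ht, P, ?_, ?_⟩
    · haveI : Fact (Nat.Prime 2) := ⟨Nat.prime_two⟩
      have hz : IsPGroup 2 (Subgroup.zpowers t) := by
        apply IsPGroup.of_card (n := 1)
        rw [Nat.card_zpowers, ht, pow_one]
      have hle : (P : Subgroup G) ≤ Subgroup.normalizer ((Subgroup.zpowers t : Subgroup G) : Set G) := by
        refine hP.trans ((Subgroup.centralizer_le_normalizer _).trans ?_)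
        rw [Subgroup.zpowers_eq_closure]
        exact Subgroup.normalizer_le_normalizer_closure _
      have hsup : IsPGroup 2 ((P : Subgroup G) ⊔ Subgroup.zpowers t : Subgroup G) :=
        IsPGroup.to_sup_of_normal_right' P.isPGroup' hz hle
      have heq := P.is_maximal' hsup le_sup_left
      have : t ∈ ((P : Subgroup G) ⊔ Subgroup.zpowers t : Subgroup G) :=
        (le_sup_right : Subgroup.zpowers t ≤ _) (Subgroup.mem_zpowers t)
      rw [heq] at this
      exact this
    · intro x hx
      have := hP hx
      rw [Subgroup.mem_centralizer_iff] at this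
      exact (this t (Set.mem_singleton t)).symm

end Cfsg.Agent.S0443
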