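-- Statement S0444 (helper10).
import Cfsg.Statements.S0444
import Cfsg.Agent.H10.ThreeTransp
import Cfsg.Agent.H10.Dihedral

set_option autoImplicit false
open Cfsg

namespace Cfsg.Agent.S0444

/-- Two members of a set of 3-transpositions which do not commute generate a subgroup isomorphic to the symmetric group on three letters. -/
theorem result {G : Type*} [Group G] {E : Set G} (hE : Cfsg.IsThreeTranspositionSet E) {d e : G} (hd : d ∈ E) (he : e ∈ E) (h : ¬ Commute d e) : Nonempty (Subgroup.closure ({d, e} : Set G) ≃* Equiv.Perm (Fin 3)) := by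
  have hd2 := Cfsg.Agent.H10.tts_mul_self hE hd
  have he2 := Cfsg.Agent.H10.tts_mul_self hE he
  have h3 : (d * e) ^ 3 = 1 := by
    rcases hE.2 d hd e he with h2 | h3
    · exact absurd (Cfsg.Agent.H10.commute_of_sq_mul hd2 he2 h2) h
    · exact h3
  obtain ⟨φ⟩ := Cfsg.Agent.H10.nonempty_dihedral3_equiv_closure hd2 he2 h3 h
  obtain ⟨ψ⟩ := Cfsg.Agent.H10.nonempty_dihedral3_equiv_perm
  exact ⟨φ.symm.trans ψ⟩

end Cfsg.Agent.S0444
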