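-- Statement S0445 (helper10).
import Cfsg.Statements.S0445
import Mathlib

set_option autoImplicit false
open Cfsg

namespace Cfsg.Agent.S0445

open Matrix

/-- the 3×3 lower-right block -/
def blk (g : Matrix (Fin 5) (Fin 5) (ZMod 2)) : Matrix (Fin 3) (Fin 3) (ZMod 2) :=
  g.submatrix (fun i => i.succ.succ) (fun j => j.succ.succ)

theorem det_col_zero {n : ℕ} (g : Matrix (Fin (n + 1)) (Fin (n + 1)) (ZMod 2))
    (h0 : ∀ i : Fin n, g i.succ 0 = 0) :
    g.det = g 0 0 * (g.submatrix Fin.succ Fin.succ).det := by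
  rw [Matrix.det_succ_column_zero, Fin.sum_univ_succ]
  have hz : ∑ i : Fin n, (-1 : ZMod 2) ^ (i.succ : ℕ) * g i.succ 0 *
      (g.submatrix i.succ.succAbove Fin.succ).det = 0 := by
    apply Finset.sum_eq_zero
    intro i _
    rw [h0 i, mul_zero, zero_mul]
  rw [hz, add_zero, Fin.val_zero, pow_zero, one_mul, Fin.succAbove_zero]

theorem det_row_zero {n : ℕ} (g : Matrix (Fin (n + 1)) (Fin (n + 1)) (ZMod 2))
    (h0 : ∀ j : Fin n, g 0 j.succ = 0) :
    g.det = g 0 0 * (g.submatrix Fin.succ Fin.succ).det := by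
  rw [Matrix.det_succ_row_zero, Fin.sum_univ_succ]
  have hz : ∑ j : Fin n, (-1 : ZMod 2) ^ (j.succ : ℕ) * g 0 j.succ *
      (g.submatrix Fin.succ j.succ.succAbove).det = 0 := by
    apply Finset.sum_eq_zero
    intro j _
    rw [h0 j, mul_zero, zero_mul]
  rw [hz, add_zero, Fin.val_zero, pow_zero, one_mul, Fin.succAbove_zero]

theorem det_eq_blk (g : Matrix (Fin 5) (Fin 5) (ZMod 2)) (h0 : ∀ i : Fin 4, g i.succ 0 = 0)
    (h1 : ∀ j : Fin 3, g 1 j.succ.succ = 0) :
    g.det = g 0 0 * (g 1 1 * (blk g).det) := by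
  rw [det_col_zero g h0, det_row_zero (g.submatrix Fin.succ Fin.succ) h1]
  rfl

theorem mem_centralizer_iff' (s g : Matrix.SpecialLinearGroup (Fin 5) (ZMod 2))
    (hs : (s : Matrix (Fin 5) (Fin 5) (ZMod 2)) = Matrix.transvection 0 1 1) :
    g ∈ Subgroup.centralizer ({s} : Set (Matrix.SpecialLinearGroup (Fin 5) (ZMod 2))) ↔
      ((∀ i : Fin 4, g.1 i.succ 0 = 0) ∧ (∀ j : Fin 3, g.1 1 j.succ.succ = 0) ∧
        g.1 0 0 = g.1 1 1) := by
  rw [Subgroup.mem_centralizer_iff]
  have key : (∀ h ∈ ({s} : Set (Matrix.SpecialLinearGroup (Fin 5) (ZMod 2))), h * g = g * h) ↔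
      (Matrix.single (0 : Fin 5) (1 : Fin 5) (1 : ZMod 2)) * g.1 = g.1 * Matrix.single (0 : Fin 5) (1 : Fin 5) (1 : ZMod 2) := by
    constructor
    · intro h
      have h1 := h s (Set.mem_singleton s)
      have h2 : (s : Matrix (Fin 5) (Fin 5) (ZMod 2)) * g.1 = g.1 * s.1 := by
        have := congrArg (fun x : Matrix.SpecialLinearGroup (Fin 5) (ZMod 2) => (x : Matrix (Fin 5) (Fin 5) (ZMod 2))) h1
        simpa using this
      rw [hs, Matrix.transvection, add_mul, mul_add, one_mul, mul_one] at h2
      exact add_left_cancel h2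
    · intro h x hx
      rw [Set.mem_singleton_iff] at hx
      subst hx
      apply Subtype.ext
      show (x : Matrix (Fin 5) (Fin 5) (ZMod 2)) * g.1 = g.1 * x.1
      rw [hs, Matrix.transvection, add_mul, mul_add, one_mul, mul_one, h]
  rw [key]
  constructor
  · intro h
    refine ⟨fun i => ?_, fun j => ?_, ?_⟩
    · have := congrFun (congrFun h i.succ) 1
      rw [Matrix.single_mul_apply_of_ne _ _ _ _ _ (Fin.succ_ne_zero i), Matrix.mul_single_apply_same, mul_one] at this
      exact this.symm
    · have := congrFun (congrFun h 0) j.succ.succ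
      rw [Matrix.single_mul_apply_same, one_mul, Matrix.mul_single_apply_of_ne] at this
      · exact this
      · intro h'
        have := congrArg Fin.val h'
        simp at this
    · have := congrFun (congrFun h 0) 1
      rw [Matrix.single_mul_apply_same, one_mul, Matrix.mul_single_apply_same, mul_one] at this
      exact this.symm
  · rintro ⟨h0, h1, h2⟩
    ext i j
    by_cases hi : i = 0
    · subst hi
      rw [Matrix.single_mul_apply_same, one_mul]
      by_cases hj : j = 1
      · subst hj
        rw [Matrix.mul_single_apply_same, mul_one, h2]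
      · rw [Matrix.mul_single_apply_of_ne _ _ _ _ _ hj]
        revert hj
        refine Fin.cases ?_ (fun j' => ?_) j
        · intro _; exact h0 0
        · refine Fin.cases ?_ (fun j'' => ?_) j'
          · intro h; exact absurd rfl h
          · intro _; exact h1 j''
    · rw [Matrix.single_mul_apply_of_ne _ _ _ _ _ hi]
      by_cases hj : j = 1
      · subst hj
        rw [Matrix.mul_single_apply_same, mul_one]
        obtain ⟨i', rfl⟩ := Fin.exists_succ_eq.mpr hi
        exact (h0 i').symm
      · rw [Matrix.mul_single_apply_of_ne _ _ _ _ _ hj]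

/-- the matrix built from a row, a column and a 3×3 block -/
def build (r : Fin 4 → ZMod 2) (c : Fin 3 → ZMod 2) (M : Matrix (Fin 3) (Fin 3) (ZMod 2)) :
    Matrix (Fin 5) (Fin 5) (ZMod 2) :=
  Matrix.of fun i j =>
    Fin.cases (motive := fun _ => ZMod 2) (Fin.cases (motive := fun _ => ZMod 2) 1 r j)
      (fun i' : Fin 4 => Fin.cases (motive := fun _ => ZMod 2)
        (Fin.cases (motive := fun _ => ZMod 2) 0
          (fun j' : Fin 4 => Fin.cases (motive := fun _ => ZMod 2) 1 (fun _ => 0) j') j)
        (fun i'' : Fin 3 => Fin.cases (motive := fun _ => ZMod 2) 0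
          (fun j' : Fin 4 => Fin.cases (motive := fun _ => ZMod 2) (c i'') (fun j'' => M i'' j'') j') j)
        i')
      i

variable (r : Fin 4 → ZMod 2) (c : Fin 3 → ZMod 2) (M : Matrix (Fin 3) (Fin 3) (ZMod 2))

theorem build_zero_zero : build r c M 0 0 = 1 := rfl
theorem build_zero_succ (j : Fin 4) : build r c M 0 j.succ = r j := by
  simp [build]
theorem build_one_zero : build r c M 1 0 = 0 := rfl
theorem build_one_one : build r c M 1 1 = 1 := rfl
theorem build_one_succ_succ (j : Fin 3) : build r c M 1 j.succ.succ = 0 := by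
  show build r c M (Fin.succ 0) j.succ.succ = 0
  simp only [build, Matrix.of_apply, Fin.cases_succ, Fin.cases_zero]
theorem build_succ_succ_zero (i : Fin 3) : build r c M i.succ.succ 0 = 0 := by
  simp [build]
theorem build_succ_succ_one (i : Fin 3) : build r c M i.succ.succ 1 = c i := by
  show build r c M i.succ.succ (Fin.succ 0) = c i
  simp only [build, Matrix.of_apply, Fin.cases_succ, Fin.cases_zero]
theorem build_succ_succ_succ_succ (i j : Fin 3) : build r c M i.succ.succ j.succ.succ = M i j := by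
  simp [build]

theorem build_col (i : Fin 4) : build r c M i.succ 0 = 0 := by
  refine Fin.cases ?_ (fun i' => ?_) i
  · exact build_one_zero r c M
  · exact build_succ_succ_zero r c M i'

theorem blk_build : blk (build r c M) = M := by
  ext i j
  exact build_succ_succ_succ_succ r c M i j

theorem det_build : (build r c M).det = M.det := by
  rw [det_eq_blk _ (build_col r c M) (build_one_succ_succ r c M), build_zero_zero, build_one_one,
    blk_build, one_mul, one_mul]

theorem build_eq_self (g : Matrix (Fin 5) (Fin 5) (ZMod 2)) (h0 : ∀ i : Fin 4, g i.succ 0 = 0)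
    (h1 : ∀ j : Fin 3, g 1 j.succ.succ = 0) (h00 : g 0 0 = 1) (h11 : g 1 1 = 1) :
    build (fun k => g 0 k.succ) (fun k => g k.succ.succ 1) (blk g) = g := by
  ext i j
  refine Fin.cases ?_ (fun i' => ?_) i
  · refine Fin.cases ?_ (fun j' => ?_) j
    · rw [build_zero_zero, h00]
    · rw [build_zero_succ]
  · refine Fin.cases ?_ (fun i'' => ?_) i'
    · refine Fin.cases ?_ (fun j' => ?_) j
      · exact (h0 0).symm
      · refine Fin.cases ?_ (fun j'' => ?_) j'
        · exact h11.symm
        · exact (h1 j'').symm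
    · refine Fin.cases ?_ (fun j' => ?_) j
      · rw [build_succ_succ_zero]; exact (h0 i''.succ).symm
      · refine Fin.cases ?_ (fun j'' => ?_) j'
        · exact build_succ_succ_one _ _ _ i''
        · exact build_succ_succ_succ_succ _ _ _ i'' j''

theorem zmod2_eq_one {x : ZMod 2} (h : x ≠ 0) : x = 1 := by
  revert h; revert x; decide

theorem card_GL3 : Nat.card (GL (Fin 3) (ZMod 2)) = 168 := by
  rw [Matrix.card_GL_field]
  simp [Fin.prod_univ_succ]

theorem props_of_mem (s g : Matrix.SpecialLinearGroup (Fin 5) (ZMod 2))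
    (hs : (s : Matrix (Fin 5) (Fin 5) (ZMod 2)) = Matrix.transvection 0 1 1)
    (hg : g ∈ Subgroup.centralizer ({s} : Set (Matrix.SpecialLinearGroup (Fin 5) (ZMod 2)))) :
    (∀ i : Fin 4, g.1 i.succ 0 = 0) ∧ (∀ j : Fin 3, g.1 1 j.succ.succ = 0) ∧
      g.1 0 0 = 1 ∧ g.1 1 1 = 1 ∧ (blk g.1).det = 1 := by
  obtain ⟨h0, h1, h2⟩ := (mem_centralizer_iff' s g hs).1 hg
  have hdet : g.1.det = 1 := g.2
  rw [det_eq_blk g.1 h0 h1] at hdet
  have h00 : g.1 0 0 = 1 := by
    apply zmod2_eq_one
    intro h
    rw [h, zero_mul] at hdet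
    exact zero_ne_one hdet
  have h11 : g.1 1 1 = 1 := by rw [← h2, h00]
  rw [h00, h11, one_mul, one_mul] at hdet
  exact ⟨h0, h1, h00, h11, hdet⟩

/-- the element of the special linear group built from a row, a column and an invertible block -/
noncomputable def buildSL (r : Fin 4 → ZMod 2) (c : Fin 3 → ZMod 2) (M : GL (Fin 3) (ZMod 2)) :
    Matrix.SpecialLinearGroup (Fin 5) (ZMod 2) :=
  ⟨build r c M.1, by
    rw [det_build]
    exact zmod2_eq_one (Matrix.GeneralLinearGroup.det_ne_zero M)⟩

theorem buildSL_mem (s : Matrix.SpecialLinearGroup (Fin 5) (ZMod 2))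
    (hs : (s : Matrix (Fin 5) (Fin 5) (ZMod 2)) = Matrix.transvection 0 1 1)
    (r : Fin 4 → ZMod 2) (c : Fin 3 → ZMod 2) (M : GL (Fin 3) (ZMod 2)) :
    buildSL r c M ∈ Subgroup.centralizer ({s} : Set (Matrix.SpecialLinearGroup (Fin 5) (ZMod 2))) := by
  rw [mem_centralizer_iff' s _ hs]
  refine ⟨build_col _ _ _, build_one_succ_succ _ _ _, ?_⟩
  show build r c M.1 0 0 = build r c M.1 1 1
  rw [build_zero_zero, build_one_one]

/-- The centraliser is in bijection with triples (row, column, invertible 3×3 block). -/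
noncomputable def equivTriple (s : Matrix.SpecialLinearGroup (Fin 5) (ZMod 2))
    (hs : (s : Matrix (Fin 5) (Fin 5) (ZMod 2)) = Matrix.transvection 0 1 1) :
    Subgroup.centralizer ({s} : Set (Matrix.SpecialLinearGroup (Fin 5) (ZMod 2))) ≃
      (Fin 4 → ZMod 2) × (Fin 3 → ZMod 2) × GL (Fin 3) (ZMod 2) where
  toFun g := (fun k => g.1.1 0 k.succ, fun k => g.1.1 k.succ.succ 1,
    Matrix.GeneralLinearGroup.mkOfDetNeZero (blk g.1.1) (by
      rw [(props_of_mem s g.1 hs g.2).2.2.2.2]; exact one_ne_zero))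
  invFun t := ⟨buildSL t.1 t.2.1 t.2.2, buildSL_mem s hs _ _ _⟩
  left_inv g := by
    obtain ⟨h0, h1, h00, h11, -⟩ := props_of_mem s g.1 hs g.2
    apply Subtype.ext
    apply Subtype.ext
    exact build_eq_self g.1.1 h0 h1 h00 h11
  right_inv t := by
    obtain ⟨r, c, M⟩ := t
    refine Prod.ext ?_ (Prod.ext ?_ ?_)
    · funext k
      exact build_zero_succ r c M.1 k
    · funext k
      exact build_succ_succ_one r c M.1 k
    · apply Matrix.GeneralLinearGroup.ext
      intro i j
      exact build_succ_succ_succ_succ r c M.1 i j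

theorem card_centralizer (s : Matrix.SpecialLinearGroup (Fin 5) (ZMod 2))
    (hs : (s : Matrix (Fin 5) (Fin 5) (ZMod 2)) = Matrix.transvection 0 1 1) :
    Nat.card (Subgroup.centralizer ({s} : Set (Matrix.SpecialLinearGroup (Fin 5) (ZMod 2)))) = 21504 := by
  rw [Nat.card_congr (equivTriple s hs), Nat.card_prod, Nat.card_prod, card_GL3]
  simp [Nat.card_eq_fintype_card]


/-- In the special linear group of dimension 5 over the field with two elements, the centraliser of a transvection has order 21504 = 2 ^ 7 · 168 (it is an extension of an extraspecial group of order 2 ^ 7 by the simple group of order 168). -/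
theorem result (s : Matrix.SpecialLinearGroup (Fin 5) (ZMod 2)) (hs : (s : Matrix (Fin 5) (Fin 5) (ZMod 2)) = Matrix.transvection 0 1 1) : Nat.card (Subgroup.centralizer ({s} : Set (Matrix.SpecialLinearGroup (Fin 5) (ZMod 2)))) = 21504 := by
  exact card_centralizer s hs

end Cfsg.Agent.S0445
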