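-- Statement S0460 (row 460): the O'Nan group as a transitive permutation group of degree 122760.
-- The theorem below has the frozen statement Cfsg.CfsgFrozen.S0460 (the theorem Cfsg.onan_permutation_realization).
import Cfsg.Statements.S0460
import Cfsg.Agent.H94.S460.J.Main
import Cfsg.Agent.H94.S460.M.Main
import Cfsg.Agent.H60.ONanC

set_option autoImplicit false
open Cfsg

namespace Cfsg.Agent.S0460

/-- The O'Nan group exists as a transitive permutation group of degree 122760: simple of order 460815505920, point stabiliser of order 3753792, and containing simple subgroups of orders 175560 and 7920. -/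
theorem result : ∃ H : Subgroup (Equiv.Perm (Fin 122760)), Cfsg.IsON H ∧ MulAction.IsPretransitive H (Fin 122760) ∧ Nat.card (MulAction.stabilizer H (0 : Fin 122760)) = 3753792 ∧ (∃ K : Subgroup H, Cfsg.IsJ1 K) ∧ (∃ K : Subgroup H, Cfsg.IsM11 K) := by
  obtain ⟨ρ, hw, hst, htr, hinj, hfin, hcG, hcH⟩ := Cfsg.Agent.H35.on_struct
  have hρ : ∃ ρ' : Cfsg.Spor.ON →* Equiv.Perm (Fin 122760), Function.Injective ρ' ∧
      ∀ ω : Fin 122760, ∃ g, ρ' g 0 = ω := ⟨ρ, hinj, htr⟩
  clear hw hst htr hinj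
  obtain ⟨ρ', hinj', htr'⟩ := hρ
  obtain ⟨H, hH, htrans, hstab, hsub⟩ := Cfsg.Agent.H60.ONan.transfer ρ' hinj' 0 htr'
    460815505920 3753792 Cfsg.Agent.H35.on_main.1 hcG (by norm_num)
  exact ⟨H, hH, htrans, hstab,
    hsub _ 175560 Cfsg.Agent.H94.S460.J.main.1 Cfsg.Agent.H94.S460.J.main.2,
    hsub _ 7920 Cfsg.Agent.H94.S460.M.main.1 Cfsg.Agent.H94.S460.M.main.2⟩

end Cfsg.Agent.S0460
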