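import Cfsg.Statements.S0481
-- import your own Cfsg.Agent.* helpers here

set_option autoImplicit false
open Cfsg

namespace Cfsg.Agent.S0481

/-- Large extraspecial subgroups: let z be an involution of a finite group G whose centraliser C contains a normal 2-subgroup Q with centre of order 2 and all squares central, such that every element of G centralising Q lies in Q. Then C contains a Sylow 2-subgroup of G, and any involution of G whose centraliser contains a Sylow 2-subgroup of G is conjugate to z. -/
theorem result {G : Type*} [Group G] [Finite G] (z : G) (hz : orderOf z = 2) (Q : Subgroup G) (hQC : Q ≤ Subgroup.centralizer ({z} : Set G)) (hQn : ∀ g ∈ Subgroup.centralizer ({z} : Set G), ∀ q ∈ Q, g * q * g⁻¹ ∈ Q) (hQ2 : IsPGroup 2 Q) (hZ : Nat.card (Subgroup.center Q) = 2) (hsq : ∀ x : Q, x ^ 2 ∈ Subgroup.center Q) (hlarge : Subgroup.centralizer (Q : Set G) ≤ Q) : (∃ P : Sylow 2 G, (P : Subgroup G) ≤ Subgroup.centralizer ({z} : Set G)) ∧ ∀ u : G, orderOf u = 2 → (∃ P : Sylow 2 G, (P : Subgroup G) ≤ Subgroup.centralizer ({u} : Set G)) → IsConj z u := by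
  have : Fact (Nat.Prime 2) := ⟨Nat.prime_two⟩
  have hz1 : z ≠ 1 := by
    rintro rfl
    simp at hz
  -- z centralizes Q, hence lies in Q
  have hzQ : z ∈ Q := by
    apply hlarge
    rw [Subgroup.mem_centralizer_iff]
    intro q hq
    have := hQC hq
    rw [Subgroup.mem_centralizer_iff] at this
    exact (this z (Set.mem_singleton z)).symm
  -- Key lemma: anything centralizing Q is 1 or z
  have key : ∀ c : G, (∀ q ∈ Q, q * c = c * q) → c = 1 ∨ c = z := by
    intro c hc
    have hcQ : c ∈ Q := hlarge (Subgroup.mem_centralizer_iff.mpr hc)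
    have hzc : (⟨z, hzQ⟩ : Q) ∈ Subgroup.center Q := by
      rw [Subgroup.mem_center_iff]
      rintro ⟨q, hq⟩
      apply Subtype.ext
      have := hQC hq
      rw [Subgroup.mem_centralizer_iff] at this
      exact (this z (Set.mem_singleton z)).symm
    have hcc : (⟨c, hcQ⟩ : Q) ∈ Subgroup.center Q := by
      rw [Subgroup.mem_center_iff]
      rintro ⟨q, hq⟩
      apply Subtype.ext
      exact hc q hq
    by_contra hcon
    rw [not_or] at hcon
    -- three distinct elements of the centre
    have : Finite (Subgroup.center Q) := inferInstance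
    have h3 : 2 < Nat.card (Subgroup.center Q) := by
      classical
      let a : Subgroup.center Q := 1
      let b : Subgroup.center Q := ⟨⟨z, hzQ⟩, hzc⟩
      let d : Subgroup.center Q := ⟨⟨c, hcQ⟩, hcc⟩
      have hab : a ≠ b := by
        intro h
        have := congrArg (fun x : Subgroup.center Q => ((x : Q) : G)) h
        simp [a, b] at this
        exact hz1 this.symm
      have had : a ≠ d := by
        intro h
        have := congrArg (fun x : Subgroup.center Q => ((x : Q) : G)) h
        simp [a, d] at this
        exact hcon.1 this.symm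
      have hbd : b ≠ d := by
        intro h
        have := congrArg (fun x : Subgroup.center Q => ((x : Q) : G)) h
        simp [b, d] at this
        exact hcon.2 this.symm
      have : Fintype (Subgroup.center Q) := Fintype.ofFinite _
      rw [Nat.card_eq_fintype_card]
      have : ({a, b, d} : Finset (Subgroup.center Q)).card = 3 := by
        rw [Finset.card_insert_of_notMem, Finset.card_insert_of_notMem, Finset.card_singleton]
        · simpa using hbd
        · simp [hab, had]
      have h' := Finset.card_le_univ ({a, b, d} : Finset (Subgroup.center Q))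
      omega
    omega
  -- A Sylow 2-subgroup containing Q lies in C(z)
  have sylow_in : ∀ P : Sylow 2 G, Q ≤ (P : Subgroup G) → (P : Subgroup G) ≤ Subgroup.centralizer ({z} : Set G) := by
    intro P hQP
    have hne : (P : Subgroup G) ≠ ⊥ := by
      intro h
      have : z ∈ (P : Subgroup G) := hQP hzQ
      rw [h, Subgroup.mem_bot] at this
      exact hz1 this
    have : Nontrivial (P : Subgroup G) := (Subgroup.nontrivial_iff_ne_bot _).mpr hne
    have hP : IsPGroup 2 (P : Subgroup G) := P.isPGroup'
    have : Nontrivial (Subgroup.center (P : Subgroup G)) := hP.center_nontrivial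
    obtain ⟨c, hc⟩ := exists_ne (1 : Subgroup.center (P : Subgroup G))
    have hc1 : ((c : (P : Subgroup G)) : G) ≠ 1 := by
      intro h
      apply hc
      apply Subtype.ext
      apply Subtype.ext
      simpa using h
    have hcz : ((c : (P : Subgroup G)) : G) = z := by
      rcases key ((c : (P : Subgroup G)) : G) (fun q hq => by
        have := Subgroup.mem_center_iff.mp c.2 ⟨q, hQP hq⟩
        exact congrArg Subtype.val this) with h | h
      · exact absurd h hc1
      · exact h
    intro x hx
    rw [Subgroup.mem_centralizer_iff]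
    intro y hy
    rw [Set.mem_singleton_iff] at hy
    subst hy
    have := Subgroup.mem_center_iff.mp c.2 ⟨x, hx⟩
    have h2 := congrArg Subtype.val this
    simp only [Subgroup.coe_mul] at h2
    rw [hcz] at h2
    exact h2.symm
  obtain ⟨P, hQP⟩ := hQ2.exists_le_sylow
  refine ⟨⟨P, sylow_in P hQP⟩, ?_⟩
  intro u hu ⟨P', hP'⟩
  have hu1 : u ≠ 1 := by
    rintro rfl
    simp at hu
  obtain ⟨g, hg⟩ := MulAction.exists_smul_eq G P P'
  -- g⁻¹ u g centralizes P ⊇ Q
  have hcen : ∀ q ∈ Q, q * (g⁻¹ * u * g) = (g⁻¹ * u * g) * q := by
    intro q hq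
    have hqP : q ∈ (P : Subgroup G) := hQP hq
    have hmem : g * q * g⁻¹ ∈ (P' : Subgroup G) := by
      rw [← hg, Sylow.coe_subgroup_smul, Subgroup.mem_pointwise_smul_iff_inv_smul_mem]
      simpa [MulAut.smul_def, mul_assoc] using hqP
    have := hP' hmem
    rw [Subgroup.mem_centralizer_iff] at this
    have h2 := this u (Set.mem_singleton u)
    -- h2 : u * (g * q * g⁻¹) = g * q * g⁻¹ * u
    calc q * (g⁻¹ * u * g) = g⁻¹ * (g * q * g⁻¹ * u) * g := by group
      _ = g⁻¹ * (u * (g * q * g⁻¹)) * g := by rw [h2]
      _ = (g⁻¹ * u * g) * q := by group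
  rcases key _ hcen with h | h
  · exfalso
    apply hu1
    have : u = g * (g⁻¹ * u * g) * g⁻¹ := by group
    rw [this, h]; group
  · rw [isConj_iff]
    refine ⟨g, ?_⟩
    rw [← h]; group


end Cfsg.Agent.S0481
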