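import Cfsg.Statements.S0498
import Cfsg.Agent.H51.PSLRecIso
import Cfsg.Agent.H51.PSLRecChecks

set_option autoImplicit false
open Cfsg

namespace Cfsg.Agent.S0498

/-- A simple group of order 660, respectively 1092, is isomorphic to the projective special linear group of dimension 2
over the field with 11, respectively 13, elements. -/
theorem result {G : Type*} [Group G] [Finite G] [IsSimpleGroup G] (p : ℕ)
    (hp : p = 11 ∨ p = 13) (h : 2 * Nat.card G = p * (p ^ 2 - 1)) {F : Type*} [Field F] [Fintype F]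
    (hF : Fintype.card F = p) : Nonempty (G ≃* Matrix.ProjectiveSpecialLinearGroup (Fin 2) F) := by
  rcases hp with rfl | rfl
  · have : Fact (Nat.Prime 11) := ⟨by norm_num⟩
    have hG : Nat.card G = (11 + 1) * 11 * 5 := by norm_num at h; omega
    exact Cfsg.Agent.H51.PSLRec.iso_psl (p := 11) (m := 5)
      (k0u := ⟨4, 3, rfl, rfl⟩) (n0 := 2) (n0i := 6)
      Cfsg.Agent.H51.PSLRec.check1_11 Cfsg.Agent.H51.PSLRec.check3_11
      Cfsg.Agent.H51.PSLRec.arith_11 hG hF (by norm_num)
  · have : Fact (Nat.Prime 13) := ⟨by norm_num⟩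
    have hG : Nat.card G = (13 + 1) * 13 * 6 := by norm_num at h; omega
    exact Cfsg.Agent.H51.PSLRec.iso_psl (p := 13) (m := 6)
      (k0u := ⟨4, 10, rfl, rfl⟩) (n0 := 2) (n0i := 7)
      Cfsg.Agent.H51.PSLRec.check1_13 Cfsg.Agent.H51.PSLRec.check3_13
      Cfsg.Agent.H51.PSLRec.arith_13 hG hF (by norm_num)

end Cfsg.Agent.S0498
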