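import Cfsg.Statements.S0502
import Cfsg.Agent.H11.Four

set_option autoImplicit false
open Cfsg Cfsg.Agent.H11

namespace Cfsg.Agent.S0502

/-- If a finite 2-group has a normal elementary abelian subgroup of order at least 8, then any two of its Klein
four-subgroups are joined by a chain of Klein four-subgroups with consecutive members commuting elementwise. -/
theorem result {P : Type*} [Group P] [Finite P] (hP : IsPGroup 2 P)
    (E : Subgroup P) [E.Normal] (hE : IsMulCommutative E) (hE2 : ∀ e ∈ E, e ^ 2 = 1) (hE8 : 8 ≤ Nat.card E) :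
    Cfsg.IsFourConnected P := by
  have hp2 : Fact (Nat.Prime 2) := ⟨Nat.prime_two⟩
  have esq : ∀ e ∈ E, e * e = 1 := fun e he => by have := hE2 e he; rwa [pow_two] at this
  have ecomm : ∀ x ∈ E, ∀ y ∈ E, x * y = y * x := by
    intro x hx y hy
    have := hE.is_comm.comm (⟨x, hx⟩ : E) ⟨y, hy⟩
    exact congrArg Subtype.val this
  -- a central involution in E
  obtain ⟨z, hzE, hz1, hzc⟩ : ∃ z ∈ E, z ≠ 1 ∧ ∀ x : P, x * z = z * x := by
    let _ : MulAction P E := MulAction.compHom E (MulAut.conjNormal : P →* MulAut E)
    have hsmul : ∀ (g : P) (e : E), ((g • e : E) : P) = g * e * g⁻¹ := by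
      intro g e
      exact MulAut.conjNormal_apply g e
    have hcardE : 2 ∣ Nat.card E := by
      have hEp : IsPGroup 2 E := hP.to_subgroup E
      rcases hEp.card_eq_or_dvd with h | h
      · omega
      · exact h
    have h1fix : (1 : E) ∈ MulAction.fixedPoints P E := by
      intro g
      apply Subtype.ext
      rw [hsmul]
      simp
    obtain ⟨b, hbfix, hb1⟩ := hP.exists_fixed_point_of_prime_dvd_card_of_fixed_point E hcardE h1fix
    refine ⟨(b : P), b.2, ?_, ?_⟩
    · intro h
      apply hb1
      apply Subtype.ext
      simpa using h.symm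
    · intro x
      have := hbfix x
      have h2 := congrArg Subtype.val this
      rw [hsmul] at h2
      calc x * (b : P) = x * (b : P) * x⁻¹ * x := by group
        _ = (b : P) * x := by rw [h2]
  have hzz : z * z = 1 := esq z hzE
  -- centralizer estimate: every involution centralizes an element of E outside {1, z}
  have hcent : ∀ a : P, a * a = 1 → ∃ e ∈ E, a * e = e * a ∧ e ≠ 1 ∧ e ≠ z := by
    intro a haa
    have hai : a⁻¹ = a := inv_eq_of_mul_eq_one_left haa
    -- the hom e ↦ e * (a e a⁻¹)
    let φ : E →* E :=
      { toFun := fun e => e * ⟨a * e * a⁻¹, Subgroup.Normal.conj_mem inferInstance e.1 e.2 a⟩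
        map_one' := by
          apply Subtype.ext
          simp
        map_mul' := by
          intro x y
          apply Subtype.ext
          simp only [Subgroup.coe_mul]
          have h1 := ecomm (y : P) y.2 (a * x * a⁻¹) (Subgroup.Normal.conj_mem inferInstance x.1 x.2 a)
          calc (x : P) * y * (a * (x * y) * a⁻¹)
              = x * (y * (a * x * a⁻¹)) * (a * y * a⁻¹) := by group
            _ = x * ((a * x * a⁻¹) * y) * (a * y * a⁻¹) := by rw [h1]
            _ = x * (a * x * a⁻¹) * (y * (a * y * a⁻¹)) := by group }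
    have hφ : ∀ e : E, ((φ e : E) : P) = e * (a * e * a⁻¹) := fun e => rfl
    -- C = centralizer of a in E
    let C : Subgroup E := (Subgroup.centralizer ({a} : Set P)).subgroupOf E
    have hCmem : ∀ e : E, e ∈ C ↔ a * (e : P) = e * a := by
      intro e
      simp only [C, Subgroup.mem_subgroupOf, Subgroup.mem_centralizer_iff, Set.mem_singleton_iff,
        forall_eq]
    have hker : φ.ker ≤ C := by
      intro e he
      rw [MonoidHom.mem_ker] at he
      have h1 : (e : P) * (a * e * a⁻¹) = 1 := by
        have := congrArg Subtype.val he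
        rw [hφ] at this
        simpa using this
      rw [hCmem]
      have h2 : (e : P) * e = 1 := esq e e.2
      have h3 : a * e * a⁻¹ = e := by
        have : (e : P) * (a * e * a⁻¹) = e * e := by rw [h1, h2]
        exact mul_left_cancel this
      calc a * (e : P) = a * e * a⁻¹ * a := by group
        _ = e * a := by rw [h3]
    have hrange : φ.range ≤ C := by
      rintro _ ⟨e, rfl⟩
      rw [hCmem, hφ]
      have h1 := ecomm (e : P) e.2 (a * e * a⁻¹) (Subgroup.Normal.conj_mem inferInstance e.1 e.2 a)
      rw [hai] at h1 ⊢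
      calc a * ((e : P) * (a * e * a)) = (a * e * a) * e * a := by group
        _ = e * (a * e * a) * a := by rw [h1]
    have hcard : Nat.card E = Nat.card φ.ker * Nat.card φ.range := by
      rw [← Subgroup.index_ker, Subgroup.card_mul_index]
    have h1 : Nat.card φ.ker ≤ Nat.card C := Subgroup.card_le_of_le hker
    have h2 : Nat.card φ.range ≤ Nat.card C := Subgroup.card_le_of_le hrange
    have h3 : 3 ≤ Nat.card C := by
      by_contra hlt
      have h4 : Nat.card C ≤ 2 := by omega
      have : Nat.card E ≤ 2 * 2 := by
        rw [hcard]; exact Nat.mul_le_mul (by omega) (by omega)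
      omega
    by_contra hcon
    have hall : ∀ c ∈ C, ((c : E) : P) = 1 ∨ ((c : E) : P) = z := by
      intro c hc
      by_contra h
      rw [not_or] at h
      exact hcon ⟨c, c.2, (hCmem c).mp hc, h.1, h.2⟩
    have : Nat.card C ≤ 2 := by
      classical
      have hinj : Function.Injective (fun u : C => decide (((u : E) : P) = 1)) := by
        intro u v huv
        simp only [decide_eq_decide] at huv
        apply Subtype.ext
        apply Subtype.ext
        rcases hall u u.2 with h1 | h1 <;> rcases hall v v.2 with h2 | h2
        · rw [h1, h2]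
        · have : ((v : E) : P) = 1 := huv.mp h1
          rw [h1, this]
        · have : ((u : E) : P) = 1 := huv.mpr h2
          rw [h2, this]
        · rw [h1, h2]
      have := Nat.card_le_card_of_injective _ hinj
      simpa using this
    omega
  -- every four-group is joined to one of the form `fourSub z e` with `e ∈ E`
  have hjoin : ∀ U : Subgroup P, IsKleinFour U → ∃ (e : P) (he : e ∈ E) (_ : e ≠ 1) (_ : e ≠ z),
      Relation.ReflTransGen (FourAdj P) U (fourSub z e hzz (esq e he) (hzc e).symm) := by
    intro U hU
    obtain ⟨a, haU, ha1, haz⟩ := kleinFour_exists_ne hU z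
    have haa : a * a = 1 := kleinFour_mul_self hU haU
    obtain ⟨e, heE, hae, he1, hez⟩ := hcent a haa
    refine ⟨e, heE, he1, hez, ?_⟩
    have hK1 : IsKleinFour (fourSub z a hzz haa (hzc a).symm) :=
      fourSub_isKleinFour _ _ _ _ _ hz1 ha1 (Ne.symm haz)
    have hK2 : IsKleinFour (fourSub z e hzz (esq e heE) (hzc e).symm) :=
      fourSub_isKleinFour _ _ _ _ _ hz1 he1 (Ne.symm hez)
    have adj1 : FourAdj P U (fourSub z a hzz haa (hzc a).symm) := by
      refine ⟨hU, hK1, ?_⟩
      intro x hx y hy
      exact fourSub_comm_left (hzc x) (kleinFour_comm hU hx haU) y hy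
    have adj2 : FourAdj P (fourSub z a hzz haa (hzc a).symm)
        (fourSub z e hzz (esq e heE) (hzc e).symm) := by
      refine ⟨hK1, hK2, ?_⟩
      exact fourSub_comm rfl (hzc e).symm (hzc a) hae
    exact Relation.ReflTransGen.tail (Relation.ReflTransGen.single adj1) adj2
  intro U V hU hV
  obtain ⟨e, he, he1, hez, hUe⟩ := hjoin U hU
  obtain ⟨e', he', he1', hez', hVe⟩ := hjoin V hV
  have adj : FourAdj P (fourSub z e hzz (esq e he) (hzc e).symm)
      (fourSub z e' hzz (esq e' he') (hzc e').symm) :=
    ⟨fourSub_isKleinFour _ _ _ _ _ hz1 he1 (Ne.symm hez),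
      fourSub_isKleinFour _ _ _ _ _ hz1 he1' (Ne.symm hez'),
      fourSub_comm rfl (hzc e').symm (hzc e) (ecomm e he e' he')⟩
  exact (hUe.tail adj).trans (fourAdj_reflTransGen_symm hVe)

end Cfsg.Agent.S0502
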