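import Cfsg.Statements.S0520
import Cfsg.Agent.H11.FourCore

set_option autoImplicit false
open Cfsg Cfsg.Agent.H11

namespace Cfsg.Agent.S0520

/-- Let G be a finite group of 2-rank at least 2 and S a Sylow 2-subgroup whose commuting graph of Klein four-subgroups is
connected. Then the commuting graph of Klein four-subgroups of G is disconnected if and only if the 2-generated core — the
subgroup generated by the normalizers N_G(Q) of the subgroups Q of S that contain a Klein four-group — is a proper
subgroup of G. -/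
theorem result {G : Type*} [Group G] [Finite G] (h2 : ¬ Cfsg.PRankLE 2 1 G)
    (S : Sylow 2 G) (hS : Cfsg.IsFourConnected (S : Subgroup G)) :
    ¬ Cfsg.IsFourConnected G ↔
      (⨆ Q : {Q : Subgroup G // Q ≤ (S : Subgroup G) ∧ ¬ Cfsg.PRankLE 2 1 Q},
          Subgroup.normalizer ((Q : Subgroup G) : Set G)) ≠ ⊤ := by
  have hp2 : Fact (Nat.Prime 2) := ⟨Nat.prime_two⟩
  set H : Subgroup G := ⨆ Q : {Q : Subgroup G // Q ≤ (S : Subgroup G) ∧ ¬ Cfsg.PRankLE 2 1 Q},
          Subgroup.normalizer ((Q : Subgroup G) : Set G) with hH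
  -- normalizers of subgroups of S containing a four-group lie in H
  have hNH : ∀ Q : Subgroup G, Q ≤ (S : Subgroup G) → (∃ U : Subgroup G, U ≤ Q ∧ IsKleinFour U) →
      Subgroup.normalizer (Q : Set G) ≤ H := by
    intro Q hQS hQ
    exact le_iSup (fun Q : {Q : Subgroup G // Q ≤ (S : Subgroup G) ∧ ¬ Cfsg.PRankLE 2 1 Q} =>
      Subgroup.normalizer ((Q : Subgroup G) : Set G)) ⟨Q, hQS, (not_pRankLE_iff Q).mpr hQ⟩
  have fourP : ∀ V : Subgroup G, IsKleinFour V → IsPGroup 2 V := fun V hV =>
    IsPGroup.of_card (n := 2) (by rw [hV.card_four]; norm_num)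
  have sylow_conj : ∀ V : Subgroup G, IsPGroup 2 V → ∃ g : G, V ≤ cj g (S : Subgroup G) := by
    intro V hVp
    obtain ⟨P', hP'⟩ := hVp.exists_le_sylow
    obtain ⟨g, hg⟩ := MulAction.exists_smul_eq G S P'
    refine ⟨g, ?_⟩
    have : (P' : Subgroup G) = cj g (S : Subgroup G) := by
      rw [← hg, Sylow.coe_subgroup_smul]
    rw [← this]; exact hP'
  -- a four-group U₀ in S
  obtain ⟨U₀, hU₀S, hU₀⟩ : ∃ U₀ : Subgroup G, U₀ ≤ (S : Subgroup G) ∧ IsKleinFour U₀ := by
    obtain ⟨V, hV⟩ := (not_pRankLE_iff_exists_four G).mp h2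
    obtain ⟨g, hg⟩ := sylow_conj V (fourP V hV)
    refine ⟨cj g⁻¹ V, ?_, cj_isKleinFour hV⟩
    rw [← cj_inv_cj g (S : Subgroup G)]; exact cj_le_cj.mpr hg
  have hSH : (S : Subgroup G) ≤ H :=
    Subgroup.le_normalizer.trans (hNH S le_rfl ⟨U₀, hU₀S, hU₀⟩)
  have hcardcj : ∀ y : G, Nat.card (cj y (S : Subgroup G)) = Nat.card (S : Subgroup G) :=
    fun y => card_cj y _
  refine not_congr ⟨?_, ?_⟩
  · -- connected → H = ⊤
    intro hconn
    have claimA : ∀ V : Subgroup G, Relation.ReflTransGen (FourAdj G) U₀ V →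
        ∃ h ∈ H, V ≤ cj h (S : Subgroup G) := by
      intro V hV
      induction hV with
      | refl => exact ⟨1, H.one_mem, by rw [cj_one]; exact hU₀S⟩
      | @tail A B _ hAB ih =>
        obtain ⟨h, hh, hA⟩ := ih
        have hNA : Subgroup.normalizer (A : Set G) ≤ H := by
          intro x hx
          have h1 : cj h⁻¹ A ≤ (S : Subgroup G) := by
            rw [← cj_inv_cj h (S : Subgroup G)]; exact cj_le_cj.mpr hA
          have h2' := hNH (cj h⁻¹ A) h1 ⟨cj h⁻¹ A, le_rfl, cj_isKleinFour hAB.1⟩
          have h3 : h⁻¹ * x * h⁻¹⁻¹ ∈ H := h2' (conj_mem_normalizer_cj hx)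
          have e : x = h * (h⁻¹ * x * h⁻¹⁻¹) * h⁻¹ := by group
          rw [e]; exact H.mul_mem (H.mul_mem hh h3) (H.inv_mem hh)
        have hBN : B ≤ Subgroup.normalizer (A : Set G) := by
          intro b hb
          rw [Subgroup.mem_normalizer_iff]
          intro a
          constructor
          · intro ha
            have hc := hAB.2.2 a ha b hb
            have e : b * a * b⁻¹ = a := by rw [← hc]; group
            rw [e]; exact ha
          · intro ha
            have hc : b * a * b⁻¹ * b = b * (b * a * b⁻¹) := hAB.2.2 _ ha b hb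
            have h' : b * a = b * (b * a * b⁻¹) := by rw [← hc]; group
            have e : a = b * a * b⁻¹ := mul_left_cancel h'
            rw [e]; exact ha
        exact exists_conj_le_of_le_of_sylow S hSH (hBN.trans hNA) (fourP B hAB.2.1)
    have claimB : ∀ n : ℕ, ∀ y : G,
        Nat.card (S : Subgroup G) - Nat.card ((S : Subgroup G) ⊓ cj y (S : Subgroup G) : Subgroup G) = n →
        (∃ U : Subgroup G, IsKleinFour U ∧ U ≤ (S : Subgroup G) ∧ U ≤ cj y (S : Subgroup G)) → y ∈ H := by
      intro n
      induction n using Nat.strong_induction_on with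
      | _ n ih =>
        intro y hn ⟨U, hU, hUS, hUy⟩
        set T : Subgroup G := (S : Subgroup G) ⊓ cj y (S : Subgroup G) with hT
        have hUT : U ≤ T := le_inf hUS hUy
        have hTS : T ≤ (S : Subgroup G) := inf_le_left
        have hTy : T ≤ cj y (S : Subgroup G) := inf_le_right
        have hNT : Subgroup.normalizer (T : Set G) ≤ H := hNH T hTS ⟨U, hUT, hU⟩
        by_cases hTeq : T = (S : Subgroup G)
        · have hle : (S : Subgroup G) ≤ cj y (S : Subgroup G) := le_trans (le_of_eq hTeq.symm) hTy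
          have heq : cj y (S : Subgroup G) = (S : Subgroup G) :=
            (Subgroup.eq_of_le_of_card_ge hle (le_of_eq (hcardcj y))).symm
          have hyN : y ∈ Subgroup.normalizer ((S : Subgroup G) : Set G) := by
            rw [Subgroup.mem_normalizer_iff]
            intro x
            have h1 : y * x * y⁻¹ ∈ (S : Subgroup G) ↔ y * x * y⁻¹ ∈ cj y (S : Subgroup G) := by
              rw [heq]
            rw [h1, mem_cj]
            have e : y⁻¹ * (y * x * y⁻¹) * y = x := by group
            rw [e]
          exact hNH S le_rfl ⟨U₀, hU₀S, hU₀⟩ hyN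
        · have hTlt : T < cj y (S : Subgroup G) := by
            refine lt_of_le_of_ne hTy ?_
            intro h
            apply hTeq
            exact Subgroup.eq_of_le_of_card_ge hTS (by rw [h, hcardcj])
          have hyP : IsPGroup 2 (cj y (S : Subgroup G)) := by
            have := (y • S : Sylow 2 G).isPGroup'
            rwa [Sylow.coe_subgroup_smul] at this
          obtain ⟨x, hxP, hxT, hxN⟩ := exists_normalizer_of_lt hyP hTlt
          set T₁ : Subgroup G := Subgroup.normalizer (T : Set G) ⊓ cj y (S : Subgroup G) with hT₁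
          have hT₁p : IsPGroup 2 T₁ := hyP.to_le inf_le_right
          obtain ⟨h, hh, hT₁h⟩ :=
            exists_conj_le_of_le_of_sylow S hSH (inf_le_left.trans hNT) hT₁p
          have hTT₁ : T ≤ T₁ := le_inf Subgroup.le_normalizer hTy
          have hxT₁ : x ∈ T₁ := ⟨hxN, hxP⟩
          have hsub : cj h⁻¹ T₁ ≤ (S : Subgroup G) ⊓ cj (h⁻¹ * y) (S : Subgroup G) := by
            apply le_inf
            · rw [← cj_inv_cj h (S : Subgroup G)]; exact cj_le_cj.mpr hT₁h
            · rw [cj_mul]; exact cj_le_cj.mpr inf_le_right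
          have hlt : Nat.card T < Nat.card T₁ := by
            by_contra hnot
            have heq := Subgroup.eq_of_le_of_card_ge hTT₁ (not_lt.mp hnot)
            exact hxT (heq ▸ hxT₁)
          have hle2 : Nat.card T₁ ≤
              Nat.card ((S : Subgroup G) ⊓ cj (h⁻¹ * y) (S : Subgroup G) : Subgroup G) := by
            rw [← card_cj h⁻¹ T₁]; exact Subgroup.card_le_of_le hsub
          have hleS : Nat.card ((S : Subgroup G) ⊓ cj (h⁻¹ * y) (S : Subgroup G) : Subgroup G) ≤
              Nat.card (S : Subgroup G) := Subgroup.card_le_of_le inf_le_left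
          have hUsub : cj h⁻¹ U ≤ (S : Subgroup G) ⊓ cj (h⁻¹ * y) (S : Subgroup G) :=
            (cj_le_cj.mpr (hUT.trans hTT₁)).trans hsub
          have hmem : h⁻¹ * y ∈ H :=
            ih (Nat.card (S : Subgroup G) -
                Nat.card ((S : Subgroup G) ⊓ cj (h⁻¹ * y) (S : Subgroup G) : Subgroup G))
              (by omega) (h⁻¹ * y) rfl
              ⟨cj h⁻¹ U, cj_isKleinFour hU, hUsub.trans inf_le_left, hUsub.trans inf_le_right⟩
          have e : y = h * (h⁻¹ * y) := by group
          rw [e]; exact H.mul_mem hh hmem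
    rw [eq_top_iff]
    intro g _
    have r : Relation.ReflTransGen (FourAdj G) U₀ (cj g U₀) :=
      hconn U₀ (cj g U₀) hU₀ (cj_isKleinFour hU₀)
    obtain ⟨h, hh, hle⟩ := claimA _ r
    have h1 : U₀ ≤ cj (g⁻¹ * h) (S : Subgroup G) := by
      rw [cj_mul, ← cj_inv_cj g U₀]; exact cj_le_cj.mpr hle
    have h2' : g⁻¹ * h ∈ H := claimB _ (g⁻¹ * h) rfl ⟨U₀, hU₀, hU₀S, h1⟩
    have e : g = h * (g⁻¹ * h)⁻¹ := by group
    rw [e]; exact H.mul_mem hh (H.inv_mem h2')
  · -- H = ⊤ → connected
    intro hHtop
    let K : Subgroup G :=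
      { carrier := {g | Relation.ReflTransGen (FourAdj G) U₀ (cj g U₀)}
        one_mem' := by
          show Relation.ReflTransGen (FourAdj G) U₀ (cj 1 U₀)
          rw [cj_one]
        mul_mem' := by
          intro a b ha hb
          show Relation.ReflTransGen (FourAdj G) U₀ (cj (a * b) U₀)
          rw [cj_mul]
          exact Relation.ReflTransGen.trans ha (cj_reflTransGen hb)
        inv_mem' := by
          intro a ha
          show Relation.ReflTransGen (FourAdj G) U₀ (cj a⁻¹ U₀)
          have h1 : Relation.ReflTransGen (FourAdj G) (cj a⁻¹ U₀) (cj a⁻¹ (cj a U₀)) :=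
            cj_reflTransGen ha
          rw [cj_inv_cj] at h1
          exact fourAdj_reflTransGen_symm h1 }
    have hHK : H ≤ K := by
      apply iSup_le
      rintro ⟨Q, hQS, hQr⟩ g hg
      obtain ⟨U, hUQ, hU⟩ := (not_pRankLE_iff Q).mp hQr
      have hgU : cj g U ≤ Q := by
        intro x hx
        rw [mem_cj] at hx
        have h1 := (Subgroup.mem_normalizer_iff.mp hg (g⁻¹ * x * g)).mp (hUQ hx)
        have e : g * (g⁻¹ * x * g) * g⁻¹ = x := by group
        rwa [e] at h1
      have r1 : Relation.ReflTransGen (FourAdj G) U₀ U :=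
        fourConnected_sub hS hU₀ hU hU₀S (hUQ.trans hQS)
      have r2 : Relation.ReflTransGen (FourAdj G) U₀ (cj g U) :=
        fourConnected_sub hS hU₀ (cj_isKleinFour hU) hU₀S (hgU.trans hQS)
      have r3 : Relation.ReflTransGen (FourAdj G) (cj g U₀) (cj g U) := cj_reflTransGen r1
      exact Relation.ReflTransGen.trans r2 (fourAdj_reflTransGen_symm r3)
    have hK : ∀ g : G, Relation.ReflTransGen (FourAdj G) U₀ (cj g U₀) := by
      intro g
      have : g ∈ H := by rw [hHtop]; exact Subgroup.mem_top g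
      exact hHK this
    have hall : ∀ V : Subgroup G, IsKleinFour V → Relation.ReflTransGen (FourAdj G) U₀ V := by
      intro V hV
      obtain ⟨g, hg⟩ := sylow_conj V (fourP V hV)
      have hV' : cj g⁻¹ V ≤ (S : Subgroup G) := by
        rw [← cj_inv_cj g (S : Subgroup G)]; exact cj_le_cj.mpr hg
      have r1 : Relation.ReflTransGen (FourAdj G) U₀ (cj g⁻¹ V) :=
        fourConnected_sub hS hU₀ (cj_isKleinFour hV) hU₀S hV'
      have r2 : Relation.ReflTransGen (FourAdj G) (cj g U₀) (cj g (cj g⁻¹ V)) := cj_reflTransGen r1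
      rw [cj_cj_inv] at r2
      exact Relation.ReflTransGen.trans (hK g) r2
    intro U V hU hV
    exact Relation.ReflTransGen.trans (fourAdj_reflTransGen_symm (hall U hU)) (hall V hV)


end Cfsg.Agent.S0520
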