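import Cfsg.Statements.S0521
import Cfsg.Agent.H24.QuadGroup
import Cfsg.Agent.H1.HallHigman
import Cfsg.Agent.H1.Frattini
import Cfsg.Agent.H1.PCore
import Cfsg.Agent.H3.PGroup
import Cfsg.Agent.H2.Fusion

set_option autoImplicit false
open Cfsg

namespace Cfsg.Agent.S0521

open scoped commutatorElement

universe u

/-- Groups of odd order have abelian (indeed trivial) `2`-subgroups. -/
theorem ab2_of_odd {Γ : Type*} [Group Γ] [Finite Γ] (h : Odd (Nat.card Γ)) : H24.Ab2 Γ := by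
  intro Q hQ x hx y hy
  haveI : Fact (Nat.Prime 2) := ⟨Nat.prime_two⟩
  have hQ1 : Nat.card Q = 1 := by
    obtain ⟨k, hk⟩ := IsPGroup.iff_card.mp hQ
    have hdvd : Nat.card Q ∣ Nat.card Γ := Subgroup.card_subgroup_dvd_card Q
    rw [hk] at hdvd ⊢
    have hodd : Odd (2 ^ k) := Odd.of_dvd_nat h hdvd
    cases k with
    | zero => rfl
    | succ k =>
      exfalso
      rw [pow_succ] at hodd
      exact (Nat.not_even_iff_odd.mpr hodd) (even_two.mul_left _)
  have hQbot : Q = ⊥ := Subgroup.card_eq_one.mp hQ1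
  subst hQbot
  rw [Subgroup.mem_bot] at hx hy
  rw [hx, hy]

/-- Core case: `P` the largest normal `p`-subgroup of the odd-order group `Q`, `C_Q(P) ≤ P`;
a `p`-subgroup `T ⊇ P` with cyclic derived subgroup lies in `P` (`p` odd). -/
theorem core {Q : Type u} [Group Q] [Finite Q] (hodd : Odd (Nat.card Q))
    (p : ℕ) [Fact p.Prime] (hp : p ≠ 2) (P : Subgroup Q) [hPn : P.Normal] (hPp : IsPGroup p P)
    (hCP : Subgroup.centralizer (P : Set Q) ≤ P)
    (hmax : ∀ N : Subgroup Q, N.Normal → IsPGroup p N → N ≤ P)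
    (T : Subgroup Q) (hT : IsPGroup p T) (hPT : P ≤ T) (hcyc : IsCyclic ↥⁅T, T⁆) : T ≤ P := by
  have hpr : p.Prime := Fact.out
  haveI hΦn : ((frattini ↥P).map P.subtype).Normal :=
    H1.normal_map_of_characteristic P (frattini ↥P)
  -- the quotient map modulo `Φ(P)`, abstractly
  obtain ⟨G', _, ι, hιs, hιk⟩ : ∃ (G' : Type u) (_ : Group G') (ι : Q →* G'),
      Function.Surjective ι ∧ ∀ g : Q, ι g = 1 ↔ g ∈ (frattini ↥P).map P.subtype :=
    ⟨Q ⧸ (frattini ↥P).map P.subtype, inferInstance, QuotientGroup.mk' _,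
      QuotientGroup.mk'_surjective _, fun g => QuotientGroup.eq_one_iff g⟩
  haveI : Finite G' := Finite.of_surjective ι hιs
  have hVn : (P.map ι).Normal := Subgroup.Normal.map hPn ι hιs
  have hV : Cfsg.IsElementaryAbelian p (P.map ι) := by
    constructor
    · refine ⟨⟨?_⟩⟩
      rintro ⟨_, u, hu, rfl⟩ ⟨_, v, hv, rfl⟩
      apply Subtype.ext
      show ι u * ι v = ι v * ι u
      have hc : ⁅(⟨u, hu⟩ : ↥P), (⟨v, hv⟩ : ↥P)⁆ ∈ frattini ↥P :=
        H3.commutator_le_frattini hPp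
          (Subgroup.commutator_mem_commutator (Subgroup.mem_top _) (Subgroup.mem_top _))
      have h1 : ι ⁅u, v⁆ = 1 := by
        rw [hιk]
        exact ⟨_, hc, rfl⟩
      rw [map_commutatorElement, commutatorElement_eq_one_iff_mul_comm] at h1
      exact h1
    · rintro _ ⟨u, hu, rfl⟩
      rw [← map_pow, hιk]
      exact ⟨⟨u, hu⟩ ^ p, H3.pow_mem_frattini hPp _, rfl⟩
  intro x hxT
  -- the quadratic condition
  have hq : ⁅⁅P.map ι, Subgroup.zpowers (ι x)⁆, Subgroup.zpowers (ι x)⁆ = ⊥ := by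
    have hTn : Group.IsNilpotent ↥(T.map ι) := (hT.map ι).isNilpotent
    have hDT : (⁅T, T⁆ ⊓ P).map ι ≤ T.map ι :=
      Subgroup.map_mono (inf_le_left.trans (Subgroup.commutator_le.mpr (fun a ha b hb =>
        T.mul_mem (T.mul_mem (T.mul_mem ha hb) (T.inv_mem ha)) (T.inv_mem hb))))
    have ha : ⁅P.map ι, Subgroup.zpowers (ι x)⁆ ≤ (⁅T, T⁆ ⊓ P).map ι := by
      rw [Subgroup.commutator_le]
      rintro _ ⟨u, hu, rfl⟩ g₂ hg₂
      rw [← MonoidHom.map_zpowers] at hg₂
      obtain ⟨y, hy, rfl⟩ := hg₂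
      have hyT : y ∈ T := (Subgroup.zpowers_le.mpr hxT) hy
      rw [← map_commutatorElement]
      refine Subgroup.mem_map_of_mem ι (Subgroup.mem_inf.mpr
        ⟨Subgroup.commutator_mem_commutator (hPT hu) hyT, ?_⟩)
      rw [commutatorElement_def]
      have h1 : y * u⁻¹ * y⁻¹ ∈ P := hPn.conj_mem _ (P.inv_mem hu) y
      have e : u * y * u⁻¹ * y⁻¹ = u * (y * u⁻¹ * y⁻¹) := by group
      rw [e]
      exact P.mul_mem hu h1
    have hb : ⁅(⁅T, T⁆ ⊓ P).map ι, T.map ι⁆ ≤ (⁅T, T⁆ ⊓ P).map ι := by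
      rw [Subgroup.commutator_le]
      rintro _ ⟨n, hn, rfl⟩ _ ⟨t, ht, rfl⟩
      rw [← map_commutatorElement]
      have hnT : n ∈ T := (Subgroup.commutator_le.mpr (fun a ha b hb =>
        T.mul_mem (T.mul_mem (T.mul_mem ha hb) (T.inv_mem ha)) (T.inv_mem hb))) hn.1
      refine Subgroup.mem_map_of_mem ι (Subgroup.mem_inf.mpr
        ⟨Subgroup.commutator_mem_commutator hnT ht, ?_⟩)
      rw [commutatorElement_def]
      have h1 : t * n⁻¹ * t⁻¹ ∈ P := hPn.conj_mem _ (P.inv_mem hn.2) t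
      have e : n * t * n⁻¹ * t⁻¹ = n * (t * n⁻¹ * t⁻¹) := by group
      rw [e]
      exact P.mul_mem hn.2 h1
    -- `D` is cyclic of exponent `p`, so of order `1` or `p`
    have hDcyc : IsCyclic ↥((⁅T, T⁆ ⊓ P).map ι) := by
      haveI : IsCyclic ↥((⁅T, T⁆ ⊓ P).subgroupOf ⁅T, T⁆) := Subgroup.isCyclic _
      haveI : IsCyclic ↥(⁅T, T⁆ ⊓ P) :=
        isCyclic_of_surjective (Subgroup.subgroupOfEquivOfLe (inf_le_left : ⁅T, T⁆ ⊓ P ≤ ⁅T, T⁆))
          (MulEquiv.surjective _)
      exact isCyclic_of_surjective (ι.subgroupMap _) (ι.subgroupMap_surjective _)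
    have hDcard : Nat.card ↥((⁅T, T⁆ ⊓ P).map ι) ∣ p := by
      rw [← IsCyclic.exponent_eq_card]
      apply Monoid.exponent_dvd_of_forall_pow_eq_one
      rintro ⟨d, hd⟩
      apply Subtype.ext
      rw [Subgroup.coe_pow]
      exact hV.2 d (Subgroup.map_mono inf_le_right hd)
    have hbot : ⁅(⁅T, T⁆ ⊓ P).map ι, T.map ι⁆ = ⊥ := by
      by_cases hDE : (⁅T, T⁆ ⊓ P).map ι ≤ ⁅(⁅T, T⁆ ⊓ P).map ι, T.map ι⁆
      · have := H2.eq_bot_of_le_commutator_of_isNilpotent hTn hDT hDE
        rw [this, Subgroup.commutator_bot_left]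
      · have hEcard : Nat.card ↥⁅(⁅T, T⁆ ⊓ P).map ι, T.map ι⁆ ∣ p :=
          (Subgroup.card_dvd_of_le hb).trans hDcard
        rcases (Nat.dvd_prime hpr).mp hEcard with h1 | h1
        · exact Subgroup.card_eq_one.mp h1
        · exfalso
          apply hDE
          apply le_of_eq
          symm
          apply Subgroup.eq_of_le_of_card_ge hb
          rw [h1]
          exact Nat.le_of_dvd hpr.pos hDcard
    rw [eq_bot_iff, ← hbot]
    apply Subgroup.commutator_mono ha
    rw [Subgroup.zpowers_le]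
    exact Subgroup.mem_map_of_mem ι hxT
  obtain ⟨N, hNn, hxN, hN⟩ := H24.Quad.quad_normal_group hp (P.map ι) hV ι
    (fun γ => by rw [Subgroup.normalizer_eq_top_iff.mpr hVn]; trivial) x hq (ab2_of_odd hodd)
  apply hmax N hNn _ hxN
  -- `N` is a `p`-group
  rintro ⟨g, hg⟩
  have ho : orderOf g ≠ 0 := (orderOf_pos g).ne'
  obtain ⟨j, m, hm, hjm⟩ := Nat.exists_eq_pow_mul_and_not_dvd ho p hpr.ne_one
  refine ⟨j, ?_⟩
  apply Subtype.ext
  rw [Subgroup.coe_pow]
  show g ^ p ^ j = 1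
  have hpj : p ^ j ≠ 0 := pow_ne_zero _ hpr.ne_zero
  have hord : orderOf (g ^ p ^ j) = m := by
    rw [orderOf_pow_of_dvd hpj (hjm ▸ Dvd.intro _ rfl), hjm, Nat.mul_div_cancel_left _ (Nat.pos_of_ne_zero hpj)]
  have hmcop : m.Coprime p := (Nat.Coprime.symm ((Nat.Prime.coprime_iff_not_dvd hpr).mpr hm))
  obtain ⟨k, hk⟩ := hN (g ^ p ^ j) (N.pow_mem hg _)
  have hcent : ι (g ^ p ^ j) ∈ Subgroup.centralizer ((P.map ι : Subgroup G') : Set G') := by
    obtain ⟨m', hm'⟩ := exists_pow_eq_self_of_coprime (x := g ^ p ^ j) (n := p ^ k)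
      (by rw [hord]; exact (Nat.Coprime.pow_left k hmcop.symm))
    have := Subgroup.pow_mem _ hk m'
    rw [← map_pow, ← map_pow, hm'] at this
    exact this
  have hburn := H1.centralizer_of_trivial_on_frattini_quotient (Subgroup.zpowers (g ^ p ^ j)) P
    (by rw [Subgroup.normalizer_eq_top_iff.mpr hPn]; exact le_top)
    (by
      rw [Nat.card_zpowers, hord]
      obtain ⟨i, hi⟩ := IsPGroup.iff_card.mp (hPp.to_subgroup (frattini ↥P))
      rw [hi]
      exact Nat.Coprime.pow_right i hmcop)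
    (by
      intro a ha u hu
      rw [← hιk]
      have haι : ι a ∈ Subgroup.centralizer ((P.map ι : Subgroup G') : Set G') := by
        obtain ⟨z, rfl⟩ := Subgroup.mem_zpowers_iff.mp ha
        rw [map_zpow]
        exact Subgroup.zpow_mem _ hcent z
      have h1 := Subgroup.mem_centralizer_iff.mp haι (ι u) (Subgroup.mem_map_of_mem ι hu)
      rw [map_mul, map_mul, map_mul, map_inv, map_inv, ← h1]
      group)
  have hgP : g ^ p ^ j ∈ P := hCP (hburn (Subgroup.mem_zpowers _))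
  obtain ⟨i, hi⟩ := hPp ⟨g ^ p ^ j, hgP⟩
  have hi' : (g ^ p ^ j) ^ p ^ i = 1 := by
    have := congrArg Subtype.val hi
    simpa using this
  have hdvd : orderOf (g ^ p ^ j) ∣ p ^ i := orderOf_dvd_of_pow_eq_one hi'
  rw [hord] at hdvd
  have hm1 : m = 1 := Nat.Coprime.eq_one_of_dvd (Nat.Coprime.pow_right i hmcop) hdvd
  rw [hm1] at hord
  exact orderOf_eq_one_iff.mp hord

/-- Let X be a finite solvable group of odd order, p a prime and S a Sylow p-subgroup of X whose commutator subgroup is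
cyclic. Then the product of the largest normal subgroup of X of order prime to p with S is a normal subgroup of X. -/
theorem result {X : Type*} [Group X] [Finite X] [Group.IsSolvable X]
    (hX : Odd (Nat.card X)) (p : ℕ) [Fact p.Prime] (S : Sylow p X) (hS : IsCyclic (commutator (S : Subgroup X))) :
    (Cfsg.pPrimeCore p X ⊔ (S : Subgroup X)).Normal := by
  have hpr : p.Prime := Fact.out
  by_cases hp : p = 2
  · have hS1 : (S : Subgroup X) = ⊥ := by
      obtain ⟨k, hk⟩ := IsPGroup.iff_card.mp S.isPGroup'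
      have hdvd : Nat.card (S : Subgroup X) ∣ Nat.card X := Subgroup.card_subgroup_dvd_card _
      rw [hk, hp] at hdvd
      have hodd : Odd (2 ^ k) := Odd.of_dvd_nat hX hdvd
      cases k with
      | zero =>
        rw [pow_zero] at hk
        exact Subgroup.card_eq_one.mp hk
      | succ k =>
        exfalso
        rw [pow_succ] at hodd
        exact (Nat.not_even_iff_odd.mpr hodd) (even_two.mul_left _)
    rw [hS1, sup_bot_eq]
    infer_instance
  · have hQodd : Odd (Nat.card (X ⧸ Cfsg.pPrimeCore p X)) :=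
      Odd.of_dvd_nat hX (Subgroup.card_quotient_dvd_card _)
    have hO := H1.pPrimeCore_quotient_eq_bot (G := X) p
    have hCP := H1.centralizer_pCore_le (G := X ⧸ Cfsg.pPrimeCore p X) p hO
    have hπs : Function.Surjective (QuotientGroup.mk' (Cfsg.pPrimeCore p X)) :=
      QuotientGroup.mk'_surjective _
    have hT : IsPGroup p ((S : Subgroup X).map (QuotientGroup.mk' (Cfsg.pPrimeCore p X))) :=
      S.isPGroup'.map _
    have hPT : Cfsg.pCore p (X ⧸ Cfsg.pPrimeCore p X) ≤
        (S : Subgroup X).map (QuotientGroup.mk' (Cfsg.pPrimeCore p X)) := by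
      have := H1.pCore_le_sylow p (S.mapSurjective hπs)
      rwa [Sylow.coe_mapSurjective] at this
    have hcyc : IsCyclic ↥⁅(S : Subgroup X).map (QuotientGroup.mk' (Cfsg.pPrimeCore p X)),
        (S : Subgroup X).map (QuotientGroup.mk' (Cfsg.pPrimeCore p X))⁆ := by
      rw [← Subgroup.map_commutator, ← Subgroup.map_subtype_commutator, Subgroup.map_map]
      exact isCyclic_of_surjective (((QuotientGroup.mk' (Cfsg.pPrimeCore p X)).comp
        (S : Subgroup X).subtype).subgroupMap _) (MonoidHom.subgroupMap_surjective _ _)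
    have hle := core hQodd p hp (Cfsg.pCore p (X ⧸ Cfsg.pPrimeCore p X)) (H1.pCore_isPGroup p) hCP
      (fun N hN hNp => le_sSup ⟨hN, hNp⟩) _ hT hPT hcyc
    have heq : (S : Subgroup X).map (QuotientGroup.mk' (Cfsg.pPrimeCore p X)) =
        Cfsg.pCore p (X ⧸ Cfsg.pPrimeCore p X) := le_antisymm hle hPT
    have hn : ((S : Subgroup X).map (QuotientGroup.mk' (Cfsg.pPrimeCore p X))).Normal := by
      rw [heq]
      infer_instance
    have h2 : ((S : Subgroup X).map (QuotientGroup.mk' (Cfsg.pPrimeCore p X))).comap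
        (QuotientGroup.mk' (Cfsg.pPrimeCore p X)) = Cfsg.pPrimeCore p X ⊔ (S : Subgroup X) := by
      rw [Subgroup.comap_map_eq, QuotientGroup.ker_mk', sup_comm]
    rw [← h2]
    exact hn.comap _

end Cfsg.Agent.S0521
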