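import Cfsg.Statements.S0522
import Cfsg.Agent.Lib.Helper30.TransApp

set_option autoImplicit false
open Cfsg

namespace Cfsg.Agent.S0522

/-- Transitivity Theorem (odd-order setting). Let X be a finite group of odd order in which the normalizer of every
nontrivial p-subgroup is solvable, P a Sylow p-subgroup, and B an abelian subgroup of P, normalized by P, with
C_P(B) = B and containing an elementary abelian subgroup of order p^3. Then for every prime q ≠ p, any two q-subgroups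
that are maximal among the q-subgroups normalized by B are conjugate by an element of the centralizer of B. -/
theorem result {X : Type*} [Group X] [Finite X] (hX : Odd (Nat.card X)) (p : ℕ)
    [Fact p.Prime] (hloc : ∀ T : Subgroup X, IsPGroup p T → T ≠ ⊥ → Group.IsSolvable (Subgroup.normalizer (T : Set X)))
    (P : Sylow p X) (B : Subgroup X) (hBP : B ≤ (P : Subgroup X))
    (hBn : ∀ x ∈ (P : Subgroup X), ∀ b ∈ B, x * b * x⁻¹ ∈ B) (hBa : IsMulCommutative B)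
    (hBc : (P : Subgroup X) ⊓ Subgroup.centralizer (B : Set X) = B)
    (hB3 : ∃ E : Subgroup X, E ≤ B ∧ (∀ e ∈ E, e ^ p = 1) ∧ p ^ 3 ≤ Nat.card E)
    (q : ℕ) [Fact q.Prime] (hqp : q ≠ p) (Q₁ Q₂ : Subgroup X)
    (h₁ : IsPGroup q Q₁ ∧ B ≤ Subgroup.normalizer (Q₁ : Set X) ∧
      ∀ R : Subgroup X, IsPGroup q R → B ≤ Subgroup.normalizer (R : Set X) → Q₁ ≤ R → R = Q₁)
    (h₂ : IsPGroup q Q₂ ∧ B ≤ Subgroup.normalizer (Q₂ : Set X) ∧
      ∀ R : Subgroup X, IsPGroup q R → B ≤ Subgroup.normalizer (R : Set X) → Q₂ ≤ R → R = Q₂) :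
    ∃ c ∈ Subgroup.centralizer (B : Set X), Q₂ = Q₁.map (MulAut.conj c).toMonoidHom := by
  classical
  have hpp : p.Prime := Fact.out
  obtain ⟨E₀, hE₀B, hE₀exp, hE₀card⟩ := hB3
  have hBp : IsPGroup p B := P.isPGroup'.to_le hBP
  have hBcomm : ∀ a ∈ B, ∀ b ∈ B, a * b = b * a := fun a ha b hb =>
    congrArg Subtype.val (hBa.is_comm.comm ⟨a, ha⟩ ⟨b, hb⟩)
  have hp2 : p ≠ 2 := by
    intro h
    obtain ⟨k, hk⟩ := IsPGroup.iff_card.mp (hBp.to_le hE₀B)
    have hk0 : k ≠ 0 := by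
      intro h0
      rw [h0, pow_zero] at hk
      rw [hk] at hE₀card
      have : 1 < p ^ 3 := Nat.one_lt_pow (by norm_num) hpp.one_lt
      omega
    have h2 : 2 ∣ Nat.card E₀ := by rw [hk, h]; exact dvd_pow_self 2 hk0
    have h3 : 2 ∣ Nat.card X := h2.trans (Subgroup.card_subgroup_dvd_card E₀)
    exact (Nat.not_even_iff_odd.mpr hX) (even_iff_two_dvd.mpr h3)
  have hPN : (P : Subgroup X) ≤ Subgroup.normalizer (B : Set X) :=
    Cfsg.Agent.Lib.Helper30.le_normalizer_of_conj_mem hBn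
  have hΩfull : ∀ x ∈ Subgroup.centralizer (B : Set X), IsPGroup p (Subgroup.zpowers x) →
      x ∈ B := fun x hx hxp =>
    Cfsg.Agent.Lib.Helper30.mem_of_mem_centralizer_of_sylow P hPN hBc hx hxp
  have hΩ : ∀ x ∈ Subgroup.centralizer (B : Set X), x ^ p = 1 → x ∈ B := fun x hx hxp =>
    hΩfull x hx (Cfsg.Agent.Lib.Helper30.isPGroup_zpowers_of_pow_eq_one hxp)
  have hθ : ∀ a ∈ E₀, a ≠ 1 → (Nat.card (Cfsg.Agent.Lib.Helper30.thetaOf p a)).Coprime p ∧
      B ≤ Subgroup.normalizer ((Cfsg.Agent.Lib.Helper30.thetaOf p a : Subgroup X) : Set X) ∧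
      ∀ T : Subgroup X, IsPGroup q T → B ≤ Subgroup.normalizer (T : Set X) →
        T ≤ Subgroup.centralizer ({a} : Set X) → T ≤ Cfsg.Agent.Lib.Helper30.thetaOf p a := by
    intro a ha ha1
    have haB : a ∈ B := hE₀B ha
    have hZp : IsPGroup p (Subgroup.zpowers a) := hBp.to_le (Subgroup.zpowers_le.mpr haB)
    have hZ1 : Subgroup.zpowers a ≠ ⊥ := by
      intro h
      apply ha1
      have := Subgroup.mem_zpowers a
      rw [h, Subgroup.mem_bot] at this
      exact this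
    have hsol := hloc _ hZp hZ1
    exact Cfsg.Agent.Lib.Helper30.thetaOf_spec hqp hBp hBcomm haB
      (Cfsg.Agent.Lib.Helper30.isPConstrained_of_isSolvable p) hΩ (fun h => absurd h hp2)
  have h₁' : Q₁ ∈ Cfsg.maxInvSubgroups ⊤ B {q} :=
    ⟨⟨le_top, Cfsg.Agent.Lib.Helper30.isPi_singleton_of_isPGroup h₁.1, h₁.2.1⟩,
      fun R hR hQR => h₁.2.2 R (Cfsg.Agent.Lib.Helper30.isPGroup_of_isPi_singleton hR.2.1)
        hR.2.2 hQR⟩
  have h₂' : Q₂ ∈ Cfsg.maxInvSubgroups ⊤ B {q} :=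
    ⟨⟨le_top, Cfsg.Agent.Lib.Helper30.isPi_singleton_of_isPGroup h₂.1, h₂.2.1⟩,
      fun R hR hQR => h₂.2.2 R (Cfsg.Agent.Lib.Helper30.isPGroup_of_isPi_singleton hR.2.1)
        hR.2.2 hQR⟩
  exact Cfsg.Agent.Lib.Helper30.trans_of_local hqp hBp hBcomm hE₀B hE₀exp hE₀card
    (fun Y _ h => h) (Subgroup.centralizer_le_normalizer _)
    (Cfsg.Agent.Lib.Helper30.thetaOf p) hθ Q₁ Q₂ h₁' h₂'

end Cfsg.Agent.S0522
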