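import Cfsg.Statements.S0527
import Mathlib
import Cfsg.Agent.H12.Supersolvable2

set_option autoImplicit false
open Cfsg

namespace Cfsg.Agent.S0527

/-- In a finite supersolvable group the index of any maximal subgroup is a prime number. -/
theorem result {G : Type*} [Group G] [Finite G] (hG : Cfsg.IsSupersolvable G) (M : Subgroup G) (hM : IsCoatom M) : M.index.Prime := by
  induction hn : Nat.card G using Nat.strong_induction_on generalizing G with
  | _ n ih =>
    have hnt : Nontrivial G := by
      by_contra hnt
      rw [not_nontrivial_iff_subsingleton] at hnt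
      exact hM.1 (Subsingleton.elim _ _)
    obtain ⟨N, hNn, hNp⟩ := H12.exists_normal_prime_card hG
    have hN0 : N ≠ ⊥ := by
      rintro rfl
      rw [Subgroup.card_bot] at hNp
      exact Nat.not_prime_one hNp
    rcases H12.le_or_disjoint_of_prime_card hNp M with hNM | hdis
    · have hlt : Nat.card (G ⧸ N) < n := by
        rw [← hn]; exact H12.card_quotient_lt_of_ne_bot N hN0
      have hco : IsCoatom (M.map (QuotientGroup.mk' N)) :=
        H12.isCoatom_map_of_surjective (QuotientGroup.mk'_surjective N)
          (by rw [QuotientGroup.ker_mk']; exact hNM) hM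
      have := ih _ hlt (H12.isSupersolvable_quotient N hG) (M.map (QuotientGroup.mk' N)) hco rfl
      rwa [Subgroup.index_map_eq M (QuotientGroup.mk'_surjective N)
        (by rw [QuotientGroup.ker_mk']; exact hNM)] at this
    · have hNM : ¬ N ≤ M := by
        intro h
        have : N ≤ M ⊓ N := le_inf h le_rfl
        rw [disjoint_iff.mp hdis] at this
        exact hN0 (le_bot_iff.mp this)
      have hsup : N ⊔ M = ⊤ := by
        rw [sup_comm]
        exact hM.2 _ (lt_of_le_of_ne le_sup_left (fun h => hNM (h ▸ le_sup_right)))
      have hc : Subgroup.IsComplement' N M :=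
        H12.isComplement'_of_normal_of_disjoint_of_sup hdis.symm hsup
      rw [hc.index_eq_card]
      exact hNp

end Cfsg.Agent.S0527
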