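import Cfsg.Statements.S0529
import Mathlib
import Cfsg.Agent.H12.Supersolvable4

set_option autoImplicit false
open Cfsg

namespace Cfsg.Agent.S0529

/-- A finite supersolvable group has a chain of normal subgroups, from the trivial subgroup to the whole group, in which every step has prime index and the primes occurring are non-increasing as one goes up the chain. -/
theorem result {G : Type*} [Group G] [Finite G] (hG : Cfsg.IsSupersolvable G) : ∃ (n : ℕ) (H : Fin (n + 1) → Subgroup G), H 0 = ⊥ ∧ H (Fin.last n) = ⊤ ∧ (∀ i, (H i).Normal) ∧ (∀ i : Fin n, H i.castSucc ≤ H i.succ ∧ ((H i.castSucc).relIndex (H i.succ)).Prime) ∧ ∀ i j : Fin n, i ≤ j → (H j.castSucc).relIndex (H j.succ) ≤ (H i.castSucc).relIndex (H i.succ) := by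
  obtain ⟨n, H, h0, hn, hnorm, hstep, hmono⟩ := H12.exists_decChain hG
  refine ⟨n, fun i => H i.val, ?_, ?_, ?_, ?_, ?_⟩
  · exact h0
  · show H (Fin.last n).val = ⊤
    rw [Fin.val_last]; exact hn
  · intro i
    exact hnorm i.val (Nat.lt_succ_iff.mp i.isLt)
  · intro i
    exact hstep i.val i.isLt
  · intro i j hij
    exact hmono i.val j.val hij j.isLt

end Cfsg.Agent.S0529
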