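import Cfsg.Statements.S0537
import Mathlib
import Cfsg.Agent.H12.MinNonAbelian

set_option autoImplicit false
open Cfsg

namespace Cfsg.Agent.S0537

/-- A finite non-abelian group in which every proper subgroup is abelian is either of prime-power order, or is generated by a cyclic Sylow p-subgroup and a normal Sylow q-subgroup that is elementary abelian, for distinct primes p and q. -/
theorem result {G : Type*} [Group G] [Finite G] (hna : ¬ IsMulCommutative G) (h : ∀ H : Subgroup G, H ≠ ⊤ → IsMulCommutative H) : (∃ p : ℕ, p.Prime ∧ IsPGroup p G) ∨ ∃ p q : ℕ, p.Prime ∧ q.Prime ∧ p ≠ q ∧ ∃ (P : Sylow p G) (Q : Sylow q G), IsCyclic P ∧ (Q : Subgroup G).Normal ∧ Cfsg.IsElementaryAbelian q (Q : Subgroup G) ∧ (P : Subgroup G) ⊔ Q = ⊤ := by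
  by_cases hnil : Group.IsNilpotent G
  · left
    exact Cfsg.Agent.H12.isPGroup_of_nilpotent_min_nonabelian hna h
  · right
    have hpn : ∀ H : Subgroup G, H ≠ ⊤ → Group.IsNilpotent H := by
      intro H hH
      have hc := h H hH
      rw [Subgroup.isNilpotent_iff_lowerCentralSeries]
      refine ⟨1, ?_⟩
      rw [Subgroup.lowerCentralSeries_succ, Subgroup.lowerCentralSeries_zero]
      exact Subgroup.commutator_self_eq_bot_iff.mpr hc
    obtain ⟨p, q, hp, hq, hpq, P, Q, hPc, hQn, hPQ⟩ := Cfsg.Agent.H12.schmidt hnil hpn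
    have : Fact p.Prime := ⟨hp⟩
    have : Fact q.Prime := ⟨hq⟩
    have hQtop : (Q : Subgroup G) ≠ ⊤ := by
      intro hQ
      apply hnil
      have := Q.isPGroup'
      rw [hQ] at this
      exact (this.of_equiv Subgroup.topEquiv).isNilpotent
    exact ⟨p, q, hp, hq, hpq, P, Q, hPc, hQn,
      Cfsg.Agent.H12.elementary_of_min_nonabelian hna h p q hpq P Q hPc hQn hQtop hPQ, hPQ⟩

end Cfsg.Agent.S0537
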