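import Cfsg.Statements.S0540
import Mathlib
import Cfsg.Agent.H12.Subnormal2

set_option autoImplicit false
open Pointwise
open Cfsg

namespace Cfsg.Agent.S0540

/-- A uniqueness lemma of zipper type. Let A be a subgroup of a finite group G and U a nonempty family of subgroups. For V in U write S(V) for the set of conjugates of A that lie in V and are subnormal in V. Assume: A belongs to S(V) for every V in U; a member of some S(W) that lies in V belongs to S(V); and for all V, W in U the normalizer of the join of S(V) ∩ S(W) lies in some member of U. Then U has a greatest element. -/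
theorem result {G : Type*} [Group G] [Finite G] (A : Subgroup G) (U : Set (Subgroup G)) (hU : U.Nonempty) (S : Subgroup G → Set (Subgroup G)) (hS : ∀ V B : Subgroup G, B ∈ S V ↔ (∃ g : G, B = MulAut.conj g • A) ∧ B ≤ V ∧ (B.subgroupOf V).IsSubnormal) (h1 : ∀ V ∈ U, A ∈ S V) (h2 : ∀ V ∈ U, ∀ W ∈ U, ∀ B ∈ S W, B ≤ V → B ∈ S V) (h3 : ∀ V ∈ U, ∀ W ∈ U, ∃ X ∈ U, Subgroup.normalizer ((sSup (S V ∩ S W) : Subgroup G) : Set G) ≤ X) : ∃ M ∈ U, ∀ V ∈ U, V ≤ M := by
  classical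
  have hmaxex : ∀ V ∈ U, ∃ M, V ≤ M ∧ Maximal (· ∈ U) M := fun V hV =>
    Set.Finite.exists_le_maximal (Set.toFinite U) hV
  by_contra hcon
  push Not at hcon
  have hSsub : ∀ V B, B ∈ S V → Cfsg.Agent.H12.SubnIn B V := fun V B hB =>
    Cfsg.Agent.H12.subnIn_of_isSubnormal_subgroupOf ((hS V B).mp hB).2.1 ((hS V B).mp hB).2.2
  have hSconj : ∀ V B, B ∈ S V → ∀ x ∈ V, MulAut.conj x • B ∈ S V := by
    intro V B hB x hx
    have hxV : MulAut.conj x • V = V := Subgroup.conj_smul_eq_self_of_mem hx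
    have h1 := (hSsub V _ hB).conj x
    rw [hxV] at h1
    obtain ⟨⟨g, rfl⟩, hBV, hBsn⟩ := (hS V B).mp hB
    rw [hS]
    exact ⟨⟨x * g, by rw [Cfsg.Agent.H12.conj_smul_conj_smul]⟩, h1.le, h1.isSubnormal_subgroupOf⟩
  set P : Set (Subgroup G × Subgroup G) :=
    {q | Maximal (· ∈ U) q.1 ∧ Maximal (· ∈ U) q.2 ∧ q.1 ≠ q.2} with hP
  have hPne : P.Nonempty := by
    obtain ⟨V₀, hV₀⟩ := hU
    obtain ⟨M₁, -, hM₁⟩ := hmaxex V₀ hV₀
    obtain ⟨V₁, hV₁, hV₁M₁⟩ := hcon M₁ hM₁.prop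
    obtain ⟨M₂, hV₁M₂, hM₂⟩ := hmaxex V₁ hV₁
    refine ⟨(M₁, M₂), hM₁, hM₂, fun h => hV₁M₁ ?_⟩
    have h' : M₁ = M₂ := h
    rw [h']; exact hV₁M₂
  obtain ⟨⟨V, W⟩, ⟨hV, hW, hVW⟩, hmax⟩ := Set.exists_max_image P
    (fun q => (S q.1 ∩ S q.2).ncard) (Set.toFinite P) hPne
  have key : ∀ V W : Subgroup G, Maximal (· ∈ U) V → Maximal (· ∈ U) W →
      (∀ q ∈ P, (S q.1 ∩ S q.2).ncard ≤ (S V ∩ S W).ncard) → ∀ M, Maximal (· ∈ U) M →
      Subgroup.normalizer ((sSup (S V ∩ S W) : Subgroup G) : Set G) ≤ M → V = M := by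
    intro V W hV hW hmax M hM hNM
    by_contra hVM
    have hDM : S V ∩ S W ⊆ S M := by
      intro B hB
      exact h2 M hM.prop V hV.prop B hB.1 ((le_sSup hB).trans (Subgroup.le_normalizer.trans hNM))
    by_cases hD : S V ⊆ S W
    · have hVn : V ≤ Subgroup.normalizer ((sSup (S V ∩ S W) : Subgroup G) : Set G) := by
        rw [Set.inter_eq_left.mpr hD]
        exact Cfsg.Agent.H12.le_normalizer_sSup_of_forall_mem fun B hB x hx => hSconj V B hB x hx
      exact hVM (le_antisymm (hVn.trans hNM) (hV.le_of_ge hM.prop (hVn.trans hNM)))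
    · obtain ⟨B₀, hB₀V, hB₀W⟩ := Set.not_subset.mp hD
      obtain ⟨B, hBV, hBD, hBn⟩ := Cfsg.Agent.H12.exists_le_normalizer_sSup V (S V) (S V ∩ S W)
        (fun B hB => hSsub V B hB) (fun B hB x hx => hSconj V B hB x hx) Set.inter_subset_left
        ⟨B₀, hB₀V, fun h => hB₀W h.2⟩
      have hBM : B ∈ S M := h2 M hM.prop V hV.prop B hBV (hBn.trans hNM)
      have hlt : (S V ∩ S W).ncard < (S V ∩ S M).ncard := by
        apply Set.ncard_lt_ncard _ (Set.toFinite _)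
        exact ⟨fun B' hB' => ⟨hB'.1, hDM hB'⟩, fun hcon => hBD (hcon ⟨hBV, hBM⟩)⟩
      exact absurd (hmax (V, M) ⟨hV, hM, hVM⟩) (not_le.mpr hlt)
  obtain ⟨X, hX, hNX⟩ := h3 V hV.prop W hW.prop
  obtain ⟨M, hXM, hM⟩ := hmaxex X hX
  have e1 : V = M := key V W hV hW hmax M hM (hNX.trans hXM)
  have e2 : W = M := by
    apply key W V hW hV _ M hM
    · rw [Set.inter_comm]; exact hNX.trans hXM
    · intro q hq; rw [Set.inter_comm (S W)]; exact hmax q hq
  exact hVW (e1.trans e2.symm)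

end Cfsg.Agent.S0540
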