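import Cfsg.Statements.S0541
import Mathlib
import Cfsg.Agent.H12.Subnormal2

set_option autoImplicit false
open Pointwise
open Cfsg

namespace Cfsg.Agent.S0541

/-- Let Z and Y be subgroups of a finite group G and p a prime. Suppose that for every g in G the subgroup generated by the conjugates of g Z g⁻¹ under Y is a p-group. Then there is a Sylow p-subgroup P of G such that Y normalizes the subgroup generated by all conjugates of Z contained in P. -/
theorem result {G : Type*} [Group G] [Finite G] (p : ℕ) [Fact p.Prime] (Z Y : Subgroup G) (h : ∀ g : G, IsPGroup p ↥(⨆ y ∈ Y, MulAut.conj (y * g) • Z)) : ∃ P : Sylow p G, Y ≤ Subgroup.normalizer ((⨆ g ∈ {g : G | MulAut.conj g • Z ≤ (P : Subgroup G)}, MulAut.conj g • Z : Subgroup G) : Set G) := by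
  classical
  -- conjugates of `Z` inside `Q`
  set Sg : Subgroup G → Set (Subgroup G) :=
    fun Q => {B : Subgroup G | (∃ g : G, B = MulAut.conj g • Z) ∧ B ≤ Q} with hSg
  have F1 : ∀ Q Q' : Subgroup G, Q ≤ Q' → Sg Q ⊆ Sg Q' := fun Q Q' hQ B hB => ⟨hB.1, hB.2.trans hQ⟩
  have F2 : ∀ Q B : Subgroup G, B ∈ Sg Q → ∀ x ∈ Subgroup.normalizer (Q : Set G),
      MulAut.conj x • B ∈ Sg Q := by
    rintro Q B ⟨⟨g, rfl⟩, hBQ⟩ x hx
    refine ⟨⟨x * g, by rw [Cfsg.Agent.H12.conj_smul_conj_smul]⟩, ?_⟩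
    calc MulAut.conj x • MulAut.conj g • Z ≤ MulAut.conj x • Q :=
          Subgroup.pointwise_smul_le_pointwise_smul_iff.mpr hBQ
      _ = Q := Cfsg.Agent.H12.conj_smul_eq_of_mem_normalizer hx
  have F3 : ∀ Q : Subgroup G, Subgroup.normalizer (Q : Set G) ≤
      Subgroup.normalizer ((sSup (Sg Q) : Subgroup G) : Set G) := fun Q =>
    Cfsg.Agent.H12.le_normalizer_sSup_of_forall_mem fun B hB x hx => F2 Q B hB x hx
  have F4 : ∀ Q : Subgroup G, Sg (sSup (Sg Q)) = Sg Q := by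
    intro Q
    apply Set.Subset.antisymm
    · exact F1 _ _ (sSup_le fun B hB => hB.2)
    · exact fun B hB => ⟨hB.1, le_sSup hB⟩
  -- the goal in terms of `Sg`
  have hgoal : ∀ P : Subgroup G,
      (⨆ g ∈ {g : G | MulAut.conj g • Z ≤ P}, MulAut.conj g • Z : Subgroup G) = sSup (Sg P) := by
    intro P
    apply le_antisymm
    · exact iSup₂_le fun g hg => le_sSup ⟨⟨g, rfl⟩, hg⟩
    · apply sSup_le
      rintro B ⟨⟨g, rfl⟩, hB⟩
      exact le_iSup₂ (f := fun g (_ : g ∈ {g : G | MulAut.conj g • Z ≤ P}) => MulAut.conj g • Z) g hB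
  -- choose a `Y`-invariant `p`-subgroup with the most conjugates of `Z`
  obtain ⟨Q, ⟨hQp, hQY⟩, hQmax⟩ := Set.exists_max_image
    {Q : Subgroup G | IsPGroup p Q ∧ Y ≤ Subgroup.normalizer (Q : Set G)}
    (fun Q => (Sg Q).ncard) (Set.toFinite _)
    ⟨⊥, IsPGroup.of_bot, by
      intro x _
      rw [← Cfsg.Agent.H12.conj_smul_eq_iff_mem_normalizer, Subgroup.smul_bot]⟩
  set Q₀ : Subgroup G := sSup (Sg Q) with hQ₀
  have hQ₀Q : Q₀ ≤ Q := sSup_le fun B hB => hB.2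
  have hQ₀p : IsPGroup p Q₀ := hQp.to_le hQ₀Q
  have hQ₀Y : Y ≤ Subgroup.normalizer (Q₀ : Set G) := hQY.trans (F3 Q)
  have hSgQ₀ : Sg Q₀ = Sg Q := F4 Q
  obtain ⟨P, hP⟩ := hQ₀p.exists_le_sylow
  have hclaim : Sg (P : Subgroup G) = Sg Q₀ := by
    by_contra hne
    have hsub : Sg Q₀ ⊆ Sg (P : Subgroup G) := F1 _ _ hP
    have hex : ∃ X ∈ Sg (P : Subgroup G), X ∉ Sg Q₀ := by
      by_contra hcon
      push Not at hcon
      exact hne (Set.Subset.antisymm hcon hsub)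
    obtain ⟨B, hBP, hBQ₀, hBn⟩ := Cfsg.Agent.H12.exists_le_normalizer_sSup (P : Subgroup G)
      (Sg (P : Subgroup G)) (Sg Q₀)
      (fun U hU => Cfsg.Agent.H12.subnIn_of_isPGroup P.isPGroup' hU.2)
      (fun U hU g hg => F2 _ U hU g (Subgroup.le_normalizer hg)) hsub hex
    rw [hSgQ₀, ← hQ₀] at hBn
    obtain ⟨⟨g, rfl⟩, hBP'⟩ := hBP
    set T : Subgroup G := ⨆ y ∈ Y, MulAut.conj (y * g) • Z with hT
    have hTp : IsPGroup p T := h g
    have hTN : T ≤ Subgroup.normalizer (Q₀ : Set G) := by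
      apply iSup₂_le
      intro y hy
      have h1 := Cfsg.Agent.H12.conj_smul_le_normalizer_conj_smul hBn y
      rw [Cfsg.Agent.H12.conj_smul_conj_smul,
        Cfsg.Agent.H12.conj_smul_eq_of_mem_normalizer (hQ₀Y hy)] at h1
      exact h1
    have hTY : Y ≤ Subgroup.normalizer (T : Set G) := by
      intro x hx
      rw [← Cfsg.Agent.H12.conj_smul_eq_iff_mem_normalizer]
      apply Cfsg.Agent.H12.conj_smul_eq_of_ge
      rw [Subgroup.pointwise_smul_subset_iff]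
      apply iSup₂_le
      intro y hy
      rw [← Subgroup.pointwise_smul_subset_iff, Cfsg.Agent.H12.conj_smul_conj_smul, ← mul_assoc]
      exact le_iSup₂ (f := fun y (_ : y ∈ Y) => MulAut.conj (y * g) • Z) (x * y) (Y.mul_mem hx hy)
    have hQ₁p : IsPGroup p (Q₀ ⊔ T : Subgroup G) := IsPGroup.to_sup_of_normal_left' hQ₀p hTp hTN
    have hQ₁Y : Y ≤ Subgroup.normalizer ((Q₀ ⊔ T : Subgroup G) : Set G) :=
      (le_inf hQ₀Y hTY).trans (Subgroup.normalizer_inf_normalizer_le_normalizer_sup Q₀ T)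
    have hle := hQmax (Q₀ ⊔ T) ⟨hQ₁p, hQ₁Y⟩
    have hBT : MulAut.conj g • Z ≤ T := by
      have := le_iSup₂ (f := fun y (_ : y ∈ Y) => MulAut.conj (y * g) • Z) 1 Y.one_mem
      simp only [one_mul] at this
      exact this
    have hlt : (Sg Q).ncard < (Sg (Q₀ ⊔ T)).ncard := by
      apply Set.ncard_lt_ncard _ (Set.toFinite _)
      rw [← hSgQ₀]
      refine ⟨F1 _ _ le_sup_left, fun hcon => hBQ₀ (hcon ⟨⟨g, rfl⟩, hBT.trans le_sup_right⟩)⟩
    exact absurd hle (not_le.mpr hlt)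
  refine ⟨P, ?_⟩
  rw [hgoal, hclaim, hSgQ₀, ← hQ₀]
  exact hQ₀Y

end Cfsg.Agent.S0541
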