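import Cfsg.Statements.S0542
import Mathlib
import Cfsg.Agent.H12.Subnormal

set_option autoImplicit false
open Cfsg

namespace Cfsg.Agent.S0542

/-- A Sylow p-subgroup of a finite group meets every subnormal subgroup H in a Sylow p-subgroup of H. -/
theorem result {G : Type*} [Group G] [Finite G] (p : ℕ) [Fact p.Prime] (H : Subgroup G) (hH : H.IsSubnormal) (S : Sylow p G) : ∃ Q : Sylow p H, (Q : Subgroup H) = (S : Subgroup G).subgroupOf H := by
  have h1 : IsPGroup p ((S : Subgroup G).subgroupOf H) :=
    S.isPGroup'.comap_of_injective H.subtype H.subtype_injective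
  have h2 : ¬ p ∣ ((S : Subgroup G).subgroupOf H).index := by
    have := Cfsg.Agent.H12.not_dvd_relIndex_of_isSubnormal p S hH
    rwa [Subgroup.inf_relIndex_right] at this
  exact ⟨h1.toSylow h2, IsPGroup.toSylow_coe h1 h2⟩

end Cfsg.Agent.S0542
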