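import Cfsg.Statements.S0546
import Mathlib
import Cfsg.Agent.H12.HallSystem

set_option autoImplicit false
open Cfsg

namespace Cfsg.Agent.S0546

/-- The normal closure of a system normalizer of a finite solvable group is the whole group. -/
theorem result {G : Type*} [Group G] [Finite G] [Group.IsSolvable G] (K : Nat.Primes → Subgroup G) (hK : Cfsg.IsComplementSystem K) : Subgroup.normalClosure ((Cfsg.systemNormalizer K : Subgroup G) : Set G) = ⊤ := by
  by_contra hR
  have hRn : (Subgroup.normalClosure ((Cfsg.systemNormalizer K : Subgroup G) : Set G)).Normal :=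
    Subgroup.normalClosure_normal
  have hnt : Nontrivial (G ⧸ Subgroup.normalClosure ((Cfsg.systemNormalizer K : Subgroup G) : Set G)) := by
    rw [QuotientGroup.nontrivial_iff]; exact hR
  have hlt := Group.IsSolvable.commutator_lt_top_of_nontrivial
    (G ⧸ Subgroup.normalClosure ((Cfsg.systemNormalizer K : Subgroup G) : Set G))
  have hsurjR := QuotientGroup.mk'_surjective
    (Subgroup.normalClosure ((Cfsg.systemNormalizer K : Subgroup G) : Set G))
  obtain ⟨N', hN'⟩ : ∃ N' : Subgroup G, N' = (commutator
      (G ⧸ Subgroup.normalClosure ((Cfsg.systemNormalizer K : Subgroup G) : Set G))).comap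
      (QuotientGroup.mk' (Subgroup.normalClosure ((Cfsg.systemNormalizer K : Subgroup G) : Set G))) :=
    ⟨_, rfl⟩
  have hN'n : N'.Normal := by
    rw [hN']
    exact Subgroup.Normal.comap inferInstance _
  have hRN' : Subgroup.normalClosure ((Cfsg.systemNormalizer K : Subgroup G) : Set G) ≤ N' := by
    rw [hN']
    exact Cfsg.Agent.H12.le_comap_mk' _ _
  have hN'top : N' ≠ ⊤ := by
    intro h
    apply hlt.ne
    rw [← Subgroup.map_comap_eq_self_of_surjective hsurjR (commutator _), ← hN', h,
      Subgroup.map_top_of_surjective _ hsurjR]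
  have hcomm : commutator G ≤ N' := by
    rw [hN', ← Subgroup.map_le_iff_le_comap, commutator_def, Subgroup.map_commutator,
      commutator_def]
    exact Subgroup.commutator_mono le_top le_top
  have h1 := Cfsg.Agent.H12.systemNormalizer_map K hK N'
  have h2 : Cfsg.systemNormalizer (fun p => (K p).map (QuotientGroup.mk' N')) = ⊤ := by
    rw [eq_top_iff]
    intro x _
    show x ∈ ⨅ p : Nat.Primes, Subgroup.normalizer
      (((K p).map (QuotientGroup.mk' N') : Subgroup (G ⧸ N')) : Set (G ⧸ N'))
    rw [Subgroup.mem_iInf]
    intro p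
    rw [Subgroup.mem_normalizer_iff]
    intro h
    have hab : ∀ a b : G ⧸ N', a * b = b * a := by
      have hc := (Subgroup.Normal.quotient_commutative_iff_commutator_le (N := N')).mpr hcomm
      exact fun a b => hc.is_comm.comm a b
    rw [hab x h, mul_assoc, mul_inv_cancel, mul_one]
  rw [h2] at h1
  have h3 : (Cfsg.systemNormalizer K).map (QuotientGroup.mk' N') = ⊥ := by
    rw [eq_bot_iff]
    calc (Cfsg.systemNormalizer K).map (QuotientGroup.mk' N')
        ≤ N'.map (QuotientGroup.mk' N') :=
          Subgroup.map_mono (Subgroup.le_normalClosure.trans hRN')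
      _ = ⊥ := by rw [QuotientGroup.map_mk'_self]
  rw [h3] at h1
  have hnt' : Nontrivial (G ⧸ N') := QuotientGroup.nontrivial_iff.mpr hN'top
  exact top_ne_bot h1

end Cfsg.Agent.S0546
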