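import Cfsg.Statements.S0547
import Mathlib
import Cfsg.Agent.H12.Primitive

set_option autoImplicit false
open Cfsg

namespace Cfsg.Agent.S0547

open scoped Pointwise

/-- Let a finite solvable group G act faithfully and primitively on a set, and let M be a minimal normal subgroup of G. Then M is transitive with trivial point stabilizers, and the number of points equals the order of M, which is a prime power p ^ d with d ≥ 1. -/
theorem result {G : Type*} [Group G] [Finite G] [Group.IsSolvable G] {Ω : Type*} [Nonempty Ω] [MulAction G Ω] [FaithfulSMul G Ω] (hprim : MulAction.IsPreprimitive G Ω) (M : Subgroup G) [M.Normal] (hM : M ≠ ⊥) (hmin : ∀ K : Subgroup G, K.Normal → K ≤ M → K = ⊥ ∨ K = M) : MulAction.IsPretransitive M Ω ∧ (∀ ω : Ω, MulAction.stabilizer M ω = ⊥) ∧ ∃ p d : ℕ, p.Prime ∧ 0 < d ∧ Nat.card Ω = p ^ d ∧ Nat.card M = p ^ d := by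
  have htrans := Cfsg.Agent.H12.isPretransitive_of_normal_of_faithful hprim M hM
  obtain ⟨hMc, -⟩ := Cfsg.Agent.H1.minimal_normal_elementary_abelian M hM hmin
  obtain ⟨p, hp, hMp⟩ := Cfsg.Agent.H1.minimal_normal_isPGroup M hM hmin
  have hstab : ∀ ω : Ω, MulAction.stabilizer M ω = ⊥ := by
    intro ω
    rw [eq_bot_iff]
    intro m hm
    rw [Subgroup.mem_bot]
    apply Subtype.ext
    apply Cfsg.Agent.H12.eq_one_of_commute_of_smul_eq M (m : G) ω hm
    intro n hn
    exact congrArg Subtype.val (hMc.is_comm.comm m ⟨n, hn⟩)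
  refine ⟨htrans, hstab, ?_⟩
  obtain ⟨ω⟩ := ‹Nonempty Ω›
  have hcard : Nat.card Ω = Nat.card M := by
    rw [← MulAction.index_stabilizer_of_transitive (G := M) (x := ω), hstab ω, Subgroup.index_bot]
  have : Fact p.Prime := ⟨hp⟩
  obtain ⟨d, hd⟩ := IsPGroup.iff_card.mp hMp
  refine ⟨p, d, hp, ?_, hcard.trans hd, hd⟩
  rcases Nat.eq_zero_or_pos d with h0 | h0
  · rw [h0, pow_zero] at hd
    exact absurd (Subgroup.card_eq_one.mp hd) hM
  · exact h0

end Cfsg.Agent.S0547
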