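import Cfsg.Statements.S0548
import Mathlib
import Cfsg.Agent.H12.Primitive

set_option autoImplicit false
open Cfsg

namespace Cfsg.Agent.S0548

open scoped Pointwise

/-- Let a finite solvable group G act faithfully and primitively on a set, let M be a minimal normal subgroup and H the stabilizer of a point. Then H is a complement to M, no non-identity element of H centralizes M, and the only subgroups of M normalized by H are the trivial subgroup and M. -/
theorem result {G : Type*} [Group G] [Finite G] [Group.IsSolvable G] {Ω : Type*} [MulAction G Ω] [FaithfulSMul G Ω] (hprim : MulAction.IsPreprimitive G Ω) (M : Subgroup G) [M.Normal] (hM : M ≠ ⊥) (hmin : ∀ K : Subgroup G, K.Normal → K ≤ M → K = ⊥ ∨ K = M) (ω : Ω) : Subgroup.IsComplement' M (MulAction.stabilizer G ω) ∧ MulAction.stabilizer G ω ⊓ Subgroup.centralizer (M : Set G) = ⊥ ∧ ∀ K : Subgroup G, K ≤ M → MulAction.stabilizer G ω ≤ Subgroup.normalizer (K : Set G) → K = ⊥ ∨ K = M := by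
  have htrans := Cfsg.Agent.H12.isPretransitive_of_normal_of_faithful hprim M hM
  obtain ⟨hMc, -⟩ := Cfsg.Agent.H1.minimal_normal_elementary_abelian M hM hmin
  have hMcomm : ∀ a ∈ M, ∀ b ∈ M, a * b = b * a := fun a ha b hb =>
    congrArg Subtype.val (hMc.is_comm.comm ⟨a, ha⟩ ⟨b, hb⟩)
  have h2 : MulAction.stabilizer G ω ⊓ Subgroup.centralizer (M : Set G) = ⊥ := by
    rw [eq_bot_iff]
    rintro h ⟨hh, hc⟩
    rw [Subgroup.mem_bot]
    exact Cfsg.Agent.H12.eq_one_of_commute_of_smul_eq M h ω hh (fun m hm => (hc m hm).symm)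
  have hdisj : Disjoint M (MulAction.stabilizer G ω) := by
    rw [disjoint_iff, eq_bot_iff]
    rintro m ⟨hm, hmω⟩
    have : m ∈ MulAction.stabilizer G ω ⊓ Subgroup.centralizer (M : Set G) :=
      ⟨hmω, fun n hn => hMcomm n hn m hm⟩
    rwa [h2] at this
  have hsup : M ⊔ MulAction.stabilizer G ω = ⊤ := by
    rw [eq_top_iff]
    intro g _
    obtain ⟨m, hm⟩ := MulAction.exists_smul_eq M ω (g • ω)
    have h1 : (m : G)⁻¹ * g ∈ MulAction.stabilizer G ω := by
      rw [MulAction.mem_stabilizer_iff, mul_smul, ← hm]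
      show (m : G)⁻¹ • ((m : G) • ω) = ω
      rw [inv_smul_smul]
    have e : g = (m : G) * ((m : G)⁻¹ * g) := by group
    rw [e]
    exact Subgroup.mul_mem _ (le_sup_left (a := M) m.2) (le_sup_right (a := M) h1)
  refine ⟨Cfsg.Agent.H12.isComplement'_of_normal_of_disjoint_of_sup hdisj hsup, h2, ?_⟩
  intro K hKM hKN
  apply hmin K ?_ hKM
  rw [← Subgroup.normalizer_eq_top_iff, eq_top_iff, ← hsup]
  refine sup_le ?_ hKN
  intro m hm
  rw [← Cfsg.Agent.H12.conj_smul_eq_iff_mem_normalizer]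
  apply Cfsg.Agent.H12.conj_smul_eq_of_ge
  rintro _ ⟨k, hk, rfl⟩
  show m * k * m⁻¹ ∈ K
  rw [hMcomm m hm k (hKM hk), mul_assoc, mul_inv_cancel, mul_one]
  exact hk

end Cfsg.Agent.S0548
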