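import Cfsg.Statements.S0550
import Mathlib
import Cfsg.Agent.H12.CoreFree

set_option autoImplicit false
open Cfsg

namespace Cfsg.Agent.S0550

/-- Let U be a maximal subgroup with trivial normal core in a finite group G, and A ≠ B two minimal normal subgroups. Then A is the centralizer of B and B that of A, U complements each of them, A and B are non-abelian, and A, B and (A ⊔ B) ∩ U are pairwise isomorphic. -/
theorem result {G : Type*} [Group G] [Finite G] (U : Subgroup G) (hU : IsCoatom U) (hcore : U.normalCore = ⊥) (A B : Subgroup G) [A.Normal] [B.Normal] (hA : A ≠ ⊥) (hB : B ≠ ⊥) (hAmin : ∀ K : Subgroup G, K.Normal → K ≤ A → K = ⊥ ∨ K = A) (hBmin : ∀ K : Subgroup G, K.Normal → K ≤ B → K = ⊥ ∨ K = B) (hAB : A ≠ B) : Subgroup.centralizer (B : Set G) = A ∧ Subgroup.centralizer (A : Set G) = B ∧ Subgroup.IsComplement' A U ∧ Subgroup.IsComplement' B U ∧ ¬ IsMulCommutative A ∧ Nonempty (A ≃* B) ∧ Nonempty (A ≃* ↥((A ⊔ B) ⊓ U)) := by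
  have hdisj : Disjoint A B := by
    rw [disjoint_iff]
    rcases hAmin (A ⊓ B) inferInstance inf_le_left with h | h
    · exact h
    · exfalso
      have hle : A ≤ B := by rw [← h]; exact inf_le_right
      rcases hBmin A inferInstance hle with h' | h'
      · exact hA h'
      · exact hAB h'
  have hBA : B ≤ Subgroup.centralizer (A : Set G) := by
    intro b hb a ha
    exact (Subgroup.commute_of_normal_of_disjoint A B inferInstance inferInstance hdisj a b ha hb).eq
  have hAB' : A ≤ Subgroup.centralizer (B : Set G) := Subgroup.le_centralizer_iff.mp hBA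
  have hCA : Subgroup.centralizer (A : Set G) = B :=
    (H12.eq_centralizer_of_coatom_core hU hcore inferInstance hA inferInstance hB hBA).symm
  have hCB : Subgroup.centralizer (B : Set G) = A :=
    (H12.eq_centralizer_of_coatom_core hU hcore inferInstance hB inferInstance hA hAB').symm
  have hAU : A ⊓ U = ⊥ := by
    have := H12.centralizer_inf_eq_bot_of_coatom_core hU hcore (inferInstance : B.Normal) hB
    rwa [hCB] at this
  have hBU : B ⊓ U = ⊥ := by
    have := H12.centralizer_inf_eq_bot_of_coatom_core hU hcore (inferInstance : A.Normal) hA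
    rwa [hCA] at this
  have compl : ∀ N : Subgroup G, N.Normal → N ≠ ⊥ → N ⊓ U = ⊥ → Subgroup.IsComplement' N U := by
    intro N hN hN0 hNU
    apply Subgroup.isComplement'_of_disjoint_and_mul_eq_univ (disjoint_iff.mpr hNU)
    rw [← Subgroup.normal_mul, sup_comm, H12.sup_eq_top_of_coatom_core hU hcore hN hN0]
    rfl
  have hnc : ¬ IsMulCommutative A := by
    intro hc
    have h1 : A ≤ Subgroup.centralizer (A : Set G) := Subgroup.le_centralizer A
    rw [hCA] at h1
    have h2 : A ≤ A ⊓ B := le_inf le_rfl h1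
    rw [disjoint_iff.mp hdisj] at h2
    exact hA (le_bot_iff.mp h2)
  -- the isomorphisms
  have key : ∀ N M : Subgroup G, N.Normal → N ≠ ⊥ → N ⊓ U = ⊥ → Disjoint M N →
      Nonempty (M ≃* ↥((N ⊔ M) ⊓ U)) := by
    intro N M hN hN0 hNU hMN
    haveI := hN
    apply H12.nonempty_mulEquiv_of_map_eq (QuotientGroup.mk' N)
    · rw [QuotientGroup.ker_mk']; exact hMN
    · rw [QuotientGroup.ker_mk', disjoint_iff]
      apply le_bot_iff.mp
      rw [← hNU]
      exact le_inf inf_le_right (inf_le_left.trans inf_le_right)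
    · rw [Subgroup.map_eq_map_iff, QuotientGroup.ker_mk']
      apply le_antisymm
      · apply sup_le _ le_sup_right
        intro x hx
        obtain ⟨u, hu, n, hn, rfl⟩ := H12.exists_mul_of_coatom_core hU hcore hN hN0 x
        have hu' : u ∈ (N ⊔ M) ⊓ U := by
          refine ⟨?_, hu⟩
          have h1 : u * n ∈ N ⊔ M := (le_sup_right : M ≤ N ⊔ M) hx
          have h2 : n⁻¹ ∈ N ⊔ M := (le_sup_left : N ≤ N ⊔ M) (N.inv_mem hn)
          have := mul_mem h1 h2
          simpa using this
        exact mul_mem ((le_sup_left : (N ⊔ M) ⊓ U ≤ (N ⊔ M) ⊓ U ⊔ N) hu') (le_sup_right (a := (N ⊔ M) ⊓ U) hn)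
      · apply sup_le _ le_sup_right
        exact inf_le_left.trans (sup_le le_sup_right le_sup_left)
  obtain ⟨e1⟩ := key B A inferInstance hB hBU hdisj
  obtain ⟨e2⟩ := key A B inferInstance hA hAU hdisj.symm
  have e3 : (B ⊔ A) ⊓ U = (A ⊔ B) ⊓ U := by rw [sup_comm]
  refine ⟨hCB, hCA, compl A inferInstance hA hAU, compl B inferInstance hB hBU, hnc, ?_, ?_⟩
  · exact ⟨e1.trans ((MulEquiv.subgroupCongr e3).trans e2.symm)⟩
  · exact ⟨e1.trans (MulEquiv.subgroupCongr e3)⟩

end Cfsg.Agent.S0550
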