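import Cfsg.Statements.S0553
import Cfsg.Agent.H1.HallMaximal

set_option autoImplicit false
open Cfsg

namespace Cfsg.Agent.S0553

/-- Let G be a nontrivial finite solvable group in which every maximal subgroup has order coprime to its index. Then for some prime p dividing the order of G the Sylow p-subgroups of G are normal. -/
theorem result {G : Type*} [Group G] [Finite G] [Group.IsSolvable G] [Nontrivial G] (h : ∀ M : Subgroup G, IsCoatom M → (Nat.card M).Coprime M.index) : ∃ p : ℕ, p.Prime ∧ p ∣ Nat.card G ∧ ∀ P : Sylow p G, (P : Subgroup G).Normal := by
  exact Cfsg.Agent.H1.normal_sylow_of_coatoms_hall h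

end Cfsg.Agent.S0553
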