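import Cfsg.Statements.S0555
import Mathlib
import Cfsg.Agent.H12.Cyclic

set_option autoImplicit false
open Cfsg

namespace Cfsg.Agent.S0555

open scoped commutatorElement

/-- Let i ≥ 1. If in the derived series of a group the quotient of the i-th term by the (i+1)-st and the quotient of the (i+1)-st by the (i+2)-nd are both cyclic, then the (i+1)-st and (i+2)-nd terms coincide. -/
theorem result {G : Type*} [Group G] (i : ℕ) (hi : 1 ≤ i) (h₁ : IsCyclic (↥(derivedSeries G i) ⧸ (derivedSeries G (i + 1)).subgroupOf (derivedSeries G i))) (h₂ : IsCyclic (↥(derivedSeries G (i + 1)) ⧸ (derivedSeries G (i + 2)).subgroupOf (derivedSeries G (i + 1)))) : derivedSeries G (i + 1) = derivedSeries G (i + 2) := by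
  have hBA : derivedSeries G (i + 1) ≤ derivedSeries G i := derivedSeries_antitone G (Nat.le_succ i)
  have hCB : derivedSeries G (i + 2) ≤ derivedSeries G (i + 1) :=
    derivedSeries_antitone G (Nat.le_succ (i + 1))
  have hA1 : derivedSeries G i ≤ commutator G := by
    have := derivedSeries_antitone G hi
    rwa [derivedSeries_one] at this
  apply le_antisymm _ hCB
  rw [derivedSeries_succ G i, Subgroup.commutator_le]
  intro a ha a' ha'
  have hCn : (derivedSeries G (i + 2)).Normal := derivedSeries_normal G (i + 2)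
  let π := QuotientGroup.mk' (derivedSeries G (i + 2))
  let Bbar : Subgroup (G ⧸ derivedSeries G (i + 2)) := (derivedSeries G (i + 1)).map π
  have hBn : Bbar.Normal :=
    Subgroup.Normal.map (derivedSeries_normal G (i + 1)) π (QuotientGroup.mk'_surjective _)
  have hBc : IsCyclic Bbar := by
    let f₀ : derivedSeries G (i + 1) →* Bbar := π.subgroupMap (derivedSeries G (i + 1))
    have hf₀ : Function.Surjective f₀ := π.subgroupMap_surjective (derivedSeries G (i + 1))
    let f₁ : ↥(derivedSeries G (i + 1)) ⧸ (derivedSeries G (i + 2)).subgroupOf (derivedSeries G (i + 1)) →* Bbar :=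
      QuotientGroup.lift ((derivedSeries G (i + 2)).subgroupOf (derivedSeries G (i + 1))) f₀ (by
        intro x hx
        apply Subtype.ext
        have hx' : (x : G) ∈ derivedSeries G (i + 2) := hx
        show π (x : G) = 1
        exact (QuotientGroup.eq_one_iff _).mpr hx')
    have hf₁ : Function.Surjective f₁ := by
      intro y
      obtain ⟨x, rfl⟩ := hf₀ y
      exact ⟨QuotientGroup.mk x, rfl⟩
    exact isCyclic_of_surjective f₁ hf₁
  have hcent : ∀ x ∈ derivedSeries G i, ∀ b ∈ derivedSeries G (i + 1), Commute (π x) (π b) := by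
    intro x hx b hb
    have h1 : π x ∈ commutator (G ⧸ derivedSeries G (i + 2)) := H12.map_mem_commutator π (hA1 hx)
    have h2 := H12.commutator_le_centralizer_of_isCyclic Bbar h1 (π b) ⟨b, hb, rfl⟩
    exact h2.symm
  obtain ⟨g, hg⟩ := IsCyclic.exists_generator
    (α := ↥(derivedSeries G i) ⧸ (derivedSeries G (i + 1)).subgroupOf (derivedSeries G i))
  obtain ⟨a₀, rfl⟩ := QuotientGroup.mk_surjective g
  have hrep : ∀ x ∈ derivedSeries G i, ∃ n : ℤ, ∃ b ∈ derivedSeries G (i + 1), x = (a₀ : G) ^ n * b := by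
    intro x hx
    obtain ⟨n, hn⟩ := Subgroup.mem_zpowers_iff.mp (hg (QuotientGroup.mk ⟨x, hx⟩))
    have h1 : (QuotientGroup.mk (a₀ ^ n) : ↥(derivedSeries G i) ⧸ (derivedSeries G (i + 1)).subgroupOf (derivedSeries G i)) =
        QuotientGroup.mk ⟨x, hx⟩ := by
      rw [← hn]; rfl
    have h2 := QuotientGroup.eq.mp h1
    refine ⟨n, ((a₀ : G) ^ n)⁻¹ * x, ?_, by group⟩
    simpa [Subgroup.mem_subgroupOf] using h2
  obtain ⟨n, b, hb, rfl⟩ := hrep a ha
  obtain ⟨m, b', hb', rfl⟩ := hrep a' ha'
  have c1 : Commute (π a₀) (π b) := hcent a₀ a₀.2 b hb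
  have c2 : Commute (π a₀) (π b') := hcent a₀ a₀.2 b' hb'
  have c3 : Commute (π b) (π b') := hcent b (hBA hb) b' hb'
  rw [← QuotientGroup.eq_one_iff]
  show π ⁅(a₀ : G) ^ n * b, (a₀ : G) ^ m * b'⁆ = 1
  rw [map_commutatorElement, commutatorElement_eq_one_iff_commute]
  simp only [map_mul, map_zpow]
  exact Commute.mul_left (Commute.mul_right (Commute.zpow_zpow (Commute.refl _) n m) (c2.zpow_left n))
    (Commute.mul_right (c1.symm.zpow_right m) c3)

end Cfsg.Agent.S0555
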