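import Cfsg.Statements.S0558
import Mathlib
import Cfsg.Agent.H12.Focal2

set_option autoImplicit false
open Cfsg

namespace Cfsg.Agent.S0558

/-- Let H be a subgroup of a finite group G that is not a Sylow subgroup of G for any prime, and suppose that for every prime p dividing the order of H and every Sylow p-subgroup P of H the normalizer of P in G is exactly H. Then some normal subgroup of G is a complement to H. -/
theorem result {G : Type*} [Group G] [Finite G] (H : Subgroup G) (hnot : ∀ p : ℕ, p.Prime → ∀ P : Sylow p G, (P : Subgroup G) ≠ H) (hnorm : ∀ p : ℕ, p.Prime → p ∣ Nat.card H → ∀ P : Sylow p H, Subgroup.normalizer (((P : Subgroup H).map H.subtype : Subgroup G) : Set G) = H) : ∃ N : Subgroup G, N.Normal ∧ Subgroup.IsComplement' N H := by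
  exact Cfsg.Agent.H12.exists_normal_complement_of_normalizer_sylow H hnot hnorm

end Cfsg.Agent.S0558
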