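import Cfsg.Statements.S0563
import Mathlib
import Cfsg.Agent.H12.KW3

set_option autoImplicit false
open Pointwise
open Cfsg

namespace Cfsg.Agent.S0563

/-- If a finite group G is the product AB of two nilpotent subgroups of coprime orders, then G is solvable, and for every Sylow p-subgroup P of A and Sylow q-subgroup Q of B the product set PQ is a subgroup. -/
theorem result {G : Type*} [Group G] [Finite G] (A B : Subgroup G) (hA : Group.IsNilpotent A) (hB : Group.IsNilpotent B) (hcop : (Nat.card A).Coprime (Nat.card B)) (hAB : ∀ g : G, ∃ a ∈ A, ∃ b ∈ B, g = a * b) : Group.IsSolvable G ∧ ∀ (p q : ℕ) [Fact p.Prime] [Fact q.Prime] (P : Sylow p A) (Q : Sylow q B), ∃ S : Subgroup G, (S : Set G) = (((P : Subgroup A).map A.subtype : Subgroup G) : Set G) * (((Q : Subgroup B).map B.subtype : Subgroup G) : Set G) := by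
  have hsolv : Group.IsSolvable G := Cfsg.Agent.H12.kw_coprime_solvable A B hA hB hcop hAB
  refine ⟨hsolv, ?_⟩
  intro p q _ _ P Q
  have hdisj : A ⊓ B = ⊥ := (Subgroup.disjoint_of_coprime_natCard hcop).eq_bot
  have hcard : Nat.card A * Nat.card B = Nat.card G := by
    have h1 := Cfsg.Agent.H12.card_mul_of_fact (L := ⊤) (H := A) (K := B) le_top le_top
      (fun l _ => hAB l) hdisj
    rwa [Subgroup.card_top] at h1
  have key : ∀ (A B : Subgroup G), Group.IsNilpotent A → Nat.card A * Nat.card B = Nat.card G →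
      (Nat.card A).Coprime (Nat.card B) → ∀ (p : ℕ) [Fact p.Prime] (P : Sylow p A),
      A ≤ Subgroup.normalizer (((P : Subgroup A).map A.subtype : Subgroup G) : Set G) ∧
      (Nat.card ((P : Subgroup A).map A.subtype : Subgroup G)).Coprime
        ((P : Subgroup A).map A.subtype : Subgroup G).index := by
    intro A B hA hcard hcop p hp P
    have := hA
    refine ⟨Cfsg.Agent.H13.le_normalizer_map_normal A P, ?_⟩
    by_cases hpA : p ∣ Nat.card A
    · apply Cfsg.Agent.H12.coprime_index_of_sylow_card (p := p)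
      rw [Cfsg.Agent.H1.sylow_map_card, ← hcard,
        Nat.factorization_mul Nat.card_pos.ne' Nat.card_pos.ne', Finsupp.coe_add, Pi.add_apply]
      have h1 : ¬ p ∣ Nat.card B := fun hpB =>
        hp.out.one_lt.ne' (Nat.eq_one_of_dvd_coprimes hcop hpA hpB)
      rw [Nat.factorization_eq_zero_of_not_dvd h1, add_zero]
    · rw [Cfsg.Agent.H1.sylow_map_card, Nat.factorization_eq_zero_of_not_dvd hpA, pow_zero]
      exact Nat.coprime_one_left _
  obtain ⟨hAn, hAh⟩ := key A B hA hcard hcop p P
  obtain ⟨hBn, hBh⟩ := key B A hB (by rw [mul_comm]; exact hcard) hcop.symm q Q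
  exact Cfsg.Agent.H1.hall_mul_of_factorization A B _ _ hAB hAn hBn hAh hBh

end Cfsg.Agent.S0563
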