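import Mathlib
import Cfsg.Statements.S0567

set_option autoImplicit false
open Cfsg
open scoped commutatorElement

namespace Cfsg.Agent.S0567

theorem iter_mono {G : Type*} [Group G] {H K : Subgroup G} (hHK : H ≤ K) (m : ℕ) :
    (fun L : Subgroup G => ⁅L, H⁆)^[m] ⊤ ≤ (fun L : Subgroup G => ⁅L, K⁆)^[m] ⊤ := by
  induction m with
  | zero => simp
  | succ m ih =>
    rw [Function.iterate_succ_apply', Function.iterate_succ_apply']
    exact Subgroup.commutator_mono ih hHK

theorem normalizer_inf_le {G : Type*} [Group G] (A B : Subgroup G) :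
    Subgroup.normalizer (A : Set G) ⊓ Subgroup.normalizer (B : Set G) ≤
      Subgroup.normalizer ((A ⊔ B : Subgroup G) : Set G) := by
  intro g hg
  rw [Subgroup.mem_inf, Subgroup.mem_normalizer_iff_map_conj_eq,
    Subgroup.mem_normalizer_iff_map_conj_eq] at hg
  rw [Subgroup.mem_normalizer_iff_map_conj_eq, Subgroup.map_sup, hg.1, hg.2]

theorem sup_le_normalizer {G : Type*} [Group G] (H L : Subgroup G) :
    H ⊔ L ≤ Subgroup.normalizer ((H ⊔ ⁅L, H⁆ : Subgroup G) : Set G) := by
  have h1 : H ≤ Subgroup.normalizer ((H ⊔ ⁅L, H⁆ : Subgroup G) : Set G) :=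
    (le_inf Subgroup.le_normalizer (Subgroup.normalizer_commutator_ge_right L H)).trans
      (normalizer_inf_le H ⁅L, H⁆)
  have h2 : L ≤ Subgroup.normalizer ((H ⊔ ⁅L, H⁆ : Subgroup G) : Set G) := by
    have hb : L ≤ Subgroup.normalizer ((⁅L, H⁆ : Subgroup G) : Set G) :=
      Subgroup.normalizer_commutator_ge_left L H
    intro l hl
    rw [Subgroup.mem_normalizer_iff_map_conj_eq, Subgroup.map_sup,
      Subgroup.mem_normalizer_iff_map_conj_eq.mp (hb hl)]
    apply le_antisymm
    · refine sup_le ?_ le_sup_right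
      rintro _ ⟨y, hy, rfl⟩
      have e : (MulAut.conj l) y = ⁅l, y⁆ * y := by simp [commutatorElement_def, mul_assoc]
      show (MulAut.conj l) y ∈ H ⊔ ⁅L, H⁆
      rw [e]
      exact mul_mem (Subgroup.mem_sup_right (Subgroup.commutator_mem_commutator hl hy))
        (Subgroup.mem_sup_left hy)
    · refine sup_le ?_ le_sup_right
      intro y hy
      have e : y = ⁅l, y⁆⁻¹ * (MulAut.conj l) y := by simp [commutatorElement_def, mul_assoc]
      rw [e]
      exact mul_mem (Subgroup.mem_sup_right (inv_mem (Subgroup.commutator_mem_commutator hl hy)))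
        (Subgroup.mem_sup_left (Subgroup.mem_map_of_mem _ hy))
  exact sup_le h1 h2

theorem subnormal_sup_iter {G : Type*} [Group G] (H : Subgroup G) (m : ℕ) :
    (H ⊔ (fun K : Subgroup G => ⁅K, H⁆)^[m] ⊤).IsSubnormal := by
  induction m with
  | zero => simp
  | succ m ih =>
    rw [Function.iterate_succ_apply']
    set L := (fun K : Subgroup G => ⁅K, H⁆)^[m] ⊤ with hL
    have hle : H ⊔ ⁅L, H⁆ ≤ H ⊔ L :=
      sup_le le_sup_left ((Subgroup.commutator_le_sup L H).trans (le_of_eq (sup_comm _ _)))
    refine Subgroup.IsSubnormal.step _ (H ⊔ L) hle ih ?_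
    rw [Subgroup.normal_subgroupOf_iff_le_normalizer hle]
    exact sup_le_normalizer H L

/-- A subgroup H of a group G is subnormal exactly when, for some m, the subgroup obtained from G by taking the commutator with H m times in succession is contained in H. -/
theorem result {G : Type*} [Group G] (H : Subgroup G) : H.IsSubnormal ↔ ∃ m : ℕ, (fun K : Subgroup G => ⁅K, H⁆)^[m] ⊤ ≤ H := by
  constructor
  · intro h
    induction h with
    | top => exact ⟨0, le_rfl⟩
    | step H K h_le hSubn hN ih =>
      obtain ⟨m, hm⟩ := ih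
      refine ⟨m + 1, ?_⟩
      rw [Function.iterate_succ_apply']
      have h1 : (fun L : Subgroup G => ⁅L, H⁆)^[m] ⊤ ≤ K := (iter_mono h_le m).trans hm
      rw [Subgroup.normal_subgroupOf_iff_le_normalizer h_le] at hN
      have h2 : ⁅K, H⁆ ≤ H := Subgroup.le_normalizer_iff_commutator_le_right.mp hN
      exact (Subgroup.commutator_mono h1 le_rfl).trans h2
  · rintro ⟨m, hm⟩
    have := subnormal_sup_iter H m
    rwa [sup_of_le_left hm] at this

end Cfsg.Agent.S0567
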