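import Mathlib
import Cfsg.Statements.S0573
import Cfsg.Agent.S0572

set_option autoImplicit false
open Cfsg
open scoped commutatorElement

namespace Cfsg.Agent.S0573

universe u

section
variable {G : Type u} [Group G]

/-- elementwise commutativity of a subgroup -/
def Comm (A : Subgroup G) : Prop := ∀ x ∈ A, ∀ y ∈ A, x * y = y * x

/-- `G = A * B` -/
def IsProd (A B : Subgroup G) : Prop := ∀ g : G, ∃ a ∈ A, ∃ b ∈ B, g = a * b

theorem IsProd.symm {A B : Subgroup G} (h : IsProd A B) : IsProd B A := by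
  intro g
  obtain ⟨a, ha, b, hb, e⟩ := h g⁻¹
  refine ⟨b⁻¹, inv_mem hb, a⁻¹, inv_mem ha, ?_⟩
  rw [← mul_inv_rev, ← e, inv_inv]

/-- an element commuting with `A` and `B` is central -/
theorem mem_center_of_comm {A B : Subgroup G} (h : IsProd A B) {z : G}
    (hA : ∀ a ∈ A, a * z = z * a) (hB : ∀ b ∈ B, b * z = z * b) : z ∈ Subgroup.center G := by
  rw [Subgroup.mem_center_iff]
  intro g
  obtain ⟨a, ha, b, hb, rfl⟩ := h g
  rw [mul_assoc, hB b hb, ← mul_assoc, hA a ha, mul_assoc]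

theorem center_case {A B : Subgroup G} (hA : Comm A) (hB : Comm B) (h : IsProd A B)
    (hZ : Subgroup.center G ≠ ⊥) : ∃ N : Subgroup G, N.Normal ∧ N ≠ ⊥ ∧ (N ≤ A ∨ N ≤ B) := by
  rcases Subgroup.bot_or_exists_ne_one (Subgroup.center G) with h0 | ⟨z, hz, hz1⟩
  · exact absurd h0 hZ
  obtain ⟨a, ha, b, hb, e⟩ := h z
  have hzc : ∀ g : G, g * z = z * g := fun g => (Subgroup.mem_center_iff.mp hz g)
  have hac : a ∈ Subgroup.center G := by
    apply mem_center_of_comm h
    · intro a' ha'; exact hA a' ha' a ha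
    · intro b' hb'
      have : a = z * b⁻¹ := by rw [e, mul_inv_cancel_right]
      rw [this, ← mul_assoc, hzc b', mul_assoc, mul_assoc]
      congr 1
      exact hB b' hb' b⁻¹ (inv_mem hb)
  have hbc : b ∈ Subgroup.center G := by
    have : b = a⁻¹ * z := by rw [e, inv_mul_cancel_left]
    rw [this]; exact mul_mem (inv_mem hac) hz
  have key : ∀ c : G, c ∈ Subgroup.center G → c ≠ 1 →
      (Subgroup.zpowers c).Normal ∧ Subgroup.zpowers c ≠ ⊥ := by
    intro c hc hc1
    refine ⟨⟨fun n hn g => ?_⟩, ?_⟩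
    · have hn' : n ∈ Subgroup.center G := (Subgroup.zpowers_le.mpr hc) hn
      rw [Subgroup.mem_center_iff.mp hn' g, mul_inv_cancel_right]; exact hn
    · rw [Ne, Subgroup.zpowers_eq_bot]; exact hc1
  by_cases ha1 : a = 1
  · have hb1 : b ≠ 1 := by
      intro hb1; apply hz1; rw [e, ha1, hb1, mul_one]
    exact ⟨Subgroup.zpowers b, (key b hbc hb1).1, (key b hbc hb1).2,
      Or.inr (Subgroup.zpowers_le.mpr hb)⟩
  · exact ⟨Subgroup.zpowers a, (key a hac ha1).1, (key a hac ha1).2,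
      Or.inl (Subgroup.zpowers_le.mpr ha)⟩

theorem comm_commutator {A B : Subgroup G} (hA : Comm A) (hB : Comm B) (h : IsProd A B) :
    Comm (commutator G) := by
  have : IsMulCommutative A := ⟨⟨fun x y => Subtype.ext (hA x x.2 y y.2)⟩⟩
  have : IsMulCommutative B := ⟨⟨fun x y => Subtype.ext (hB x x.2 y y.2)⟩⟩
  have h2 := Cfsg.Agent.S0572.result A B h
  intro x hx y hy
  have : ⁅x, y⁆ ∈ derivedSeries G 2 := by
    rw [show (2:ℕ) = 1 + 1 from rfl, derivedSeries_succ, derivedSeries_one]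
    exact Subgroup.commutator_mem_commutator hx hy
  rw [h2, Subgroup.mem_bot] at this
  exact commutatorElement_eq_one_iff_mul_comm.mp this

theorem commutator_ne_bot' [Nontrivial G] (hZ : Subgroup.center G = ⊥) : commutator G ≠ ⊥ := by
  intro hb
  have : Subgroup.center G = ⊤ := by
    rw [eq_top_iff]
    intro z _
    rw [Subgroup.mem_center_iff]
    intro g
    have : ⁅g, z⁆ ∈ commutator G :=
      Subgroup.commutator_mem_commutator (Subgroup.mem_top g) (Subgroup.mem_top z)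
    rw [hb, Subgroup.mem_bot] at this
    exact commutatorElement_eq_one_iff_mul_comm.mp this
  rw [hZ] at this
  exact bot_ne_top this

theorem proper_case [Nontrivial G] {A B : Subgroup G} (hA : Comm A) (hB : Comm B)
    (h : IsProd A B) (hZ : Subgroup.center G = ⊥) (hD : Comm (commutator G))
    (hM : A ⊔ commutator G ≠ ⊤)
    (IH : ∀ M : Subgroup G, M ≠ ⊤ → M ≠ ⊥ → ∀ A' B' : Subgroup M, Comm A' → Comm B' →
      IsProd A' B' → ∃ N : Subgroup M, N.Normal ∧ N ≠ ⊥ ∧ (N ≤ A' ∨ N ≤ B')) :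
    ∃ N : Subgroup G, N.Normal ∧ N ≠ ⊥ ∧ (N ≤ A ∨ N ≤ B) := by
  have hDn : (commutator G).Normal := by rw [commutator_def]; infer_instance
  have hDM : commutator G ≤ A ⊔ commutator G := le_sup_right
  have hAM : A ≤ A ⊔ commutator G := le_sup_left
  have hMn : (A ⊔ commutator G).Normal := by
    refine ⟨fun m hm g => ?_⟩
    have : g * m * g⁻¹ = ⁅g, m⁆ * m := by simp [commutatorElement_def]
    rw [this]
    exact mul_mem (hDM (Subgroup.commutator_mem_commutator (Subgroup.mem_top g)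
      (Subgroup.mem_top m))) hm
  have hMbot : A ⊔ commutator G ≠ ⊥ := by
    intro hb
    apply commutator_ne_bot' hZ
    rw [eq_bot_iff, ← hb]; exact hDM
  have hMmem : ∀ m ∈ A ⊔ commutator G, ∃ a ∈ A, ∃ d ∈ commutator G, a * d = m := by
    intro m hm
    exact Subgroup.mem_sup_of_normal_right.mp hm
  obtain ⟨N₁, hN₁n, hN₁b, hN₁le⟩ := IH (A ⊔ commutator G) hM hMbot
    (A.subgroupOf (A ⊔ commutator G)) (B.subgroupOf (A ⊔ commutator G))
    (fun x hx y hy => Subtype.ext (hA x.1 (Subgroup.mem_subgroupOf.mp hx) y.1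
      (Subgroup.mem_subgroupOf.mp hy)))
    (fun x hx y hy => Subtype.ext (hB x.1 (Subgroup.mem_subgroupOf.mp hx) y.1
      (Subgroup.mem_subgroupOf.mp hy)))
    (by
      intro g
      obtain ⟨a, ha, b, hb, e⟩ := h g.1
      have hbM : b ∈ A ⊔ commutator G := by
        have : b = a⁻¹ * g.1 := by rw [e, inv_mul_cancel_left]
        rw [this]; exact mul_mem (inv_mem (hAM ha)) g.2
      exact ⟨⟨a, hAM ha⟩, Subgroup.mem_subgroupOf.mpr ha, ⟨b, hbM⟩,
        Subgroup.mem_subgroupOf.mpr hb, Subtype.ext e⟩)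
  set N := N₁.map (A ⊔ commutator G).subtype with hNdef
  have hNM : N ≤ A ⊔ commutator G := Subgroup.map_subtype_le N₁
  have hNb : N ≠ ⊥ := by
    rw [hNdef, Ne, Subgroup.map_eq_bot_iff_of_injective _ (Subgroup.subtype_injective _)]
    exact hN₁b
  have hNconj : ∀ m ∈ A ⊔ commutator G, ∀ n ∈ N, m * n * m⁻¹ ∈ N := by
    intro m hm n hn
    obtain ⟨x, hx, rfl⟩ := Subgroup.mem_map.mp hn
    refine Subgroup.mem_map.mpr ⟨⟨m, hm⟩ * x * ⟨m, hm⟩⁻¹, hN₁n.conj_mem x hx ⟨m, hm⟩, ?_⟩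
    simp
  rcases hN₁le with hle | hle
  · -- `N ≤ A`
    have hNA : N ≤ A := Subgroup.map_le_iff_le_comap.mpr hle
    refine ⟨(A ⊔ commutator G) ⊓ Subgroup.centralizer ((A ⊔ commutator G : Subgroup G) : Set G),
      inferInstance, ?_, Or.inl ?_⟩
    · -- nontrivial
      rcases Subgroup.bot_or_exists_ne_one N with h0 | ⟨n, hn, hn1⟩
      · exact absurd h0 hNb
      have hcrit : ∀ c : G, c ∈ A ⊔ commutator G → (∀ a ∈ A, a * c = c * a) →
          (∀ d ∈ commutator G, d * c = c * d) → c ≠ 1 →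
          (A ⊔ commutator G) ⊓ Subgroup.centralizer ((A ⊔ commutator G : Subgroup G) : Set G)
            ≠ ⊥ := by
        intro c hcM hcA hcD hc1 hbot
        have : c ∈ (A ⊔ commutator G) ⊓
            Subgroup.centralizer ((A ⊔ commutator G : Subgroup G) : Set G) := by
          refine Subgroup.mem_inf.mpr ⟨hcM, ?_⟩
          rw [Subgroup.mem_centralizer_iff]
          intro m hm
          obtain ⟨a, ha, d, hd, rfl⟩ := hMmem m hm
          rw [mul_assoc, hcD d hd, ← mul_assoc, hcA a ha, mul_assoc]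
        rw [hbot, Subgroup.mem_bot] at this
        exact hc1 this
      by_cases hex : ∃ d ∈ commutator G, ⁅n, d⁆ ≠ 1
      · obtain ⟨d, hd, hnd⟩ := hex
        have hcN : ⁅n, d⁆ ∈ N := by
          have : ⁅n, d⁆ = n * (d * n⁻¹ * d⁻¹) := by simp [commutatorElement_def, mul_assoc]
          rw [this]
          exact mul_mem hn (hNconj d (hDM hd) n⁻¹ (inv_mem hn))
        have hcD : ⁅n, d⁆ ∈ commutator G :=
          Subgroup.commutator_mem_commutator (Subgroup.mem_top n) (Subgroup.mem_top d)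
        exact hcrit ⁅n, d⁆ (hDM hcD) (fun a ha => hA a ha _ (hNA hcN))
          (fun d' hd' => hD d' hd' _ hcD) hnd
      · push Not at hex
        exact hcrit n (hNM hn) (fun a ha => hA a ha n (hNA hn))
          (fun d hd => (commutatorElement_eq_one_iff_mul_comm.mp (hex d hd)).symm) hn1
    · -- contained in `A`
      intro z hz
      obtain ⟨hzM, hzc⟩ := Subgroup.mem_inf.mp hz
      rw [Subgroup.mem_centralizer_iff] at hzc
      obtain ⟨a, ha, b, hb, e⟩ := h z
      have hbz : b = a⁻¹ * z := by rw [e, inv_mul_cancel_left]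
      have hbc : b ∈ Subgroup.center G := by
        apply mem_center_of_comm h
        · intro a' ha'
          rw [hbz, ← mul_assoc, hA a' ha' a⁻¹ (inv_mem ha), mul_assoc, hzc a' (hAM ha'),
            mul_assoc]
        · intro b' hb'; exact hB b' hb' b hb
      rw [hZ, Subgroup.mem_bot] at hbc
      rw [e, hbc, mul_one]; exact ha
  · -- `N ≤ B`
    have hNB : N ≤ B := Subgroup.map_le_iff_le_comap.mpr hle
    refine ⟨N, ⟨fun n hn g => ?_⟩, hNb, Or.inr hNB⟩
    obtain ⟨a, ha, b, hb, rfl⟩ := h g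
    have : a * b * n * (a * b)⁻¹ = a * n * a⁻¹ := by
      have e : b * n = n * b := hB b hb n (hNB hn)
      rw [mul_inv_rev, mul_assoc a b n, e]
      group
    rw [this]
    exact hNconj a (hAM ha) n hn

theorem top_case [Finite G] {A B : Subgroup G} (hA : Comm A) (hB : Comm B) (h : IsProd A B)
    (hZ : Subgroup.center G = ⊥) (hD : Comm (commutator G)) (hDne : commutator G ≠ ⊥)
    (hMA : A ⊔ commutator G = ⊤) (hMB : B ⊔ commutator G = ⊤) : False := by
  have hDn : (commutator G).Normal := by rw [commutator_def]; infer_instance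
  have hAD : ∀ g : G, ∃ a ∈ A, ∃ d ∈ commutator G, a * d = g := by
    intro g
    exact Subgroup.mem_sup_of_normal_right.mp (hMA ▸ Subgroup.mem_top g)
  have hBD : ∀ g : G, ∃ b ∈ B, ∃ d ∈ commutator G, b * d = g := by
    intro g
    exact Subgroup.mem_sup_of_normal_right.mp (hMB ▸ Subgroup.mem_top g)
  -- an element commuting with `A` and `D` is trivial
  have cen : ∀ z : G, (∀ a ∈ A, a * z = z * a) → (∀ d ∈ commutator G, d * z = z * d) →
      z = 1 := by
    intro z h1 h2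
    have : z ∈ Subgroup.center G := by
      rw [Subgroup.mem_center_iff]
      intro g
      obtain ⟨a, ha, d, hd, rfl⟩ := hAD g
      rw [mul_assoc, h2 d hd, ← mul_assoc, h1 a ha, mul_assoc]
    rwa [hZ, Subgroup.mem_bot] at this
  -- existence of `a_v`
  have ex : ∀ g : G, ∃ a ∈ A, g * a ∈ B := by
    intro g
    obtain ⟨b, hb, a, ha, e⟩ := h.symm g
    refine ⟨a⁻¹, inv_mem ha, ?_⟩
    rw [e, mul_inv_cancel_right]; exact hb
  have surj : ∀ a ∈ A, ∃ v ∈ commutator G, v * a ∈ B := by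
    intro a ha
    obtain ⟨b, hb, d, hd, e⟩ := hBD a⁻¹
    refine ⟨d, hd, ?_⟩
    have : d * a = b⁻¹ := by
      have : d = b⁻¹ * a⁻¹ := by rw [← e, inv_mul_cancel_left]
      rw [this, inv_mul_cancel_right]
    rw [this]; exact inv_mem hb
  -- the symmetric identity
  have sym : ∀ v ∈ commutator G, ∀ w ∈ commutator G, ∀ a ∈ A, ∀ a' ∈ A, v * a ∈ B →
      w * a' ∈ B → a * w * a⁻¹ * w⁻¹ = a' * v * a'⁻¹ * v⁻¹ := by
    intro v hv w hw a ha a' ha' hva hwa
    have E := hB (v * a) hva (w * a') hwa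
    have caa : a * a' = a' * a := hA a ha a' ha'
    have hx : a * w * a⁻¹ ∈ commutator G := hDn.conj_mem w hw a
    have hy : a' * v * a'⁻¹ ∈ commutator G := hDn.conj_mem v hv a'
    have e1 : v * (a * w * a⁻¹) = w * (a' * v * a'⁻¹) := by
      have l1 : v * a * (w * a') = v * (a * w * a⁻¹) * (a * a') := by group
      have l2 : w * a' * (v * a) = w * (a' * v * a'⁻¹) * (a' * a) := by group
      rw [l1, l2, ← caa] at E
      exact mul_right_cancel E
    have e2 : a * w * a⁻¹ = v⁻¹ * (w * (a' * v * a'⁻¹)) := by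
      rw [← e1, inv_mul_cancel_left]
    rw [e2, hD w hw _ hy]
    have e3 : v⁻¹ * (a' * v * a'⁻¹ * w) * w⁻¹ = v⁻¹ * (a' * v * a'⁻¹) := by group
    rw [e3]
    exact hD v⁻¹ (inv_mem hv) _ hy
  -- a minimal normal subgroup inside `D`
  obtain ⟨N, hNn, hNb, hND, hNmin⟩ : ∃ N : Subgroup G, N.Normal ∧ N ≠ ⊥ ∧ N ≤ commutator G ∧
      ∀ K : Subgroup G, K.Normal → K ≠ ⊥ → K ≤ N → K = N := by
    have hne : Nonempty {N : Subgroup G // N.Normal ∧ N ≠ ⊥ ∧ N ≤ commutator G} :=
      ⟨⟨commutator G, hDn, hDne, le_rfl⟩⟩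
    obtain ⟨N, hN⟩ := Finite.exists_min
      (fun N : {N : Subgroup G // N.Normal ∧ N ≠ ⊥ ∧ N ≤ commutator G} => Nat.card N.1)
    refine ⟨N.1, N.2.1, N.2.2.1, N.2.2.2, ?_⟩
    intro K hKn hKb hKN
    exact Subgroup.eq_of_le_of_card_ge hKN (hN ⟨K, hKn, hKb, hKN.trans N.2.2.2⟩)
  rcases Subgroup.bot_or_exists_ne_one N with h0 | ⟨n, hn, hn1⟩
  · exact hNb h0
  have hnD : n ∈ commutator G := hND hn
  obtain ⟨an, han, hanB⟩ := ex n
  -- the homomorphism `r ↦ [a_n, r]`
  let ψ : ↥(commutator G) →* G :=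
    { toFun := fun r => an * r.1 * an⁻¹ * r.1⁻¹
      map_one' := by simp
      map_mul' := by
        intro r s
        have hs : an * s.1 * an⁻¹ ∈ commutator G := hDn.conj_mem s.1 s.2 an
        have c1 : r.1⁻¹ * (an * s.1 * an⁻¹) = (an * s.1 * an⁻¹) * r.1⁻¹ :=
          hD _ (inv_mem r.2) _ hs
        have c2 : r.1⁻¹ * s.1⁻¹ = s.1⁻¹ * r.1⁻¹ := hD _ (inv_mem r.2) _ (inv_mem s.2)
        show an * (r.1 * s.1) * an⁻¹ * (r.1 * s.1)⁻¹ =
          an * r.1 * an⁻¹ * r.1⁻¹ * (an * s.1 * an⁻¹ * s.1⁻¹)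
        calc an * (r.1 * s.1) * an⁻¹ * (r.1 * s.1)⁻¹
            = an * r.1 * an⁻¹ * ((an * s.1 * an⁻¹) * r.1⁻¹) * s.1⁻¹ := by
              rw [mul_inv_rev, ← c2]; group
          _ = an * r.1 * an⁻¹ * r.1⁻¹ * (an * s.1 * an⁻¹ * s.1⁻¹) := by
              rw [← c1]; group }
  have hψ : ∀ r : ↥(commutator G), ψ r = an * r.1 * an⁻¹ * r.1⁻¹ := fun r => rfl
  -- description of the range
  have I1 : ∀ a ∈ A, a * n * a⁻¹ * n⁻¹ ∈ ψ.range := by
    intro a ha
    obtain ⟨v, hv, hvB⟩ := surj a ha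
    refine ⟨⟨v, hv⟩, ?_⟩
    rw [hψ]
    exact sym n hnD v hv an han a ha hanB hvB
  have I0 : ∀ x ∈ ψ.range, ∃ a ∈ A, x = a * n * a⁻¹ * n⁻¹ := by
    rintro x ⟨r, rfl⟩
    obtain ⟨a, ha, haB⟩ := ex r.1
    exact ⟨a, ha, by rw [hψ]; exact sym n hnD r.1 r.2 an han a ha hanB haB⟩
  have I2 : ψ.range ≤ N := by
    intro x hx
    obtain ⟨a, ha, rfl⟩ := I0 x hx
    exact mul_mem (hNn.conj_mem n hn a) (inv_mem hn)
  have I3 : ψ.range.Normal := by
    refine ⟨fun x hx g => ?_⟩
    obtain ⟨a', ha', d, hd, rfl⟩ := hAD g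
    have hxD : x ∈ commutator G := hND (I2 hx)
    have e : a' * d * x * (a' * d)⁻¹ = a' * x * a'⁻¹ := by
      have : d * x = x * d := hD d hd x hxD
      rw [mul_inv_rev, mul_assoc a' d x, this]; group
    rw [e]
    obtain ⟨a, ha, rfl⟩ := I0 x hx
    have e2 : a' * (a * n * a⁻¹ * n⁻¹) * a'⁻¹ =
        ((a' * a) * n * (a' * a)⁻¹ * n⁻¹) * (a' * n * a'⁻¹ * n⁻¹)⁻¹ := by group
    rw [e2]
    exact mul_mem (I1 _ (mul_mem ha' ha)) (inv_mem (I1 _ ha'))
  by_cases hI : ψ.range = ⊥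
  · -- `n` is central
    apply hn1
    apply cen n
    · intro a ha
      have : a * n * a⁻¹ * n⁻¹ = 1 := by
        have := I1 a ha
        rwa [hI, Subgroup.mem_bot] at this
      have h3 : a * n * a⁻¹ = n := by
        rw [mul_inv_eq_one] at this; exact this
      calc a * n = (a * n * a⁻¹) * a := by group
        _ = n * a := by rw [h3]
    · intro d hd; exact hD d hd n hnD
  · have hIN : ψ.range = N := hNmin _ I3 hI I2
    have hnI : n ∈ ψ.range := hIN ▸ hn
    obtain ⟨r, hr⟩ := hnI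
    have hr' : ψ r⁻¹ = n⁻¹ := by rw [map_inv, hr]
    obtain ⟨a, ha, haB⟩ := ex (r⁻¹ : ↥(commutator G)).1
    have := sym n hnD (r⁻¹ : ↥(commutator G)).1 (r⁻¹ : ↥(commutator G)).2 an han a ha hanB haB
    rw [← hψ, hr'] at this
    -- `n⁻¹ = a * n * a⁻¹ * n⁻¹`
    apply hn1
    have h4 : a * n * a⁻¹ = 1 := by
      have h5 : a * n * a⁻¹ * n⁻¹ = 1 * n⁻¹ := by rw [one_mul]; exact this.symm
      exact mul_right_cancel h5
    have h6 : n = a⁻¹ * (a * n * a⁻¹) * a := by group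
    rw [h6, h4]; group

end

theorem main : ∀ (n : ℕ) (G : Type u) [Group G] [Finite G] [Nontrivial G], Nat.card G = n →
    ∀ A B : Subgroup G, Comm A → Comm B → IsProd A B →
    ∃ N : Subgroup G, N.Normal ∧ N ≠ ⊥ ∧ (N ≤ A ∨ N ≤ B) := by
  intro n
  induction n using Nat.strong_induction_on with
  | _ n ih =>
    intro G _ _ _ hn A B hA hB h
    by_cases hZ : Subgroup.center G = ⊥
    swap
    · exact center_case hA hB h hZ
    have hD := comm_commutator hA hB h
    have IH : ∀ M : Subgroup G, M ≠ ⊤ → M ≠ ⊥ → ∀ A' B' : Subgroup M, Comm A' → Comm B' →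
        IsProd A' B' → ∃ N : Subgroup M, N.Normal ∧ N ≠ ⊥ ∧ (N ≤ A' ∨ N ≤ B') := by
      intro M hM1 hM2 A' B' hA' hB' h'
      have : Nontrivial M := (Subgroup.nontrivial_iff_ne_bot M).mpr hM2
      have hlt : Nat.card M < n := by
        rw [← hn]
        exact lt_of_le_of_ne (Subgroup.card_le_card_group M)
          (fun e => hM1 ((Subgroup.card_eq_iff_eq_top M).mp e))
      exact ih (Nat.card M) hlt M rfl A' B' hA' hB' h'
    by_cases hMA : A ⊔ commutator G = ⊤
    swap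
    · exact proper_case hA hB h hZ hD hMA IH
    by_cases hMB : B ⊔ commutator G = ⊤
    swap
    · obtain ⟨N, h1, h2, h3⟩ := proper_case hB hA h.symm hZ hD hMB IH
      exact ⟨N, h1, h2, h3.symm⟩
    exfalso
    exact top_case hA hB h hZ hD (commutator_ne_bot' hZ) hMA hMB

/-- If a nontrivial finite group G is the product AB of abelian subgroups A and B, then some nontrivial normal subgroup of G is contained in A or in B. -/
theorem result {G : Type*} [Group G] [Finite G] [Nontrivial G] (A B : Subgroup G) [IsMulCommutative A] [IsMulCommutative B] (hAB : ∀ g : G, ∃ a ∈ A, ∃ b ∈ B, g = a * b) : ∃ N : Subgroup G, N.Normal ∧ N ≠ ⊥ ∧ (N ≤ A ∨ N ≤ B) := by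
  exact main (Nat.card G) G rfl A B (fun x hx y hy => setLike_mul_comm hx hy)
    (fun x hx y hy => setLike_mul_comm hx hy) hAB

end Cfsg.Agent.S0573
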