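import Mathlib
import Cfsg.Statements.S0571
import Cfsg.Agent.S0573
import Cfsg.Agent.H12.Supersolvable

set_option autoImplicit false
open Cfsg

namespace Cfsg.Agent.S0571

universe u

theorem main : ∀ (n : ℕ) (G : Type u) [Group G] [Finite G], Nat.card G = n →
    ∀ A B : Subgroup G, IsCyclic A → IsCyclic B → (∀ g : G, ∃ a ∈ A, ∃ b ∈ B, g = a * b) →
    Cfsg.IsSupersolvable G := by
  intro n
  induction n using Nat.strong_induction_on with
  | _ n ih =>
    intro G _ _ hn A B hA hB h
    rcases subsingleton_or_nontrivial G with hs | hnt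
    · exact Cfsg.Agent.H12.isSupersolvable_of_subsingleton
    have iA : IsMulCommutative A := IsCyclic.isMulCommutative
    have iB : IsMulCommutative B := IsCyclic.isMulCommutative
    have cA : ∀ x ∈ A, ∀ y ∈ A, x * y = y * x := fun x hx y hy => setLike_mul_comm hx hy
    have cB : ∀ x ∈ B, ∀ y ∈ B, x * y = y * x := fun x hx y hy => setLike_mul_comm hx hy
    obtain ⟨N, hNn, hNb, hNle⟩ := Cfsg.Agent.S0573.main (Nat.card G) G rfl A B cA cB h
    have hNc : IsCyclic N := by
      rcases hNle with hle | hle
      · exact Subgroup.isCyclic_of_le hle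
      · exact Subgroup.isCyclic_of_le hle
    have hlt : Nat.card (G ⧸ N) < n := by
      rw [← hn, Subgroup.card_eq_card_quotient_mul_card_subgroup N]
      exact lt_mul_of_one_lt_right Nat.card_pos ((Subgroup.one_lt_card_iff_ne_bot N).mpr hNb)
    have hq : Cfsg.IsSupersolvable (G ⧸ N) := by
      refine ih (Nat.card (G ⧸ N)) hlt (G ⧸ N) rfl (A.map (QuotientGroup.mk' N))
        (B.map (QuotientGroup.mk' N)) ?_ ?_ ?_
      · exact isCyclic_of_surjective ((QuotientGroup.mk' N).subgroupMap A)
          ((QuotientGroup.mk' N).subgroupMap_surjective A)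
      · exact isCyclic_of_surjective ((QuotientGroup.mk' N).subgroupMap B)
          ((QuotientGroup.mk' N).subgroupMap_surjective B)
      · intro q
        obtain ⟨g, rfl⟩ := QuotientGroup.mk'_surjective N q
        obtain ⟨a, ha, b, hb, rfl⟩ := h g
        exact ⟨_, Subgroup.mem_map_of_mem _ ha, _, Subgroup.mem_map_of_mem _ hb, map_mul _ _ _⟩
    exact Cfsg.Agent.H12.isSupersolvable_of_quotient_cyclic N hq

/-- If a finite group G is the product AB of two cyclic subgroups (every element is a product ab), then G is supersolvable. -/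
theorem result {G : Type*} [Group G] [Finite G] (A B : Subgroup G) [IsCyclic A] [IsCyclic B] (hAB : ∀ g : G, ∃ a ∈ A, ∃ b ∈ B, g = a * b) : Cfsg.IsSupersolvable G := by
  exact main (Nat.card G) G rfl A B inferInstance inferInstance hAB

end Cfsg.Agent.S0571
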