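import Mathlib
import Cfsg.Statements.S0576

set_option autoImplicit false
open Cfsg

namespace Cfsg.Agent.S0576

theorem inn_normal (H : Type*) [Group H] : (MulAut.conj : H →* MulAut H).range.Normal := by
  constructor
  rintro _ ⟨h, rfl⟩ ψ
  refine ⟨ψ h, ?_⟩
  ext x
  simp [MulAut.conj_apply]

/-- Let H be a normal subgroup of a finite group G with H contained in the Frattini subgroup of G. Then the group of inner automorphisms of H is contained in the Frattini subgroup of the automorphism group of H. -/
theorem result {G : Type*} [Group G] [Finite G] (H : Subgroup G) [H.Normal] (hH : H ≤ frattini G) : (MulAut.conj : ↥H →* MulAut ↥H).range ≤ frattini (MulAut ↥H) := by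
  haveI := inn_normal H
  unfold frattini Order.radical
  rw [le_iInf_iff]
  intro M
  rw [le_iInf_iff]
  intro hM
  by_contra hcon
  have htop : (MulAut.conj : ↥H →* MulAut ↥H).range ⊔ M = ⊤ := by
    apply hM.2
    exact lt_of_le_of_ne le_sup_right (fun h => hcon (h ▸ le_sup_left))
  have key : M.comap (MulAut.conjNormal : G →* MulAut H) ⊔ frattini G = ⊤ := by
    rw [eq_top_iff]
    intro g _
    have hmem : (MulAut.conjNormal g : MulAut H) ∈ ((MulAut.conj : ↥H →* MulAut ↥H).range ⊔ M : Subgroup (MulAut H)) := by
      rw [htop]; trivial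
    rw [← SetLike.mem_coe, Subgroup.normal_mul] at hmem
    obtain ⟨_, ⟨h, rfl⟩, m, hm, hfm⟩ := hmem
    have hm' : m = (MulAut.conjNormal ((h : G)⁻¹ * g) : MulAut H) := by
      rw [map_mul, map_inv, MulAut.conjNormal_val, ← hfm]
      simp
    have hw : (h : G)⁻¹ * g ∈ M.comap (MulAut.conjNormal : G →* MulAut H) := by
      rw [Subgroup.mem_comap, ← hm']; exact hm
    have e : g = (h : G) * ((h : G)⁻¹ * g) := by group
    rw [e]
    exact mul_mem (Subgroup.mem_sup_right (hH h.2)) (Subgroup.mem_sup_left hw)
  have h1 : M.comap (MulAut.conjNormal : G →* MulAut H) = ⊤ := frattini_nongenerating key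
  apply hcon
  rintro _ ⟨h, rfl⟩
  have : (h : G) ∈ M.comap (MulAut.conjNormal : G →* MulAut H) := by rw [h1]; trivial
  rw [Subgroup.mem_comap, MulAut.conjNormal_val] at this
  exact this

end Cfsg.Agent.S0576
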