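import Mathlib
import Cfsg.Statements.S0577
import Cfsg.Agent.S0575
import Cfsg.Agent.S0584
import Cfsg.Agent.H13.Coprime

set_option autoImplicit false
set_option linter.style.haveILetI false
open Cfsg

namespace Cfsg.Agent.S0577

open Cfsg.Agent.H13
open scoped commutatorElement

/-- in a finite nilpotent group the commutator subgroup lies in the Frattini subgroup -/
theorem commutator_le_frattini {N : Type*} [Group N] [Finite N]
    (hnil : Group.IsNilpotent N) : commutator N ≤ frattini N := by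
  unfold frattini Order.radical
  rw [le_iInf_iff]
  intro M
  rw [le_iInf_iff]
  intro hM
  have h2 := ((Group.isNilpotent_of_finite_tfae (G := N)).out 0 2).mp hnil
  haveI hMn : M.Normal := h2 M hM
  rw [← Subgroup.Normal.quotient_commutative_iff_commutator_le]
  haveI : Nontrivial (N ⧸ M) := by
    rw [QuotientGroup.nontrivial_iff]
    exact hM.1
  have hc : Subgroup.center (N ⧸ M) ≠ ⊥ := Group.IsNilpotent.center_ne_bot (N ⧸ M)
  have hlt : M < (Subgroup.center (N ⧸ M)).comap (QuotientGroup.mk' M) := by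
    refine lt_of_le_of_ne ?_ ?_
    · intro x hx
      rw [Subgroup.mem_comap]
      have : (QuotientGroup.mk' M) x = 1 := (QuotientGroup.eq_one_iff x).mpr hx
      rw [this]; exact one_mem _
    · intro heq
      apply hc
      rw [eq_bot_iff]
      intro z hz
      obtain ⟨x, rfl⟩ := QuotientGroup.mk'_surjective M z
      have hx : x ∈ (Subgroup.center (N ⧸ M)).comap (QuotientGroup.mk' M) := hz
      rw [← heq] at hx
      rw [Subgroup.mem_bot]
      exact (QuotientGroup.eq_one_iff x).mpr hx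
  have htop := hM.2 _ hlt
  rw [← Subgroup.center_eq_top_iff, eq_top_iff]
  intro z _
  obtain ⟨x, rfl⟩ := QuotientGroup.mk'_surjective M z
  have hx : x ∈ (Subgroup.center (N ⧸ M)).comap (QuotientGroup.mk' M) := by rw [htop]; trivial
  exact hx

theorem orderOf_dvd_card_of_mem {G : Type*} [Group G] [Finite G] {H : Subgroup G} {a : G}
    (ha : a ∈ H) : orderOf a ∣ Nat.card H := by
  have := orderOf_dvd_natCard (⟨a, ha⟩ : H)
  rwa [Subgroup.orderOf_mk] at this

/-- modulo the normal Sylow subgroup the group is cyclic -/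
theorem exists_generator_mod {G : Type*} [Group G] [Finite G] (hG : Cfsg.IsMinimalNonNilpotent G)
    (q : ℕ) [Fact q.Prime] (hq : q ∣ Nat.card G) (Q : Sylow q G) (hQ : (Q : Subgroup G).Normal) :
    ∃ h : G, (Q : Subgroup G) ⊔ Subgroup.zpowers h = ⊤ := by
  haveI := hQ
  by_contra hcon
  rw [not_exists] at hcon
  obtain ⟨H, hH⟩ := Subgroup.exists_right_complement'_of_coprime (Q.card_coprime_index)
  have hQne : (Q : Subgroup G) ≠ ⊥ := Q.ne_bot_of_dvd_card hq
  have hHtop : H ≠ ⊤ := by
    intro h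
    have := hH.disjoint
    rw [h, disjoint_top] at this
    exact hQne this
  have hHnil : Group.IsNilpotent H := hG.2 H hHtop
  have hcardH : Nat.card H = (Q : Subgroup G).index := hH.symm.index_eq_card.symm
  have hcomm : ∀ a ∈ (Q : Subgroup G), ∀ h ∈ H, a * h = h * a := by
    intro a ha h hh
    have hK := hG.2 _ (hcon h)
    apply coprime_commute_of_mem _ hK (Subgroup.mem_sup_left ha)
      (Subgroup.mem_sup_right (Subgroup.mem_zpowers h))
    have h1 : orderOf a ∣ Nat.card (Q : Subgroup G) := orderOf_dvd_card_of_mem ha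
    have h2 : orderOf h ∣ (Q : Subgroup G).index := by
      rw [← hcardH]
      exact orderOf_dvd_card_of_mem hh
    exact Nat.Coprime.coprime_dvd_left h1 (Nat.Coprime.coprime_dvd_right h2 Q.card_coprime_index)
  apply hG.1
  haveI hQnil : Group.IsNilpotent (Q : Subgroup G) := Q.isPGroup'.isNilpotent
  refine Group.nilpotent_of_surjective
    ((Q : Subgroup G).subtype.noncommCoprod H.subtype (fun a h =>
      (show Commute ((Q : Subgroup G).subtype a) (H.subtype h) from hcomm a a.2 h h.2))) ?_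
  rw [← MonoidHom.range_eq_top, MonoidHom.noncommCoprod_range, Subgroup.range_subtype,
    Subgroup.range_subtype]
  exact hH.sup_eq_top

/-- structure of a proper subgroup -/
theorem structure_proper {G : Type*} [Group G] [Finite G] (hG : Cfsg.IsMinimalNonNilpotent G)
    (q : ℕ) [Fact q.Prime] (hq : q ∣ Nat.card G) (Q : Sylow q G) (hQ : (Q : Subgroup G).Normal)
    (K : Subgroup G) (hK : K ≠ ⊤) :
    ∃ z ∈ K, (∀ a ∈ K ⊓ (Q : Subgroup G), z * a = a * z) ∧
      ∀ k ∈ K, ∃ a ∈ K ⊓ (Q : Subgroup G), ∃ j : ℤ, k = a * z ^ j := by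
  haveI := hQ
  obtain ⟨h, hh⟩ := exists_generator_mod hG q hq Q hQ
  have hcyc : IsCyclic (G ⧸ (Q : Subgroup G)) := by
    refine ⟨⟨QuotientGroup.mk' _ h, ?_⟩⟩
    intro x
    obtain ⟨g, rfl⟩ := QuotientGroup.mk'_surjective _ x
    have hg : g ∈ (((Q : Subgroup G) ⊔ Subgroup.zpowers h : Subgroup G) : Set G) := by
      rw [hh]; trivial
    rw [Subgroup.normal_mul, Set.mem_mul] at hg
    obtain ⟨a, ha, b, hb, rfl⟩ := hg
    obtain ⟨i, rfl⟩ := Subgroup.mem_zpowers_iff.mp hb
    refine Subgroup.mem_zpowers_iff.mpr ⟨i, ?_⟩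
    have ha1 : (QuotientGroup.mk' (Q : Subgroup G)) a = 1 := (QuotientGroup.eq_one_iff a).mpr ha
    rw [map_mul, map_zpow, ha1, one_mul]
  haveI : IsCyclic (K.map (QuotientGroup.mk' (Q : Subgroup G))) := Subgroup.isCyclic _
  obtain ⟨⟨g, hg⟩, hgen⟩ :=
    IsCyclic.exists_generator (α := K.map (QuotientGroup.mk' (Q : Subgroup G)))
  obtain ⟨y, hyK, rfl⟩ := hg
  have hgen' : ∀ k ∈ K, ∃ i : ℤ, QuotientGroup.mk' (Q : Subgroup G) k =
      (QuotientGroup.mk' (Q : Subgroup G) y) ^ i := by
    intro k hk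
    have := hgen ⟨QuotientGroup.mk' (Q : Subgroup G) k, Subgroup.mem_map_of_mem _ hk⟩
    obtain ⟨i, hi⟩ := Subgroup.mem_zpowers_iff.mp this
    refine ⟨i, ?_⟩
    have := congrArg Subtype.val hi
    simpa using this.symm
  have hcop : (Nat.card (Q : Subgroup G)).Coprime (Q : Subgroup G).index := Q.card_coprime_index
  have hπym : (QuotientGroup.mk' (Q : Subgroup G) y) ^ (Q : Subgroup G).index = 1 := by
    rw [Subgroup.index_eq_card]
    exact pow_card_eq_one'
  have hym : y ^ (Q : Subgroup G).index ∈ (Q : Subgroup G) := by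
    rw [← QuotientGroup.eq_one_iff]
    exact hπym
  have hzm : (y ^ Nat.card (Q : Subgroup G)) ^ (Q : Subgroup G).index = 1 := by
    rw [← pow_mul, mul_comm, pow_mul]
    have := pow_card_eq_one' (G := (Q : Subgroup G)) (x := ⟨y ^ (Q : Subgroup G).index, hym⟩)
    exact congrArg Subtype.val this
  refine ⟨y ^ Nat.card (Q : Subgroup G), K.pow_mem hyK _, ?_, ?_⟩
  · intro a ha
    have hKnil := hG.2 K hK
    rw [Subgroup.mem_inf] at ha
    apply coprime_commute_of_mem K hKnil (K.pow_mem hyK _) ha.1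
    have h1 : orderOf (y ^ Nat.card (Q : Subgroup G)) ∣ (Q : Subgroup G).index :=
      orderOf_dvd_of_pow_eq_one hzm
    have h2 : orderOf a ∣ Nat.card (Q : Subgroup G) := orderOf_dvd_card_of_mem ha.2
    exact Nat.Coprime.coprime_dvd_left h1 (Nat.Coprime.coprime_dvd_right h2 hcop.symm)
  · intro k hk
    obtain ⟨i, hi⟩ := hgen' k hk
    have hbez := Nat.gcd_eq_gcd_ab (Nat.card (Q : Subgroup G)) (Q : Subgroup G).index
    rw [Nat.Coprime.gcd_eq_one hcop] at hbez
    have hπy : QuotientGroup.mk' (Q : Subgroup G) y =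
        (QuotientGroup.mk' (Q : Subgroup G) (y ^ Nat.card (Q : Subgroup G))) ^
          (Nat.gcdA (Nat.card (Q : Subgroup G)) (Q : Subgroup G).index) := by
      have h1 : QuotientGroup.mk' (Q : Subgroup G) y =
          (QuotientGroup.mk' (Q : Subgroup G) y) ^ ((1 : ℕ) : ℤ) := by simp
      rw [h1, hbez, zpow_add, zpow_mul, zpow_mul, zpow_natCast, zpow_natCast, hπym, one_zpow,
        mul_one, map_pow]
    refine ⟨k * ((y ^ Nat.card (Q : Subgroup G)) ^
        (Nat.gcdA (Nat.card (Q : Subgroup G)) (Q : Subgroup G).index * i))⁻¹, ?_,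
        Nat.gcdA (Nat.card (Q : Subgroup G)) (Q : Subgroup G).index * i, by group⟩
    rw [Subgroup.mem_inf]
    constructor
    · exact K.mul_mem hk (K.inv_mem (K.zpow_mem (K.pow_mem hyK _) _))
    · rw [← QuotientGroup.eq_one_iff]
      have e : ((k * ((y ^ Nat.card (Q : Subgroup G)) ^
          (Nat.gcdA (Nat.card (Q : Subgroup G)) (Q : Subgroup G).index * i))⁻¹ : G) :
            G ⧸ (Q : Subgroup G)) =
          QuotientGroup.mk' (Q : Subgroup G) k *
            ((QuotientGroup.mk' (Q : Subgroup G) (y ^ Nat.card (Q : Subgroup G))) ^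
              (Nat.gcdA (Nat.card (Q : Subgroup G)) (Q : Subgroup G).index * i))⁻¹ := by
        rw [← map_zpow, ← map_inv, ← map_mul]; rfl
      rw [e, zpow_mul, ← hπy, hi, mul_inv_cancel]

/-- commutators of a proper subgroup lie in `⁅Q, Q⁆` -/
theorem commutator_mem_of_proper {G : Type*} [Group G] [Finite G]
    (hG : Cfsg.IsMinimalNonNilpotent G)
    (q : ℕ) [Fact q.Prime] (hq : q ∣ Nat.card G) (Q : Sylow q G) (hQ : (Q : Subgroup G).Normal)
    (K : Subgroup G) (hK : K ≠ ⊤) {x y : G} (hx : x ∈ K) (hy : y ∈ K) :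
    ⁅x, y⁆ ∈ ⁅(Q : Subgroup G), (Q : Subgroup G)⁆ := by
  obtain ⟨z, hzK, hz1, hz2⟩ := structure_proper hG q hq Q hQ K hK
  obtain ⟨a, ha, j, rfl⟩ := hz2 x hx
  obtain ⟨b, hb, l, rfl⟩ := hz2 y hy
  have hcz : ∀ (c : G), z * c = c * z → ∀ n : ℤ, z ^ n * c = c * z ^ n := by
    intro c hc n
    exact ((show Commute z c from hc).zpow_left n).eq
  have huv : z ^ j * z ^ l = z ^ l * z ^ j := by
    rw [← zpow_add, ← zpow_add, add_comm]
  rw [commutator_mul_central a b (z ^ j) (z ^ l) (hcz b (hz1 b hb) j) (hcz a (hz1 a ha) l) huv]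
  rw [Subgroup.mem_inf] at ha hb
  exact Subgroup.commutator_mem_commutator ha.2 hb.2

/-- Let G be a finite minimal non-nilpotent group and Q a normal Sylow q-subgroup of G, and let D be the commutator subgroup of Q regarded in G (a normal subgroup). Then G modulo D is non-abelian and all its proper subgroups are abelian. -/
theorem result {G : Type*} [Group G] [Finite G] (hG : Cfsg.IsMinimalNonNilpotent G) (q : ℕ) [Fact q.Prime] (hq : q ∣ Nat.card G) (Q : Sylow q G) (hQ : (Q : Subgroup G).Normal) (D : Subgroup G) [D.Normal] (hD : D = (commutator ↥(Q : Subgroup G)).map (Q : Subgroup G).subtype) : ¬ IsMulCommutative (G ⧸ D) ∧ ∀ K : Subgroup (G ⧸ D), K ≠ ⊤ → IsMulCommutative K := by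
  haveI := hQ
  have hDQ : D = ⁅(Q : Subgroup G), (Q : Subgroup G)⁆ := by
    rw [hD, commutator_def, Subgroup.map_commutator, ← MonoidHom.range_eq_map,
      Subgroup.range_subtype]
  constructor
  · intro hcomm
    apply hG.1
    have hDΦ : D ≤ frattini G := by
      have h1 : commutator (Q : Subgroup G) ≤ frattini (Q : Subgroup G) :=
        commutator_le_frattini Q.isPGroup'.isNilpotent
      rw [hD]
      exact (Subgroup.map_mono h1).trans (S0575.result (Q : Subgroup G))
    have hle : commutator G ≤ D := Subgroup.Normal.quotient_commutative_iff_commutator_le.mp hcomm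
    have hcomm' : IsMulCommutative (↥(⊤ : Subgroup G) ⧸ D.subgroupOf ⊤) := by
      rw [Subgroup.Normal.quotient_commutative_iff_commutator_le, commutator_def,
        Subgroup.commutator_le]
      intro a _ b _
      rw [Subgroup.mem_subgroupOf]
      apply hle
      rw [commutator_def]
      exact Subgroup.commutator_mem_commutator (Subgroup.mem_top (a : G)) (Subgroup.mem_top (b : G))
    have hnil : Group.IsNilpotent (↥(⊤ : Subgroup G) ⧸ D.subgroupOf ⊤) :=
      ⟨⟨1, Subgroup.upperCentralSeries_one_eq_top_iff.mpr hcomm'⟩⟩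
    haveI := S0584.result (⊤ : Subgroup G) D le_top hDΦ hnil
    exact Group.nilpotent_of_mulEquiv (Subgroup.topEquiv (G := G))
  · intro K hK
    have hK' : K.comap (QuotientGroup.mk' D) ≠ ⊤ := by
      intro h
      apply hK
      rw [← Subgroup.map_comap_eq_self_of_surjective (QuotientGroup.mk'_surjective D) K, h,
        ← MonoidHom.range_eq_map, MonoidHom.range_eq_top]
      exact QuotientGroup.mk'_surjective D
    rw [isMulCommutative_iff_of_setLike]
    intro x hx y hy
    obtain ⟨x, rfl⟩ := QuotientGroup.mk'_surjective D x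
    obtain ⟨y, rfl⟩ := QuotientGroup.mk'_surjective D y
    have hxK : x ∈ K.comap (QuotientGroup.mk' D) := hx
    have hyK : y ∈ K.comap (QuotientGroup.mk' D) := hy
    have h1 := commutator_mem_of_proper hG q hq Q hQ _ hK'
      (Subgroup.inv_mem _ hyK) (Subgroup.inv_mem _ hxK)
    rw [← hDQ] at h1
    rw [← map_mul, ← map_mul]
    show ((x * y : G) : G ⧸ D) = ((y * x : G) : G ⧸ D)
    rw [QuotientGroup.eq]
    have e : (x * y)⁻¹ * (y * x) = ⁅y⁻¹, x⁻¹⁆ := by
      rw [commutatorElement_def]; group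
    rw [e]; exact h1

end Cfsg.Agent.S0577
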