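import Mathlib
import Cfsg.Statements.S0578

set_option autoImplicit false
open Cfsg

namespace Cfsg.Agent.S0578

theorem nilpotent_sub_comm {G : Type*} [Group G] [Finite G]
    (h : ∀ A : Subgroup G, IsMulCommutative A →
      Subgroup.normalizer (A : Set G) = Subgroup.centralizer (A : Set G))
    (P : Subgroup G) (hP : Group.IsNilpotent P) : IsMulCommutative P := by
  have hfin : {A : Subgroup G | A ≤ P ∧ IsMulCommutative A}.Finite := Set.toFinite _
  have hbot : (⊥ : Subgroup G) ∈ {A : Subgroup G | A ≤ P ∧ IsMulCommutative A} :=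
    ⟨bot_le, by
      rw [isMulCommutative_iff_of_setLike]
      intro a ha b hb
      rw [Subgroup.mem_bot] at ha hb
      rw [ha, hb]⟩
  obtain ⟨A, -, hA⟩ := hfin.exists_le_maximal hbot
  obtain ⟨⟨hAP, hAc⟩, hAmax⟩ := hA
  have hnc : NormalizerCondition P := Group.normalizerCondition_of_isNilpotent
  by_cases htop : A.subgroupOf P = ⊤
  · rw [Subgroup.subgroupOf_eq_top] at htop
    have : P = A := le_antisymm htop hAP
    rw [this]; exact hAc
  · exfalso
    have hlt := hnc (A.subgroupOf P) (lt_top_iff_ne_top.mpr htop)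
    rw [← Subgroup.subgroupOf_normalizer_eq hAP, h A hAc] at hlt
    obtain ⟨y, hy1, hy2⟩ := SetLike.exists_of_lt hlt
    rw [Subgroup.mem_subgroupOf] at hy1 hy2
    -- B = closure (A ∪ {y})
    have hBc : IsMulCommutative (Subgroup.closure ((A : Set G) ∪ {(y : G)})) := by
      apply Subgroup.isMulCommutative_closure
      intro a ha b hb
      rcases ha with ha | ha <;> rcases hb with hb | hb
      · exact setLike_mul_comm ha hb
      · rw [Set.mem_singleton_iff] at hb; subst hb
        exact (hy1 a ha)
      · rw [Set.mem_singleton_iff] at ha; subst ha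
        exact (hy1 b hb).symm
      · rw [Set.mem_singleton_iff] at ha hb; rw [ha, hb]
    have hBP : Subgroup.closure ((A : Set G) ∪ {(y : G)}) ≤ P := by
      rw [Subgroup.closure_le]
      intro x hx
      rcases hx with hx | hx
      · exact hAP hx
      · rw [Set.mem_singleton_iff] at hx; rw [hx]; exact y.2
    have hAB : A ≤ Subgroup.closure ((A : Set G) ∪ {(y : G)}) := fun x hx =>
      Subgroup.subset_closure (Or.inl hx)
    have := hAmax ⟨hBP, hBc⟩ hAB
    exact hy2 (this (Subgroup.subset_closure (Or.inr rfl)))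

theorem sylow_normal {G : Type*} [Group G] [Finite G]
    (h : ∀ A : Subgroup G, IsMulCommutative A →
      Subgroup.normalizer (A : Set G) = Subgroup.centralizer (A : Set G))
    (q : ℕ) [hq : Fact q.Prime] (Q : Sylow q G) : (Q : Subgroup G).Normal := by
  -- normal p-complements
  have hK : ∀ (p : ℕ) [Fact p.Prime], ∃ K : Subgroup G, K.Normal ∧ ¬ p ∣ Nat.card K ∧
      ∀ (r : ℕ) [Fact r.Prime], r ≠ p → ∀ R : Subgroup G, IsPGroup r R → R ≤ K := by
    intro p hp
    obtain ⟨P⟩ : Nonempty (Sylow p G) := inferInstance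
    have hPc : IsMulCommutative (P : Subgroup G) := nilpotent_sub_comm h P P.isPGroup'.isNilpotent
    have hNC : Subgroup.normalizer ((P : Subgroup G) : Set G) ≤
        Subgroup.centralizer ((P : Subgroup G) : Set G) := le_of_eq (h P hPc)
    refine ⟨(MonoidHom.transferSylow P hNC).ker, inferInstance,
      MonoidHom.not_dvd_card_ker_transferSylow P hNC, ?_⟩
    intro r hr hrp R hR x hx
    rw [MonoidHom.mem_ker]
    -- order of image divides power of r and power of p
    set y := MonoidHom.transferSylow P hNC x with hy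
    obtain ⟨k, hk⟩ := (IsPGroup.iff_orderOf.mp hR) ⟨x, hx⟩
    obtain ⟨l, hl⟩ := (IsPGroup.iff_orderOf.mp P.isPGroup') y
    have h1 : orderOf y ∣ orderOf x := orderOf_map_dvd _ x
    have h2 : orderOf x = r ^ k := by
      rw [← hk]; exact (Subgroup.orderOf_mk x hx).symm
    rw [h2, hl] at h1
    have h3 : l = 0 := by
      by_contra hl0
      have : p ∣ r ^ k := (dvd_pow_self p hl0).trans h1
      have := (Nat.prime_dvd_prime_iff_eq hp.out hr.out).mp (hp.out.dvd_of_dvd_pow this)
      exact hrp this.symm
    rw [h3, pow_zero, orderOf_eq_one_iff] at hl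
    exact hl
  choose K hKn hKp hKr using hK
  -- N = ⨅ over primes p ≠ q of K p
  set N : Subgroup G := ⨅ (p : ℕ) (hp : Fact p.Prime) (_ : p ≠ q), @K p hp with hN
  have hNn : N.Normal := by
    apply Subgroup.normal_iInf_normal; intro p
    apply Subgroup.normal_iInf_normal; intro hp
    apply Subgroup.normal_iInf_normal; intro _
    exact @hKn p hp
  have hQN : (Q : Subgroup G) ≤ N := by
    rw [hN]
    refine le_iInf fun p => le_iInf fun hp => le_iInf fun hpq => ?_
    exact @hKr p hp q hq (Ne.symm hpq) Q Q.isPGroup'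
  have hNq : IsPGroup q N := by
    have hcard : ∃ k, Nat.card N = q ^ k := by
      have hpos : Nat.card N ≠ 0 := Nat.card_pos.ne'
      refine ⟨(Nat.card N).primeFactorsList.length, ?_⟩
      apply Nat.eq_prime_pow_of_unique_prime_dvd hpos
      intro r hr hrN
      by_contra hrq
      haveI : Fact r.Prime := ⟨hr⟩
      have hNK : N ≤ @K r ⟨hr⟩ := by
        rw [hN]
        exact iInf_le_of_le r (iInf_le_of_le ⟨hr⟩ (iInf_le_of_le hrq le_rfl))
      exact @hKp r ⟨hr⟩ (hrN.trans (Subgroup.card_dvd_of_le hNK))
    obtain ⟨k, hk⟩ := hcard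
    exact IsPGroup.of_card hk
  have : N = Q := Q.is_maximal' hNq hQN
  rw [← this]; exact hNn

/-- If in a finite group the normalizer of each abelian subgroup coincides with its centralizer, then the group is abelian. -/
theorem result {G : Type*} [Group G] [Finite G] (h : ∀ A : Subgroup G, IsMulCommutative A → Subgroup.normalizer (A : Set G) = Subgroup.centralizer (A : Set G)) : IsMulCommutative G := by
  have hnil : Group.IsNilpotent G := by
    apply ((Group.isNilpotent_of_finite_tfae (G := G)).out 0 3).mpr
    intro p hp P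
    exact sylow_normal h p P
  have htop : Group.IsNilpotent (⊤ : Subgroup G) :=
    Group.nilpotent_of_mulEquiv (Subgroup.topEquiv (G := G)).symm
  have hc := nilpotent_sub_comm h ⊤ htop
  rw [isMulCommutative_iff]
  intro a b
  exact setLike_mul_comm (Subgroup.mem_top a) (Subgroup.mem_top b)

end Cfsg.Agent.S0578
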