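import Mathlib
import Cfsg.Statements.S0580
import Cfsg.Agent.H13.SylowExtra

set_option autoImplicit false
open Cfsg

namespace Cfsg.Agent.S0580

open Cfsg.Agent.H13

universe u

/-- If all maximal subgroups have prime index and `p` is the largest prime divisor of `|G|`, then
the Sylow `p`-subgroup is normal. -/
theorem sylow_normal_of_largest {G : Type*} [Group G] [Finite G]
    (h : ∀ M : Subgroup G, IsCoatom M → M.index.Prime) (p : ℕ) [hp : Fact p.Prime]
    (hmax : ∀ q : ℕ, q.Prime → q ∣ Nat.card G → q ≤ p) (P : Sylow p G) :
    (P : Subgroup G).Normal := by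
  rw [← Subgroup.normalizer_eq_top_iff]
  by_contra hne
  obtain ⟨M, hM, hle⟩ := (eq_top_or_exists_le_coatom _).resolve_left hne
  have hq := h M hM
  have hmod := index_modEq_one_of_normalizer_le P M hle
  have hqd : M.index ∣ Nat.card G := Subgroup.index_dvd_card M
  have hqp := hmax _ hq hqd
  have h1 : M.index % p = 1 % p := hmod
  rw [Nat.mod_eq_of_lt hp.out.one_lt] at h1
  rcases hqp.lt_or_eq with hlt | heq
  · rw [Nat.mod_eq_of_lt hlt] at h1; exact hq.one_lt.ne' h1
  · rw [heq, Nat.mod_self] at h1; exact zero_ne_one h1

theorem aux : ∀ (n : ℕ) (G : Type u) [Group G] [Finite G], Nat.card G = n →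
    (∀ M : Subgroup G, IsCoatom M → M.index.Prime) → Group.IsSolvable G := by
  intro n
  induction n using Nat.strong_induction_on with
  | _ n ih =>
    intro G _ _ hn h
    by_cases htriv : Subsingleton G
    · infer_instance
    · have hnt : Nontrivial G := not_subsingleton_iff_nontrivial.mp htriv
      have hcard : 1 < Nat.card G := Finite.one_lt_card
      have hne : (Nat.card G).primeFactors.Nonempty := by
        rw [Nat.nonempty_primeFactors]; exact hcard
      have hpmem : (Nat.card G).primeFactors.max' hne ∈ (Nat.card G).primeFactors :=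
        Finset.max'_mem _ _
      have hpp : ((Nat.card G).primeFactors.max' hne).Prime := Nat.prime_of_mem_primeFactors hpmem
      have hpd : (Nat.card G).primeFactors.max' hne ∣ Nat.card G :=
        Nat.dvd_of_mem_primeFactors hpmem
      have hmax : ∀ q : ℕ, q.Prime → q ∣ Nat.card G → q ≤ (Nat.card G).primeFactors.max' hne :=
        fun q hq hqd => Finset.le_max' _ _ (Nat.mem_primeFactors.mpr ⟨hq, hqd, Nat.card_pos.ne'⟩)
      generalize (Nat.card G).primeFactors.max' hne = p at hpp hpd hmax
      haveI : Fact p.Prime := ⟨hpp⟩
      obtain ⟨P⟩ : Nonempty (Sylow p G) := inferInstance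
      haveI hPn : (P : Subgroup G).Normal := sylow_normal_of_largest h p hmax P
      have hPnt : (P : Subgroup G) ≠ ⊥ := P.ne_bot_of_dvd_card hpd
      have hlt : Nat.card (G ⧸ (P : Subgroup G)) < n := by
        rw [← hn, ← Subgroup.index_eq_card, ← Subgroup.card_mul_index (P : Subgroup G)]
        have h1 : 1 < Nat.card (P : Subgroup G) := by
          rw [Subgroup.one_lt_card_iff_ne_bot]; exact hPnt
        have h2 : 0 < (P : Subgroup G).index := Nat.pos_of_ne_zero Subgroup.index_ne_zero_of_finite
        nlinarith
      have hQ : Group.IsSolvable (G ⧸ (P : Subgroup G)) := by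
        apply ih _ hlt (G ⧸ (P : Subgroup G)) rfl
        intro M hM
        have := h (M.comap (QuotientGroup.mk' (P : Subgroup G)))
          (Subgroup.isCoatom_comap_of_surjective (QuotientGroup.mk'_surjective _) hM)
        rwa [Subgroup.index_comap_of_surjective _ (QuotientGroup.mk'_surjective _)] at this
      have hPs : Group.IsSolvable (P : Subgroup G) := by
        haveI := P.isPGroup'.isNilpotent
        infer_instance
      exact Group.isSolvable_of_ker_le_range (P : Subgroup G).subtype (QuotientGroup.mk' (P : Subgroup G))
        (by simp)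

/-- If every maximal subgroup of a finite group has prime index, then the group is solvable. -/
theorem result {G : Type*} [Group G] [Finite G] (h : ∀ M : Subgroup G, IsCoatom M → M.index.Prime) : Group.IsSolvable G := by
  exact aux (Nat.card G) G rfl h

end Cfsg.Agent.S0580
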