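import Mathlib
import Cfsg.Statements.S0581
import Cfsg.Agent.S0536
import Cfsg.Agent.H1.Basic
import Cfsg.Agent.H13.HallAux
import Cfsg.Agent.H13.Coprime

set_option autoImplicit false
set_option linter.style.haveILetI false
open Cfsg
open Pointwise

namespace Cfsg.Agent.S0581

open Cfsg.Agent.H13

universe u

/-- a nontrivial finite group all of whose proper subgroups are nilpotent has a normal Sylow
subgroup for some prime dividing its order -/
theorem exists_normal_sylow {K : Type u} [Group K] [Finite K] [Nontrivial K]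
    (h : ∀ S : Subgroup K, S ≠ ⊤ → Group.IsNilpotent S) :
    ∃ q : ℕ, q.Prime ∧ q ∣ Nat.card K ∧ ∃ Q : Sylow q K, (Q : Subgroup K).Normal := by
  by_cases hnil : Group.IsNilpotent K
  · have h1 : Nat.card K ≠ 1 := (Finite.one_lt_card (α := K)).ne'
    obtain ⟨q, hq, hqd⟩ := Nat.exists_prime_and_dvd h1
    haveI : Fact q.Prime := ⟨hq⟩
    obtain ⟨Q⟩ : Nonempty (Sylow q K) := inferInstance
    exact ⟨q, hq, hqd, Q, inferInstance⟩
  · obtain ⟨p, q, hp, hq, hpq, P, Q, hcyc, hQn, hsup⟩ := S0536.result ⟨hnil, h⟩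
    refine ⟨q, hq, ?_, Q, hQn⟩
    haveI : Fact q.Prime := ⟨hq⟩
    haveI : Fact p.Prime := ⟨hp⟩
    by_contra hqd
    have hQbot : (Q : Subgroup K) = ⊥ := by
      have := Q.card_eq_multiplicity
      rw [Nat.factorization_eq_zero_of_not_dvd hqd, pow_zero] at this
      exact Subgroup.card_eq_one.mp this
    rw [hQbot, sup_bot_eq] at hsup
    apply hnil
    have hPp : IsPGroup p K := by
      intro g
      have hg : g ∈ (P : Subgroup K) := by rw [hsup]; trivial
      obtain ⟨k, hk⟩ := P.isPGroup' ⟨g, hg⟩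
      exact ⟨k, congrArg Subtype.val hk⟩
    exact hPp.isNilpotent

/-- the induction hypothesis, as a predicate -/
def IH (n : ℕ) : Prop :=
  ∀ m < n, ∀ (G : Type u) [Group G] [Finite G] (H K : Subgroup G),
    Nat.card G + Nat.card K = m → Group.IsNilpotent H → (Nat.card H).Coprime H.index →
    (∀ p : ℕ, p.Prime → p ∣ Nat.card K → p ∣ Nat.card H) → ∃ x : G, K ≤ MulAut.conj x • H

theorem core (n : ℕ) (ih : IH.{u} n)
    (G : Type u) [Group G] [Finite G] (H : Subgroup G) (hH : Group.IsNilpotent H)
    (hHall : (Nat.card H).Coprime H.index)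
    (q : ℕ) [Fact q.Prime] (Q T : Subgroup G) (hQH : Q ≤ H) (hQq : IsPGroup q Q) (hQne : Q ≠ ⊥)
    (hTN : T ≤ Subgroup.normalizer (Q : Set G))
    (hTq : (Nat.card T).Coprime q)
    (hT : ∀ p : ℕ, p.Prime → p ∣ Nat.card T → p ∣ Nat.card H)
    (hn : Nat.card G + Nat.card T ≤ n) :
    ∃ x : G, Q ⊔ T ≤ MulAut.conj x • H := by
  have hqp : q.Prime := Fact.out
  obtain ⟨j, hj⟩ := IsPGroup.iff_card.mp hQq
  have hQ2 : 2 ≤ Nat.card Q := by
    have h1 : Nat.card Q ≠ 1 := fun h => hQne (Subgroup.card_eq_one.mp h)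
    have h0 : 0 < Nat.card Q := Nat.card_pos
    omega
  -- a prime dividing |T| is not q
  have hTne : ∀ p : ℕ, p.Prime → p ∣ Nat.card T → ¬ p ∣ Nat.card Q := by
    intro p hp hpd hpQ
    rw [hj] at hpQ
    have hpq : p = q := (Nat.prime_dvd_prime_iff_eq hp hqp).mp (hp.dvd_of_dvd_pow hpQ)
    rw [hpq] at hpd
    have := Nat.dvd_gcd hpd (dvd_refl q)
    rw [Nat.Coprime.gcd_eq_one hTq] at this
    exact hqp.one_lt.ne' (Nat.dvd_one.mp this)
  by_cases hN : Subgroup.normalizer (Q : Set G) = ⊤
  · -- Q is normal: pass to the quotient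
    haveI hQn : Q.Normal := Subgroup.normalizer_eq_top_iff.mp hN
    have hπs : Function.Surjective (QuotientGroup.mk' Q) := QuotientGroup.mk'_surjective _
    have hker : (QuotientGroup.mk' Q).ker = Q := QuotientGroup.ker_mk' _
    have hcG := Subgroup.card_eq_card_quotient_mul_card_subgroup Q
    have hlt : Nat.card (G ⧸ Q) < Nat.card G := by
      have e5 : 0 < Nat.card (G ⧸ Q) := Nat.card_pos
      nlinarith
    haveI := hH
    have hHbar : Group.IsNilpotent ↥(H.map (QuotientGroup.mk' Q)) :=
      Group.nilpotent_of_surjective ((QuotientGroup.mk' Q).subgroupMap H)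
        ((QuotientGroup.mk' Q).subgroupMap_surjective H)
    have hidx : (H.map (QuotientGroup.mk' Q)).index = H.index :=
      Subgroup.index_map_eq _ hπs (by rw [hker]; exact hQH)
    have hdvd : Nat.card (H.map (QuotientGroup.mk' Q)) ∣ Nat.card H := Subgroup.card_map_dvd _ _
    have hcop : (Nat.card (H.map (QuotientGroup.mk' Q))).Coprime
        (H.map (QuotientGroup.mk' Q)).index := by
      rw [hidx]; exact Nat.Coprime.coprime_dvd_left hdvd hHall
    have hcardH : Nat.card H = Nat.card (H.map (QuotientGroup.mk' Q)) * Nat.card Q := by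
      have e1 := Subgroup.card_mul_index H
      have e2 := Subgroup.card_mul_index (H.map (QuotientGroup.mk' Q))
      rw [hidx] at e2
      have hpos : 0 < H.index := Nat.pos_of_ne_zero Subgroup.index_ne_zero_of_finite
      have e3 : Nat.card H * H.index =
          (Nat.card (H.map (QuotientGroup.mk' Q)) * Nat.card Q) * H.index := by
        rw [e1, hcG, ← e2]; ring
      exact Nat.eq_of_mul_eq_mul_right hpos e3
    have hTdvd : Nat.card (T.map (QuotientGroup.mk' Q)) ∣ Nat.card T := Subgroup.card_map_dvd _ _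
    have hprimes : ∀ p : ℕ, p.Prime → p ∣ Nat.card (T.map (QuotientGroup.mk' Q)) →
        p ∣ Nat.card (H.map (QuotientGroup.mk' Q)) := by
      intro p hp hpd
      have h1 := hT p hp (hpd.trans hTdvd)
      rw [hcardH] at h1
      rcases (Nat.Prime.dvd_mul hp).mp h1 with h2 | h2
      · exact h2
      · exact absurd h2 (hTne p hp (hpd.trans hTdvd))
    have hmeas : Nat.card (G ⧸ Q) + Nat.card (T.map (QuotientGroup.mk' Q)) < n := by
      have := Nat.le_of_dvd Nat.card_pos hTdvd
      omega
    obtain ⟨xbar, hx⟩ := ih _ hmeas (G ⧸ Q) (H.map (QuotientGroup.mk' Q))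
      (T.map (QuotientGroup.mk' Q)) rfl hHbar hcop hprimes
    obtain ⟨x, rfl⟩ := hπs xbar
    rw [← H1.map_conj_smul] at hx
    have hkerle : (QuotientGroup.mk' Q).ker ≤ MulAut.conj x • H := by
      rw [hker, ← Subgroup.Normal.conj_smul_eq_self x Q]
      exact Subgroup.pointwise_smul_le_pointwise_smul_iff.mpr hQH
    refine ⟨x, sup_le ?_ ?_⟩
    · rw [hker] at hkerle; exact hkerle
    · have h1 := Subgroup.comap_mono (f := QuotientGroup.mk' Q) hx
      rw [Subgroup.comap_map_eq_self hkerle] at h1
      exact (Subgroup.le_comap_map _ T).trans h1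
  · -- Q is not normal: work in the normalizer
    haveI := hH
    obtain ⟨SH⟩ : Nonempty (Sylow q H) := inferInstance
    obtain ⟨H₂', hcompl⟩ := Subgroup.exists_right_complement'_of_coprime SH.card_coprime_index
    have hcardH : Nat.card (SH : Subgroup H) * Nat.card H₂' = Nat.card H := hcompl.card_mul_card
    have hm₂ : Nat.card H₂' = (SH : Subgroup H).index := hcompl.symm.index_eq_card.symm
    have hcop2 : (Nat.card (SH : Subgroup H)).Coprime (Nat.card H₂') := by
      rw [hm₂]; exact SH.card_coprime_index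
    have hqm₂ : ¬ q ∣ Nat.card H₂' := by
      rw [hm₂]; exact SH.not_dvd_index
    obtain ⟨k, hk⟩ := IsPGroup.iff_card.mp SH.isPGroup'
    have hcardH₂ : Nat.card (H₂'.map H.subtype) = Nat.card H₂' :=
      Subgroup.card_map_of_injective (Subgroup.subtype_injective _)
    have hH₂H : H₂'.map H.subtype ≤ H := Subgroup.map_subtype_le _
    -- H₂ centralizes Q
    have hcent : H₂'.map H.subtype ≤ Subgroup.centralizer (Q : Set G) := by
      intro b hb
      rw [Subgroup.mem_centralizer_iff]
      intro a ha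
      apply coprime_commute_of_mem H hH (hQH ha) (hH₂H hb)
      have h1 : orderOf a ∣ Nat.card Q := orderOf_dvd_card_of_mem ha
      have h2 : orderOf b ∣ Nat.card H₂' := by
        rw [← hcardH₂]; exact orderOf_dvd_card_of_mem hb
      rw [hj] at h1
      have h3 : (q ^ j).Coprime (Nat.card H₂') :=
        Nat.Coprime.pow_left j ((Nat.Prime.coprime_iff_not_dvd hqp).mpr hqm₂)
      exact Nat.Coprime.coprime_dvd_left h1 (Nat.Coprime.coprime_dvd_right h2 h3)
    have hH₂N : H₂'.map H.subtype ≤ Subgroup.normalizer (Q : Set G) :=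
      hcent.trans (Subgroup.centralizer_le_normalizer _)
    have hNlt : Nat.card (Subgroup.normalizer (Q : Set G)) < Nat.card G := by
      have := H1.card_lt_card_of_lt (lt_top_iff_ne_top.mpr hN)
      rwa [Subgroup.card_top] at this
    -- the index of H₂
    have hrel : (H₂'.map H.subtype).relIndex H = Nat.card (SH : Subgroup H) := by
      have e1 := Subgroup.card_mul_index ((H₂'.map H.subtype).subgroupOf H)
      rw [H1.card_subgroupOf_of_le hH₂H, hcardH₂, ← hcardH, mul_comm] at e1
      exact Nat.eq_of_mul_eq_mul_right Nat.card_pos e1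
    have hidx : (H₂'.map H.subtype).index = Nat.card (SH : Subgroup H) * H.index := by
      rw [← Subgroup.relIndex_mul_index hH₂H, hrel]
    generalize hH₂def : H₂'.map H.subtype = H₂ at *
    generalize hNdef : Subgroup.normalizer (Q : Set G) = N at *
    have hnilH₂ : Group.IsNilpotent ↥(H₂.subgroupOf N) := by
      haveI h1 : Group.IsNilpotent ↥(H₂'.map H.subtype) :=
        Group.nilpotent_of_mulEquiv
          (Subgroup.equivMapOfInjective H₂' H.subtype (Subgroup.subtype_injective _))
      rw [hH₂def] at h1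
      exact Group.nilpotent_of_mulEquiv (Subgroup.subgroupOfEquivOfLe hH₂N).symm
    have hcardH₂n : Nat.card (H₂.subgroupOf N) = Nat.card H₂' := by
      rw [H1.card_subgroupOf_of_le hH₂N, hcardH₂]
    have hcopn : (Nat.card (H₂.subgroupOf N)).Coprime (H₂.subgroupOf N).index := by
      rw [hcardH₂n]
      have d : (H₂.subgroupOf N).index ∣ Nat.card (SH : Subgroup H) * H.index := by
        rw [← hidx]; exact Subgroup.relIndex_dvd_index_of_le hH₂N
      refine Nat.Coprime.coprime_dvd_right d (Nat.Coprime.mul_right hcop2.symm ?_)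
      exact Nat.Coprime.coprime_dvd_left (Dvd.intro_left _ hcardH) hHall
    have hcardTn : Nat.card (T.subgroupOf N) = Nat.card T := H1.card_subgroupOf_of_le hTN
    have hprimes : ∀ p : ℕ, p.Prime → p ∣ Nat.card (T.subgroupOf N) →
        p ∣ Nat.card (H₂.subgroupOf N) := by
      intro p hp hpd
      rw [hcardTn] at hpd
      rw [hcardH₂n]
      have h1 := hT p hp hpd
      rw [← hcardH] at h1
      rcases (Nat.Prime.dvd_mul hp).mp h1 with h2 | h2
      · exfalso
        rw [hk] at h2
        have hpq : p = q := (Nat.prime_dvd_prime_iff_eq hp hqp).mp (hp.dvd_of_dvd_pow h2)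
        rw [hpq] at hpd
        have := Nat.dvd_gcd hpd (dvd_refl q)
        rw [Nat.Coprime.gcd_eq_one hTq] at this
        exact hqp.one_lt.ne' (Nat.dvd_one.mp this)
      · exact h2
    have hmeas : Nat.card N + Nat.card (T.subgroupOf N) < n := by
      rw [hcardTn]; omega
    obtain ⟨x, hx⟩ := ih _ hmeas ↥N (H₂.subgroupOf N) (T.subgroupOf N) rfl hnilH₂ hcopn hprimes
    rw [Subgroup.conj_smul_subgroupOf hH₂N x] at hx
    refine ⟨(x : G), sup_le ?_ ?_⟩
    · have hxN : (x : G) ∈ Subgroup.normalizer (Q : Set G) := by rw [hNdef]; exact x.2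
      have h1 := (H1.mem_normalizer_iff_conj_smul (x : G) Q).mp hxN
      rw [← h1]
      exact Subgroup.pointwise_smul_le_pointwise_smul_iff.mpr hQH
    · intro t ht
      have h1 : (⟨t, hTN ht⟩ : N) ∈ T.subgroupOf N := ht
      have h2 := hx h1
      have h3 : t ∈ MulAut.conj (x : G) • H₂ := h2
      exact (Subgroup.pointwise_smul_le_pointwise_smul_iff.mpr hH₂H) h3

theorem aux : ∀ (n : ℕ) (G : Type u) [Group G] [Finite G] (H K : Subgroup G),
    Nat.card G + Nat.card K = n → Group.IsNilpotent H → (Nat.card H).Coprime H.index →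
    (∀ p : ℕ, p.Prime → p ∣ Nat.card K → p ∣ Nat.card H) → ∃ x : G, K ≤ MulAut.conj x • H := by
  intro n
  induction n using Nat.strong_induction_on with
  | _ n ih =>
  intro G _ _ H K hn hH hHall hK
  by_cases hK1 : K = ⊥
  · exact ⟨1, by rw [hK1]; exact bot_le⟩
  haveI : Nontrivial K := (Subgroup.nontrivial_iff_ne_bot K).mpr hK1
  haveI := hH
  have hprop : ∀ S : Subgroup K, S ≠ ⊤ → Group.IsNilpotent S := by
    intro S hS
    have hlt : Nat.card (S.map K.subtype) < Nat.card K := by
      rw [Subgroup.card_map_of_injective (Subgroup.subtype_injective _)]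
      have := H1.card_lt_card_of_lt (lt_top_iff_ne_top.mpr hS)
      rwa [Subgroup.card_top] at this
    obtain ⟨x, hx⟩ := ih (Nat.card G + Nat.card (S.map K.subtype)) (by omega) G H
      (S.map K.subtype) rfl hH hHall (by
        intro p hp hpd
        exact hK p hp (hpd.trans (Subgroup.card_dvd_of_le (Subgroup.map_subtype_le S))))
    haveI h1 : Group.IsNilpotent (MulAut.conj x • H : Subgroup G) :=
      Group.nilpotent_of_mulEquiv (Subgroup.equivSMul (MulAut.conj x) H)
    haveI h3 : Group.IsNilpotent (S.map K.subtype) :=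
      Group.nilpotent_of_mulEquiv (Subgroup.subgroupOfEquivOfLe hx)
    exact Group.nilpotent_of_mulEquiv
      (Subgroup.equivMapOfInjective S K.subtype (Subgroup.subtype_injective _)).symm
  obtain ⟨q, hq, hqd, Q, hQn⟩ := exists_normal_sylow hprop
  haveI : Fact q.Prime := ⟨hq⟩
  haveI := hQn
  obtain ⟨T', hT'⟩ := Subgroup.exists_right_complement'_of_coprime Q.card_coprime_index
  have hK_eq : (Q : Subgroup K).map K.subtype ⊔ T'.map K.subtype = K := by
    rw [← Subgroup.map_sup, hT'.sup_eq_top, ← MonoidHom.range_eq_map, Subgroup.range_subtype]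
  have hKN : K ≤ Subgroup.normalizer ((((Q : Subgroup K).map K.subtype : Subgroup G)) : Set G) :=
    le_normalizer_map_normal K (Q : Subgroup K)
  have hQ₀q : IsPGroup q ((Q : Subgroup K).map K.subtype) := Q.isPGroup'.map K.subtype
  have hQ₀ne : Nat.card ((Q : Subgroup K).map K.subtype) ≠ 1 := by
    intro h
    have h2 := Subgroup.card_eq_one.mp h
    rw [Subgroup.map_eq_bot_iff_of_injective _ (Subgroup.subtype_injective _)] at h2
    exact Q.ne_bot_of_dvd_card hqd h2
  have hT₀card : Nat.card (T'.map K.subtype) = (Q : Subgroup K).index := by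
    rw [Subgroup.card_map_of_injective (Subgroup.subtype_injective _)]
    exact hT'.symm.index_eq_card.symm
  have hT₀q : (Nat.card (T'.map K.subtype)).Coprime q := by
    rw [hT₀card]
    exact ((Nat.Prime.coprime_iff_not_dvd hq).mpr Q.not_dvd_index).symm
  have hT₀K : T'.map K.subtype ≤ K := Subgroup.map_subtype_le _
  have hqH : q ∣ Nat.card H := hK q hq hqd
  obtain ⟨SH⟩ : Nonempty (Sylow q H) := inferInstance
  have hcSH := card_sylow_map H hHall hqH SH
  obtain ⟨g, hg⟩ := exists_conj_le_of_card q _ _ hcSH hQ₀q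
  have hQ₁H : MulAut.conj g • (Q : Subgroup K).map K.subtype ≤ H :=
    hg.trans (Subgroup.map_subtype_le _)
  generalize hQ₀def : (Q : Subgroup K).map K.subtype = Q₀ at *
  generalize hT₀def : T'.map K.subtype = T₀ at *
  obtain ⟨x, hx⟩ := core n ih G H hH hHall q (MulAut.conj g • Q₀) (MulAut.conj g • T₀) hQ₁H
    (hQ₀q.of_equiv (Subgroup.equivSMul (MulAut.conj g) Q₀))
    (by
      intro h
      apply hQ₀ne
      rw [← H1.card_conj_smul g Q₀, h, Subgroup.card_bot])
    (H1.conj_smul_le_normalizer g T₀ Q₀ (hT₀K.trans hKN))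
    (by rw [H1.card_conj_smul]; exact hT₀q)
    (by
      intro p hp hpd
      rw [H1.card_conj_smul] at hpd
      exact hK p hp (hpd.trans (Subgroup.card_dvd_of_le hT₀K)))
    (by
      rw [H1.card_conj_smul]
      have := Subgroup.card_le_of_le hT₀K
      omega)
  refine ⟨g⁻¹ * x, ?_⟩
  rw [H1.conj_mul_smul]
  have h1 : MulAut.conj g • (Q₀ ⊔ T₀) ≤ MulAut.conj x • H := by
    rw [Subgroup.smul_sup]; exact hx
  have h2 := (Subgroup.pointwise_smul_le_pointwise_smul_iff (a := MulAut.conj g⁻¹)).mpr h1
  rwa [H1.conj_inv_smul_conj_smul, hK_eq] at h2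

/-- Let H be a nilpotent subgroup of a finite group G whose order is coprime to its index, and K a subgroup every prime divisor of whose order divides the order of H. Then K lies in some conjugate of H. -/
theorem result {G : Type*} [Group G] [Finite G] (H K : Subgroup G) (hH : Group.IsNilpotent H) (hHall : (Nat.card H).Coprime H.index) (hK : ∀ p : ℕ, p.Prime → p ∣ Nat.card K → p ∣ Nat.card H) : ∃ x : G, K ≤ MulAut.conj x • H :=
  aux _ G H K rfl hH hHall hK

end Cfsg.Agent.S0581
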