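import Mathlib
import Cfsg.Statements.S0582
import Cfsg.Agent.S0527
import Cfsg.Agent.S0580
import Cfsg.Agent.H1.Basic
import Cfsg.Agent.H12.Supersolvable

set_option autoImplicit false
set_option linter.style.haveILetI false
open Cfsg
open Pointwise

namespace Cfsg.Agent.S0582

universe u

theorem sylow_normal_of_supersolvable {H : Type*} [Group H] [Finite H]
    (hH : Cfsg.IsSupersolvable H) (p : ℕ) [Fact p.Prime]
    (hmax : ∀ q : ℕ, q.Prime → q ∣ Nat.card H → q ≤ p) (P : Sylow p H) :
    (P : Subgroup H).Normal :=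
  S0580.sylow_normal_of_largest (fun M hM => S0527.result hH M hM) p hmax P

theorem card_sylow_map {G : Type*} [Group G] [Finite G] (H : Subgroup G)
    (hHall : (Nat.card H).Coprime H.index) {p : ℕ} [Fact p.Prime] (hpd : p ∣ Nat.card H)
    (P : Sylow p H) :
    Nat.card ((P : Subgroup H).map H.subtype) = p ^ (Nat.card G).factorization p := by
  rw [Subgroup.card_map_of_injective (Subgroup.subtype_injective _), Sylow.card_eq_multiplicity,
    ← Subgroup.card_mul_index H, Nat.factorization_mul Nat.card_pos.ne'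
      (Subgroup.index_ne_zero_of_finite)]
  have hnd : ¬ p ∣ H.index := by
    intro h
    have := Nat.dvd_gcd hpd h
    rw [Nat.Coprime.gcd_eq_one hHall] at this
    exact (Fact.out : p.Prime).one_lt.ne' (Nat.dvd_one.mp this)
  rw [Finsupp.add_apply, Nat.factorization_eq_zero_of_not_dvd hnd, add_zero]

theorem exists_conj_of_card {G : Type*} [Group G] [Finite G] (p : ℕ) [Fact p.Prime]
    (P₁ P₂ : Subgroup G) (h₁ : Nat.card P₁ = p ^ (Nat.card G).factorization p)
    (h₂ : Nat.card P₂ = p ^ (Nat.card G).factorization p) :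
    ∃ g : G, MulAut.conj g • P₂ = P₁ := by
  obtain ⟨g, hg⟩ := MulAction.exists_smul_eq G (Sylow.ofCard P₂ h₂) (Sylow.ofCard P₁ h₁)
  refine ⟨g, ?_⟩
  have := congrArg (fun S : Sylow p G => (S : Subgroup G)) hg
  simpa [Sylow.coe_subgroup_smul] using this

theorem le_normalizer_map_sylow {G : Type*} [Group G] (H : Subgroup G) (P : Subgroup H)
    [P.Normal] : H ≤ Subgroup.normalizer ((P.map H.subtype : Subgroup G) : Set G) := by
  have h1 := Subgroup.le_normalizer_map (H := P) H.subtype
  rw [Subgroup.normalizer_eq_top, ← MonoidHom.range_eq_map, Subgroup.range_subtype] at h1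
  exact h1

theorem aux : ∀ (n : ℕ) (G : Type u) [Group G] [Finite G], Nat.card G = n →
    ∀ (H K : Subgroup G), Cfsg.IsSupersolvable H → Cfsg.IsSupersolvable K →
    Nat.card H = Nat.card K → (Nat.card H).Coprime H.index →
    ∃ x : G, MulAut.conj x • H = K := by
  intro n
  induction n using Nat.strong_induction_on with
  | _ n ih =>
  intro G _ _ hn H K hH hK hcard hHall
  by_cases hH1 : Nat.card H = 1
  · refine ⟨1, ?_⟩
    have h1 : H = ⊥ := Subgroup.card_eq_one.mp hH1
    have h2 : K = ⊥ := Subgroup.card_eq_one.mp (hcard ▸ hH1)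
    rw [h1, h2]; simp
  have hne : (Nat.card H).primeFactors.Nonempty := by
    rw [Nat.nonempty_primeFactors]
    have := Nat.card_pos (α := H); omega
  have hpmem := Finset.max'_mem _ hne
  have hpp : ((Nat.card H).primeFactors.max' hne).Prime := Nat.prime_of_mem_primeFactors hpmem
  have hpd : ((Nat.card H).primeFactors.max' hne) ∣ Nat.card H := Nat.dvd_of_mem_primeFactors hpmem
  have hmaxH : ∀ q : ℕ, q.Prime → q ∣ Nat.card H → q ≤ ((Nat.card H).primeFactors.max' hne) := by
    intro q hq hqd
    exact Finset.le_max' _ q (Nat.mem_primeFactors.mpr ⟨hq, hqd, Nat.card_pos.ne'⟩)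
  generalize ((Nat.card H).primeFactors.max' hne) = p at hpp hpd hmaxH
  clear hpmem
  have hmaxK : ∀ q : ℕ, q.Prime → q ∣ Nat.card K → q ≤ p := by
    intro q hq hqd; exact hmaxH q hq (hcard ▸ hqd)
  haveI : Fact p.Prime := ⟨hpp⟩
  obtain ⟨PH⟩ : Nonempty (Sylow p H) := inferInstance
  obtain ⟨PK⟩ : Nonempty (Sylow p K) := inferInstance
  haveI hPHn : (PH : Subgroup H).Normal := sylow_normal_of_supersolvable hH p hmaxH PH
  haveI hPKn : (PK : Subgroup K).Normal := sylow_normal_of_supersolvable hK p hmaxK PK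
  have hKall : (Nat.card K).Coprime K.index := by
    have e1 := Subgroup.card_mul_index H
    have e2 := Subgroup.card_mul_index K
    have : K.index = H.index := by
      rw [← hcard] at e2
      exact Nat.eq_of_mul_eq_mul_left Nat.card_pos (e2.trans e1.symm)
    rw [← hcard, this]; exact hHall
  have hc1 := card_sylow_map H hHall hpd PH
  have hc2 := card_sylow_map K hKall (hcard ▸ hpd) PK
  obtain ⟨g, hg⟩ := exists_conj_of_card p _ _ hc1 hc2
  have hHN := le_normalizer_map_sylow H (PH : Subgroup H)
  have hKN₂ := le_normalizer_map_sylow K (PK : Subgroup K)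
  have hK'N : MulAut.conj g • K ≤
      Subgroup.normalizer ((((PH : Subgroup H).map H.subtype : Subgroup G)) : Set G) := by
    have := H1.conj_smul_le_normalizer g K _ hKN₂
    rwa [hg] at this
  have hP₁H : (PH : Subgroup H).map H.subtype ≤ H := Subgroup.map_subtype_le _
  have hP₁K' : (PH : Subgroup H).map H.subtype ≤ MulAut.conj g • K := by
    rw [← hg]
    exact Subgroup.pointwise_smul_le_pointwise_smul_iff.mpr (Subgroup.map_subtype_le _)
  have hP₁ne : 2 ≤ Nat.card ((PH : Subgroup H).map H.subtype) := by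
    have h1 : Nat.card ((PH : Subgroup H).map H.subtype) ≠ 1 := by
      intro h
      have h2 := Subgroup.card_eq_one.mp h
      rw [Subgroup.map_eq_bot_iff_of_injective _ (Subgroup.subtype_injective _)] at h2
      exact PH.ne_bot_of_dvd_card hpd h2
    have h0 : 0 < Nat.card ((PH : Subgroup H).map H.subtype) := Nat.card_pos
    omega
  generalize hP₁ : (PH : Subgroup H).map H.subtype = P₁ at *
  generalize hNdef : Subgroup.normalizer (P₁ : Set G) = N at *
  have hP₁N : P₁ ≤ N := by rw [← hNdef]; exact Subgroup.le_normalizer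
  haveI hPn : (P₁.subgroupOf N).Normal := by
    rw [← hNdef]; exact Subgroup.normal_in_normalizer
  have hπs : Function.Surjective (QuotientGroup.mk' (P₁.subgroupOf N)) :=
    QuotientGroup.mk'_surjective _
  have hker : (QuotientGroup.mk' (P₁.subgroupOf N)).ker = P₁.subgroupOf N :=
    QuotientGroup.ker_mk' _
  have hlt : Nat.card (↥N ⧸ P₁.subgroupOf N) < n := by
    have e1 := Subgroup.card_eq_card_quotient_mul_card_subgroup (P₁.subgroupOf N)
    have e2 : Nat.card (P₁.subgroupOf N) = Nat.card P₁ := H1.card_subgroupOf_of_le hP₁N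
    have e4 : Nat.card N ≤ Nat.card G := Subgroup.card_le_card_group N
    have e5 : 0 < Nat.card (↥N ⧸ P₁.subgroupOf N) := Nat.card_pos
    rw [e2] at e1
    rw [← hn]
    nlinarith
  have hkerH : (QuotientGroup.mk' (P₁.subgroupOf N)).ker ≤ H.subgroupOf N := by
    rw [hker]; intro x hx; exact hP₁H hx
  have hkerK : (QuotientGroup.mk' (P₁.subgroupOf N)).ker ≤ (MulAut.conj g • K).subgroupOf N := by
    rw [hker]; intro x hx; exact hP₁K' hx
  have hHs : Cfsg.IsSupersolvable ↥((H.subgroupOf N).map (QuotientGroup.mk' (P₁.subgroupOf N))) := by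
    have h1 := H12.isSupersolvable_of_mulEquiv (Subgroup.subgroupOfEquivOfLe hHN).symm hH
    exact H12.isSupersolvable_of_surjective
      ((QuotientGroup.mk' (P₁.subgroupOf N)).subgroupMap (H.subgroupOf N))
      ((QuotientGroup.mk' (P₁.subgroupOf N)).subgroupMap_surjective (H.subgroupOf N)) h1
  have hKs : Cfsg.IsSupersolvable
      ↥(((MulAut.conj g • K).subgroupOf N).map (QuotientGroup.mk' (P₁.subgroupOf N))) := by
    have h0 := H12.isSupersolvable_of_mulEquiv (Subgroup.equivSMul (MulAut.conj g) K) hK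
    have h1 := H12.isSupersolvable_of_mulEquiv (Subgroup.subgroupOfEquivOfLe hK'N).symm h0
    exact H12.isSupersolvable_of_surjective
      ((QuotientGroup.mk' (P₁.subgroupOf N)).subgroupMap ((MulAut.conj g • K).subgroupOf N))
      ((QuotientGroup.mk' (P₁.subgroupOf N)).subgroupMap_surjective _) h1
  have hiH : ((H.subgroupOf N).map (QuotientGroup.mk' (P₁.subgroupOf N))).index = H.relIndex N := by
    rw [Subgroup.index_map_eq _ hπs hkerH]; rfl
  have hiK : (((MulAut.conj g • K).subgroupOf N).map (QuotientGroup.mk' (P₁.subgroupOf N))).index =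
      (MulAut.conj g • K).relIndex N := by
    rw [Subgroup.index_map_eq _ hπs hkerK]; rfl
  have hrH : Nat.card H * H.relIndex N = Nat.card N := by
    have := Subgroup.card_mul_index (H.subgroupOf N)
    rwa [H1.card_subgroupOf_of_le hHN] at this
  have hrK : Nat.card K * (MulAut.conj g • K).relIndex N = Nat.card N := by
    have := Subgroup.card_mul_index ((MulAut.conj g • K).subgroupOf N)
    rwa [H1.card_subgroupOf_of_le hK'N, H1.card_conj_smul] at this
  have hidx : ((H.subgroupOf N).map (QuotientGroup.mk' (P₁.subgroupOf N))).index =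
      (((MulAut.conj g • K).subgroupOf N).map (QuotientGroup.mk' (P₁.subgroupOf N))).index := by
    rw [hiH, hiK]
    rw [← hcard] at hrK
    exact Nat.eq_of_mul_eq_mul_left Nat.card_pos (hrH.trans hrK.symm)
  have hcardbar : Nat.card ((H.subgroupOf N).map (QuotientGroup.mk' (P₁.subgroupOf N))) =
      Nat.card (((MulAut.conj g • K).subgroupOf N).map (QuotientGroup.mk' (P₁.subgroupOf N))) := by
    have e1 := Subgroup.card_mul_index ((H.subgroupOf N).map (QuotientGroup.mk' (P₁.subgroupOf N)))
    have e2 := Subgroup.card_mul_index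
      (((MulAut.conj g • K).subgroupOf N).map (QuotientGroup.mk' (P₁.subgroupOf N)))
    rw [← hidx] at e2
    have hpos : 0 < ((H.subgroupOf N).map (QuotientGroup.mk' (P₁.subgroupOf N))).index :=
      Nat.pos_of_ne_zero Subgroup.index_ne_zero_of_finite
    exact Nat.eq_of_mul_eq_mul_right hpos (e1.trans e2.symm)
  have hcopbar : (Nat.card ((H.subgroupOf N).map (QuotientGroup.mk' (P₁.subgroupOf N)))).Coprime
      ((H.subgroupOf N).map (QuotientGroup.mk' (P₁.subgroupOf N))).index := by
    have d1 : Nat.card ((H.subgroupOf N).map (QuotientGroup.mk' (P₁.subgroupOf N))) ∣ Nat.card H := by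
      have := Subgroup.card_map_dvd (H := H.subgroupOf N) (QuotientGroup.mk' (P₁.subgroupOf N))
      rwa [H1.card_subgroupOf_of_le hHN] at this
    have d2 : ((H.subgroupOf N).map (QuotientGroup.mk' (P₁.subgroupOf N))).index ∣ H.index := by
      rw [hiH]; exact Subgroup.relIndex_dvd_index_of_le hHN
    exact Nat.Coprime.coprime_dvd_left d1 (Nat.Coprime.coprime_dvd_right d2 hHall)
  obtain ⟨xbar, hx⟩ := ih _ hlt (↥N ⧸ P₁.subgroupOf N) rfl _ _ hHs hKs hcardbar hcopbar
  obtain ⟨x, rfl⟩ := hπs xbar
  rw [← H1.map_conj_smul] at hx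
  have hkerxH : (QuotientGroup.mk' (P₁.subgroupOf N)).ker ≤ MulAut.conj x • H.subgroupOf N := by
    have h1 : MulAut.conj x • (QuotientGroup.mk' (P₁.subgroupOf N)).ker =
        (QuotientGroup.mk' (P₁.subgroupOf N)).ker := Subgroup.Normal.conj_smul_eq_self x _
    rw [← h1]
    exact Subgroup.pointwise_smul_le_pointwise_smul_iff.mpr hkerH
  have heq : MulAut.conj x • H.subgroupOf N = (MulAut.conj g • K).subgroupOf N :=
    Subgroup.map_injective_of_ker_le _ hkerxH hkerK hx
  have hfinal : MulAut.conj (x : G) • H = MulAut.conj g • K :=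
    H1.conj_smul_eq_of_subgroupOf hHN hK'N x heq
  refine ⟨g⁻¹ * x, ?_⟩
  rw [H1.conj_mul_smul, hfinal, H1.conj_inv_smul_conj_smul]

/-- Let H and K be supersolvable subgroups of a finite group G of the same order, that order being coprime to their index. Then H and K are conjugate in G. -/
theorem result {G : Type*} [Group G] [Finite G] (H K : Subgroup G) (hH : Cfsg.IsSupersolvable H) (hK : Cfsg.IsSupersolvable K) (hcard : Nat.card H = Nat.card K) (hHall : (Nat.card H).Coprime H.index) : ∃ x : G, MulAut.conj x • H = K :=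
  aux _ G rfl H K hH hK hcard hHall

end Cfsg.Agent.S0582
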