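import Mathlib
import Cfsg.Statements.S0583

set_option autoImplicit false
open Cfsg

namespace Cfsg.Agent.S0583

/-- the chain `c 0 = M ⊓ N`, `c (i+1) = ⁅c i, N⁆` -/
def chain {G : Type*} [Group G] (M N : Subgroup G) : ℕ → Subgroup G
  | 0 => M ⊓ N
  | i + 1 => ⁅chain M N i, N⁆

theorem chain_le_lcs {G : Type*} [Group G] (M N : Subgroup G) (i : ℕ) :
    chain M N i ≤ N.lowerCentralSeries i := by
  induction i with
  | zero => exact inf_le_right
  | succ i ih => exact Subgroup.commutator_mono ih le_rfl

theorem chain_normal {G : Type*} [Group G] (M N : Subgroup G) [M.Normal] [N.Normal] (i : ℕ) :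
    (chain M N i).Normal := by
  induction i with
  | zero => exact Subgroup.normal_inf_normal M N
  | succ i ih =>
    have := ih
    exact Subgroup.commutator_normal (chain M N i) N

theorem comm_eq_bot {G : Type*} [Group G] (M N : Subgroup G) [M.Normal] [N.Normal]
    (hmin : ∀ K : Subgroup G, K.Normal → K ≤ M → K = ⊥ ∨ K = M)
    (hM : M ≠ ⊥) (hN : Group.IsNilpotent N) : ⁅M, N⁆ = ⊥ := by
  obtain ⟨n, hn⟩ := (Subgroup.isNilpotent_iff_lowerCentralSeries N).mp hN
  have h0 : chain M N 0 ≤ M := inf_le_left
  have h1le : chain M N 1 ≤ chain M N 0 := by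
    have := chain_normal M N 0
    exact Subgroup.commutator_le_left (chain M N 0) N
  have key : chain M N 1 = ⊥ := by
    by_contra hne
    have h1 : chain M N 1 = M :=
      (hmin _ (chain_normal M N 1) (h1le.trans h0)).resolve_left hne
    have h0' : chain M N 0 = M := le_antisymm h0 (le_of_eq_of_le h1.symm h1le)
    have hall : ∀ i, chain M N i = M := by
      intro i
      induction i with
      | zero => exact h0'
      | succ i ih =>
        have e : ⁅chain M N i, N⁆ = ⁅chain M N 0, N⁆ := by rw [ih, h0']
        exact e.trans h1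
    have : M = ⊥ := by
      rw [← hall n, eq_bot_iff, ← hn]
      exact chain_le_lcs M N n
    exact hM this
  have hle : ⁅M, N⁆ ≤ M ⊓ N := Subgroup.commutator_le_inf M N
  rcases hmin (M ⊓ N) (Subgroup.normal_inf_normal M N) inf_le_left with h | h
  · rw [h] at hle; exact le_bot_iff.mp hle
  · have : ⁅M, N⁆ = chain M N 1 := by
      show ⁅M, N⁆ = ⁅M ⊓ N, N⁆
      rw [h]
    rw [this, key]

/-- In a finite group the Fitting subgroup is contained in the centralizer of each minimal normal subgroup. -/
theorem result {G : Type*} [Group G] [Finite G] (M : Subgroup G) [M.Normal] (hM : M ≠ ⊥) (hmin : ∀ K : Subgroup G, K.Normal → K ≤ M → K = ⊥ ∨ K = M) : Cfsg.fittingSubgroup G ≤ Subgroup.centralizer (M : Set G) := by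
  unfold Cfsg.fittingSubgroup
  apply sSup_le
  rintro N ⟨hNn, hNnil⟩
  have := hNn
  have h := comm_eq_bot M N hmin hM hNnil
  rw [Subgroup.commutator_comm] at h
  exact Subgroup.commutator_eq_bot_iff_le_centralizer.mp h

end Cfsg.Agent.S0583
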