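import Mathlib
import Cfsg.Statements.S0587
import Cfsg.Agent.S0583
import Cfsg.Agent.H13.PCore
import Cfsg.Agent.H13.Basic

set_option autoImplicit false
open Cfsg

namespace Cfsg.Agent.S0587

open Cfsg.Agent.H13

theorem normal_of_sup_top {G : Type*} [Group G] (K A B : Subgroup G) (hAB : A ⊔ B = ⊤)
    (hA : A ≤ Subgroup.normalizer (K : Set G)) (hB : B ≤ Subgroup.normalizer (K : Set G)) :
    K.Normal := by
  rw [← Subgroup.normalizer_eq_top_iff]
  exact top_le_iff.mp (hAB ▸ sup_le hA hB)

theorem le_normalizer_inf {G : Type*} [Group G] {X A B : Subgroup G}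
    (hA : X ≤ Subgroup.normalizer (A : Set G)) (hB : X ≤ Subgroup.normalizer (B : Set G)) :
    X ≤ Subgroup.normalizer ((A ⊓ B : Subgroup G) : Set G) := by
  intro x hx
  have h1 := hA hx
  have h2 := hB hx
  rw [Subgroup.mem_normalizer_iff] at h1 h2 ⊢
  intro y
  rw [Subgroup.mem_inf, Subgroup.mem_inf, ← h1 y, ← h2 y]

theorem normalizer_le_normalizer_centralizer {G : Type*} [Group G] (Q : Subgroup G) :
    Subgroup.normalizer (Q : Set G) ≤
      Subgroup.normalizer ((Subgroup.centralizer (Q : Set G) : Subgroup G) : Set G) := by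
  intro g hg
  rw [Subgroup.mem_normalizer_iff] at hg ⊢
  intro c
  constructor
  · intro hc
    rw [Subgroup.mem_centralizer_iff] at hc ⊢
    intro h hh
    have h1 : g⁻¹ * h * g ∈ Q := by
      apply (hg (g⁻¹ * h * g)).mpr
      have : g * (g⁻¹ * h * g) * g⁻¹ = h := by group
      rw [this]; exact hh
    have h2 := hc _ h1
    calc h * (g * c * g⁻¹) = g * ((g⁻¹ * h * g) * c) * g⁻¹ := by group
      _ = g * (c * (g⁻¹ * h * g)) * g⁻¹ := by rw [h2]
      _ = g * c * g⁻¹ * h := by group
  · intro hc
    rw [Subgroup.mem_centralizer_iff] at hc ⊢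
    intro h hh
    have h1 : g * h * g⁻¹ ∈ Q := (hg h).mp hh
    have h2 := hc _ h1
    have : g * (h * c) * g⁻¹ = g * (c * h) * g⁻¹ := by
      calc g * (h * c) * g⁻¹ = (g * h * g⁻¹) * (g * c * g⁻¹) := by group
        _ = (g * c * g⁻¹) * (g * h * g⁻¹) := h2
        _ = g * (c * h) * g⁻¹ := by group
    exact mul_left_cancel (mul_right_cancel this)

/-- Let G be a finite group whose largest normal p-subgroup L is nontrivial, and M a maximal subgroup of G with trivial normal core. Then L is elementary abelian, M is a complement to L, L is a minimal normal subgroup of G, the centralizer of L is L, and for every prime q such that the largest normal q-subgroup of M is nontrivial, the order of L is congruent to 1 modulo q and q ≠ p. -/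
theorem result {G : Type*} [Group G] [Finite G] (p : ℕ) [Fact p.Prime] (hL : Cfsg.pCore p G ≠ ⊥) (M : Subgroup G) (hM : IsCoatom M) (hcore : M.normalCore = ⊥) : Cfsg.IsElementaryAbelian p (Cfsg.pCore p G) ∧ Subgroup.IsComplement' (Cfsg.pCore p G) M ∧ (∀ K : Subgroup G, K.Normal → K ≤ Cfsg.pCore p G → K = ⊥ ∨ K = Cfsg.pCore p G) ∧ Subgroup.centralizer ((Cfsg.pCore p G : Subgroup G) : Set G) = Cfsg.pCore p G ∧ ∀ (q : ℕ) [Fact q.Prime], Cfsg.pCore q ↥M ≠ ⊥ → Nat.card (Cfsg.pCore p G) % q = 1 % q ∧ q ≠ p := by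
  have hLn : (Cfsg.pCore p G).Normal := pCore_normal p G
  have hLp : IsPGroup p (Cfsg.pCore p G) := pCore_isPGroup p G
  -- minimal normal subgroup N ≤ L
  obtain ⟨N, hNL, hNmin⟩ := (Set.toFinite {K : Subgroup G | K.Normal ∧ K ≠ ⊥ ∧ K ≤ Cfsg.pCore p G}).exists_le_minimal
    (show Cfsg.pCore p G ∈ {K : Subgroup G | K.Normal ∧ K ≠ ⊥ ∧ K ≤ Cfsg.pCore p G} from ⟨hLn, hL, le_rfl⟩)
  obtain ⟨⟨hNn, hNne, hNL'⟩, hNmin'⟩ := hNmin
  have := hNn
  have hmin : ∀ K : Subgroup G, K.Normal → K ≤ N → K = ⊥ ∨ K = N := by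
    intro K hK hKN
    by_cases hKb : K = ⊥
    · exact Or.inl hKb
    · exact Or.inr (le_antisymm hKN (hNmin' ⟨hK, hKb, hKN.trans hNL'⟩ hKN))
  have hNp : IsPGroup p N := hLp.to_le hNL'
  have hNnil : Group.IsNilpotent N := hNp.isNilpotent
  have hLnil : Group.IsNilpotent (Cfsg.pCore p G) := hLp.isNilpotent
  have hNN : ⁅N, N⁆ = ⊥ := S0583.comm_eq_bot N N hmin hNne hNnil
  have hNL2 : ⁅N, Cfsg.pCore p G⁆ = ⊥ := S0583.comm_eq_bot N (Cfsg.pCore p G) hmin hNne hLnil
  have hNleC : N ≤ Subgroup.centralizer (N : Set G) :=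
    Subgroup.commutator_eq_bot_iff_le_centralizer.mp hNN
  have hNcomm : ∀ x ∈ N, ∀ y ∈ N, x * y = y * x := by
    intro x hx y hy
    have := hNleC hx
    rw [Subgroup.mem_centralizer_iff] at this
    exact (this y hy).symm
  have hKM : ∀ K : Subgroup G, K.Normal → K ≤ M → K = ⊥ := by
    intro K hK hKM
    have := hK
    have : K ≤ M.normalCore := Subgroup.normal_le_normalCore.mpr hKM
    rw [hcore] at this
    exact le_bot_iff.mp this
  have hNM : ¬ N ≤ M := fun h => hNne (hKM N hNn h)
  have hsup : N ⊔ M = ⊤ := by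
    by_contra hne
    have hlt : M < N ⊔ M := lt_of_le_of_ne le_sup_right (fun h => hNM (h ▸ le_sup_left))
    exact hne (hM.2 _ hlt)
  have hMN : M ≤ Subgroup.normalizer (N : Set G) := by
    rw [Subgroup.normalizer_eq_top]; exact le_top
  have hNM0 : N ⊓ M = ⊥ := by
    apply hKM _ _ inf_le_right
    apply normal_of_sup_top _ N M hsup
    · exact (hNleC.trans (Subgroup.centralizer_le (by
        intro x hx; exact hx.1))).trans (Subgroup.centralizer_le_normalizer _)
    · exact le_normalizer_inf hMN Subgroup.le_normalizer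
  have hCM0 : Subgroup.centralizer (N : Set G) ⊓ M = ⊥ := by
    apply hKM _ _ inf_le_right
    apply normal_of_sup_top _ N M hsup
    · have h1 : N ≤ Subgroup.centralizer ((Subgroup.centralizer (N : Set G) : Subgroup G) : Set G) :=
        Subgroup.le_centralizer_iff.mp le_rfl
      exact (h1.trans (Subgroup.centralizer_le (by
        intro x hx; exact hx.1))).trans (Subgroup.centralizer_le_normalizer _)
    · apply le_normalizer_inf _ Subgroup.le_normalizer
      rw [Subgroup.normalizer_eq_top]; exact le_top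
  have hCN : Subgroup.centralizer (N : Set G) ≤ N := by
    intro c hc
    have hc' : c ∈ ((N ⊔ M : Subgroup G) : Set G) := by rw [hsup]; trivial
    rw [Subgroup.normal_mul, Set.mem_mul] at hc'
    obtain ⟨n, hn, m, hm, rfl⟩ := hc'
    have hmC : m ∈ Subgroup.centralizer (N : Set G) := by
      have : m = n⁻¹ * (n * m) := by group
      rw [this]
      exact Subgroup.mul_mem _ (Subgroup.inv_mem _ (hNleC hn)) hc
    have : m ∈ (Subgroup.centralizer (N : Set G)) ⊓ M := Subgroup.mem_inf.mpr ⟨hmC, hm⟩
    rw [hCM0, Subgroup.mem_bot] at this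
    rw [this, mul_one]; exact hn
  have hLC : Cfsg.pCore p G ≤ Subgroup.centralizer (N : Set G) :=
    Subgroup.le_centralizer_iff.mp (Subgroup.commutator_eq_bot_iff_le_centralizer.mp hNL2)
  have hLN : Cfsg.pCore p G = N := le_antisymm (hLC.trans hCN) hNL'
  rw [hLN]
  -- exponent p
  have hNexp : ∀ a ∈ N, a ^ p = 1 := by
    let Ω : Subgroup G :=
      { carrier := {x | x ∈ N ∧ x ^ p = 1}
        mul_mem' := by
          rintro a b ⟨ha, ha'⟩ ⟨hb, hb'⟩
          refine ⟨N.mul_mem ha hb, ?_⟩
          rw [(show Commute a b from hNcomm a ha b hb).mul_pow, ha', hb', one_mul]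
        one_mem' := ⟨N.one_mem, one_pow p⟩
        inv_mem' := by
          rintro a ⟨ha, ha'⟩
          exact ⟨N.inv_mem ha, by rw [inv_pow, ha', inv_one]⟩ }
    have hΩn : Ω.Normal := by
      constructor
      rintro a ⟨ha, ha'⟩ g
      exact ⟨hNn.conj_mem a ha g, by rw [conj_pow, ha', mul_one, mul_inv_cancel]⟩
    have hΩN : Ω ≤ N := fun a ha => ha.1
    have hΩne : Ω ≠ ⊥ := by
      have hdvd : p ∣ Nat.card N := (hNp.card_eq_or_dvd).resolve_left (by
        intro h1
        exact hNne (Subgroup.card_eq_one.mp h1))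
      obtain ⟨x, hx⟩ := exists_prime_orderOf_dvd_card' p hdvd
      intro hΩ
      have hxΩ : (x : G) ∈ Ω := by
        refine ⟨x.2, ?_⟩
        have := pow_orderOf_eq_one x
        rw [hx] at this
        have h2 := congrArg Subtype.val this
        simpa using h2
      rw [hΩ, Subgroup.mem_bot] at hxΩ
      have hx1 : x = 1 := Subtype.ext hxΩ
      rw [hx1, orderOf_one] at hx
      exact (Fact.out : p.Prime).one_lt.ne hx
    have hΩ : Ω = N := (hmin Ω hΩn hΩN).resolve_left hΩne
    intro a ha
    rw [← hΩ] at ha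
    exact ha.2
  refine ⟨?_, ?_, hmin, le_antisymm hCN hNleC, ?_⟩
  · exact ea_iff.mpr ⟨hNcomm, hNexp⟩
  · apply Subgroup.isComplement'_of_disjoint_and_mul_eq_univ (disjoint_iff.mpr hNM0)
    rw [← Subgroup.normal_mul, hsup]; rfl
  · intro q _ hQ
    set Q : Subgroup G := (Cfsg.pCore q ↥M).map M.subtype with hQdef
    have hQM : Q ≤ M := by rw [hQdef]; exact Subgroup.map_subtype_le _
    have hQne : Q ≠ ⊥ := by
      intro h
      apply hQ
      rw [hQdef, Subgroup.map_eq_bot_iff_of_injective _ M.subtype_injective] at h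
      exact h
    have hQq : IsPGroup q Q := (pCore_isPGroup q ↥M).map M.subtype
    have hMQ : M ≤ Subgroup.normalizer (Q : Set G) := by
      have h1 := Subgroup.le_normalizer_map (H := Cfsg.pCore q ↥M) M.subtype
      have := pCore_normal q ↥M
      rw [Subgroup.normalizer_eq_top, ← MonoidHom.range_eq_map, Subgroup.range_subtype] at h1
      exact h1
    have hFn : (N ⊓ Subgroup.centralizer (Q : Set G)).Normal := by
      apply normal_of_sup_top _ N M hsup
      · exact (hNleC.trans (Subgroup.centralizer_le (by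
          intro x hx; exact hx.1))).trans (Subgroup.centralizer_le_normalizer _)
      · exact le_normalizer_inf hMN (hMQ.trans (normalizer_le_normalizer_centralizer Q))
    have hF0 : N ⊓ Subgroup.centralizer (Q : Set G) = ⊥ := by
      rcases hmin _ hFn inf_le_left with h | h
      · exact h
      · exfalso
        have h1 : N ≤ Subgroup.centralizer (Q : Set G) := inf_eq_left.mp h
        have h2 : Q ≤ Subgroup.centralizer (N : Set G) := Subgroup.le_centralizer_iff.mp h1
        have h3 : Q ≤ N ⊓ M := le_inf (h2.trans hCN) hQM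
        rw [hNM0] at h3
        exact hQne (le_bot_iff.mp h3)
    let act : MulAction ↥Q ↥N :=
      MulAction.compHom ↥N ((MulAut.conjNormal : G →* MulAut ↥N).comp Q.subtype)
    have hfix : MulAction.fixedPoints ↥Q ↥N = {1} := by
      ext ⟨l, hl⟩
      simp only [MulAction.mem_fixedPoints, Set.mem_singleton_iff]
      constructor
      · intro h
        have : l ∈ N ⊓ Subgroup.centralizer (Q : Set G) := by
          rw [Subgroup.mem_inf]
          refine ⟨hl, ?_⟩
          rw [Subgroup.mem_centralizer_iff]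
          intro x hx
          have h' := congrArg Subtype.val (h ⟨x, hx⟩)
          change x * l * x⁻¹ = l at h'
          calc x * l = x * l * x⁻¹ * x := by group
            _ = l * x := by rw [h']
        rw [hF0, Subgroup.mem_bot] at this
        exact Subtype.ext this
      · intro h x
        rw [h]
        apply Subtype.ext
        change (x : G) * 1 * (x : G)⁻¹ = 1
        group
    have hcard := hQq.card_modEq_card_fixedPoints ↥N
    rw [hfix] at hcard
    have h1 : Nat.card (({1} : Set ↥N)) = 1 := by simp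
    rw [h1] at hcard
    have hcard' : Nat.card N % q = 1 % q := hcard
    refine ⟨hcard', ?_⟩
    intro hqp
    have hdvd : p ∣ Nat.card N := (hNp.card_eq_or_dvd).resolve_left (by
      intro h1
      exact hNne (Subgroup.card_eq_one.mp h1))
    rw [hqp] at hcard'
    have h0 : Nat.card N % p = 0 := Nat.mod_eq_zero_of_dvd hdvd
    rw [h0] at hcard'
    have hp2 := (Fact.out : p.Prime).two_le
    rw [Nat.mod_eq_of_lt (by omega)] at hcard'
    exact absurd hcard' (by norm_num)

end Cfsg.Agent.S0587
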