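import Mathlib
import Cfsg.Statements.S0589

set_option autoImplicit false
open Pointwise
open Cfsg

namespace Cfsg.Agent.S0589

/-- the number of points with trivial stabilizer is divisible by the group order -/
theorem card_dvd_regular (K X : Type*) [Group K] [MulAction K X] [Finite K] [Finite X] :
    Nat.card K ∣ Nat.card {a : X // MulAction.stabilizer K a = ⊥} := by
  let S : SubMulAction K X :=
    { carrier := {a | MulAction.stabilizer K a = ⊥}
      smul_mem' := by
        intro g a ha
        show MulAction.stabilizer K (g • a) = ⊥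
        rw [MulAction.stabilizer_smul_eq_stabilizer_map_conj,
          show MulAction.stabilizer K a = ⊥ from ha, Subgroup.map_bot] }
  have hfree : ∀ b : S, MulAction.stabilizer K b = ⊥ := by
    intro b
    rw [SubMulAction.stabilizer_of_subMul]
    exact b.2
  have e := MulAction.selfEquivOrbitsQuotientProd hfree
  have h : Nat.card S = Nat.card (Quotient (MulAction.orbitRel K S)) * Nat.card K := by
    rw [Nat.card_congr e, Nat.card_prod]
  exact Dvd.intro_left _ h.symm

theorem card_split {α : Type*} [Finite α] (p : α → Prop) :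
    Nat.card {a // p a} + Nat.card {a // ¬ p a} = Nat.card α := by
  classical
  rw [← Nat.card_sum]
  exact Nat.card_congr (Equiv.sumCompl p)

theorem fix_unique {G : Type*} [Group G] {H : Subgroup G} (hH : Cfsg.IsFrobeniusComplement H)
    {x g g' : G} (hx : x ≠ 1) (h1 : g⁻¹ * x * g ∈ H) (h2 : g'⁻¹ * x * g' ∈ H) :
    g⁻¹ * g' ∈ H := by
  by_contra ht
  have h := hH.2.2 (g⁻¹ * g') ht
  have hy : g⁻¹ * x * g ∈ H ⊓ (MulAut.conj (g⁻¹ * g') • H) := by
    rw [Subgroup.mem_inf]
    refine ⟨h1, ?_⟩
    rw [Subgroup.mem_smul_pointwise_iff_exists]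
    refine ⟨g'⁻¹ * x * g', h2, ?_⟩
    rw [MulAut.smul_def, MulAut.conj_apply]
    group
  rw [h, Subgroup.mem_bot] at hy
  apply hx
  calc x = g * (g⁻¹ * x * g) * g⁻¹ := by group
    _ = 1 := by rw [hy]; group

theorem smul_eq_iff {G : Type*} [Group G] (H K : Subgroup G) (k : K) (g : G) :
    k • (g : G ⧸ H) = (g : G ⧸ H) ↔ g⁻¹ * (k : G) * g ∈ H := by
  have : k • (g : G ⧸ H) = (((k : G) * g : G) : G ⧸ H) := rfl
  rw [this, eq_comm, QuotientGroup.eq, mul_assoc]

theorem fix_unique' {G : Type*} [Group G] {H : Subgroup G} (hH : Cfsg.IsFrobeniusComplement H)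
    (K : Subgroup G) (x : K) (hx : x ≠ 1) (a b : G ⧸ H) (ha : x • a = a) (hb : x • b = b) :
    a = b := by
  induction a using QuotientGroup.induction_on with
  | H g =>
  induction b using QuotientGroup.induction_on with
  | H g' =>
  rw [smul_eq_iff] at ha hb
  rw [QuotientGroup.eq]
  exact fix_unique hH (fun h => hx (Subtype.ext h)) ha hb

theorem card_ne_one {α : Type*} [Finite α] (x : α) :
    Nat.card {a : α // ¬ a = x} = Nat.card α - 1 := by
  have h := card_split (fun a : α => a = x)
  have h1 : Nat.card {a : α // a = x} = 1 := by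
    simp
  omega

/-- Let H be a Frobenius complement in a finite group G and L a subgroup of G whose order divides the order of H. Then L is contained in some conjugate of H. -/
theorem result {G : Type*} [Group G] [Finite G] (H : Subgroup G) (hH : Cfsg.IsFrobeniusComplement H) (L : Subgroup G) (hL : Nat.card L ∣ Nat.card H) : ∃ x : G, L ≤ MulAut.conj x • H := by
  classical
  by_cases hL0 : L = ⊥
  · exact ⟨1, by rw [hL0]; exact bot_le⟩
  have hℓ : 2 ≤ Nat.card L := by
    have h1 : Nat.card L ≠ 1 := fun h => hL0 (Subgroup.card_eq_one.mp h)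
    have h0 : 0 < Nat.card L := Nat.card_pos
    omega
  -- Step 1
  have hn : Nat.card H ∣ Nat.card (G ⧸ H) - 1 := by
    have h1 := card_dvd_regular ↥H (G ⧸ H)
    have h2 : ∀ a : G ⧸ H, MulAction.stabilizer ↥H a = ⊥ ↔ ¬ a = ((1 : G) : G ⧸ H) := by
      intro a
      induction a using QuotientGroup.induction_on with
      | H g =>
        constructor
        · intro hs heq
          have hg : g ∈ H := by
            have := QuotientGroup.eq.mp heq
            have h' := H.inv_mem this
            simpa using h'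
          apply hH.1
          rw [eq_bot_iff]
          intro k hk
          have : (⟨k, hk⟩ : H) ∈ MulAction.stabilizer ↥H (g : G ⧸ H) := by
            rw [MulAction.mem_stabilizer_iff, smul_eq_iff]
            exact H.mul_mem (H.mul_mem (H.inv_mem hg) hk) hg
          rw [hs, Subgroup.mem_bot] at this
          rw [Subgroup.mem_bot]
          exact congrArg Subtype.val this
        · intro hne
          rw [eq_bot_iff]
          intro k hk
          rw [MulAction.mem_stabilizer_iff, smul_eq_iff] at hk
          rw [Subgroup.mem_bot]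
          by_contra hk1
          have hk1' : (k : G) ≠ 1 := fun h => hk1 (Subtype.ext h)
          have := fix_unique hH hk1' hk (show (1:G)⁻¹ * (k : G) * 1 ∈ H by simp)
          apply hne
          rw [QuotientGroup.eq]
          exact this
    rw [Nat.card_congr (Equiv.subtypeEquivRight h2), card_ne_one] at h1
    exact h1
  have hn' : Nat.card L ∣ Nat.card (G ⧸ H) - 1 := hL.trans hn
  have hnpos : 0 < Nat.card (G ⧸ H) := Nat.card_pos
  -- Step 2
  have hR := card_dvd_regular ↥L (G ⧸ H)
  have hsplit := card_split (fun a : G ⧸ H => MulAction.stabilizer ↥L a = ⊥)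
  have hT_le : Nat.card {a : G ⧸ H // ¬ MulAction.stabilizer ↥L a = ⊥} ≤
      Nat.card {x : L // ¬ x = 1} := by
    have hex : ∀ a : {a : G ⧸ H // ¬ MulAction.stabilizer ↥L a = ⊥},
        ∃ x : L, x ≠ 1 ∧ x • (a : G ⧸ H) = a := by
      intro a
      obtain ⟨x, hx⟩ := (Subgroup.ne_bot_iff_exists_ne_one).mp a.2
      exact ⟨x.1, fun h => hx (Subtype.ext h), x.2⟩
    choose f hf1 hf2 using hex
    apply Nat.card_le_card_of_injective (fun a => (⟨f a, hf1 a⟩ : {x : L // ¬ x = 1}))
    intro a b hab
    have hfab : f a = f b := congrArg Subtype.val hab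
    apply Subtype.ext
    have ha := hf2 a
    have hb := hf2 b
    rw [← hfab] at hb
    exact fix_unique' hH L (f a) (hf1 a) _ _ ha hb
  rw [card_ne_one] at hT_le
  have hT1 : Nat.card {a : G ⧸ H // ¬ MulAction.stabilizer ↥L a = ⊥} = 1 := by
    obtain ⟨u, hu⟩ := hn'
    obtain ⟨v, hv⟩ := hR
    have heq : Nat.card L * v + Nat.card {a : G ⧸ H // ¬ MulAction.stabilizer ↥L a = ⊥}
        = Nat.card L * u + 1 := by omega
    have hmod := congrArg (· % Nat.card L) heq
    simp only [Nat.mul_add_mod] at hmod
    rw [Nat.mod_eq_of_lt (by omega), Nat.mod_eq_of_lt (by omega)] at hmod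
    exact hmod
  rw [Nat.card_eq_one_iff_unique] at hT1
  obtain ⟨hsub, ⟨a₀, ha₀⟩⟩ := hT1
  have hfix : ∀ x : L, x • a₀ = a₀ := by
    intro x
    have hx : ¬ MulAction.stabilizer ↥L (x • a₀) = ⊥ := by
      rw [MulAction.stabilizer_smul_eq_stabilizer_map_conj]
      intro h
      rw [Subgroup.map_eq_bot_iff_of_injective _ (MulAut.conj x).injective] at h
      exact ha₀ h
    have := hsub.elim ⟨x • a₀, hx⟩ ⟨a₀, ha₀⟩
    exact congrArg Subtype.val this
  induction a₀ using QuotientGroup.induction_on with
  | H g =>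
    refine ⟨g, ?_⟩
    intro x hx
    have := hfix ⟨x, hx⟩
    rw [smul_eq_iff] at this
    rw [Subgroup.mem_smul_pointwise_iff_exists]
    refine ⟨g⁻¹ * x * g, this, ?_⟩
    rw [MulAut.smul_def, MulAut.conj_apply]
    group

end Cfsg.Agent.S0589
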