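import Mathlib
import Cfsg.Statements.S0590

set_option autoImplicit false
open Cfsg
open scoped commutatorElement

namespace Cfsg.Agent.S0590

/-- Quadratic action on an elementary abelian p-group forces the acting group modulo the kernel of the action to be elementary abelian. -/
theorem result {G : Type*} [Group G] [Finite G] {p : ℕ} [Fact p.Prime] (V H : Subgroup G) (hV : Cfsg.IsElementaryAbelian p V) (hHV : H ≤ Subgroup.normalizer (V : Set G)) (hq : ⁅⁅V, H⁆, H⁆ = ⊥) : ⁅H, H⁆ ≤ Subgroup.centralizer (V : Set G) ∧ ∀ a ∈ H, a ^ p ∈ Subgroup.centralizer (V : Set G) := by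
  constructor
  · have h1 : ⁅⁅H, V⁆, H⁆ = ⊥ := by rw [Subgroup.commutator_comm H V]; exact hq
    have h3 : ⁅⁅H, H⁆, V⁆ = ⊥ := Subgroup.commutator_commutator_eq_bot_of_rotate h1 hq
    exact Subgroup.commutator_eq_bot_iff_le_centralizer.mp h3
  · intro a ha
    rw [Subgroup.mem_centralizer_iff]
    intro v hv
    have hvV : v ∈ V := hv
    have hcVH : ⁅v, a⁆ ∈ ⁅V, H⁆ := Subgroup.commutator_mem_commutator hvV ha
    have hcent : ⁅V, H⁆ ≤ Subgroup.centralizer (H : Set G) :=
      Subgroup.commutator_eq_bot_iff_le_centralizer.mp hq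
    have hca : a * ⁅v, a⁆ = ⁅v, a⁆ * a := (Subgroup.mem_centralizer_iff.mp (hcent hcVH)) a ha
    have hcV : ⁅v, a⁆ ∈ V := by
      have h1 : a * v⁻¹ * a⁻¹ ∈ V := (Subgroup.mem_normalizer_iff.mp (hHV ha) v⁻¹).mp (V.inv_mem hvV)
      have e : ⁅v, a⁆ = v * (a * v⁻¹ * a⁻¹) := by
        simp only [commutatorElement_def]; group
      rw [e]; exact V.mul_mem hvV h1
    have hcp : ⁅v, a⁆ ^ p = 1 := hV.2 _ hcV
    have hconj : v * a * v⁻¹ = ⁅v, a⁆ * a := by
      simp only [commutatorElement_def]; group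
    have hpow : v * a ^ p * v⁻¹ = (v * a * v⁻¹) ^ p := by
      rw [conj_pow]
    have hcomm : Commute ⁅v, a⁆ a := hca.symm
    rw [hconj, hcomm.mul_pow, hcp, one_mul] at hpow
    calc v * a ^ p = (v * a ^ p * v⁻¹) * v := by group
      _ = a ^ p * v := by rw [hpow]

end Cfsg.Agent.S0590
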