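import Mathlib
import Cfsg.Statements.S0591

set_option autoImplicit false
open Cfsg
open scoped commutatorElement

namespace Cfsg.Agent.S0591

/-- For a quadratically acting element a on an elementary abelian p-group V, the fixed points C_V(a) have order at least the square root of the order of V. -/
theorem result {G : Type*} [Group G] [Finite G] {p : ℕ} [Fact p.Prime] (V : Subgroup G) (hV : Cfsg.IsElementaryAbelian p V) (a : G) (ha : a ∈ Subgroup.normalizer (V : Set G)) (hq : ⁅⁅V, Subgroup.zpowers a⁆, Subgroup.zpowers a⁆ = ⊥) : Nat.card V ≤ Nat.card ↥(V ⊓ Subgroup.centralizer (Subgroup.zpowers a : Set G)) ^ 2 := by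
  have hVc : ∀ x ∈ V, ∀ y ∈ V, x * y = y * x := by
    have := hV.1
    intro x hx y hy
    exact setLike_mul_comm hx hy
  have hmemV : ∀ v ∈ V, ⁅v, a⁆ ∈ V := by
    intro v hv
    have h1 : a * v⁻¹ * a⁻¹ ∈ V := (Subgroup.mem_normalizer_iff.mp ha v⁻¹).mp (V.inv_mem hv)
    have e : ⁅v, a⁆ = v * (a * v⁻¹ * a⁻¹) := by
      simp only [commutatorElement_def]; group
    rw [e]; exact V.mul_mem hv h1
  have hcent : ⁅V, Subgroup.zpowers a⁆ ≤ Subgroup.centralizer (Subgroup.zpowers a : Set G) :=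
    Subgroup.commutator_eq_bot_iff_le_centralizer.mp hq
  have hmemC : ∀ v ∈ V, ⁅v, a⁆ ∈ Subgroup.centralizer (Subgroup.zpowers a : Set G) := by
    intro v hv
    exact hcent (Subgroup.commutator_mem_commutator hv (Subgroup.mem_zpowers a))
  -- the homomorphism v ↦ ⁅v, a⁆
  let φ : V →* V := MonoidHom.mk' (fun v => ⟨⁅(v : G), a⁆, hmemV v v.2⟩) (by
    intro v w
    apply Subtype.ext
    show ⁅(v : G) * (w : G), a⁆ = ⁅(v : G), a⁆ * ⁅(w : G), a⁆
    have e : ⁅(v : G) * (w : G), a⁆ = (v : G) * ⁅(w : G), a⁆ * (v : G)⁻¹ * ⁅(v : G), a⁆ := by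
      simp only [commutatorElement_def]; group
    rw [e, hVc v v.2 _ (hmemV w w.2), mul_inv_cancel_right, hVc _ (hmemV w w.2) _ (hmemV v v.2)])
  have hφ : ∀ v : V, ((φ v : V) : G) = ⁅(v : G), a⁆ := fun v => rfl
  set C : Subgroup V := (V ⊓ Subgroup.centralizer (Subgroup.zpowers a : Set G)).subgroupOf V with hC
  have hker : φ.ker ≤ C := by
    intro v hv
    rw [MonoidHom.mem_ker] at hv
    have h1 : ⁅(v : G), a⁆ = 1 := by rw [← hφ, hv]; rfl
    rw [commutatorElement_eq_one_iff_mul_comm] at h1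
    rw [hC, Subgroup.mem_subgroupOf]
    refine ⟨v.2, ?_⟩
    show (v : G) ∈ Subgroup.centralizer (Subgroup.zpowers a : Set G)
    rw [Subgroup.mem_centralizer_iff]
    intro y hy
    obtain ⟨k, rfl⟩ := Subgroup.mem_zpowers_iff.mp hy
    have : Commute (v : G) a := h1
    exact (this.zpow_right k).symm.eq
  have hrange : φ.range ≤ C := by
    rintro _ ⟨v, rfl⟩
    rw [hC, Subgroup.mem_subgroupOf]
    exact ⟨hmemV v v.2, hmemC v v.2⟩
  have hcardC : Nat.card C = Nat.card ↥(V ⊓ Subgroup.centralizer (Subgroup.zpowers a : Set G)) :=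
    Nat.card_congr (Subgroup.subgroupOfEquivOfLe inf_le_left).toEquiv
  have h1 : Nat.card φ.ker * Nat.card φ.range = Nat.card V := by
    rw [← Subgroup.index_ker, Subgroup.card_mul_index]
  rw [← h1, ← hcardC, pow_two]
  exact Nat.mul_le_mul (Subgroup.card_le_of_le hker) (Subgroup.card_le_of_le hrange)

end Cfsg.Agent.S0591
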