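import Cfsg.Statements.S0592
import Cfsg.Agent.H24.QuadLin

set_option autoImplicit false
open Cfsg

namespace Cfsg.Agent.S0592

open Cfsg.Agent.H24.Quad

/-- Two quadratically acting generators of a linear group that is not a p-group, with the p'-part of the order of their product dividing q - 1, give a homomorphism onto a subgroup of SL(2, q) that is not a p-group. -/
theorem result {K : Type*} [Field K] [Fintype K] {p : ℕ} [Fact p.Prime] [CharP K p] {W : Type*} [AddCommGroup W] [Module K W] [FiniteDimensional K W] [Finite W] [Nontrivial W] (H : Subgroup (W ≃ₗ[K] W)) (a b : W ≃ₗ[K] W) (hH : H = Subgroup.closure {a, b}) (ha : ∀ w : W, a (a w - w) = a w - w) (hb : ∀ w : W, b (b w - w) = b w - w) (hnp : ¬ IsPGroup p H) (hk : ∃ e k : ℕ, orderOf (a * b) = p ^ e * k ∧ k ∣ Fintype.card K - 1) : ∃ φ : H →* Matrix.SpecialLinearGroup (Fin 2) K, ¬ IsPGroup p φ.range := by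
  subst hH
  have haH : a ∈ Subgroup.closure ({a, b} : Set (W ≃ₗ[K] W)) := Subgroup.subset_closure (by simp)
  have hbH : b ∈ Subgroup.closure ({a, b} : Set (W ≃ₗ[K] W)) := Subgroup.subset_closure (by simp)
  let x : Subgroup.closure ({a, b} : Set (W ≃ₗ[K] W)) := ⟨a, haH⟩
  let y : Subgroup.closure ({a, b} : Set (W ≃ₗ[K] W)) := ⟨b, hbH⟩
  have hgen : Subgroup.closure {x, y} = (⊤ : Subgroup (Subgroup.closure ({a, b} : Set (W ≃ₗ[K] W)))) := by
    have := Subgroup.closure_closure_coe_preimage (k := ({a, b} : Set (W ≃ₗ[K] W)))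
    convert this using 2
    ext z
    simp [x, y, Subtype.ext_iff]
  let ρ : Subgroup.closure ({a, b} : Set (W ≃ₗ[K] W)) →* Module.End K W :=
    (LinearEquiv.automorphismGroup.toLinearMapMonoidHom).comp (Subgroup.subtype _)
  have hρ : ∀ (g : Subgroup.closure ({a, b} : Set (W ≃ₗ[K] W))) (w : W),
      ρ g w = (g : W ≃ₗ[K] W) w := fun g w => rfl
  have hx : (ρ x - 1) ^ 2 = 0 := by
    ext w
    simp only [sq, Module.End.mul_apply, LinearMap.sub_apply, Module.End.one_apply, hρ,
      LinearMap.zero_apply, x]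
    rw [ha w, sub_self]
  have hy : (ρ y - 1) ^ 2 = 0 := by
    ext w
    simp only [sq, Module.End.mul_apply, LinearMap.sub_apply, Module.End.one_apply, hρ,
      LinearMap.zero_apply, y]
    rw [hb w, sub_self]
  obtain ⟨e, k, hord, hkd⟩ := hk
  have hord' : ∃ e : ℕ, ρ (x * y) ^ (p ^ e * (Fintype.card K - 1)) = 1 := by
    refine ⟨e, ?_⟩
    rw [← map_pow]
    have : (x * y) ^ (p ^ e * (Fintype.card K - 1)) = 1 := by
      apply Subtype.ext
      simp only [x, y, Subgroup.coe_pow, Subgroup.coe_mul, Subgroup.coe_one]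
      apply orderOf_dvd_iff_pow_eq_one.mp
      rw [hord]; exact Nat.mul_dvd_mul_left _ hkd
    rw [this, map_one]
  rcases main_aux hgen (Module.finrank K W) W rfl ρ hx hy hord' with h | ⟨φ, -, -, -, -, hφ⟩
  · exfalso
    apply hnp
    intro g
    obtain ⟨k, hk⟩ := h g
    refine ⟨k, ?_⟩
    apply Subtype.ext
    apply LinearEquiv.ext
    intro w
    have h2 : ρ (g ^ p ^ k) = 1 := by rw [map_pow]; exact hk
    have := congrArg (fun t => t w) h2
    simp only [hρ, Module.End.one_apply] at this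
    exact this
  · refine ⟨φ, fun hP => hφ ?_⟩
    intro g
    obtain ⟨k, hk⟩ := hP ⟨φ g, ⟨g, rfl⟩⟩
    exact ⟨k, by simpa [Subtype.ext_iff] using hk⟩

end Cfsg.Agent.S0592
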