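import Cfsg.Statements.S0593
import Cfsg.Agent.H24.QuadGroup

set_option autoImplicit false
open Cfsg

namespace Cfsg.Agent.S0593

open Cfsg.Agent.H24 Cfsg.Agent.H24.Quad

/-- For odd p, a faithful group on an elementary abelian p-group generated by two quadratically acting elements is a p-group or has non-abelian Sylow 2-subgroups. -/
theorem result {G : Type*} [Group G] [Finite G] {p : ℕ} [Fact p.Prime] (hp : p ≠ 2) (V H : Subgroup G) (hV : Cfsg.IsElementaryAbelian p V) (hHV : H ≤ Subgroup.normalizer (V : Set G)) (hf : H ⊓ Subgroup.centralizer (V : Set G) = ⊥) (a b : G) (hab : H = Subgroup.closure {a, b}) (ha : ⁅⁅V, Subgroup.zpowers a⁆, Subgroup.zpowers a⁆ = ⊥) (hb : ⁅⁅V, Subgroup.zpowers b⁆, Subgroup.zpowers b⁆ = ⊥) (hnp : ¬ IsPGroup p H) (T : Sylow 2 H) : ¬ IsMulCommutative T := by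
  intro hT
  have hab2 : Ab2 H := Ab2.of_sylow T hT
  subst hab
  have haH : a ∈ Subgroup.closure ({a, b} : Set G) := Subgroup.subset_closure (by simp)
  have hbH : b ∈ Subgroup.closure ({a, b} : Set G) := Subgroup.subset_closure (by simp)
  have hgen : Subgroup.closure {(⟨a, haH⟩ : Subgroup.closure ({a, b} : Set G)), ⟨b, hbH⟩} = ⊤ := by
    have := Subgroup.closure_closure_coe_preimage (k := ({a, b} : Set G))
    convert this using 2
    ext z
    simp [Subtype.ext_iff]
  have hpg := quad_pg_group hp V hV (Subgroup.subtype _) (fun γ => hHV γ.2) hgen ha hb hab2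
  apply hnp
  intro g
  obtain ⟨k, hk⟩ := hpg g
  refine ⟨k, ?_⟩
  have hmem : ((g ^ p ^ k : Subgroup.closure ({a, b} : Set G)) : G) ∈
      Subgroup.closure ({a, b} : Set G) ⊓ Subgroup.centralizer (V : Set G) :=
    ⟨(g ^ p ^ k).2, by simpa using hk⟩
  rw [hf, Subgroup.mem_bot] at hmem
  exact Subtype.ext hmem

end Cfsg.Agent.S0593
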