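import Cfsg.Statements.S0594
import Cfsg.Agent.H2.QuadPSolv
import Cfsg.Agent.H80.SolvPSolv

set_option autoImplicit false
open Cfsg

namespace Cfsg.Agent.S0594

open scoped commutatorElement

universe u

/-- A finite `p`-group is `p`-solvable. -/
theorem isPSolvable_of_isPGroup (p : ℕ) [Fact p.Prime] (G : Type u) [Group G] [Finite G]
    (h : IsPGroup p G) : Cfsg.IsPSolvable p G := by
  obtain ⟨m, hm⟩ := IsPGroup.iff_card.mp h
  haveI : Subsingleton (G ⧸ (⊤ : Subgroup G)) := QuotientGroup.subsingleton_quotient_top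
  exact Cfsg.Agent.H80.isPSolvable_of_normal p (⊤ : Subgroup G)
    (Or.inl ⟨m, by rw [Subgroup.card_top]; exact hm⟩)
    (Cfsg.Agent.H80.isPSolvable_of_subsingleton p _)

/-- A normal `p'`-subgroup extended by an element of order `p` is `p`-solvable. -/
theorem isPSolvable_of_normal_coprime_zpowers (p : ℕ) [Fact p.Prime] {G : Type u} [Group G]
    [Finite G] (Q : Subgroup G) [Q.Normal] (hQ : (Nat.card Q).Coprime p) (a : G)
    (ha : a ^ p = 1) (htop : Q ⊔ Subgroup.zpowers a = ⊤) : Cfsg.IsPSolvable p G := by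
  apply Cfsg.Agent.H80.isPSolvable_of_normal p Q (Or.inr hQ)
  apply isPSolvable_of_isPGroup
  intro z
  obtain ⟨g, rfl⟩ := QuotientGroup.mk'_surjective Q z
  have hg : g ∈ (Q ⊔ Subgroup.zpowers a : Subgroup G) := by rw [htop]; trivial
  rw [← SetLike.mem_coe, Subgroup.normal_mul] at hg
  obtain ⟨q, hq, z', hz', rfl⟩ := Set.mem_mul.mp hg
  obtain ⟨i, rfl⟩ := Subgroup.mem_zpowers_iff.mp hz'
  refine ⟨1, ?_⟩
  have h1 : QuotientGroup.mk' Q q = 1 := (QuotientGroup.eq_one_iff q).mpr hq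
  rw [pow_one, map_mul, h1, one_mul, ← map_pow, ← zpow_natCast, ← zpow_mul, mul_comm, zpow_mul,
    zpow_natCast, ha, one_zpow, map_one]

/-- For odd p, two quadratic generators of a faithful group that is not a p-group, one of which acts nontrivially on a normal subgroup of order prime to p, force p = 3 and a section isomorphic to SL(2,3). -/
theorem result {G : Type*} [Group G] [Finite G] {p : ℕ} [Fact p.Prime] (hp : p ≠ 2) (V H : Subgroup G) (hV : Cfsg.IsElementaryAbelian p V) (hHV : H ≤ Subgroup.normalizer (V : Set G)) (hf : H ⊓ Subgroup.centralizer (V : Set G) = ⊥) (a b : G) (hab : H = Subgroup.closure {a, b}) (ha : ⁅⁅V, Subgroup.zpowers a⁆, Subgroup.zpowers a⁆ = ⊥) (hb : ⁅⁅V, Subgroup.zpowers b⁆, Subgroup.zpowers b⁆ = ⊥) (hnp : ¬ IsPGroup p H) (Q : Subgroup G) (hQH : Q ≤ H) (hQn : H ≤ Subgroup.normalizer (Q : Set G)) (hQ : (Nat.card Q).Coprime p) (hQa : ⁅Q, Subgroup.zpowers a⁆ ≠ ⊥) : p = 3 ∧ ∃ (K L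 : Subgroup G) (hL : (L.subgroupOf K).Normal), K ≤ H ∧ Nonempty ((K ⧸ L.subgroupOf K) ≃* Matrix.SpecialLinearGroup (Fin 2) (ZMod 3)) := by
  have hpp : p.Prime := Fact.out
  have haH : a ∈ H := by rw [hab]; exact Subgroup.subset_closure (by simp)
  -- `a ^ p = 1`
  have hap : a ^ p = 1 := by
    obtain ⟨M, iM, iMod, iFin, e, ρ, he, hρ⟩ :=
      Cfsg.Agent.H24.Quad.exists_conj_rep V hV H.subtype (fun γ => hHV γ.2)
    have h1 := Cfsg.Agent.H24.Quad.rep_sq_zero he hρ ⟨a, haH⟩ ha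
    have h2 := Cfsg.Agent.H24.Quad.pow_char_of_sq_zero (ZMod p) p h1
    have h3 := Cfsg.Agent.H24.Quad.rep_pow_mem_centralizer hρ ⟨a, haH⟩ p h2
    have h4 : a ^ p ∈ H ⊓ Subgroup.centralizer (V : Set G) := ⟨H.pow_mem haH _, h3⟩
    rw [hf, Subgroup.mem_bot] at h4
    exact h4
  set Γ : Subgroup G := Q ⊔ Subgroup.zpowers a with hΓ
  have hΓH : Γ ≤ H := sup_le hQH (by rw [Subgroup.zpowers_le]; exact haH)
  have hQΓ : Q ≤ Γ := le_sup_left
  have haΓ : a ∈ Γ := le_sup_right (α := Subgroup G) (Subgroup.mem_zpowers a)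
  haveI hQ'n : (Q.subgroupOf Γ).Normal :=
    (Subgroup.normal_subgroupOf_iff_le_normalizer hQΓ).mpr (hΓH.trans hQn)
  have hQ'card : (Nat.card (Q.subgroupOf Γ)).Coprime p := by
    rw [Nat.card_congr (Subgroup.subgroupOfEquivOfLe hQΓ).toEquiv]
    exact hQ
  have htop : Q.subgroupOf Γ ⊔ Subgroup.zpowers (⟨a, haΓ⟩ : Γ) = ⊤ := by
    apply Subgroup.map_injective (Subgroup.subtype_injective Γ)
    rw [Subgroup.map_sup, Subgroup.subgroupOf_map_subtype, MonoidHom.map_zpowers,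
      ← MonoidHom.range_eq_map, Subgroup.range_subtype, inf_of_le_left hQΓ]
    rfl
  have hsol : Cfsg.IsPSolvable p Γ :=
    isPSolvable_of_normal_coprime_zpowers p (Q.subgroupOf Γ) hQ'card ⟨a, haΓ⟩
      (Subtype.ext (by simpa using hap)) htop
  rcases Cfsg.Agent.H2.quad_normal_group_psolv hp V hV Γ.subtype (fun γ => hHV (hΓH γ.2))
    ⟨a, haΓ⟩ ha hsol with ⟨N, hN, haN, hNp⟩ | ⟨h3, hinv⟩
  · exfalso
    apply hQa
    rw [Subgroup.commutator_eq_bot_iff_le_centralizer]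
    intro q hq
    have hNel : ∀ g : Γ, g ∈ N → ∃ k : ℕ, (g : G) ^ p ^ k = 1 := by
      intro g hg
      obtain ⟨k, hk⟩ := hNp g hg
      have h1 : (g : G) ^ p ^ k ∈ H ⊓ Subgroup.centralizer (V : Set G) :=
        ⟨H.pow_mem (hΓH g.2) _, hk⟩
      rw [hf, Subgroup.mem_bot] at h1
      exact ⟨k, h1⟩
    have hc : (⟨q, hQΓ hq⟩ : Γ) * ⟨a, haΓ⟩ * (⟨q, hQΓ hq⟩ : Γ)⁻¹ * (⟨a, haΓ⟩ : Γ)⁻¹ ∈ N :=
      N.mul_mem (hN.conj_mem _ haN _) (N.inv_mem haN)
    obtain ⟨k, hk⟩ := hNel _ hc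
    have hcQ : q * a * q⁻¹ * a⁻¹ ∈ Q := by
      have h1 : a * q⁻¹ * a⁻¹ ∈ Q :=
        (Subgroup.mem_normalizer_iff.mp (hQn haH) q⁻¹).mp (Q.inv_mem hq)
      have h2 : q * a * q⁻¹ * a⁻¹ = q * (a * q⁻¹ * a⁻¹) := by group
      rw [h2]
      exact Q.mul_mem hq h1
    have hc1 : q * a * q⁻¹ * a⁻¹ = 1 := by
      have h1 : orderOf (q * a * q⁻¹ * a⁻¹) ∣ p ^ k := orderOf_dvd_of_pow_eq_one hk
      have h2 : orderOf (q * a * q⁻¹ * a⁻¹) ∣ Nat.card Q := Subgroup.orderOf_dvd_natCard Q hcQ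
      have h3 : Nat.Coprime (p ^ k) (Nat.card Q) := Nat.Coprime.pow_left k hQ.symm
      exact orderOf_eq_one_iff.mp (Nat.eq_one_of_dvd_coprimes h3 h1 h2)
    have hqa : q * a = a * q := by
      have h1 : q * a * q⁻¹ = a := by
        have := mul_inv_eq_one.mp hc1
        exact this
      exact mul_inv_eq_iff_eq_mul.mp h1
    have hza : Subgroup.zpowers a ≤ Subgroup.centralizer ({q} : Set G) := by
      rw [Subgroup.zpowers_le, Subgroup.mem_centralizer_singleton_iff]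
      exact hqa.symm
    rw [Subgroup.mem_centralizer_iff]
    intro z hz
    exact Subgroup.mem_centralizer_singleton_iff.mp (hza hz)
  · obtain ⟨K, L, hL, hK, hiso⟩ := Cfsg.Agent.H2.section_of_inv23 Γ hinv
    exact ⟨h3, K, L, hL, hK.trans hΓH, hiso⟩

end Cfsg.Agent.S0594
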