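import Cfsg.Statements.S0595
import Cfsg.Agent.H24.QuadGroup

set_option autoImplicit false
open Cfsg

namespace Cfsg.Agent.S0595

open Cfsg.Agent.H24 Cfsg.Agent.H24.Quad

/-- For odd p, a faithful action on an elementary abelian p-group that is not p-stable forces non-abelian Sylow 2-subgroups. -/
theorem result {G : Type*} [Group G] [Finite G] {p : ℕ} [Fact p.Prime] (hp : p ≠ 2) (V H : Subgroup G) (hV : Cfsg.IsElementaryAbelian p V) (hHV : H ≤ Subgroup.normalizer (V : Set G)) (hf : H ⊓ Subgroup.centralizer (V : Set G) = ⊥) (a : G) (haH : a ∈ H) (hq : ⁅⁅V, Subgroup.zpowers a⁆, Subgroup.zpowers a⁆ = ⊥) (hna : a ∉ (Cfsg.pCore p H).map H.subtype) (T : Sylow 2 H) : ¬ IsMulCommutative T := by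
  intro hT
  have hab2 : Ab2 H := Ab2.of_sylow T hT
  obtain ⟨N, hN, haN, hNp⟩ :=
    quad_normal_group hp V hV H.subtype (fun γ => hHV γ.2) ⟨a, haH⟩ hq hab2
  apply hna
  have hNpg : IsPGroup p N := by
    intro g
    obtain ⟨k, hk⟩ := hNp g.1 g.2
    refine ⟨k, ?_⟩
    have hmem : ((g.1 ^ p ^ k : H) : G) ∈ H ⊓ Subgroup.centralizer (V : Set G) :=
      ⟨(g.1 ^ p ^ k).2, by simpa using hk⟩
    rw [hf, Subgroup.mem_bot] at hmem
    exact Subtype.ext (Subtype.ext hmem)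
  have hle : N ≤ Cfsg.pCore p H := le_sSup ⟨hN, hNpg⟩
  exact ⟨⟨a, haH⟩, hle haN, rfl⟩

end Cfsg.Agent.S0595
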