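import Cfsg.Statements.S0596
import Cfsg.Agent.H2.QuadPSolv
import Cfsg.Agent.H13.PCore

set_option autoImplicit false
open Cfsg

namespace Cfsg.Agent.S0596

/-- For odd p, a p-separable group with a faithful action on an elementary abelian p-group that is not p-stable has p = 3 and involves SL(2,3). -/
theorem result {G : Type*} [Group G] [Finite G] {p : ℕ} [Fact p.Prime] (hp : p ≠ 2) (V H : Subgroup G) (hV : Cfsg.IsElementaryAbelian p V) (hHV : H ≤ Subgroup.normalizer (V : Set G)) (hf : H ⊓ Subgroup.centralizer (V : Set G) = ⊥) (hsep : Cfsg.IsPSolvable p H) (a : G) (haH : a ∈ H) (hq : ⁅⁅V, Subgroup.zpowers a⁆, Subgroup.zpowers a⁆ = ⊥) (hna : a ∉ (Cfsg.pCore p H).map H.subtype) : p = 3 ∧ ∃ (K L : Subgroup G) (hL : (L.subgroupOf K).Normal), K ≤ H ∧ Nonempty ((K ⧸ L.subgroupOf K) ≃* Matrix.SpecialLinearGroup (Fin 2) (ZMod 3)) := by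
  rcases Cfsg.Agent.H2.quad_normal_group_psolv hp V hV H.subtype (fun γ => hHV γ.2) ⟨a, haH⟩ hq hsep
    with ⟨N, hN, haN, hNp⟩ | ⟨h3, hinv⟩
  · exfalso
    apply hna
    have hpg : IsPGroup p N := by
      intro g
      obtain ⟨k, hk⟩ := hNp g g.2
      refine ⟨k, Subtype.ext (Subtype.ext ?_)⟩
      have h1 : ((g : H) : G) ^ p ^ k ∈ H ⊓ Subgroup.centralizer (V : Set G) :=
        ⟨H.pow_mem (g : H).2 _, hk⟩
      rw [hf, Subgroup.mem_bot] at h1
      simpa using h1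
    exact ⟨⟨a, haH⟩, Cfsg.Agent.H13.le_pCore hN hpg haN, rfl⟩
  · exact ⟨h3, Cfsg.Agent.H2.section_of_inv23 H hinv⟩

end Cfsg.Agent.S0596
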