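import Mathlib
import Cfsg.Statements.S0599
import Cfsg.Agent.H13.Basic
import Cfsg.Agent.S0598

set_option autoImplicit false
open Cfsg
open scoped commutatorElement

namespace Cfsg.Agent.S0599

open Cfsg.Agent.H13

theorem comm_right_mul' {G : Type*} [Group G] (x y z : G) (h : x * z = z * x) :
    ⁅x, y * z⁆ = ⁅x, y⁆ := by
  have hz : z * x⁻¹ = x⁻¹ * z := (Commute.inv_right (show Commute z x from h.symm)).eq
  calc ⁅x, y * z⁆ = x * y * (z * x⁻¹) * z⁻¹ * y⁻¹ := by
        simp only [commutatorElement_def]; group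
    _ = x * y * (x⁻¹ * z) * z⁻¹ * y⁻¹ := by rw [hz]
    _ = ⁅x, y⁆ := by simp only [commutatorElement_def]; group

/-- A group acting on an elementary abelian `p`-group `V` through an elementary abelian `p`-group
acts nilpotently: a subgroup `W ≤ V` with `W ≤ ⁅W, A⁆` is trivial. -/
theorem nil_action {G : Type*} [Group G] [Finite G] {p : ℕ} [Fact p.Prime] {V A : Subgroup G}
    (hV : Cfsg.IsElementaryAbelian p V) (hAV : A ≤ Subgroup.normalizer (V : Set G))
    (hpow : ∀ a ∈ A, a ^ p ∈ Subgroup.centralizer (V : Set G))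
    {W : Subgroup G} (hWV : W ≤ V) (hW : W ≤ ⁅W, A⁆) : W = ⊥ := by
  -- the kernel of the action is normal in `A`
  haveI hCn : ((Subgroup.centralizer (V : Set G)).subgroupOf A).Normal := by
    constructor
    intro c hc a
    rw [Subgroup.mem_subgroupOf] at hc ⊢
    rw [Subgroup.mem_centralizer_iff] at hc ⊢
    intro v hv
    have hv' : (a : G)⁻¹ * v * (a : G) ∈ V := by
      have := (Subgroup.mem_normalizer_iff.mp (hAV (A.inv_mem a.2)) v).mp hv
      simpa using this
    have h1 := hc _ hv'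
    push_cast
    calc v * ((a : G) * (c : G) * (a : G)⁻¹)
        = (a : G) * (((a : G)⁻¹ * v * (a : G)) * (c : G)) * (a : G)⁻¹ := by group
      _ = (a : G) * ((c : G) * ((a : G)⁻¹ * v * (a : G))) * (a : G)⁻¹ := by rw [h1]
      _ = (a : G) * (c : G) * (a : G)⁻¹ * v := by group
  have hq : IsPGroup p (↥A ⧸ (Subgroup.centralizer (V : Set G)).subgroupOf A) := by
    intro x
    induction x using QuotientGroup.induction_on with
    | H a =>
      refine ⟨1, ?_⟩
      rw [pow_one, ← QuotientGroup.mk_pow, QuotientGroup.eq_one_iff, Subgroup.mem_subgroupOf]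
      push_cast
      exact hpow a a.2
  obtain ⟨Q⟩ : Nonempty (Sylow p ↥A) := inferInstance
  have hsurj : Function.Surjective (QuotientGroup.mk' ((Subgroup.centralizer (V : Set G)).subgroupOf A)) :=
    QuotientGroup.mk'_surjective _
  have htop : (⊤ : Subgroup (↥A ⧸ (Subgroup.centralizer (V : Set G)).subgroupOf A)) =
      ((Q.mapSurjective hsurj : Sylow p _) : Subgroup _) :=
    (Q.mapSurjective hsurj).is_maximal' (hq.to_subgroup ⊤) le_top
  have hdecomp : ∀ a ∈ A, ∃ q ∈ (Q : Subgroup A).map A.subtype,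
      q⁻¹ * a ∈ Subgroup.centralizer (V : Set G) := by
    intro a ha
    have hmem : (QuotientGroup.mk' ((Subgroup.centralizer (V : Set G)).subgroupOf A)) ⟨a, ha⟩ ∈
        ((Q.mapSurjective hsurj : Sylow p _) : Subgroup _) := by
      rw [← htop]; trivial
    obtain ⟨q, hq', hqa⟩ := hmem
    refine ⟨q, Subgroup.mem_map_of_mem A.subtype hq', ?_⟩
    have := QuotientGroup.eq.mp hqa
    rw [Subgroup.mem_subgroupOf] at this
    simpa using this
  have hAp : IsPGroup p ((Q : Subgroup A).map A.subtype) := Q.isPGroup'.map _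
  have hApA : (Q : Subgroup A).map A.subtype ≤ A := Subgroup.map_subtype_le _
  have hP : IsPGroup p ((Q : Subgroup A).map A.subtype ⊔ V : Subgroup G) :=
    hAp.to_sup_of_normal_right' (ea_isPGroup hV) (hApA.trans hAV)
  have hnil : Group.IsNilpotent ((Q : Subgroup A).map A.subtype ⊔ V : Subgroup G) := hP.isNilpotent
  obtain ⟨n, hn⟩ := (Subgroup.isNilpotent_iff_lowerCentralSeries _).mp hnil
  have hstep : ⁅W, A⁆ ≤ ⁅W, (Q : Subgroup A).map A.subtype⁆ := by
    rw [Subgroup.commutator_le]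
    intro w hw a ha
    obtain ⟨q, hq', hc⟩ := hdecomp a ha
    have hwc : w * (q⁻¹ * a) = (q⁻¹ * a) * w := (Subgroup.mem_centralizer_iff.mp hc) w (hWV hw)
    have e : a = q * (q⁻¹ * a) := by group
    rw [e, comm_right_mul' w q (q⁻¹ * a) hwc]
    exact Subgroup.commutator_mem_commutator hw hq'
  have hall : ∀ k, W ≤ ((Q : Subgroup A).map A.subtype ⊔ V : Subgroup G).lowerCentralSeries k := by
    intro k
    induction k with
    | zero => exact hWV.trans le_sup_right
    | succ k ih =>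
      rw [Subgroup.lowerCentralSeries_succ]
      exact hW.trans (hstep.trans (Subgroup.commutator_mono ih le_sup_left))
  rw [eq_bot_iff, ← hn]
  exact hall n

/-- The Timmesfeld replacement Theorem: replacing a best offender A by C_A([U, A]) gives a best offender with fixed points [U, A]C_V(A), still nontrivial on V if A was. -/
theorem result {G : Type*} [Group G] [Finite G] {p : ℕ} [Fact p.Prime] (V A : Subgroup G) (hV : Cfsg.IsElementaryAbelian p V) (hAV : A ≤ Subgroup.normalizer (V : Set G)) (hA : Cfsg.IsBestOffenderOn p V A) (U : Subgroup G) (hU : U ≤ V) : Cfsg.IsBestOffenderOn p V (A ⊓ Subgroup.centralizer ((⁅U, A⁆ : Subgroup G) : Set G)) ∧ V ⊓ Subgroup.centralizer ((A ⊓ Subgroup.centralizer ((⁅U, A⁆ : Subgroup G) : Set G) : Subgroup G) : Set G) = ⁅U, A⁆ ⊔ (V ⊓ Subgroup.centralizer (A : Set G)) ∧ (⁅V, A⁆ ≠ ⊥ → ⁅V, A ⊓ Subgroup.centralizer ((⁅U, A⁆ : Subgroup G) : Set G)⁆ ≠ ⊥) := by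
  obtain ⟨hmax, hab, hpow⟩ := hA
  have hVc : ∀ x ∈ V, ∀ y ∈ V, x * y = y * x := (ea_iff.mp hV).1
  have h := Cfsg.Agent.S0598.replacement hVc hAV hab hmax hU
  refine ⟨⟨?_, ?_, ?_⟩, h.2, ?_⟩
  · intro B hB
    rw [h.1]
    exact hmax B (hB.trans inf_le_left)
  · exact (Subgroup.commutator_mono inf_le_left inf_le_left).trans hab
  · intro a ha
    exact hpow a ha.1
  · intro hVA hbot
    apply hVA
    have hVcen : V ≤ Subgroup.centralizer ((A ⊓ Subgroup.centralizer ((⁅U, A⁆ : Subgroup G) : Set G) : Subgroup G) : Set G) :=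
      Subgroup.commutator_eq_bot_iff_le_centralizer.mp hbot
    have hVeq : V = ⁅U, A⁆ ⊔ (V ⊓ Subgroup.centralizer (A : Set G)) := by
      rw [← h.2]; exact (inf_of_le_left hVcen).symm
    have hWV : ⁅V, A⁆ ≤ V := by
      rw [Subgroup.commutator_le]
      intro v hv a ha
      exact Cfsg.Agent.S0598.comm_mem hAV hv ha
    apply nil_action hV hAV hpow hWV
    rw [Subgroup.commutator_le]
    intro v hv a ha
    have key : ∀ v ∈ ⁅U, A⁆ ⊔ (V ⊓ Subgroup.centralizer (A : Set G)),
        v ∈ V ∧ ∀ a ∈ A, ⁅v, a⁆ ∈ ⁅⁅V, A⁆, A⁆ := by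
      intro v hv
      have hsup : ⁅U, A⁆ ⊔ (V ⊓ Subgroup.centralizer (A : Set G)) =
          Subgroup.closure (((⁅U, A⁆ : Subgroup G) : Set G) ∪ ((V ⊓ Subgroup.centralizer (A : Set G) : Subgroup G) : Set G)) := by
        rw [Subgroup.closure_union, Subgroup.closure_eq, Subgroup.closure_eq]
      rw [hsup] at hv
      induction hv using Subgroup.closure_induction with
      | mem x hx =>
        rcases hx with hx | hx
        · have hxV : x ∈ V := (Subgroup.commutator_mono hU le_rfl).trans hWV hx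
          refine ⟨hxV, fun a ha => ?_⟩
          exact Subgroup.commutator_mem_commutator (Subgroup.commutator_mono hU le_rfl hx) ha
        · refine ⟨hx.1, fun a ha => ?_⟩
          have : a * x = x * a := (Subgroup.mem_centralizer_iff.mp hx.2) a ha
          have e : ⁅x, a⁆ = 1 := by
            rw [commutatorElement_eq_one_iff_mul_comm]; exact this.symm
          rw [e]; exact one_mem _
      | one =>
        refine ⟨one_mem _, fun a _ => ?_⟩
        rw [commutatorElement_one_left]; exact one_mem _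
      | mul x y _ _ ihx ihy =>
        refine ⟨mul_mem ihx.1 ihy.1, fun a ha => ?_⟩
        have hyV : ⁅y, a⁆ ∈ V := Cfsg.Agent.S0598.comm_mem hAV ihy.1 ha
        have e : ⁅x * y, a⁆ = ⁅y, a⁆ * ⁅x, a⁆ := by
          calc ⁅x * y, a⁆ = (x * ⁅y, a⁆) * x⁻¹ * ⁅x, a⁆ := by
                simp only [commutatorElement_def]; group
            _ = (⁅y, a⁆ * x) * x⁻¹ * ⁅x, a⁆ := by rw [hVc x ihx.1 _ hyV]
            _ = ⁅y, a⁆ * ⁅x, a⁆ := by rw [mul_inv_cancel_right]
        rw [e]
        exact mul_mem (ihy.2 a ha) (ihx.2 a ha)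
      | inv x _ ihx =>
        refine ⟨inv_mem ihx.1, fun a ha => ?_⟩
        have hxV : ⁅x, a⁆ ∈ V := Cfsg.Agent.S0598.comm_mem hAV ihx.1 ha
        have e : ⁅x⁻¹, a⁆ = ⁅x, a⁆⁻¹ := by
          calc ⁅x⁻¹, a⁆ = x⁻¹ * (⁅x, a⁆⁻¹ * x) := by
                simp only [commutatorElement_def]; group
            _ = x⁻¹ * (x * ⁅x, a⁆⁻¹) := by rw [hVc _ (V.inv_mem hxV) x ihx.1]
            _ = ⁅x, a⁆⁻¹ := by rw [inv_mul_cancel_left]
        rw [e]
        exact inv_mem (ihx.2 a ha)
    rw [hVeq] at hv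
    exact (key v hv).2 a ha

end Cfsg.Agent.S0599
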