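import Mathlib
import Cfsg.Statements.S0600

set_option autoImplicit false
open Cfsg

namespace Cfsg.Agent.S0600

/-- A normal elementary abelian p-subgroup generated by the fixed points of the Sylow p-subgroups admits no nontrivial normal p-subgroup of G modulo its centralizer. -/
theorem result {G : Type*} [Group G] [Finite G] {p : ℕ} [Fact p.Prime] (V : Subgroup G) [V.Normal] (hV : Cfsg.IsElementaryAbelian p V) (hgen : V = ⨆ S : Sylow p G, V ⊓ Subgroup.centralizer ((S : Subgroup G) : Set G)) : Cfsg.pCore p (G ⧸ Subgroup.centralizer (V : Set G)) = ⊥ := by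
  unfold pCore
  rw [eq_bot_iff]
  apply sSup_le
  rintro N ⟨hNn, hNp⟩
  intro q hq
  rw [Subgroup.mem_bot]
  obtain ⟨d, rfl⟩ := QuotientGroup.mk_surjective q
  rw [QuotientGroup.eq_one_iff]
  have hsurj : Function.Surjective (QuotientGroup.mk' (Subgroup.centralizer (V : Set G))) :=
    QuotientGroup.mk'_surjective _
  have key : V ≤ Subgroup.centralizer ({d} : Set G) := by
    rw [hgen]
    apply iSup_le
    intro S v hv
    have hNS : N ≤ (S.mapSurjective hsurj : Sylow p (G ⧸ Subgroup.centralizer (V : Set G))) :=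
      IsPGroup.le_sylow_of_normal hNp _
    obtain ⟨s, hs, hsd⟩ := hNS hq
    have hc : s⁻¹ * d ∈ Subgroup.centralizer (V : Set G) := QuotientGroup.eq.mp hsd
    have h1 : s * v = v * s := (Subgroup.mem_centralizer_iff.mp hv.2) s hs
    have h2 : v * (s⁻¹ * d) = (s⁻¹ * d) * v := (Subgroup.mem_centralizer_iff.mp hc) v hv.1
    rw [Subgroup.mem_centralizer_iff]
    intro x hx
    rw [Set.mem_singleton_iff] at hx
    subst hx
    calc x * v = s * ((s⁻¹ * x) * v) := by group
      _ = s * (v * (s⁻¹ * x)) := by rw [h2]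
      _ = (s * v) * (s⁻¹ * x) := by group
      _ = (v * s) * (s⁻¹ * x) := by rw [h1]
      _ = v * x := by group
  rw [Subgroup.mem_centralizer_iff]
  intro v hv
  have := (Subgroup.mem_centralizer_iff.mp (key hv)) d rfl
  exact this.symm

end Cfsg.Agent.S0600
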