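import Mathlib
import Cfsg.Statements.S0601
import Cfsg.Agent.H13.Basic
import Cfsg.Agent.H13.PCore
import Cfsg.Agent.S0600

set_option autoImplicit false
open Cfsg

namespace Cfsg.Agent.S0601

open Cfsg.Agent.H13
open scoped Pointwise

theorem mem_smul_sylow_iff {G : Type*} [Group G] {p : ℕ} (S : Sylow p G) (g y : G) :
    y ∈ ((g • S : Sylow p G) : Subgroup G) ↔ g⁻¹ * y * g ∈ (S : Subgroup G) := by
  rw [Sylow.coe_subgroup_smul, Subgroup.mem_pointwise_smul_iff_inv_smul_mem]
  simp [MulAut.smul_def]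

/-- the generating set of `W` is invariant under conjugation -/
theorem gen_invariant {G : Type*} [Group G] {p : ℕ} (g x : G)
    (hx : x ^ p = 1 ∧ ∃ S : Sylow p G, x ∈ (S : Subgroup G) ⊓ Subgroup.centralizer ((S : Subgroup G) : Set G)) :
    (g * x * g⁻¹) ^ p = 1 ∧ ∃ S : Sylow p G, g * x * g⁻¹ ∈ (S : Subgroup G) ⊓ Subgroup.centralizer ((S : Subgroup G) : Set G) := by
  obtain ⟨hxp, S, hxS, hxC⟩ := hx
  refine ⟨by rw [conj_pow, hxp]; simp, g • S, ?_⟩
  rw [Subgroup.mem_inf]
  constructor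
  · rw [mem_smul_sylow_iff]
    have : g⁻¹ * (g * x * g⁻¹) * g = x := by group
    rw [this]; exact hxS
  · rw [Subgroup.mem_centralizer_iff]
    intro y hy
    have hy' : g⁻¹ * y * g ∈ (S : Subgroup G) := (mem_smul_sylow_iff S g y).mp hy
    have h1 : (g⁻¹ * y * g) * x = x * (g⁻¹ * y * g) := (Subgroup.mem_centralizer_iff.mp hxC) _ hy'
    calc y * (g * x * g⁻¹) = g * ((g⁻¹ * y * g) * x) * g⁻¹ := by group
      _ = g * (x * (g⁻¹ * y * g)) * g⁻¹ := by rw [h1]
      _ = g * x * g⁻¹ * y := by group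

theorem W_eq_closure {G : Type*} [Group G] {p : ℕ} :
    (⨆ S : Sylow p G, Cfsg.omegaOne p (((S : Subgroup G)) ⊓ Subgroup.centralizer ((S : Subgroup G) : Set G))) =
      Subgroup.closure {x : G | x ^ p = 1 ∧ ∃ S : Sylow p G,
        x ∈ (S : Subgroup G) ⊓ Subgroup.centralizer ((S : Subgroup G) : Set G)} := by
  unfold omegaOne
  rw [← Subgroup.closure_iUnion]
  congr 1
  ext x
  simp only [Set.mem_iUnion, Set.mem_ofPred_eq]
  constructor
  · rintro ⟨S, h1, h2⟩; exact ⟨h2, S, h1⟩
  · rintro ⟨h2, S, h1⟩; exact ⟨S, h1, h2⟩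

theorem W_normal {G : Type*} [Group G] {p : ℕ} :
    (⨆ S : Sylow p G, Cfsg.omegaOne p (((S : Subgroup G)) ⊓ Subgroup.centralizer ((S : Subgroup G) : Set G))).Normal := by
  rw [W_eq_closure, ← Subgroup.normalizer_eq_top_iff, eq_top_iff]
  intro g _
  apply Subgroup.normalizer_le_normalizer_closure
  intro n
  constructor
  · intro hn; exact gen_invariant g n hn
  · intro hn
    have := gen_invariant g⁻¹ _ hn
    have e : g⁻¹ * (g * n * g⁻¹) * g⁻¹⁻¹ = n := by group
    rwa [e] at this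

theorem W_ea {G : Type*} [Group G] [Finite G] {p : ℕ} [Fact p.Prime]
    (hc : Subgroup.centralizer (Cfsg.pCore p G : Set G) ≤ Cfsg.pCore p G) :
    Cfsg.IsElementaryAbelian p (⨆ S : Sylow p G, Cfsg.omegaOne p (((S : Subgroup G)) ⊓ Subgroup.centralizer ((S : Subgroup G) : Set G))) := by
  have hY : IsElementaryAbelian p (Cfsg.omegaOne p (pCore p G ⊓ Subgroup.centralizer (pCore p G : Set G))) := by
    unfold omegaOne
    apply ea_closure
    · rintro x ⟨hx, -⟩ y ⟨hy, -⟩
      exact ((Subgroup.mem_centralizer_iff.mp hx.2) y hy.1).symm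
    · rintro x ⟨-, hx⟩
      exact hx
  apply ea_mono _ hY
  apply iSup_le
  intro S
  unfold omegaOne
  apply Subgroup.closure_mono
  rintro x ⟨hx, hxp⟩
  refine ⟨?_, hxp⟩
  have h1 : x ∈ Subgroup.centralizer (pCore p G : Set G) :=
    Subgroup.centralizer_le (pCore_le_sylow S) hx.2
  exact ⟨hc h1, h1⟩

/-- When O_p(G) contains its centralizer, the normal closure of Ω₁(Z(S)) is elementary abelian and G has no nontrivial normal p-subgroup modulo its centralizer. -/
theorem result {G : Type*} [Group G] [Finite G] {p : ℕ} [Fact p.Prime] (hc : Subgroup.centralizer (Cfsg.pCore p G : Set G) ≤ Cfsg.pCore p G) : (⨆ S : Sylow p G, Cfsg.omegaOne p (((S : Subgroup G)) ⊓ Subgroup.centralizer ((S : Subgroup G) : Set G))).Normal ∧ Cfsg.IsElementaryAbelian p (⨆ S : Sylow p G, Cfsg.omegaOne p (((S : Subgroup G)) ⊓ Subgroup.centralizer ((S : Subgroup G) : Set G))) ∧ ∀ D : Subgroup G, D.Normal → Subgroup.centralizer ((⨆ S : Sylow p G, Cfsg.omegaOne p (((S : Subgroup G)) ⊓ Subgroup.centralizer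 ((S : Subgroup G) : Set G)) : Subgroup G) : Set G) ≤ D → (∃ k : ℕ, (Subgroup.centralizer ((⨆ S : Sylow p G, Cfsg.omegaOne p (((S : Subgroup G)) ⊓ Subgroup.centralizer ((S : Subgroup G) : Set G)) : Subgroup G) : Set G)).relIndex D = p ^ k) → D = Subgroup.centralizer ((⨆ S : Sylow p G, Cfsg.omegaOne p (((S : Subgroup G)) ⊓ Subgroup.centralizer ((S : Subgroup G) : Set G)) : Subgroup G) : Set G) := by
  have hWn := W_normal (G := G) (p := p)
  have hWea := W_ea hc
  refine ⟨hWn, hWea, ?_⟩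
  set W : Subgroup G := ⨆ S : Sylow p G, Cfsg.omegaOne p (((S : Subgroup G)) ⊓ Subgroup.centralizer ((S : Subgroup G) : Set G)) with hW
  have hgen : W = ⨆ S : Sylow p G, W ⊓ Subgroup.centralizer ((S : Subgroup G) : Set G) := by
    apply le_antisymm
    · conv_lhs => rw [hW]
      apply iSup_le
      intro S
      refine le_trans ?_ (le_iSup _ S)
      apply le_inf
      · rw [hW]; exact le_iSup (fun S : Sylow p G => Cfsg.omegaOne p (((S : Subgroup G)) ⊓ Subgroup.centralizer ((S : Subgroup G) : Set G))) S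
      · unfold omegaOne
        rw [Subgroup.closure_le]
        rintro x ⟨hx, -⟩
        exact hx.2
    · exact iSup_le fun S => inf_le_left
  have hcore := Cfsg.Agent.S0600.result W hWea hgen
  intro D hDn hCD ⟨k, hk⟩
  apply le_antisymm _ hCD
  intro d hd
  have hN : IsPGroup p (D.map (QuotientGroup.mk' (Subgroup.centralizer (W : Set G)))) := by
    apply IsPGroup.of_card (n := k)
    rw [← hk]
    have := Subgroup.relIndex_ker D (QuotientGroup.mk' (Subgroup.centralizer (W : Set G)))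
    rw [QuotientGroup.ker_mk'] at this
    exact this.symm
  have hNn : (D.map (QuotientGroup.mk' (Subgroup.centralizer (W : Set G)))).Normal :=
    hDn.map _ (QuotientGroup.mk'_surjective _)
  have hle := le_pCore hNn hN
  rw [hcore, le_bot_iff] at hle
  have hmem : (QuotientGroup.mk' (Subgroup.centralizer (W : Set G))) d ∈
      D.map (QuotientGroup.mk' (Subgroup.centralizer (W : Set G))) := Subgroup.mem_map_of_mem _ hd
  rw [hle, Subgroup.mem_bot] at hmem
  exact (QuotientGroup.eq_one_iff d).mp hmem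

end Cfsg.Agent.S0601
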