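import Mathlib
import Cfsg.Statements.S0602
import Cfsg.Agent.H13.Basic

set_option autoImplicit false
open Cfsg

namespace Cfsg.Agent.S0602

open Cfsg.Agent.H13

/-- The Thompson subgroup is characteristic, and nontrivial as soon as p divides the group order. -/
theorem result {G : Type*} [Group G] [Finite G] {p : ℕ} [Fact p.Prime] : (Cfsg.thompsonSubgroup p G).Characteristic ∧ (p ∣ Nat.card G → Cfsg.thompsonSubgroup p G ≠ ⊥) := by
  constructor
  · rw [Subgroup.characteristic_iff_map_le]
    intro φ
    unfold thompsonSubgroup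
    rw [Subgroup.map_le_iff_le_comap]
    apply sSup_le
    intro A hA
    rw [← Subgroup.map_le_iff_le_comap]
    apply le_sSup
    refine ⟨ea_map _ hA.1, ?_⟩
    intro B hB
    have h1 : Nat.card (A.map φ.toMonoidHom) = Nat.card A :=
      Subgroup.card_map_of_injective φ.injective
    rw [h1]
    exact hA.2 B hB
  · intro hp hbot
    obtain ⟨x, hx⟩ := exists_prime_orderOf_dvd_card' (G := G) p hp
    obtain ⟨A, hA⟩ := exists_maxEA (G := G) p
    have hz : IsElementaryAbelian p (Subgroup.zpowers x) := by
      rw [Subgroup.zpowers_eq_closure]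
      apply ea_closure
      · intro a ha b hb
        rw [Set.mem_singleton_iff] at ha hb
        rw [ha, hb]
      · intro a ha
        rw [Set.mem_singleton_iff] at ha
        rw [ha, ← hx, pow_orderOf_eq_one]
    have h1 : Nat.card (Subgroup.zpowers x) ≤ Nat.card A := hA.2 _ hz
    rw [Nat.card_zpowers, hx] at h1
    have hAle : A ≤ thompsonSubgroup p G := maxEA_le_thompson hA
    rw [hbot, le_bot_iff] at hAle
    rw [hAle, Subgroup.card_bot] at h1
    exact absurd h1 (not_le.mpr (Fact.out : p.Prime).one_lt)

end Cfsg.Agent.S0602
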