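import Mathlib
import Cfsg.Statements.S0603
import Cfsg.Agent.H13.Basic

set_option autoImplicit false
open Cfsg

namespace Cfsg.Agent.S0603

open Cfsg.Agent.H13

/-- The Thompson subgroup of any subgroup containing J(G) is J(G) itself. -/
theorem result {G : Type*} [Group G] [Finite G] {p : ℕ} [Fact p.Prime] (U : Subgroup G) (hU : Cfsg.thompsonSubgroup p G ≤ U) : Cfsg.thompsonSubgroupOf p U = Cfsg.thompsonSubgroup p G := by
  obtain ⟨A0, hA0⟩ := exists_maxEA (G := G) p
  have hA0U : A0 ≤ U := (maxEA_le_thompson hA0).trans hU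
  have hcardsub : ∀ A : Subgroup G, A ≤ U → Nat.card (A.subgroupOf U) = Nat.card A := fun A hA =>
    Nat.card_congr (Subgroup.subgroupOfEquivOfLe hA).toEquiv
  have hcardmap : ∀ B : Subgroup U, Nat.card (B.map U.subtype) = Nat.card B := fun B =>
    Subgroup.card_map_of_injective U.subtype_injective
  apply le_antisymm
  · unfold thompsonSubgroupOf
    rw [Subgroup.map_le_iff_le_comap]
    unfold thompsonSubgroup
    apply sSup_le
    intro B hB
    rw [← Subgroup.map_le_iff_le_comap]
    apply le_sSup
    apply maxEA_of_card_ge hA0 (ea_map _ hB.1)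
    rw [hcardmap, ← hcardsub A0 hA0U]
    exact hB.2 _ (ea_subgroupOf U hA0.1)
  · show thompsonSubgroup p G ≤ thompsonSubgroupOf p U
    unfold thompsonSubgroupOf
    conv_lhs => unfold thompsonSubgroup
    apply sSup_le
    intro A hA
    have hAU : A ≤ U := (maxEA_le_thompson hA).trans hU
    have hmem : A.subgroupOf U ∈ maxElementaryAbelianSubgroups p U := by
      refine ⟨ea_subgroupOf U hA.1, ?_⟩
      intro C hC
      rw [hcardsub A hAU, ← hcardmap C]
      exact hA.2 _ (ea_map _ hC)
    have h1 : A.subgroupOf U ≤ thompsonSubgroup p U := maxEA_le_thompson hmem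
    have h2 := Subgroup.map_mono (f := U.subtype) h1
    rwa [Subgroup.map_subgroupOf_eq_of_le hAU] at h2

end Cfsg.Agent.S0603
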