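import Mathlib
import Cfsg.Statements.S0604
import Cfsg.Agent.H13.Basic

set_option autoImplicit false
open Cfsg

namespace Cfsg.Agent.S0604

open Cfsg.Agent.H13

/-- The Thompson subgroup of G is the join of the Thompson subgroups of its Sylow p-subgroups. -/
theorem result {G : Type*} [Group G] [Finite G] {p : ℕ} [Fact p.Prime] : Cfsg.thompsonSubgroup p G = ⨆ S : Sylow p G, Cfsg.thompsonSubgroupOf p (S : Subgroup G) := by
  have hcardsub : ∀ (U A : Subgroup G), A ≤ U → Nat.card (A.subgroupOf U) = Nat.card A :=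
    fun U A hA => Nat.card_congr (Subgroup.subgroupOfEquivOfLe hA).toEquiv
  have hcardmap : ∀ (U : Subgroup G) (B : Subgroup U), Nat.card (B.map U.subtype) = Nat.card B :=
    fun U B => Subgroup.card_map_of_injective U.subtype_injective
  apply le_antisymm
  · conv_lhs => unfold thompsonSubgroup
    apply sSup_le
    intro A hA
    obtain ⟨S, hAS⟩ := (ea_isPGroup hA.1).exists_le_sylow
    refine le_trans ?_ (le_iSup _ S)
    unfold thompsonSubgroupOf
    have hmem : A.subgroupOf (S : Subgroup G) ∈ maxElementaryAbelianSubgroups p (S : Subgroup G) := by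
      refine ⟨ea_subgroupOf _ hA.1, ?_⟩
      intro C hC
      rw [hcardsub _ A hAS, ← hcardmap _ C]
      exact hA.2 _ (ea_map _ hC)
    have h1 : A.subgroupOf (S : Subgroup G) ≤ thompsonSubgroup p (S : Subgroup G) :=
      maxEA_le_thompson hmem
    have h2 := Subgroup.map_mono (f := (S : Subgroup G).subtype) h1
    rwa [Subgroup.map_subgroupOf_eq_of_le hAS] at h2
  · apply iSup_le
    intro S
    obtain ⟨A1, hA1, hA1S⟩ := exists_maxEA_le_sylow (G := G) S
    unfold thompsonSubgroupOf
    rw [Subgroup.map_le_iff_le_comap]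
    conv_lhs => unfold thompsonSubgroup
    apply sSup_le
    intro B hB
    rw [← Subgroup.map_le_iff_le_comap]
    apply maxEA_le_thompson
    apply maxEA_of_card_ge hA1 (ea_map _ hB.1)
    rw [hcardmap, ← hcardsub _ A1 hA1S]
    exact hB.2 _ (ea_subgroupOf _ hA1.1)

end Cfsg.Agent.S0604
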