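import Mathlib
import Cfsg.Statements.S0606
import Cfsg.Agent.H13.Basic

set_option autoImplicit false
open Cfsg

namespace Cfsg.Agent.S0606

open Cfsg.Agent.H13

/-- Elementary abelian p-subgroups of maximal order are best offenders on any normal elementary abelian p-subgroup. -/
theorem result {G : Type*} [Group G] [Finite G] {p : ℕ} [Fact p.Prime] (V : Subgroup G) [V.Normal] (hV : Cfsg.IsElementaryAbelian p V) (A : Subgroup G) (hA : A ∈ Cfsg.maxElementaryAbelianSubgroups p G) : Cfsg.IsBestOffenderOn p V A := by
  have hAea := hA.1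
  have hAc : ∀ a ∈ A, ∀ b ∈ A, a * b = b * a := (ea_iff.mp hAea).1
  refine ⟨?_, ?_, ?_⟩
  · intro B hBA
    have hW : IsElementaryAbelian p (V ⊓ Subgroup.centralizer (B : Set G)) := ea_mono inf_le_left hV
    have hBea : IsElementaryAbelian p B := ea_mono hBA hAea
    have hcomm : ∀ b ∈ B, ∀ w ∈ V ⊓ Subgroup.centralizer (B : Set G), b * w = w * b := by
      intro b hb w hw
      exact (Subgroup.mem_centralizer_iff.mp hw.2) b hb
    have hsup : IsElementaryAbelian p (B ⊔ (V ⊓ Subgroup.centralizer (B : Set G))) :=
      ea_sup hBea hW hcomm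
    have hnorm : B ≤ Subgroup.normalizer ((V ⊓ Subgroup.centralizer (B : Set G) : Subgroup G) : Set G) := by
      intro b hb
      rw [Subgroup.mem_normalizer_iff]
      intro w
      constructor
      · intro hw
        rw [hcomm b hb w hw, mul_inv_cancel_right]; exact hw
      · intro hw
        have := hcomm b hb _ hw
        have e : w = b * w * b⁻¹ := by
          have h2 : b * (b * w * b⁻¹) = b * w := by rw [this]; group
          have h3 := mul_left_cancel h2
          exact h3.symm
        rw [e]; exact hw
    have hprod := card_mul_card_eq B (V ⊓ Subgroup.centralizer (B : Set G)) hnorm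
    rw [hprod]
    have h1 : Nat.card ↥(B ⊔ (V ⊓ Subgroup.centralizer (B : Set G))) ≤ Nat.card A := hA.2 _ hsup
    have h2 : B ⊓ (V ⊓ Subgroup.centralizer (B : Set G)) ≤ V ⊓ Subgroup.centralizer (A : Set G) := by
      intro x hx
      rw [Subgroup.mem_inf]
      refine ⟨hx.2.1, ?_⟩
      rw [Subgroup.mem_centralizer_iff]
      intro a ha
      exact hAc a ha x (hBA hx.1)
    exact Nat.mul_le_mul h1 (Subgroup.card_le_of_le h2)
  · have : ⁅A, A⁆ = ⊥ := Subgroup.commutator_self_eq_bot_iff.mpr hAea.1
    rw [this]; exact bot_le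
  · intro a ha
    rw [hAea.2 a ha]
    exact one_mem _

end Cfsg.Agent.S0606
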