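import Cfsg.Statements.S0608
import Cfsg.Agent.H14.Factor

set_option autoImplicit false
open Cfsg

namespace Cfsg.Agent.S0608

open Cfsg.Agent.H14

/-- With trivial p'-core, Thompson factorizability is equivalent to J(G) centralizing the subgroup generated by all Ω₁(Z(S)), S Sylow. -/
theorem result {G : Type*} [Group G] [Finite G] {p : ℕ} [Fact p.Prime] (hO : Cfsg.pPrimeCore p G = ⊥) : Cfsg.IsThompsonFactorizable p G ↔ Cfsg.thompsonSubgroup p G ≤ Subgroup.centralizer ((⨆ S : Sylow p G, Cfsg.omegaOne p (((S : Subgroup G)) ⊓ Subgroup.centralizer ((S : Subgroup G) : Set G)) : Subgroup G) : Set G) := by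
  constructor
  · intro hF
    exact thompson_le_centralizer_of_factorizable hO hF
  · intro hJ S g
    obtain ⟨c, hc, n, hn, hg⟩ := factorizable_of_thompson_le_centralizer hJ S g
    refine ⟨1, one_mem _, c, ?_, n, hn, by rw [one_mul, hg]⟩
    refine Subgroup.centralizer_le ?_ hc
    have : Cfsg.omegaOne p ((S : Subgroup G) ⊓ Subgroup.centralizer ((S : Subgroup G) : Set G)) ≤
        sylowCenterV p G :=
      le_iSup (fun S : Sylow p G => Cfsg.omegaOne p ((S : Subgroup G) ⊓
        Subgroup.centralizer ((S : Subgroup G) : Set G))) S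
    exact_mod_cast this

end Cfsg.Agent.S0608
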