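import Cfsg.Statements.S0609
import Cfsg.Agent.H14.Factor

set_option autoImplicit false
open Cfsg

namespace Cfsg.Agent.S0609

open Cfsg.Agent.H14

theorem mk_injOn_sylow {G : Type*} [Group G] [Finite G] {p : ℕ} [Fact p.Prime] (S : Sylow p G) :
    ∀ x ∈ (S : Subgroup G), (QuotientGroup.mk' (Cfsg.pPrimeCore p G)) x = 1 → x = 1 := by
  intro x hx h1
  have h2 : x ∈ Cfsg.pPrimeCore p G := (QuotientGroup.eq_one_iff x).mp h1
  have h3 : x ∈ (S : Subgroup G) ⊓ Cfsg.pPrimeCore p G := ⟨hx, h2⟩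
  rw [pGroup_inf_coprime_eq_bot S.2 (pPrimeCore_coprime p G), Subgroup.mem_bot] at h3
  exact h3

/-- Thompson factorizability passes to and from the quotient by the largest normal subgroup of order prime to p. -/
theorem result {G : Type*} [Group G] [Finite G] {p : ℕ} [Fact p.Prime] : Cfsg.IsThompsonFactorizable p G ↔ Cfsg.IsThompsonFactorizable p (G ⧸ Cfsg.pPrimeCore p G) := by
  set π := QuotientGroup.mk' (Cfsg.pPrimeCore p G) with hπ
  have hsurj : Function.Surjective π := QuotientGroup.mk'_surjective _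
  constructor
  · intro hF Sbar gbar
    obtain ⟨S, rfl⟩ := Sylow.mapSurjective_surjective hsurj p Sbar
    obtain ⟨g, rfl⟩ := hsurj gbar
    obtain ⟨x, hx, c, hc, n, hn, hg⟩ := hF S g
    have hcoe : ((Sylow.mapSurjective hsurj S : Sylow p (G ⧸ Cfsg.pPrimeCore p G)) :
        Subgroup (G ⧸ Cfsg.pPrimeCore p G)) = (S : Subgroup G).map π := rfl
    refine ⟨1, one_mem _, π c, ?_, π n, ?_, ?_⟩
    · rw [hcoe, ← omegaOne_center_map p π _ (mk_injOn_sylow S)]
      rw [Subgroup.mem_centralizer_iff]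
      rintro _ ⟨z, hz, rfl⟩
      rw [Subgroup.mem_centralizer_iff] at hc
      rw [← map_mul, ← map_mul, hc z hz]
    · rw [hcoe, ← thompsonSubgroupOf_map p π _ (mk_injOn_sylow S)]
      exact Subgroup.le_normalizer_map π ⟨n, hn, rfl⟩
    · rw [hg, map_mul, map_mul]
      have : π x = 1 := (QuotientGroup.eq_one_iff x).mpr hx
      rw [this]
  · intro hF S g
    obtain ⟨xbar, hxbar, cbar, hcbar, nbar, hnbar, hg⟩ := hF (Sylow.mapSurjective hsurj S) (π g)
    have hcoe : ((Sylow.mapSurjective hsurj S : Sylow p (G ⧸ Cfsg.pPrimeCore p G)) :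
        Subgroup (G ⧸ Cfsg.pPrimeCore p G)) = (S : Subgroup G).map π := rfl
    rw [pPrimeCore_quotient_eq_bot, Subgroup.mem_bot] at hxbar
    subst hxbar
    rw [one_mul] at hg
    rw [hcoe, ← omegaOne_center_map p π _ (mk_injOn_sylow S)] at hcbar
    rw [hcoe, ← thompsonSubgroupOf_map p π _ (mk_injOn_sylow S)] at hnbar
    obtain ⟨c₀, rfl⟩ := hsurj cbar
    obtain ⟨n₀, rfl⟩ := hsurj nbar
    have hQ1 : IsPGroup p ↥(Cfsg.omegaOne p ((S : Subgroup G) ⊓
        Subgroup.centralizer ((S : Subgroup G) : Set G))) :=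
      S.2.to_le (omegaOne_center_le p _)
    have hQ2 : IsPGroup p ↥(Cfsg.thompsonSubgroupOf p (S : Subgroup G)) :=
      S.2.to_le (thompsonSubgroupOf_le p _)
    obtain ⟨c, hc, hcc⟩ := exists_mem_centralizer_of_mk_mem_centralizer hQ1
      (pPrimeCore_coprime p G) c₀ hcbar
    obtain ⟨n, hn, hnn⟩ := exists_mem_normalizer_of_mk_mem_normalizer hQ2
      (pPrimeCore_coprime p G) n₀ hnbar
    refine ⟨g * (c * n)⁻¹, ?_, c, hc, n, hn, by group⟩
    rw [← QuotientGroup.eq_one_iff]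
    show π (g * (c * n)⁻¹) = 1
    have hcc' : π c = π c₀ := hcc
    have hnn' : π n = π n₀ := hnn
    rw [map_mul, map_inv, map_mul, hg, hcc', hnn']
    group

end Cfsg.Agent.S0609
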