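import Cfsg.Statements.S0612
import Mathlib
import Cfsg.Agent.H47.OffenderDecomp

set_option autoImplicit false
open Cfsg

namespace Cfsg.Agent.S0612

/-- In such a faithful group every nontrivial best offender decomposes as a direct product of minimal nontrivially-acting best offenders. -/
theorem result {G : Type*} [Group G] [Finite G] {p : ℕ} [Fact p.Prime] (V H : Subgroup G) (hV : Cfsg.IsElementaryAbelian p V) (hHV : H ≤ Subgroup.normalizer (V : Set G)) (hf : H ⊓ Subgroup.centralizer (V : Set G) = ⊥) (hS1 : Subgroup.centralizer (Cfsg.pPrimeCore p ↥H : Set ↥H) ≤ Cfsg.pPrimeCore p ↥H) (hS3 : H = ⨆ A : {A : Subgroup G // A ≤ H ∧ Cfsg.IsBestOffenderOn p V A}, (A : Subgroup G)) (hH1 : H ≠ ⊥) (A : Subgroup G) (hAH : A ≤ H) (hA : Cfsg.IsBestOffenderOn p V A) (hA1 : A ≠ ⊥) : ∃ (k : ℕ) (B : Fin k → Subgroup G), (∀ i, B i ≤ A ∧ Cfsg.IsBestOffenderOn p V (B i) ∧ ⁅V, B i⁆ ≠ ⊥ ∧ ∀ C : Subgroup G, C ≤ B i → Cfsg.IsBestOffenderOn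 p V C → ⁅V, C⁆ ≠ ⊥ → C = B i) ∧ iSupIndep B ∧ ⨆ i, B i = A := by
  have hp : p.Prime := Fact.out
  obtain ⟨k, B, hB, hind, hsup⟩ :=
    Cfsg.Agent.H47.Off.exists_decomposition hV hHV hf hS1 hAH hA
  refine ⟨k, B, fun i => ?_, hind, hsup⟩
  obtain ⟨hBA, hBoff, hBp⟩ := hB i
  have hBne : B i ≠ ⊥ := by
    intro h
    rw [h, Subgroup.card_bot] at hBp
    exact hp.one_lt.ne hBp
  refine ⟨hBA, hBoff, Cfsg.Agent.H47.Off.commutator_ne_bot hf (hBA.trans hAH) hBne, ?_⟩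
  intro C hC _ hCV
  have hCne : C ≠ ⊥ := by
    rintro rfl
    apply hCV
    rw [Subgroup.commutator_comm, Subgroup.commutator_eq_bot_iff_le_centralizer]
    exact bot_le
  apply Subgroup.eq_of_le_of_card_ge hC
  have hdvd : Nat.card C ∣ p := hBp ▸ Subgroup.card_dvd_of_le hC
  rcases (Nat.dvd_prime hp).mp hdvd with h | h
  · exact absurd (Subgroup.card_eq_one.mp h) hCne
  · rw [h, hBp]

end Cfsg.Agent.S0612
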