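import Cfsg.Statements.S0615
import Cfsg.Agent.H14.SubnPair

set_option autoImplicit false
open Cfsg

namespace Cfsg.Agent.S0615

/-- Two subnormal subgroups acting irreducibly on their incomparable commutator modules, in a faithful group with trivial largest normal p-subgroup, generate their direct product, and the commutator module splits accordingly. -/
theorem result {G : Type*} [Group G] [Finite G] {p : ℕ} [Fact p.Prime] (V E E₁ E₂ : Subgroup G) (hV : Cfsg.IsElementaryAbelian p V) (hEV : E ≤ Subgroup.normalizer (V : Set G)) (hf : E ⊓ Subgroup.centralizer (V : Set G) = ⊥) (hgen : E = E₁ ⊔ E₂) (hs₁ : (E₁.subgroupOf E).IsSubnormal) (hs₂ : (E₂.subgroupOf E).IsSubnormal) (hOp : Cfsg.pCore p ↥E = ⊥) (hirr₁ : (∀ U : Subgroup G, U ≤ ⁅V, E₁⁆ → E₁ ≤ Subgroup.normalizer (U : Set G) → U = ⊥ ∨ U = ⁅V, E₁⁆)) (hirr₂ : (∀ U : Subgroup G, U ≤ ⁅V, E₂⁆ → E₂ ≤ Subgroup.normalizer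 (U : Set G) → U = ⊥ ∨ U = ⁅V, E₂⁆)) (h12 : ¬ ⁅V, E₁⁆ ≤ ⁅V, E₂⁆) (h21 : ¬ ⁅V, E₂⁆ ≤ ⁅V, E₁⁆) (hc₁ : 2 < Nat.card E₁) (hc₂ : 2 < Nat.card E₂) : ⁅E₁, E₂⁆ = ⊥ ∧ E₁ ⊓ E₂ = ⊥ ∧ ⁅V, E₁⁆ ⊓ ⁅V, E₂⁆ = ⊥ ∧ ⁅V, E⁆ = ⁅V, E₁⁆ ⊔ ⁅V, E₂⁆ := by
  subst hgen
  have hS₁ : Cfsg.Agent.H12.SubnIn E₁ (E₁ ⊔ E₂) :=
    Cfsg.Agent.H12.subnIn_iff.mpr ⟨le_sup_left, hs₁⟩
  have hS₂ : Cfsg.Agent.H12.SubnIn E₂ (E₁ ⊔ E₂) :=
    Cfsg.Agent.H12.subnIn_iff.mpr ⟨le_sup_right, hs₂⟩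
  have hO : ∀ T : Subgroup G, IsPGroup p T → Cfsg.Agent.H12.SubnIn T (E₁ ⊔ E₂) → T = ⊥ := by
    intro T hT hTs
    have h1 := Cfsg.Agent.H52.subnormal_pgroup_le_pCore (p := p) hTs.isSubnormal_subgroupOf
      hT.comap_subtype
    rw [hOp, le_bot_iff, Subgroup.subgroupOf_eq_bot] at h1
    exact h1.eq_bot_of_le hTs.le
  have h1V : E₁ ≤ Subgroup.normalizer (V : Set G) := le_sup_left.trans hEV
  have h2V : E₂ ≤ Subgroup.normalizer (V : Set G) := le_sup_right.trans hEV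
  obtain ⟨hn21, hn12⟩ := H14.pairStmt V hV _ E₁ E₂ le_rfl hEV hf hS₁ hS₂ hO hirr₁ hirr₂ h12 h21
    hc₁ hc₂
  obtain ⟨hd, hc1, hc2⟩ := H14.pair_disjoint h1V h2V hirr₁ h12 hn21 hn12
  refine ⟨?_, ?_, hd, ?_⟩
  · have h3 : ⁅⁅E₁, E₂⁆, V⁆ = ⊥ :=
      Subgroup.commutator_commutator_eq_bot_of_rotate
        (by rw [Subgroup.commutator_comm E₂ V]; exact hc2) hc1
    rw [Subgroup.commutator_eq_bot_iff_le_centralizer] at h3
    rw [eq_bot_iff, ← hf]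
    exact le_inf ((Subgroup.commutator_mono le_sup_left le_sup_right).trans
      (H14.commutator_self_le _)) h3
  · rw [eq_bot_iff, ← hf]
    refine le_inf (inf_le_left.trans le_sup_left) ?_
    rw [← Subgroup.commutator_eq_bot_iff_le_centralizer, Subgroup.commutator_comm, eq_bot_iff,
      ← hd]
    exact le_inf (Subgroup.commutator_mono le_rfl inf_le_left)
      (Subgroup.commutator_mono le_rfl inf_le_right)
  · apply le_antisymm
    · have hE₁W₁ : E₁ ≤ Subgroup.normalizer ((⁅V, E₁⁆ : Subgroup G) : Set G) :=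
        Cfsg.Agent.H1.le_normalizer_commutator E₁ V E₁ h1V Subgroup.le_normalizer
      have hE₂W₂ : E₂ ≤ Subgroup.normalizer ((⁅V, E₂⁆ : Subgroup G) : Set G) :=
        Cfsg.Agent.H1.le_normalizer_commutator E₂ V E₂ h2V Subgroup.le_normalizer
      have hEM : E₁ ⊔ E₂ ≤ Subgroup.normalizer ((⁅V, E₁⁆ ⊔ ⁅V, E₂⁆ : Subgroup G) : Set G) :=
        sup_le (Cfsg.Agent.H1.le_normalizer_sup E₁ _ _ hE₁W₁ hn12)
          (Cfsg.Agent.H1.le_normalizer_sup E₂ _ _ hn21 hE₂W₂)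
      have hM : ∀ h ∈ E₁ ⊔ E₂, ∀ m ∈ ⁅V, E₁⁆ ⊔ ⁅V, E₂⁆, h * m * h⁻¹ ∈ ⁅V, E₁⁆ ⊔ ⁅V, E₂⁆ :=
        fun h hh m hm => H14.conj_mem_of_mem_normalizer (hEM hh) hm
      have hle : E₁ ⊔ E₂ ≤ H14.commMod (E₁ ⊔ E₂) (⁅V, E₁⁆ ⊔ ⁅V, E₂⁆) hM (V : Set G) := by
        apply sup_le
        · intro e he
          refine ⟨Subgroup.mem_sup_left he, fun b hb => Subgroup.mem_sup_left ?_⟩
          rw [Subgroup.commutator_comm]
          exact Subgroup.commutator_mem_commutator he hb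
        · intro e he
          refine ⟨Subgroup.mem_sup_right he, fun b hb => Subgroup.mem_sup_right ?_⟩
          rw [Subgroup.commutator_comm]
          exact Subgroup.commutator_mem_commutator he hb
      rw [Subgroup.commutator_comm, Subgroup.commutator_le]
      intro g hg b hb
      exact (hle hg).2 b hb
    · exact sup_le (Subgroup.commutator_mono le_rfl le_sup_left)
        (Subgroup.commutator_mono le_rfl le_sup_right)

end Cfsg.Agent.S0615
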