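import Cfsg.Statements.S0616
import Mathlib
import Cfsg.Agent.H47.OffenderStruct

set_option autoImplicit false
open Cfsg

namespace Cfsg.Agent.S0616

/-- Each minimal nontrivially-acting best offender spans, with its commutator on the p'-core, a direct factor E of H isomorphic to SL(2, p) with a 2-dimensional commutator module complementing C_V(E). -/
theorem result {G : Type*} [Group G] [Finite G] {p : ℕ} [Fact p.Prime] (V H : Subgroup G) (hV : Cfsg.IsElementaryAbelian p V) (hHV : H ≤ Subgroup.normalizer (V : Set G)) (hf : H ⊓ Subgroup.centralizer (V : Set G) = ⊥) (hS1 : Subgroup.centralizer (Cfsg.pPrimeCore p ↥H : Set ↥H) ≤ Cfsg.pPrimeCore p ↥H) (hS3 : H = ⨆ A : {A : Subgroup G // A ≤ H ∧ Cfsg.IsBestOffenderOn p V A}, (A : Subgroup G)) (hH1 : H ≠ ⊥) (A : Subgroup G) (hAH : A ≤ H) (hA :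 Cfsg.IsBestOffenderOn p V A) (hAV : ⁅V, A⁆ ≠ ⊥) (hmin : ∀ B : Subgroup G, B ≤ A → Cfsg.IsBestOffenderOn p V B → ⁅V, B⁆ ≠ ⊥ → B = A) : (p = 2 ∨ p = 3) ∧ Nonempty (↥(⁅((Cfsg.pPrimeCore p ↥H).map H.subtype), A⁆ ⊔ A) ≃* Matrix.SpecialLinearGroup (Fin 2) (ZMod p)) ∧ Nat.card ↥(⁅V, ⁅((Cfsg.pPrimeCore p ↥H).map H.subtype), A⁆ ⊔ A⁆) = p ^ 2 ∧ ⁅V, ⁅((Cfsg.pPrimeCore p ↥H).map H.subtype), A⁆ ⊔ A⁆ ⊓ (V ⊓ Subgroup.centralizer ((⁅((Cfsg.pPrimeCore p ↥H).map H.subtype), A⁆ ⊔ A : Subgroup G) : Set G)) = ⊥ ∧ ⁅V, ⁅((Cfsg.pPrimeCore p ↥H).map H.subtype), A⁆ ⊔ A⁆ ⊔ (V ⊓ Subgroup.centralizer ((⁅((Cfsg.pPrimeCore p ↥H).map H.subtype), A⁆ ⊔ A : Subgroup G) : Set G)) = V ∧ ⁅⁅((Cfsg.pPrimeCore p ↥H).map H.subtype), A⁆ ⊔ A, H ⊓ Subgroup.centralizer ((⁅V, ⁅((Cfsg.pPrimeCore p ↥H).map H.subtype), A⁆ ⊔ A⁆ : Subgroup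 G) : Set G)⁆ = ⊥ ∧ (⁅((Cfsg.pPrimeCore p ↥H).map H.subtype), A⁆ ⊔ A) ⊓ (H ⊓ Subgroup.centralizer ((⁅V, ⁅((Cfsg.pPrimeCore p ↥H).map H.subtype), A⁆ ⊔ A⁆ : Subgroup G) : Set G)) = ⊥ ∧ (⁅((Cfsg.pPrimeCore p ↥H).map H.subtype), A⁆ ⊔ A) ⊔ (H ⊓ Subgroup.centralizer ((⁅V, ⁅((Cfsg.pPrimeCore p ↥H).map H.subtype), A⁆ ⊔ A⁆ : Subgroup G) : Set G)) = H ∧ ⁅V, H ⊓ Subgroup.centralizer ((⁅V, ⁅((Cfsg.pPrimeCore p ↥H).map H.subtype), A⁆ ⊔ A⁆ : Subgroup G) : Set G)⁆ ≤ V ⊓ Subgroup.centralizer ((⁅((Cfsg.pPrimeCore p ↥H).map H.subtype), A⁆ ⊔ A : Subgroup G) : Set G) := by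
  have hT := Cfsg.Agent.H47.Off.isTrans_of_minimal hV hHV hf hS1 hAH hA hAV hmin
  obtain ⟨h0, h1, h2, h3, h4, h5, h6, h7, h8, -⟩ := hT.structure' hV hHV hf hS1 hS3
  exact ⟨h0, h1, h2, h3, h4, h5, h6, h7, h8⟩

end Cfsg.Agent.S0616
#print axioms Cfsg.Agent.S0616.result
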