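import Cfsg.Statements.S0618
import Cfsg.Agent.S0617
import Cfsg.Agent.H14.TFail

set_option autoImplicit false
open Cfsg

namespace Cfsg.Agent.S0618

/-- A p-separable group with trivial p'-core in which the Thompson factorization fails has p = 2 or 3, and J(G) induces on the normal closure of Ω₁(Z(S)) a group containing a normal SL(2, p). -/
theorem result {G : Type*} [Group G] [Finite G] {p : ℕ} [Fact p.Prime] (hsep : Cfsg.IsPSolvable p G) (hO : Cfsg.pPrimeCore p G = ⊥) (hnf : ¬ Cfsg.IsThompsonFactorizable p G) : (p = 2 ∨ p = 3) ∧ ∃ E : Subgroup G, Subgroup.centralizer ((⨆ S : Sylow p G, Cfsg.omegaOne p ((S : Subgroup G) ⊓ Subgroup.centralizer ((S : Subgroup G) : Set G))) : Set G) ≤ E ∧ E ≤ Cfsg.thompsonSubgroup p G ⊔ Subgroup.centralizer ((⨆ S : Sylow p G, Cfsg.omegaOne p ((S : Subgroup G) ⊓ Subgroup.centralizer ((S : Subgroup G) : Set G))) : Set G) ∧ Cfsg.thompsonSubgroup p G ⊔ Subgroup.centralizer ((⨆ S : Sylow p G, Cfsg.omegaOne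 p ((S : Subgroup G) ⊓ Subgroup.centralizer ((S : Subgroup G) : Set G))) : Set G) ≤ Subgroup.normalizer (E : Set G) ∧ ∃ hn : ((Subgroup.centralizer ((⨆ S : Sylow p G, Cfsg.omegaOne p ((S : Subgroup G) ⊓ Subgroup.centralizer ((S : Subgroup G) : Set G))) : Set G)).subgroupOf E).Normal, Nonempty ((↥E ⧸ (Subgroup.centralizer ((⨆ S : Sylow p G, Cfsg.omegaOne p ((S : Subgroup G) ⊓ Subgroup.centralizer ((S : Subgroup G) : Set G))) : Set G)).subgroupOf E) ≃* Matrix.SpecialLinearGroup (Fin 2) (ZMod p)) := by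
  haveI := Cfsg.Agent.H14.sylowCenterV_normal p G
  have hC : Subgroup.centralizer (⨆ S : Sylow p G, ((Cfsg.omegaOne p ((S : Subgroup G) ⊓ Subgroup.centralizer ((S : Subgroup G) : Set G)) : Subgroup G) : Set G)) = Subgroup.centralizer (Cfsg.Agent.H14.sylowCenterV p G : Set G) :=
    Cfsg.Agent.H14.Holo.centralizer_iSup_coe _
  rw [hC]
  exact Cfsg.Agent.H14.Holo.tfail_main hsep hO hnf (Cfsg.Agent.H14.sylowCenterV p G) rfl
    (fun hV' hHV hf hS1 hS3 hH1 => Cfsg.Agent.H14.Holo.weak_of_concl _ _ hH1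
      (Cfsg.Agent.S0617.result _ _ hV' hHV hf hS1 hS3 hH1))

end Cfsg.Agent.S0618
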