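import Cfsg.Statements.S0619
import Cfsg.Agent.H14.JMove

set_option autoImplicit false
open Cfsg

namespace Cfsg.Agent.S0619

/-- For a p-separable group and a normal elementary abelian p-subgroup V with no nontrivial normal p-subgroup modulo its centralizer C, the Thompson subgroup J(G) moves Ω₁(Z(J(C))) only inside V. -/
theorem result {G : Type*} [Group G] [Finite G] {p : ℕ} [Fact p.Prime] (hsep : Cfsg.IsPSolvable p G) (V : Subgroup G) [V.Normal] (hV : Cfsg.IsElementaryAbelian p V) (hO : Cfsg.pCore p (G ⧸ Subgroup.centralizer (V : Set G)) = ⊥) : ⁅Cfsg.omegaOne p (Cfsg.centerThompsonOf p (Subgroup.centralizer (V : Set G))), Cfsg.thompsonSubgroup p G⁆ ≤ V := by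
  exact Cfsg.Agent.H14.Holo.commutator_omega_thompson_le V hV hsep hO

end Cfsg.Agent.S0619
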