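import Cfsg.Statements.S0621
import Mathlib
import Cfsg.Agent.H47.OffenderOp

set_option autoImplicit false
open Cfsg

namespace Cfsg.Agent.S0621

/-- Let K be p-separable with O_p'(K) = 1, normalized by an elementary abelian q-group X for a prime q not dividing the order of K. If the Thompson factorization fails in K, then p is 2 or 3 and the fixed points of X contain a plane W of order p² and a subgroup inducing SL(2, p) on it. -/
theorem result {G : Type*} [Group G] [Finite G] {p : ℕ} [Fact p.Prime] {q : ℕ} [Fact q.Prime] (K X : Subgroup G) (hXK : X ≤ Subgroup.normalizer (K : Set G)) (hX : Cfsg.IsElementaryAbelian q X) (hq : ¬ q ∣ Nat.card K) (hsep : Cfsg.IsPSolvable p ↥K) (hO : Cfsg.pPrimeCore p ↥K = ⊥) (hnf : ¬ Cfsg.IsThompsonFactorizable p ↥K) : (p = 2 ∨ p = 3) ∧ ∃ W D : Subgroup G, W ≤ K ⊓ Subgroup.centralizer (X : Set G) ∧ D ≤ K ⊓ Subgroup.centralizer (X : Set G) ∧ Cfsg.IsElementaryAbelian p W ∧ Nat.card W = p ^ 2 ∧ D ≤ Subgroup.normalizer (W : Set G) ∧ ∃ hn : ((Subgroup.centralizer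 (W : Set G)).subgroupOf D).Normal, Nonempty ((↥D ⧸ (Subgroup.centralizer (W : Set G)).subgroupOf D) ≃* Matrix.SpecialLinearGroup (Fin 2) (ZMod p)) := by
  have hXq : IsPGroup q ↥X := Cfsg.Agent.H14.elemAb_isPGroup hX
  obtain ⟨hp23, W, D, hWfix, hDfix, hWel, hWcard, hDW, f, hfsurj, hfker⟩ :=
    Cfsg.Agent.H47.Op.fixed_points_sl2 (Cfsg.Agent.H47.Op.conjAut K X hXK) hXq hq hsep hO hnf
  refine ⟨hp23, W.map K.subtype, D.map K.subtype, ?_, ?_, ?_, ?_, ?_, ?_⟩
  · exact (Subgroup.map_mono hWfix).trans (Cfsg.Agent.H47.Op.map_fix_conjAut_le K X hXK)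
  · exact (Subgroup.map_mono hDfix).trans (Cfsg.Agent.H47.Op.map_fix_conjAut_le K X hXK)
  · exact Cfsg.Agent.H14.elemAb_map' hWel _
  · rw [Subgroup.card_map_of_injective K.subtype_injective]; exact hWcard
  · apply Cfsg.Agent.H47.Off.le_normalizer_of_conj_mem
    rintro _ ⟨d, hd, rfl⟩ _ ⟨w, hw, rfl⟩
    exact ⟨d * w * d⁻¹, (Subgroup.mem_normalizer_iff.mp (hDW hd) w).mp hw, rfl⟩
  · let e : ↥D ≃* ↥(D.map K.subtype) := D.equivMapOfInjective K.subtype K.subtype_injective
    let f' : ↥(D.map K.subtype) →* Matrix.SpecialLinearGroup (Fin 2) (ZMod p) :=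
      f.comp e.symm.toMonoidHom
    have hsurj : Function.Surjective f' := hfsurj.comp e.symm.surjective
    have hker : (Subgroup.centralizer ((W.map K.subtype : Subgroup G) : Set G)).subgroupOf
        (D.map K.subtype) = f'.ker := by
      ext x
      rw [Subgroup.mem_subgroupOf, MonoidHom.mem_ker]
      show _ ↔ f (e.symm x) = 1
      rw [hfker]
      have hx : (((e.symm x : ↥D) : ↥K) : G) = (x : G) := by
        have h1 := congrArg Subtype.val (e.apply_symm_apply x)
        rw [← h1]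
        rfl
      rw [← hx]
      exact Cfsg.Agent.H47.Op.mem_centralizer_map_subtype K W _
    have hn : ((Subgroup.centralizer ((W.map K.subtype : Subgroup G) : Set G)).subgroupOf
        (D.map K.subtype)).Normal := by
      rw [hker]; infer_instance
    exact ⟨hn, ⟨(QuotientGroup.quotientMulEquivOfEq hker).trans
      (QuotientGroup.quotientKerEquivOfSurjective f' hsurj)⟩⟩

end Cfsg.Agent.S0621
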