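import Cfsg.Statements.S0622
import Cfsg.Agent.H14.Basic

set_option autoImplicit false
universe u
open Cfsg

namespace Cfsg.Agent.S0622

open Cfsg.Agent.H14

/-- Images of elementary abelian subgroups of largest order under an isomorphism. -/
theorem map_mem_maxElementaryAbelian {S S' : Type u} [Group S] [Group S'] (p : ℕ) (η : S ≃* S')
    {A : Subgroup S} (hA : A ∈ Cfsg.maxElementaryAbelianSubgroups p S) :
    A.map η.toMonoidHom ∈ Cfsg.maxElementaryAbelianSubgroups p S' := by
  refine ⟨elemAb_map hA.1 _, ?_⟩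
  intro B hB
  have h1 := hA.2 (B.map η.symm.toMonoidHom) (elemAb_map hB _)
  rw [Subgroup.card_map_of_injective η.symm.injective] at h1
  rw [Subgroup.card_map_of_injective η.injective]
  exact h1

theorem thompson_map_le {S S' : Type u} [Group S] [Group S'] (p : ℕ) (η : S ≃* S') :
    (Cfsg.thompsonSubgroup p S).map η.toMonoidHom ≤ Cfsg.thompsonSubgroup p S' := by
  unfold Cfsg.thompsonSubgroup
  rw [Subgroup.map_le_iff_le_comap]
  apply sSup_le
  intro A hA
  rw [← Subgroup.map_le_iff_le_comap]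
  exact le_sSup (map_mem_maxElementaryAbelian p η hA)

theorem thompson_map_eq {S S' : Type u} [Group S] [Group S'] (p : ℕ) (η : S ≃* S') :
    (Cfsg.thompsonSubgroup p S).map η.toMonoidHom = Cfsg.thompsonSubgroup p S' := by
  apply le_antisymm (thompson_map_le p η)
  have h := thompson_map_le p η.symm
  intro x hx
  refine ⟨η.symm x, h ⟨x, hx, rfl⟩, by simp⟩

theorem omegaCenterThompson_map_le {S S' : Type u} [Group S] [Group S'] (p : ℕ) (η : S ≃* S') :
    (Cfsg.omegaCenterThompson p S).map η.toMonoidHom ≤ Cfsg.omegaCenterThompson p S' := by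
  unfold Cfsg.omegaCenterThompson Cfsg.omegaOne
  rw [MonoidHom.map_closure]
  apply Subgroup.closure_mono
  rintro _ ⟨x, ⟨hx12, hx3⟩, rfl⟩
  obtain ⟨hx1, hx2⟩ := Subgroup.mem_inf.mp hx12
  refine ⟨Subgroup.mem_inf.mpr ⟨?_, ?_⟩, ?_⟩
  · rw [← thompson_map_eq p η]
    exact ⟨x, hx1, rfl⟩
  · rw [Subgroup.mem_centralizer_iff]
    intro y hy
    rw [← thompson_map_eq p η] at hy
    obtain ⟨y, hy, rfl⟩ := hy
    rw [Subgroup.mem_centralizer_iff] at hx2
    have := hx2 y hy
    show η y * η x = η x * η y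
    rw [← map_mul, ← map_mul, this]
  · show (η x) ^ p = 1
    rw [← map_pow, hx3, map_one]

theorem omegaCenterThompson_map_eq {S S' : Type u} [Group S] [Group S'] (p : ℕ) (η : S ≃* S') :
    (Cfsg.omegaCenterThompson p S).map η.toMonoidHom = Cfsg.omegaCenterThompson p S' := by
  apply le_antisymm (omegaCenterThompson_map_le p η)
  have h := omegaCenterThompson_map_le p η.symm
  intro x hx
  refine ⟨η.symm x, h ⟨x, hx, rfl⟩, by simp⟩

theorem omegaOne_center_map_le {S S' : Type u} [Group S] [Group S'] (p : ℕ) (η : S ≃* S') :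
    (Cfsg.omegaOne p (Subgroup.center S)).map η.toMonoidHom ≤ Cfsg.omegaOne p (Subgroup.center S') := by
  unfold Cfsg.omegaOne
  rw [MonoidHom.map_closure]
  apply Subgroup.closure_mono
  rintro _ ⟨x, ⟨hx1, hx3⟩, rfl⟩
  refine ⟨?_, ?_⟩
  · rw [Subgroup.mem_center_iff] at hx1 ⊢
    intro y
    obtain ⟨y, rfl⟩ := η.surjective y
    show η y * η x = η x * η y
    rw [← map_mul, ← map_mul, hx1 y]
  · show (η x) ^ p = 1
    rw [← map_pow, hx3, map_one]

/-- Transport of stable embeddings along an isomorphism. -/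
theorem isStableEmbedding_comp {S S' H : Type u} [Group S] [Group S'] [Group H] (p : ℕ)
    (η : S ≃* S') (τ : S →* H) (hτ : Cfsg.IsStableEmbedding p τ) :
    Cfsg.IsStableEmbedding p (τ.comp η.symm.toMonoidHom) := by
  obtain ⟨h1, h2, ⟨P, hP⟩, h4, h5, h6⟩ := hτ
  have hmapJ : (Cfsg.thompsonSubgroup p S').map (τ.comp η.symm.toMonoidHom) =
      (Cfsg.thompsonSubgroup p S).map τ := by
    rw [← Subgroup.map_map, thompson_map_eq p η.symm]
  have hmapO : (Cfsg.omegaCenterThompson p S').map (τ.comp η.symm.toMonoidHom) =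
      (Cfsg.omegaCenterThompson p S).map τ := by
    rw [← Subgroup.map_map, omegaCenterThompson_map_eq p η.symm]
  refine ⟨?_, h2, ⟨P, ?_⟩, h4, ?_, ?_⟩
  · exact h1.comp η.symm.injective
  · rw [hP]
    ext x
    constructor
    · rintro ⟨s, rfl⟩
      exact ⟨η s, by simp⟩
    · rintro ⟨s, rfl⟩
      exact ⟨η.symm s, by simp⟩
  · rw [hmapJ]; exact h5
  · intro V hVn hV
    rw [hmapO] at hV
    exact h6 V hV

/-- The family defining the stable normal closure is transported by isomorphisms. -/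
theorem stableNormalClosure_map_le {S S' : Type u} [Group S] [Group S'] (p : ℕ) (η : S ≃* S') :
    (Cfsg.stableNormalClosure p S).map η.toMonoidHom ≤ Cfsg.stableNormalClosure p S' := by
  unfold Cfsg.stableNormalClosure
  apply le_sInf
  rintro W' ⟨hW1, hW2⟩
  rw [Subgroup.map_le_iff_le_comap]
  apply sInf_le
  refine ⟨?_, ?_⟩
  · rw [← Subgroup.map_le_iff_le_comap]
    exact (omegaOne_center_map_le p η).trans hW1
  · intro H _ τ hτ
    have h := hW2 H (τ.comp η.symm.toMonoidHom) (isStableEmbedding_comp p η τ hτ)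
    rw [← Subgroup.map_map, Subgroup.map_equiv_eq_comap_symm' η.symm W'] at h
    exact h

theorem stableNormalClosure_map_eq {S S' : Type u} [Group S] [Group S'] (p : ℕ) (η : S ≃* S') :
    (Cfsg.stableNormalClosure p S).map η.toMonoidHom = Cfsg.stableNormalClosure p S' := by
  apply le_antisymm (stableNormalClosure_map_le p η)
  have h := stableNormalClosure_map_le p η.symm
  intro x hx
  refine ⟨η.symm x, h ⟨x, hx, rfl⟩, by simp⟩

/-- `Ω₁(Z(S)) ≤ Ω₁(Z(J(S)))` in a finite group. -/
theorem omegaOne_center_le_omegaCenterThompson {S : Type u} [Group S] [Finite S] (p : ℕ) :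
    Cfsg.omegaOne p (Subgroup.center S) ≤ Cfsg.omegaCenterThompson p S := by
  unfold Cfsg.omegaCenterThompson Cfsg.omegaOne
  apply Subgroup.closure_mono
  rintro x ⟨hx1, hx2⟩
  obtain ⟨A, hA⟩ := maxElementaryAbelian_nonempty (G := S) p
  refine ⟨Subgroup.mem_inf.mpr ⟨?_, ?_⟩, hx2⟩
  · have hxA : x ∈ A := mem_of_mem_center_of_pow_eq_one hA
      (Subgroup.center_le_centralizer _ hx1) hx2
    exact (le_sSup hA : A ≤ Cfsg.thompsonSubgroup p S) hxA
  · exact Subgroup.center_le_centralizer _ hx1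

/-- The image of `Ω₁(Z(J(S)))` under a stable embedding is normal. -/
theorem omegaCenterThompson_map_normal {S H : Type u} [Group S] [Group H] (p : ℕ)
    (τ : S →* H) (hτ : Cfsg.IsStableEmbedding p τ) :
    ((Cfsg.omegaCenterThompson p S).map τ).Normal := by
  obtain ⟨h1, h2, -, h4, h5, h6⟩ := hτ
  unfold Cfsg.omegaCenterThompson Cfsg.omegaOne
  rw [MonoidHom.map_closure]
  apply closure_normal_of_conj_mem
  rintro g _ ⟨x, ⟨hx12, hx3⟩, rfl⟩
  obtain ⟨hx1, hx2⟩ := Subgroup.mem_inf.mp hx12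
  have hconj : g * τ x * g⁻¹ ∈ (Cfsg.thompsonSubgroup p S).map τ := h5.conj_mem _ ⟨x, hx1, rfl⟩ g
  obtain ⟨x', hx'1, hx'2⟩ := hconj
  refine ⟨x', ⟨Subgroup.mem_inf.mpr ⟨hx'1, ?_⟩, ?_⟩, hx'2⟩
  · rw [Subgroup.mem_centralizer_iff]
    intro y hy
    apply h1
    rw [map_mul, map_mul, hx'2]
    have hconj2 : g⁻¹ * τ y * g⁻¹⁻¹ ∈ (Cfsg.thompsonSubgroup p S).map τ :=
      h5.conj_mem _ ⟨y, hy, rfl⟩ g⁻¹
    obtain ⟨y', hy'1, hy'2⟩ := hconj2
    rw [Subgroup.mem_centralizer_iff] at hx2
    have hc := hx2 y' hy'1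
    have hc' : τ y' * τ x = τ x * τ y' := by rw [← map_mul, ← map_mul, hc]
    have hy3 : τ y = g * τ y' * g⁻¹ := by rw [hy'2]; group
    rw [hy3]
    calc g * τ y' * g⁻¹ * (g * τ x * g⁻¹) = g * (τ y' * τ x) * g⁻¹ := by group
      _ = g * (τ x * τ y') * g⁻¹ := by rw [hc']
      _ = g * τ x * g⁻¹ * (g * τ y' * g⁻¹) := by group
  · apply h1
    rw [map_pow, hx'2, conj_pow, ← map_pow, hx3, map_one]
    simp

/-- Basic properties of the stable normal closure W(S) of Ω₁(Z(S)) in a finite p-group: characteristic, squeezed between Ω₁(Z(S)) and Ω₁(Z(J(S))), nontrivial for S ≠ 1, and transported by group isomorphisms. -/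
theorem result {S : Type u} [Group S] [Finite S] {p : ℕ} [Fact p.Prime] (hS : IsPGroup p S) : (Cfsg.stableNormalClosure p S).Characteristic ∧ Cfsg.omegaOne p (Subgroup.center S) ≤ Cfsg.stableNormalClosure p S ∧ Cfsg.stableNormalClosure p S ≤ Cfsg.omegaCenterThompson p S ∧ (Nontrivial S → Cfsg.stableNormalClosure p S ≠ ⊥) ∧ ∀ (S' : Type u) [Group S'] (η : S ≃* S'), (Cfsg.stableNormalClosure p S).map η.toMonoidHom = Cfsg.stableNormalClosure p S' := by
  have hle : Cfsg.omegaOne p (Subgroup.center S) ≤ Cfsg.stableNormalClosure p S := by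
    unfold Cfsg.stableNormalClosure
    apply le_sInf
    rintro W ⟨hW1, -⟩
    exact hW1
  refine ⟨?_, hle, ?_, ?_, ?_⟩
  · rw [Subgroup.characteristic_iff_map_eq]
    intro ϕ
    exact stableNormalClosure_map_eq p ϕ
  · unfold Cfsg.stableNormalClosure
    apply sInf_le
    refine ⟨omegaOne_center_le_omegaCenterThompson p, ?_⟩
    intro H _ τ hτ
    exact omegaCenterThompson_map_normal p τ hτ
  · intro hnt hbot
    haveI := hnt
    have hcn : Nontrivial (Subgroup.center S) := hS.center_nontrivial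
    have hcp : IsPGroup p (Subgroup.center S) := hS.to_subgroup _
    obtain ⟨k, hk⟩ := IsPGroup.iff_card.mp hcp
    have hk0 : k ≠ 0 := by
      rintro rfl
      rw [pow_zero] at hk
      have := (Nat.card_eq_one_iff_unique.mp hk).1
      exact not_subsingleton _ this
    have hdvd : p ∣ Nat.card (Subgroup.center S) := by
      rw [hk]; exact dvd_pow_self p hk0
    obtain ⟨z, hz⟩ := exists_prime_orderOf_dvd_card' (G := Subgroup.center S) p hdvd
    have hz1 : (z : S) ∈ Cfsg.omegaOne p (Subgroup.center S) := by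
      unfold Cfsg.omegaOne
      apply Subgroup.subset_closure
      refine ⟨z.2, ?_⟩
      have : z ^ p = 1 := by rw [← hz]; exact pow_orderOf_eq_one z
      exact_mod_cast congrArg Subtype.val this
    have hz2 := hle hz1
    rw [hbot, Subgroup.mem_bot] at hz2
    have hz3 : z = 1 := Subtype.ext hz2
    rw [hz3, orderOf_one] at hz
    exact (Fact.out : p.Prime).one_lt.ne' hz.symm
  · intro S' _ η
    exact stableNormalClosure_map_eq p η

end Cfsg.Agent.S0622
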