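import Cfsg.Statements.S0623
import Cfsg.Agent.S0622
import Cfsg.Agent.H14.Cores

set_option autoImplicit false
universe u
open Cfsg
open scoped commutatorElement

namespace Cfsg.Agent.S0623

open Cfsg.Agent.H14

/-- `[M, X] ≤ [M, Y]` when `X ≤ Y C` with `C` normal centralizing `M`. -/
theorem commutator_le_of_le_sup_centralizer {H : Type*} [Group H] (M X Y C : Subgroup H) [C.Normal]
    (hC : C ≤ Subgroup.centralizer (M : Set H)) (hX : X ≤ Y ⊔ C) : ⁅M, X⁆ ≤ ⁅M, Y⁆ := by
  rw [Subgroup.commutator_le]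
  intro m hm x hx
  obtain ⟨y, hy, c, hc, rfl⟩ := Subgroup.mem_sup_of_normal_right.mp (hX hx)
  have hcm := hC hc
  rw [Subgroup.mem_centralizer_iff] at hcm
  have h1 : Commute c m⁻¹ := Commute.inv_right (hcm m hm).symm
  have e : ⁅m, y * c⁆ = ⁅m, y⁆ := by
    simp only [commutatorElement_def]
    calc m * (y * c) * m⁻¹ * (y * c)⁻¹ = m * y * (c * m⁻¹) * c⁻¹ * y⁻¹ := by group
      _ = m * y * (m⁻¹ * c) * c⁻¹ * y⁻¹ := by rw [h1.eq]
      _ = m * y * m⁻¹ * y⁻¹ := by group
  rw [e]
  exact Subgroup.commutator_mem_commutator hm hy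

theorem map_conj_eq_of_normal {H : Type*} [Group H] (N : Subgroup H) [hN : N.Normal] (h : H) :
    N.map (MulAut.conj h).toMonoidHom = N := by
  ext x
  constructor
  · rintro ⟨n, hn, rfl⟩
    exact hN.conj_mem n hn h
  · intro hx
    have h1 := hN.conj_mem x hx h⁻¹
    refine ⟨h⁻¹ * x * h⁻¹⁻¹, h1, ?_⟩
    simp [MulAut.conj_apply, mul_assoc]

/-- No element of `S` acts quadratically and nontrivially on `U`. -/
def NoQuad {S : Type u} [Group S] (U : Subgroup S) : Prop :=
  ∀ y : S, ⁅⁅U, Subgroup.zpowers y⁆, Subgroup.zpowers y⁆ = ⊥ → ⁅U, Subgroup.zpowers y⁆ = ⊥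

/-- The largest subgroup of `W(S)` on which no element acts quadratically and nontrivially. -/
def bigNoQuad (p : ℕ) (S : Type u) [Group S] : Subgroup S :=
  sSup {U | U ≤ Cfsg.stableNormalClosure p S ∧ NoQuad U}

theorem bigNoQuad_le (p : ℕ) (S : Type u) [Group S] :
    bigNoQuad p S ≤ Cfsg.stableNormalClosure p S :=
  sSup_le (fun _ hU => hU.1)

theorem noQuad_bigNoQuad (p : ℕ) (S : Type u) [Group S] : NoQuad (bigNoQuad p S) := by
  intro y hy
  rw [Subgroup.commutator_eq_bot_iff_le_centralizer]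
  apply sSup_le
  rintro U ⟨hU1, hU2⟩
  rw [← Subgroup.commutator_eq_bot_iff_le_centralizer]
  apply hU2
  rw [eq_bot_iff, ← hy]
  have : U ≤ bigNoQuad p S := le_sSup ⟨hU1, hU2⟩
  exact Subgroup.commutator_mono (Subgroup.commutator_mono this le_rfl) le_rfl

theorem stableNormalClosure_map_normal {S H : Type u} [Group S] [Group H] [Finite S] (p : ℕ)
    [Fact p.Prime] (hS : IsPGroup p S) (τ : S →* H) (hτ : Cfsg.IsStableEmbedding p τ) :
    ((Cfsg.stableNormalClosure p S).map τ).Normal := by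
  have hinj := hτ.1
  have hΩn := Cfsg.Agent.S0622.omegaCenterThompson_map_normal p τ hτ
  obtain ⟨-, -, hWJ, -, -⟩ := Cfsg.Agent.S0622.result (p := p) hS
  constructor
  rintro _ ⟨w, hw, rfl⟩ g
  obtain ⟨w', hw', e⟩ := hΩn.conj_mem _ ⟨w, hWJ hw, rfl⟩ g
  refine ⟨w', ?_, e⟩
  change w' ∈ Cfsg.stableNormalClosure p S
  replace hw : w ∈ Cfsg.stableNormalClosure p S := hw
  unfold Cfsg.stableNormalClosure at hw ⊢
  rw [Subgroup.mem_sInf] at hw ⊢
  rintro W' ⟨hW'1, hW'2⟩
  have hw1 : w ∈ W' := hw W' ⟨hW'1, hW'2⟩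
  obtain ⟨w'', hw'', e'⟩ := (hW'2 H τ hτ).conj_mem _ ⟨w, hw1, rfl⟩ g
  have : w'' = w' := hinj (e'.trans e.symm)
  rw [← this]; exact hw''

theorem bigNoQuad_map_normal {S H : Type u} [Group S] [Group H] [Finite S] (p : ℕ)
    [Fact p.Prime] (hS : IsPGroup p S) (τ : S →* H) (hτ : Cfsg.IsStableEmbedding p τ) :
    ((bigNoQuad p S).map τ).Normal := by
  have hWn := stableNormalClosure_map_normal p hS τ hτ
  obtain ⟨hinj, hfin, ⟨P, hP⟩, h4, h5, h6⟩ := hτ
  haveI := hfin
  obtain ⟨-, hWO, hWJ, -, -⟩ := Cfsg.Agent.S0622.result (p := p) hS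
  set N := Subgroup.normalClosure (((bigNoQuad p S).map τ : Subgroup H) : Set H) with hN
  have hNW : N ≤ (Cfsg.stableNormalClosure p S).map τ :=
    Subgroup.normalClosure_le_normal (Subgroup.map_mono (bigNoQuad_le p S))
  have hNΩ : N ≤ (Cfsg.omegaCenterThompson p S).map τ := hNW.trans (Subgroup.map_mono hWJ)
  have hNr : N ≤ τ.range := hNW.trans (Subgroup.map_le_range τ _)
  have hM : (bigNoQuad p S).map τ ≤ N := Subgroup.le_normalClosure
  have hUN : (N.comap τ).map τ = N := by
    rw [Subgroup.map_comap_eq]; exact inf_eq_right.mpr hNr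
  have hUW : N.comap τ ≤ Cfsg.stableNormalClosure p S := by
    intro u hu
    obtain ⟨w, hw, e⟩ := hNW (Subgroup.mem_comap.mp hu)
    rw [← hinj e]; exact hw
  have hW₀U : bigNoQuad p S ≤ N.comap τ := by
    intro w hw
    exact hM ⟨w, hw, rfl⟩
  have hPU : NoQuad (N.comap τ) := by
    intro y hy
    have hq' : ⁅⁅N, Subgroup.zpowers (τ y)⁆, Subgroup.zpowers (τ y)⁆ = ⊥ := by
      rw [← hUN, ← MonoidHom.map_zpowers, ← Subgroup.map_commutator, ← Subgroup.map_commutator,
        hy, Subgroup.map_bot]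
    have hst := h6 N hNΩ (τ y) hq'
    have claim : ∀ h : H, ⁅(bigNoQuad p S).map τ, Subgroup.zpowers (h * τ y * h⁻¹)⁆ = ⊥ := by
      intro h
      have hd : (QuotientGroup.mk (h * τ y * h⁻¹) : H ⧸ Subgroup.centralizer (N : Set H)) ∈
          pCore p (H ⧸ Subgroup.centralizer (N : Set H)) := by
        have := (pCore_normal p (H ⧸ Subgroup.centralizer (N : Set H))).conj_mem _ hst
          (QuotientGroup.mk h)
        simpa using this
      have hsurj : Function.Surjective (QuotientGroup.mk' (Subgroup.centralizer (N : Set H))) :=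
        QuotientGroup.mk'_surjective _
      have hle := (pCore_isPGroup p (H ⧸ Subgroup.centralizer (N : Set H))).le_sylow_of_normal
        (Sylow.mapSurjective hsurj P)
      have hd' : (QuotientGroup.mk (h * τ y * h⁻¹) : H ⧸ Subgroup.centralizer (N : Set H)) ∈
          (P : Subgroup H).map (QuotientGroup.mk' (Subgroup.centralizer (N : Set H))) := by
        rw [← Sylow.coe_mapSurjective hsurj P]
        exact hle hd
      obtain ⟨t, ht, e⟩ := hd'
      rw [hP] at ht
      obtain ⟨s, rfl⟩ := ht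
      have hc : (τ s)⁻¹ * (h * τ y * h⁻¹) ∈ Subgroup.centralizer (N : Set H) :=
        QuotientGroup.eq.mp e
      have hqd : ⁅⁅N, Subgroup.zpowers (h * τ y * h⁻¹)⁆, Subgroup.zpowers (h * τ y * h⁻¹)⁆ = ⊥ := by
        have h7 := congrArg (Subgroup.map (MulAut.conj h).toMonoidHom) hq'
        rw [Subgroup.map_commutator, Subgroup.map_commutator, MonoidHom.map_zpowers,
          map_conj_eq_of_normal, Subgroup.map_bot] at h7
        exact h7
      generalize h * τ y * h⁻¹ = d at hc hd e hqd ⊢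
      have hdc : d = τ s * ((τ s)⁻¹ * d) := by group
      generalize (τ s)⁻¹ * d = c at hc hdc
      have hCN : Subgroup.centralizer (N : Set H) ≤
          Subgroup.centralizer (((bigNoQuad p S).map τ : Subgroup H) : Set H) :=
        Subgroup.centralizer_le hM
      have hX : Subgroup.zpowers (τ s) ≤ Subgroup.zpowers d ⊔ Subgroup.centralizer (N : Set H) := by
        rw [Subgroup.zpowers_le]
        have e2 : τ s = d * c⁻¹ := by rw [hdc]; group
        rw [e2]
        exact mul_mem (Subgroup.mem_sup_left (Subgroup.mem_zpowers d))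
          (Subgroup.mem_sup_right (inv_mem hc))
      have hY : Subgroup.zpowers d ≤ Subgroup.zpowers (τ s) ⊔ Subgroup.centralizer (N : Set H) := by
        rw [Subgroup.zpowers_le, hdc]
        exact mul_mem (Subgroup.mem_sup_left (Subgroup.mem_zpowers _)) (Subgroup.mem_sup_right hc)
      have h1 : ⁅(bigNoQuad p S).map τ, Subgroup.zpowers (τ s)⁆ ≤
          ⁅(bigNoQuad p S).map τ, Subgroup.zpowers d⁆ :=
        commutator_le_of_le_sup_centralizer _ _ _ _ hCN hX
      have hM' : ⁅(bigNoQuad p S).map τ, Subgroup.zpowers (τ s)⁆ ≤ N :=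
        (Subgroup.commutator_mono hM le_top).trans (Subgroup.commutator_le_left N ⊤)
      have hCN' : Subgroup.centralizer (N : Set H) ≤ Subgroup.centralizer
          ((⁅(bigNoQuad p S).map τ, Subgroup.zpowers (τ s)⁆ : Subgroup H) : Set H) :=
        Subgroup.centralizer_le hM'
      have h2 : ⁅⁅(bigNoQuad p S).map τ, Subgroup.zpowers (τ s)⁆, Subgroup.zpowers (τ s)⁆ = ⊥ := by
        rw [eq_bot_iff, ← hqd]
        calc ⁅⁅(bigNoQuad p S).map τ, Subgroup.zpowers (τ s)⁆, Subgroup.zpowers (τ s)⁆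
            ≤ ⁅⁅(bigNoQuad p S).map τ, Subgroup.zpowers (τ s)⁆, Subgroup.zpowers d⁆ :=
              commutator_le_of_le_sup_centralizer _ _ _ _ hCN' hX
          _ ≤ ⁅⁅N, Subgroup.zpowers d⁆, Subgroup.zpowers d⁆ :=
              Subgroup.commutator_mono (h1.trans (Subgroup.commutator_mono hM le_rfl)) le_rfl
      have h3 : ⁅⁅bigNoQuad p S, Subgroup.zpowers s⁆, Subgroup.zpowers s⁆ = ⊥ := by
        rw [← Subgroup.map_eq_bot_iff_of_injective _ hinj, Subgroup.map_commutator,
          Subgroup.map_commutator, MonoidHom.map_zpowers]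
        exact h2
      have h4' := noQuad_bigNoQuad p S s h3
      have h5' : ⁅(bigNoQuad p S).map τ, Subgroup.zpowers (τ s)⁆ = ⊥ := by
        rw [← MonoidHom.map_zpowers, ← Subgroup.map_commutator, h4', Subgroup.map_bot]
      rw [eq_bot_iff, ← h5']
      exact commutator_le_of_le_sup_centralizer _ _ _ _ hCN hY
    have hcent : N ≤ Subgroup.centralizer ((Subgroup.zpowers (τ y) : Subgroup H) : Set H) := by
      rw [hN]
      unfold Subgroup.normalClosure
      rw [Subgroup.closure_le]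
      intro g hg
      obtain ⟨m, hm, hmg⟩ := Group.mem_conjugatesOfSet_iff.mp hg
      obtain ⟨k, rfl⟩ := isConj_iff.mp hmg
      have hk := claim k⁻¹
      have hk2 := congrArg (Subgroup.map (MulAut.conj k).toMonoidHom) hk
      rw [Subgroup.map_commutator, MonoidHom.map_zpowers, Subgroup.map_bot] at hk2
      have e : (MulAut.conj k).toMonoidHom (k⁻¹ * τ y * k⁻¹⁻¹) = τ y := by
        simp [MulAut.conj_apply, mul_assoc]
      rw [e, Subgroup.commutator_eq_bot_iff_le_centralizer] at hk2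
      exact hk2 ⟨m, hm, rfl⟩
    rw [← Subgroup.map_eq_bot_iff_of_injective _ hinj, Subgroup.map_commutator,
      MonoidHom.map_zpowers, hUN]
    exact Subgroup.commutator_eq_bot_iff_le_centralizer.mpr hcent
  have hUle : N.comap τ ≤ bigNoQuad p S := le_sSup ⟨hUW, hPU⟩
  have hUeq : N.comap τ = bigNoQuad p S := le_antisymm hUle hW₀U
  have : (bigNoQuad p S).map τ = N := by rw [← hUeq, hUN]
  rw [this]; infer_instance

theorem main {S : Type u} [Group S] [Finite S] {p : ℕ} [Fact p.Prime] (hS : IsPGroup p S) (x : S)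
    (hq : ⁅⁅Cfsg.stableNormalClosure p S, Subgroup.zpowers x⁆, Subgroup.zpowers x⁆ = ⊥) :
    ⁅Cfsg.stableNormalClosure p S, Subgroup.zpowers x⁆ = ⊥ := by
  have hle : Cfsg.stableNormalClosure p S ≤ bigNoQuad p S := by
    unfold Cfsg.stableNormalClosure
    apply sInf_le
    refine ⟨?_, fun H _ τ hτ => bigNoQuad_map_normal p hS τ hτ⟩
    apply le_sSup
    refine ⟨(Cfsg.Agent.S0622.result hS).2.1, ?_⟩
    intro y _
    rw [Subgroup.commutator_eq_bot_iff_le_centralizer]
    unfold Cfsg.omegaOne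
    rw [Subgroup.closure_le]
    rintro z ⟨hz, -⟩
    exact Subgroup.center_le_centralizer _ hz
  have heq : Cfsg.stableNormalClosure p S = bigNoQuad p S := le_antisymm hle (bigNoQuad_le p S)
  have h1 := noQuad_bigNoQuad p S x
  rw [← heq] at h1
  exact h1 hq

/-- No element of a finite p-group acts quadratically and nontrivially on the stable normal closure W(S). -/
theorem result {S : Type*} [Group S] [Finite S] {p : ℕ} [Fact p.Prime] (hS : IsPGroup p S) (x : S) (hq : ⁅⁅Cfsg.stableNormalClosure p S, Subgroup.zpowers x⁆, Subgroup.zpowers x⁆ = ⊥) : ⁅Cfsg.stableNormalClosure p S, Subgroup.zpowers x⁆ = ⊥ := by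
  exact main hS x hq

end Cfsg.Agent.S0623
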