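import Cfsg.Statements.S0624
import Cfsg.Agent.H14.WNormal

set_option autoImplicit false
open Cfsg

namespace Cfsg.Agent.S0624

/-- The analogue of the ZJ-Theorem: in an action-p-stable group whose largest normal p-subgroup contains its centralizer, the characteristic subgroup W(S) of a Sylow p-subgroup S is normal. -/
theorem result {G : Type*} [Group G] [Finite G] {p : ℕ} [Fact p.Prime] (hst : Cfsg.IsActionPStable p G) (hc : Subgroup.centralizer (Cfsg.pCore p G : Set G) ≤ Cfsg.pCore p G) (S : Sylow p G) : (((Cfsg.stableNormalClosure p ↥(S : Subgroup G)).map (S : Subgroup G).subtype)).Normal := by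
  obtain ⟨hst1, hst2, hst3⟩ := hst
  have hWQ := H14.wOf_le_pCore hst2 hc S
  have hVel := H14.vOf_elemAb S hWQ
  have hJ := H14.thompson_le_centralizer_vOf S hWQ (hst1 (H14.vOf S) hVel)
  have hN := H14.normalizer_thompson_le_normalizer_wOf S hc (hst3 S)
  constructor
  intro w hw g
  obtain ⟨c, hcC, n, hn, rfl⟩ := H14.frattini_thompson
    (Subgroup.centralizer ((H14.vOf S : Subgroup G) : Set G)) hJ S g
  have h1 : n * w * n⁻¹ ∈ H14.wOf S := H14.conj_mem_of_mem_normalizer (hN hn) hw
  have h2 : c * (n * w * n⁻¹) = (n * w * n⁻¹) * c :=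
    ((Subgroup.mem_centralizer_iff.mp hcC) _ (Subgroup.le_normalClosure h1)).symm
  have e : c * n * w * (c * n)⁻¹ = n * w * n⁻¹ := by
    calc c * n * w * (c * n)⁻¹ = c * (n * w * n⁻¹) * c⁻¹ := by group
      _ = (n * w * n⁻¹) * c * c⁻¹ := by rw [h2]
      _ = n * w * n⁻¹ := by group
  rw [e]
  exact h1

end Cfsg.Agent.S0624
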