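import Cfsg.Statements.S0625
import Cfsg.Agent.H2.QuadPSolv
import Cfsg.Agent.H24.QuadStable

set_option autoImplicit false
open Cfsg

namespace Cfsg.Agent.S0625

open scoped commutatorElement
open Cfsg.Agent.H24.Quad

universe u

variable {G : Type u} [Group G] [Finite G] {p : ℕ} [Fact p.Prime]

/-- In a finite `p`-solvable group, `p ≥ 5`, the conjugation action on a normal elementary
abelian `p`-subgroup is `p`-stable. -/
theorem isPStableOn_of_psolv (hp : 5 ≤ p) (hsol : IsPSolvable p G) (V : Subgroup G) [V.Normal]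
    (hV : IsElementaryAbelian p V) : IsPStableOn p V := by
  intro a hq
  have hp2 : p ≠ 2 := by omega
  have hι : ∀ γ : G, (MonoidHom.id G) γ ∈ Subgroup.normalizer (V : Set G) := by
    intro γ
    rw [Subgroup.normalizer_eq_top]; trivial
  rcases Cfsg.Agent.H2.quad_normal_group_psolv hp2 V hV (MonoidHom.id G) hι a hq hsol with
    ⟨N, hN, haN, hNp⟩ | ⟨h3, -⟩
  · have hpg : IsPGroup p (N.map (QuotientGroup.mk' (Subgroup.centralizer (V : Set G)))) := by
      rintro ⟨z, g, hg, rfl⟩
      obtain ⟨k, hk⟩ := hNp g hg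
      refine ⟨k, Subtype.ext ?_⟩
      rw [Subgroup.coe_pow, Subgroup.coe_one, ← map_pow]
      exact (QuotientGroup.eq_one_iff _).mpr hk
    have hle : N.map (QuotientGroup.mk' (Subgroup.centralizer (V : Set G))) ≤
        pCore p (G ⧸ Subgroup.centralizer (V : Set G)) :=
      le_sSup ⟨hN.map _ (QuotientGroup.mk'_surjective _), hpg⟩
    exact hle ⟨a, haN, rfl⟩
  · omega

theorem isPStableOn_normalizer_thompson (hp : 5 ≤ p) (hsol : IsPSolvable p G) (S : Sylow p G)
    (V : Subgroup ↥(Subgroup.normalizer (thompsonSubgroupOf p (S : Subgroup G) : Set G)))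
    [V.Normal]
    (hle : V.map (Subgroup.normalizer (thompsonSubgroupOf p (S : Subgroup G) : Set G)).subtype ≤
        (omegaCenterThompson p ↥(S : Subgroup G)).map (S : Subgroup G).subtype) :
    IsPStableOn p V := by
  have h1 : IsElementaryAbelian p
      ((omegaCenterThompson p ↥(S : Subgroup G)).map (S : Subgroup G).subtype) :=
    Cfsg.Agent.H13.ea_map _ (ea_omegaCenterThompson _)
  have h2 := Cfsg.Agent.H13.ea_mono hle h1
  have h3 := Cfsg.Agent.H13.ea_comap
    (Subgroup.normalizer (thompsonSubgroupOf p (S : Subgroup G) : Set G)).subtype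
    (Subgroup.subtype_injective _) h2
  rw [Subgroup.comap_map_eq_self_of_injective (Subgroup.subtype_injective _)] at h3
  exact isPStableOn_of_psolv hp (Cfsg.Agent.H73.isPSolvable_subgroup hsol _) V h3

theorem isPStableOnSection_of_psolv (hp : 5 ≤ p) (hsol : IsPSolvable p G) :
    IsPStableOnSection p (pCore p G) ((frattini ↥(pCore p G)).map (pCore p G).subtype) := by
  intro a hq
  set K := pCore p G with hK
  set Nf := (frattini ↥K).map K.subtype with hNf
  have hKp : IsPGroup p K := Cfsg.Agent.H13.pCore_isPGroup p G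
  obtain ⟨hcomm, hpow⟩ := Cfsg.Agent.S0012.result p hKp
  have hsurj := QuotientGroup.mk'_surjective Nf
  have hKbn : (K.map (QuotientGroup.mk' Nf)).Normal :=
    (inferInstance : K.Normal).map _ hsurj
  have hea : IsElementaryAbelian p (K.map (QuotientGroup.mk' Nf)) := by
    rw [Cfsg.Agent.H13.ea_iff]
    constructor
    · rintro _ ⟨x, hx, rfl⟩ _ ⟨y, hy, rfl⟩
      have h1 : ⁅(⟨x, hx⟩ : K), ⟨y, hy⟩⁆ ∈ commutator K := by
        rw [commutator_def]
        exact Subgroup.commutator_mem_commutator (Subgroup.mem_top _) (Subgroup.mem_top _)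
      have h2 : ⁅x, y⁆ ∈ Nf := ⟨_, hcomm h1, rfl⟩
      have h3 : QuotientGroup.mk' Nf ⁅x, y⁆ = 1 := (QuotientGroup.eq_one_iff _).mpr h2
      rw [commutatorElement_def, map_mul, map_mul, map_mul, map_inv, map_inv,
        mul_inv_eq_one, mul_inv_eq_iff_eq_mul] at h3
      exact h3
    · rintro _ ⟨x, hx, rfl⟩
      have h2 : x ^ p ∈ Nf := ⟨_, hpow ⟨x, hx⟩, rfl⟩
      rw [← map_pow]
      exact (QuotientGroup.eq_one_iff _).mpr h2
  have hqb : ⁅⁅K.map (QuotientGroup.mk' Nf), Subgroup.zpowers (QuotientGroup.mk' Nf a)⁆,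
      Subgroup.zpowers (QuotientGroup.mk' Nf a)⁆ = ⊥ := by
    rw [← MonoidHom.map_zpowers, ← Subgroup.map_commutator, ← Subgroup.map_commutator,
      eq_bot_iff, ← QuotientGroup.map_mk'_self Nf]
    exact Subgroup.map_mono hq
  have hst := isPStableOn_of_psolv hp (Cfsg.Agent.H14.isPSolvable_of_surjective p _ hsurj hsol)
    (K.map (QuotientGroup.mk' Nf)) hea (QuotientGroup.mk' Nf a) hqb
  set Cb := Subgroup.centralizer ((K.map (QuotientGroup.mk' Nf) : Subgroup (G ⧸ Nf)) : Set (G ⧸ Nf))
    with hCb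
  refine ⟨((pCore p ((G ⧸ Nf) ⧸ Cb)).comap (QuotientGroup.mk' Cb)).comap (QuotientGroup.mk' Nf),
    ((Cfsg.Agent.H13.pCore_normal p _).comap _).comap _, ?_, ?_, hst⟩
  · unfold sectionKernel
    apply Subgroup.comap_mono
    intro x hx
    rw [Subgroup.mem_comap]
    have : QuotientGroup.mk' Cb x = 1 := (QuotientGroup.eq_one_iff _).mpr hx
    rw [this]; exact Subgroup.one_mem _
  · unfold sectionKernel
    obtain ⟨k, hk⟩ := (Cfsg.Agent.H13.pCore_isPGroup p ((G ⧸ Nf) ⧸ Cb)).exists_card_eq
    refine ⟨k, ?_⟩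
    rw [Subgroup.relIndex_comap, Subgroup.map_comap_eq_self_of_surjective hsurj]
    exact (relIndex_comap_mk' Cb _).trans hk

theorem isActionPStable_of_psolv (hp : 5 ≤ p) (hsol : IsPSolvable p G) : IsActionPStable p G :=
  ⟨fun V _ hV => isPStableOn_of_psolv hp hsol V hV, isPStableOnSection_of_psolv hp hsol,
    fun S V _ hle => isPStableOn_normalizer_thompson hp hsol S V hle⟩

/-- A p-separable group with p at least 5 is p-stable in the action sense. -/
theorem result {G : Type*} [Group G] [Finite G] {p : ℕ} [Fact p.Prime] (hp : 5 ≤ p) (hsep : Cfsg.IsPSolvable p G) : Cfsg.IsActionPStable p G :=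
  isActionPStable_of_psolv hp hsep

end Cfsg.Agent.S0625
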