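import Cfsg.Statements.S0627
import Cfsg.Agent.S0625
import Cfsg.Agent.S0624
import Cfsg.Agent.S0622
import Cfsg.Agent.H40.PComp
import Cfsg.Agent.H14.Coprime
import Cfsg.Agent.H80.PSolvable

set_option autoImplicit false
open Cfsg

namespace Cfsg.Agent.S0627

/-- Frattini-type factorization (copied from helper29's `H29/ZJ.lean` to avoid an import
clash): if `K ⊴ G`, `C ≤ K` with `K / C` a `p`-group, then `G = N_G(S ∩ K) C` for every Sylow
`p`-subgroup `S`. -/
theorem normalizer_sup_eq_top_of_pquot {G : Type*} [Group G] [Finite G] {p : ℕ} [Fact p.Prime]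
    (S : Sylow p G) (K C : Subgroup G) [hK : K.Normal] [hC : C.Normal]
    (hq : ∀ x ∈ K, ∃ j : ℕ, x ^ (p ^ j) ∈ C) :
    Subgroup.normalizer (((S : Subgroup G) ⊓ K : Subgroup G) : Set G) ⊔ C = ⊤ := by
  have hF := Sylow.normalizer_sup_eq_top (Cfsg.Agent.H40.sylowInfNormal S K)
  rw [Cfsg.Agent.H40.coe_sylowInfNormal, Subgroup.subgroupOf_map_subtype] at hF
  have hquot : IsPGroup p (↥K ⧸ C.subgroupOf K) := by
    intro x
    obtain ⟨g, rfl⟩ := QuotientGroup.mk_surjective x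
    obtain ⟨j, hj⟩ := hq g g.2
    refine ⟨j, ?_⟩
    rw [← QuotientGroup.mk_pow]
    exact (QuotientGroup.eq_one_iff _).mpr (Subgroup.mem_subgroupOf.mpr (by simpa using hj))
  obtain ⟨j, hj⟩ := IsPGroup.iff_card.mp hquot
  have hrel : C.relIndex K = p ^ j := by
    rw [← hj]
    exact Subgroup.index_eq_card _
  have h1 : (C ⊔ ((S : Subgroup G) ⊓ K)).relIndex K ∣ p ^ j :=
    hrel ▸ Subgroup.relIndex_dvd_of_le_left K le_sup_left
  have h2 : (C ⊔ ((S : Subgroup G) ⊓ K)).relIndex K ∣ (S : Subgroup G).relIndex K := by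
    have := Subgroup.relIndex_dvd_of_le_left K
      (le_sup_right : (S : Subgroup G) ⊓ K ≤ C ⊔ ((S : Subgroup G) ⊓ K))
    rwa [Subgroup.inf_relIndex_right] at this
  have h3 : ¬ p ∣ (S : Subgroup G).relIndex K := Cfsg.Agent.H40.sylow_relIndex_normal_not_dvd S K
  obtain ⟨i, -, hi⟩ := (Nat.dvd_prime_pow (Fact.out : p.Prime)).mp h1
  have hi0 : i = 0 := by
    by_contra hne
    apply h3
    refine dvd_trans ?_ h2
    rw [hi]
    exact dvd_pow_self p hne
  rw [hi0, pow_zero] at hi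
  have hKle : K ≤ C ⊔ ((S : Subgroup G) ⊓ K) := Subgroup.relIndex_eq_one.mp hi
  rw [eq_top_iff, ← hF]
  apply sup_le le_sup_left
  refine hKle.trans (sup_le le_sup_right ?_)
  exact Subgroup.le_normalizer.trans le_sup_left

/-- In a p-separable group with p at least 5, the normalizer of W(S) supplements the largest normal subgroup of order prime to p. -/
theorem result {G : Type*} [Group G] [Finite G] {p : ℕ} [Fact p.Prime] (hp : 5 ≤ p) (hsep : Cfsg.IsPSolvable p G) (S : Sylow p G) : Cfsg.pPrimeCore p G ⊔ Subgroup.normalizer (((Cfsg.stableNormalClosure p ↥(S : Subgroup G)).map (S : Subgroup G).subtype) : Set G) = ⊤ := by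
  haveI hOn : (Cfsg.pPrimeCore p G).Normal := Cfsg.Agent.H80.pPrimeCore_normal p G
  have hOc : (Nat.card (Cfsg.pPrimeCore p G)).Coprime p := Cfsg.Agent.H80.pPrimeCore_coprime p G
  have hπs : Function.Surjective (QuotientGroup.mk' (Cfsg.pPrimeCore p G)) :=
    QuotientGroup.mk'_surjective _
  have hsolb : Cfsg.IsPSolvable p (G ⧸ Cfsg.pPrimeCore p G) :=
    Cfsg.Agent.H80.isPSolvable_quotient p _ hsep
  have hcore : Cfsg.pPrimeCore p (G ⧸ Cfsg.pPrimeCore p G) = ⊥ :=
    Cfsg.Agent.H80.pPrimeCore_quotient_eq_bot p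
  have hcb := Cfsg.Agent.H80.centralizer_pCore_le p hsolb hcore
  have hst : Cfsg.IsActionPStable p (G ⧸ Cfsg.pPrimeCore p G) := Cfsg.Agent.S0625.result hp hsolb
  have hnorm := Cfsg.Agent.S0624.result hst hcb (S.mapSurjective hπs)
  have hinj : ∀ x ∈ (S : Subgroup G), QuotientGroup.mk' (Cfsg.pPrimeCore p G) x = 1 → x = 1 := by
    intro x hx h1
    have h2 : x ∈ (S : Subgroup G) ⊓ Cfsg.pPrimeCore p G :=
      Subgroup.mem_inf.mpr ⟨hx, (QuotientGroup.eq_one_iff x).mp h1⟩
    rw [Cfsg.Agent.H14.pGroup_inf_coprime_eq_bot S.isPGroup' hOc, Subgroup.mem_bot] at h2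
    exact h2
  have hSbcoe : ((S.mapSurjective hπs : Sylow p (G ⧸ Cfsg.pPrimeCore p G)) :
      Subgroup (G ⧸ Cfsg.pPrimeCore p G)) =
      (S : Subgroup G).map (QuotientGroup.mk' (Cfsg.pPrimeCore p G)) := Sylow.coe_mapSurjective _ _
  let f : ↥(S : Subgroup G) →*
      ↥((S.mapSurjective hπs : Sylow p (G ⧸ Cfsg.pPrimeCore p G)) :
        Subgroup (G ⧸ Cfsg.pPrimeCore p G)) :=
    ((QuotientGroup.mk' (Cfsg.pPrimeCore p G)).comp (S : Subgroup G).subtype).codRestrict _
      (fun x => by rw [hSbcoe]; exact ⟨x, x.2, rfl⟩)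
  have hfbij : Function.Bijective f := by
    constructor
    · rw [injective_iff_map_eq_one]
      intro x hx
      have h1 : QuotientGroup.mk' (Cfsg.pPrimeCore p G) (x : G) = 1 := congrArg Subtype.val hx
      exact Subtype.ext (hinj x x.2 h1)
    · rintro ⟨y, hy⟩
      rw [hSbcoe] at hy
      obtain ⟨x, hx, rfl⟩ := hy
      exact ⟨⟨x, hx⟩, rfl⟩
  have htr := (Cfsg.Agent.S0622.result (p := p) S.isPGroup').2.2.2.2 _ (MulEquiv.ofBijective f hfbij)
  have hWmap : ((Cfsg.stableNormalClosure p ↥(S : Subgroup G)).map (S : Subgroup G).subtype).map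
      (QuotientGroup.mk' (Cfsg.pPrimeCore p G)) =
      (Cfsg.stableNormalClosure p ↥((S.mapSurjective hπs : Sylow p (G ⧸ Cfsg.pPrimeCore p G)) :
        Subgroup (G ⧸ Cfsg.pPrimeCore p G))).map
        ((S.mapSurjective hπs : Sylow p (G ⧸ Cfsg.pPrimeCore p G)) :
          Subgroup (G ⧸ Cfsg.pPrimeCore p G)).subtype := by
    rw [← htr, Subgroup.map_map, Subgroup.map_map]
    rfl
  rw [← hWmap] at hnorm
  have hWS : (Cfsg.stableNormalClosure p ↥(S : Subgroup G)).map (S : Subgroup G).subtype ≤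
      (S : Subgroup G) := Subgroup.map_subtype_le _
  haveI hMn : ((((Cfsg.stableNormalClosure p ↥(S : Subgroup G)).map (S : Subgroup G).subtype).map
      (QuotientGroup.mk' (Cfsg.pPrimeCore p G))).comap
      (QuotientGroup.mk' (Cfsg.pPrimeCore p G))).Normal := hnorm.comap _
  have hq : ∀ x ∈ (((Cfsg.stableNormalClosure p ↥(S : Subgroup G)).map
      (S : Subgroup G).subtype).map (QuotientGroup.mk' (Cfsg.pPrimeCore p G))).comap
      (QuotientGroup.mk' (Cfsg.pPrimeCore p G)), ∃ j : ℕ, x ^ (p ^ j) ∈ Cfsg.pPrimeCore p G := by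
    intro x hx
    obtain ⟨z, hz, hzx⟩ := hx
    obtain ⟨j, hj⟩ := (S.isPGroup'.to_le hWS) ⟨z, hz⟩
    refine ⟨j, ?_⟩
    have h1 := congrArg Subtype.val hj
    simp only [Subgroup.coe_pow, Subgroup.coe_one] at h1
    rw [← QuotientGroup.eq_one_iff, ← QuotientGroup.mk'_apply, map_pow, ← hzx, ← map_pow, h1,
      map_one]
  have h := normalizer_sup_eq_top_of_pquot S _ (Cfsg.pPrimeCore p G) hq
  have hPM : (S : Subgroup G) ⊓ (((Cfsg.stableNormalClosure p ↥(S : Subgroup G)).map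
      (S : Subgroup G).subtype).map (QuotientGroup.mk' (Cfsg.pPrimeCore p G))).comap
      (QuotientGroup.mk' (Cfsg.pPrimeCore p G)) =
      (Cfsg.stableNormalClosure p ↥(S : Subgroup G)).map (S : Subgroup G).subtype := by
    apply le_antisymm
    · intro x hx
      obtain ⟨z, hz, hzx⟩ := (Subgroup.mem_inf.mp hx).2
      have hzP : z ∈ (S : Subgroup G) := hWS hz
      have h1 : QuotientGroup.mk' (Cfsg.pPrimeCore p G) (z⁻¹ * x) = 1 := by
        rw [map_mul, map_inv, hzx, inv_mul_cancel]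
      have h2 := hinj _ (mul_mem (inv_mem hzP) (Subgroup.mem_inf.mp hx).1) h1
      rw [inv_mul_eq_one] at h2
      rw [← h2]; exact hz
    · exact le_inf hWS (fun z hz => ⟨z, hz, rfl⟩)
  rw [hPM] at h
  rw [sup_comm]; exact h

end Cfsg.Agent.S0627
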