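import Cfsg.Statements.S0631
import Cfsg.Agent.H28.PLocal3

namespace Cfsg.Agent.S0631

theorem result {G : Type*} [Group G] [Finite G] {p : ℕ} [Fact p.Prime] (hG : Cfsg.IsPConstrained p G) (P : Subgroup G) (hP : IsPGroup p P) : Cfsg.IsPConstrained p ↥(Subgroup.normalizer (P : Set G)) ∧ Cfsg.IsPConstrained p ↥(Subgroup.centralizer (P : Set G)) := by
  exact Cfsg.Agent.H28.isPConstrained_normalizer_centralizer p hG P hP

end Cfsg.Agent.S0631
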