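import Cfsg.Statements.S0633
import Cfsg.Agent.H66.HHQ

set_option autoImplicit false
set_option linter.style.haveILetI false
set_option linter.unusedVariables false
open Cfsg

namespace Cfsg.Agent.S0633

open Cfsg.Agent.H66

open scoped TensorProduct

theorem natDegree_X_sub_one_pow (F : Type*) [Field F] (r : ℕ) :
    ((Polynomial.X - 1 : Polynomial F) ^ r).natDegree = r := by
  have e : (Polynomial.X - 1 : Polynomial F) = Polynomial.X - Polynomial.C 1 := by
    rw [Polynomial.C_1]
  rw [e, Polynomial.natDegree_pow, Polynomial.natDegree_X_sub_C, mul_one]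

/-- Theorem B of Hall and Higman on the minimal polynomial of a p-element of order p^n in a p-solvable linear group on a nonzero vector space in characteristic p with no nontrivial normal p-subgroup: its degree is p^n, except when some p^n₀ - 1 (n₀ ≤ n) is a power of a prime q for which the Sylow q-subgroups are non-abelian, in which case the degree is at least p^(n-n₀)(p^n₀ - 1). -/
theorem result {F : Type*} [Field F] {p : ℕ} [Fact p.Prime] [CharP F p] {V : Type*} [AddCommGroup V] [Module F V] [FiniteDimensional F V] [Nontrivial V] (H : Subgroup (V ≃ₗ[F] V)) [Finite H] (hsol : Cfsg.IsPSolvable p H) (hOp : Cfsg.pCore p H = ⊥) (x : V ≃ₗ[F] V) (hx : x ∈ H) (n : ℕ) (hn : orderOf x = p ^ n) (r : ℕ) (hr : minpoly F (x : Module.End F V) = (Polynomial.X - 1) ^ r) : r = p ^ n ∨ ∃ n₀ q m : ℕ, 1 ≤ n₀ ∧ n₀ ≤ n ∧ q.Prime ∧ 1 ≤ m ∧ p ^ n₀ - 1 = q ^ m ∧ (∀ Q : Sylow q H, ¬ IsMulCommutative Q) ∧ p ^ (n - n₀) * (p ^ n₀ - 1) ≤ r := by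
  have hp : p.Prime := Fact.out
  let coeHom : (V ≃ₗ[F] V) →* Module.End F V :=
    { toFun := fun e => (e : Module.End F V)
      map_one' := rfl
      map_mul' := fun _ _ => rfl }
  have hcoe : ∀ e : V ≃ₗ[F] V, coeHom e = (e : Module.End F V) := fun e => rfl
  obtain ⟨X, hX⟩ : ∃ X : Module.End F V, X = (x : Module.End F V) := ⟨_, rfl⟩
  rw [← hX] at hr
  have hXpow : X ^ p ^ n = 1 := by
    rw [hX, ← hcoe, ← map_pow, ← hn, pow_orderOf_eq_one, map_one]
  have hXr : (X - 1) ^ r = 0 := by
    have h1 := minpoly.aeval F X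
    rw [hr] at h1
    simpa using h1
  have hrle : r ≤ p ^ n := by
    have h1 : (X - 1) ^ p ^ n = 0 := by
      rw [sub_one_pow_char_pow_alg (K := F) p n X, hXpow, sub_self]
    have h2 : minpoly F X ∣ (Polynomial.X - 1) ^ p ^ n := by
      apply minpoly.dvd
      simpa using h1
    rw [hr] at h2
    have hne : ((Polynomial.X - 1 : Polynomial F) ^ p ^ n) ≠ 0 := by
      intro h
      have := natDegree_X_sub_one_pow F (p ^ n)
      rw [h, Polynomial.natDegree_zero] at this
      exact (pow_pos hp.pos n).ne' this.symm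
    have h3 := Polynomial.natDegree_le_of_dvd h2 hne
    rwa [natDegree_X_sub_one_pow, natDegree_X_sub_one_pow] at h3
  rcases Nat.eq_zero_or_pos n with rfl | hnpos
  · left
    rw [pow_zero] at hn ⊢
    have hx1 : x = 1 := orderOf_eq_one_iff.mp hn
    have hX1 : X = 1 := by rw [hX, hx1]; rfl
    rw [hX1, minpoly.one] at hr
    have h1 := congrArg Polynomial.natDegree hr
    rw [natDegree_X_sub_one_pow] at h1
    have h2 := natDegree_X_sub_one_pow F 1
    rw [pow_one] at h2
    omega
  · obtain ⟨m, rfl⟩ : ∃ m, n = m + 1 := ⟨n - 1, by omega⟩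
    obtain ⟨ρ, hρ⟩ : ∃ ρ : ↥H →* Module.End (AlgebraicClosure F) (AlgebraicClosure F ⊗[F] V),
        ρ = (((Module.End.baseChangeHom F (AlgebraicClosure F) V :
          Module.End F V →ₐ[F] Module.End (AlgebraicClosure F) (AlgebraicClosure F ⊗[F] V)) :
          Module.End F V →* Module.End (AlgebraicClosure F) (AlgebraicClosure F ⊗[F] V)).comp
          coeHom).comp H.subtype := ⟨_, rfl⟩
    have hρapply : ∀ a : ↥H, ρ a =
        Module.End.baseChangeHom F (AlgebraicClosure F) V ((a : V ≃ₗ[F] V) : Module.End F V) := by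
      intro a; rw [hρ]; rfl
    have hρinj : Function.Injective ρ := by
      intro a b hab
      rw [hρapply, hρapply] at hab
      apply Subtype.ext
      apply LinearEquiv.toLinearMap_injective
      exact LinearMap.baseChangeHom_injective F V (AlgebraicClosure F) hab
    obtain ⟨g, hg⟩ : ∃ g : ↥H, g = ⟨x, hx⟩ := ⟨_, rfl⟩
    have hg1 : g ^ p ^ (m + 1) = 1 := by
      rw [hg]
      apply Subtype.ext
      show x ^ p ^ (m + 1) = 1
      rw [← hn]
      exact pow_orderOf_eq_one x
    have hg2 : g ^ p ^ m ≠ 1 := by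
      rw [hg]
      intro h
      have h1 : x ^ p ^ m = 1 := congrArg Subtype.val h
      have h2 := orderOf_dvd_of_pow_eq_one h1
      rw [hn] at h2
      have h3 := Nat.le_of_dvd (pow_pos hp.pos m) h2
      have h4 : p ^ m < p ^ (m + 1) := Nat.pow_lt_pow_right hp.one_lt (by omega)
      omega
    obtain ⟨N, hN, hcases⟩ := hhB_group hsol hOp ρ hρinj g m hg1 hg2
    have hρg : (ρ g - 1) ^ (N - 1) =
        Module.End.baseChangeHom F (AlgebraicClosure F) V ((X - 1) ^ (N - 1)) := by
      rw [map_pow, map_sub, map_one, hρapply, hg, hX]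
    have hXN : (X - 1) ^ (N - 1) ≠ 0 := by
      intro h
      apply hN
      rw [hρg, h, map_zero]
    have hNr : N ≤ r := by
      by_contra hcon
      push Not at hcon
      apply hXN
      have e : N - 1 = r + (N - 1 - r) := by omega
      rw [e, pow_add, hXr, zero_mul]
    rcases hcases with h | ⟨n₀, q, k, h1, h2, h3, h4, h5, h6, h7⟩
    · left
      omega
    · right
      exact ⟨n₀, q, k, h1, h2, h3, h4, h5, h6, by rw [← h7]; exact hNr⟩

end Cfsg.Agent.S0633
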