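import Cfsg.Statements.S0636
import Cfsg.Agent.H3.CyclicMax
import Cfsg.Agent.H3.Critical

set_option autoImplicit false
open Cfsg

namespace Cfsg.Agent.S0636

/-- For odd p, every non-cyclic normal subgroup of a p-group contains a normal elementary abelian subgroup of the whole group of order p². -/
theorem result {R : Type*} [Group R] [Finite R] {p : ℕ} [Fact p.Prime] (hp : p ≠ 2) (hR : IsPGroup p R) (S : Subgroup R) [S.Normal] (hS : ¬ IsCyclic S) : ∃ A : Subgroup R, A ≤ S ∧ A.Normal ∧ Cfsg.IsElementaryAbelian p A ∧ Nat.card A = p ^ 2 := by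
  have hpp : p.Prime := Fact.out
  -- a cyclic subgroup of `S`, normal in `R`, of maximal order
  let T := {A : Subgroup R // A.Normal ∧ IsCyclic A ∧ A ≤ S}
  haveI : Nonempty T := ⟨⟨⊥, inferInstance, inferInstance, bot_le⟩⟩
  obtain ⟨⟨A, hAn, hAc, hAS⟩, hmax⟩ := Finite.exists_max (fun A : T => Nat.card A.1)
  haveI := hAn
  have hAne : A ≠ S := by
    rintro rfl
    exact hS hAc
  have hQ : IsPGroup p (R ⧸ A) := hR.to_quotient A
  have hSbar_ne : S.map (QuotientGroup.mk' A) ≠ ⊥ := by
    intro h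
    apply hAne
    apply le_antisymm hAS
    intro s hs
    have h1 : (QuotientGroup.mk' A) s ∈ S.map (QuotientGroup.mk' A) := ⟨s, hs, rfl⟩
    rw [h, Subgroup.mem_bot] at h1
    exact (QuotientGroup.eq_one_iff s).mp h1
  haveI : (S.map (QuotientGroup.mk' A)).Normal :=
    Subgroup.Normal.map inferInstance _ (QuotientGroup.mk'_surjective A)
  obtain ⟨ζ, hζS, ⟨hζc, hζp⟩, hζ1⟩ :=
    Cfsg.Agent.H3.normal_exists_central_order_p hQ (S.map (QuotientGroup.mk' A)) hSbar_ne
  have hζo : orderOf ζ = p := orderOf_eq_prime hζp hζ1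
  have hZn : (Subgroup.zpowers ζ).Normal := by
    constructor
    intro n hn g
    have hnc' : n ∈ Subgroup.center (R ⧸ A) := by
      obtain ⟨i, rfl⟩ := hn
      exact Subgroup.zpow_mem _ hζc i
    have : g * n * g⁻¹ = n := by
      rw [(Subgroup.mem_center_iff.mp hnc') g, mul_inv_cancel_right]
    rw [this]; exact hn
  set B : Subgroup R := (Subgroup.zpowers ζ).comap (QuotientGroup.mk' A) with hB
  have hBn : B.Normal := hZn.comap _
  have hAB : A ≤ B := by
    intro a ha
    show (QuotientGroup.mk' A) a ∈ Subgroup.zpowers ζ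
    have : (QuotientGroup.mk' A) a = 1 := (QuotientGroup.eq_one_iff a).mpr ha
    rw [this]; exact Subgroup.one_mem _
  have hBS : B ≤ S := by
    intro b hb
    have h1 : (QuotientGroup.mk' A) b ∈ S.map (QuotientGroup.mk' A) :=
      (Subgroup.zpowers_le.mpr hζS) hb
    obtain ⟨s, hs, hsb⟩ := h1
    have h2 : s⁻¹ * b ∈ A := QuotientGroup.eq.mp hsb
    have h3 : b = s * (s⁻¹ * b) := by group
    rw [h3]; exact mul_mem hs (hAS h2)
  have hrel : A.relIndex B = p := by
    have hA : A = (⊥ : Subgroup (R ⧸ A)).comap (QuotientGroup.mk' A) := by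
      rw [MonoidHom.comap_bot, QuotientGroup.ker_mk']
    conv_lhs => rw [hA]
    rw [Subgroup.relIndex_comap, hB,
      Subgroup.map_comap_eq_self_of_surjective (QuotientGroup.mk'_surjective A),
      Subgroup.relIndex_bot_left, Nat.card_zpowers, hζo]
  have hcardB : Nat.card B = p * Nat.card A := by
    rw [← hrel]; exact (Cfsg.Agent.H3.relIndex_mul_card_of_le hAB).symm
  have hBnc : ¬ IsCyclic B := by
    intro hBc
    have := hmax ⟨B, hBn, hBc, hBS⟩
    simp only at this
    rw [hcardB] at this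
    have hpos : 0 < Nat.card A := Nat.card_pos
    have : 2 * Nat.card A ≤ p * Nat.card A := Nat.mul_le_mul_right _ hpp.two_le
    omega
  have hCc : IsCyclic (A.subgroupOf B) :=
    isCyclic_of_surjective (Subgroup.subgroupOfEquivOfLe hAB).symm
      (Subgroup.subgroupOfEquivOfLe hAB).symm.surjective
  have hCi : (A.subgroupOf B).index = p := hrel
  obtain ⟨hmul, hexp, hcard⟩ := Cfsg.Agent.H3.cyclic_index_p_main hp (hR.to_subgroup B) hBnc
    (A.subgroupOf B) hCc hCi
  set Ω : Subgroup B := Subgroup.closure {x : B | x ^ p = 1} with hΩ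
  have hcardE : Nat.card (Ω.map B.subtype) = p ^ 2 := by
    rw [Subgroup.card_map_of_injective B.subtype_injective]; exact hcard
  refine ⟨Ω.map B.subtype, (Subgroup.map_subtype_le _).trans hBS, ?_, ⟨?_, ?_⟩, hcardE⟩
  · constructor
    rintro _ ⟨b, hb, rfl⟩ g
    have hbp : b ^ p = 1 := hexp b hb
    have hmem : g * (b : R) * g⁻¹ ∈ B := hBn.conj_mem _ b.2 g
    refine ⟨⟨g * (b : R) * g⁻¹, hmem⟩, ?_, rfl⟩
    apply Subgroup.subset_closure
    show (⟨g * (b : R) * g⁻¹, hmem⟩ : B) ^ p = 1
    apply Subtype.ext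
    show (g * (b : R) * g⁻¹) ^ p = 1
    rw [conj_pow]
    have : (b : R) ^ p = 1 := by
      have := congrArg Subtype.val hbp
      simpa using this
    rw [this, mul_one, mul_inv_cancel]
  · exact IsPGroup.isMulCommutative_of_card_eq_prime_sq hcardE
  · rintro _ ⟨b, hb, rfl⟩
    have hbp : b ^ p = 1 := hexp b hb
    have := congrArg Subtype.val hbp
    simpa using this

end Cfsg.Agent.S0636
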