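import Cfsg.Statements.S0641

set_option autoImplicit false
open Cfsg

namespace Cfsg.Agent.S0641

theorem powerClosure_map_le {G H : Type*} [Group G] [Group H] (f : G →* H) (p n : ℕ) (K : Subgroup G) :
    (Cfsg.powerClosure p n K).map f ≤ Cfsg.powerClosure p n (K.map f) := by
  unfold Cfsg.powerClosure
  rw [MonoidHom.map_closure]
  apply Subgroup.closure_mono
  rintro _ ⟨y, ⟨x, hx, rfl⟩, rfl⟩
  exact ⟨f x, Subgroup.mem_map_of_mem f hx, by simp⟩

/-- Regularity of a p-group passes to quotient groups. -/
theorem result {G : Type*} [Group G] {p : ℕ} [Fact p.Prime] (hG : Cfsg.IsRegularPGroup p G) (N : Subgroup G) [N.Normal] : Cfsg.IsRegularPGroup p (G ⧸ N) := by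
  refine ⟨hG.1.to_quotient N, ?_⟩
  intro a b n
  induction a using QuotientGroup.induction_on with
  | H a =>
  induction b using QuotientGroup.induction_on with
  | H b =>
  obtain ⟨c, hc, hcab⟩ := hG.2 a b n
  refine ⟨(QuotientGroup.mk' N) c, ?_, ?_⟩
  · have h1 := powerClosure_map_le (QuotientGroup.mk' N) p n
      ⁅Subgroup.closure ({a, b} : Set G), Subgroup.closure ({a, b} : Set G)⁆
    have h2 := h1 (Subgroup.mem_map_of_mem _ hc)
    rw [Subgroup.map_commutator, MonoidHom.map_closure, Set.image_pair] at h2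
    exact h2
  · have := congrArg (QuotientGroup.mk' N) hcab
    simpa using this

end Cfsg.Agent.S0641
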