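import Cfsg.Statements.S0642

set_option autoImplicit false
open Cfsg
open scoped commutatorElement

namespace Cfsg.Agent.S0642

/-- The elements of the normalizer of `P` whose commutator with `y` lies in `P`. -/
def commSub {G : Type*} [Group G] (P : Subgroup G) (y : G) : Subgroup G where
  carrier := {x | x ∈ Subgroup.normalizer (P : Set G) ∧ ⁅x, y⁆ ∈ P}
  one_mem' := ⟨one_mem _, by simp⟩
  mul_mem' := by
    rintro x₁ x₂ ⟨h1, h1'⟩ ⟨h2, h2'⟩
    refine ⟨mul_mem h1 h2, ?_⟩
    have : ⁅x₁ * x₂, y⁆ = x₁ * ⁅x₂, y⁆ * x₁⁻¹ * ⁅x₁, y⁆ := by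
      simp only [commutatorElement_def]; group
    rw [this]
    exact mul_mem ((Subgroup.mem_normalizer_iff.mp h1 _).mp h2') h1'
  inv_mem' := by
    rintro x ⟨h1, h1'⟩
    refine ⟨inv_mem h1, ?_⟩
    have : ⁅x⁻¹, y⁆ = x⁻¹ * ⁅x, y⁆⁻¹ * x⁻¹⁻¹ := by
      simp only [commutatorElement_def]; group
    rw [this]
    exact (Subgroup.mem_normalizer_iff.mp (inv_mem h1) _).mp (inv_mem h1')

theorem mem_commSub {G : Type*} [Group G] (P : Subgroup G) (y x : G) :
    x ∈ commSub P y ↔ x ∈ Subgroup.normalizer (P : Set G) ∧ ⁅x, y⁆ ∈ P := Iff.rfl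

theorem commutator_closure_pair_le {G : Type*} [Group G] (P : Subgroup G) (a b : G)
    (hN : Subgroup.closure ({a, b} : Set G) ≤ Subgroup.normalizer (P : Set G))
    (hab : ⁅a, b⁆ ∈ P) :
    ⁅Subgroup.closure ({a, b} : Set G), Subgroup.closure ({a, b} : Set G)⁆ ≤ P := by
  have haH : a ∈ Subgroup.closure ({a, b} : Set G) := Subgroup.subset_closure (by simp)
  have hbH : b ∈ Subgroup.closure ({a, b} : Set G) := Subgroup.subset_closure (by simp)
  have haN := hN haH
  have hbN := hN hbH
  have hba : ⁅b, a⁆ ∈ P := by rw [← commutatorElement_inv]; exact inv_mem hab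
  have hHa : Subgroup.closure ({a, b} : Set G) ≤ commSub P a := by
    rw [Subgroup.closure_le]
    rintro x (rfl | rfl)
    · exact ⟨haN, by simp⟩
    · exact ⟨hbN, hba⟩
  have hHb : Subgroup.closure ({a, b} : Set G) ≤ commSub P b := by
    rw [Subgroup.closure_le]
    rintro x (rfl | rfl)
    · exact ⟨haN, hab⟩
    · exact ⟨hbN, by simp⟩
  rw [Subgroup.commutator_le]
  intro x hx y hy
  have hHy : Subgroup.closure ({a, b} : Set G) ≤ commSub P y := by
    rw [Subgroup.closure_le]
    rintro z (rfl | rfl)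
    · refine ⟨haN, ?_⟩
      rw [← commutatorElement_inv]; exact inv_mem (hHa hy).2
    · refine ⟨hbN, ?_⟩
      rw [← commutatorElement_inv]; exact inv_mem (hHb hy).2
  exact (hHy hx).2

theorem powerClosure_le {G : Type*} [Group G] (p n : ℕ) (D : Subgroup G) :
    Cfsg.powerClosure p n D ≤ D := by
  unfold Cfsg.powerClosure
  rw [Subgroup.closure_le]
  rintro _ ⟨x, hx, rfl⟩
  exact pow_mem hx _

theorem normalizer_le_normalizer_powerClosure {G : Type*} [Group G] (p n : ℕ) (D : Subgroup G) :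
    Subgroup.normalizer (D : Set G) ≤ Subgroup.normalizer (Cfsg.powerClosure p n D : Set G) := by
  unfold Cfsg.powerClosure
  rw [Subgroup.le_normalizer_closure_iff]
  rintro h hh _ ⟨x, hx, rfl⟩
  apply Subgroup.subset_closure
  refine ⟨h * x * h⁻¹, (Subgroup.mem_normalizer_iff.mp hh x).mp hx, ?_⟩
  rw [conj_pow]

/-- In a nontrivial finite 2-group the squares generate a proper subgroup. -/
theorem powerClosure_two_ne {G : Type*} [Group G] [Finite G] (hG : IsPGroup 2 G) (D : Subgroup G)
    (hD : D ≠ ⊥) : Cfsg.powerClosure 2 1 D ≠ D := by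
  intro heq
  have hDp : IsPGroup 2 D := hG.to_subgroup D
  obtain ⟨k, hk⟩ := IsPGroup.iff_card.mp hDp
  have hk0 : k ≠ 0 := by
    rintro rfl
    rw [pow_zero] at hk
    exact hD ((Subgroup.card_eq_one).mp hk)
  obtain ⟨K, hK⟩ := Sylow.exists_subgroup_card_pow_prime (G := D) 2 (n := k - 1)
    (by rw [hk]; exact pow_dvd_pow 2 (Nat.sub_le k 1))
  have hKi : K.index = 2 := by
    have h1 := K.card_mul_index
    rw [hK, hk] at h1
    have h2 : (2 : ℕ) ^ k = 2 ^ (k - 1) * 2 := by
      rw [← pow_succ]; congr 1; omega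
    rw [h2] at h1
    exact Nat.eq_of_mul_eq_mul_left (by positivity) h1
  have hle : Cfsg.powerClosure 2 1 D ≤ K.map D.subtype := by
    unfold Cfsg.powerClosure
    rw [Subgroup.closure_le]
    rintro _ ⟨x, hx, rfl⟩
    refine ⟨(⟨x, hx⟩ : D) ^ 2, ?_, ?_⟩
    · exact Subgroup.sq_mem_of_index_two hKi _
    · simp
  rw [heq] at hle
  have hcard : Nat.card D ≤ Nat.card (K.map D.subtype) := Subgroup.card_le_of_le hle
  rw [Subgroup.card_subtype D K, hK, hk] at hcard
  have : (2 : ℕ) ^ (k - 1) < 2 ^ k := Nat.pow_lt_pow_right (by norm_num) (by omega)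
  omega

/-- Among finite 2-groups the regular ones are exactly the abelian ones. -/
theorem result {G : Type*} [Group G] [Finite G] (hG : IsPGroup 2 G) : Cfsg.IsRegularPGroup 2 G ↔ ∀ a b : G, a * b = b * a := by
  constructor
  · intro hreg a b
    obtain ⟨c, hc, hcab⟩ := hreg.2 a b 1
    set H := Subgroup.closure ({a, b} : Set G) with hH
    set D := ⁅H, H⁆ with hD
    have haH : a ∈ H := Subgroup.subset_closure (by simp)
    have hbH : b ∈ H := Subgroup.subset_closure (by simp)
    have hHN : H ≤ Subgroup.normalizer (Cfsg.powerClosure 2 1 D : Set G) :=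
      (Subgroup.normalizer_commutator_ge_left (H₁ := H) (H₂ := H)).trans
        (normalizer_le_normalizer_powerClosure 2 1 D)
    have hc' : c = b⁻¹ * b⁻¹ * a⁻¹ * b * a * b := by
      have h1 : a * b * (a * b) = a * a * (b * b) * c := by
        simpa [pow_succ] using hcab
      have h2 : c = (a * a * (b * b))⁻¹ * (a * b * (a * b)) := by
        rw [h1]; group
      rw [h2]; group
    have hcomm : ⁅a, b⁆ ∈ Cfsg.powerClosure 2 1 D := by
      have h3 : ⁅a, b⁆ = (b * a * b) * c⁻¹ * (b * a * b)⁻¹ := by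
        rw [hc', commutatorElement_def]; group
      rw [h3]
      exact (Subgroup.mem_normalizer_iff.mp (hHN (mul_mem (mul_mem hbH haH) hbH)) _).mp (inv_mem hc)
    have hle : D ≤ Cfsg.powerClosure 2 1 D := commutator_closure_pair_le _ a b hHN hcomm
    have heq : Cfsg.powerClosure 2 1 D = D := le_antisymm (powerClosure_le 2 1 D) hle
    by_cases hDbot : D = ⊥
    · have : ⁅a, b⁆ ∈ D := Subgroup.commutator_mem_commutator haH hbH
      rw [hDbot, Subgroup.mem_bot] at this
      exact commutatorElement_eq_one_iff_mul_comm.mp this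
    · exact absurd heq (powerClosure_two_ne hG D hDbot)
  · intro hab
    refine ⟨hG, ?_⟩
    intro a b n
    refine ⟨1, one_mem _, ?_⟩
    rw [mul_one]
    exact (Commute.mul_pow (hab a b) _)

end Cfsg.Agent.S0642
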