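import Cfsg.Statements.S0645
import Cfsg.Agent.Helper55.ConjPow
import Cfsg.Agent.Helper55.PRankOne

set_option autoImplicit false
open Cfsg

namespace Cfsg.Agent.S0645

open Cfsg.Agent.Helper55

/-- Classification of p-groups with a cyclic maximal subgroup, odd p: a non-abelian one of order p^n has generators a of order p^(n-1) and b of order p, b outside the cyclic subgroup generated by a, with b a b⁻¹ = a^(1 + p^(n-2)). -/
theorem result {G : Type*} [Group G] [Finite G] {p : ℕ} [Fact p.Prime] (hp : p ≠ 2) (n : ℕ) (hn : 3 ≤ n) (hG : Nat.card G = p ^ n) (C : Subgroup G) (hC : IsCyclic C) (hCi : C.index = p) (hna : ∃ x y : G, x * y ≠ y * x) : ∃ a b : G, orderOf a = p ^ (n - 1) ∧ orderOf b = p ∧ b ∉ Subgroup.zpowers a ∧ b * a * b⁻¹ = a ^ (1 + p ^ (n - 2)) := by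
  classical
  have hpp : p.Prime := Fact.out
  have hPG : IsPGroup p G := IsPGroup.of_card hG
  have hn1 : n - 1 = (n - 2) + 1 := by omega
  have hcardC : Nat.card C = p ^ (n - 1) := by
    have h1 := Subgroup.card_mul_index C
    rw [hCi, hG] at h1
    have h2 : p ^ n = p ^ (n - 1) * p := by rw [← pow_succ]; congr 1; omega
    rw [h2] at h1
    exact Nat.eq_of_mul_eq_mul_right hpp.pos h1
  obtain ⟨c', hc'⟩ := hC.exists_generator
  set c : G := (c' : G) with hc
  have hordc : orderOf c = p ^ (n - 1) := by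
    rw [hc, Subgroup.orderOf_coe, orderOf_eq_card_of_forall_mem_zpowers hc', hcardC]
  have hCz : C = Subgroup.zpowers c := by
    ext y
    constructor
    · intro hy
      obtain ⟨k, hk⟩ := Subgroup.mem_zpowers_iff.mp (hc' ⟨y, hy⟩)
      refine Subgroup.mem_zpowers_iff.mpr ⟨k, ?_⟩
      have := congrArg Subtype.val hk
      simpa using this
    · intro hy
      obtain ⟨k, rfl⟩ := Subgroup.mem_zpowers_iff.mp hy
      exact C.zpow_mem c'.2 k
  have hncyc : ¬ IsCyclic G := by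
    intro h
    obtain ⟨x, y, hxy⟩ := hna
    exact hxy (mul_comm' x y)
  have hrk : ¬ Cfsg.PRankLE p 1 G := fun h => hncyc (isCyclic_of_pRankLE_one hp hPG h)
  unfold Cfsg.PRankLE at hrk
  push Not at hrk
  obtain ⟨A, hAc, hAexp, hAcard⟩ := hrk
  rw [pow_one] at hAcard
  obtain ⟨b₀, hb₀A, hb₀C⟩ : ∃ b₀ ∈ A, b₀ ∉ C := by
    by_contra hcon
    push Not at hcon
    have hAle : A ≤ Subgroup.zpowers (c ^ (p ^ (n - 2))) := by
      intro a ha
      have haC : a ∈ C := hcon a ha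
      rw [hCz] at haC
      obtain ⟨i, rfl⟩ := Subgroup.mem_zpowers_iff.mp haC
      have h1 : (c ^ i) ^ p = 1 := hAexp _ ha
      rw [← zpow_natCast, ← zpow_mul] at h1
      have h2 : ((orderOf c : ℕ) : ℤ) ∣ i * p := (orderOf_dvd_iff_zpow_eq_one).mpr h1
      rw [hordc] at h2
      have h3 : ((p ^ (n - 1) : ℕ) : ℤ) = (p : ℤ) ^ (n - 2) * p := by
        push_cast; rw [← pow_succ]; congr 1
      rw [h3] at h2
      have h4 : (p : ℤ) ^ (n - 2) ∣ i :=
        Int.dvd_of_mul_dvd_mul_right (by exact_mod_cast hpp.ne_zero) h2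
      obtain ⟨t, rfl⟩ := h4
      refine Subgroup.mem_zpowers_iff.mpr ⟨t, ?_⟩
      rw [← zpow_natCast, ← zpow_mul]
      push_cast
      rfl
    have hcardZ : Nat.card (Subgroup.zpowers (c ^ (p ^ (n - 2)))) = p := by
      rw [Nat.card_zpowers, orderOf_pow_of_dvd (pow_ne_zero _ hpp.ne_zero)
        (by rw [hordc]; exact pow_dvd_pow p (by omega)), hordc]
      have : p ^ (n - 1) = p ^ (n - 2) * p := by rw [← pow_succ]; congr 1
      rw [this, Nat.mul_div_cancel_left _ (pow_pos hpp.pos _)]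
    have := Subgroup.card_le_of_le hAle
    omega
  have hb₀p : b₀ ^ p = 1 := hAexp b₀ hb₀A
  have hb₀1 : b₀ ≠ 1 := fun h => hb₀C (h ▸ C.one_mem)
  have hordb₀ : orderOf b₀ = p := orderOf_eq_prime hb₀p hb₀1
  have hCn : C.Normal := by
    apply Subgroup.normal_of_index_eq_minFac_card
    rw [hCi, hG, hpp.pow_minFac (by omega)]
  have hconjC : b₀ * c * b₀⁻¹ ∈ C := hCn.conj_mem c c'.2 b₀
  rw [hCz] at hconjC
  obtain ⟨r, hr⟩ := Subgroup.mem_zpowers_iff.mp hconjC
  have hr' : b₀ * c * b₀⁻¹ = c ^ r := hr.symm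
  have h1 : c ^ (r ^ p) = c := by
    have := pow_conj_of_conj_eq hr' p
    rw [hb₀p] at this
    simpa using this.symm
  have hdvd1 : ((p : ℤ)) ^ (n - 1) ∣ r ^ p - 1 := by
    have h2 : c ^ (r ^ p - 1) = 1 := by rw [zpow_sub, h1, zpow_one, mul_inv_cancel]
    have := (orderOf_dvd_iff_zpow_eq_one).mpr h2
    rw [hordc] at this
    exact_mod_cast this
  have hnc : ¬ ((p : ℤ)) ^ (n - 1) ∣ r - 1 := by
    intro hd
    have h2 : c ^ (r - 1) = 1 := by
      apply (orderOf_dvd_iff_zpow_eq_one).mp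
      rw [hordc]; exact_mod_cast hd
    have h3 : c ^ r = c := by
      rw [zpow_sub, zpow_one, mul_inv_eq_one] at h2; exact h2
    have hcomm : b₀ * c = c * b₀ := by
      have : b₀ * c * b₀⁻¹ = c := by rw [hr', h3]
      calc b₀ * c = (b₀ * c * b₀⁻¹) * b₀ := by simp
        _ = c * b₀ := by rw [this]
    obtain ⟨x, y, hxy⟩ := hna
    apply hxy
    have htop : Subgroup.closure ({c, b₀} : Set G) = ⊤ := by
      have hle : C ≤ Subgroup.closure ({c, b₀} : Set G) := by
        rw [hCz, Subgroup.zpowers_le]; exact Subgroup.subset_closure (by simp)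
      have hb : b₀ ∈ Subgroup.closure ({c, b₀} : Set G) := Subgroup.subset_closure (by simp)
      by_contra hne
      have hd1 : Nat.card C ∣ Nat.card (Subgroup.closure ({c, b₀} : Set G)) :=
        Subgroup.card_dvd_of_le hle
      have hd2 : Nat.card (Subgroup.closure ({c, b₀} : Set G)) ∣ p ^ n :=
        hG ▸ Subgroup.card_subgroup_dvd_card _
      obtain ⟨k, hk, hk'⟩ := (Nat.dvd_prime_pow hpp).mp hd2
      rw [hk', hcardC] at hd1
      have hk2 : n - 1 ≤ k := (Nat.pow_dvd_pow_iff_le_right hpp.one_lt).mp hd1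
      rcases Nat.lt_or_ge k n with hlt | hge
      · have hkeq : k = n - 1 := by omega
        have : C = Subgroup.closure ({c, b₀} : Set G) :=
          Subgroup.eq_of_le_of_card_ge hle (by rw [hk', hkeq, hcardC])
        exact hb₀C (this ▸ hb)
      · have hkeq : k = n := le_antisymm hk hge
        apply hne
        apply Subgroup.eq_top_of_card_eq
        rw [hk', hkeq, hG]
    have hcent : Subgroup.closure ({c, b₀} : Set G) ≤ Subgroup.centralizer ({c, b₀} : Set G) := by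
      rw [Subgroup.closure_le]
      intro s hs
      rw [SetLike.mem_coe, Subgroup.mem_centralizer_iff]
      intro t ht
      rcases hs with rfl | hs <;> rcases ht with rfl | ht
      · rfl
      · rw [Set.mem_singleton_iff.mp ht]; exact hcomm
      · rw [Set.mem_singleton_iff.mp hs]; exact hcomm.symm
      · rw [Set.mem_singleton_iff.mp hs, Set.mem_singleton_iff.mp ht]
    have hcent_top : Subgroup.centralizer ({c, b₀} : Set G) = ⊤ :=
      top_le_iff.mp (htop ▸ hcent)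
    have hx : x ∈ Subgroup.centralizer
        ((Subgroup.centralizer ({c, b₀} : Set G) : Subgroup G) : Set G) :=
      Subgroup.closure_le_centralizer_centralizer _ (htop ▸ Subgroup.mem_top x)
    rw [hcent_top, Subgroup.mem_centralizer_iff] at hx
    exact (hx y (Subgroup.mem_top y)).symm
  have hdvd2 : (p : ℤ) ^ (n - 2) ∣ r - 1 := by
    apply int_pow_dvd_sub_one_of_pow_prime hp
    rw [← hn1]; exact hdvd1
  obtain ⟨k, hk⟩ := hdvd2
  have hkp : ¬ (p : ℤ) ∣ k := by
    intro hd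
    apply hnc
    obtain ⟨t, rfl⟩ := hd
    rw [hk, hn1, pow_succ]
    exact ⟨t, by ring⟩
  obtain ⟨j, hj0, hjk⟩ : ∃ j : ℕ, ¬ p ∣ j ∧ (p : ℤ) ∣ (j : ℤ) * k - 1 := by
    have hk0 : ((k : ℤ) : ZMod p) ≠ 0 := by
      intro h; exact hkp ((ZMod.intCast_zmod_eq_zero_iff_dvd _ p).mp h)
    refine ⟨(((k : ℤ) : ZMod p)⁻¹).val, ?_, ?_⟩
    · intro hd
      have h1 : (((((k : ℤ) : ZMod p)⁻¹).val : ℕ) : ZMod p) = 0 :=
        (ZMod.natCast_eq_zero_iff _ p).mpr hd
      rw [ZMod.natCast_zmod_val] at h1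
      exact hk0 (inv_eq_zero.mp h1)
    · apply (ZMod.intCast_zmod_eq_zero_iff_dvd _ p).mp
      push_cast
      rw [ZMod.natCast_zmod_val, inv_mul_cancel₀ hk0, sub_self]
  set b : G := b₀ ^ j with hb
  have hcopj : (orderOf b₀).Coprime j := by
    rw [hordb₀]; exact (Nat.Prime.coprime_iff_not_dvd hpp).mpr hj0
  have hordb : orderOf b = p := by rw [hb, hcopj.orderOf_pow, hordb₀]
  have hbC : b ∉ Subgroup.zpowers c := by
    intro hmem
    obtain ⟨m, hm⟩ := exists_pow_eq_self_of_coprime hcopj.symm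
    apply hb₀C
    rw [hCz, ← hm]
    exact Subgroup.pow_mem _ hmem m
  have hconj : b * c * b⁻¹ = c ^ (r ^ j) := pow_conj_of_conj_eq hr' j
  refine ⟨c, b, hordc, hordb, hbC, ?_⟩
  rw [hconj, ← zpow_natCast c (1 + p ^ (n - 2)), zpow_eq_zpow_iff_modEq, hordc, Int.modEq_iff_dvd]
  push_cast
  have hr1 : r = 1 + (p : ℤ) ^ (n - 2) * k := by linarith
  have hsq := sq_dvd_one_add_pow_sub ((p : ℤ) ^ (n - 2) * k) j
  rw [← hr1] at hsq
  have hd3 : (p : ℤ) ^ (n - 1) ∣ ((p : ℤ) ^ (n - 2) * k) ^ 2 := by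
    rw [mul_pow, ← pow_mul]
    exact dvd_mul_of_dvd_left (pow_dvd_pow _ (by omega)) _
  have hd4 := dvd_trans hd3 hsq
  have hd5 : (p : ℤ) ^ (n - 1) ∣ (p : ℤ) ^ (n - 2) * ((j : ℤ) * k - 1) := by
    rw [hn1, pow_succ]; exact mul_dvd_mul_left _ hjk
  obtain ⟨w4, hw4⟩ := hd4
  obtain ⟨w5, hw5⟩ := hd5
  exact ⟨-(w4 + w5), by linear_combination (-1 : ℤ) * hw4 + (-1 : ℤ) * hw5⟩

end Cfsg.Agent.S0645
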