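import Cfsg.Statements.S0656
import Cfsg.Agent.H29.QuadSL

set_option autoImplicit false
open Cfsg

namespace Cfsg.Agent.S0656

/-- For odd p, a faithful group on an elementary abelian p-group with no nontrivial normal p-subgroup in which some nontrivial p-element acts quadratically has a section isomorphic to SL(2, p). -/
theorem result {G : Type*} [Group G] [Finite G] {p : ℕ} [Fact p.Prime] (hp : p ≠ 2) (V H : Subgroup G) (hV : Cfsg.IsElementaryAbelian p V) (hHV : H ≤ Subgroup.normalizer (V : Set G)) (hf : H ⊓ Subgroup.centralizer (V : Set G) = ⊥) (hO : Cfsg.pCore p ↥H = ⊥) (x : G) (hxH : x ∈ H) (hx1 : x ≠ 1) (hxp : ∃ k : ℕ, orderOf x = p ^ k) (hq : ⁅⁅V, Subgroup.zpowers x⁆, Subgroup.zpowers x⁆ = ⊥) : ∃ (K L : Subgroup G) (hL : (L.subgroupOf K).Normal), K ≤ H ∧ Nonempty ((K ⧸ L.subgroupOf K) ≃* Matrix.SpecialLinearGroup (Fin 2) (ZMod p)) := by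
  rcases Cfsg.Agent.H29.quad_normal_group_gen hp V hV H.subtype (fun γ => hHV γ.2) ⟨x, hxH⟩ hq
    with ⟨N, hN, hxN, hNp⟩ | h
  · exfalso
    have hNpg : IsPGroup p N := by
      intro g
      obtain ⟨k, hk⟩ := hNp g.1 g.2
      refine ⟨k, ?_⟩
      have h1 : ((g.1 : H) : G) ^ p ^ k ∈ H ⊓ Subgroup.centralizer (V : Set G) :=
        ⟨H.pow_mem g.1.2 _, hk⟩
      rw [hf, Subgroup.mem_bot] at h1
      exact Subtype.ext (Subtype.ext h1)
    have hle : N ≤ Cfsg.pCore p ↥H := le_sSup ⟨hN, hNpg⟩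
    rw [hO] at hle
    have h2 := hle hxN
    rw [Subgroup.mem_bot] at h2
    exact hx1 (congrArg Subtype.val h2)
  · exact Cfsg.Agent.H29.section_of_invSL H h

end Cfsg.Agent.S0656
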