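import Cfsg.Statements.S0657
import Cfsg.Agent.H29.QuadP

set_option autoImplicit false
open Cfsg

namespace Cfsg.Agent.S0657

/-- For odd p, a group that fails to be p-stable modulo its largest normal subgroup of order prime to p, and whose upper p-series does not stop there, has a section isomorphic to SL(2, p). -/
theorem result {G : Type*} [Group G] [Finite G] {p : ℕ} [Fact p.Prime] (hp : p ≠ 2) (hO : Cfsg.pPrimeCore p G < Cfsg.pPrimePCore p G) (hns : ¬ Cfsg.IsPStable p (G ⧸ Cfsg.pPrimeCore p G)) : ∃ (K L : Subgroup G) (hL : (L.subgroupOf K).Normal), K ≤ ⊤ ∧ Nonempty ((K ⧸ L.subgroupOf K) ≃* Matrix.SpecialLinearGroup (Fin 2) (ZMod p)) := by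
  have hpp : p.Prime := Fact.out
  have hodd : Odd p := hpp.odd_of_ne_two hp
  have hcore : Cfsg.pCore p (G ⧸ Cfsg.pPrimeCore p G) ≠ ⊥ := by
    intro h
    unfold Cfsg.pPrimePCore at hO
    rw [h, MonoidHom.comap_bot, QuotientGroup.ker_mk'] at hO
    exact lt_irrefl _ hO
  unfold Cfsg.IsPStable at hns
  rw [not_and, not_and] at hns
  have h3 := hns hodd hcore
  push Not at h3
  obtain ⟨A, P, hA, hP, hAP, hPle, hnorm, hq, hnle⟩ := h3
  rw [SetLike.not_le_iff_exists] at hnle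
  obtain ⟨ab, ⟨a', ha', rfl⟩, hab⟩ := hnle
  have haA : (a' : G ⧸ Cfsg.pPrimeCore p G) ∈ A := Subgroup.mem_subgroupOf.1 ha'
  have hqa : ⁅⁅P, Subgroup.zpowers (a' : G ⧸ Cfsg.pPrimeCore p G)⁆,
      Subgroup.zpowers (a' : G ⧸ Cfsg.pPrimeCore p G)⁆ = ⊥ := by
    rw [eq_bot_iff, ← hq]
    exact Subgroup.commutator_mono (Subgroup.commutator_mono le_rfl
      ((Subgroup.zpowers_le).2 haA)) ((Subgroup.zpowers_le).2 haA)
  rcases Cfsg.Agent.H29.QP.quad_normal_pgroup hp P hP a'.1 a'.2 hqa with h | h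
  · exact absurd h hab
  · have h1 : Cfsg.Agent.H29.InvSL p (G ⧸ Cfsg.pPrimeCore p G) :=
      Cfsg.Agent.H29.invSL_of_injective (Subgroup.subtype _) (Subgroup.subtype_injective _) h
    have h2 : Cfsg.Agent.H29.InvSL p G :=
      Cfsg.Agent.H29.invSL_of_surjective (QuotientGroup.mk' _) (QuotientGroup.mk'_surjective _) h1
    obtain ⟨K₀, f, hf⟩ := h2
    obtain ⟨L, hL, hiso⟩ := Cfsg.Agent.H29.section_of_surj' K₀ f hf
    exact ⟨K₀, L, hL, le_top, hiso⟩

end Cfsg.Agent.S0657
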