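import Cfsg.Statements.S0658
import Cfsg.Agent.H29.ZJ3

set_option autoImplicit false
open Cfsg

namespace Cfsg.Agent.S0658

/-- In a group of characteristic p type all of whose p-locals are p-stable (p odd), the normalizer of Z(J(P)) contains the normalizer of every nontrivial subgroup of the Sylow p-subgroup P. -/
theorem result {G : Type*} [Group G] [Finite G] {p : ℕ} [Fact p.Prime] (hp : p ≠ 2) (hloc : ∀ Q : Subgroup G, IsPGroup p Q → Q ≠ ⊥ → Cfsg.pPrimeCore p ↥(Subgroup.normalizer (Q : Set G)) = ⊥ ∧ Cfsg.IsPConstrained p ↥(Subgroup.normalizer (Q : Set G)) ∧ Cfsg.IsPStable p ↥(Subgroup.normalizer (Q : Set G))) (P : Sylow p G) (Q : Subgroup G) (hQP : Q ≤ (P : Subgroup G)) (hQ1 : Q ≠ ⊥) : Subgroup.normalizer (Q : Set G) ≤ Subgroup.normalizer (Cfsg.centerThompsonAOf ((P : Subgroup G)) : Set G) := by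
  rw [Cfsg.Agent.H29.centerThompsonAOf_eq]
  have hA : ∀ Q : Subgroup G, IsPGroup p Q → Q ≠ ⊥ →
      ∀ T' : Sylow p ↥(Subgroup.normalizer (Q : Set G)),
        Subgroup.normalizer (Q : Set G) ≤ Subgroup.normalizer ((Cfsg.Agent.H29.nZ 0 ((T' : Subgroup
          ↥(Subgroup.normalizer (Q : Set G))).map (Subgroup.normalizer (Q : Set G)).subtype) :
          Subgroup G) : Set G) := fun Q hQ hQ0 T' =>
    Cfsg.Agent.H29.normalizer_le_normalizer_nZ_sylow hp 0 Q (hloc Q hQ hQ0).1 (hloc Q hQ hQ0).2.1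
      (hloc Q hQ hQ0).2.2 T'
  exact (Cfsg.Agent.H29.zj_control_aux 0 hA
    (fun T hT hT0 => Cfsg.Agent.H29.nZ_zero_ne_bot hT hT0) (Nat.card P)).1 P Q hQP hQ1
    (Nat.le_add_left _ _)

end Cfsg.Agent.S0658
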