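import Mathlib
import Cfsg.Statements.S0660

set_option autoImplicit false
open Cfsg

namespace Cfsg.Agent.S0660

theorem maschke_abelian {V A : Type*} [CommGroup V] [Finite V] [Group A] [Finite A]
    (c : A → V →* V) (hc1 : ∀ v, c 1 v = v) (hcm : ∀ a b v, c (a * b) v = c a (c b v))
    (hcop : (Nat.card A).Coprime (Nat.card V))
    (U W : Subgroup V) (hU : ∀ a, ∀ u ∈ U, c a u ∈ U) (hUW : U ⊓ W = ⊥) (hUWV : U ⊔ W = ⊤) :
    ∃ W' : Subgroup V, (∀ a, ∀ w ∈ W', c a w ∈ W') ∧ U ⊓ W' = ⊥ ∧ U ⊔ W' = ⊤ := by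
  classical
  have : Fintype A := Fintype.ofFinite A
  have hex : ∀ v : V, ∃ u ∈ U, ∃ w ∈ W, u * w = v := by
    intro v
    have : v ∈ U ⊔ W := by rw [hUWV]; trivial
    exact Subgroup.mem_sup.mp this
  choose π hπU wf hwW hπw using hex
  have huniq : ∀ u ∈ U, ∀ w ∈ W, ∀ u' ∈ U, ∀ w' ∈ W, u * w = u' * w' → u = u' := by
    intro u hu w hw u' hu' w' hw' h
    have h1 : u'⁻¹ * u = w' * w⁻¹ := by
      rw [inv_mul_eq_iff_eq_mul, ← mul_assoc, ← h, mul_inv_cancel_right]
    have h2 : u'⁻¹ * u ∈ U ⊓ W :=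
      Subgroup.mem_inf.mpr ⟨U.mul_mem (U.inv_mem hu') hu, h1 ▸ W.mul_mem hw' (W.inv_mem hw)⟩
    rw [hUW, Subgroup.mem_bot] at h2
    exact (inv_mul_eq_one.mp h2).symm
  have hπmul : ∀ v v', π (v * v') = π v * π v' := by
    intro v v'
    apply huniq _ (hπU _) _ (hwW _) _ (U.mul_mem (hπU v) (hπU v')) _ (W.mul_mem (hwW v) (hwW v'))
    rw [hπw, mul_mul_mul_comm, hπw, hπw]
  have hπid : ∀ u ∈ U, π u = u := by
    intro u hu
    exact huniq _ (hπU u) _ (hwW u) u hu 1 W.one_mem (by rw [hπw, mul_one])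
  let θ : V → V := fun v => ∏ a : A, c a (π (c a⁻¹ v))
  have hθmul : ∀ v v', θ (v * v') = θ v * θ v' := by
    intro v v'
    simp only [θ, map_mul, hπmul, Finset.prod_mul_distrib]
  have hθU : ∀ v, θ v ∈ U := fun v => Subgroup.prod_mem U (fun a _ => hU a _ (hπU _))
  have hθu : ∀ u ∈ U, θ u = u ^ Nat.card A := by
    intro u hu
    have : ∀ a : A, c a (π (c a⁻¹ u)) = u := by
      intro a
      rw [hπid _ (hU a⁻¹ u hu), ← hcm, mul_inv_cancel, hc1]
    simp only [θ, this, Finset.prod_const, Finset.card_univ, Nat.card_eq_fintype_card]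
  have hθc : ∀ b v, c b (θ v) = θ (c b v) := by
    intro b v
    simp only [θ, map_prod, ← hcm]
    refine Fintype.prod_equiv (Equiv.mulLeft b) _ _ (fun a => ?_)
    simp only [Equiv.coe_mulLeft, mul_inv_rev, inv_mul_cancel_right]
  let θh : V →* V := MonoidHom.mk' θ hθmul
  have hθh : ∀ v, θh v = θ v := fun v => rfl
  refine ⟨θh.ker, ?_, ?_, ?_⟩
  · intro a w hw
    rw [MonoidHom.mem_ker, hθh] at hw ⊢
    rw [← hθc, hw, map_one]
  · rw [eq_bot_iff]
    intro u hu
    obtain ⟨huU, huker⟩ := Subgroup.mem_inf.mp hu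
    rw [Subgroup.mem_bot]
    rw [MonoidHom.mem_ker, hθh, hθu u huU] at huker
    have h2 : orderOf u ∣ Nat.card A := orderOf_dvd_of_pow_eq_one huker
    have h3 : orderOf u ∣ Nat.card V := orderOf_dvd_natCard u
    exact orderOf_eq_one_iff.mp (Nat.eq_one_of_dvd_coprimes hcop h2 h3)
  · rw [eq_top_iff]
    intro v _
    have hcopU : (Nat.card U).Coprime (Nat.card A) :=
      (Nat.Coprime.coprime_dvd_right (Subgroup.card_subgroup_dvd_card U) hcop).symm
    obtain ⟨u, hu⟩ := (powCoprime hcopU).surjective ⟨θ v, hθU v⟩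
    have hu' : (u : V) ^ Nat.card A = θ v := congrArg Subtype.val hu
    have hker : (u : V)⁻¹ * v ∈ θh.ker := by
      rw [MonoidHom.mem_ker, map_mul, map_inv, hθh, hθh, hθu _ u.2, hu', inv_mul_cancel]
    have hv : v = (u : V) * ((u : V)⁻¹ * v) := by rw [mul_inv_cancel_left]
    rw [hv]
    exact Subgroup.mul_mem_sup u.2 hker

/-- Under a coprime action on an abelian group, an invariant subgroup that is complemented admits an invariant complement. -/
theorem result {G : Type*} [Group G] [Finite G] (V A U : Subgroup G) (hVab : IsMulCommutative V) (hAV : A ≤ Subgroup.normalizer (V : Set G)) (hcop : (Nat.card A).Coprime (Nat.card V)) (hUV : U ≤ V) (hAU : A ≤ Subgroup.normalizer (U : Set G)) (W : Subgroup G) (hWV : W ≤ V) (hUW : U ⊓ W = ⊥) (hUWV : U ⊔ W = V) : ∃ W' : Subgroup G, W' ≤ V ∧ A ≤ Subgroup.normalizer (W' : Set G) ∧ U ⊓ W' = ⊥ ∧ U ⊔ W' = V := by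
  classical
  have := hVab
  letI : CommGroup V := { (inferInstance : Group V) with mul_comm := fun a b => mul_comm' a b }
  have hmemV : ∀ (a : A) (v : V), (a : G) * v * (a : G)⁻¹ ∈ V := by
    intro a v
    exact (Subgroup.mem_normalizer_iff.mp (hAV a.2) v).mp v.2
  let c : A → V →* V := fun a => MonoidHom.mk' (fun v => ⟨(a : G) * v * (a : G)⁻¹, hmemV a v⟩)
    (by intro v w; apply Subtype.ext; simp [mul_assoc])
  have hcval : ∀ (a : A) (v : V), ((c a v : V) : G) = (a : G) * v * (a : G)⁻¹ := fun a v => rfl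
  obtain ⟨W'', hW''inv, hW''inf, hW''sup⟩ := maschke_abelian c
    (by intro v; apply Subtype.ext; rw [hcval]; simp)
    (by intro a b v; apply Subtype.ext; rw [hcval, hcval, hcval]; simp [mul_assoc])
    hcop (U.subgroupOf V) (W.subgroupOf V)
    (by
      intro a u hu
      rw [Subgroup.mem_subgroupOf] at hu ⊢
      rw [hcval]
      exact (Subgroup.mem_normalizer_iff.mp (hAU a.2) u).mp hu)
    (by
      rw [eq_bot_iff]
      intro x hx
      obtain ⟨h1, h2⟩ := Subgroup.mem_inf.mp hx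
      rw [Subgroup.mem_subgroupOf] at h1 h2
      have h3 : (x : G) ∈ U ⊓ W := Subgroup.mem_inf.mpr ⟨h1, h2⟩
      rw [hUW, Subgroup.mem_bot] at h3
      rw [Subgroup.mem_bot]
      exact Subtype.ext h3)
    (by
      rw [← Subgroup.subgroupOf_sup hUV hWV, hUWV, Subgroup.subgroupOf_self])
  refine ⟨W''.map V.subtype, Subgroup.map_subtype_le _, ?_, ?_, ?_⟩
  · intro a ha
    rw [Subgroup.mem_normalizer_iff]
    intro n
    constructor
    · rintro ⟨w, hw, rfl⟩
      exact ⟨c ⟨a, ha⟩ w, hW''inv _ w hw, rfl⟩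
    · rintro ⟨w, hw, hwn⟩
      refine ⟨c ⟨a⁻¹, A.inv_mem ha⟩ w, hW''inv _ w hw, ?_⟩
      have h1 : (V.subtype w : G) = (w : G) := rfl
      rw [h1] at hwn
      show ((c ⟨a⁻¹, A.inv_mem ha⟩ w : V) : G) = n
      rw [hcval, hwn]
      simp [mul_assoc]
  · rw [eq_bot_iff]
    intro x hx
    obtain ⟨h1, w, hw, hwx⟩ := Subgroup.mem_inf.mp hx
    have h2 : w ∈ U.subgroupOf V ⊓ W'' := by
      refine Subgroup.mem_inf.mpr ⟨?_, hw⟩
      rw [Subgroup.mem_subgroupOf]
      have h3 : (V.subtype w : G) = (w : G) := rfl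
      rw [← h3, hwx]
      exact h1
    rw [hW''inf, Subgroup.mem_bot] at h2
    rw [Subgroup.mem_bot, ← hwx, h2]
    rfl
  · have h1 : (U.subgroupOf V ⊔ W'').map V.subtype = U ⊔ W''.map V.subtype := by
      rw [Subgroup.map_sup, Subgroup.map_subgroupOf_eq_of_le hUV]
    rw [← h1, hW''sup, ← MonoidHom.range_eq_map, Subgroup.range_subtype]

end Cfsg.Agent.S0660
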