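import Cfsg.Statements.S0662
import Cfsg.Agent.H3.MaxClass5

set_option autoImplicit false
open Cfsg
open scoped commutatorElement

namespace Cfsg.Agent.S0662

/-- In a p-group of maximal class of order at least p³ the normal subgroups of index at least p² are exactly the terms of the lower central series, and there are exactly p + 1 normal subgroups of index p. -/
theorem result {G : Type*} [Group G] [Finite G] {p : ℕ} [Fact p.Prime] (n : ℕ) (hG : Nat.card G = p ^ n) (hcl : Group.nilpotencyClass G = n - 1) (hn : 3 ≤ n) : (∀ (N : Subgroup G) [N.Normal] (r : ℕ), 2 ≤ r → N.index = p ^ r → N = (⊤ : Subgroup G).lowerCentralSeries (r - 1)) ∧ Nat.card {N : Subgroup G // N.Normal ∧ N.index = p} = p + 1 := by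
  have hp : p.Prime := Fact.out
  have hGp : IsPGroup p G := IsPGroup.of_card hG
  haveI := hGp.isNilpotent
  have hcards := Cfsg.Agent.H3.maxclass_lcs_card n G hG hn hcl
  constructor
  · intro N _ r hr hidx
    have hrn : r ≤ n := by
      have hdvd : N.index ∣ Nat.card G := Subgroup.index_dvd_card N
      rw [hidx, hG] at hdvd
      exact (Nat.pow_dvd_pow_iff_le_right hp.one_lt).mp hdvd
    have hQ : Nat.card (G ⧸ N) = p ^ r := hidx
    have hclQ := Cfsg.Agent.H3.class_le_of_card p r (G ⧸ N) hQ hr
    haveI : Group.IsNilpotent (G ⧸ N) := (IsPGroup.of_card hQ).isNilpotent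
    have hbotQ := Subgroup.lowerCentralSeries_eq_bot_iff_nilpotencyClass_le.mpr hclQ
    have hle : (⊤ : Subgroup G).lowerCentralSeries (r - 1) ≤ N := by
      have hmap := Subgroup.map_lowerCentralSeries (S := (⊤ : Subgroup G))
        (QuotientGroup.mk' N) (r - 1)
      rw [← MonoidHom.range_eq_map,
        MonoidHom.range_eq_top.mpr (QuotientGroup.mk'_surjective N), hbotQ] at hmap
      have h1 := (Subgroup.map_eq_bot_iff _).mp hmap
      rwa [QuotientGroup.ker_mk'] at h1
    symm
    apply Subgroup.eq_of_le_of_card_ge hle
    rw [hcards (r - 1) (by omega) (by omega)]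
    have hmul := Subgroup.card_mul_index N
    rw [hidx, hG] at hmul
    have h3 : n - 1 - (r - 1) = n - r := by omega
    rw [h3]
    have hsplit : p ^ n = p ^ (n - r) * p ^ r := by rw [← pow_add]; congr 1; omega
    rw [hsplit] at hmul
    exact (Nat.eq_of_mul_eq_mul_right (pow_pos hp.pos _) hmul).le
  · have hQcard : Nat.card (G ⧸ commutator G) = p ^ 2 := by
      have h1 := hcards 1 (le_refl 1) (by omega)
      rw [Subgroup.top_lowerCentralSeries_one] at h1
      have hmul := Subgroup.card_eq_card_quotient_mul_card_subgroup (commutator G)
      rw [hG, h1] at hmul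
      have hsplit : p ^ n = p ^ 2 * p ^ (n - 1 - 1) := by rw [← pow_add]; congr 1; omega
      rw [hsplit] at hmul
      exact (Nat.eq_of_mul_eq_mul_right (pow_pos hp.pos _) hmul).symm
    have hna : ¬ IsMulCommutative G := by
      intro hc
      have h1 : (⊤ : Subgroup G).lowerCentralSeries 1 = ⊥ := by
        rw [Subgroup.lowerCentralSeries_succ, Subgroup.commutator_eq_bot_iff_le_centralizer]
        intro g _
        rw [Subgroup.mem_centralizer_iff]
        intro h _
        exact hc.is_comm.comm h g
      have := Subgroup.lowerCentralSeries_eq_bot_iff_nilpotencyClass_le.mp h1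
      omega
    have hnc := Cfsg.Agent.H3.not_isCyclic_abelianization hGp hna
    have hcount := Cfsg.Agent.H3.card_subgroups_of_card_sq (G ⧸ commutator G) hQcard hnc
    have hsurj := QuotientGroup.mk'_surjective (commutator G)
    have hCle : ∀ N : Subgroup G, N.Normal → N.index = p → commutator G ≤ N := by
      intro N hN hidx
      have hQ : Nat.card (G ⧸ N) = p := hidx
      haveI : IsCyclic (G ⧸ N) := isCyclic_of_prime_card hQ
      obtain ⟨g, hg⟩ := IsCyclic.exists_generator (α := G ⧸ N)
      rw [commutator_def, Subgroup.commutator_le]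
      intro a _ b _
      obtain ⟨i, hi⟩ := Subgroup.mem_zpowers_iff.mp (hg (QuotientGroup.mk' N a))
      obtain ⟨j, hj⟩ := Subgroup.mem_zpowers_iff.mp (hg (QuotientGroup.mk' N b))
      have hone : QuotientGroup.mk' N ⁅a, b⁆ = 1 := by
        rw [map_commutatorElement, commutatorElement_eq_one_iff_commute, ← hi, ← hj]
        exact (Commute.refl g).zpow_zpow i j
      exact (QuotientGroup.eq_one_iff _).mp hone
    have hker : (QuotientGroup.mk' (commutator G)).ker = commutator G := QuotientGroup.ker_mk' _
    have h1 : ∀ N : Subgroup G, N.Normal → N.index = p →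
        Nat.card (N.map (QuotientGroup.mk' (commutator G))) = p := by
      intro N hN hidx
      have hi : (N.map (QuotientGroup.mk' (commutator G))).index = p := by
        rw [Subgroup.index_map_eq N hsurj (by rw [hker]; exact hCle N hN hidx), hidx]
      have hmul := Subgroup.card_mul_index (N.map (QuotientGroup.mk' (commutator G)))
      rw [hi, hQcard, pow_two] at hmul
      exact Nat.eq_of_mul_eq_mul_right hp.pos hmul
    have h2 : ∀ M : Subgroup (G ⧸ commutator G), Nat.card M = p →
        (M.comap (QuotientGroup.mk' (commutator G))).Normal ∧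
          (M.comap (QuotientGroup.mk' (commutator G))).index = p := by
      intro M hM
      constructor
      · have hCK : commutator G ≤ M.comap (QuotientGroup.mk' (commutator G)) := by
          intro x hx
          rw [Subgroup.mem_comap]
          have hx1 : QuotientGroup.mk' (commutator G) x = 1 := (QuotientGroup.eq_one_iff x).mpr hx
          rw [hx1]; exact M.one_mem
        refine ⟨fun x hx g => ?_⟩
        have hxg : g * x * g⁻¹ = ⁅g, x⁆ * x := by
          rw [commutatorElement_def]; group
        rw [hxg]
        refine Subgroup.mul_mem _ (hCK ?_) hx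
        rw [commutator_def]
        exact Subgroup.commutator_mem_commutator (Subgroup.mem_top g) (Subgroup.mem_top x)
      · rw [Subgroup.index_comap_of_surjective M hsurj]
        have hmul := Subgroup.card_mul_index M
        rw [hM, hQcard, pow_two] at hmul
        exact Nat.eq_of_mul_eq_mul_left hp.pos hmul
    rw [← hcount]
    apply Nat.card_congr
    exact
      { toFun := fun N => ⟨N.1.map (QuotientGroup.mk' (commutator G)), h1 N.1 N.2.1 N.2.2⟩
        invFun := fun M => ⟨M.1.comap (QuotientGroup.mk' (commutator G)), h2 M.1 M.2⟩
        left_inv := by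
          rintro ⟨N, hN, hidx⟩
          apply Subtype.ext
          exact Subgroup.comap_map_eq_self (by rw [hker]; exact hCle N hN hidx)
        right_inv := by
          rintro ⟨M, hM⟩
          apply Subtype.ext
          exact Subgroup.map_comap_eq_self_of_surjective hsurj M }

end Cfsg.Agent.S0662
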