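import Cfsg.Statements.S0663
import Cfsg.Agent.H14.Uniserial

set_option autoImplicit false
open Cfsg

namespace Cfsg.Agent.S0663

/-- A p-group acts uniserially on a p-group N of order p^n exactly when the iterated commutator chain from N has length n; in that case the chain terms are all the invariant subgroups of N and they are normal in N. -/
theorem result {L : Type*} [Group L] [Finite L] {p : ℕ} [Fact p.Prime] (N G : Subgroup L) (hN : IsPGroup p N) (hG : IsPGroup p G) (hGN : G ≤ Subgroup.normalizer (N : Set L)) (n : ℕ) (hn : Nat.card N = p ^ n) : ((∀ H : Subgroup L, H ≤ N → G ≤ Subgroup.normalizer (H : Set L) → H ≠ ⊥ → (⁅H, G⁆).relIndex H = p) ↔ Cfsg.iterCommutator N G (n - 1) ≠ ⊥ ∨ n = 0) ∧ ((∀ H : Subgroup L, H ≤ N → G ≤ Subgroup.normalizer (H : Set L) → H ≠ ⊥ → (⁅H, G⁆).relIndex H = p) → ∀ H : Subgroup L, H ≤ N → G ≤ Subgroup.normalizer (H : Set L) → (∃ i ≤ n, H = Cfsg.iterCommutator N G i) ∧ N ≤ Subgroup.normalizer (H : Set L)) := by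
  refine ⟨⟨fun hU => ?_, fun hlast => ?_⟩, fun hU H hHN hGH => ?_⟩
  · have hCC := H14.cc_of_uniserial hGN hn hU
    by_cases h0 : n = 0
    · exact Or.inr h0
    · left
      intro hb
      have h1 := hCC (n - 1) (by omega)
      rw [hb, Subgroup.card_bot] at h1
      have e : n - (n - 1) = 1 := by omega
      rw [e, pow_one] at h1
      exact (Fact.out : p.Prime).one_lt.ne h1
  · exact fun H hHN hGH hne =>
      H14.uniserial_of_cc hN hG hGN hn (H14.cc_of_last hN hG hGN hn hlast) H hHN hGH hne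
  · have hCC := H14.cc_of_uniserial hGN hn hU
    obtain ⟨i, hi, rfl⟩ := H14.exists_eq_iter hN hG hGN hn hCC H hHN hGH
    exact ⟨⟨i, hi, rfl⟩, H14.le_normalizer_iter_of_cc hN hG hGN hn hCC i⟩

end Cfsg.Agent.S0663
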