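import Mathlib
import Cfsg.Statements.S0666
import Cfsg.Agent.S0035

set_option autoImplicit false
open Cfsg
open scoped Pointwise

namespace Cfsg.Agent.S0666

theorem frob_pow_eq_one {F A : Type*} [Group F] [Finite F] [CommGroup A]
    (c : F → A → A) (hc1 : ∀ a, c 1 a = a) (hcm : ∀ x y a, c (x * y) a = c x (c y a))
    (hca : ∀ x a b, c x (a * b) = c x a * c x b)
    (H N : Subgroup F) (hH : Cfsg.IsFrobeniusComplement H)
    (hN : (N : Set F) = Cfsg.frobeniusKernel H) [N.Normal]
    (hcompl : Subgroup.IsComplement' N H)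
    (hfixN : ∀ a, (∀ n ∈ N, c n a = a) → a = 1)
    (hfixH : ∀ a, (∀ h ∈ H, c h a = a) → a = 1) (a : A) :
    a ^ Nat.card N = 1 := by
  classical
  have : Fintype F := Fintype.ofFinite F
  let cH : F → A →* A := fun x => MonoidHom.mk' (c x) (hca x)
  have hcH : ∀ x b, cH x b = c x b := fun x b => rfl
  have hdisj : ∀ x, x ∈ N → x ∈ H → x = 1 := fun x hxN hxH =>
    Subgroup.disjoint_def.mp hcompl.disjoint hxN hxH
  have hTN : ∀ b, ∏ n : N, c (n : F) b = 1 := by
    intro b
    apply hfixN
    intro m hm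
    rw [← hcH, map_prod]
    simp only [hcH, ← hcm]
    exact Fintype.prod_equiv (Equiv.mulLeft (⟨m, hm⟩ : N)) _ _ (fun n => rfl)
  have hTH : ∀ b, ∏ h : H, c (h : F) b = 1 := by
    intro b
    apply hfixH
    intro m hm
    rw [← hcH, map_prod]
    simp only [hcH, ← hcm]
    exact Fintype.prod_equiv (Equiv.mulLeft (⟨m, hm⟩ : H)) _ _ (fun n => rfl)
  have hTF : ∏ x : F, c x a = 1 := by
    apply hfixN
    intro m hm
    rw [← hcH, map_prod]
    simp only [hcH, ← hcm]
    exact Fintype.prod_equiv (Equiv.mulLeft m) _ _ (fun n => rfl)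
  have hP : ∏ n : N, ∏ h : H, c ((n : F) * h * (n : F)⁻¹) a = 1 := by
    apply Finset.prod_eq_one
    intro n _
    have : ∀ h : H, c ((n : F) * h * (n : F)⁻¹) a = cH n (c h (c (n : F)⁻¹ a)) := by
      intro h
      rw [hcH, hcm, hcm]
    simp only [this]
    rw [← map_prod, hTH, map_one]
  have hPQ : ∏ n : N, ∏ h : H, c ((n : F) * h * (n : F)⁻¹) a =
      a ^ Nat.card N *
        ∏ n : N, ∏ h ∈ (Finset.univ : Finset H).erase 1, c ((n : F) * h * (n : F)⁻¹) a := by
    have : ∀ n : N, ∏ h : H, c ((n : F) * h * (n : F)⁻¹) a =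
        a * ∏ h ∈ (Finset.univ : Finset H).erase 1, c ((n : F) * h * (n : F)⁻¹) a := by
      intro n
      rw [← Finset.mul_prod_erase Finset.univ _ (Finset.mem_univ (1 : H))]
      congr 1
      rw [Subgroup.coe_one, mul_one, mul_inv_cancel, hc1]
    simp only [this]
    rw [Finset.prod_mul_distrib, Finset.prod_const, Finset.card_univ, Nat.card_eq_fintype_card]
  have hQ : ∏ n : N, ∏ h ∈ (Finset.univ : Finset H).erase 1,
      c ((n : F) * h * (n : F)⁻¹) a = 1 := by
    have hsplit := Finset.prod_filter_mul_prod_filter_not (Finset.univ : Finset F) (· ∈ N)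
      (fun x => c x a)
    rw [hTF] at hsplit
    have h1 : ∏ x ∈ Finset.univ.filter (· ∈ N), c x a = 1 := by
      rw [← hTN a]
      exact Finset.prod_subtype _ (by simp) _
    rw [h1, one_mul] at hsplit
    rw [← hsplit, ← Finset.prod_product']
    apply Finset.prod_bij (fun p _ => (p.1 : F) * p.2 * (p.1 : F)⁻¹)
    · rintro ⟨n, h⟩ hp
      simp only [Finset.mem_product, Finset.mem_univ, Finset.mem_erase, ne_eq, true_and,
        and_true] at hp
      simp only [Finset.mem_filter, Finset.mem_univ, true_and]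
      intro hmem
      apply hp
      have h2 : (h : F) ∈ N := by
        have := N.mul_mem (N.mul_mem (N.inv_mem n.2) hmem) n.2
        have e : (n : F)⁻¹ * ((n : F) * h * (n : F)⁻¹) * n = h := by group
        rw [e] at this
        exact this
      exact Subtype.ext (hdisj _ h2 h.2)
    · rintro ⟨n, h⟩ hp ⟨m, h'⟩ hp' heq
      simp only [Finset.mem_product, Finset.mem_univ, Finset.mem_erase, ne_eq, true_and,
        and_true] at hp hp'
      simp only at heq
      have hg : (n : F)⁻¹ * m ∈ H := by
        by_contra hg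
        have hbot := hH.2.2 _ hg
        have hmem : (h : F) ∈ H ⊓ (MulAut.conj ((n : F)⁻¹ * m) • H) := by
          refine Subgroup.mem_inf.mpr ⟨h.2, ?_⟩
          rw [Subgroup.mem_smul_pointwise_iff_exists]
          refine ⟨h', h'.2, ?_⟩
          rw [MulAut.smul_def, MulAut.conj_apply]
          have e : (n : F)⁻¹ * m * h' * ((n : F)⁻¹ * m)⁻¹ =
              (n : F)⁻¹ * ((m : F) * h' * (m : F)⁻¹) * n := by group
          rw [e, ← heq]
          group
        rw [hbot, Subgroup.mem_bot] at hmem
        exact hp (Subtype.ext hmem)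
      have hg1 : (n : F)⁻¹ * m = 1 := hdisj _ (N.mul_mem (N.inv_mem n.2) m.2) hg
      have hnm : (n : F) = m := by
        rw [inv_mul_eq_one] at hg1
        exact hg1
      have hnm' : n = m := Subtype.ext hnm
      subst hnm'
      have hh : (h : F) = h' := by
        have := mul_right_cancel heq
        exact mul_left_cancel this
      rw [Subtype.ext hh]
    · intro x hx
      simp only [Finset.mem_filter, Finset.mem_univ, true_and] at hx
      have hxK : x ∉ Cfsg.frobeniusKernel H := by
        rw [← hN]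
        exact hx
      simp only [Cfsg.frobeniusKernel, Set.mem_ofPred_eq, not_or, not_forall, not_not] at hxK
      obtain ⟨hx1, g, hg⟩ := hxK
      rw [Subgroup.mem_smul_pointwise_iff_exists] at hg
      obtain ⟨h₀, hh₀, hgx⟩ := hg
      rw [MulAut.smul_def, MulAut.conj_apply] at hgx
      obtain ⟨⟨n, h'⟩, hnh⟩ := hcompl.2 g
      simp only at hnh
      refine ⟨(n, ⟨(h' : F) * h₀ * (h' : F)⁻¹,
        H.mul_mem (H.mul_mem h'.2 hh₀) (H.inv_mem h'.2)⟩), ?_, ?_⟩
      · simp only [Finset.mem_product, Finset.mem_univ, Finset.mem_erase, ne_eq, true_and,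
          and_true]
        intro h1
        have h2 : (h' : F) * h₀ * (h' : F)⁻¹ = 1 := congrArg Subtype.val h1
        apply hx1
        rw [← hgx, ← hnh]
        have e : (n : F) * h' * h₀ * ((n : F) * h')⁻¹ =
            (n : F) * ((h' : F) * h₀ * (h' : F)⁻¹) * (n : F)⁻¹ := by group
        rw [e, h2]
        group
      · simp only
        rw [← hgx, ← hnh]
        group
    · intro p _
      rfl
  rw [hPQ, hQ, mul_one] at hP
  exact hP

/-- A Frobenius group acting on a nontrivial abelian group of order prime to that of its kernel, with the kernel acting without nontrivial fixed points, has a complement with a nontrivial fixed point. -/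
theorem result {G : Type*} [Group G] [Finite G] (V F : Subgroup G) (hVab : IsMulCommutative V) (hV1 : V ≠ ⊥) (hFV : F ≤ Subgroup.normalizer (V : Set G)) (H : Subgroup ↥F) (hH : Cfsg.IsFrobeniusComplement H) (hcop : (Nat.card V).Coprime (Nat.card (Cfsg.frobeniusKernel H))) (hCK : V ⊓ Subgroup.centralizer (Subtype.val '' Cfsg.frobeniusKernel H : Set G) = ⊥) : V ⊓ Subgroup.centralizer ((H.map F.subtype : Subgroup G) : Set G) ≠ ⊥ := by
  classical
  obtain ⟨N, hNK, hNn, hcompl⟩ := Cfsg.Agent.S0035.result H hH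
  intro hCH
  apply hV1
  haveI := hVab
  letI : CommGroup V := { (inferInstance : Group V) with mul_comm := fun a b => mul_comm' a b }
  have hmemV : ∀ (x : F) (v : V), (x : G) * v * (x : G)⁻¹ ∈ V := by
    intro x v
    exact (Subgroup.mem_normalizer_iff.mp (hFV x.2) v).mp v.2
  let c : F → V → V := fun x v => ⟨(x : G) * v * (x : G)⁻¹, hmemV x v⟩
  have key : ∀ a : V, a ^ Nat.card N = 1 := by
    intro a
    refine frob_pow_eq_one c ?_ ?_ ?_ H N hH hNK hcompl ?_ ?_ a
    · intro a; apply Subtype.ext; simp [c]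
    · intro x y a; apply Subtype.ext; simp [c, mul_assoc]
    · intro x a b; apply Subtype.ext; simp [c, mul_assoc]
    · intro a ha
      have hmem : (a : G) ∈ V ⊓ Subgroup.centralizer
          (Subtype.val '' Cfsg.frobeniusKernel H : Set G) := by
        refine Subgroup.mem_inf.mpr ⟨a.2, ?_⟩
        rw [Subgroup.mem_centralizer_iff]
        rintro _ ⟨k, hk, rfl⟩
        have hkN : k ∈ N := by rw [← SetLike.mem_coe, hNK]; exact hk
        have h1 : (k : G) * a * (k : G)⁻¹ = a := congrArg Subtype.val (ha k hkN)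
        exact mul_inv_eq_iff_eq_mul.mp h1
      rw [hCK] at hmem
      exact Subtype.ext (Subgroup.mem_bot.mp hmem)
    · intro a ha
      have hmem : (a : G) ∈ V ⊓ Subgroup.centralizer
          ((H.map F.subtype : Subgroup G) : Set G) := by
        refine Subgroup.mem_inf.mpr ⟨a.2, ?_⟩
        rw [Subgroup.mem_centralizer_iff]
        rintro _ ⟨k, hk, rfl⟩
        have h1 : (k : G) * a * (k : G)⁻¹ = a := congrArg Subtype.val (ha k hk)
        exact mul_inv_eq_iff_eq_mul.mp h1
      rw [hCH] at hmem
      exact Subtype.ext (Subgroup.mem_bot.mp hmem)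
  rw [eq_bot_iff]
  intro v hv
  rw [Subgroup.mem_bot]
  have h1 := key ⟨v, hv⟩
  have h2 : orderOf (⟨v, hv⟩ : V) ∣ Nat.card N := orderOf_dvd_of_pow_eq_one h1
  have h3 : orderOf (⟨v, hv⟩ : V) ∣ Nat.card V := orderOf_dvd_natCard _
  have hcardN : Nat.card N = Nat.card (Cfsg.frobeniusKernel H) := by rw [← hNK]; rfl
  rw [← hcardN] at hcop
  have h4 : orderOf (⟨v, hv⟩ : V) = 1 := Nat.eq_one_of_dvd_coprimes hcop h3 h2
  exact congrArg Subtype.val (orderOf_eq_one_iff.mp h4)

end Cfsg.Agent.S0666
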