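import Mathlib
import Cfsg.Statements.S0668

set_option autoImplicit false
open Cfsg

namespace Cfsg.Agent.S0668

section
variable {G : Type*} [Group G] {K : Type*} [Field K] {Ω₁ Ω₂ : Type*} [Fintype Ω₁] [Fintype Ω₂]
  [MulAction G Ω₁] [MulAction G Ω₂]

/-- the linear map with kernel `c` -/
noncomputable def psi0 (c : Ω₁ → Ω₂ → K) : (Ω₁ → K) →ₗ[K] (Ω₂ → K) where
  toFun f y := ∑ x, c x y * f x
  map_add' f g := by
    funext y
    simp only [Pi.add_apply, mul_add, Finset.sum_add_distrib]
  map_smul' a f := by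
    funext y
    simp only [Pi.smul_apply, smul_eq_mul, RingHom.id_apply, Finset.mul_sum]
    apply Finset.sum_congr rfl
    intro x _
    ring

theorem psi0_apply (c : Ω₁ → Ω₂ → K) (f : Ω₁ → K) (y : Ω₂) :
    psi0 c f y = ∑ x, c x y * f x := rfl

theorem psi0_single [DecidableEq Ω₁] (c : Ω₁ → Ω₂ → K) (x : Ω₁) (a : K) (y : Ω₂) :
    psi0 c (Pi.single x a) y = c x y * a := by
  rw [psi0_apply, Finset.sum_eq_single x]
  · simp
  · intro z _ hz
    simp [hz]
  · intro hx
    exact absurd (Finset.mem_univ x) hx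

theorem psi0_comm (c : Ω₁ → Ω₂ → K)
    (hc : ∀ (g : G) x y, c (g • x) (g • y) = c x y) (g : G) (f : Ω₁ → K) :
    psi0 c (Cfsg.permRep K G Ω₁ g f) = Cfsg.permRep K G Ω₂ g (psi0 c f) := by
  funext s
  have h1 : Cfsg.permRep K G Ω₂ g (psi0 c f) s = psi0 c f (g⁻¹ • s) := rfl
  rw [h1, psi0_apply, psi0_apply]
  have h2 : ∀ y, Cfsg.permRep K G Ω₁ g f y = f (g⁻¹ • y) := fun y => rfl
  simp only [h2]
  refine Fintype.sum_equiv (MulAction.toPerm g⁻¹) _ _ (fun y => ?_)
  rw [MulAction.toPerm_apply]
  rw [← hc g⁻¹ y s]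

/-- linear maps with matrix constant on orbits -/
noncomputable def Psi :
    (MulAction.orbitRel.Quotient G (Ω₁ × Ω₂) → K) →ₗ[K] ((Ω₁ → K) →ₗ[K] (Ω₂ → K)) where
  toFun c := psi0 (fun x y => c (Quotient.mk'' (x, y)))
  map_add' c d := by
    apply LinearMap.ext
    intro f
    funext y
    simp only [psi0_apply, LinearMap.add_apply, Pi.add_apply, add_mul, Finset.sum_add_distrib]
  map_smul' a c := by
    apply LinearMap.ext
    intro f
    funext y
    simp only [psi0_apply, LinearMap.smul_apply, Pi.smul_apply, smul_eq_mul, RingHom.id_apply,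
      Finset.mul_sum, mul_assoc]

theorem Psi_apply (c : MulAction.orbitRel.Quotient G (Ω₁ × Ω₂) → K) :
    Psi c = psi0 (fun x y => c (Quotient.mk'' (x, y))) := rfl

end

/-- The equivariant linear maps between the permutation modules of two finite `G`-sets form a space whose dimension is the number of `G`-orbits on the product of the two sets. -/
theorem result {G : Type*} [Group G] {K : Type*} [Field K] {Ω₁ Ω₂ : Type*} [Fintype Ω₁] [Fintype Ω₂] [MulAction G Ω₁] [MulAction G Ω₂] : Module.finrank K ((Cfsg.permRep K G Ω₁).linHom (Cfsg.permRep K G Ω₂)).invariants = Nat.card (MulAction.orbitRel.Quotient G (Ω₁ × Ω₂)) := by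
  classical
  haveI : Fintype (MulAction.orbitRel.Quotient G (Ω₁ × Ω₂)) := Fintype.ofFinite _
  have hmem : ∀ f : (Ω₁ → K) →ₗ[K] (Ω₂ → K),
      f ∈ ((Cfsg.permRep K G Ω₁).linHom (Cfsg.permRep K G Ω₂)).invariants ↔
      ∀ (g : G) (v : Ω₁ → K), f (Cfsg.permRep K G Ω₁ g v) = Cfsg.permRep K G Ω₂ g (f v) := by
    intro f
    rw [Representation.mem_invariants]
    simp only [Representation.linHom_apply]
    rw [Representation.mem_linHom_invariants_iff_isIntertwining]
    exact ⟨fun h => h.isIntertwining, fun h => ⟨h⟩⟩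
  have hinj : Function.Injective (Psi (G := G) (K := K) (Ω₁ := Ω₁) (Ω₂ := Ω₂)) := by
    rw [← LinearMap.ker_eq_bot, LinearMap.ker_eq_bot']
    intro c hc
    funext q
    induction q using Quotient.inductionOn with
    | _ p =>
      obtain ⟨x, y⟩ := p
      have h1 := congrFun (LinearMap.congr_fun hc (Pi.single x 1)) y
      rw [Psi_apply, psi0_single] at h1
      simpa using h1
  have hrange : ((Cfsg.permRep K G Ω₁).linHom (Cfsg.permRep K G Ω₂)).invariants =
      LinearMap.range (Psi (G := G) (K := K) (Ω₁ := Ω₁) (Ω₂ := Ω₂)) := by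
    ext f
    rw [hmem, LinearMap.mem_range]
    constructor
    · intro hf
      have hsingle : ∀ (g : G) (x : Ω₁),
          Cfsg.permRep K G Ω₁ g (Pi.single x 1) = Pi.single (g • x) 1 := by
        intro g x
        funext z
        have : Cfsg.permRep K G Ω₁ g (Pi.single x 1) z = (Pi.single x 1 : Ω₁ → K) (g⁻¹ • z) := rfl
        rw [this, Pi.single_apply, Pi.single_apply]
        by_cases h : z = g • x
        · rw [if_pos h, if_pos (by rw [h, inv_smul_smul])]
        · rw [if_neg h, if_neg (fun h' => h (by rw [← h', smul_inv_smul]))]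
      have hinv : ∀ (g : G) (x : Ω₁) (y : Ω₂),
          f (Pi.single (g • x) 1) (g • y) = f (Pi.single x 1) y := by
        intro g x y
        rw [← hsingle, hf]
        have : Cfsg.permRep K G Ω₂ g (f (Pi.single x 1)) (g • y) =
            f (Pi.single x 1) (g⁻¹ • g • y) := rfl
        rw [this, inv_smul_smul]
      refine ⟨Quotient.lift (fun p : Ω₁ × Ω₂ => f (Pi.single p.1 1) p.2) ?_, ?_⟩
      · rintro ⟨x, y⟩ ⟨x', y'⟩ hab
        obtain ⟨g, hg⟩ := hab
        have hg' : (g • x', g • y') = (x, y) := hg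
        obtain ⟨rfl, rfl⟩ := Prod.mk.inj hg'
        exact hinv g x' y'
      · apply LinearMap.pi_ext
        intro x a
        funext y
        rw [Psi_apply, psi0_single]
        have : (Pi.single x a : Ω₁ → K) = a • Pi.single x 1 := by
          funext z
          simp [Pi.single_apply]
        rw [this, map_smul, Pi.smul_apply, smul_eq_mul, mul_comm]
        rfl
    · rintro ⟨c, rfl⟩ g v
      rw [Psi_apply]
      apply psi0_comm
      intro g x y
      congr 1
      apply Quotient.sound
      exact ⟨g, rfl⟩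
  rw [hrange, LinearMap.finrank_range_of_inj hinj, Module.finrank_fintype_fun_eq_card,
    Nat.card_eq_fintype_card]

end Cfsg.Agent.S0668
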