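import Cfsg.Statements.S0677
import Cfsg.Agent.H75.PrimeIndex
import Cfsg.Agent.S0675

set_option autoImplicit false
open Cfsg

namespace Cfsg.Agent.S0677

/-- In a transitive permutation group of prime degree `p` whose Sylow `p`-normaliser has even order, the point stabilisers are the only subgroups of index `p`. -/
theorem result {α : Type*} [Fintype α] [DecidableEq α] {p : ℕ} [Fact p.Prime] (hα : Fintype.card α = p) (G : Subgroup (Equiv.Perm α)) [MulAction.IsPretransitive G α] (P : Sylow p G) (heven : Even (Nat.card (Subgroup.normalizer ((P : Subgroup G) : Set G)))) (H : Subgroup G) (hH : H.index = p) : ∃ a : α, H = MulAction.stabilizer G a := by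
  classical
  have hp : p.Prime := Fact.out
  have key : ∃ a : α, H ≤ MulAction.stabilizer G a := by
    by_cases hsolv : Group.IsSolvable G
    · exact Cfsg.Agent.H75.stabilizer_of_index_p_solvable hα G hsolv H hH
    · have hp5 := Cfsg.Agent.S0675.p_ge_five hα G hsolv
      have h2t : MulAction.IsMultiplyPretransitive G α 2 := by
        rcases Cfsg.Agent.S0675.result (by rw [hα]; exact hp) G with h | h
        · exact absurd h hsolv
        · exact h
      exact Cfsg.Agent.H75.stabilizer_of_index_p_two_trans hα (by omega) G h2t P heven H hH
  obtain ⟨a, ha⟩ := key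
  refine ⟨a, ?_⟩
  apply Subgroup.eq_of_le_of_card_ge ha
  have h1 : (MulAction.stabilizer G a).index = p := by
    rw [MulAction.index_stabilizer_of_transitive, Nat.card_eq_fintype_card, hα]
  have h2 := Subgroup.card_mul_index H
  have h3 := Subgroup.card_mul_index (MulAction.stabilizer G a)
  rw [hH] at h2; rw [h1] at h3
  exact le_of_eq (Nat.eq_of_mul_eq_mul_right hp.pos (h3.trans h2.symm))

end Cfsg.Agent.S0677
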