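import Cfsg.Statements.S0678
import Cfsg.Agent.H75.Degree7

set_option autoImplicit false
open Cfsg

namespace Cfsg.Agent.S0678

/-- A non-solvable transitive permutation group on 7 points that does not contain the alternating group is a simple group of order 168. -/
theorem result {α : Type*} [Fintype α] [DecidableEq α] (hα : Fintype.card α = 7) (G : Subgroup (Equiv.Perm α)) [MulAction.IsPretransitive G α] (hG : ¬ Group.IsSolvable G) (hA : ¬ alternatingGroup α ≤ G) : Nat.card G = 168 ∧ IsSimpleGroup G := by
  classical
  have : Fact (Nat.Prime 7) := ⟨by norm_num⟩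
  obtain ⟨P⟩ : Nonempty (Sylow 7 G) := inferInstance
  have hodd := H75.odd_normalizer_degree_seven hα G hG hA P
  obtain ⟨h168, hN21, hidx⟩ := H75.card_eq_168_of_odd_normalizer hα G hG hA P hodd
  refine ⟨h168, ?_⟩
  apply Cfsg.Agent.S1013.result hα G P
  · have hidxN : Nat.card (Sylow 7 G) =
        (Subgroup.normalizer ((P : Subgroup G) : Set G)).index :=
      Sylow.card_eq_index_normalizer P
    have h := Subgroup.card_mul_index (Subgroup.normalizer ((P : Subgroup G) : Set G))
    rw [hN21, h168, ← hidxN] at h
    omega
  · rw [hidx]; norm_num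

end Cfsg.Agent.S0678
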