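import Cfsg.Statements.S0687
import Mathlib
import Cfsg.Agent.H77.Zas

set_option autoImplicit false
open Cfsg

namespace Cfsg.Agent.S0687

/-- In a linear group over the prime field that is regular on non-zero vectors and has no irreducible cyclic normal subgroup, a normal subgroup `N` minimal among the non-abelian normal subgroups centralising a maximal normal abelian subgroup `A` is irreducible on `V`, and its centraliser is `A`. -/
theorem result {p : ℕ} [Fact p.Prime] {V : Type*} [AddCommGroup V] [Module (ZMod p) V] [Finite V] (H : Subgroup (V ≃ₗ[ZMod p] V)) (hreg : ∀ v w : V, v ≠ 0 → w ≠ 0 → ∃! h : H, (h : V ≃ₗ[ZMod p] V) v = w) (hI : ∀ A : Subgroup H, A.Normal → IsCyclic A → ∃ W : Submodule (ZMod p) V, W ≠ ⊥ ∧ W ≠ ⊤ ∧ ∀ a ∈ A, ∀ v ∈ W, ((a : H) : V ≃ₗ[ZMod p] V) v ∈ W) (A : Subgroup H) (hAn : A.Normal) (hAc : IsMulCommutative A) (hAmax : ∀ B : Subgroup H, B.Normal → IsMulCommutative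 B → A ≤ B → B = A) (N : Subgroup H) (hNn : N.Normal) (hNle : N ≤ Subgroup.centralizer (A : Set H)) (hNna : ¬ IsMulCommutative N) (hNmin : ∀ M : Subgroup H, M.Normal → M ≤ N → ¬ IsMulCommutative M → M = N) : (∀ W : Submodule (ZMod p) V, (∀ n ∈ N, ∀ v ∈ W, ((n : H) : V ≃ₗ[ZMod p] V) v ∈ W) → W = ⊥ ∨ W = ⊤) ∧ Subgroup.centralizer (N : Set H) = A := by
  classical
  -- the image of N in GL(V)
  set N' : Subgroup (V ≃ₗ[ZMod p] V) := N.map H.subtype with hN'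
  have hmemN' : ∀ g : V ≃ₗ[ZMod p] V, g ∈ N' ↔ ∃ n : H, n ∈ N ∧ (n : V ≃ₗ[ZMod p] V) = g := by
    intro g
    rw [hN', Subgroup.mem_map]
    rfl
  have hnorm : ∀ h ∈ H, ∀ n ∈ N', h * n * h⁻¹ ∈ N' := by
    intro h hh n hn
    obtain ⟨m, hm, rfl⟩ := (hmemN' n).mp hn
    exact (hmemN' _).mpr ⟨(⟨h, hh⟩ : H) * m * (⟨h, hh⟩ : H)⁻¹, hNn.conj_mem m hm ⟨h, hh⟩, rfl⟩
  have htr : ∀ v w : V, v ≠ 0 → w ≠ 0 → ∃ h ∈ H, h v = w := by
    intro v w hv hw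
    obtain ⟨h, hh, -⟩ := hreg v w hv hw
    exact ⟨h.1, h.2, hh⟩
  have hinv : ∀ W : Submodule (ZMod p) V,
      (∀ n ∈ N, ∀ v ∈ W, ((n : H) : V ≃ₗ[ZMod p] V) v ∈ W) → ∀ n ∈ N', ∀ v ∈ W, n v ∈ W := by
    intro W hW n hn v hv
    obtain ⟨m, hm, rfl⟩ := (hmemN' n).mp hn
    exact hW m hm v hv
  have hirr : ∀ W : Submodule (ZMod p) V,
      (∀ n ∈ N, ∀ v ∈ W, ((n : H) : V ≃ₗ[ZMod p] V) v ∈ W) → W = ⊥ ∨ W = ⊤ := by
    intro W hW
    by_contra hne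
    push Not at hne
    apply hNna
    refine ⟨⟨?_⟩⟩
    rintro ⟨x, hx⟩ ⟨y, hy⟩
    apply Subtype.ext
    apply Subtype.ext
    show (x : V ≃ₗ[ZMod p] V) * (y : V ≃ₗ[ZMod p] V) = (y : V ≃ₗ[ZMod p] V) * (x : V ≃ₗ[ZMod p] V)
    exact Cfsg.Agent.H77.Zas.comm_of_reducible N' H hnorm htr W (hinv W hW) hne.1 hne.2 _ _
      ((hmemN' _).mpr ⟨x, hx, rfl⟩) ((hmemN' _).mpr ⟨y, hy, rfl⟩)
  refine ⟨hirr, ?_⟩
  have hirr' : ∀ W : Submodule (ZMod p) V, (∀ n ∈ N', ∀ v ∈ W, n v ∈ W) → W = ⊥ ∨ W = ⊤ := by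
    intro W hW
    apply hirr
    intro n hn v hv
    exact hW _ ((hmemN' _).mpr ⟨n, hn, rfl⟩) v hv
  have hCn : (Subgroup.centralizer (N : Set H)).Normal := by
    refine ⟨fun c hc g => ?_⟩
    rw [Subgroup.mem_centralizer_iff] at hc ⊢
    intro n hn
    have h1 : g⁻¹ * n * g ∈ N := by
      have := hNn.conj_mem n hn g⁻¹
      rwa [inv_inv] at this
    have h2 := hc _ h1
    calc n * (g * c * g⁻¹) = g * ((g⁻¹ * n * g) * c) * g⁻¹ := by group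
      _ = g * (c * (g⁻¹ * n * g)) * g⁻¹ := by rw [h2]
      _ = g * c * g⁻¹ * n := by group
  have hCc : IsMulCommutative (Subgroup.centralizer (N : Set H)) := by
    refine ⟨⟨?_⟩⟩
    rintro ⟨x, hx⟩ ⟨y, hy⟩
    apply Subtype.ext
    apply Subtype.ext
    show (x : V ≃ₗ[ZMod p] V) * (y : V ≃ₗ[ZMod p] V) = (y : V ≃ₗ[ZMod p] V) * (x : V ≃ₗ[ZMod p] V)
    have hcen : ∀ c : H, c ∈ Subgroup.centralizer (N : Set H) →
        ∀ n ∈ N', (c : V ≃ₗ[ZMod p] V) * n = n * (c : V ≃ₗ[ZMod p] V) := by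
      intro c hc n hn
      obtain ⟨m, hm, rfl⟩ := (hmemN' n).mp hn
      rw [Subgroup.mem_centralizer_iff] at hc
      have := hc m hm
      exact (congrArg Subtype.val this).symm
    exact Cfsg.Agent.H77.Zas.centralizer_comm N' hirr' _ _ (hcen x hx) (hcen y hy)
  have hAC : A ≤ Subgroup.centralizer (N : Set H) := by
    intro a ha
    rw [Subgroup.mem_centralizer_iff]
    intro n hn
    have h1 := hNle hn
    rw [Subgroup.mem_centralizer_iff] at h1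
    exact (h1 a ha).symm
  exact hAmax _ hCn hCc hAC

end Cfsg.Agent.S0687
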