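import Mathlib
import Cfsg.Statements.S0691
import Cfsg.Agent.Helper15.Mat2

set_option autoImplicit false
open Cfsg

namespace Cfsg.Agent.S0691

open Cfsg.Agent.Helper15

def d5_gens : List Q4 := [(2, 0, 0, 3), (0, 4, 1, 0), (1, 2, 1, 3)]

def d5_ginv : List Q4 := [(3, 0, 0, 2), (0, 1, 4, 0), (3, 3, 4, 1)]

def d5_words : List (List ℕ) :=
  [[], [0], [1], [2], [0, 0], [1, 0], [2, 0], [0, 1], [2, 1], [1, 2], [2, 2], [0, 0, 0], [1, 0, 0], [2, 0, 0], [1, 2, 0], [2, 2, 0], [2, 0, 1], [2, 2, 1], [0, 1, 2], [2, 1, 2], [2, 2, 0, 0], [2, 1, 2, 0], [2, 2, 0, 1], [2, 0, 1, 2]]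

def d5_L : List Q4 :=
  [(1, 0, 0, 1), (2, 0, 0, 3), (0, 4, 1, 0), (1, 2, 1, 3), (4, 0, 0, 4), (0, 2, 2, 0), (2, 1, 2, 4), (0, 3, 3, 0), (2, 4, 3, 4), (4, 2, 1, 2), (3, 3, 4, 1), (3, 0, 0, 2), (0, 1, 4, 0), (4, 3, 4, 2), (3, 1, 2, 1), (1, 4, 3, 3), (1, 3, 4, 3), (3, 2, 1, 1), (3, 4, 3, 1), (1, 1, 2, 3), (2, 2, 1, 4), (2, 3, 4, 4), (4, 4, 3, 2), (4, 1, 2, 2)]

def d5_M : ℕ := 33554430

theorem d5_check : checkAll 5 d5_gens d5_ginv 1 1 1 d5_words d5_L d5_M = true := by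
  decide +kernel


/-- An exceptional sharply doubly transitive group of degree 5^2: the listed matrices generate a subgroup of GL(2,5) of order 24 acting regularly on the non-zero vectors. -/
theorem result (A : Matrix.GeneralLinearGroup (Fin 2) (ZMod 5)) (B : Matrix.GeneralLinearGroup (Fin 2) (ZMod 5)) (C : Matrix.GeneralLinearGroup (Fin 2) (ZMod 5)) (hA : (A : Matrix (Fin 2) (Fin 2) (ZMod 5)) = !![2, 0; 0, -2]) (hB : (B : Matrix (Fin 2) (Fin 2) (ZMod 5)) = !![0, -1; 1, 0]) (hC : (C : Matrix (Fin 2) (Fin 2) (ZMod 5)) = !![1, 2; 1, -2]) : Nat.card (Subgroup.closure ({A, B, C} : Set (Matrix.GeneralLinearGroup (Fin 2) (ZMod 5)))) = 24 ∧ ∀ v w : Fin 2 → ZMod 5, v ≠ 0 → w ≠ 0 → ∃! h : Subgroup.closure ({A, B, C} : Set (Matrix.GeneralLinearGroup (Fin 2) (ZMod 5))), Matrix.mulVec ((h : Matrix.GeneralLinearGroup (Fin 2) (ZMod 5)) : Matrix (Fin 2) (Fin 2) (ZMod 5)) v = w := by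
  haveI : Fact (Nat.Prime 5) := ⟨by norm_num⟩
  have hA' : (A : Matrix (Fin 2) (Fin 2) (ZMod 5)) = toM 5 (2, 0, 0, 3) := by
    rw [hA]; unfold toM; ext i j; fin_cases i <;> fin_cases j <;> decide
  have hB' : (B : Matrix (Fin 2) (Fin 2) (ZMod 5)) = toM 5 (0, 4, 1, 0) := by
    rw [hB]; unfold toM; ext i j; fin_cases i <;> fin_cases j <;> decide
  have hC' : (C : Matrix (Fin 2) (Fin 2) (ZMod 5)) = toM 5 (1, 2, 1, 3) := by
    rw [hC]; unfold toM; ext i j; fin_cases i <;> fin_cases j <;> decide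
  have key := mat2_regular 5 ({A, B, C} : Set (Matrix.GeneralLinearGroup (Fin 2) (ZMod 5)))
    d5_gens d5_ginv 1 1 1 d5_words d5_L d5_M
    (by
      intro s hs
      left
      rcases hs with rfl | rfl | rfl
      · exact ⟨_, by decide, hA'⟩
      · exact ⟨_, by decide, hB'⟩
      · exact ⟨_, by decide, hC'⟩)
    (by
      intro g hg
      simp only [d5_gens, List.mem_cons, List.not_mem_nil, or_false] at hg
      rcases hg with rfl | rfl | rfl
      · exact ⟨A, Subgroup.subset_closure (by simp), hA'⟩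
      · exact ⟨B, Subgroup.subset_closure (by simp), hB'⟩
      · exact ⟨C, Subgroup.subset_closure (by simp), hC'⟩)
    ⟨1, Subgroup.one_mem _, by simp⟩
    d5_check
  exact key

end Cfsg.Agent.S0691
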