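import Mathlib
import Cfsg.Statements.S0694

set_option autoImplicit false
open Cfsg

namespace Cfsg.Agent.S0694

theorem dvd_of_val {a b : ℕ} (ha : a ≠ 0) (hb : b ≠ 0)
    (h : ∀ s : ℕ, s.Prime → s ∣ a → padicValNat s a ≤ padicValNat s b) : a ∣ b := by
  rw [← Nat.factorization_le_iff_dvd ha hb]
  intro s
  by_cases hs : s.Prime
  · rw [Nat.factorization_def _ hs, Nat.factorization_def _ hs]
    by_cases hsa : s ∣ a
    · exact h s hs hsa
    · rw [padicValNat.eq_zero_of_not_dvd hsa]; exact Nat.zero_le _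
  · rw [Nat.factorization_eq_zero_of_not_prime _ hs]; exact Nat.zero_le _

theorem val_le_of_dvd {a b : ℕ} (hb : b ≠ 0) (h : a ∣ b) (s : ℕ) [Fact s.Prime] :
    padicValNat s a ≤ padicValNat s b :=
  (padicValNat_dvd_iff_le hb).mp (dvd_trans pow_padicValNat_dvd h)

theorem pow_sub_one_ne_zero {x k : ℕ} (hx : 2 ≤ x) (hk : k ≠ 0) : x ^ k - 1 ≠ 0 := by
  have : 2 ≤ x ^ k := le_trans hx (Nat.le_self_pow hk x)
  omega

theorem sub_one_dvd_pow_sub_one (x : ℕ) {g m : ℕ} (h : g ∣ m) : x ^ g - 1 ∣ x ^ m - 1 := by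
  obtain ⟨t, rfl⟩ := h
  have := Nat.sub_dvd_pow_sub_pow (x ^ g) 1 t
  rwa [one_pow, ← pow_mul] at this

theorem not_dvd_of_dvd_pred {s x : ℕ} (hs : s.Prime) (hx : 1 ≤ x) (hsx : s ∣ x - 1) : ¬ s ∣ x := by
  intro h
  have : s ∣ 1 := by
    have h3 := Nat.dvd_sub h hsx
    have h4 : x - (x - 1) = 1 := by omega
    rwa [h4] at h3
  exact hs.one_lt.ne' (Nat.dvd_one.mp this)

/-- valuations for an exponent prime to `s` -/
theorem val_of_not_dvd {s x k : ℕ} (hs : s.Prime) (hx : 2 ≤ x) (hsx : s ∣ x - 1) (hk : ¬ s ∣ k) :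
    padicValNat s (x ^ k - 1) = padicValNat s (x - 1) := by
  have : Fact s.Prime := ⟨hs⟩
  have hk0 : k ≠ 0 := by rintro rfl; exact hk (dvd_zero s)
  have h1 : (1:ℕ) ≤ x ^ k := Nat.one_le_pow _ _ (by omega)
  have hsx' : (s : ℤ) ∣ (x : ℤ) - 1 := by
    have := Int.natCast_dvd_natCast.mpr hsx
    rwa [Nat.cast_sub (by omega), Nat.cast_one] at this
  have hnx : ¬ (s : ℤ) ∣ (x : ℤ) := fun h =>
    not_dvd_of_dvd_pred hs (by omega) hsx (Int.natCast_dvd_natCast.mp h)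
  have hnk : ¬ (s : ℤ) ∣ (k : ℤ) := fun h => hk (Int.natCast_dvd_natCast.mp h)
  have key := emultiplicity_pow_sub_pow_of_prime (Nat.prime_iff_prime_int.mp hs) (x := (x:ℤ))
    (y := 1) hsx' hnx hnk
  rw [← Nat.cast_inj (R := ℕ∞), padicValNat_eq_emultiplicity (pow_sub_one_ne_zero hx hk0),
    padicValNat_eq_emultiplicity (by omega : x - 1 ≠ 0)]
  rw [← Int.natCast_emultiplicity, ← Int.natCast_emultiplicity]
  rw [Nat.cast_sub h1, Nat.cast_sub (by omega)]
  simpa using key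

theorem val_two_eq_one {y : ℕ} (hy : y ≠ 0) (h2 : 2 ∣ y) (h4 : ¬ 4 ∣ y) : padicValNat 2 y = 1 := by
  have a1 := one_le_padicValNat_of_dvd (p := 2) hy h2
  have a2 : ¬ 2 ≤ padicValNat 2 y := by
    intro hle
    have := (padicValNat_dvd_iff_le (p := 2) (a := y) (n := 2) hy).mpr hle
    exact h4 (by simpa using this)
  omega

theorem lte {s x k : ℕ} (hs : s.Prime) (hx : 2 ≤ x) (hsx : s ∣ x - 1) (h4 : s = 2 → 4 ∣ x - 1)
    (hk : k ≠ 0) :
    padicValNat s (x ^ k - 1) = padicValNat s (x - 1) + padicValNat s k := by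
  have : Fact s.Prime := ⟨hs⟩
  have hnx : ¬ s ∣ x := not_dvd_of_dvd_pred hs (by omega) hsx
  rcases hs.eq_two_or_odd' with rfl | hodd
  · have h4' := h4 rfl
    rcases Nat.even_or_odd k with hev | hod
    · have h := padicValNat.pow_two_sub_one (by omega : 1 < x) hnx hk hev
      have h5 : padicValNat 2 (x + 1) = 1 :=
        val_two_eq_one (by omega) (by omega) (by omega)
      omega
    · have : ¬ 2 ∣ k := by rwa [← even_iff_two_dvd, Nat.not_even_iff_odd]
      rw [val_of_not_dvd hs hx hsx this, padicValNat.eq_zero_of_not_dvd this, add_zero]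
  · have := padicValNat.pow_sub_pow (p := s) hodd (x := x) (y := 1) (by omega) hsx hnx hk
    rwa [one_pow] at this

theorem fermat_descent {r q a k : ℕ} (hr : r.Prime) (hq : 1 ≤ q)
    (h : r ∣ q ^ (r ^ a * k) - 1) : r ∣ q ^ k - 1 := by
  have : Fact r.Prime := ⟨hr⟩
  rw [← ZMod.natCast_eq_zero_iff] at h ⊢
  rw [Nat.cast_sub (Nat.one_le_pow _ _ hq), Nat.cast_pow, Nat.cast_one] at h ⊢
  rwa [pow_mul, ZMod.pow_card_pow] at h

theorem dvd_of_small {s r q m : ℕ} (hs : s.Prime) (hr : r.Prime) (hsr : s < r) (hq : 2 ≤ q)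
    (hm : m ≠ 0) (h : s ∣ q ^ (r * m) - 1) : s ∣ q ^ m - 1 := by
  have : Fact s.Prime := ⟨hs⟩
  have hnq : ¬ s ∣ q := by
    intro hq'
    have h1 : s ∣ q ^ (r * m) := dvd_pow hq' (mul_ne_zero hr.ne_zero hm)
    exact not_dvd_of_dvd_pred hs (Nat.one_le_pow _ _ (by omega)) h h1
  have h1 : s ∣ q ^ (s - 1) - 1 := by
    rw [← ZMod.natCast_eq_zero_iff, Nat.cast_sub (Nat.one_le_pow _ _ (by omega)), Nat.cast_pow,
      Nat.cast_one, ZMod.pow_card_sub_one_eq_one, sub_self]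
    rwa [Ne, ZMod.natCast_eq_zero_iff]
  have h2 : s ∣ q ^ (Nat.gcd (s - 1) (r * m)) - 1 := by
    rw [← Nat.pow_sub_one_gcd_pow_sub_one]
    exact Nat.dvd_gcd h1 h
  have hcop : Nat.Coprime (Nat.gcd (s - 1) (r * m)) r := by
    have : Nat.Coprime (s - 1) r := by
      rw [Nat.coprime_comm, Nat.Prime.coprime_iff_not_dvd hr]
      intro hd
      have := Nat.le_of_dvd (by have := hs.two_le; omega) hd
      omega
    exact Nat.Coprime.coprime_dvd_left (Nat.gcd_dvd_left _ _) this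
  have hg : Nat.gcd (s - 1) (r * m) ∣ m := hcop.dvd_of_dvd_mul_left (Nat.gcd_dvd_right _ _)
  exact dvd_trans h2 (sub_one_dvd_pow_sub_one q hg)

theorem modeq_iff (q N k : ℕ) (hq : 1 ≤ q) : q ^ k ≡ 1 [MOD N] ↔ N ∣ q ^ k - 1 := by
  rw [Nat.ModEq.comm, Nat.modEq_iff_dvd' (Nat.one_le_pow _ _ hq)]

theorem pow_mod_four {q m : ℕ} (hq : q % 4 = 3) (hm : Odd m) : q ^ m % 4 = 3 := by
  obtain ⟨k, hk⟩ := hm
  rw [hk, pow_succ, pow_mul, Nat.mul_mod, Nat.pow_mod, Nat.pow_mod q 2, hq]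
  norm_num

theorem forward (q n : ℕ) (hq2 : 2 ≤ q) (hn : 1 < n)
    (H1 : ∀ r : ℕ, r.Prime → r ∣ n → r ∣ q - 1) (H2 : 4 ∣ n → 4 ∣ q - 1) :
    n * (q - 1) ∣ q ^ n - 1 ∧ ∀ i : ℕ, 0 < i → i < n → ¬ n * (q - 1) ∣ q ^ i - 1 := by
  have hq1 : q - 1 ≠ 0 := by omega
  have hn0 : n ≠ 0 := by omega
  have hN0 : n * (q - 1) ≠ 0 := mul_ne_zero hn0 hq1
  have hA : n * (q - 1) ∣ q ^ n - 1 := by
    apply dvd_of_val hN0 (pow_sub_one_ne_zero hq2 hn0)
    intro s hs hsN
    have : Fact s.Prime := ⟨hs⟩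
    have hsq : s ∣ q - 1 := by
      rcases (Nat.Prime.dvd_mul hs).mp hsN with h | h
      · exact H1 s hs h
      · exact h
    rw [padicValNat.mul hn0 hq1]
    by_cases hc : s = 2 ∧ ¬ 4 ∣ q - 1
    · obtain ⟨rfl, h4⟩ := hc
      have h4n : ¬ 4 ∣ n := fun h => h4 (H2 h)
      rw [val_two_eq_one hq1 hsq h4]
      rcases Nat.even_or_odd n with hev | hod
      · have hge := padicValNat.pow_two_sub_one_ge (by omega : 1 < q) (by omega : ¬ 2 ∣ q) hn0 hev
        have := val_two_eq_one hn0 (even_iff_two_dvd.mp hev) h4n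
        omega
      · have h2n : ¬ 2 ∣ n := by rwa [← even_iff_two_dvd, Nat.not_even_iff_odd]
        rw [padicValNat.eq_zero_of_not_dvd h2n, zero_add]
        exact one_le_padicValNat_of_dvd (pow_sub_one_ne_zero hq2 hn0)
          (dvd_trans hsq (by simpa using sub_one_dvd_pow_sub_one q (one_dvd n)))
    · rw [lte hs hq2 hsq (by intro h2; by_contra h4; exact hc ⟨h2, h4⟩) hn0, add_comm]
  refine ⟨hA, ?_⟩
  intro i hi hin hdiv
  obtain ⟨g, hg⟩ : ∃ g, g = Nat.gcd i n := ⟨_, rfl⟩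
  have hgdiv : n * (q - 1) ∣ q ^ g - 1 := by
    rw [hg, ← Nat.pow_sub_one_gcd_pow_sub_one]
    exact Nat.dvd_gcd hdiv hA
  have hgn : g ∣ n := hg ▸ Nat.gcd_dvd_right _ _
  have hglt : g < n := lt_of_le_of_lt (Nat.le_of_dvd hi (hg ▸ Nat.gcd_dvd_left _ _)) hin
  obtain ⟨t, ht⟩ := hgn
  have ht1 : t ≠ 1 := by
    rintro rfl
    rw [mul_one] at ht
    omega
  obtain ⟨r, hr, hrt⟩ := Nat.exists_prime_and_dvd ht1
  obtain ⟨t', rfl⟩ := hrt
  have hnm : n = r * (g * t') := by rw [ht]; ring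
  have hm0 : g * t' ≠ 0 := by
    intro h0
    rw [h0, mul_zero] at hnm
    omega
  have hmdiv : n * (q - 1) ∣ q ^ (g * t') - 1 :=
    dvd_trans hgdiv (sub_one_dvd_pow_sub_one q (dvd_mul_right g t'))
  have : Fact r.Prime := ⟨hr⟩
  have hrn : r ∣ n := ⟨_, hnm⟩
  have hrq : r ∣ q - 1 := H1 r hr hrn
  by_cases hc : r = 2 ∧ ¬ 4 ∣ q - 1
  · obtain ⟨rfl, h4⟩ := hc
    have h4n : ¬ 4 ∣ n := fun h => h4 (H2 h)
    have hodd : Odd (g * t') := by
      rw [← Nat.not_even_iff_odd]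
      rintro ⟨u, hu⟩
      apply h4n
      rw [hnm, hu]
      exact ⟨u, by ring⟩
    have h4N : 4 ∣ n * (q - 1) := by
      obtain ⟨a, ha⟩ := hrn
      obtain ⟨b, hb⟩ := hrq
      rw [ha, hb]
      exact ⟨a * b, by ring⟩
    have h4q : 4 ∣ q ^ (g * t') - 1 := dvd_trans h4N hmdiv
    have hq4 : q % 4 = 3 := by omega
    have hpow : q ^ (g * t') % 4 = 3 := pow_mod_four hq4 hodd
    have := Nat.one_le_pow (g * t') q (by omega)
    omega
  · have hl := lte hr hq2 hrq (by intro h2; by_contra h4; exact hc ⟨h2, h4⟩) hm0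
    have hle := val_le_of_dvd (pow_sub_one_ne_zero hq2 hm0) hmdiv r
    rw [padicValNat.mul hn0 hq1, hl] at hle
    have : padicValNat r n = 1 + padicValNat r (g * t') := by
      rw [hnm, padicValNat.mul hr.ne_zero hm0, padicValNat_self]
    omega

theorem backward (q n : ℕ) (hq2 : 2 ≤ q) (hn : 1 < n)
    (R1 : n * (q - 1) ∣ q ^ n - 1)
    (R2 : ∀ i : ℕ, 0 < i → i < n → ¬ n * (q - 1) ∣ q ^ i - 1) :
    (∀ r : ℕ, r.Prime → r ∣ n → r ∣ q - 1) ∧ (4 ∣ n → 4 ∣ q - 1) := by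
  have hq1 : q - 1 ≠ 0 := by omega
  have hn0 : n ≠ 0 := by omega
  have hN0 : n * (q - 1) ≠ 0 := mul_ne_zero hn0 hq1
  have hC : ∀ r : ℕ, r.Prime → r ∣ n → r ∣ q - 1 := by
    by_contra hcon
    push Not at hcon
    obtain ⟨r₀, hr₀, hr₀n, hr₀q⟩ := hcon
    obtain ⟨B, hBdef⟩ : ∃ B : Finset ℕ, B = (n.primeFactors).filter (fun r => ¬ r ∣ q - 1) :=
      ⟨_, rfl⟩
    have hBmem : ∀ s, s ∈ B ↔ s.Prime ∧ s ∣ n ∧ ¬ s ∣ q - 1 := by
      intro s
      rw [hBdef, Finset.mem_filter, Nat.mem_primeFactors]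
      tauto
    have hB : B.Nonempty := ⟨r₀, (hBmem r₀).mpr ⟨hr₀, hr₀n, hr₀q⟩⟩
    obtain ⟨r, hrB, hrmax⟩ := Finset.exists_max_image B id hB
    obtain ⟨hr, hrn, hrq⟩ := (hBmem r).mp hrB
    have : Fact r.Prime := ⟨hr⟩
    have hnq : ∀ s : ℕ, s.Prime → s ∣ n → ¬ s ∣ q := by
      intro s hs hsn hsq
      have h1 : s ∣ q ^ n := dvd_pow hsq hn0
      have h2 : s ∣ q ^ n - 1 := dvd_trans (dvd_trans hsn (dvd_mul_right _ _)) R1
      exact not_dvd_of_dvd_pred hs (Nat.one_le_pow _ _ (by omega)) h2 h1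
    have hrodd : Odd r := by
      rcases hr.eq_two_or_odd' with rfl | h
      · exfalso
        have := hnq 2 hr hrn
        omega
      · exact h
    obtain ⟨m, hm⟩ := hrn
    have hm0 : m ≠ 0 := by
      rintro rfl
      omega
    have hmn : m < n := by
      rw [hm]
      have := hr.two_le
      nlinarith [Nat.pos_of_ne_zero hm0]
    apply R2 m (Nat.pos_of_ne_zero hm0) hmn
    apply dvd_of_val hN0 (pow_sub_one_ne_zero hq2 hm0)
    intro s hs hsN
    have : Fact s.Prime := ⟨hs⟩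
    by_cases hsr : s = r
    · subst hsr
      rw [padicValNat.mul hn0 hq1, padicValNat.eq_zero_of_not_dvd hrq, add_zero]
      obtain ⟨m', hm'⟩ : s ^ padicValNat s n ∣ n := pow_padicValNat_dvd
      have ha1 : 1 ≤ padicValNat s n := one_le_padicValNat_of_dvd hn0 ⟨m, hm⟩
      obtain ⟨a, ha⟩ : ∃ a, padicValNat s n = a + 1 := ⟨padicValNat s n - 1, by omega⟩
      rw [ha] at hm' ⊢
      have hmm : m = s ^ a * m' := by
        have : s * m = s * (s ^ a * m') := by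
          rw [← hm]
          conv_lhs => rw [hm']
          ring
        exact Nat.eq_of_mul_eq_mul_left hr.pos this
      have hm'0 : m' ≠ 0 := by
        rintro rfl
        rw [mul_zero] at hmm
        exact hm0 hmm
      have hx : s ∣ q ^ m' - 1 := by
        apply fermat_descent hr (by omega) (a := a + 1)
        rw [← hm']
        exact dvd_trans (dvd_trans ⟨m, hm⟩ (dvd_mul_right _ _)) R1
      have hx2 : 2 ≤ q ^ m' := le_trans hq2 (Nat.le_self_pow hm'0 q)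
      have hl := lte hr hx2 hx
        (by intro h2; exfalso; rw [h2] at hrodd; exact absurd hrodd (by decide))
        (k := s ^ a) (pow_ne_zero _ hr.ne_zero)
      rw [← pow_mul, mul_comm m' (s ^ a), ← hmm, padicValNat.prime_pow] at hl
      rw [hl]
      have := one_le_padicValNat_of_dvd (pow_sub_one_ne_zero hq2 hm'0) hx
      omega
    · have hsm : s ∣ q ^ m - 1 := by
        by_cases hsq : s ∣ q - 1
        · exact dvd_trans hsq (by simpa using sub_one_dvd_pow_sub_one q (one_dvd m))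
        · have hsn : s ∣ n := ((Nat.Prime.dvd_mul hs).mp hsN).resolve_right hsq
          have hsB : s ∈ B := (hBmem s).mpr ⟨hs, hsn, hsq⟩
          have hle : s ≤ r := hrmax s hsB
          have hlt : s < r := lt_of_le_of_ne hle hsr
          apply dvd_of_small hs hr hlt hq2 hm0
          rw [← hm]
          exact dvd_trans (dvd_trans hsn (dvd_mul_right _ _)) R1
      have hx2 : 2 ≤ q ^ m := le_trans hq2 (Nat.le_self_pow hm0 q)
      have hv := val_of_not_dvd hs hx2 hsm (k := r)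
        (by rw [Nat.prime_dvd_prime_iff_eq hs hr]; exact hsr)
      rw [← pow_mul, mul_comm m r, ← hm] at hv
      rw [← hv]
      exact val_le_of_dvd (pow_sub_one_ne_zero hq2 hn0) R1 s
  refine ⟨hC, ?_⟩
  intro h4n
  by_contra h4q
  have h2n : 2 ∣ n := dvd_trans (by norm_num) h4n
  have h2q : 2 ∣ q - 1 := hC 2 Nat.prime_two h2n
  obtain ⟨m, hm⟩ := h2n
  have hm0 : m ≠ 0 := by
    rintro rfl
    omega
  have hmev : Even m := by
    rw [even_iff_two_dvd]
    omega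
  apply R2 m (Nat.pos_of_ne_zero hm0) (by omega)
  apply dvd_of_val hN0 (pow_sub_one_ne_zero hq2 hm0)
  intro s hs hsN
  have : Fact s.Prime := ⟨hs⟩
  have hsq : s ∣ q - 1 := by
    rcases (Nat.Prime.dvd_mul hs).mp hsN with h | h
    · exact hC s hs h
    · exact h
  rw [padicValNat.mul hn0 hq1]
  rcases hs.eq_two_or_odd' with rfl | hodd
  · have hge := padicValNat.pow_two_sub_one_ge (by omega : 1 < q) (by omega : ¬ 2 ∣ q) hm0 hmev
    have hv1 : padicValNat 2 (q - 1) = 1 := val_two_eq_one hq1 h2q h4q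
    have hv2 : padicValNat 2 n = 1 + padicValNat 2 m := by
      rw [hm, padicValNat.mul (by norm_num) hm0, padicValNat_self]
    omega
  · have hl := lte hs hq2 hsq
      (by intro h2; exfalso; rw [h2] at hodd; exact absurd hodd (by decide)) hm0
    have hv2 : padicValNat s n = padicValNat s m := by
      rw [hm, padicValNat.mul (by norm_num) hm0, padicValNat.eq_zero_of_not_dvd, zero_add]
      intro h2
      have := (Nat.prime_dvd_prime_iff_eq hs Nat.prime_two).mp h2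
      rw [this] at hodd
      exact absurd hodd (by decide)
    rw [hl, hv2]
    omega

/-- The Dickson pair condition: for a prime power `q` and `n > 1`, (every prime factor of `n` divides `q - 1`, and `4 ∣ n → 4 ∣ q - 1`) holds exactly when `q ^ n ≡ 1` modulo `n * (q - 1)` but `q ^ i` is not, for `0 < i < n`. -/
theorem result (q n : ℕ) (hq : IsPrimePow q) (hn : 1 < n) : ((∀ r : ℕ, r.Prime → r ∣ n → r ∣ q - 1) ∧ (4 ∣ n → 4 ∣ q - 1)) ↔ (q ^ n ≡ 1 [MOD n * (q - 1)] ∧ ∀ i : ℕ, 0 < i → i < n → ¬ q ^ i ≡ 1 [MOD n * (q - 1)]) := by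
  have hq2 : 2 ≤ q := hq.two_le
  simp only [modeq_iff q _ _ (by omega : 1 ≤ q)]
  constructor
  · rintro ⟨H1, H2⟩
    exact forward q n hq2 hn H1 H2
  · rintro ⟨R1, R2⟩
    exact backward q n hq2 hn R1 R2

end Cfsg.Agent.S0694
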