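import Cfsg.Statements.S0697
import Cfsg.Agent.H15.MultTrans

set_option autoImplicit false
open Cfsg

namespace Cfsg.Agent.S0697

/-- In a `k`-primitive permutation group which is not the whole symmetric group, a non-trivial non-regular normal subgroup is `k`-transitive. -/
theorem result {α : Type*} [Fintype α] [DecidableEq α] (G : Subgroup (Equiv.Perm α)) {k : ℕ} (hk : 1 ≤ k) (hkn : k ≤ Fintype.card α) (hG : MulAction.IsMultiplyPreprimitive G α k) (htop : G ≠ ⊤) (H : Subgroup G) [H.Normal] (hH : H ≠ ⊥) (hnr : ∃ a : α, MulAction.stabilizer H a ≠ ⊥) : MulAction.IsMultiplyPretransitive H α k := by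
  classical
  have hfull : ¬ MulAction.IsMultiplyPretransitive G α (Fintype.card α - 1) := by
    intro h
    apply htop
    apply Equiv.Perm.eq_top_of_isMultiplyPretransitive
    rw [Nat.card_eq_fintype_card]
    exact h
  obtain ⟨a, ha⟩ := hnr
  obtain ⟨h, hh, hh1⟩ : ∃ h ∈ MulAction.stabilizer H a, h ≠ 1 := by
    by_contra hcon
    push Not at hcon
    apply ha
    rw [eq_bot_iff]
    intro x hx
    rw [Subgroup.mem_bot]
    exact hcon x hx
  rw [MulAction.mem_stabilizer_iff] at hh
  have key := Cfsg.Agent.H15.jordan_prim_aux (Γ := G) (α := α) H k hG hkn hfull k hk ∅ (by simp)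
    ⟨a, by simp, (h : G), h.2, fun h1 => hh1 (Subtype.ext h1), by simp, hh⟩
  rw [Finset.coe_empty] at key
  exact (Cfsg.Agent.H15.transOn_empty_iff H k).mp key

end Cfsg.Agent.S0697
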