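import Cfsg.Statements.S0698
import Cfsg.Agent.H15.MultTrans

set_option autoImplicit false
open Cfsg

namespace Cfsg.Agent.S0698

/-- Jordan's Theorem on normal subgroups of multiply transitive groups: if `G` is `k`-transitive (`k > 1`) of degree greater than `k`, a non-trivial normal subgroup is `(k-1)`-transitive, except possibly for `k = 3` when it may be an elementary abelian 2-group. -/
theorem result {α : Type*} [Fintype α] [DecidableEq α] (G : Subgroup (Equiv.Perm α)) {k : ℕ} (hk : 1 < k) (hdeg : k < Fintype.card α) (hG : MulAction.IsMultiplyPretransitive G α k) (N : Subgroup G) [N.Normal] (hN : N ≠ ⊥) : MulAction.IsMultiplyPretransitive N α (k - 1) ∨ (k = 3 ∧ IsMulCommutative N ∧ ∀ n ∈ N, n ^ 2 = 1) := by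
  classical
  obtain ⟨h, hh, hh1⟩ : ∃ h ∈ N, h ≠ 1 := by
    by_contra hcon
    push Not at hcon
    apply hN
    rw [eq_bot_iff]
    intro x hx
    rw [Subgroup.mem_bot]
    exact hcon x hx
  rcases Cfsg.Agent.H15.jordan_trans_aux (Γ := G) (α := α) N k hG hdeg k hk ∅ (by simp)
    ⟨h, hh, hh1, by simp⟩ with key | ⟨hk3, -, hexp⟩
  · left
    rw [Finset.coe_empty] at key
    exact (Cfsg.Agent.H15.transOn_empty_iff N (k - 1)).mp key
  · right
    have hexp' : ∀ n ∈ N, n ^ 2 = 1 := fun n hn => hexp n hn (by simp)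
    have hinv : ∀ z : N, z⁻¹ = z := by
      intro z
      apply inv_eq_of_mul_eq_one_left
      apply Subtype.ext
      have := hexp' z z.2
      rw [pow_two] at this
      exact this
    refine ⟨hk3, ⟨⟨fun x y => ?_⟩⟩, hexp'⟩
    have h1 := hinv (x * y)
    rw [mul_inv_rev, hinv x, hinv y] at h1
    exact h1.symm

end Cfsg.Agent.S0698
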