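import Cfsg.Statements.S0699
import Cfsg.Agent.H16.SylowConj
import Cfsg.Agent.H16.Sharp3
import Mathlib

set_option autoImplicit false
open Cfsg

namespace Cfsg.Agent.S0699

open MulAction Equiv

variable {α : Type*} [Fintype α] [DecidableEq α]

/-- Elementary form of triple transitivity for a subgroup of `Perm α`. -/
def T3 (G : Subgroup (Perm α)) : Prop :=
  ∀ a b c a' b' c' : α, a ≠ b → a ≠ c → b ≠ c → a' ≠ b' → a' ≠ c' → b' ≠ c' →
    ∃ g ∈ G, g a = a' ∧ g b = b' ∧ g c = c'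

/-- Pointwise stabiliser of two points inside `M`. -/
def ptStab (M : Subgroup (Perm α)) (a b : α) : Subgroup (Perm α) where
  carrier := {x | x ∈ M ∧ x a = a ∧ x b = b}
  mul_mem' := by
    rintro x y ⟨hx, hxa, hxb⟩ ⟨hy, hya, hyb⟩
    exact ⟨M.mul_mem hx hy, by rw [Perm.mul_apply, hya, hxa], by rw [Perm.mul_apply, hyb, hxb]⟩
  one_mem' := ⟨M.one_mem, rfl, rfl⟩
  inv_mem' := by
    rintro x ⟨hx, hxa, hxb⟩
    exact ⟨M.inv_mem hx, by rw [Perm.inv_eq_iff_eq, hxa], by rw [Perm.inv_eq_iff_eq, hxb]⟩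

/-- Setwise stabiliser of a pair inside `M`. -/
def setStab (M : Subgroup (Perm α)) (a b : α) : Subgroup (Perm α) where
  carrier := {x | x ∈ M ∧ ((x a = a ∧ x b = b) ∨ (x a = b ∧ x b = a))}
  mul_mem' := by
    rintro x y ⟨hx, hx'⟩ ⟨hy, hy'⟩
    refine ⟨M.mul_mem hx hy, ?_⟩
    rcases hx' with ⟨h1, h2⟩ | ⟨h1, h2⟩ <;> rcases hy' with ⟨h3, h4⟩ | ⟨h3, h4⟩
    · left; exact ⟨by rw [Perm.mul_apply, h3, h1], by rw [Perm.mul_apply, h4, h2]⟩
    · right; exact ⟨by rw [Perm.mul_apply, h3, h2], by rw [Perm.mul_apply, h4, h1]⟩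
    · right; exact ⟨by rw [Perm.mul_apply, h3, h1], by rw [Perm.mul_apply, h4, h2]⟩
    · left; exact ⟨by rw [Perm.mul_apply, h3, h2], by rw [Perm.mul_apply, h4, h1]⟩
  one_mem' := ⟨M.one_mem, Or.inl ⟨rfl, rfl⟩⟩
  inv_mem' := by
    rintro x ⟨hx, hx'⟩
    refine ⟨M.inv_mem hx, ?_⟩
    rcases hx' with ⟨h1, h2⟩ | ⟨h1, h2⟩
    · left; exact ⟨by rw [Perm.inv_eq_iff_eq, h1], by rw [Perm.inv_eq_iff_eq, h2]⟩
    · right; exact ⟨by rw [Perm.inv_eq_iff_eq, h2], by rw [Perm.inv_eq_iff_eq, h1]⟩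

omit [Fintype α] [DecidableEq α] in
theorem card_ptStab_eq (M : Subgroup (Perm α)) {a b c d : α} (x : Perm α) (hx : x ∈ M)
    (hxa : x a = c) (hxb : x b = d) :
    Nat.card (ptStab M a b) = Nat.card (ptStab M c d) := by
  have hxa' : x⁻¹ c = a := by rw [Perm.inv_eq_iff_eq, hxa]
  have hxb' : x⁻¹ d = b := by rw [Perm.inv_eq_iff_eq, hxb]
  refine Nat.card_congr ⟨fun u => ⟨x * u.1 * x⁻¹, ?_⟩, fun u => ⟨x⁻¹ * u.1 * x, ?_⟩, ?_, ?_⟩
  · refine ⟨M.mul_mem (M.mul_mem hx u.2.1) (M.inv_mem hx), ?_, ?_⟩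
    · simp only [Perm.mul_apply]; rw [hxa', u.2.2.1, hxa]
    · simp only [Perm.mul_apply]; rw [hxb', u.2.2.2, hxb]
  · refine ⟨M.mul_mem (M.mul_mem (M.inv_mem hx) u.2.1) hx, ?_, ?_⟩
    · simp only [Perm.mul_apply]; rw [hxa, u.2.2.1, hxa']
    · simp only [Perm.mul_apply]; rw [hxb, u.2.2.2, hxb']
  · intro u; ext; simp [mul_assoc]
  · intro u; ext; simp [mul_assoc]

omit [Fintype α] [DecidableEq α] in
theorem card_setStab [Finite α] (M : Subgroup (Perm α)) {a b : α} (hab : a ≠ b) {t : Perm α}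
    (htM : t ∈ M) (hta : t a = b) (htb : t b = a) :
    Nat.card (setStab M a b) = 2 * Nat.card (ptStab M a b) := by
  have hle : ptStab M a b ≤ setStab M a b := fun x hx => ⟨hx.1, Or.inl hx.2⟩
  have hidx : ((ptStab M a b).subgroupOf (setStab M a b)).index = 2 := by
    rw [Subgroup.index_eq_two_iff]
    refine ⟨⟨t, htM, Or.inr ⟨hta, htb⟩⟩, ?_⟩
    rintro ⟨x, hxM, hx⟩
    simp only [Subgroup.mem_subgroupOf]
    rcases hx with ⟨h1, h2⟩ | ⟨h1, h2⟩
    · refine Or.inr ⟨⟨hxM, h1, h2⟩, ?_⟩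
      rintro ⟨_, h3, _⟩
      change (x * t) a = a at h3
      rw [Perm.mul_apply, hta, h2] at h3
      exact hab h3.symm
    · refine Or.inl ⟨⟨M.mul_mem hxM htM, ?_, ?_⟩, ?_⟩
      · change (x * t) a = a
        rw [Perm.mul_apply, hta, h2]
      · change (x * t) b = b
        rw [Perm.mul_apply, htb, h1]
      · rintro ⟨_, h3, _⟩
        change x a = a at h3
        rw [h1] at h3
        exact hab h3.symm
  have h1 := Subgroup.card_mul_index ((ptStab M a b).subgroupOf (setStab M a b))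
  rw [hidx, Nat.card_congr (Subgroup.subgroupOfEquivOfLe hle).toEquiv] at h1
  omega

/-- The heart of Wagner's theorem: the stabiliser of two points in `M` is transitive on the
remaining points. -/
theorem wagner_key (G M : Subgroup (Perm α)) (hodd : Odd (Fintype.card α))
    (h5 : 5 ≤ Fintype.card α) (hG : T3 G)
    (hnorm : ∀ g ∈ G, ∀ x ∈ M, g * x * g⁻¹ ∈ M)
    (hM2 : ∀ a b a' b' : α, a ≠ b → a' ≠ b' → ∃ x ∈ M, x a = a' ∧ x b = b') {a b : α}
    (hab : a ≠ b) :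
    ∃ γ, γ ≠ a ∧ γ ≠ b ∧ ∀ c, c ≠ a → c ≠ b → ∃ x ∈ ptStab M a b, x γ = c := by
  classical
  have : Fact (Nat.Prime 2) := ⟨Nat.prime_two⟩
  have hnorm' : ∀ g ∈ G, ∀ x ∈ M, g⁻¹ * x * g ∈ M := by
    intro g hg x hx
    have := hnorm g⁻¹ (G.inv_mem hg) x hx
    simpa using this
  set A := ptStab M a b with hA
  set B := setStab M a b with hB
  obtain ⟨t₀, ht₀M, ht₀a, ht₀b⟩ := hM2 a b b a hab hab.symm
  have hcardB : Nat.card B = 2 * Nat.card A := card_setStab M hab ht₀M ht₀a ht₀b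
  have hApos : Nat.card A ≠ 0 := Nat.card_pos.ne'
  obtain ⟨P, hPB, hPcard⟩ : ∃ P : Subgroup (Perm α), P ≤ B ∧
      Nat.card P = 2 ^ (Nat.card B).factorization 2 := by
    obtain ⟨P0, hP0⟩ := Sylow.exists_subgroup_card_pow_prime (G := B) 2
      (Nat.ordProj_dvd (Nat.card B) 2)
    refine ⟨P0.map B.subtype, ?_, ?_⟩
    · rintro _ ⟨u, _, rfl⟩; exact u.2
    · rw [Subgroup.card_map_of_injective B.subtype_injective, hP0]
  have hPp : IsPGroup 2 P := IsPGroup.of_card hPcard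
  have hfac : (Nat.card B).factorization 2 = (Nat.card A).factorization 2 + 1 := by
    rw [hcardB, Nat.factorization_mul two_ne_zero hApos]
    simp [Nat.Prime.factorization_self Nat.prime_two]
    omega
  have hPnot : ∀ γ γ' : α, γ ≠ γ' → ¬ (∀ x ∈ P, x γ = γ ∧ x γ' = γ') := by
    intro γ γ' hne hfix
    obtain ⟨x, hxM, hxa, hxb⟩ := hM2 a b γ γ' hab hne
    have h1 : Nat.card (ptStab M γ γ') = Nat.card A := (card_ptStab_eq M x hxM hxa hxb).symm
    have h2 : P ≤ ptStab M γ γ' := fun y hy => ⟨(hPB hy).1, hfix y hy⟩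
    have h3 : 2 ^ ((Nat.card A).factorization 2 + 1) ∣ Nat.card A := by
      rw [← hfac, ← hPcard, ← h1]; exact Subgroup.card_dvd_of_le h2
    exact Nat.pow_succ_factorization_not_dvd hApos Nat.prime_two h3
  let Δ : Set α := {c | c ≠ a ∧ c ≠ b}
  have hBΔ : ∀ x ∈ B, ∀ c ∈ Δ, x c ∈ Δ := by
    rintro x ⟨_, hx⟩ c ⟨hca, hcb⟩
    rcases hx with ⟨h1, h2⟩ | ⟨h1, h2⟩
    · exact ⟨fun h => hca (x.injective (h.trans h1.symm)),
        fun h => hcb (x.injective (h.trans h2.symm))⟩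
    · exact ⟨fun h => hcb (x.injective (h.trans h2.symm)),
        fun h => hca (x.injective (h.trans h1.symm))⟩
  have hΔcard : ¬ 2 ∣ Nat.card Δ := by
    have h1 : Δ = ({a, b} : Set α)ᶜ := by
      ext c
      simp [Δ]
    rw [h1, Nat.card_coe_set_eq, Set.ncard_compl, Set.ncard_pair hab, Nat.card_eq_fintype_card]
    obtain ⟨r, hr⟩ := hodd
    omega
  obtain ⟨γ, hγΔ, hγP⟩ :=
    H16.exists_fixed_in_invariant P hPp Δ (fun x hx => hBΔ x (hPB hx)) hΔcard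
  refine ⟨γ, hγΔ.1, hγΔ.2, ?_⟩
  let Γ : α → Set α := fun c => {y | ∃ x ∈ A, x c = y}
  have hcΓ : ∀ c, c ∈ Γ c := fun c => ⟨1, A.one_mem, rfl⟩
  have hBA : ∀ x ∈ B, ∀ y ∈ A, x * y * x⁻¹ ∈ A := by
    rintro x ⟨hxM, hx⟩ y ⟨hyM, hya, hyb⟩
    refine ⟨M.mul_mem (M.mul_mem hxM hyM) (M.inv_mem hxM), ?_, ?_⟩
    · rcases hx with ⟨h1, h2⟩ | ⟨h1, h2⟩
      · have h3 : x⁻¹ a = a := by rw [Perm.inv_eq_iff_eq, h1]
        simp only [Perm.mul_apply]; rw [h3, hya, h1]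
      · have h3 : x⁻¹ a = b := by rw [Perm.inv_eq_iff_eq, h2]
        simp only [Perm.mul_apply]; rw [h3, hyb, h2]
    · rcases hx with ⟨h1, h2⟩ | ⟨h1, h2⟩
      · have h3 : x⁻¹ b = b := by rw [Perm.inv_eq_iff_eq, h2]
        simp only [Perm.mul_apply]; rw [h3, hyb, h2]
      · have h3 : x⁻¹ b = a := by rw [Perm.inv_eq_iff_eq, h1]
        simp only [Perm.mul_apply]; rw [h3, hya, h1]
  obtain ⟨t, htP, hta, htb⟩ : ∃ t ∈ P, t a = b ∧ t b = a := by
    by_contra hcon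
    push Not at hcon
    apply hPnot a b hab
    intro x hx
    rcases (hPB hx).2 with h | h
    · exact h
    · exact absurd h.2 (hcon x hx h.1)
  have hPΓγ : ∀ x ∈ P, ∀ y ∈ Γ γ, x y ∈ Γ γ := by
    rintro x hx _ ⟨z, hz, rfl⟩
    refine ⟨x * z * x⁻¹, hBA x (hPB hx) z hz, ?_⟩
    have h3 : x⁻¹ γ = γ := by rw [Perm.inv_eq_iff_eq, hγP x hx]
    simp only [Perm.mul_apply]; rw [h3]
  have hBΓγ : ∀ x ∈ B, ∀ y ∈ Γ γ, x y ∈ Γ γ := by
    intro x hx y hy
    rcases hx.2 with h | h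
    · obtain ⟨z, hz, rfl⟩ := hy
      exact ⟨x * z, A.mul_mem ⟨hx.1, h⟩ hz, rfl⟩
    · have h1 : x * t⁻¹ ∈ A := by
        refine ⟨M.mul_mem hx.1 (M.inv_mem (hPB htP).1), ?_, ?_⟩
        · have h3 : t⁻¹ a = b := by rw [Perm.inv_eq_iff_eq, htb]
          rw [Perm.mul_apply, h3, h.2]
        · have h3 : t⁻¹ b = a := by rw [Perm.inv_eq_iff_eq, hta]
          rw [Perm.mul_apply, h3, h.1]
      obtain ⟨z, hz, hz'⟩ := hPΓγ t htP y hy
      refine ⟨x * t⁻¹ * z, A.mul_mem h1 hz, ?_⟩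
      simp only [Perm.mul_apply]; rw [hz']; simp
  have hGB : ∀ g ∈ G, g a = a → g b = b → ∀ x ∈ B, g⁻¹ * x * g ∈ B := by
    intro g hg hga hgb x hx
    have hga' : g⁻¹ a = a := by rw [Perm.inv_eq_iff_eq, hga]
    have hgb' : g⁻¹ b = b := by rw [Perm.inv_eq_iff_eq, hgb]
    refine ⟨hnorm' g hg x hx.1, ?_⟩
    rcases hx.2 with h | h
    · left
      simp only [Perm.mul_apply]
      rw [hga, hgb, h.1, h.2, hga', hgb']
      exact ⟨rfl, rfl⟩
    · right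
      simp only [Perm.mul_apply]
      rw [hga, hgb, h.1, h.2, hga', hgb']
      exact ⟨rfl, rfl⟩
  have hGA : ∀ g ∈ G, g a = a → g b = b → ∀ x ∈ A, g * x * g⁻¹ ∈ A ∧ g⁻¹ * x * g ∈ A := by
    intro g hg hga hgb x hx
    have hga' : g⁻¹ a = a := by rw [Perm.inv_eq_iff_eq, hga]
    have hgb' : g⁻¹ b = b := by rw [Perm.inv_eq_iff_eq, hgb]
    refine ⟨⟨hnorm g hg x hx.1, ?_, ?_⟩, ⟨hnorm' g hg x hx.1, ?_, ?_⟩⟩
    · simp only [Perm.mul_apply]; rw [hga', hx.2.1, hga]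
    · simp only [Perm.mul_apply]; rw [hgb', hx.2.2, hgb]
    · simp only [Perm.mul_apply]; rw [hga, hx.2.1, hga']
    · simp only [Perm.mul_apply]; rw [hgb, hx.2.2, hgb']
  have hΓodd : ¬ 2 ∣ Nat.card (Γ γ) := by
    have h1 : 2 ∣ Nat.card (Γ γ \ {γ} : Set α) := by
      by_contra hcon
      obtain ⟨γ', hγ'Γ, hγ'P⟩ := H16.exists_fixed_in_invariant P hPp (Γ γ \ {γ}) (by
        rintro x hx y ⟨hy, hyγ⟩
        refine ⟨hPΓγ x hx y hy, ?_⟩
        intro h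
        apply hyγ
        have h2 : x y = x γ := by rw [Set.mem_singleton_iff.mp h, hγP x hx]
        exact x.injective h2) hcon
      exact hPnot γ γ' (fun h => hγ'Γ.2 h.symm) (fun x hx => ⟨hγP x hx, hγ'P x hx⟩)
    rw [Nat.card_coe_set_eq] at h1 ⊢
    rw [← Set.ncard_sdiff_singleton_add_one (hcΓ γ) (Set.toFinite _)]
    omega
  intro c hca hcb
  obtain ⟨g, hg, hga, hgb, hgγ⟩ := hG a b γ a b c hab hγΔ.1.symm hγΔ.2.symm hab hca.symm hcb.symm
  have hmap : ∀ y, y ∈ Γ γ ↔ g y ∈ Γ c := by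
    intro y
    constructor
    · rintro ⟨z, hz, rfl⟩
      refine ⟨g * z * g⁻¹, (hGA g hg hga hgb z hz).1, ?_⟩
      simp only [Perm.mul_apply]; rw [← hgγ]; simp
    · rintro ⟨z, hz, hzy⟩
      refine ⟨g⁻¹ * z * g, (hGA g hg hga hgb z hz).2, ?_⟩
      simp only [Perm.mul_apply]; rw [hgγ, hzy]; simp
  have hcard : Nat.card (Γ c) = Nat.card (Γ γ) := by
    symm
    have hinv : ∀ y : ↥(Γ c), g⁻¹ y.1 ∈ Γ γ := by
      intro y
      rw [hmap]
      have h1 : g (g⁻¹ y.1) = y.1 := by simp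
      rw [h1]; exact y.2
    refine Nat.card_congr (⟨fun y => ⟨g y.1, (hmap y.1).mp y.2⟩,
      fun y => ⟨g⁻¹ y.1, hinv y⟩, fun y => ?_, fun y => ?_⟩ : ↥(Γ γ) ≃ ↥(Γ c))
    · apply Subtype.ext; simp
    · apply Subtype.ext; simp
  have hPΓc : ∀ x ∈ P, ∀ y ∈ Γ c, x y ∈ Γ c := by
    intro x hx y hy
    have h1 : g⁻¹ y ∈ Γ γ := (hmap _).mpr (by simpa using hy)
    have h2 := hBΓγ _ (hGB g hg hga hgb x (hPB hx)) _ h1
    have h3 := (hmap _).mp h2
    simpa [Perm.mul_apply] using h3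
  obtain ⟨γ', hγ'Γ, hγ'P⟩ :=
    H16.exists_fixed_in_invariant P hPp (Γ c) hPΓc (by rw [hcard]; exact hΓodd)
  have hγγ' : γ' = γ := by
    by_contra hne
    exact hPnot γ γ' (Ne.symm hne) (fun x hx => ⟨hγP x hx, hγ'P x hx⟩)
  rw [hγγ'] at hγ'Γ
  obtain ⟨z, hz, hzc⟩ := hγ'Γ
  exact ⟨z⁻¹, A.inv_mem hz, by rw [Perm.inv_eq_iff_eq, hzc]⟩

theorem wagner_core (G M : Subgroup (Perm α)) (hodd : Odd (Fintype.card α))
    (h5 : 5 ≤ Fintype.card α) (hG : T3 G)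
    (hnorm : ∀ g ∈ G, ∀ x ∈ M, g * x * g⁻¹ ∈ M) (hM : M ≠ ⊥) : T3 M := by
  classical
  have : Fact (Nat.Prime 2) := ⟨Nat.prime_two⟩
  have hex3 : ∀ a b : α, ∃ c, c ≠ a ∧ c ≠ b := by
    intro a b
    by_contra hcon
    push Not at hcon
    have hsub : (Finset.univ : Finset α) ⊆ {a, b} := by
      intro c _
      by_cases hc : c = a
      · simp [hc]
      · simp [hcon c hc]
    have h1 := Finset.card_le_card hsub
    have h2 : ({a, b} : Finset α).card ≤ 2 := Finset.card_le_two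
    rw [Finset.card_univ] at h1
    omega
  have hex4 : ∀ a b c : α, ∃ d, d ≠ a ∧ d ≠ b ∧ d ≠ c := by
    intro a b c
    by_contra hcon
    push Not at hcon
    have hsub : (Finset.univ : Finset α) ⊆ {a, b, c} := by
      intro d _
      by_cases hd : d = a
      · simp [hd]
      · by_cases hd' : d = b
        · simp [hd']
        · simp [hcon d hd hd']
    have h1 := Finset.card_le_card hsub
    have h2 : ({a, b, c} : Finset α).card ≤ 3 := Finset.card_le_three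
    rw [Finset.card_univ] at h1
    omega
  have hG2 : ∀ a b a' b' : α, a ≠ b → a' ≠ b' → ∃ g ∈ G, g a = a' ∧ g b = b' := by
    intro a b a' b' hab hab'
    obtain ⟨c, hca, hcb⟩ := hex3 a b
    obtain ⟨c', hca', hcb'⟩ := hex3 a' b'
    obtain ⟨g, hg, h1, h2, _⟩ := hG a b c a' b' c' hab hca.symm hcb.symm hab' hca'.symm hcb'.symm
    exact ⟨g, hg, h1, h2⟩
  obtain ⟨ν, hνM, hν1⟩ : ∃ ν ∈ M, ν ≠ 1 := by
    by_contra hcon
    push Not at hcon
    exact hM ((Subgroup.eq_bot_iff_forall M).mpr hcon)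
  obtain ⟨u, hu⟩ : ∃ u, ν u ≠ u := by
    by_contra hcon
    push Not at hcon
    exact hν1 (Equiv.Perm.ext hcon)
  have hM1 : ∀ a b c : α, b ≠ a → c ≠ a → ∃ x ∈ M, x a = a ∧ x b = c := by
    by_cases hsemi : ∃ x ∈ M, x ≠ 1 ∧ ∃ a₀, x a₀ = a₀
    · obtain ⟨x₀, hx₀M, hx₀1, a₀, hx₀a⟩ := hsemi
      obtain ⟨u', hu'⟩ : ∃ u', x₀ u' ≠ u' := by
        by_contra hcon
        push Not at hcon
        exact hx₀1 (Equiv.Perm.ext hcon)
      have hu'a : u' ≠ a₀ := by rintro rfl; exact hu' hx₀a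
      have hva : x₀ u' ≠ a₀ := by
        intro h
        apply hu'a
        apply x₀.injective
        rw [h, hx₀a]
      intro a b c hba hca
      by_cases hbc : b = c
      · exact ⟨1, M.one_mem, rfl, by simpa using hbc⟩
      · obtain ⟨g, hg, h1, h2, h3⟩ :=
          hG a₀ u' (x₀ u') a b c hu'a.symm hva.symm (Ne.symm hu') hba.symm hca.symm hbc
        refine ⟨g * x₀ * g⁻¹, hnorm g hg x₀ hx₀M, ?_, ?_⟩
        · have h4 : g⁻¹ a = a₀ := by rw [Perm.inv_eq_iff_eq, h1]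
          simp only [Perm.mul_apply]; rw [h4, hx₀a, h1]
        · have h4 : g⁻¹ b = u' := by rw [Perm.inv_eq_iff_eq, h2]
          simp only [Perm.mul_apply]; rw [h4, h3]
    · exfalso
      push Not at hsemi
      have hνinvM : ν⁻¹ ∈ M := M.inv_mem hνM
      have hνinv1 : ν⁻¹ ≠ 1 := by simpa using hν1
      have hb'u : ν⁻¹ u ≠ u := hsemi _ hνinvM hνinv1 u
      have hbb' : ν u ≠ ν⁻¹ u := by
        intro h
        have h1 : (ν * ν) u = u := by
          rw [Perm.mul_apply, h]; simp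
        have h2 : ν * ν = 1 := by
          by_contra h3
          exact hsemi _ (M.mul_mem hνM hνM) h3 u h1
        have hord : orderOf ν = 2 := orderOf_eq_prime (by rw [pow_two]; exact h2) hν1
        have hQ : IsPGroup 2 (Subgroup.zpowers ν) := by
          apply IsPGroup.of_card (n := 1)
          rw [Nat.card_zpowers, hord, pow_one]
        obtain ⟨y, -, hy⟩ := H16.exists_fixed_in_invariant (Subgroup.zpowers ν) hQ Set.univ
          (fun _ _ _ _ => Set.mem_univ _) (by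
            rw [Nat.card_coe_set_eq, Set.ncard_univ, Nat.card_eq_fintype_card]
            obtain ⟨r, hr⟩ := hodd
            omega)
        exact hsemi ν hνM hν1 y (hy ν (Subgroup.mem_zpowers ν))
      obtain ⟨c, hcu, hcb, hcb'⟩ := hex4 u (ν u) (ν⁻¹ u)
      obtain ⟨g, hg, h1, h2, h3⟩ :=
        hG u (ν u) (ν⁻¹ u) u (ν u) c (Ne.symm hu) (Ne.symm hb'u) hbb' (Ne.symm hu) hcu.symm
          hcb.symm
      have h4 : g⁻¹ u = u := by rw [Perm.inv_eq_iff_eq, h1]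
      have h5' : (ν⁻¹ * (g * ν * g⁻¹)) u = u := by
        simp only [Perm.mul_apply]; rw [h4, h2]; simp
      have h6 : ν⁻¹ * (g * ν * g⁻¹) = 1 := by
        by_contra h7
        exact hsemi _ (M.mul_mem hνinvM (hnorm g hg ν hνM)) h7 u h5'
      have h7 : g * ν⁻¹ = ν⁻¹ * g := by
        have h8 : g * ν * g⁻¹ = ν := by
          have := congrArg (fun z => ν * z) h6
          simpa using this
        have h9 : g * ν = ν * g := by
          have := congrArg (fun z => z * g) h8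
          simpa using this
        have h10 : ν⁻¹ * (g * ν) * ν⁻¹ = ν⁻¹ * (ν * g) * ν⁻¹ := by rw [h9]
        simpa [mul_assoc] using h10.symm
      have h8 : g (ν⁻¹ u) = ν⁻¹ u := by
        have := congrArg (fun z : Perm α => z u) h7
        simp only [Perm.mul_apply] at this
        rw [h1] at this
        exact this
      exact hcb' (by rw [← h3, h8])
  have hMtrans : ∀ a b : α, ∃ x ∈ M, x a = b := by
    intro a b
    by_cases hab : a = b
    · exact ⟨1, M.one_mem, by simpa using hab⟩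
    · obtain ⟨g, hg, h1, h2⟩ := hG2 u (ν u) a b (Ne.symm hu) hab
      refine ⟨g * ν * g⁻¹, hnorm g hg ν hνM, ?_⟩
      have h4 : g⁻¹ a = u := by rw [Perm.inv_eq_iff_eq, h1]
      simp only [Perm.mul_apply]; rw [h4, h2]
  have hM2 : ∀ a b a' b' : α, a ≠ b → a' ≠ b' → ∃ x ∈ M, x a = a' ∧ x b = b' := by
    intro a b a' b' hab hab'
    obtain ⟨x₁, hx₁, h1⟩ := hMtrans a a'
    have hne : x₁ b ≠ a' := by rw [← h1]; exact fun h => hab (x₁.injective h).symm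
    obtain ⟨x₂, hx₂, h2, h3⟩ := hM1 a' (x₁ b) b' hne (Ne.symm hab')
    exact ⟨x₂ * x₁, M.mul_mem hx₂ hx₁, by rw [Perm.mul_apply, h1, h2], by rw [Perm.mul_apply, h3]⟩
  obtain ⟨γ, hγa, hγb, hkey⟩ := wagner_key G M hodd h5 hG hnorm hM2 hu
  intro a b c a' b' c' hab hac hbc hab' hac' hbc'
  obtain ⟨x₁, hx₁, h1a, h1b⟩ := hM2 a b (ν u) u hab hu
  obtain ⟨x₂, hx₂, h2a, h2b⟩ := hM2 a' b' (ν u) u hab' hu
  have hc1 : x₁ c ≠ ν u := by rw [← h1a]; exact fun h => hac (x₁.injective h).symm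
  have hc2 : x₁ c ≠ u := by rw [← h1b]; exact fun h => hbc (x₁.injective h).symm
  have hc1' : x₂ c' ≠ ν u := by rw [← h2a]; exact fun h => hac' (x₂.injective h).symm
  have hc2' : x₂ c' ≠ u := by rw [← h2b]; exact fun h => hbc' (x₂.injective h).symm
  obtain ⟨y₁, hy₁, hy₁γ⟩ := hkey _ hc1 hc2
  obtain ⟨y₂, hy₂, hy₂γ⟩ := hkey _ hc1' hc2'
  have hy₁a : y₁⁻¹ (ν u) = ν u := by rw [Perm.inv_eq_iff_eq, hy₁.2.1]
  have hy₁b : y₁⁻¹ u = u := by rw [Perm.inv_eq_iff_eq, hy₁.2.2]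
  have hy₁c : y₁⁻¹ (x₁ c) = γ := by rw [Perm.inv_eq_iff_eq, hy₁γ]
  refine ⟨x₂⁻¹ * y₂ * y₁⁻¹ * x₁,
    M.mul_mem (M.mul_mem (M.mul_mem (M.inv_mem hx₂) hy₂.1) (M.inv_mem hy₁.1)) hx₁, ?_, ?_, ?_⟩
  · simp only [Perm.mul_apply]
    rw [h1a, hy₁a, hy₂.2.1, Perm.inv_eq_iff_eq, h2a]
  · simp only [Perm.mul_apply]
    rw [h1b, hy₁b, hy₂.2.2, Perm.inv_eq_iff_eq, h2b]
  · simp only [Perm.mul_apply]
    rw [hy₁c, hy₂γ, Perm.inv_eq_iff_eq]

/-- Wagner's Theorem: a non-trivial normal subgroup of a triply transitive permutation group of odd degree at least 5 is triply transitive. -/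
theorem result {α : Type*} [Fintype α] [DecidableEq α] (G : Subgroup (Equiv.Perm α)) (hodd : Odd (Fintype.card α)) (h5 : 5 ≤ Fintype.card α) (hG : MulAction.IsMultiplyPretransitive G α 3) (N : Subgroup G) [N.Normal] (hN : N ≠ ⊥) : MulAction.IsMultiplyPretransitive N α 3 := by
  have hGT : T3 G := by
    intro a b c a' b' c' hab hac hbc hab' hac' hbc'
    obtain ⟨g, h1, h2, h3⟩ := H16.exists_smul3 hG hab hac hbc hab' hac' hbc'
    exact ⟨g.1, g.2, h1, h2, h3⟩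
  have hnorm : ∀ g ∈ G, ∀ x ∈ N.map G.subtype, g * x * g⁻¹ ∈ N.map G.subtype := by
    rintro g hg _ ⟨n, hn, rfl⟩
    exact ⟨⟨g, hg⟩ * n * ⟨g, hg⟩⁻¹, ‹N.Normal›.conj_mem n hn ⟨g, hg⟩, rfl⟩
  have hM : N.map G.subtype ≠ ⊥ := by
    intro h
    apply hN
    rwa [Subgroup.map_eq_bot_iff_of_injective N G.subtype_injective] at h
  have hT := wagner_core G (N.map G.subtype) hodd h5 hGT hnorm hM
  refine ⟨fun x y => ?_⟩
  obtain ⟨g, hgM, h0, h1, h2⟩ := hT (x 0) (x 1) (x 2) (y 0) (y 1) (y 2)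
    (x.injective.ne (by decide)) (x.injective.ne (by decide)) (x.injective.ne (by decide))
    (y.injective.ne (by decide)) (y.injective.ne (by decide)) (y.injective.ne (by decide))
  obtain ⟨n, hn, rfl⟩ := hgM
  refine ⟨⟨n, hn⟩, ?_⟩
  ext i
  rw [Function.Embedding.smul_apply]
  fin_cases i
  · exact h0
  · exact h1
  · exact h2

end Cfsg.Agent.S0699
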