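import Cfsg.Statements.S0701
import Cfsg.Agent.H16.Centralizer

set_option autoImplicit false
open Cfsg

namespace Cfsg.Agent.S0701

/-- The centraliser in the full symmetric group of a transitive permutation group `G` is semiregular, and it is transitive if and only if `G` is regular. -/
theorem result {α : Type*} (G : Subgroup (Equiv.Perm α)) [MulAction.IsPretransitive G α] : (∀ c ∈ Subgroup.centralizer (G : Set (Equiv.Perm α)), ∀ a : α, c a = a → c = 1) ∧ (MulAction.IsPretransitive (Subgroup.centralizer (G : Set (Equiv.Perm α))) α ↔ ∀ a : α, MulAction.stabilizer G a = ⊥) := by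
  refine ⟨fun c hc a ha => Cfsg.Agent.H16.centralizer_semiregular G hc ha, ?_, ?_⟩
  · intro hC a
    rw [eq_bot_iff]
    intro g hg
    rw [Subgroup.mem_bot]
    rw [MulAction.mem_stabilizer_iff] at hg
    apply Subtype.ext
    ext b
    obtain ⟨c, rfl⟩ := MulAction.exists_smul_eq (Subgroup.centralizer (G : Set (Equiv.Perm α))) a b
    have h := c.2 (g : Equiv.Perm α) g.2
    have h2 : (g : Equiv.Perm α) ((c : Equiv.Perm α) a) = (c : Equiv.Perm α) ((g : Equiv.Perm α) a) := by
      have := congrArg (fun f : Equiv.Perm α => f a) h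
      simpa [Equiv.Perm.mul_apply] using this
    change (g : Equiv.Perm α) ((c : Equiv.Perm α) a) = (c : Equiv.Perm α) a
    rw [h2]
    congr 1
  · intro hreg
    refine ⟨fun a b => ?_⟩
    obtain ⟨c, hc, hcab⟩ := Cfsg.Agent.H16.exists_centralizer_apply_eq G hreg a b
    exact ⟨⟨c, hc⟩, hcab⟩

end Cfsg.Agent.S0701
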