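import Cfsg.Statements.S0702
import Cfsg.Agent.H16.Centralizer

set_option autoImplicit false
open Cfsg

namespace Cfsg.Agent.S0702

open Cfsg.Agent.H16

/-- For a transitive permutation group `G` on a finite set, the centraliser of `G` in the symmetric group is isomorphic to `N_G(G_ω)/G_ω`, and its orbit of `ω` is the set of fixed points of `G_ω`. -/
theorem result {α : Type*} [Finite α] (G : Subgroup (Equiv.Perm α)) [MulAction.IsPretransitive G α] (a : α) : Nonempty (Subgroup.centralizer (G : Set (Equiv.Perm α)) ≃* Subgroup.normalizer ((MulAction.stabilizer G a : Subgroup G) : Set G) ⧸ (MulAction.stabilizer G a).subgroupOf (Subgroup.normalizer ((MulAction.stabilizer G a : Subgroup G) : Set G))) ∧ MulAction.orbit (Subgroup.centralizer (G : Set (Equiv.Perm α))) a = MulAction.fixedPoints (MulAction.stabilizer G a) α := by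
  classical
  have hex : ∀ n : Subgroup.normalizer ((MulAction.stabilizer G a : Subgroup G) : Set G),
      ∃ c : Subgroup.centralizer (G : Set (Equiv.Perm α)), (c : Equiv.Perm α) a = (n : G)⁻¹ • a := by
    intro n
    have hn : (n : G)⁻¹ ∈ Subgroup.normalizer ((MulAction.stabilizer G a : Subgroup G) : Set G) :=
      Subgroup.inv_mem _ n.2
    have := (mem_normalizer_stabilizer_iff a (n : G)⁻¹).mp hn
    obtain ⟨c, hc, hca⟩ := exists_centralizer_of_stabilizer_eq G this.symm
    exact ⟨⟨c, hc⟩, hca⟩
  choose φ hφ using hex
  have huniq : ∀ c d : Subgroup.centralizer (G : Set (Equiv.Perm α)),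
      (c : Equiv.Perm α) a = (d : Equiv.Perm α) a → c = d := by
    intro c d h
    exact Subtype.ext (centralizer_eq_of_apply_eq G c.2 d.2 h)
  have hcomm : ∀ (c : Subgroup.centralizer (G : Set (Equiv.Perm α))) (g : G) (x : α),
      (c : Equiv.Perm α) (g • x) = g • ((c : Equiv.Perm α) x) := by
    intro c g x
    have h := c.2 (g : Equiv.Perm α) g.2
    have := congrArg (fun f : Equiv.Perm α => f x) h
    simp only [Equiv.Perm.mul_apply] at this
    exact this.symm
  let Φ : Subgroup.normalizer ((MulAction.stabilizer G a : Subgroup G) : Set G) →*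
      Subgroup.centralizer (G : Set (Equiv.Perm α)) :=
    { toFun := φ
      map_one' := by
        apply huniq
        rw [hφ]
        simp
      map_mul' := by
        intro n m
        apply huniq
        rw [hφ]
        simp only [Subgroup.coe_mul, Equiv.Perm.mul_apply, mul_inv_rev]
        rw [hφ m, hcomm, hφ n, mul_smul] }
  have hΦ : ∀ n, ((Φ n : Subgroup.centralizer (G : Set (Equiv.Perm α))) : Equiv.Perm α) a = (n : G)⁻¹ • a := hφ
  have hker : Φ.ker = (MulAction.stabilizer G a).subgroupOf (Subgroup.normalizer ((MulAction.stabilizer G a : Subgroup G) : Set G)) := by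
    ext n
    rw [MonoidHom.mem_ker, Subgroup.mem_subgroupOf, MulAction.mem_stabilizer_iff]
    constructor
    · intro h
      have := hΦ n
      rw [h] at this
      simp only [Subgroup.coe_one, Equiv.Perm.coe_one, id_eq] at this
      rw [eq_inv_smul_iff] at this
      exact this
    · intro h
      apply huniq
      rw [hΦ n]
      simp only [Subgroup.coe_one, Equiv.Perm.coe_one, id_eq]
      rw [inv_smul_eq_iff]
      exact h.symm
  have hsurj : Function.Surjective Φ := by
    intro c
    obtain ⟨h, hh⟩ := MulAction.exists_smul_eq G a ((c : Equiv.Perm α) a)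
    have hst := stabilizer_centralizer_apply G c.2 a
    rw [← hh] at hst
    have hn : h ∈ Subgroup.normalizer ((MulAction.stabilizer G a : Subgroup G) : Set G) :=
      (mem_normalizer_stabilizer_iff a h).mpr hst
    refine ⟨⟨h, hn⟩⁻¹, ?_⟩
    apply huniq
    rw [hΦ]
    simp only [Subgroup.coe_inv, inv_inv]
    exact hh
  refine ⟨⟨((QuotientGroup.quotientKerEquivOfSurjective Φ hsurj).symm.trans (QuotientGroup.quotientMulEquivOfEq hker))⟩, ?_⟩
  ext b
  rw [MulAction.mem_fixedPoints]
  constructor
  · rintro ⟨c, rfl⟩ k
    have := stabilizer_centralizer_apply G c.2 a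
    have hk : (k : G) ∈ MulAction.stabilizer G ((c : Equiv.Perm α) a) := by rw [this]; exact k.2
    exact hk
  · intro hb
    have hle : MulAction.stabilizer G a ≤ MulAction.stabilizer G b := by
      intro k hk
      exact hb ⟨k, hk⟩
    have heq : MulAction.stabilizer G a = MulAction.stabilizer G b := by
      apply Subgroup.eq_of_le_of_card_ge hle
      obtain ⟨h, rfl⟩ := MulAction.exists_smul_eq G a b
      rw [MulAction.stabilizer_smul_eq_stabilizer_map_conj]
      rw [Subgroup.card_map_of_injective (MulAut.conj h).injective]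
    obtain ⟨c, hc, hca⟩ := exists_centralizer_of_stabilizer_eq G heq
    exact ⟨⟨c, hc⟩, hca⟩

end Cfsg.Agent.S0702
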