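import Cfsg.Statements.S0703
import Cfsg.Agent.H16.MinNormal

set_option autoImplicit false
open Cfsg

namespace Cfsg.Agent.S0703

open Cfsg.Agent.H16

/-- An abelian transitive minimal normal subgroup `M` of a permutation group on a finite set is self-centralising in the symmetric group, regular, elementary abelian, and is the unique minimal normal subgroup. -/
theorem result {α : Type*} [Finite α] (G : Subgroup (Equiv.Perm α)) (M : Subgroup G) [M.Normal] (hM : M ≠ ⊥) (hmin : ∀ L : Subgroup G, L.Normal → L ≤ M → L = ⊥ ∨ L = M) (hab : IsMulCommutative M) (htrans : MulAction.IsPretransitive M α) : Subgroup.centralizer ((M.map G.subtype : Subgroup (Equiv.Perm α)) : Set (Equiv.Perm α)) = M.map G.subtype ∧ (∀ a : α, MulAction.stabilizer M a = ⊥) ∧ (∃ p : ℕ, p.Prime ∧ ∀ m ∈ M, m ^ p = 1) ∧ ∀ L : Subgroup G, L.Normal → L ≠ ⊥ → (∀ L' : Subgroup G, L'.Normal → L' ≤ L → L' = ⊥ ∨ L' = L) → L = M := by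
  classical
  have hM't : MulAction.IsPretransitive (M.map G.subtype) α := isPretransitive_map_subtype G M
  have hcomm : ∀ m ∈ M, ∀ n ∈ M, Commute m n := by
    intro m hm n hn
    have := hab.is_comm.comm (⟨m, hm⟩ : M) ⟨n, hn⟩
    exact congrArg Subtype.val this
  have hMM : M.map G.subtype ≤ Subgroup.centralizer ((M.map G.subtype : Subgroup (Equiv.Perm α)) : Set (Equiv.Perm α)) :=
    map_le_centralizer_of_commute G M M hcomm
  have hCM : Subgroup.centralizer ((M.map G.subtype : Subgroup (Equiv.Perm α)) : Set (Equiv.Perm α)) = M.map G.subtype :=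
    centralizer_eq_of_transitive_le _ _ hMM
  refine ⟨hCM, fun a => stabilizer_eq_bot_of_map_le_centralizer G M _ hMM a, ?_, ?_⟩
  · -- elementary abelian
    have hcard : Nat.card M ≠ 1 := by
      intro h
      apply hM
      exact Subgroup.card_eq_one.mp h
    obtain ⟨p, hp, hpd⟩ := Nat.exists_prime_and_dvd hcard
    refine ⟨p, hp, ?_⟩
    haveI : Fact p.Prime := ⟨hp⟩
    obtain ⟨x, hx⟩ := exists_prime_orderOf_dvd_card' (G := M) p hpd
    let L : Subgroup G :=
      { carrier := {m | m ∈ M ∧ m ^ p = 1}
        one_mem' := ⟨M.one_mem, one_pow p⟩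
        mul_mem' := by
          rintro a b ⟨ha, ha'⟩ ⟨hb, hb'⟩
          refine ⟨M.mul_mem ha hb, ?_⟩
          rw [(hcomm a ha b hb).mul_pow, ha', hb', one_mul]
        inv_mem' := by
          rintro a ⟨ha, ha'⟩
          exact ⟨M.inv_mem ha, by rw [inv_pow, ha', inv_one]⟩ }
    have hLn : L.Normal := by
      constructor
      rintro n ⟨hn, hn'⟩ g
      refine ⟨Subgroup.Normal.conj_mem inferInstance n hn g, ?_⟩
      rw [conj_pow, hn', mul_one, mul_inv_cancel]
    have hLM : L ≤ M := fun m hm => hm.1
    rcases hmin L hLn hLM with h | h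
    · exfalso
      have hxL : (x : G) ∈ L := by
        refine ⟨x.2, ?_⟩
        have := pow_orderOf_eq_one x
        rw [hx] at this
        exact_mod_cast congrArg Subtype.val this
      rw [h, Subgroup.mem_bot] at hxL
      have hx1 : x = 1 := Subtype.ext hxL
      rw [hx1, orderOf_one] at hx
      exact hp.one_lt.ne hx
    · intro m hm
      rw [← h] at hm
      exact hm.2
  · intro L hLn hLne hLmin
    by_contra hcon
    haveI := hLn
    have hdL : Disjoint M L := disjoint_of_minimal_normal M L hmin hLmin (Ne.symm hcon)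
    have hcL : ∀ m ∈ M, ∀ n ∈ L, Commute m n := fun m hm n hn =>
      Subgroup.commute_of_normal_of_disjoint M L inferInstance inferInstance hdL m n hm hn
    have hLC := map_le_centralizer_of_commute G M L hcL
    rw [hCM] at hLC
    have hle : L ≤ M := le_of_map_subtype_le G L M hLC
    apply hLne
    rw [eq_bot_iff]
    exact hdL hle le_rfl

end Cfsg.Agent.S0703
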