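import Cfsg.Statements.S0704
import Cfsg.Agent.H16.MinNormal

set_option autoImplicit false
open Cfsg

namespace Cfsg.Agent.S0704

open Cfsg.Agent.H16

/-- Two distinct transitive minimal normal subgroups `M`, `N` of a permutation group are regular, non-abelian, isomorphic, each other's centraliser in the symmetric group, and the only minimal normal subgroups. -/
theorem result {α : Type*} (G : Subgroup (Equiv.Perm α)) (M N : Subgroup G) [M.Normal] [N.Normal] (hM : M ≠ ⊥) (hN : N ≠ ⊥) (hMmin : ∀ L : Subgroup G, L.Normal → L ≤ M → L = ⊥ ∨ L = M) (hNmin : ∀ L : Subgroup G, L.Normal → L ≤ N → L = ⊥ ∨ L = N) (hMN : M ≠ N) (hMt : MulAction.IsPretransitive M α) (hNt : MulAction.IsPretransitive N α) : (∀ a : α, MulAction.stabilizer M a = ⊥) ∧ (∀ a : α, MulAction.stabilizer N a = ⊥) ∧ ¬ IsMulCommutative M ∧ Nonempty (M ≃* N) ∧ Subgroup.centralizer ((M.map G.subtype : Subgroup (Equiv.Perm α)) : Set (Equiv.Perm α)) = N.map G.subtype ∧ Subgroup.centralizer ((N.map G.subtype : Subgroup (Equiv.Perm α)) : Set (Equiv.Perm α)) = M.map G.subtype ∧ ∀ L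 : Subgroup G, L.Normal → L ≠ ⊥ → (∀ L' : Subgroup G, L'.Normal → L' ≤ L → L' = ⊥ ∨ L' = L) → L = M ∨ L = N := by
  classical
  have hdis : Disjoint M N := disjoint_of_minimal_normal M N hMmin hNmin hMN
  have hcomm : ∀ m ∈ M, ∀ n ∈ N, Commute m n := fun m hm n hn =>
    Subgroup.commute_of_normal_of_disjoint M N inferInstance inferInstance hdis m n hm hn
  haveI hM't : MulAction.IsPretransitive (M.map G.subtype) α := isPretransitive_map_subtype G M
  haveI hN't : MulAction.IsPretransitive (N.map G.subtype) α := isPretransitive_map_subtype G N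
  have hNC : N.map G.subtype ≤ Subgroup.centralizer ((M.map G.subtype : Subgroup (Equiv.Perm α)) : Set (Equiv.Perm α)) :=
    map_le_centralizer_of_commute G M N hcomm
  have hMC : M.map G.subtype ≤ Subgroup.centralizer ((N.map G.subtype : Subgroup (Equiv.Perm α)) : Set (Equiv.Perm α)) :=
    map_le_centralizer_of_commute G N M (fun n hn m hm => (hcomm m hm n hn).symm)
  have hCM : Subgroup.centralizer ((M.map G.subtype : Subgroup (Equiv.Perm α)) : Set (Equiv.Perm α)) = N.map G.subtype :=
    centralizer_eq_of_transitive_le _ _ hNC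
  have hCN : Subgroup.centralizer ((N.map G.subtype : Subgroup (Equiv.Perm α)) : Set (Equiv.Perm α)) = M.map G.subtype :=
    centralizer_eq_of_transitive_le _ _ hMC
  have hMreg : ∀ a : α, MulAction.stabilizer M a = ⊥ :=
    fun a => stabilizer_eq_bot_of_map_le_centralizer G M _ hMC a
  have hNreg : ∀ a : α, MulAction.stabilizer N a = ⊥ :=
    fun a => stabilizer_eq_bot_of_map_le_centralizer G N _ hNC a
  refine ⟨hMreg, hNreg, ?_, ?_, hCM, hCN, ?_⟩
  · -- non-abelian
    intro hab
    apply hM
    have hMM : M.map G.subtype ≤ Subgroup.centralizer ((M.map G.subtype : Subgroup (Equiv.Perm α)) : Set (Equiv.Perm α)) := by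
      apply map_le_centralizer_of_commute G M M
      intro m hm n hn
      have := hab.is_comm.comm (⟨m, hm⟩ : M) ⟨n, hn⟩
      exact congrArg Subtype.val this
    rw [hCM] at hMM
    have hle : M ≤ N := le_of_map_subtype_le G M N hMM
    rw [eq_bot_iff]
    exact hdis le_rfl hle
  · -- isomorphism
    obtain ⟨a⟩ : Nonempty α := by
      by_contra hα
      apply hM
      rw [eq_bot_iff]
      intro m _
      rw [Subgroup.mem_bot]
      apply Subtype.ext
      ext x
      exact absurd ⟨x⟩ hα
    have hex : ∀ m : M, ∃ n : N, n • a = m⁻¹ • a := fun m => MulAction.exists_smul_eq N a (m⁻¹ • a)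
    choose φ hφ using hex
    have hNinj : ∀ n n' : N, n • a = n' • a → n = n' := by
      intro n n' h
      have : n'⁻¹ * n ∈ MulAction.stabilizer N a := by
        rw [MulAction.mem_stabilizer_iff, mul_smul, h, inv_smul_smul]
      rw [hNreg a, Subgroup.mem_bot] at this
      have h2 : n' * (n'⁻¹ * n) = n' := by rw [this, mul_one]
      simpa using h2
    have hMinj : ∀ n n' : M, n • a = n' • a → n = n' := by
      intro n n' h
      have : n'⁻¹ * n ∈ MulAction.stabilizer M a := by
        rw [MulAction.mem_stabilizer_iff, mul_smul, h, inv_smul_smul]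
      rw [hMreg a, Subgroup.mem_bot] at this
      have h2 : n' * (n'⁻¹ * n) = n' := by rw [this, mul_one]
      simpa using h2
    have hsm : ∀ (m : M) (n : N) (x : α), n • m • x = m • n • x := by
      intro m n x
      have := (hcomm m m.2 n n.2).eq
      have h2 : ((n : G) * (m : G)) • x = ((m : G) * (n : G)) • x := by rw [this]
      rw [mul_smul, mul_smul] at h2
      exact h2
    let Φ : M →* N :=
      { toFun := φ
        map_one' := by
          apply hNinj
          rw [hφ]; simp
        map_mul' := by
          intro m1 m2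
          apply hNinj
          rw [hφ, mul_smul, hφ m2, hsm, hφ m1, mul_inv_rev, mul_smul] }
    refine ⟨MulEquiv.ofBijective Φ ⟨?_, ?_⟩⟩
    · intro m1 m2 h
      have h1 : m1⁻¹ • a = m2⁻¹ • a := by
        rw [← hφ m1, ← hφ m2]
        change Φ m1 • a = Φ m2 • a
        rw [h]
      have := hMinj _ _ h1
      exact inv_injective this
    · intro n
      obtain ⟨m, hm⟩ := MulAction.exists_smul_eq M a (n • a)
      refine ⟨m⁻¹, ?_⟩
      apply hNinj
      change φ m⁻¹ • a = n • a
      rw [hφ, inv_inv, hm]
  · intro L hLn hLne hLmin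
    by_contra hcon
    push_neg at hcon
    haveI := hLn
    have hdL : Disjoint M L := disjoint_of_minimal_normal M L hMmin hLmin (Ne.symm hcon.1)
    have hcL : ∀ m ∈ M, ∀ n ∈ L, Commute m n := fun m hm n hn =>
      Subgroup.commute_of_normal_of_disjoint M L inferInstance inferInstance hdL m n hm hn
    have hLC := map_le_centralizer_of_commute G M L hcL
    rw [hCM] at hLC
    have hle : L ≤ N := le_of_map_subtype_le G L N hLC
    rcases hNmin L hLn hle with h | h
    · exact hLne h
    · exact hcon.2 h

end Cfsg.Agent.S0704
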