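import Cfsg.Statements.S0705
import Mathlib

set_option autoImplicit false
open Cfsg

open scoped Pointwise

namespace Cfsg.Agent.S0705

open MulAction Equiv

/-- Generosity, phrased with permutations of the ambient type. -/
def Gen {α : Type*} [DecidableEq α] (G : Subgroup (Equiv.Perm α)) (k : ℕ) : Prop :=
  ∀ s : Finset α, s.card = k + 1 → ∀ τ : Equiv.Perm α, (∀ x, τ x ∈ s ↔ x ∈ s) →
    ∃ g ∈ G, ∀ x ∈ s, g x = τ x

theorem gen_of_hgen {α : Type*} [Fintype α] [DecidableEq α] (G : Subgroup (Equiv.Perm α)) {k : ℕ}
    (hgen : ∀ s : Finset α, s.card = k + 1 → ∀ σ : Equiv.Perm ↥s, ∃ g ∈ G, ∀ x : ↥s, g (x : α) = σ x) :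
    Gen G k := by
  intro s hs τ hτ
  obtain ⟨g, hg, hgs⟩ := hgen s hs (τ.subtypePerm hτ)
  refine ⟨g, hg, fun x hx => ?_⟩
  have := hgs ⟨x, hx⟩
  simpa using this

theorem gen_down {α : Type*} [Fintype α] [DecidableEq α] (G : Subgroup (Equiv.Perm α)) {k : ℕ}
    (hk : k + 1 < Fintype.card α) (hgen : Gen G (k + 1)) : Gen G k := by
  intro s hs τ hτ
  obtain ⟨z, hz⟩ : ∃ z, z ∉ s := by
    by_contra hcon
    push Not at hcon
    have : s = Finset.univ := Finset.eq_univ_iff_forall.mpr hcon
    rw [this, Finset.card_univ] at hs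
    omega
  let τ' : Equiv.Perm α := Equiv.Perm.ofSubtype (τ.subtypePerm hτ)
  have h1 : ∀ x ∈ s, τ' x = τ x := by
    intro x hx
    exact Equiv.Perm.ofSubtype_subtypePerm_of_mem hτ hx
  have h2 : ∀ x, x ∉ s → τ' x = x := by
    intro x hx
    exact Equiv.Perm.ofSubtype_subtypePerm_of_not_mem hτ hx
  have h3 : ∀ x, τ' x ∈ insert z s ↔ x ∈ insert z s := by
    intro x
    by_cases hx : x ∈ s
    · rw [h1 x hx]
      simp [hx, (hτ x).mpr hx]
    · rw [h2 x hx]
  obtain ⟨g, hg, hgs⟩ := hgen (insert z s) (by rw [Finset.card_insert_of_notMem hz, hs]) τ' h3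
  exact ⟨g, hg, fun x hx => (hgs x (Finset.mem_insert_of_mem hx)).trans (h1 x hx)⟩

theorem aux_trans {α : Type*} [Fintype α] [DecidableEq α] (G : Subgroup (Equiv.Perm α)) :
    ∀ k : ℕ, k < Fintype.card α → Gen G k → MulAction.IsMultiplyPretransitive G α k
  | 0, _, _ => MulAction.is_zero_pretransitive
  | (k + 1), hk, hgen => by
    have hk' : IsMultiplyPretransitive G α k := aux_trans G k (by omega) (gen_down G hk hgen)
    refine ⟨fun x y => ?_⟩
    let x' : Fin k ↪ α := Fin.castSuccEmb.trans x
    let y' : Fin k ↪ α := Fin.castSuccEmb.trans y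
    obtain ⟨g1, hg1⟩ := hk'.exists_smul_eq x' y'
    have h1 : ∀ i : Fin k, g1 • x (Fin.castSucc i) = y (Fin.castSucc i) := by
      intro i
      have := congrArg (fun f : Fin k ↪ α => f i) hg1
      exact this
    by_cases hlast : g1 • x (Fin.last k) = y (Fin.last k)
    · refine ⟨g1, ?_⟩
      ext i
      rw [Function.Embedding.smul_apply]
      refine Fin.lastCases ?_ (fun j => ?_) i
      · exact hlast
      · exact h1 j
    · set z := y (Fin.last k) with hzdef
      set w := g1 • x (Fin.last k) with hwdef
      let s : Finset α := insert z (Finset.univ.map (g1 • x))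
      have hz : z ∉ Finset.univ.map (g1 • x) := by
        intro hmem
        rw [Finset.mem_map] at hmem
        obtain ⟨i, _, hi⟩ := hmem
        rw [Function.Embedding.smul_apply] at hi
        revert hi
        refine Fin.lastCases ?_ (fun j => ?_) i
        · intro hi; exact hlast hi
        · intro hi
          rw [h1 j] at hi
          have := y.injective hi
          exact absurd this (Fin.castSucc_lt_last j).ne
      have hs : s.card = k + 1 + 1 := by
        rw [Finset.card_insert_of_notMem hz, Finset.card_map, Finset.card_univ, Fintype.card_fin]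
      have hws : w ∈ s := by
        apply Finset.mem_insert_of_mem
        rw [Finset.mem_map]
        exact ⟨Fin.last k, Finset.mem_univ _, by rw [Function.Embedding.smul_apply]⟩
      have hzs : z ∈ s := Finset.mem_insert_self _ _
      have hpres : ∀ v, swap w z v ∈ s ↔ v ∈ s := by
        intro v
        by_cases hvw : v = w
        · subst hvw; simp [hws, hzs]
        · by_cases hvz : v = z
          · subst hvz; simp [hws, hzs]
          · rw [swap_apply_of_ne_of_ne hvw hvz]
      obtain ⟨g2, hg2, hg2s⟩ := hgen s hs (swap w z) hpres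
      refine ⟨⟨g2, hg2⟩ * g1, ?_⟩
      ext i
      rw [Function.Embedding.smul_apply, mul_smul]
      refine Fin.lastCases ?_ (fun j => ?_) i
      · have := hg2s w hws
        rw [swap_apply_left] at this
        exact this
      · have hmem : g1 • x (Fin.castSucc j) ∈ s := by
          apply Finset.mem_insert_of_mem
          rw [Finset.mem_map]
          exact ⟨Fin.castSucc j, Finset.mem_univ _, by rw [Function.Embedding.smul_apply]⟩
        have := hg2s _ hmem
        have hne1 : g1 • x (Fin.castSucc j) ≠ w := by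
          intro h
          have := (smul_left_cancel g1 h)
          have := x.injective this
          exact absurd this (Fin.castSucc_lt_last j).ne
        have hne2 : g1 • x (Fin.castSucc j) ≠ z := by
          rw [h1 j]
          intro h
          have := y.injective h
          exact absurd this (Fin.castSucc_lt_last j).ne
        rw [swap_apply_of_ne_of_ne hne1 hne2] at this
        change g2 (g1 • x (Fin.castSucc j)) = y (Fin.castSucc j)
        rw [this, h1 j]

/-- A generously `k`-transitive permutation group (every `(k+1)`-subset has its full symmetric group induced by the setwise stabiliser) of degree greater than `k` is `k`-transitive, and for a `k`-subset the setwise and pointwise stabilisers have the same orbits outside it. -/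
theorem result {α : Type*} [Fintype α] [DecidableEq α] (G : Subgroup (Equiv.Perm α)) {k : ℕ} (hk : k < Fintype.card α) (hgen : ∀ s : Finset α, s.card = k + 1 → ∀ σ : Equiv.Perm ↥s, ∃ g ∈ G, ∀ x : ↥s, g (x : α) = σ x) : MulAction.IsMultiplyPretransitive G α k ∧ ∀ s : Finset α, s.card = k → ∀ a b : α, a ∉ s → b ∉ s → (∃ g ∈ G, g • s = s ∧ g a = b) → ∃ g ∈ G, (∀ x ∈ s, g x = x) ∧ g a = b := by
  have hG := gen_of_hgen G hgen
  refine ⟨aux_trans G k hk hG, ?_⟩
  rintro s hs a b ha hb ⟨g, hg, hgs, hgab⟩
  have hpres : ∀ x, g⁻¹ x ∈ s ↔ x ∈ s := by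
    intro x
    constructor
    · intro hx
      have : g • (g⁻¹ x) ∈ g • s := Finset.smul_mem_smul_finset hx
      rw [hgs] at this
      simpa using this
    · intro hx
      rw [← hgs] at hx
      obtain ⟨y, hy, rfl⟩ := Finset.mem_smul_finset.mp hx
      simpa using hy
  let τ' : Equiv.Perm α := Equiv.Perm.ofSubtype (g⁻¹.subtypePerm hpres)
  have h1 : ∀ x ∈ s, τ' x = g⁻¹ x := by
    intro x hx
    exact Equiv.Perm.ofSubtype_subtypePerm_of_mem hpres hx
  have h2 : ∀ x, x ∉ s → τ' x = x := by
    intro x hx
    exact Equiv.Perm.ofSubtype_subtypePerm_of_not_mem hpres hx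
  have h3 : ∀ x, τ' x ∈ insert b s ↔ x ∈ insert b s := by
    intro x
    by_cases hx : x ∈ s
    · rw [h1 x hx]
      have := (hpres x).mpr hx
      simp only [Finset.mem_insert, hx, this, or_true]
    · rw [h2 x hx]
  obtain ⟨h, hh, hhs⟩ := hG (insert b s) (by rw [Finset.card_insert_of_notMem hb, hs]) τ' h3
  refine ⟨h * g, G.mul_mem hh hg, fun x hx => ?_, ?_⟩
  · rw [Equiv.Perm.mul_apply]
    have hgx : g x ∈ s := by
      have : g • x ∈ g • s := Finset.smul_mem_smul_finset hx
      rw [hgs] at this
      exact this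
    rw [hhs _ (Finset.mem_insert_of_mem hgx), h1 _ hgx]
    simp
  · rw [Equiv.Perm.mul_apply, hgab, hhs b (Finset.mem_insert_self _ _), h2 b hb]

end Cfsg.Agent.S0705
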