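import Cfsg.Statements.S0706
import Cfsg.Agent.S0705
import Cfsg.Agent.H16.JordanCycle
import Cfsg.Agent.H16.SylowConj
import Mathlib

set_option autoImplicit false
open Cfsg

open scoped Pointwise

namespace Cfsg.Agent.S0706

open MulAction Equiv

variable {α : Type*} [Fintype α] [DecidableEq α]

/-- Pointwise stabiliser of a set inside `G`, as a subgroup of `Perm α`. -/
def pw (G : Subgroup (Perm α)) (s : Set α) : Subgroup (Perm α) where
  carrier := {g | g ∈ G ∧ ∀ x ∈ s, g x = x}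
  mul_mem' := by
    rintro a b ⟨ha, ha'⟩ ⟨hb, hb'⟩
    exact ⟨G.mul_mem ha hb, fun x hx => by rw [Perm.mul_apply, hb' x hx, ha' x hx]⟩
  one_mem' := ⟨G.one_mem, fun x _ => rfl⟩
  inv_mem' := by
    rintro a ⟨ha, ha'⟩
    exact ⟨G.inv_mem ha, fun x hx => by rw [Perm.inv_eq_iff_eq]; exact (ha' x hx).symm⟩

theorem mem_pw {G : Subgroup (Perm α)} {s : Set α} {g : Perm α} :
    g ∈ pw G s ↔ g ∈ G ∧ ∀ x ∈ s, g x = x := Iff.rfl

theorem mem_orbit_fixing_iff (G : Subgroup (Perm α)) (s : Set α) (a b : α) :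
    b ∈ MulAction.orbit (fixingSubgroup G s) a ↔ ∃ g ∈ pw G s, g a = b := by
  constructor
  · rintro ⟨⟨⟨g, hg⟩, hgs⟩, rfl⟩
    refine ⟨g, ⟨hg, fun x hx => ?_⟩, rfl⟩
    exact (mem_fixingSubgroup_iff G).mp hgs x hx
  · rintro ⟨g, ⟨hg, hgs⟩, rfl⟩
    exact ⟨⟨⟨g, hg⟩, (mem_fixingSubgroup_iff G).mpr fun x hx => hgs x hx⟩, rfl⟩

theorem card_pw_eq (G : Subgroup (Perm α)) (s t : Set α) (x : Perm α) (hx : x ∈ G)
    (hst : ∀ d, d ∈ s ↔ x d ∈ t) : Nat.card (pw G s) = Nat.card (pw G t) := by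
  refine Nat.card_congr ⟨fun u => ⟨x * u.1 * x⁻¹, ?_⟩, fun u => ⟨x⁻¹ * u.1 * x, ?_⟩, ?_, ?_⟩
  · refine ⟨G.mul_mem (G.mul_mem hx u.2.1) (G.inv_mem hx), fun z hz => ?_⟩
    have h1 : x⁻¹ z ∈ s := by rw [hst]; simpa using hz
    simp only [Perm.mul_apply]
    rw [u.2.2 _ h1]; simp
  · refine ⟨G.mul_mem (G.mul_mem (G.inv_mem hx) u.2.1) hx, fun z hz => ?_⟩
    have h1 : x z ∈ t := (hst z).mp hz
    simp only [Perm.mul_apply]
    rw [u.2.2 _ h1]; simp
  · intro u; ext; simp [mul_assoc]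
  · intro u; ext; simp [mul_assoc]

/-- `k`-transitivity moves any `k`-set to any other. -/
theorem exists_mem_map_finset (G : Subgroup (Perm α)) (D D' : Finset α) {k : ℕ}
    (hD : D.card = k) (hD' : D'.card = k) (hk : IsMultiplyPretransitive G α k) :
    ∃ x ∈ G, ∀ d, d ∈ D ↔ x d ∈ D' := by
  let e : D ≃ Fin k := Finset.equivFinOfCardEq hD
  let e' : D' ≃ Fin k := Finset.equivFinOfCardEq hD'
  let u : Fin k ↪ α := ⟨fun i => (e.symm i : α), fun i j h => e.symm.injective (Subtype.ext h)⟩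
  let u' : Fin k ↪ α := ⟨fun i => (e'.symm i : α), fun i j h => e'.symm.injective (Subtype.ext h)⟩
  obtain ⟨x, hx⟩ := hk.exists_smul_eq u u'
  have key : ∀ i, (x : Perm α) (u i) = u' i := by
    intro i
    have h1 : (x • u) i = u' i := by rw [hx]
    rw [Function.Embedding.smul_apply] at h1
    exact h1
  refine ⟨x, x.2, fun d => ?_⟩
  constructor
  · intro hd
    have h1 := key (e ⟨d, hd⟩)
    have h2 : u (e ⟨d, hd⟩) = d := by
      change ((e.symm (e ⟨d, hd⟩) : D) : α) = d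
      rw [Equiv.symm_apply_apply]
    rw [h2] at h1
    rw [h1]
    exact (e'.symm _).2
  · intro hd
    have h1 := key (e' ⟨_, hd⟩)
    have h2 : u' (e' ⟨_, hd⟩) = (x : Perm α) d := by
      change ((e'.symm (e' ⟨_, hd⟩) : D') : α) = _
      rw [Equiv.symm_apply_apply]
    rw [h2] at h1
    have h3 := (x : Perm α).injective h1
    rw [← h3]
    exact (e.symm _).2

theorem preserve_of_support_subset (τ : Perm α) (D : Finset α) (h : τ.support ⊆ D) :
    ∀ d, τ d ∈ D ↔ d ∈ D := by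
  intro d
  by_cases hd : d ∈ τ.support
  · have h1 : τ d ∈ τ.support := Perm.apply_mem_support.mpr hd
    exact ⟨fun _ => h hd, fun _ => h h1⟩
  · rw [Perm.notMem_support.mp hd]

/-- In a generously `k`-transitive permutation group, for a prime `p ≤ k` and a `k`-set `Γ`, there are no `p` points outside `Γ` lying in distinct orbits of the pointwise stabiliser of `Γ` all of length prime to `p` (at most `p - 1` such orbits). -/
theorem result {α : Type*} [Fintype α] [DecidableEq α] (G : Subgroup (Equiv.Perm α)) {k : ℕ} (hk : k < Fintype.card α) (hgen : ∀ s : Finset α, s.card = k + 1 → ∀ σ : Equiv.Perm ↥s, ∃ g ∈ G, ∀ x : ↥s, g (x : α) = σ x) {p : ℕ} (hp : p.Prime) (hpk : p ≤ k) (Γ : Finset α) (hΓ : Γ.card = k) (f : Fin p → α) (hf : ∀ i, f i ∉ Γ) (hdist : ∀ i j, i ≠ j → f j ∉ MulAction.orbit (fixingSubgroup G (Γ : Set α)) (f i)) : ∃ i, p ∣ Nat.card (MulAction.orbit (fixingSubgroup G (Γ : Set α)) (f i)) := by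
  classical
  by_contra hcon
  push Not at hcon
  have : Fact p.Prime := ⟨hp⟩
  have hG := S0705.gen_of_hgen G hgen
  have hkt := S0705.aux_trans G k hk hG
  have h705 := (S0705.result G hk hgen).2
  set H := pw G (Γ : Set α) with hH
  have hHG : H ≤ G := fun u hu => hu.1
  let O : Fin p → Set α := fun i => {b | ∃ g ∈ H, g (f i) = b}
  have hO : ∀ i, MulAction.orbit (fixingSubgroup G (Γ : Set α)) (f i) = O i := by
    intro i; ext b; exact mem_orbit_fixing_iff G _ _ _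
  have hOcard : ∀ i, ¬ p ∣ Nat.card (O i) := by intro i; rw [← hO i]; exact hcon i
  have hOdisj : ∀ i j, i ≠ j → ∀ b, b ∈ O i → b ∉ O j := by
    rintro i j hij b ⟨g, hg, rfl⟩ ⟨g', hg', hgg'⟩
    apply hdist i j hij
    rw [hO i]
    refine ⟨g'⁻¹ * g, H.mul_mem (H.inv_mem hg') hg, ?_⟩
    rw [Perm.mul_apply, ← hgg']; simp
  have hOΓ : ∀ i, ∀ b ∈ O i, b ∉ Γ := by
    rintro i b ⟨g, hg, rfl⟩ hb
    have h1 := hg.2 _ hb
    have h2 := g.injective h1
    exact hf i (by rw [← h2]; exact hb)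
  have hOH : ∀ i, ∀ g ∈ H, ∀ b ∈ O i, g b ∈ O i := by
    rintro i g hg b ⟨g', hg', rfl⟩
    exact ⟨g * g', H.mul_mem hg hg', rfl⟩
  -- a Sylow subgroup of `H`
  obtain ⟨P, hPH, hPcard⟩ : ∃ P : Subgroup (Perm α), P ≤ H ∧
      Nat.card P = p ^ (Nat.card H).factorization p := by
    obtain ⟨P0, hP0⟩ := Sylow.exists_subgroup_card_pow_prime (G := H) p
      (Nat.ordProj_dvd (Nat.card H) p)
    refine ⟨P0.map H.subtype, ?_, ?_⟩
    · rintro _ ⟨u, _, rfl⟩; exact u.2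
    · rw [Subgroup.card_map_of_injective H.subtype_injective, hP0]
  have hHpos : Nat.card H ≠ 0 := Nat.card_pos.ne'
  have hPp : IsPGroup p P := IsPGroup.of_card hPcard
  have hmax : ∀ s : Finset α, s.card = k → ∀ Q : Subgroup (Perm α), IsPGroup p Q →
      Q ≤ pw G (s : Set α) → Nat.card Q ≤ Nat.card P := by
    intro s hs Q hQ hQs
    obtain ⟨x, hx, hxs⟩ := exists_mem_map_finset G s Γ hs hΓ hkt
    have h1 : Nat.card (pw G (s : Set α)) = Nat.card H :=
      card_pw_eq G _ _ x hx (fun d => by simpa using hxs d)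
    obtain ⟨j, hj⟩ := IsPGroup.iff_card.mp hQ
    have h2 : p ^ j ∣ Nat.card H := by
      rw [← hj, ← h1]; exact Subgroup.card_dvd_of_le hQs
    have h3 : j ≤ (Nat.card H).factorization p :=
      (hp.pow_dvd_iff_le_factorization hHpos).mp h2
    rw [hj, hPcard]
    exact Nat.pow_le_pow_right hp.pos h3
  -- fixed points of `P`
  have hy : ∀ i, ∃ y ∈ O i, ∀ g ∈ P, g y = y := fun i =>
    H16.exists_fixed_in_invariant P hPp (O i) (fun g hg => hOH i g (hPH hg)) (hOcard i)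
  choose y hyO hyP using hy
  let i0 : Fin p := ⟨0, hp.pos⟩
  obtain ⟨Pi0, hPi0Γ, hPi0card⟩ := Finset.exists_subset_card_eq (hpk.trans_eq hΓ.symm)
  obtain ⟨σ, hσc, hσs⟩ := Finset.exists_cycleOn Pi0
  obtain ⟨a, haPi0⟩ : Pi0.Nonempty := by
    rw [← Finset.card_pos, hPi0card]; exact hp.pos
  let Sg : Finset α := insert (y i0) Γ
  have hy0Γ : y i0 ∉ Γ := hOΓ i0 _ (hyO i0)
  have hSgcard : Sg.card = k + 1 := by rw [Finset.card_insert_of_notMem hy0Γ, hΓ]
  have hΓSg : Γ ⊆ Sg := Finset.subset_insert _ _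
  have hσSg : ∀ d, σ d ∈ Sg ↔ d ∈ Sg :=
    preserve_of_support_subset σ Sg (hσs.trans (hPi0Γ.trans hΓSg))
  obtain ⟨g0, hg0, hg0Sg⟩ := hG Sg hSgcard σ hσSg
  have hg0pres : ∀ d, g0 d ∈ (Sg : Set α) ↔ d ∈ (Sg : Set α) :=
    H16.preserve_of_eq_on (Sg : Set α) g0 σ (fun d => by simpa using hσSg d)
      (fun d hd => hg0Sg d (by simpa using hd))
  set K := pw G (Sg : Set α) with hK
  have hKH : K ≤ H := fun u hu => ⟨hu.1, fun z hz => hu.2 z (by
    have : z ∈ Sg := hΓSg (by simpa using hz)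
    simpa using this)⟩
  have hPK : P ≤ K := by
    intro u hu
    refine ⟨(hPH hu).1, fun z hz => ?_⟩
    have hz' : z ∈ Sg := by simpa using hz
    rcases Finset.mem_insert.mp hz' with rfl | hzΓ
    · exact hyP i0 u hu
    · exact (hPH hu).2 z (by simpa using hzΓ)
  let Q2 : Subgroup (Perm α) := P.map (MulAut.conj g0).toMonoidHom
  have hQ2card : Nat.card Q2 = p ^ (Nat.card H).factorization p := by
    rw [← hPcard]
    exact Subgroup.card_map_of_injective (MulAut.conj g0).injective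
  have hQ2K : Q2 ≤ K := by
    rintro _ ⟨u, hu, rfl⟩
    have huK := hPK hu
    refine ⟨?_, fun z hz => ?_⟩
    · change g0 * u * g0⁻¹ ∈ G
      exact G.mul_mem (G.mul_mem hg0 huK.1) (G.inv_mem hg0)
    · change (g0 * u * g0⁻¹) z = z
      have h1 : g0⁻¹ z ∈ (Sg : Set α) := by
        rw [← hg0pres]; simpa using hz
      simp only [Perm.mul_apply]
      rw [huK.2 _ h1]; simp
  have hKcard : ¬ p ^ ((Nat.card H).factorization p + 1) ∣ Nat.card K := by
    intro hdvd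
    exact Nat.pow_succ_factorization_not_dvd hHpos hp (hdvd.trans (Subgroup.card_dvd_of_le hKH))
  obtain ⟨h, hhK, hh⟩ := H16.exists_conj_mem_in_subgroup K P Q2 hPK hQ2K hPcard hQ2card hKcard
  obtain ⟨g, hg⟩ : ∃ g, g = h * g0 := ⟨_, rfl⟩
  have hgG : g ∈ G := by rw [hg]; exact G.mul_mem hhK.1 hg0
  have hgP : ∀ u ∈ P, g * u * g⁻¹ ∈ P := by
    intro u hu
    have h1 : g0 * u * g0⁻¹ ∈ Q2 := ⟨u, hu, rfl⟩
    have h2 := hh _ h1
    have h3 : h * (g0 * u * g0⁻¹) * h⁻¹ = g * u * g⁻¹ := by rw [hg]; group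
    rw [h3] at h2
    exact h2
  have hgSg : ∀ z ∈ Sg, g z = σ z := by
    intro z hz
    rw [hg, Perm.mul_apply, hg0Sg z hz]
    exact hhK.2 _ (by simpa using (hσSg z).mpr hz)
  have hgpow : ∀ j : ℕ, ∀ z ∈ Sg, (g ^ j) z = (σ ^ j) z := by
    intro j
    induction j with
    | zero => intro z _; rfl
    | succ j ih =>
      intro z hz
      rw [pow_succ, pow_succ, Perm.mul_apply, Perm.mul_apply, hgSg z hz]
      exact ih _ ((hσSg z).mpr hz)
  have hgN : g ∈ Subgroup.normalizer (P : Set (Perm α)) := H16.mem_normalizer_of_conj_mem P g hgP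
  obtain ⟨m, hm⟩ : ∃ m, m = ordCompl[p] (orderOf g) := ⟨_, rfl⟩
  have hordpos : orderOf g ≠ 0 := (orderOf_pos g).ne'
  have hpm : ¬ p ∣ m := by rw [hm]; exact Nat.not_dvd_ordCompl hp hordpos
  obtain ⟨x, hx⟩ : ∃ x, x = g ^ m := ⟨_, rfl⟩
  obtain ⟨τ, hτ⟩ : ∃ τ, τ = σ ^ m := ⟨_, rfl⟩
  have hxG : x ∈ G := by rw [hx]; exact G.pow_mem hgG m
  have hxN : x ∈ Subgroup.normalizer (P : Set (Perm α)) := by rw [hx]; exact Subgroup.pow_mem _ hgN m
  have hxSg : ∀ z ∈ Sg, x z = τ z := by rw [hx, hτ]; exact hgpow m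
  have hτs : τ.support ⊆ Pi0 := by rw [hτ]; exact (Perm.support_pow_le σ m).trans hσs
  have hτa : τ a ≠ a := by
    intro h1
    rw [hτ] at h1
    have := (hσc.pow_apply_eq haPi0).mp h1
    rw [hPi0card] at this
    exact hpm this
  have hxa : x a ≠ a := by
    rw [hxSg a (hΓSg (hPi0Γ haPi0))]; exact hτa
  have hτΓ : ∀ d, τ d ∈ Γ ↔ d ∈ Γ := preserve_of_support_subset τ Γ (hτs.trans hPi0Γ)
  have hxΓ : ∀ d, x d ∈ (Γ : Set α) ↔ d ∈ (Γ : Set α) :=
    H16.preserve_of_eq_on (Γ : Set α) x τ (fun d => by simpa using hτΓ d)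
      (fun d hd => hxSg d (hΓSg (by simpa using hd)))
  have hxΓ' : ∀ d, x d ∈ Γ ↔ d ∈ Γ := fun d => by simpa using hxΓ d
  have hxinvΓ : ∀ d, x⁻¹ d ∈ Γ ↔ d ∈ Γ := by
    intro d
    rw [← hxΓ' (x⁻¹ d)]; simp
  -- `x` normalises `H`
  have hxH : ∀ u ∈ H, x * u * x⁻¹ ∈ H := by
    intro u hu
    refine ⟨G.mul_mem (G.mul_mem hxG hu.1) (G.inv_mem hxG), fun z hz => ?_⟩
    have h1 : x⁻¹ z ∈ (Γ : Set α) := by
      have : z ∈ Γ := by simpa using hz
      simpa using (hxinvΓ z).mpr this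
    simp only [Perm.mul_apply]
    rw [hu.2 _ h1]; simp
  have hxsmul : x • Γ = Γ := by
    ext z
    rw [Finset.mem_smul_finset]
    constructor
    · rintro ⟨w, hw, rfl⟩
      exact (hxΓ' w).mpr hw
    · intro hz
      exact ⟨x⁻¹ z, (hxinvΓ z).mpr hz, by simp⟩
  -- `x` preserves each orbit
  have hxO : ∀ i, ∀ b ∈ O i, x b ∈ O i := by
    rintro i b ⟨u, hu, rfl⟩
    have hxf : x (f i) ∉ Γ := fun hc => hf i ((hxΓ' _).mp hc)
    obtain ⟨g', hg'G, hg'Γ, hg'f⟩ := h705 Γ hΓ (f i) (x (f i)) (hf i) hxf ⟨x, hxG, hxsmul, rfl⟩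
    refine ⟨x * u * x⁻¹ * g', H.mul_mem (hxH u hu) ⟨hg'G, fun z hz => hg'Γ z (by simpa using hz)⟩, ?_⟩
    simp only [Perm.mul_apply]
    rw [hg'f]; simp
  -- the `p`-group `Q = P ⊔ ⟨x⟩`
  have hxp : IsPGroup p (Subgroup.zpowers x) := by
    rintro ⟨u, hu⟩
    obtain ⟨i, rfl⟩ := Subgroup.mem_zpowers_iff.mp hu
    refine ⟨(orderOf g).factorization p, ?_⟩
    apply Subtype.ext
    change (x ^ i) ^ (p ^ (orderOf g).factorization p) = 1
    have h1 : x ^ (p ^ (orderOf g).factorization p) = 1 := by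
      rw [hx, ← pow_mul, hm, mul_comm, Nat.ordProj_mul_ordCompl_eq_self]
      exact pow_orderOf_eq_one g
    rw [← zpow_natCast, ← zpow_mul, mul_comm, zpow_mul, zpow_natCast, h1, one_zpow]
  set Q := P ⊔ Subgroup.zpowers x with hQ
  have hQp : IsPGroup p Q :=
    IsPGroup.to_sup_of_normal_left' hPp hxp (by rw [Subgroup.zpowers_le]; exact hxN)
  have hPQ : P ≤ Q := le_sup_left
  have hxQ : x ∈ Q := (le_sup_right : Subgroup.zpowers x ≤ Q) (Subgroup.mem_zpowers x)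
  have hQO : ∀ i, ∀ u ∈ Q, ∀ b ∈ O i, u b ∈ O i := by
    intro i
    have h1 : Q ≤ MulAction.stabilizer (Perm α) (O i) := by
      rw [hQ, sup_le_iff, Subgroup.zpowers_le]
      constructor
      · intro u hu
        rw [MulAction.mem_stabilizer_set_iff_smul_set_subset (Set.toFinite _)]
        rintro _ ⟨b, hb, rfl⟩
        exact hOH i u (hPH hu) b hb
      · rw [MulAction.mem_stabilizer_set_iff_smul_set_subset (Set.toFinite _)]
        rintro _ ⟨b, hb, rfl⟩
        exact hxO i b hb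
    intro u hu b hb
    have h2 := h1 hu
    rw [MulAction.mem_stabilizer_iff] at h2
    rw [← h2]
    exact Set.smul_mem_smul_set hb
  have hy' : ∀ i, ∃ y ∈ O i, ∀ g ∈ Q, g y = y := fun i =>
    H16.exists_fixed_in_invariant Q hQp (O i) (hQO i) (hOcard i)
  choose y' hy'O hy'Q using hy'
  have hy'inj : Function.Injective y' := by
    intro i j hij
    by_contra hne
    exact hOdisj i j hne (y' i) (hy'O i) (by rw [hij]; exact hy'O j)
  set Γ2 : Finset α := (Γ \ Pi0) ∪ Finset.univ.image y' with hΓ2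
  have hΓ2card : Γ2.card = k := by
    rw [hΓ2, Finset.card_union_of_disjoint, Finset.card_sdiff_of_subset hPi0Γ,
      Finset.card_image_of_injective _ hy'inj, Finset.card_univ, Fintype.card_fin, hΓ, hPi0card]
    · omega
    · rw [Finset.disjoint_left]
      intro z hz hz'
      obtain ⟨i, _, rfl⟩ := Finset.mem_image.mp hz'
      exact hOΓ i _ (hy'O i) (Finset.mem_sdiff.mp hz).1
  have hQΓ2 : Q ≤ pw G (Γ2 : Set α) := by
    rw [hQ, sup_le_iff, Subgroup.zpowers_le]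
    constructor
    · intro u hu
      refine ⟨(hPH hu).1, fun z hz => ?_⟩
      have hz' : z ∈ Γ2 := by simpa using hz
      rcases Finset.mem_union.mp hz' with h1 | h1
      · exact (hPH hu).2 z (by simpa using (Finset.mem_sdiff.mp h1).1)
      · obtain ⟨i, _, rfl⟩ := Finset.mem_image.mp h1
        exact hy'Q i u (hPQ hu)
    · refine ⟨hxG, fun z hz => ?_⟩
      have hz' : z ∈ Γ2 := by simpa using hz
      rcases Finset.mem_union.mp hz' with h1 | h1
      · have h2 := Finset.mem_sdiff.mp h1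
        rw [hxSg z (hΓSg h2.1)]
        exact Perm.notMem_support.mp (fun hc => h2.2 (hτs hc))
      · obtain ⟨i, _, rfl⟩ := Finset.mem_image.mp h1
        exact hy'Q i x hxQ
  have hcardQP : Nat.card Q ≤ Nat.card P := hmax Γ2 hΓ2card Q hQp hQΓ2
  have hPeqQ : P = Q := Subgroup.eq_of_le_of_card_ge hPQ hcardQP
  have hxP : x ∈ P := by rw [hPeqQ]; exact hxQ
  exact hxa ((hPH hxP).2 a (by simpa using hPi0Γ haPi0))

end Cfsg.Agent.S0706
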