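import Cfsg.Statements.S0707
import Mathlib

set_option autoImplicit false
open Cfsg

namespace Cfsg.Agent.S0707

/-- In a primitive permutation group, distinct points have distinct stabilisers unless the group is regular of prime degree. -/
theorem result {α : Type*} (G : Subgroup (Equiv.Perm α)) [MulAction.IsPreprimitive G α] (h : ¬ (Nat.card α).Prime ∨ ∃ a : α, MulAction.stabilizer G a ≠ ⊥) {a b : α} (hab : a ≠ b) : MulAction.stabilizer G a ≠ MulAction.stabilizer G b := by
  intro heq
  haveI : Nontrivial α := ⟨⟨a, b, hab⟩⟩
  have hco : IsCoatom (MulAction.stabilizer G a) :=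
    MulAction.IsPreprimitive.isCoatom_stabilizer_of_isPreprimitive G a
  obtain ⟨g, hg⟩ := MulAction.exists_smul_eq G a b
  -- g normalizes the stabilizer
  have hgn : g ∈ Subgroup.normalizer ((MulAction.stabilizer G a : Subgroup G) : Set G) := by
    rw [Subgroup.mem_normalizer_iff]
    intro k
    have h1 : MulAction.stabilizer G (g • a) = (MulAction.stabilizer G a).map (MulAut.conj g).toMonoidHom :=
      MulAction.stabilizer_smul_eq_stabilizer_map_conj g a
    rw [hg, ← heq] at h1
    constructor
    · intro hk
      rw [h1]
      exact ⟨k, hk, rfl⟩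
    · intro hk
      rw [h1] at hk
      obtain ⟨k', hk', hk'e⟩ := hk
      have : k' = k := by
        simp only [MulEquiv.toMonoidHom_eq_coe, MonoidHom.coe_coe, MulAut.conj_apply] at hk'e
        have h3 : g⁻¹ * (g * k' * g⁻¹) * g = g⁻¹ * (g * k * g⁻¹) * g := by rw [hk'e]
        simpa [mul_assoc] using h3
      rwa [← this]
  have hgnot : g ∉ MulAction.stabilizer G a := by
    intro hga
    rw [MulAction.mem_stabilizer_iff] at hga
    exact hab (hga.symm.trans hg)
  have hnorm : Subgroup.normalizer ((MulAction.stabilizer G a : Subgroup G) : Set G) = ⊤ := by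
    apply hco.2
    exact lt_of_le_of_ne Subgroup.le_normalizer (fun hh => hgnot (hh ▸ hgn))
  -- so the stabilizer is normal hence trivial
  have hstab : ∀ x : α, MulAction.stabilizer G x = MulAction.stabilizer G a := by
    intro x
    obtain ⟨k, rfl⟩ := MulAction.exists_smul_eq G a x
    rw [MulAction.stabilizer_smul_eq_stabilizer_map_conj]
    have hk : k ∈ Subgroup.normalizer ((MulAction.stabilizer G a : Subgroup G) : Set G) := by
      rw [hnorm]; trivial
    ext y
    constructor
    · rintro ⟨y', hy', rfl⟩
      exact (Subgroup.mem_normalizer_iff.mp hk y').mp hy'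
    · intro hy
      refine ⟨k⁻¹ * y * k, ?_, ?_⟩
      · have := (Subgroup.mem_normalizer_iff.mp hk (k⁻¹ * y * k)).mpr
        apply this
        simpa [mul_assoc] using hy
      · simp [mul_assoc]
  have hbot : MulAction.stabilizer G a = ⊥ := by
    rw [eq_bot_iff]
    intro k hk
    rw [Subgroup.mem_bot]
    apply Subtype.ext
    ext x
    have : k ∈ MulAction.stabilizer G x := by rw [hstab x]; exact hk
    exact this
  have hreg : ∀ x : α, MulAction.stabilizer G x = ⊥ := fun x => (hstab x).trans hbot
  rcases h with h | ⟨x, hx⟩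
  swap
  · exact hx (hreg x)
  apply h
  rw [hbot] at hco
  -- G is a simple commutative group
  have hcard : Nat.card α = Nat.card G := by
    have hbij : Function.Bijective (fun k : G => k • a) := by
      constructor
      · intro k k' hkk
        simp only at hkk
        have : k'⁻¹ * k ∈ MulAction.stabilizer G a := by
          rw [MulAction.mem_stabilizer_iff, mul_smul, hkk, inv_smul_smul]
        rw [hbot, Subgroup.mem_bot] at this
        have h2 : k' * (k'⁻¹ * k) = k' := by rw [this, mul_one]
        simpa using h2
      · exact fun y => MulAction.exists_smul_eq G a y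
    exact (Nat.card_congr (Equiv.ofBijective _ hbij)).symm
  rw [hcard]
  have hne : (⊥ : Subgroup G) ≠ ⊤ := hco.1
  obtain ⟨k, hk⟩ : ∃ k : G, k ≠ 1 := by
    by_contra hcon
    push_neg at hcon
    apply hne
    ext y
    simp [hcon y]
  have hz : Subgroup.zpowers k = ⊤ := by
    apply hco.2
    rw [bot_lt_iff_ne_bot]
    exact Subgroup.zpowers_ne_bot.2 hk
  haveI : IsCyclic G := ⟨⟨k, (Subgroup.eq_top_iff' _).1 hz⟩⟩
  haveI : IsMulCommutative G := inferInstance
  haveI : IsSimpleGroup G := by
    refine { exists_pair_ne := ⟨k, 1, hk⟩, eq_bot_or_eq_top_of_normal := ?_ }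
    intro H _
    by_cases hH : H = ⊥
    · exact Or.inl hH
    · exact Or.inr (hco.2 H (bot_lt_iff_ne_bot.2 hH))
  exact Group.is_simple_iff_prime_card.mp inferInstance

end Cfsg.Agent.S0707
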