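import Cfsg.Statements.S0708
import Cfsg.Agent.H10.Sharp

set_option autoImplicit false
open Cfsg

namespace Cfsg.Agent.S0708

open MulAction Cfsg.Agent.H10 in
theorem finite_of_sharp4 {G : Type*} [Group G] {Ω : Type*} [MulAction G Ω] (hS : SharpK G Ω 4)
    (hne : Nonempty (Fin 4 ↪ Ω)) : Finite Ω := by
  classical
  obtain ⟨e⟩ := hne
  have hinj := e.injective
  have h01 : e 0 ≠ e 1 := fun h => by simpa using hinj h
  have h02 : e 0 ≠ e 2 := fun h => by simpa using hinj h
  have h03 : e 0 ≠ e 3 := fun h => by simpa using hinj h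
  have h12 : e 1 ≠ e 2 := fun h => by simpa using hinj h
  have h13 : e 1 ≠ e 3 := fun h => by simpa using hinj h
  have h23 : e 2 ≠ e 3 := fun h => by simpa using hinj h
  -- the reference set
  have hAcard : ({e 0, e 1, e 2, e 3} : Finset Ω).card = 4 := by
    rw [Finset.card_insert_of_notMem, Finset.card_insert_of_notMem,
      Finset.card_insert_of_notMem, Finset.card_singleton]
    · simpa using h23
    · simp [h12, h13]
    · simp [h01, h02, h03]
  obtain ⟨x, hxA⟩ := hS.1 {e 0, e 1, e 2, e 3} hAcard (Equiv.swap (e 0) (e 1))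
    (Equiv.injective _).injOn
  have hxa : x • e 0 = e 1 := by rw [hxA (e 0) (by simp), Equiv.swap_apply_left]
  have hxb : x • e 1 = e 0 := by rw [hxA (e 1) (by simp), Equiv.swap_apply_right]
  have hxp : x • e 2 = e 2 := by
    rw [hxA (e 2) (by simp), Equiv.swap_apply_of_ne_of_ne (Ne.symm h02) (Ne.symm h12)]
  have hxq : x • e 3 = e 3 := by
    rw [hxA (e 3) (by simp), Equiv.swap_apply_of_ne_of_ne (Ne.symm h03) (Ne.symm h13)]
  have hx : x * x = 1 := by
    apply hS.2 (x * x) _ hAcard.ge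
    intro a ha
    rw [mul_smul]
    simp only [Finset.mem_insert, Finset.mem_singleton] at ha
    rcases ha with rfl | rfl | rfl | rfl
    · rw [hxa, hxb]
    · rw [hxb, hxa]
    · rw [hxp, hxp]
    · rw [hxq, hxq]
  have hxx : ∀ a : Ω, x • x • a = a := fun a => by rw [smul_smul, hx, one_smul]
  -- the fixed points are finite
  have hFfin : {p : Ω | x • p = p}.Finite := by
    by_contra hinf
    obtain ⟨t, htsub, htcard⟩ := (Set.not_finite.1 hinf).exists_subset_card_eq 4
    have h1 : x = 1 := hS.2 x t htcard.ge (fun a ha => htsub ha)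
    rw [h1, one_smul] at hxa
    exact h01 hxa
  -- the moved points outside the first 2-cycle
  have hScard : ({e 0, e 1} : Finset Ω).card + 2 = 4 := by rw [Finset.card_pair h01]
  have hSx : ∀ s ∈ ({e 0, e 1} : Finset Ω), x • s ∈ ({e 0, e 1} : Finset Ω) := by
    intro s hs
    simp only [Finset.mem_insert, Finset.mem_singleton] at hs ⊢
    rcases hs with rfl | rfl
    · right; exact hxa
    · left; exact hxb
  have hRfin : {c : Ω | x • c ≠ c ∧ c ≠ e 0 ∧ c ≠ e 1}.Finite := by
    by_cases hemp : {c : Ω | x • c ≠ c ∧ c ≠ e 0 ∧ c ≠ e 1} = ∅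
    · rw [hemp]; exact Set.finite_empty
    obtain ⟨c₀, hc₀⟩ := Set.nonempty_iff_ne_empty.2 hemp
    have notS : ∀ c : Ω, (x • c ≠ c ∧ c ≠ e 0 ∧ c ≠ e 1) → c ∉ ({e 0, e 1} : Finset Ω) := by
      intro c hc
      simp only [Finset.mem_insert, Finset.mem_singleton, not_or]
      exact ⟨hc.2.1, hc.2.2⟩
    have hxR : ∀ c : Ω, (x • c ≠ c ∧ c ≠ e 0 ∧ c ≠ e 1) →
        (x • x • c ≠ x • c ∧ x • c ≠ e 0 ∧ x • c ≠ e 1) := by
      intro c hc
      refine ⟨by rw [hxx]; exact Ne.symm hc.1, fun h => hc.2.2 ?_, fun h => hc.2.1 ?_⟩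
      · rw [← hxx c, h, hxa]
      · rw [← hxx c, h, hxb]
    have hex : ∀ c : {c : Ω | x • c ≠ c ∧ c ≠ e 0 ∧ c ≠ e 1},
        ∃ g : G, g * x = x * g ∧ (∀ s ∈ ({e 0, e 1} : Finset Ω), g • s = s) ∧
          g • c₀ = c.1 ∧ g • (x • c₀) = x • c.1 := by
      intro c
      exact hS.exists_fix_commute x hx {e 0, e 1} hSx hScard (Ne.symm hc₀.1) (notS c₀ hc₀)
        (notS _ (hxR c₀ hc₀)) (Ne.symm c.2.1) (notS c.1 c.2) (notS _ (hxR c.1 c.2))
        (Or.inr ⟨rfl, rfl⟩)
    choose gf hgf using hex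
    have hp2 : e 2 ∉ ({e 0, e 1} : Finset Ω) := by simp [Ne.symm h02, Ne.symm h12]
    have hq2 : e 3 ∉ ({e 0, e 1} : Finset Ω) := by simp [Ne.symm h03, Ne.symm h13]
    have hinjf : Function.Injective (fun c : {c : Ω | x • c ≠ c ∧ c ≠ e 0 ∧ c ≠ e 1} =>
        ((⟨gf c • e 2, by
          show x • gf c • e 2 = gf c • e 2
          rw [← mul_smul, ← (hgf c).1, mul_smul, hxp]⟩ : {p : Ω | x • p = p}),
         (⟨gf c • e 3, by
          show x • gf c • e 3 = gf c • e 3
          rw [← mul_smul, ← (hgf c).1, mul_smul, hxq]⟩ : {p : Ω | x • p = p}))) := by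
      intro c c' h
      simp only [Prod.mk.injEq, Subtype.mk.injEq] at h
      have heq : gf c = gf c' := hS.eq_of_fix {e 0, e 1} hScard h23 hp2 hq2 (gf c) (gf c')
        (hgf c).2.1 (hgf c').2.1 h.1 h.2
      apply Subtype.ext
      rw [← (hgf c).2.2.1, ← (hgf c').2.2.1, heq]
    haveI : Finite {p : Ω | x • p = p} := hFfin
    exact Finite.of_injective _ hinjf
  rw [← Set.finite_univ_iff]
  apply Set.Finite.subset ((hFfin.union (Set.toFinite {e 0, e 1})).union hRfin)
  intro c _
  by_cases h1 : x • c = c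
  · left; left; exact h1
  · by_cases h2 : c = e 0
    · left; right; simp [h2]
    · by_cases h3 : c = e 1
      · left; right; simp [h3]
      · right; exact ⟨h1, h2, h3⟩


/-- Tits' argument: a sharply 4-transitive group (no finiteness assumed) has finite degree at most 11, and at most 6 when the degree is even. -/
theorem result {G : Type*} [Group G] {Ω : Type*} [MulAction G Ω] (h4 : MulAction.IsMultiplyPretransitive G Ω 4) (hsharp : ∀ x : Fin 4 ↪ Ω, MulAction.stabilizer G x = ⊥) (hne : Nonempty (Fin 4 ↪ Ω)) : Finite Ω ∧ Nat.card Ω ≤ 11 ∧ (Even (Nat.card Ω) → Nat.card Ω ≤ 6) := by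
  classical
  have hS := Cfsg.Agent.H10.sharpK_of h4 hsharp
  haveI hfin : Finite Ω := finite_of_sharp4 hS hne
  haveI := Fintype.ofFinite Ω
  have h4le : 4 ≤ Fintype.card Ω := by
    obtain ⟨e⟩ := hne
    have := Fintype.card_le_of_embedding e
    simpa using this
  have hc := hS.card_cases (le_refl 4) h4le
  rw [Nat.card_eq_fintype_card]
  refine ⟨hfin, ?_, ?_⟩
  · rcases hc with h | h | h | ⟨-, h⟩ <;> omega
  · intro hev
    rcases hc with h | h | h | ⟨-, h⟩
    · omega
    · omega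
    · omega
    · rw [h] at hev
      exact absurd hev (by decide)

end Cfsg.Agent.S0708
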