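import Cfsg.Statements.S0710
import Cfsg.Agent.H16.MinNormal

set_option autoImplicit false
open Cfsg

namespace Cfsg.Agent.S0710

open Cfsg.Agent.H16 MulAction

/-- No transitive permutation group on 13 points has order `13 * 12 * 11 * 10 * 9 * 8`. -/
theorem result {α : Type*} [Fintype α] [DecidableEq α] (hα : Fintype.card α = 13) (G : Subgroup (Equiv.Perm α)) [MulAction.IsPretransitive G α] : Nat.card G ≠ 13 * 12 * 11 * 10 * 9 * 8 := by
  intro hG
  haveI : Fact (Nat.Prime 13) := ⟨by norm_num⟩
  have hG' : Nat.card G = 13 * 95040 := by rw [hG]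
  obtain ⟨P⟩ : Nonempty (Sylow 13 G) := inferInstance
  -- |P| = 13
  have hfac : (Nat.card G).factorization 13 = 1 := by
    rw [hG', Nat.factorization_mul (by norm_num) (by norm_num)]
    simp only [Finsupp.coe_add, Pi.add_apply]
    rw [Nat.Prime.factorization_self (by norm_num),
      Nat.factorization_eq_zero_of_not_dvd (by norm_num)]
  have hP : Nat.card P = 13 := by
    rw [Sylow.card_eq_multiplicity, hfac, pow_one]
  -- P is cyclic
  haveI hcyc : IsCyclic P := isCyclic_of_prime_card hP
  haveI hcomm : IsMulCommutative (P : Subgroup G) := inferInstance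
  -- P is transitive
  haveI hPtrans : IsPretransitive (P : Subgroup G) α := by
    obtain ⟨x, hx1⟩ : ∃ x : (P : Subgroup G), x ≠ 1 := by
      by_contra hcon
      push Not at hcon
      have : Subsingleton (P : Subgroup G) := ⟨fun u v => by rw [hcon u, hcon v]⟩
      have := Nat.card_eq_one_iff_unique.mpr ⟨this, ⟨1⟩⟩
      omega
    obtain ⟨a, ha⟩ : ∃ a : α, x • a ≠ a := by
      by_contra hcon
      push Not at hcon
      apply hx1
      apply Subtype.ext
      apply Subtype.ext
      ext y
      exact hcon y
    rw [isPretransitive_iff_orbit_eq_univ a]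
    have h1 : (stabilizer (P : Subgroup G) a).index = (orbit (P : Subgroup G) a).ncard :=
      index_stabilizer _ a
    have h2 : (stabilizer (P : Subgroup G) a).index ∣ 13 := by
      have := Subgroup.index_dvd_card (stabilizer (P : Subgroup G) a)
      rw [hP] at this
      exact this
    have h3 : (stabilizer (P : Subgroup G) a).index ≠ 1 := by
      intro h
      rw [Subgroup.index_eq_one] at h
      have : x ∈ stabilizer (P : Subgroup G) a := by rw [h]; trivial
      exact ha this
    have h4 : (orbit (P : Subgroup G) a).ncard = 13 := by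
      rw [← h1]
      rcases (Nat.dvd_prime (by norm_num : Nat.Prime 13)).mp h2 with h | h
      · exact absurd h h3
      · exact h
    exact (Set.eq_univ_iff_ncard _).mpr (by rw [h4, Nat.card_eq_fintype_card, hα])
  -- the centraliser of P in G has order 13
  haveI hP't : IsPretransitive ((P : Subgroup G).map G.subtype) α := isPretransitive_map_subtype G _
  have hCle : (Subgroup.centralizer ((P : Subgroup G) : Set G)).map G.subtype ≤
      Subgroup.centralizer ((((P : Subgroup G).map G.subtype : Subgroup (Equiv.Perm α))) : Set (Equiv.Perm α)) := by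
    apply map_le_centralizer_of_commute
    intro m hm n hn
    exact (hn m hm)
  obtain ⟨a⟩ : Nonempty α := by
    rw [← Fintype.card_pos_iff, hα]; norm_num
  have hCstab : stabilizer (Subgroup.centralizer ((P : Subgroup G) : Set G)) a = ⊥ :=
    stabilizer_eq_bot_of_map_le_centralizer G _ _ hCle a
  have hCcard : Nat.card (Subgroup.centralizer ((P : Subgroup G) : Set G)) = 13 := by
    apply le_antisymm
    · have h1 := index_stabilizer (Subgroup.centralizer ((P : Subgroup G) : Set G)) a
      rw [hCstab, Subgroup.index_bot] at h1
      rw [h1]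
      calc (orbit (Subgroup.centralizer ((P : Subgroup G) : Set G)) a).ncard
          ≤ (Set.univ : Set α).ncard := Set.ncard_le_ncard (Set.subset_univ _) (Set.toFinite _)
        _ = 13 := by rw [Set.ncard_univ, Nat.card_eq_fintype_card, hα]
    · have := Subgroup.card_le_of_le (Subgroup.le_centralizer (H := (P : Subgroup G)))
      rw [hP] at this
      exact this
  -- N/C embeds in Aut(P)
  have key := Subgroup.card_dvd_of_injective _ (QuotientGroup.kerLift_injective (P : Subgroup G).normalizerMonoidHom)
  rw [Subgroup.normalizerMonoidHom_ker, ← Subgroup.index, ← Subgroup.relIndex] at key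
  rw [hcyc.card_mulAut, hP] at key
  have htot : Nat.totient 13 = 12 := by
    rw [Nat.totient_prime (by norm_num)]
  rw [htot] at key
  set r := (Subgroup.centralizer ((P : Subgroup G) : Set G)).relIndex (Subgroup.normalizer ((P : Subgroup G) : Set G)) with hr
  have hNcard : Nat.card (Subgroup.normalizer ((P : Subgroup G) : Set G)) = 13 * r := by
    have := Subgroup.relIndex_mul_relIndex (⊥ : Subgroup G) _ _ bot_le
      (Subgroup.centralizer_le_normalizer ((P : Subgroup G) : Set G))
    rw [Subgroup.relIndex_bot_left, Subgroup.relIndex_bot_left, hCcard] at this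
    rw [← this]
  have hn13 := card_sylow_modEq_one 13 G
  rw [Sylow.card_eq_index_normalizer P] at hn13
  set n13 := (Subgroup.normalizer ((P : Subgroup G) : Set G)).index with hn13def
  have hmul : 13 * r * n13 = 13 * 95040 := by
    rw [← hNcard, ← hG']
    exact Subgroup.card_mul_index _
  have hrn : r * n13 = 95040 := by
    have : 13 * (r * n13) = 13 * 95040 := by rw [← mul_assoc]; exact hmul
    exact Nat.eq_of_mul_eq_mul_left (by norm_num) this
  have hrdiv : r ∈ Nat.divisors 12 := Nat.mem_divisors.mpr ⟨key, by norm_num⟩
  have hdivs : Nat.divisors 12 = {1, 2, 3, 4, 6, 12} := by decide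
  rw [hdivs] at hrdiv
  simp only [Finset.mem_insert, Finset.mem_singleton] at hrdiv
  have hmod : n13 % 13 = 1 := hn13
  rcases hrdiv with h | h | h | h | h | h <;> rw [h] at hrn <;> omega

end Cfsg.Agent.S0710
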