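import Cfsg.Statements.S0712
import Cfsg.Agent.H16.MultTrans

set_option autoImplicit false
open Cfsg

namespace Cfsg.Agent.S0712

open MulAction SubMulAction

/-- Jordan: a primitive group in which the pointwise stabiliser of a set `s` is doubly transitive on the complement of `s` (which has at least 2 points) is `(|s| + 2)`-transitive. -/
theorem result {α : Type*} [Fintype α] [DecidableEq α] (G : Subgroup (Equiv.Perm α)) (hG : MulAction.IsPreprimitive G α) (s : Set α) {m : ℕ} (hsm : s.ncard = m) (hm : m + 2 ≤ Fintype.card α) (h2 : MulAction.IsMultiplyPretransitive (fixingSubgroup G s) (SubMulAction.ofFixingSubgroup G s) 2) : MulAction.IsMultiplyPretransitive G α (m + 2) := by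
  apply Cfsg.Agent.H16.isMultiplyPretransitive_add_two_of_fixingSubgroup m s hsm _ h2
  rcases Nat.eq_zero_or_pos m with rfl | hmpos
  · exact MulAction.is_zero_pretransitive
  · obtain ⟨n, rfl⟩ : ∃ n, m = n + 1 := ⟨m - 1, by omega⟩
    have hprim : IsPreprimitive (fixingSubgroup G s) (ofFixingSubgroup G s) :=
      isPreprimitive_of_is_two_pretransitive h2
    have hcard : n + 2 < Nat.card α := by
      rw [Nat.card_eq_fintype_card]; omega
    have h3 : IsMultiplyPreprimitive G α (n + 2) := hG.isMultiplyPreprimitive hsm hcard hprim
    have h4 : IsMultiplyPretransitive G α (n + 2) := IsMultiplyPreprimitive.isMultiplyPretransitive ..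
    exact isMultiplyPretransitive_of_le (n := n + 2) (Nat.le_succ _) (le_of_lt hcard)

end Cfsg.Agent.S0712
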