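import Cfsg.Statements.S0714
import Mathlib

set_option autoImplicit false
open Cfsg

namespace Cfsg.Agent.S0714

open Equiv MulAction

variable {α : Type*} [Fintype α] [DecidableEq α] {K : Type*} [Field K]

theorem aux_apply (g : alternatingGroup α) (f : α → K) (x : α) :
    (Cfsg.permRep K (alternatingGroup α) α g f) x = f (g⁻¹ • x) := rfl

theorem aux_single (g : alternatingGroup α) (i : α) :
    Cfsg.permRep K (alternatingGroup α) α g (Pi.single i (1 : K)) = Pi.single (g • i) 1 := by
  funext x
  rw [aux_apply]
  by_cases h : x = g • i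
  · subst h; simp
  · rw [Pi.single_apply, Pi.single_apply, if_neg h, if_neg]
    intro h2
    apply h
    rw [← h2, smul_inv_smul]

theorem aux_three_cycle_mem {a b c : α} (hab : a ≠ b) (hbc : b ≠ c) :
    swap a b * swap b c ∈ alternatingGroup α := by
  rw [Equiv.Perm.mem_alternatingGroup, Equiv.Perm.sign_mul, Equiv.Perm.sign_swap hab,
    Equiv.Perm.sign_swap hbc]
  simp

/-- From a non-constant vector in `W` we get a difference of two basis vectors in `W`. -/
theorem aux_key1 (hα : 5 ≤ Fintype.card α)
    (W : Subrepresentation (Cfsg.permRep K (alternatingGroup α) α)) {f : α → K}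
    (hf : f ∈ W.toSubmodule) {i j : α} (hij : f i ≠ f j) :
    ∃ p q : α, p ≠ q ∧ (Pi.single p (1 : K) - Pi.single q 1 : α → K) ∈ W.toSubmodule := by
  have hne : i ≠ j := fun h => hij (h ▸ rfl)
  -- choose three more points
  have hex : ∀ s : Finset α, s.card < 5 → ∃ z, z ∉ s := by
    intro s hs
    by_contra hcon
    push Not at hcon
    have : s = Finset.univ := Finset.eq_univ_iff_forall.mpr hcon
    rw [this, Finset.card_univ] at hs
    omega
  obtain ⟨k, hk⟩ := hex {i, j} (lt_of_le_of_lt (Finset.card_le_two) (by norm_num))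
  obtain ⟨l, hl⟩ := hex {i, j, k} (lt_of_le_of_lt (Finset.card_le_three) (by norm_num))
  obtain ⟨m, hm⟩ := hex {i, j, k, l} (lt_of_le_of_lt (Finset.card_le_four) (by norm_num))
  simp only [Finset.mem_insert, Finset.mem_singleton, not_or] at hk hl hm
  obtain ⟨hki, hkj⟩ := hk
  obtain ⟨hli, hlj, hlk⟩ := hl
  obtain ⟨hmi, hmj, hmk, hml⟩ := hm
  let σ : alternatingGroup α := ⟨swap i j * swap j k, aux_three_cycle_mem hne (Ne.symm hkj)⟩
  let ρ : alternatingGroup α := ⟨swap j l * swap l m, aux_three_cycle_mem (Ne.symm hlj) (Ne.symm hml)⟩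
  set u : α → K := f - Cfsg.permRep K (alternatingGroup α) α σ f with hu
  have huW : u ∈ W.toSubmodule := W.toSubmodule.sub_mem hf (W.apply_mem_toSubmodule σ hf)
  have hσj : σ⁻¹ • j = i := by
    rw [inv_smul_eq_iff]
    change j = (swap i j * swap j k) i
    rw [Equiv.Perm.mul_apply, swap_apply_of_ne_of_ne hne (Ne.symm hki), swap_apply_left]
  have hσfix : ∀ x, x ≠ i → x ≠ j → x ≠ k → σ⁻¹ • x = x := by
    intro x hxi hxj hxk
    rw [inv_smul_eq_iff]
    change x = (swap i j * swap j k) x
    rw [Equiv.Perm.mul_apply, swap_apply_of_ne_of_ne hxj hxk, swap_apply_of_ne_of_ne hxi hxj]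
  have huj : u j = f j - f i := by
    rw [hu, Pi.sub_apply, aux_apply, hσj]
  have hu0 : ∀ x, x ≠ i → x ≠ j → x ≠ k → u x = 0 := by
    intro x hxi hxj hxk
    rw [hu, Pi.sub_apply, aux_apply, hσfix x hxi hxj hxk, sub_self]
  have hujne : u j ≠ 0 := by
    rw [huj]
    exact sub_ne_zero.mpr (Ne.symm hij)
  set v : α → K := u - Cfsg.permRep K (alternatingGroup α) α ρ u with hv
  have hvW : v ∈ W.toSubmodule := W.toSubmodule.sub_mem huW (W.apply_mem_toSubmodule ρ huW)
  have hρj : ρ⁻¹ • j = m := by
    rw [inv_smul_eq_iff]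
    change j = (swap j l * swap l m) m
    rw [Equiv.Perm.mul_apply, swap_apply_right, swap_apply_right]
  have hρl : ρ⁻¹ • l = j := by
    rw [inv_smul_eq_iff]
    change l = (swap j l * swap l m) j
    rw [Equiv.Perm.mul_apply, swap_apply_of_ne_of_ne (Ne.symm hlj) (Ne.symm hmj), swap_apply_left]
  have hρm : ρ⁻¹ • m = l := by
    rw [inv_smul_eq_iff]
    change m = (swap j l * swap l m) l
    rw [Equiv.Perm.mul_apply, swap_apply_left, swap_apply_of_ne_of_ne hmj hml]
  have hρfix : ∀ x, x ≠ j → x ≠ l → x ≠ m → ρ⁻¹ • x = x := by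
    intro x hxj hxl hxm
    rw [inv_smul_eq_iff]
    change x = (swap j l * swap l m) x
    rw [Equiv.Perm.mul_apply, swap_apply_of_ne_of_ne hxl hxm, swap_apply_of_ne_of_ne hxj hxl]
  have hveq : v = u j • (Pi.single j (1 : K) - Pi.single l 1 : α → K) := by
    funext x
    rw [hv, Pi.sub_apply, aux_apply, Pi.smul_apply, Pi.sub_apply, smul_eq_mul]
    by_cases hxj : x = j
    · subst hxj
      rw [hρj, hu0 m hmi hmj hmk]
      simp [Pi.single_apply, hlj]
    · by_cases hxl : x = l
      · subst hxl
        rw [hρl, hu0 x hli hlj hlk]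
        simp [Pi.single_apply, hlj]
      · by_cases hxm : x = m
        · subst hxm
          rw [hρm, hu0 x hmi hmj hmk, hu0 l hli hlj hlk]
          simp [Pi.single_apply, hmj, hml]
        · rw [hρfix x hxj hxl hxm]
          simp [Pi.single_apply, hxj, hxl]
  refine ⟨j, l, Ne.symm hlj, ?_⟩
  have : (Pi.single j (1 : K) - Pi.single l 1 : α → K) = (u j)⁻¹ • v := by
    rw [hveq, smul_smul, inv_mul_cancel₀ hujne, one_smul]
  rw [this]
  exact W.toSubmodule.smul_mem _ hvW

/-- If `W` contains one difference of basis vectors, it contains all of them. -/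
theorem aux_key2 (hα : 5 ≤ Fintype.card α)
    (W : Subrepresentation (Cfsg.permRep K (alternatingGroup α) α)) {p q : α} (hpq : p ≠ q)
    (h : (Pi.single p (1 : K) - Pi.single q 1 : α → K) ∈ W.toSubmodule) (x y : α) (hxy : x ≠ y) :
    (Pi.single x (1 : K) - Pi.single y 1 : α → K) ∈ W.toSubmodule := by
  have h1 := alternatingGroup.isMultiplyPretransitive α
  have h2 : IsMultiplyPretransitive (alternatingGroup α) α 2 := by
    apply isMultiplyPretransitive_of_le (n := Nat.card α - 2)
    · rw [Nat.card_eq_fintype_card]; omega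
    · exact Nat.sub_le _ _
  obtain ⟨g, hgp, hgq⟩ := MulAction.is_two_pretransitive_iff.mp h2 hpq hxy
  have := W.apply_mem_toSubmodule g h
  rw [map_sub, aux_single, aux_single, hgp, hgq] at this
  exact this

/-- If `W` contains all differences of basis vectors, it contains all sum-zero vectors. -/
theorem aux_key3 (W : Subrepresentation (Cfsg.permRep K (alternatingGroup α) α))
    (h : ∀ x y : α, x ≠ y → (Pi.single x (1 : K) - Pi.single y 1 : α → K) ∈ W.toSubmodule)
    (v : α → K) (hv : ∑ x, v x = 0) : v ∈ W.toSubmodule := by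
  by_cases hα : Nonempty α
  · obtain ⟨x0⟩ := hα
    have hveq : v = ∑ x, v x • (Pi.single x (1 : K) - Pi.single x0 1 : α → K) := by
      funext y
      rw [Finset.sum_apply]
      simp only [Pi.smul_apply, Pi.sub_apply, smul_eq_mul, mul_sub, Finset.sum_sub_distrib]
      rw [← Finset.sum_mul, hv, zero_mul, sub_zero]
      simp [Pi.single_apply]
    rw [hveq]
    apply Submodule.sum_mem
    intro x _
    apply Submodule.smul_mem
    by_cases hx : x = x0
    · rw [hx, sub_self]; exact Submodule.zero_mem _
    · exact h x x0 hx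
  · have : v = 0 := by
      funext y
      exact absurd ⟨y⟩ hα
    rw [this]; exact Submodule.zero_mem _

/-- Over any field, the permutation module of the alternating group of degree at least 5 has exactly four invariant subspaces: zero, the constant functions, the functions with coordinate sum zero, and everything. -/
theorem result {α : Type*} [Fintype α] [DecidableEq α] (hα : 5 ≤ Fintype.card α) {K : Type*} [Field K] (W : Subrepresentation (Cfsg.permRep K (alternatingGroup α) α)) : W.toSubmodule = ⊥ ∨ W = Cfsg.permConstants K (alternatingGroup α) α ∨ W = Cfsg.permSumZero K (alternatingGroup α) α ∨ W.toSubmodule = ⊤ := by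
  by_cases hconst : ∀ f ∈ W.toSubmodule, ∀ i j : α, f i = f j
  · -- all vectors of `W` are constant
    by_cases hbot : W.toSubmodule = ⊥
    · exact Or.inl hbot
    · right; left
      apply Subrepresentation.toSubmodule_injective
      change W.toSubmodule = Submodule.span K {fun _ => 1}
      obtain ⟨x0⟩ : Nonempty α := by
        rw [← Fintype.card_pos_iff]; omega
      apply le_antisymm
      · intro f hf
        rw [Submodule.mem_span_singleton]
        refine ⟨f x0, ?_⟩
        funext y
        simp only [Pi.smul_apply, smul_eq_mul, mul_one]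
        exact hconst f hf x0 y
      · rw [Submodule.span_singleton_le_iff_mem]
        obtain ⟨f, hf, hf0⟩ := (Submodule.ne_bot_iff _).mp hbot
        have hfx0 : f x0 ≠ 0 := by
          intro h0
          apply hf0
          funext y
          rw [← hconst f hf x0 y, h0]; rfl
        have : (fun _ => 1 : α → K) = (f x0)⁻¹ • f := by
          funext y
          simp only [Pi.smul_apply, smul_eq_mul]
          rw [← hconst f hf x0 y, inv_mul_cancel₀ hfx0]
        rw [this]
        exact Submodule.smul_mem _ _ hf
  · -- some vector is not constant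
    push Not at hconst
    obtain ⟨f, hf, i, j, hij⟩ := hconst
    obtain ⟨p, q, hpq, hpqW⟩ := aux_key1 hα W hf hij
    have hall := aux_key2 hα W hpq hpqW
    have hsz := aux_key3 W hall
    right; right
    by_cases hle : ∀ f ∈ W.toSubmodule, ∑ x, f x = 0
    · left
      apply Subrepresentation.toSubmodule_injective
      apply le_antisymm
      · intro f hf
        exact hle f hf
      · intro f hf
        exact hsz f hf
    · right
      push Not at hle
      obtain ⟨f0, hf0, hf0s⟩ := hle
      rw [eq_top_iff]
      intro v _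
      have : v = (v - ((∑ x, v x) / (∑ x, f0 x)) • f0) + ((∑ x, v x) / (∑ x, f0 x)) • f0 := by
        abel
      rw [this]
      apply Submodule.add_mem
      · apply hsz
        simp only [Pi.sub_apply, Pi.smul_apply, smul_eq_mul, Finset.sum_sub_distrib, ← Finset.mul_sum]
        rw [div_mul_cancel₀ _ hf0s, sub_self]
      · exact Submodule.smul_mem _ _ hf0

end Cfsg.Agent.S0714
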