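import Cfsg.Statements.S0717
import Cfsg.Agent.H16.PermMatrix

set_option autoImplicit false
open Cfsg

namespace Cfsg.Agent.S0717

/-- All suborbits of a transitive group are self-paired (every pair of points is interchanged by some group element) if and only if the permutation character is multiplicity-free and each of its irreducible constituents is real-valued. -/
theorem result {G : Type*} [Group G] [Fintype G] {Ω : Type*} [Fintype Ω] [MulAction G Ω] [MulAction.IsPretransitive G Ω] : (∀ a b : Ω, ∃ g : G, g • a = b ∧ g • b = a) ↔ ∀ χ : G → ℂ, Cfsg.IsIrrCharacter G χ → Cfsg.classInner (fun g : G => (Nat.card (MulAction.fixedBy Ω g) : ℂ)) χ ≠ 0 → Cfsg.classInner (fun g : G => (Nat.card (MulAction.fixedBy Ω g) : ℂ)) χ = 1 ∧ ∀ g : G, (starRingEnd ℂ) (χ g) = χ g := by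
  classical
  have hchar : (fun g : G => (Nat.card (MulAction.fixedBy Ω g) : ℂ)) =
      (Cfsg.permRep ℂ G Ω).character := by
    funext g
    exact (Cfsg.Agent.H16.character_permRep g).symm
  rw [hchar]
  constructor
  · intro h χ hχ hne
    refine ⟨?_, fun g => Cfsg.Agent.H16.real_of_interchange h χ hχ hne g⟩
    rcases Cfsg.Agent.H16.multFree_of_commutative (Cfsg.permRep ℂ G Ω)
      (fun S T hS hT => Cfsg.Agent.H16.comm_of_interchange h S T hS hT) χ hχ with h0 | h1
    · exact absurd h0 hne
    · exact h1
  · intro h a b
    exact Cfsg.Agent.H16.interchange_of_multFree_real h a b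

end Cfsg.Agent.S0717
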