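import Mathlib
import Cfsg.Statements.S0723
import Cfsg.Agent.H67.ONanScottApp

set_option autoImplicit false
open Cfsg

namespace Cfsg.Agent.S0723

/-- The core of the O'Nan–Scott Theorem. Let `H` be a primitive permutation group on a finite set whose unique minimal normal subgroup `N` is non-abelian, and `K` a point stabiliser. Then there are a non-abelian simple group `T` and an isomorphism `N ≃* T^m` (`m ≥ 1`) under which `K ⊓ N` becomes either a product `∏ K_i` of proper subgroups `K_i < T`, or the set of functions constant on each block of a partition of the index set into blocks of one common size `k ≥ 2`. -/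
theorem result {α : Type*} [Finite α] (H : Subgroup (Equiv.Perm α)) [MulAction.IsPreprimitive H α] (N : Subgroup H) [N.Normal] (hN : N ≠ ⊥) (hmin : ∀ M : Subgroup H, M.Normal → M ≤ N → M = ⊥ ∨ M = N) (huniq : ∀ L : Subgroup H, L.Normal → L ≠ ⊥ → (∀ M : Subgroup H, M.Normal → M ≤ L → M = ⊥ ∨ M = L) → L = N) (hnab : ¬ IsMulCommutative N) (a : α) : ∃ (T : Type) (_ : Group T) (m : ℕ) (e : N ≃* (Fin m → T)), IsSimpleGroup T ∧ ¬ IsMulCommutative T ∧ 0 < m ∧ ((∃ K : Fin m → Subgroup T, (∀ i, K i ≠ ⊤) ∧ ∀ n : N, (n : H) ∈ MulAction.stabilizer H a ↔ ∀ i, e n i ∈ K i) ∨ (∃ (k : ℕ) (c : Fin m → Fin m), 2 ≤ k ∧ (∀ j : Fin m, Nat.card {i : Fin m // c i = j} = k ∨ Nat.card {i : Fin m // c i = j} = 0) ∧ ∀ n : N, (n : H) ∈ MulAction.stabilizer H a ↔ ∀ i j : Fin m, c i = c j → e n i = e n j)) := by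
  classical
  obtain ⟨n₀, hn₀N, hn₀⟩ : ∃ n₀ ∈ N, n₀ ≠ 1 := by
    by_contra hcon
    push Not at hcon
    exact hN ((Subgroup.eq_bot_iff_forall _).mpr hcon)
  obtain ⟨b, hb⟩ : ∃ b : α, n₀ • b ≠ b := by
    by_contra hcon
    push Not at hcon
    apply hn₀
    apply Subtype.ext
    apply Equiv.ext
    intro x
    exact hcon x
  have : Nontrivial α := ⟨⟨_, _, hb⟩⟩
  have hM : IsCoatom (MulAction.stabilizer H a) :=
    MulAction.IsPreprimitive.isCoatom_stabilizer_of_isPreprimitive (G := H) a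
  have hNM : ¬ N ≤ MulAction.stabilizer H a := by
    intro hle
    obtain ⟨h, hh⟩ := MulAction.exists_smul_eq H a b
    apply hb
    have h1 : h⁻¹ * n₀ * h ∈ N := by
      have := (inferInstance : N.Normal).conj_mem n₀ hn₀N h⁻¹
      rwa [inv_inv] at this
    have h2 : (h⁻¹ * n₀ * h) • a = a := MulAction.mem_stabilizer_iff.mp (hle h1)
    rw [← hh]
    calc n₀ • h • a = h • ((h⁻¹ * n₀ * h) • a) := by
          rw [← mul_smul, ← mul_smul]; congr 1; group
      _ = h • a := by rw [h2]
  exact Cfsg.Agent.H67.onan_scott_stabilizer N (MulAction.stabilizer H a) hN hmin hnab hM hNM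

end Cfsg.Agent.S0723
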