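import Cfsg.Statements.S0724
import Mathlib

set_option autoImplicit false
open Cfsg

namespace Cfsg.Agent.S0724

open MulAction Polynomial

/-- Burnside: `|G|` divides `∑ g, π(g)^j`. -/
theorem aux_pow_sum {G : Type*} [Group G] [Fintype G] {α : Type*} [Fintype α] [DecidableEq α]
    [MulAction G α] (j : ℕ) :
    (Fintype.card G : ℤ) ∣ ∑ g : G, ((Nat.card (MulAction.fixedBy α g) : ℕ) : ℤ) ^ j := by
  classical
  have h := MulAction.sum_card_fixedBy_eq_card_orbits_mul_card_group G (Fin j → α)
  have h2 : ∀ g : G, Fintype.card (MulAction.fixedBy (Fin j → α) g) =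
      (Nat.card (MulAction.fixedBy α g)) ^ j := by
    intro g
    have e : MulAction.fixedBy (Fin j → α) g ≃ (Fin j → MulAction.fixedBy α g) :=
      { toFun := fun f i => ⟨f.1 i, by
          have := f.2
          rw [MulAction.mem_fixedBy] at this ⊢
          exact congrFun this i⟩
        invFun := fun f => ⟨fun i => (f i).1, by
          rw [MulAction.mem_fixedBy]
          funext i
          exact (f i).2⟩
        left_inv := fun f => rfl
        right_inv := fun f => rfl }
    rw [Fintype.card_congr e, Fintype.card_fun, Fintype.card_fin, Nat.card_eq_fintype_card]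
  have h3 : (∑ g : G, ((Nat.card (MulAction.fixedBy α g) : ℕ) : ℤ) ^ j) =
      ((Fintype.card (Quotient (MulAction.orbitRel G (Fin j → α))) * Fintype.card G : ℕ) : ℤ) := by
    rw [← h]
    push_cast
    apply Finset.sum_congr rfl
    intro g _
    rw [h2 g]
    push_cast
    rfl
  rw [h3]
  push_cast
  exact dvd_mul_left _ _

/-- `|G|` divides `∑ g, P(π(g))` for every integer polynomial `P`. -/
theorem aux_poly_sum {G : Type*} [Group G] [Fintype G] {α : Type*} [Fintype α] [DecidableEq α]
    [MulAction G α] (P : ℤ[X]) :
    (Fintype.card G : ℤ) ∣ ∑ g : G, P.eval ((Nat.card (MulAction.fixedBy α g) : ℕ) : ℤ) := by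
  simp_rw [Polynomial.eval_eq_sum_range]
  rw [Finset.sum_comm]
  apply Finset.dvd_sum
  intro i _
  rw [← Finset.mul_sum]
  exact Dvd.dvd.mul_left (aux_pow_sum i) _

/-- Blichfeldt's Theorem: if a finite set `L` of natural numbers contains the number of fixed points of every non-identity element of a permutation group `G` of degree `n`, then the order of `G` divides `∏ (n - l)` over `l ∈ L`. -/
theorem result {α : Type*} [Fintype α] [DecidableEq α] (G : Subgroup (Equiv.Perm α)) (L : Finset ℕ) (hL : ∀ g ∈ G, g ≠ 1 → Nat.card (MulAction.fixedBy α g) ∈ L) : Nat.card G ∣ ∏ l ∈ L, (Fintype.card α - l) := by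
  classical
  by_cases hbig : ∃ l ∈ L, Fintype.card α < l
  · obtain ⟨l, hl, hlt⟩ := hbig
    have : ∏ l ∈ L, (Fintype.card α - l) = 0 := by
      apply Finset.prod_eq_zero hl
      omega
    rw [this]
    exact dvd_zero _
  · push Not at hbig
    let P : ℤ[X] := ∏ l ∈ L, (X - C (l : ℤ))
    have hP : ∀ x : ℤ, P.eval x = ∏ l ∈ L, (x - l) := by
      intro x
      simp [P, Polynomial.eval_prod]
    have h1 := aux_poly_sum (G := G) (α := α) P
    have h2 : ∑ g : G, P.eval ((Nat.card (MulAction.fixedBy α g) : ℕ) : ℤ) =
        P.eval (Fintype.card α : ℤ) := by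
      rw [Finset.sum_eq_single (1 : G)]
      · have : Nat.card (MulAction.fixedBy α (1 : G)) = Fintype.card α := by
          rw [← Nat.card_eq_fintype_card]
          apply Nat.card_congr
          exact (Equiv.subtypeUnivEquiv (fun x => by simp [MulAction.mem_fixedBy]))
        rw [this]
      · intro g _ hg
        rw [hP]
        have hmem : Nat.card (MulAction.fixedBy α g) ∈ L := by
          have := hL (g : Equiv.Perm α) g.2 (fun h => hg (Subtype.ext h))
          exact this
        apply Finset.prod_eq_zero hmem
        simp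
      · intro h
        exact absurd (Finset.mem_univ _) h
    rw [h2, hP] at h1
    have h3 : ∏ l ∈ L, ((Fintype.card α : ℤ) - l) = ((∏ l ∈ L, (Fintype.card α - l) : ℕ) : ℤ) := by
      rw [Nat.cast_prod]
      apply Finset.prod_congr rfl
      intro l hl
      rw [Nat.cast_sub (hbig l hl)]
    rw [h3] at h1
    have h4 : (Fintype.card G : ℤ) = ((Nat.card G : ℕ) : ℤ) := by
      rw [Nat.card_eq_fintype_card]
    rw [h4] at h1
    exact Int.natCast_dvd_natCast.mp h1

end Cfsg.Agent.S0724
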