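import Cfsg.Statements.S0726
import Mathlib

set_option autoImplicit false
open Cfsg

namespace Cfsg.Agent.S0726

theorem aux_mem {G : Type*} [Group G] (c : Equiv.Perm G)
    (hc : c ∈ Subgroup.centralizer ((MulAction.toPermHom G G).range : Set (Equiv.Perm G))) :
    c = MulAction.toPermHom Gᵐᵒᵖ G (MulOpposite.op (c 1)) := by
  ext x
  have h := hc (MulAction.toPermHom G G x) ⟨x, rfl⟩
  have h2 := congrArg (fun f : Equiv.Perm G => f 1) h
  simp only [Equiv.Perm.mul_apply, MulAction.toPermHom_apply, MulAction.toPerm_apply,
    smul_eq_mul, mul_one] at h2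
  simp only [MulAction.toPermHom_apply, MulAction.toPerm_apply, MulOpposite.smul_eq_mul_unop,
    MulOpposite.unop_op]
  exact h2.symm

/-- The left and right regular permutation representations of a group are each other's centralisers in the symmetric group: the centraliser of the left regular image is the right regular image, and a transitive subgroup centralising the left regular image is the whole right regular image. -/
theorem result {G : Type*} [Group G] : Subgroup.centralizer ((MulAction.toPermHom G G).range : Set (Equiv.Perm G)) = (MulAction.toPermHom Gᵐᵒᵖ G).range ∧ ∀ H : Subgroup (Equiv.Perm G), H ≤ Subgroup.centralizer ((MulAction.toPermHom G G).range : Set (Equiv.Perm G)) → MulAction.IsPretransitive H G → H = (MulAction.toPermHom Gᵐᵒᵖ G).range := by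
  have key : Subgroup.centralizer ((MulAction.toPermHom G G).range : Set (Equiv.Perm G)) = (MulAction.toPermHom Gᵐᵒᵖ G).range := by
    apply le_antisymm
    · intro c hc
      exact ⟨MulOpposite.op (c 1), (aux_mem c hc).symm⟩
    · rintro _ ⟨r, rfl⟩
      rintro _ ⟨g, rfl⟩
      ext x
      simp [mul_assoc]
  refine ⟨key, ?_⟩
  intro H hH htr
  apply le_antisymm
  · rw [← key]; exact hH
  · rintro _ ⟨r, rfl⟩
    obtain ⟨h, hh⟩ := MulAction.exists_smul_eq H (1 : G) r.unop
    have h1 := aux_mem (h : Equiv.Perm G) (hH h.2)
    have h2 : (h : Equiv.Perm G) 1 = r.unop := hh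
    rw [h2] at h1
    simp only [MulOpposite.op_unop] at h1
    rw [← h1]
    exact h.2

end Cfsg.Agent.S0726
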