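import Cfsg.Statements.S0728
import Cfsg.Agent.H16.Sharp3

set_option autoImplicit false
open Cfsg

namespace Cfsg.Agent.S0728

open Cfsg.Agent.H16

/-- In a sharply triply transitive group of even degree at least 6 (degree `q + 1`, `q` odd), a two-point stabiliser has at most one subgroup of order 3. -/
theorem result {α : Type*} [Fintype α] [DecidableEq α] (heven : Even (Fintype.card α)) (h6 : 6 ≤ Fintype.card α) (G : Subgroup (Equiv.Perm α)) (h3 : MulAction.IsMultiplyPretransitive G α 3) (hsharp : ∀ x : Fin 3 ↪ α, MulAction.stabilizer G x = ⊥) {a b : α} (hab : a ≠ b) (A B : Subgroup G) (hA : A ≤ MulAction.stabilizer G a ⊓ MulAction.stabilizer G b) (hB : B ≤ MulAction.stabilizer G a ⊓ MulAction.stabilizer G b) (hA3 : Nat.card A = 3) (hB3 : Nat.card B = 3) : A = B := by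
  classical
  haveI : Fact (Nat.Prime 3) := ⟨Nat.prime_three⟩
  -- a third point
  obtain ⟨c, hc⟩ : ∃ c : α, c ∉ ({a, b} : Finset α) := by
    by_contra hcon
    push Not at hcon
    have : (Finset.univ : Finset α) ⊆ {a, b} := fun y _ => hcon y
    have h3' := Finset.card_le_card this
    rw [Finset.card_univ] at h3'
    have h4 : ({a, b} : Finset α).card ≤ 2 := Finset.card_le_two
    omega
  simp only [Finset.mem_insert, Finset.mem_singleton, not_or] at hc
  have hac : a ≠ c := Ne.symm hc.1
  have hbc : b ≠ c := Ne.symm hc.2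
  -- generators
  have hex : ∀ (C : Subgroup G), Nat.card C = 3 → ∃ x : C, x ≠ 1 := by
    intro C hC
    by_contra hcon
    push Not at hcon
    have : Subsingleton C := ⟨fun u v => by rw [hcon u, hcon v]⟩
    have := Nat.card_eq_one_iff_unique.mpr ⟨this, ⟨1⟩⟩
    omega
  obtain ⟨x, hx1⟩ := hex A hA3
  obtain ⟨y, hy1⟩ := hex B hB3
  have hxG1 : (x : G) ≠ 1 := fun h => hx1 (Subtype.ext h)
  have hyG1 : (y : G) ≠ 1 := fun h => hy1 (Subtype.ext h)
  have hx3 : (x : G) ^ 3 = 1 := by
    have := pow_card_eq_one' (G := A) (x := x)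
    rw [hA3] at this
    exact_mod_cast congrArg Subtype.val this
  have hy3 : (y : G) ^ 3 = 1 := by
    have := pow_card_eq_one' (G := B) (x := y)
    rw [hB3] at this
    exact_mod_cast congrArg Subtype.val this
  have hxa : (x : G) • a = a := (hA x.2).1
  have hxb : (x : G) • b = b := (hA x.2).2
  have hya : (y : G) • a = a := (hB y.2).1
  have hyb : (y : G) • b = b := (hB y.2).2
  -- (x : G) ∈ B
  have hxB : (x : G) ∈ B := by
    obtain ⟨g1, hg1, hg1c, hg1ab⟩ := exists_conj_order_three h3 hsharp hab hac hbc hxa hxb hya hyb hxG1 hyG1 hx3 hy3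
    rcases hg1ab with ⟨h1a, h1b⟩ | ⟨h1a, h1b⟩
    · have : g1 = 1 := eq_one_of_fix3 hsharp hab hac hbc h1a h1b hg1c
      rw [this] at hg1
      simp only [one_mul, inv_one, mul_one] at hg1
      rw [hg1]; exact y.2
    · have hxinv1 : (x : G)⁻¹ ≠ 1 := fun h => hxG1 (inv_eq_one.mp h)
      have hxinv3 : ((x : G)⁻¹) ^ 3 = 1 := by rw [inv_pow, hx3, inv_one]
      have hxinva : (x : G)⁻¹ • a = a := by rw [inv_smul_eq_iff, hxa]
      have hxinvb : (x : G)⁻¹ • b = b := by rw [inv_smul_eq_iff, hxb]
      obtain ⟨g2, hg2, hg2c, hg2ab⟩ := exists_conj_order_three h3 hsharp hab hac hbc hxa hxb hxinva hxinvb hxG1 hxinv1 hx3 hxinv3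
      rcases hg2ab with ⟨h2a, h2b⟩ | ⟨h2a, h2b⟩
      · exfalso
        have : g2 = 1 := eq_one_of_fix3 hsharp hab hac hbc h2a h2b hg2c
        rw [this] at hg2
        simp only [one_mul, inv_one, mul_one] at hg2
        -- x = x⁻¹ so x^2 = 1, with x^3 = 1 gives x = 1
        have hsq : (x : G) * (x : G) = 1 := by
          nth_rewrite 1 [hg2]
          exact inv_mul_cancel _
        apply hxG1
        have : (x : G) ^ 3 = (x : G) * (x : G) * (x : G) := by rw [pow_succ, pow_two]
        rw [this, hsq, one_mul] at hx3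
        exact hx3
      · have hg : g1 = g2 := by
          apply eq_of_smul_eq3 hsharp hab hac hbc
          · rw [h1a, h2a]
          · rw [h1b, h2b]
          · rw [hg1c, hg2c]
        rw [hg, hg2] at hg1
        have : (x : G) = ((y : G))⁻¹ := by rw [← hg1, inv_inv]
        rw [this]
        exact B.inv_mem y.2
  apply Subgroup.eq_of_le_of_card_ge
  · intro z hz
    have hzp : Subgroup.zpowers x = ⊤ := zpowers_eq_top_of_prime_card hA3 hx1
    have : (⟨z, hz⟩ : A) ∈ Subgroup.zpowers x := by rw [hzp]; trivial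
    obtain ⟨k, hk⟩ := Subgroup.mem_zpowers_iff.mp this
    have hk' : (x : G) ^ k = z := by
      have := congrArg Subtype.val hk
      simpa using this
    rw [← hk']
    exact B.zpow_mem hxB k
  · rw [hA3, hB3]

end Cfsg.Agent.S0728
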