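import Cfsg.Statements.S0730
import Cfsg.Agent.H16.S3Odd

set_option autoImplicit false
open Cfsg

namespace Cfsg.Agent.S0730

/-- A sharply triply transitive group of degree `p^f + 1`, `p` an odd prime and `f` odd, is isomorphic to the projective general linear group of degree 2 over the field with `p^f` elements (for even `f` there is a second, twisted, group). -/
theorem result {α : Type*} [Fintype α] [DecidableEq α] {p f : ℕ} (hp : p.Prime) (hp2 : p ≠ 2) (hfo : Odd f) (hα : Fintype.card α = p ^ f + 1) (G : Subgroup (Equiv.Perm α)) (h3 : MulAction.IsMultiplyPretransitive G α 3) (hsharp : ∀ x : Fin 3 ↪ α, MulAction.stabilizer G x = ⊥) : ∃ (F : Type) (_ : Field F) (_ : Fintype F), Fintype.card F = p ^ f ∧ Nonempty (G ≃* Matrix.ProjGenLinGroup (Fin 2) F) := by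
  have h3' : ∀ a b c a' b' c' : α, a ≠ b → a ≠ c → b ≠ c → a' ≠ b' → a' ≠ c' → b' ≠ c' →
      ∃ g : G, g • a = a' ∧ g • b = b' ∧ g • c = c' := by
    intro a b c a' b' c' hab hac hbc hab' hac' hbc'
    obtain ⟨g, hg⟩ := h3.exists_smul_eq (H60.triEmb a b c hab hac hbc)
      (H60.triEmb a' b' c' hab' hac' hbc')
    refine ⟨g, ?_, ?_, ?_⟩
    · exact congrArg (fun x : Fin 3 ↪ α => x 0) hg
    · exact congrArg (fun x : Fin 3 ↪ α => x 1) hg
    · exact congrArg (fun x : Fin 3 ↪ α => x 2) hg
  have hs' : ∀ (g : G) (a b c : α), a ≠ b → a ≠ c → b ≠ c → g • a = a → g • b = b →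
      g • c = c → g = 1 := by
    intro g a b c hab hac hbc ha hb hc
    have hmem : g ∈ MulAction.stabilizer G (H60.triEmb a b c hab hac hbc) := by
      rw [MulAction.mem_stabilizer_iff]
      ext i
      fin_cases i
      · exact ha
      · exact hb
      · exact hc
    rw [hsharp] at hmem
    exact Subgroup.mem_bot.mp hmem
  obtain ⟨F, h1⟩ := H16.sharp3_abstract_odd h3' hs' hp hp2 hfo hα
  exact ⟨Fin (p ^ f), F, inferInstance, Fintype.card_fin _, h1⟩

end Cfsg.Agent.S0730
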