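import Mathlib
import Cfsg.Statements.S0731
import Cfsg.Agent.H19.ZId6
import Cfsg.Agent.H19.ZId7

set_option autoImplicit false
open Cfsg

namespace Cfsg.Agent.S0731

/-- A finite Zassenhaus group whose point stabiliser has an abelian regular normal subgroup on the remaining points is sharply triply transitive or isomorphic to `PSL(2, F)` for a finite field `F` of odd characteristic. -/
theorem result {G Ω : Type*} [Group G] [Finite G] [MulAction G Ω] [Finite Ω] (hZ : Cfsg.IsZassenhausGroup G Ω) (x : Ω) (F : Subgroup G) (hFle : F ≤ MulAction.stabilizer G x) (hFn : (F.subgroupOf (MulAction.stabilizer G x)).Normal) (hFab : IsMulCommutative F) (hreg : ∀ y z : Ω, y ≠ x → z ≠ x → ∃! u : F, (u : G) • y = z) : (MulAction.IsMultiplyPretransitive G Ω 3 ∧ ∀ t : Fin 3 ↪ Ω, MulAction.stabilizer G t = ⊥) ∨ ∃ (K : Type) (_ : Field K) (_ : Fintype K), ringChar K ≠ 2 ∧ Nonempty (G ≃* Matrix.ProjectiveSpecialLinearGroup (Fin 2) K) := by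
  classical
  haveI : Fintype Ω := Fintype.ofFinite Ω
  have hn3 := Cfsg.Agent.H19.zass_three_le_card hZ
  obtain ⟨b, hb⟩ := Fintype.exists_ne_of_one_lt_card (by omega : 1 < Fintype.card Ω) x
  have hab : x ≠ b := hb.symm
  obtain ⟨hFcard, hFfix⟩ := Cfsg.Agent.H19.kernel_of_regular hab F hFle hreg
  have hFab' : ∀ u ∈ F, ∀ w ∈ F, u * w = w * u := by
    intro u hu w hw
    have h := hFab.is_comm.comm (⟨u, hu⟩ : F) ⟨w, hw⟩
    exact congrArg Subtype.val h
  rcases Nat.even_or_odd (Nat.card (MulAction.stabilizer G x ⊓ MulAction.stabilizer G b :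
    Subgroup G)) with heven | hodd
  · have h1 := Cfsg.Agent.S0741.result hZ hab heven
    rcases Cfsg.Agent.H19.zass_half_or_full hZ hab h1 with h | h
    · left
      exact Cfsg.Agent.H19.zass_sharp3 hZ hab h
    · right
      obtain ⟨p, f, K, iF, iFt, -, -, -, -, hchar, hiso⟩ :=
        Cfsg.Agent.H19.zass_psl_even hZ hab heven h F hFle hFcard hFfix
      exact ⟨K, iF, iFt, hchar, hiso⟩
  · rcases Cfsg.Agent.H19.zass_odd_dichotomy hZ hab hodd F hFle hFcard hFfix hFab' with
      h | ⟨h, hs⟩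
    · left
      exact Cfsg.Agent.H19.zass_sharp3 hZ hab h
    · right
      haveI := hs
      obtain ⟨p, f, K, iF, iFt, -, -, -, -, hchar, hiso⟩ :=
        Cfsg.Agent.H19.zass_psl_odd hZ hab hodd h F hFle hFcard hFfix
      exact ⟨K, iF, iFt, hchar, hiso⟩

end Cfsg.Agent.S0731
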