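import Cfsg.Statements.S0733
import Mathlib

set_option autoImplicit false
open Cfsg

namespace Cfsg.Agent.S0733

open MulAction
open scoped Pointwise

/-- A permutation group of affine type — generated by the translations of a finite vector space `V` over `ZMod p` together with a group `G₀` of linear automorphisms — is primitive on `V` if and only if `G₀` is irreducible on `V`. -/
theorem result {p : ℕ} [Fact p.Prime] {V : Type*} [AddCommGroup V] [Module (ZMod p) V] [Finite V] [Nontrivial V] (G₀ : Subgroup (V ≃ₗ[ZMod p] V)) (G : Subgroup (Equiv.Perm V)) (hG : ∀ σ : Equiv.Perm V, σ ∈ G ↔ ∃ g ∈ G₀, ∃ b : V, ∀ x : V, σ x = (g : V ≃ₗ[ZMod p] V) x + b) : MulAction.IsPreprimitive G V ↔ ∀ W : Submodule (ZMod p) V, (∀ g ∈ G₀, ∀ v ∈ W, (g : V ≃ₗ[ZMod p] V) v ∈ W) → W = ⊥ ∨ W = ⊤ := by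
  -- translations belong to `G`
  have htr : ∀ b : V, ∃ σ : G, ∀ x : V, σ • x = x + b := by
    intro b
    have hmem : Equiv.addRight b ∈ G := by
      rw [hG]
      exact ⟨1, G₀.one_mem, b, fun x => by simp⟩
    exact ⟨⟨Equiv.addRight b, hmem⟩, fun x => rfl⟩
  -- linear maps from `G₀` belong to `G`
  have hlin : ∀ g ∈ G₀, ∃ σ : G, ∀ x : V, σ • x = (g : V ≃ₗ[ZMod p] V) x := by
    intro g hg
    have hmem : (g : V ≃ₗ[ZMod p] V).toEquiv ∈ G := by
      rw [hG]
      exact ⟨g, hg, 0, fun x => by simp⟩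
    exact ⟨⟨(g : V ≃ₗ[ZMod p] V).toEquiv, hmem⟩, fun x => rfl⟩
  haveI htrans : IsPretransitive G V := by
    refine ⟨fun x y => ?_⟩
    obtain ⟨σ, hσ⟩ := htr (y - x)
    exact ⟨σ, by rw [hσ]; abel⟩
  constructor
  · intro hprim W hW
    have hB : IsBlock G (W : Set V) := by
      rw [isBlock_iff_smul_eq_of_mem]
      intro σ x hx hσx
      obtain ⟨g, hg, b, hgb⟩ := (hG σ).mp σ.2
      have hσ : ∀ y : V, σ • y = (g : V ≃ₗ[ZMod p] V) y + b := hgb
      have hb : b ∈ W := by
        have h1 : (g : V ≃ₗ[ZMod p] V) x + b ∈ W := by rw [← hσ]; exact hσx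
        have h2 : (g : V ≃ₗ[ZMod p] V) x ∈ W := hW g hg x hx
        have := W.sub_mem h1 h2
        simpa using this
      apply le_antisymm
      · rintro _ ⟨y, hy, rfl⟩
        change σ • y ∈ W
        rw [hσ]
        exact W.add_mem (hW g hg y hy) hb
      · intro w hw
        refine ⟨(g⁻¹ : V ≃ₗ[ZMod p] V) (w - b), hW g⁻¹ (G₀.inv_mem hg) _ (W.sub_mem hw hb), ?_⟩
        change σ • _ = w
        rw [hσ]
        have : (g : V ≃ₗ[ZMod p] V) ((g⁻¹ : V ≃ₗ[ZMod p] V) (w - b)) = w - b := by
          have := LinearEquiv.apply_symm_apply g (w - b)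
          exact this
        rw [this]; abel
    rcases hprim.isTrivialBlock_of_isBlock hB with h | h
    · left
      rw [eq_bot_iff]
      intro v hv
      rw [Submodule.mem_bot]
      exact h hv W.zero_mem
    · right
      rw [eq_top_iff]
      intro v _
      have : v ∈ (W : Set V) := by rw [h]; trivial
      exact this
  · intro hirr
    apply IsPreprimitive.of_isTrivialBlock_base (0 : V)
    intro B h0 hB
    rw [isBlock_iff_smul_eq_of_mem] at hB
    have hadd : ∀ x y : V, x ∈ B → y ∈ B → x + y ∈ B := by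
      intro x y hx hy
      obtain ⟨σ, hσ⟩ := htr y
      have h1 : σ • B = B := hB h0 (by rw [hσ, zero_add]; exact hy)
      rw [← h1, ← hσ]
      exact Set.smul_mem_smul_set hx
    have hneg : ∀ x : V, x ∈ B → -x ∈ B := by
      intro x hx
      obtain ⟨σ, hσ⟩ := htr (-x)
      have h1 : σ • B = B := hB hx (by rw [hσ, add_neg_cancel]; exact h0)
      have h2 : σ • (0 : V) ∈ σ • B := Set.smul_mem_smul_set h0
      rw [h1, hσ, zero_add] at h2
      exact h2
    let H : AddSubgroup V :=
      { carrier := B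
        add_mem' := fun {x y} hx hy => hadd x y hx hy
        zero_mem' := h0
        neg_mem' := fun {x} hx => hneg x hx }
    let W : Submodule (ZMod p) V := AddSubgroup.toZModSubmodule p H
    have hWB : ∀ v, v ∈ W ↔ v ∈ B := fun v => Iff.rfl
    have hinv : ∀ g ∈ G₀, ∀ v ∈ W, (g : V ≃ₗ[ZMod p] V) v ∈ W := by
      intro g hg v hv
      obtain ⟨σ, hσ⟩ := hlin g hg
      have h1 : σ • B = B := hB h0 (by rw [hσ, map_zero]; exact h0)
      rw [hWB, ← h1, ← hσ]
      exact Set.smul_mem_smul_set ((hWB v).mp hv)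
    rcases hirr W hinv with h | h
    · left
      intro x hx y hy
      have hx' : x ∈ W := (hWB x).mpr hx
      have hy' : y ∈ W := (hWB y).mpr hy
      rw [h, Submodule.mem_bot] at hx' hy'
      rw [hx', hy']
    · right
      rw [Set.eq_univ_iff_forall]
      intro v
      rw [← hWB, h]
      trivial

end Cfsg.Agent.S0733
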