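import Cfsg.Statements.S0734
import Mathlib

set_option autoImplicit false
open Cfsg

namespace Cfsg.Agent.S0734

open MulAction
open scoped Pointwise

/-- Higman's criterion for primitivity: a transitive action on a finite set is primitive if and only if every non-trivial orbital graph (edges = images of a fixed pair of distinct points) is connected. -/
theorem result {G : Type*} [Group G] {Ω : Type*} [Finite Ω] [MulAction G Ω] [MulAction.IsPretransitive G Ω] [Nontrivial Ω] : MulAction.IsPreprimitive G Ω ↔ ∀ a b : Ω, a ≠ b → (SimpleGraph.fromRel fun x y : Ω => ∃ g : G, g • a = x ∧ g • b = y).Connected := by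
  constructor
  · intro hprim a b hab
    set Γ := SimpleGraph.fromRel fun x y : Ω => ∃ g : G, g • a = x ∧ g • b = y with hΓ
    -- the group acts by graph automorphisms
    have hadj : ∀ (h : G) (x y : Ω), Γ.Adj x y → Γ.Adj (h • x) (h • y) := by
      intro h x y hxy
      rw [hΓ, SimpleGraph.fromRel_adj] at hxy ⊢
      obtain ⟨hne, hr⟩ := hxy
      refine ⟨fun heq => hne (smul_left_cancel h heq), ?_⟩
      rcases hr with ⟨g, hg1, hg2⟩ | ⟨g, hg1, hg2⟩
      · exact Or.inl ⟨h * g, by rw [mul_smul, hg1], by rw [mul_smul, hg2]⟩
      · exact Or.inr ⟨h * g, by rw [mul_smul, hg1], by rw [mul_smul, hg2]⟩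
    have hreach : ∀ (h : G) (x y : Ω), Γ.Reachable x y → Γ.Reachable (h • x) (h • y) := by
      intro h x y hxy
      let f : Γ →g Γ := ⟨fun x => h • x, fun {x y} hxy => hadj h x y hxy⟩
      exact hxy.map f
    let B : Set Ω := {y | Γ.Reachable a y}
    have hB : IsBlock G B := by
      rw [isBlock_iff_smul_eq_of_mem]
      have hsub : ∀ (g : G) (x : Ω), x ∈ B → g • x ∈ B → g • B ⊆ B := by
        intro g x hx hgx
        rintro _ ⟨y, hy, rfl⟩
        have h1 : Γ.Reachable (g • a) (g • x) := hreach g a x hx
        have h2 : Γ.Reachable (g • a) (g • y) := hreach g a y hy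
        exact (hgx.trans h1.symm).trans h2
      intro g x hx hgx
      apply le_antisymm (hsub g x hx hgx)
      have h3 := hsub g⁻¹ (g • x) hgx (by rw [inv_smul_smul]; exact hx)
      intro y hy
      have : g⁻¹ • y ∈ B := h3 ⟨y, hy, rfl⟩
      exact ⟨g⁻¹ • y, this, by simp⟩
    have hab' : Γ.Adj a b := by
      rw [hΓ, SimpleGraph.fromRel_adj]
      exact ⟨hab, Or.inl ⟨1, one_smul _ _, one_smul _ _⟩⟩
    have hBuniv : B = Set.univ := by
      rcases hprim.isTrivialBlock_of_isBlock hB with h | h
      · exfalso
        have ha : a ∈ B := SimpleGraph.Reachable.refl a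
        have hb : b ∈ B := hab'.reachable
        exact hab (h ha hb)
      · exact h
    rw [SimpleGraph.connected_iff_exists_forall_reachable]
    refine ⟨a, fun w => ?_⟩
    have : w ∈ B := by rw [hBuniv]; trivial
    exact this
  · intro h
    apply IsPreprimitive.mk
    intro B hB
    rcases B.subsingleton_or_nontrivial with hs | hnt
    · exact Or.inl hs
    · right
      obtain ⟨a, ha, b, hb, hab⟩ := hnt
      have hconn := h a b hab
      set Γ := SimpleGraph.fromRel fun x y : Ω => ∃ g : G, g • a = x ∧ g • b = y with hΓ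
      rw [isBlock_iff_smul_eq_of_mem] at hB
      have hstep : ∀ x y : Ω, x ∈ B → Γ.Adj x y → y ∈ B := by
        intro x y hx hxy
        rw [hΓ, SimpleGraph.fromRel_adj] at hxy
        obtain ⟨_, hr⟩ := hxy
        rcases hr with ⟨g, hg1, hg2⟩ | ⟨g, hg1, hg2⟩
        · have : g • B = B := hB ha (by rw [hg1]; exact hx)
          rw [← this, ← hg2]
          exact Set.smul_mem_smul_set hb
        · have : g • B = B := hB hb (by rw [hg2]; exact hx)
          rw [← this, ← hg1]
          exact Set.smul_mem_smul_set ha
      rw [Set.eq_univ_iff_forall]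
      intro y
      have hr : Γ.Reachable a y := hconn.preconnected a y
      rw [SimpleGraph.reachable_iff_reflTransGen] at hr
      induction hr with
      | refl => exact ha
      | tail _ hbc ih => exact hstep _ _ ih hbc

end Cfsg.Agent.S0734
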