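import Cfsg.Statements.S0735
import Mathlib

set_option autoImplicit false
open Cfsg

namespace Cfsg.Agent.S0735

open scoped Pointwise

theorem aux_pairs {α : Type*} [Fintype α] [DecidableEq α] (G : Subgroup (Equiv.Perm α))
    (h2 : MulAction.IsPretransitive G (Set.powersetCard α 2)) {a b c d : α} (hab : a ≠ b) (hcd : c ≠ d) :
    ∃ g : G, (g • a = c ∧ g • b = d) ∨ (g • a = d ∧ g • b = c) := by
  let s : Set.powersetCard α 2 := ⟨{a, b}, Finset.card_pair hab⟩
  let t : Set.powersetCard α 2 := ⟨{c, d}, Finset.card_pair hcd⟩
  obtain ⟨g, hg⟩ := MulAction.exists_smul_eq G s t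
  refine ⟨g, ?_⟩
  have hg' : (g • ({a, b} : Finset α)) = {c, d} := by
    have := congrArg (fun x : Set.powersetCard α 2 => (x : Finset α)) hg
    have e : ((g • s : Set.powersetCard α 2) : Finset α) = g • ({a, b} : Finset α) :=
      Set.powersetCard.coe_smul
    change ((g • s : Set.powersetCard α 2) : Finset α) = {c, d} at this
    rw [e] at this
    exact this
  have ha : g • a ∈ ({c, d} : Finset α) := by
    rw [← hg']
    exact Finset.smul_mem_smul_finset (by simp)
  have hb : g • b ∈ ({c, d} : Finset α) := by
    rw [← hg']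
    exact Finset.smul_mem_smul_finset (by simp)
  have hne : g • a ≠ g • b := fun h => hab (smul_left_cancel g h)
  simp only [Finset.mem_insert, Finset.mem_singleton] at ha hb
  rcases ha with ha | ha <;> rcases hb with hb | hb
  · exact absurd (ha.trans hb.symm) hne
  · exact Or.inl ⟨ha, hb⟩
  · exact Or.inr ⟨ha, hb⟩
  · exact absurd (ha.trans hb.symm) hne

/-- A 2-homogeneous permutation group (transitive on 2-subsets) of even order is doubly transitive; a non-trivial 2-homogeneous group is primitive. -/
theorem result {α : Type*} [Fintype α] [DecidableEq α] (G : Subgroup (Equiv.Perm α)) (h2 : MulAction.IsPretransitive G (Set.powersetCard α 2)) (hα : 3 ≤ Fintype.card α) : (Even (Nat.card G) → MulAction.IsMultiplyPretransitive G α 2) ∧ (G ≠ ⊥ → MulAction.IsPreprimitive G α) := by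
  constructor
  · intro heven
    obtain ⟨t, ht⟩ := exists_prime_orderOf_dvd_card' (G := G) 2 (even_iff_two_dvd.mp heven)
    have ht1 : t ≠ 1 := by
      intro h
      rw [h, orderOf_one] at ht
      norm_num at ht
    have ht2 : t * t = 1 := by
      have := pow_orderOf_eq_one t
      rwa [ht, pow_two] at this
    obtain ⟨x, hx⟩ : ∃ x : α, t • x ≠ x := by
      by_contra hcon
      push Not at hcon
      apply ht1
      apply Subtype.ext
      ext y
      exact hcon y
    have hty : t • (t • x) = x := by
      rw [← mul_smul, ht2, one_smul]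
    -- any pair can be mapped to (x, t x)
    have key : ∀ a b : α, a ≠ b → ∃ g : G, g • a = x ∧ g • b = t • x := by
      intro a b hab
      obtain ⟨g, hg | hg⟩ := aux_pairs G h2 hab (Ne.symm hx)
      · exact ⟨g, hg⟩
      · refine ⟨t * g, ?_, ?_⟩
        · rw [mul_smul, hg.1, hty]
        · rw [mul_smul, hg.2]
    rw [MulAction.is_two_pretransitive_iff]
    intro a b c d hab hcd
    obtain ⟨g1, h1a, h1b⟩ := key a b hab
    obtain ⟨g2, h2c, h2d⟩ := key c d hcd
    refine ⟨g2⁻¹ * g1, ?_, ?_⟩
    · rw [mul_smul, h1a, inv_smul_eq_iff, h2c]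
    · rw [mul_smul, h1b, inv_smul_eq_iff, h2d]
  · intro _
    have htrans : MulAction.IsPretransitive G α := by
      refine ⟨fun a b => ?_⟩
      by_cases hab : a = b
      · exact ⟨1, by rw [one_smul, hab]⟩
      · obtain ⟨c, hc⟩ : ∃ c : α, c ∉ ({a, b} : Finset α) := by
          by_contra hcon
          push Not at hcon
          have : (Finset.univ : Finset α) ⊆ {a, b} := fun y _ => hcon y
          have h3 := Finset.card_le_card this
          rw [Finset.card_univ] at h3
          have h4 : ({a, b} : Finset α).card ≤ 2 := Finset.card_le_two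
          omega
        simp only [Finset.mem_insert, Finset.mem_singleton, not_or] at hc
        obtain ⟨g, hg | hg⟩ := aux_pairs G h2 (a := a) (b := c) (c := b) (d := c) (Ne.symm hc.1) (Ne.symm hc.2)
        · exact ⟨g, hg.1⟩
        · refine ⟨g * g, ?_⟩
          rw [mul_smul, hg.1, hg.2]
    apply MulAction.IsPreprimitive.mk
    intro B hB
    rcases B.subsingleton_or_nontrivial with h | h
    · left
      exact h
    · right
      obtain ⟨a, ha, b, hb, hab⟩ := h
      rw [Set.eq_univ_iff_forall]
      intro c
      by_cases hac : a = c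
      · rw [← hac]; exact ha
      · rw [MulAction.isBlock_iff_smul_eq_of_mem] at hB
        obtain ⟨g, hg | hg⟩ := aux_pairs G h2 hab hac
        · have h1 : g • B = B := hB ha (by rw [hg.1]; exact ha)
          rw [← h1, ← hg.2]
          exact Set.smul_mem_smul_set hb
        · have h1 : g • B = B := hB hb (by rw [hg.2]; exact ha)
          rw [← h1, ← hg.1]
          exact Set.smul_mem_smul_set ha

end Cfsg.Agent.S0735
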