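import Cfsg.Statements.S0743
import Mathlib

set_option autoImplicit false
open Cfsg

namespace Cfsg.Agent.S0743

open MulAction

/-- Congruence for the size of an invariant orbit under a `p`-subgroup with prescribed fixed points. -/
theorem aux_orbit_modEq {G : Type*} [Group G] {α : Type*} [MulAction G α] [Fintype α] [DecidableEq α]
    {p : ℕ} [Fact p.Prime] (x : α) (P : Subgroup G) (hP : IsPGroup p P) (u : Finset α)
    (hu : MulAction.fixedPoints P α = (u : Set α)) :
    Nat.card (MulAction.orbit G x) ≡ (MulAction.orbit G x ∩ (u : Set α)).ncard [MOD p] := by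
  have h1 := hP.card_modEq_card_fixedPoints (MulAction.orbit G x)
  have h2 : Nat.card (MulAction.fixedPoints P (MulAction.orbit G x)) =
      (MulAction.orbit G x ∩ (u : Set α)).ncard := by
    rw [Nat.card_coe_set_eq, ← Set.ncard_image_of_injective _ Subtype.val_injective]
    congr 1
    ext z
    constructor
    · rintro ⟨⟨z, hz⟩, hzf, rfl⟩
      refine ⟨hz, ?_⟩
      rw [← hu, MulAction.mem_fixedPoints]
      intro g
      have := hzf g
      exact congrArg Subtype.val this
    · rintro ⟨hz, hzu⟩
      refine ⟨⟨z, hz⟩, ?_, rfl⟩
      rw [MulAction.mem_fixedPoints]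
      intro g
      apply Subtype.ext
      rw [← hu, MulAction.mem_fixedPoints] at hzu
      exact hzu g
  rw [← h2]
  exact h1

/-- Generalised Gleason lemma: transitivity. -/
theorem gleason_transitive {G : Type*} [Group G] {α : Type*} [MulAction G α] [Fintype α] [DecidableEq α]
    {p m : ℕ} (hp : p.Prime) (hm : 1 ≤ m) (hmn : m < Fintype.card α)
    (h : ∀ s : Finset α, s.card = m → ∃ P : Subgroup G, IsPGroup p P ∧ MulAction.fixedPoints P α = (s : Set α)) :
    MulAction.IsPretransitive G α := by
  haveI : Fact p.Prime := ⟨hp⟩
  refine ⟨fun x y => ?_⟩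
  by_contra hxy
  have hy : y ∉ MulAction.orbit G x := fun ⟨g, hg⟩ => hxy ⟨g, hg⟩
  have hne : x ≠ y := by
    rintro rfl
    exact hy (MulAction.mem_orbit_self x)
  have hcard : m - 1 ≤ ((Finset.univ : Finset α) \ {x, y}).card := by
    rw [Finset.card_sdiff_of_subset (Finset.subset_univ _), Finset.card_univ, Finset.card_pair hne]
    omega
  obtain ⟨w, hw, hwcard⟩ := Finset.exists_subset_card_eq hcard
  have hxw : x ∉ w := fun hx => by
    have := hw hx
    simp at this
  have hyw : y ∉ w := fun hy' => by
    have := hw hy'
    simp at this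
  obtain ⟨P, hP, hPf⟩ := h (insert y w) (by rw [Finset.card_insert_of_notMem hyw, hwcard]; omega)
  obtain ⟨P', hP', hPf'⟩ := h (insert x w) (by rw [Finset.card_insert_of_notMem hxw, hwcard]; omega)
  have h1 := aux_orbit_modEq x P hP _ hPf
  have h2 := aux_orbit_modEq x P' hP' _ hPf'
  have e1 : MulAction.orbit G x ∩ ((insert y w : Finset α) : Set α) = MulAction.orbit G x ∩ (w : Set α) := by
    ext z
    simp only [Finset.coe_insert, Set.mem_inter_iff, Set.mem_insert_iff, Finset.mem_coe]
    constructor
    · rintro ⟨hz, rfl | hz'⟩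
      · exact absurd hz hy
      · exact ⟨hz, hz'⟩
    · rintro ⟨hz, hz'⟩
      exact ⟨hz, Or.inr hz'⟩
  have e2 : MulAction.orbit G x ∩ ((insert x w : Finset α) : Set α) = insert x (MulAction.orbit G x ∩ (w : Set α)) := by
    ext z
    simp only [Finset.coe_insert, Set.mem_inter_iff, Set.mem_insert_iff, Finset.mem_coe]
    constructor
    · rintro ⟨hz, rfl | hz'⟩
      · exact Or.inl rfl
      · exact Or.inr ⟨hz, hz'⟩
    · rintro (rfl | ⟨hz, hz'⟩)
      · exact ⟨MulAction.mem_orbit_self _, Or.inl rfl⟩
      · exact ⟨hz, Or.inr hz'⟩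
  rw [e1] at h1
  rw [e2, Set.ncard_insert_of_notMem (fun hx => hxw hx.2) (Set.toFinite _)] at h2
  have h3 := h1.symm.trans h2
  have h4 : p ∣ 1 := by
    have := (Nat.modEq_iff_dvd' (Nat.le_succ _)).mp h3
    simpa using this
  exact hp.one_lt.ne' (Nat.dvd_one.mp h4)

theorem gleason_general {p : ℕ} (hp : p.Prime) : ∀ (k : ℕ), 1 ≤ k → ∀ {G : Type*} [Group G] {α : Type*} [MulAction G α] [Fintype α] [DecidableEq α],
    k < Fintype.card α →
    (∀ s : Finset α, s.card = k → ∃ P : Subgroup G, IsPGroup p P ∧ MulAction.fixedPoints P α = (s : Set α)) →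
    MulAction.IsMultiplyPretransitive G α k := by
  intro k hk
  induction k, hk using Nat.le_induction with
  | base =>
    intro G _ α _ _ _ hkn h
    rw [MulAction.is_one_pretransitive_iff]
    exact gleason_transitive hp le_rfl hkn h
  | succ k hk ih =>
    intro G _ α _ _ _ hkn h
    haveI htr : MulAction.IsPretransitive G α := gleason_transitive hp (Nat.le_succ_of_le hk) hkn h
    obtain ⟨a⟩ : Nonempty α := by
      rw [← Fintype.card_pos_iff]; omega
    rw [SubMulAction.ofStabilizer.isMultiplyPretransitive (a := a)]
    haveI : Fintype (SubMulAction.ofStabilizer G a) := Fintype.ofFinite _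
    apply ih
    · have := SubMulAction.nat_card_ofStabilizer_add_one_eq (G := G) a
      rw [Nat.card_eq_fintype_card, Nat.card_eq_fintype_card] at this
      omega
    · intro s' hs'
      let s : Finset α := insert a (s'.map ⟨Subtype.val, Subtype.val_injective⟩)
      have has : a ∉ s'.map ⟨Subtype.val, Subtype.val_injective⟩ := by
        intro ha
        rw [Finset.mem_map] at ha
        obtain ⟨z, _, hz⟩ := ha
        exact SubMulAction.neq_of_mem_ofStabilizer G a hz
      have hs : s.card = k + 1 := by
        rw [Finset.card_insert_of_notMem has, Finset.card_map, hs']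
      obtain ⟨P, hP, hPf⟩ := h s hs
      have hPle : P ≤ MulAction.stabilizer G a := by
        intro g hg
        rw [MulAction.mem_stabilizer_iff]
        have : a ∈ MulAction.fixedPoints P α := by
          rw [hPf]; simp [s]
        exact this ⟨g, hg⟩
      refine ⟨P.subgroupOf (MulAction.stabilizer G a), ?_, ?_⟩
      · exact hP.comap_of_injective _ (Subgroup.subtype_injective _)
      · ext z
        rw [MulAction.mem_fixedPoints]
        constructor
        · intro hz
          have hzf : (z : α) ∈ MulAction.fixedPoints P α := by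
            rw [MulAction.mem_fixedPoints]
            intro g
            have := hz ⟨⟨g, hPle g.2⟩, g.2⟩
            exact congrArg Subtype.val this
          rw [hPf] at hzf
          simp only [s, Finset.coe_insert, Set.mem_insert_iff, Finset.mem_coe, Finset.mem_map,
            Function.Embedding.coeFn_mk] at hzf
          rcases hzf with hza | ⟨z', hz', hzz⟩
          · exact absurd hza (SubMulAction.neq_of_mem_ofStabilizer G a)
          · have : z' = z := Subtype.ext hzz
            rw [← this]; exact hz'
        · intro hz g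
          have hzf : (z : α) ∈ MulAction.fixedPoints P α := by
            rw [hPf]
            simp only [s, Finset.coe_insert, Set.mem_insert_iff, Finset.mem_coe, Finset.mem_map,
              Function.Embedding.coeFn_mk]
            exact Or.inr ⟨z, hz, rfl⟩
          apply Subtype.ext
          exact hzf ⟨(g : MulAction.stabilizer G a), g.2⟩

/-- Gleason's Lemma: let `p` be a prime and `1 ≤ k < n`; if every `k`-subset of the `n` points is exactly the fixed-point set of some `p`-subgroup of `G`, then `G` is `k`-transitive. -/
theorem result {α : Type*} [Fintype α] [DecidableEq α] (G : Subgroup (Equiv.Perm α)) {p k : ℕ} (hp : p.Prime) (hk : 1 ≤ k) (hkn : k < Fintype.card α) (h : ∀ s : Finset α, s.card = k → ∃ P : Subgroup G, IsPGroup p P ∧ MulAction.fixedPoints P α = (s : Set α)) : MulAction.IsMultiplyPretransitive G α k :=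
  gleason_general hp k hk hkn h

end Cfsg.Agent.S0743
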