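import Cfsg.Statements.S0744

set_option autoImplicit false
open Cfsg

namespace Cfsg.Agent.S0744

open Equiv MulAction

variable {α : Type*} [Fintype α] [DecidableEq α]

/-- elements of `G` fixing `S` pointwise, as a subgroup of `Perm α` -/
def fixG (G : Subgroup (Perm α)) (S : Set α) : Subgroup (Perm α) where
  carrier := {g | g ∈ G ∧ ∀ s ∈ S, g s = s}
  mul_mem' := by
    rintro a b ⟨ha, ha'⟩ ⟨hb, hb'⟩
    exact ⟨G.mul_mem ha hb, fun s hs => by rw [Perm.mul_apply, hb' s hs, ha' s hs]⟩
  one_mem' := ⟨G.one_mem, fun s _ => rfl⟩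
  inv_mem' := by
    rintro a ⟨ha, ha'⟩
    exact ⟨G.inv_mem ha, fun s hs => by rw [Perm.inv_eq_iff_eq, ha' s hs]⟩

theorem card_fixingSubgroup (G : Subgroup (Perm α)) (S : Set α) :
    Nat.card (fixingSubgroup G S) = Nat.card (fixG G S) := by
  apply Nat.card_congr
  exact {
    toFun := fun g => ⟨g.1.1, g.1.2, fun s hs => (mem_fixingSubgroup_iff G).mp g.2 s hs⟩
    invFun := fun g => ⟨⟨g.1, g.2.1⟩, by
      rw [mem_fixingSubgroup_iff]
      intro s hs
      exact g.2.2 s hs⟩
    left_inv := fun g => rfl
    right_inv := fun g => rfl }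

theorem orbit_stab (G : Subgroup (Perm α)) (S : Set α) (a : α) :
    Nat.card (orbit (fixG G S) a) * Nat.card (fixG G (insert a S)) = Nat.card (fixG G S) := by
  rw [← Nat.card_congr (orbitProdStabilizerEquivGroup (fixG G S) a), Nat.card_prod]
  congr 1
  apply Nat.card_congr
  exact {
    toFun := fun g => ⟨⟨g.1, g.2.1, fun s hs => g.2.2 s (Set.mem_insert_of_mem a hs)⟩, by
       rw [mem_stabilizer_iff]
       exact g.2.2 a (Set.mem_insert a S)⟩
    invFun := fun g => ⟨g.1.1, g.1.2.1, fun s hs => by
       rcases hs with rfl | hs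
       · exact mem_stabilizer_iff.mp g.2
       · exact g.1.2.2 s hs⟩
    left_inv := fun g => rfl
    right_inv := fun g => rfl }

open Classical in
/-- the orbit as a finset -/
noncomputable def orbFin (K : Subgroup (Perm α)) (y : α) : Finset α :=
  Finset.univ.filter (fun z => z ∈ orbit K y)

theorem mem_orbFin (K : Subgroup (Perm α)) (y z : α) : z ∈ orbFin K y ↔ z ∈ orbit K y := by
  simp [orbFin]

theorem card_orbit_eq (K : Subgroup (Perm α)) (y : α) :
    (orbFin K y).card = Nat.card (orbit K y) := by
  symm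
  apply Nat.subtype_card
  intro x
  exact mem_orbFin K y x

theorem dvd_card_of_orbits (K : Subgroup (Perm α)) (Y : Finset α) (d : ℕ)
    (hinv : ∀ k ∈ K, ∀ y ∈ Y, k y ∈ Y)
    (hd : ∀ y ∈ Y, Nat.card (orbit K y) = d) : d ∣ Y.card := by
  classical
  let f : α → Finset α := fun y => orbFin K y
  rw [Finset.card_eq_sum_card_image f Y]
  apply Finset.dvd_sum
  intro b hb
  obtain ⟨y, hy, rfl⟩ := Finset.mem_image.mp hb
  have hfib : Y.filter (fun z => f z = f y) = f y := by
    ext z
    simp only [Finset.mem_filter]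
    constructor
    · rintro ⟨hz, hfz⟩
      have h1 : z ∈ f z := by
        simp only [f, mem_orbFin]
        exact mem_orbit_self z
      rw [hfz] at h1
      exact h1
    · intro hz
      have hz' : z ∈ orbit K y := by
        simpa only [f, mem_orbFin] using hz
      refine ⟨?_, ?_⟩
      · obtain ⟨k, rfl⟩ := hz'
        exact hinv k.1 k.2 y hy
      · have h2 := MulAction.orbit_eq_iff.mpr hz'
        simp only [f, orbFin, h2]
  rw [hfib]
  have h3 : (f y).card = Nat.card (orbit K y) := card_orbit_eq K y
  rw [h3, hd y hy]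

theorem orbit_notMem (G : Subgroup (Perm α)) (S : Finset α) (x : α) (hx : x ∉ S) (y : α)
    (hy : y ∈ orbit (fixG G (S : Set α)) x) : y ∉ S := by
  obtain ⟨h, rfl⟩ := hy
  intro hyS
  have h1 : (h : Perm α) ((h : Perm α) x) = (h : Perm α) x := h.2.2 _ hyS
  have h2 : (h : Perm α) x = x := (h : Perm α).injective h1
  apply hx
  rw [← h2]
  exact hyS

theorem trans_of_const (G : Subgroup (Perm α)) (j l' m' : ℕ) (hl : 1 < l')
    (h1 : ∀ S : Finset α, S.card = j + 1 → Nat.card (fixG G (S : Set α)) = l')
    (h2 : ∀ S : Finset α, S.card = j + 2 → Nat.card (fixG G (S : Set α)) = m')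
    (S : Finset α) (hS : S.card = j) (a c : α) (ha : a ∉ S) (hc : c ∉ S) :
    c ∈ orbit (fixG G (S : Set α)) a := by
  by_contra hca
  have hKcard : Nat.card (fixG G (insert a (S : Set α))) = l' := by
    have := h1 (insert a S) (by rw [Finset.card_insert_of_notMem ha, hS])
    rwa [Finset.coe_insert] at this
  have hac : c ≠ a := by
    rintro rfl
    exact hca (MulAction.mem_orbit_self _)
  have hKH : ∀ k ∈ fixG G (insert a (S : Set α)), k ∈ fixG G (S : Set α) :=
    fun k hk => ⟨hk.1, fun s hs => hk.2 s (Set.mem_insert_of_mem a hs)⟩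
  have hKa : ∀ k ∈ fixG G (insert a (S : Set α)), k a = a :=
    fun k hk => hk.2 a (Set.mem_insert a _)
  have horbK : ∀ y, y ∉ S → y ≠ a →
      Nat.card (orbit (fixG G (insert a (S : Set α))) y) * m' = l' := by
    intro y hyS hya
    have h3 := orbit_stab G (insert a (S : Set α)) y
    rw [hKcard] at h3
    have h4 := h2 (insert y (insert a S)) (by
      rw [Finset.card_insert_of_notMem, Finset.card_insert_of_notMem ha, hS]
      simp [hya, hyS])
    rw [Finset.coe_insert, Finset.coe_insert] at h4
    rw [h4] at h3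
    exact h3
  set d := Nat.card (orbit (fixG G (insert a (S : Set α))) c) with hd
  have hdm : d * m' = l' := horbK c hc hac
  have hm'pos : 0 < m' := by
    rcases Nat.eq_zero_or_pos m' with h | h
    · rw [h] at hdm; omega
    · exact h
  have horbK' : ∀ y, y ∉ S → y ≠ a →
      Nat.card (orbit (fixG G (insert a (S : Set α))) y) = d := by
    intro y hyS hya
    have h3 := horbK y hyS hya
    rw [← hdm] at h3
    exact Nat.eq_of_mul_eq_mul_right hm'pos h3
  have hHa : Nat.card (orbit (fixG G (S : Set α)) a) * l' = Nat.card (fixG G (S : Set α)) := by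
    have h3 := orbit_stab G (S : Set α) a
    rwa [hKcard] at h3
  have hHc : Nat.card (orbit (fixG G (S : Set α)) c) * l' = Nat.card (fixG G (S : Set α)) := by
    have h3 := orbit_stab G (S : Set α) c
    have h4 := h1 (insert c S) (by rw [Finset.card_insert_of_notMem hc, hS])
    rw [Finset.coe_insert] at h4
    rwa [h4] at h3
  have hteq : Nat.card (orbit (fixG G (S : Set α)) c) = Nat.card (orbit (fixG G (S : Set α)) a) :=
    Nat.eq_of_mul_eq_mul_right (by omega) (hHc.trans hHa.symm)
  have hanc : a ∉ orbit (fixG G (S : Set α)) c := by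
    intro h
    apply hca
    rw [MulAction.orbit_eq_iff.mpr h]
    exact MulAction.mem_orbit_self _
  have hY1 : d ∣ (orbFin (fixG G (S : Set α)) c).card := by
    apply dvd_card_of_orbits (fixG G (insert a (S : Set α)))
    · intro k hk y hy
      simp only [mem_orbFin] at hy ⊢
      obtain ⟨h, rfl⟩ := hy
      exact ⟨⟨k, hKH k hk⟩ * h, rfl⟩
    · intro y hy
      simp only [mem_orbFin] at hy
      apply horbK' y (orbit_notMem G S c hc y hy)
      rintro rfl
      exact hanc hy
  have hY2 : d ∣ ((orbFin (fixG G (S : Set α)) a).erase a).card := by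
    apply dvd_card_of_orbits (fixG G (insert a (S : Set α)))
    · intro k hk y hy
      simp only [Finset.mem_erase, mem_orbFin] at hy ⊢
      obtain ⟨hya, h, rfl⟩ := hy
      refine ⟨?_, ⟨⟨k, hKH k hk⟩ * h, rfl⟩⟩
      intro h5
      apply hya
      have h6 : k ((h : Perm α) a) = k a := by
        rw [hKa k hk]
        exact h5
      exact k.injective h6
    · intro y hy
      simp only [Finset.mem_erase, mem_orbFin] at hy
      exact horbK' y (orbit_notMem G S a ha y hy.2) hy.1
  rw [card_orbit_eq, hteq] at hY1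
  rw [Finset.card_erase_of_mem (by
    simp only [mem_orbFin]
    exact MulAction.mem_orbit_self a), card_orbit_eq] at hY2
  have ht : 1 ≤ Nat.card (orbit (fixG G (S : Set α)) a) := by
    have : Nonempty (orbit (fixG G (S : Set α)) a) := ⟨⟨a, MulAction.mem_orbit_self a⟩⟩
    exact Nat.card_pos
  have hd1 : d = 1 := by
    have h3 := Nat.dvd_sub hY1 hY2
    have h4 : Nat.card (orbit (fixG G (S : Set α)) a) -
        (Nat.card (orbit (fixG G (S : Set α)) a) - 1) = 1 := by omega
    rw [h4] at h3
    exact Nat.dvd_one.mp h3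
  have hKtriv : ∀ k ∈ fixG G (insert a (S : Set α)), k = 1 := by
    intro k hk
    ext y
    by_cases hy : y ∈ insert a (S : Set α)
    · exact hk.2 y hy
    · have hyS : y ∉ S := fun h => hy (Set.mem_insert_of_mem a h)
      have hya : y ≠ a := fun h => hy (by rw [h]; exact Set.mem_insert a _)
      have hcard := horbK' y hyS hya
      rw [hd1] at hcard
      have hsub : Subsingleton (orbit (fixG G (insert a (S : Set α))) y) :=
        (Nat.card_eq_one_iff_unique.mp hcard).1
      have h3 := Subsingleton.elim
        (⟨(⟨k, hk⟩ : fixG G (insert a (S : Set α))) • y, mem_orbit _ _⟩ :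
          orbit (fixG G (insert a (S : Set α))) y) ⟨y, mem_orbit_self _⟩
      exact congrArg Subtype.val h3
  have hK1 : Nat.card (fixG G (insert a (S : Set α))) = 1 := by
    rw [Nat.card_eq_one_iff_unique]
    exact ⟨⟨fun x y => Subtype.ext ((hKtriv x x.2).trans (hKtriv y y.2).symm)⟩, ⟨1⟩⟩
  omega

theorem card_of_trans (G : Subgroup (Perm α)) (j l' : ℕ)
    (h1 : ∀ S : Finset α, S.card = j + 1 → Nat.card (fixG G (S : Set α)) = l')
    (S : Finset α) (hS : S.card = j)
    (hT : ∀ a c, a ∉ S → c ∉ S → c ∈ orbit (fixG G (S : Set α)) a)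
    (hj : j < Fintype.card α) :
    Nat.card (fixG G (S : Set α)) = (Fintype.card α - j) * l' := by
  obtain ⟨a, ha⟩ : ∃ a, a ∉ S := by
    by_contra hcon
    push Not at hcon
    have : S = Finset.univ := Finset.eq_univ_iff_forall.mpr hcon
    rw [this, Finset.card_univ] at hS
    omega
  have h3 := orbit_stab G (S : Set α) a
  have h4 := h1 (insert a S) (by rw [Finset.card_insert_of_notMem ha, hS])
  rw [Finset.coe_insert] at h4
  rw [h4] at h3
  rw [← h3]
  congr 1
  rw [← card_orbit_eq]
  have : orbFin (fixG G (S : Set α)) a = Sᶜ := by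
    ext z
    simp only [mem_orbFin, Finset.mem_compl]
    exact ⟨fun h => orbit_notMem G S a ha z h, fun h => hT a z ha h⟩
  rw [this, Finset.card_compl, hS]

/-- downward induction -/
theorem all_trans (G : Subgroup (Perm α)) (k : ℕ) (hk : 1 < k) (hkn : k ≤ Fintype.card α)
    (l m : ℕ) (hl : 1 < l)
    (hkm1 : ∀ S : Finset α, S.card = k - 1 → Nat.card (fixG G (S : Set α)) = l)
    (hkm : ∀ S : Finset α, S.card = k → Nat.card (fixG G (S : Set α)) = m) :
    ∀ i, i ≤ k - 2 → ∃ l' m', 1 < l' ∧
      (∀ S : Finset α, S.card = (k - 2 - i) + 1 → Nat.card (fixG G (S : Set α)) = l') ∧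
      (∀ S : Finset α, S.card = (k - 2 - i) + 2 → Nat.card (fixG G (S : Set α)) = m') := by
  intro i
  induction i with
  | zero =>
    intro _
    refine ⟨l, m, hl, ?_, ?_⟩
    · intro S hS
      exact hkm1 S (by omega)
    · intro S hS
      exact hkm S (by omega)
  | succ i ih =>
    intro hi
    obtain ⟨l', m', hl', h1, h2⟩ := ih (by omega)
    refine ⟨(Fintype.card α - (k - 2 - i)) * l', l', ?_, ?_, ?_⟩
    · have : 1 ≤ Fintype.card α - (k - 2 - i) := by omega
      calc 1 < l' := hl'
        _ = 1 * l' := (one_mul _).symm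
        _ ≤ (Fintype.card α - (k - 2 - i)) * l' := Nat.mul_le_mul_right _ this
    · intro S hS
      have hS' : S.card = k - 2 - i := by omega
      apply card_of_trans G (k - 2 - i) l' h1 S hS'
      · intro a c ha hc
        exact trans_of_const G (k - 2 - i) l' m' hl' h1 h2 S hS' a c ha hc
      · omega
    · intro S hS
      exact h1 S (by omega)

/-- If for some `k > 1` the pointwise stabilisers of all `(k-1)`-subsets have the same order `> 1` and those of all `k`-subsets have the same order, then the group is `(k-1)`-transitive. -/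
theorem result {α : Type*} [Fintype α] [DecidableEq α] (G : Subgroup (Equiv.Perm α)) {k : ℕ} (hk : 1 < k) (hkn : k ≤ Fintype.card α) (l m : ℕ) (hl : 1 < l) (hkm1 : ∀ s : Finset α, s.card = k - 1 → Nat.card (fixingSubgroup G (s : Set α)) = l) (hkm : ∀ s : Finset α, s.card = k → Nat.card (fixingSubgroup G (s : Set α)) = m) : MulAction.IsMultiplyPretransitive G α (k - 1) := by
  have hkm1' : ∀ S : Finset α, S.card = k - 1 → Nat.card (fixG G (S : Set α)) = l := by
    intro S hS
    rw [← card_fixingSubgroup]
    exact hkm1 S hS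
  have hkm' : ∀ S : Finset α, S.card = k → Nat.card (fixG G (S : Set α)) = m := by
    intro S hS
    rw [← card_fixingSubgroup]
    exact hkm S hS
  have hall := all_trans G k hk hkn l m hl hkm1' hkm'
  have hT : ∀ j, j ≤ k - 2 → ∀ S : Finset α, S.card = j → ∀ a c, a ∉ S → c ∉ S →
      c ∈ orbit (fixG G (S : Set α)) a := by
    intro j hj S hS a c ha hc
    obtain ⟨l', m', hl', h1, h2⟩ := hall (k - 2 - j) (by omega)
    have hjj : k - 2 - (k - 2 - j) = j := by omega
    rw [hjj] at h1 h2
    exact trans_of_const G j l' m' hl' h1 h2 S hS a c ha hc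
  have key : ∀ i, i ≤ k - 1 → ∀ x y : Fin i ↪ α, ∃ g : G, g • x = y := by
    intro i
    induction i with
    | zero =>
      intro _ x y
      refine ⟨1, ?_⟩
      ext p
      exact p.elim0
    | succ i ih =>
      intro hi x y
      obtain ⟨g, hg⟩ := ih (by omega) (Fin.castSuccEmb.trans x) (Fin.castSuccEmb.trans y)
      have hg' : ∀ p : Fin i, (g : Equiv.Perm α) (x (Fin.castSucc p)) = y (Fin.castSucc p) := by
        intro p
        have := congrArg (fun e : Fin i ↪ α => e p) hg
        exact this
      set S : Finset α := Finset.univ.map (Fin.castSuccEmb.trans y) with hSdef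
      have hScard : S.card = i := by
        rw [hSdef, Finset.card_map, Finset.card_univ, Fintype.card_fin]
      have haS : (g : Equiv.Perm α) (x (Fin.last i)) ∉ S := by
        intro h
        rw [hSdef, Finset.mem_map] at h
        obtain ⟨p, _, hp⟩ := h
        have hp' : y (Fin.castSucc p) = (g : Equiv.Perm α) (x (Fin.last i)) := hp
        rw [← hg' p] at hp'
        have := x.injective ((g : Equiv.Perm α).injective hp')
        exact (Fin.castSucc_lt_last p).ne this
      have hbS : y (Fin.last i) ∉ S := by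
        intro h
        rw [hSdef, Finset.mem_map] at h
        obtain ⟨p, _, hp⟩ := h
        have hp' : y (Fin.castSucc p) = y (Fin.last i) := hp
        have := y.injective hp'
        exact (Fin.castSucc_lt_last p).ne this
      obtain ⟨h, hh⟩ := hT i (by omega) S hScard _ _ haS hbS
      have hh' : (h : Equiv.Perm α) ((g : Equiv.Perm α) (x (Fin.last i))) = y (Fin.last i) := hh
      refine ⟨⟨h.1, h.2.1⟩ * g, ?_⟩
      ext p
      show (h : Equiv.Perm α) ((g : Equiv.Perm α) (x p)) = y p
      induction p using Fin.lastCases with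
      | last => exact hh'
      | cast p =>
        rw [hg' p]
        apply h.2.2
        rw [hSdef, Finset.coe_map]
        exact ⟨p, by simp, rfl⟩
  rw [MulAction.isMultiplyPretransitive_iff]
  exact key (k - 1) le_rfl

end Cfsg.Agent.S0744
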