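import Cfsg.Statements.S0751
import Cfsg.Agent.H17.WittHerm
import Cfsg.Agent.H17.WittAlt

set_option autoImplicit false
open Cfsg

namespace Cfsg.Agent.S0751

/-- Witt's Lemma for Hermitian forms. Let σ be a non-identity involutive automorphism of a finite field F and B a non-degenerate σ-sesquilinear form on a finite-dimensional F-space V which is conjugate-symmetric (σ (B x y) = B y x). Then every linear equivalence between subspaces X, Y of V preserving B extends to a B-preserving linear automorphism of V. -/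
theorem result {F V : Type*} [Field F] [Finite F] [AddCommGroup V] [Module F V] [FiniteDimensional F V] (σ : F →+* F) (hσ : σ ≠ RingHom.id F) (hσ2 : ∀ a : F, σ (σ a) = a) (B : V →ₛₗ[σ] V →ₗ[F] F) (hS : B.IsSymm) (hB : B.Nondegenerate) (X Y : Submodule F V) (φ : X ≃ₗ[F] Y) (hφ : ∀ x x' : X, B (φ x : V) (φ x' : V) = B (x : V) (x' : V)) : ∃ g : V ≃ₗ[F] V, (∀ u v : V, B (g u) (g v) = B u v) ∧ ∀ x : X, g (x : V) = (φ x : V) := by
  obtain ⟨f, hfx, hinj⟩ := Cfsg.Agent.H17.exists_extend_equiv X Y φ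
  obtain ⟨g, hg, hgX⟩ := Cfsg.Agent.H17.witt_herm σ hσ hσ2 B hS hB X f
    (fun x hx x' hx' => by
      have h1 := hfx ⟨x, hx⟩
      have h2 := hfx ⟨x', hx'⟩
      simp only at h1 h2
      rw [h1, h2]
      exact hφ ⟨x, hx⟩ ⟨x', hx'⟩)
    hinj
  refine ⟨g, hg, fun x => ?_⟩
  rw [hgX x x.2, hfx]

end Cfsg.Agent.S0751
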