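import Cfsg.Statements.S0752
import Cfsg.Agent.H42.AltBasis

set_option autoImplicit false
open Cfsg

namespace Cfsg.Agent.S0752

open Module

/-- Classification of alternating forms: for an alternating bilinear form B on a finite-dimensional space over any field there is a basis indexed by (Fin m ⊕ Fin m) ⊕ Fin k such that B (e_i, f_j) = δ_ij, the e's are pairwise orthogonal, the f's are pairwise orthogonal, and the last k basis vectors are orthogonal to everything (they span the radical). -/
theorem result {F V : Type*} [Field F] [AddCommGroup V] [Module F V] [FiniteDimensional F V] (B : LinearMap.BilinForm F V) (hA : B.IsAlt) : ∃ (m k : ℕ) (b : Module.Basis ((Fin m ⊕ Fin m) ⊕ Fin k) F V), (∀ i j : Fin m, B (b (Sum.inl (Sum.inl i))) (b (Sum.inl (Sum.inr j))) = if i = j then 1 else 0) ∧ (∀ i j : Fin m, B (b (Sum.inl (Sum.inl i))) (b (Sum.inl (Sum.inl j))) = 0) ∧ (∀ i j : Fin m, B (b (Sum.inl (Sum.inr i))) (b (Sum.inl (Sum.inr j))) = 0) ∧ (∀ (j : Fin k) (v : V), B (b (Sum.inr j)) v = 0) := by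
  classical
  have halt : ∀ x, B x x = 0 := hA
  obtain ⟨m, e, f, h1, h2, h3, h4⟩ := H42.alt_pairs_aux (F := F) (Module.finrank F V) V B halt rfl
  have hskew : ∀ x y, B x y = - B y x := by
    intro x y
    have h5 := halt (x + y)
    simp only [map_add, LinearMap.add_apply, halt, zero_add, add_zero] at h5
    linear_combination h5
  have h1' : ∀ i j, B (f i) (e j) = if i = j then -1 else 0 := by
    intro i j
    rw [hskew, h1]
    by_cases hij : i = j
    · subst hij; simp
    · have : ¬ j = i := fun h => hij h.symm
      simp [hij, this]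
  let R : Submodule F V := LinearMap.ker B
  let r : Basis (Fin (Module.finrank F R)) F R := Module.finBasis F R
  let g : (Fin m ⊕ Fin m) ⊕ Fin (Module.finrank F R) → V :=
    Sum.elim (Sum.elim e f) (fun j => (r j : V))
  have hr0 : ∀ j v, B (r j : V) v = 0 := by
    intro j v
    have h5 : B (r j : V) = 0 := LinearMap.mem_ker.mp (r j).2
    rw [h5]; rfl
  have hli : LinearIndependent F g := by
    rw [Fintype.linearIndependent_iff]
    intro c hc
    rw [Fintype.sum_sum_type, Fintype.sum_sum_type] at hc
    simp only [g, Sum.elim_inl, Sum.elim_inr] at hc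
    have ha : ∀ j, c (Sum.inl (Sum.inl j)) = 0 := by
      intro j
      have h5 := congrArg (fun x => B x (f j)) hc
      simp only [map_add, map_sum, map_smul, LinearMap.add_apply, LinearMap.sum_apply,
        LinearMap.smul_apply, smul_eq_mul, h1, h3, hr0, mul_zero, Finset.sum_const_zero, add_zero,
        LinearMap.zero_apply, map_zero] at h5
      simpa using h5
    have hb : ∀ j, c (Sum.inl (Sum.inr j)) = 0 := by
      intro j
      have h5 := congrArg (fun x => B x (e j)) hc
      simp only [map_add, map_sum, map_smul, LinearMap.add_apply, LinearMap.sum_apply,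
        LinearMap.smul_apply, smul_eq_mul, h2, h1', hr0, mul_zero, Finset.sum_const_zero, add_zero,
        zero_add, LinearMap.zero_apply, map_zero] at h5
      simpa using h5
    have hc' : ∑ j, c (Sum.inr j) • r j = 0 := by
      apply Subtype.ext
      simp only [ha, hb, zero_smul, Finset.sum_const_zero, zero_add] at hc
      rw [Submodule.coe_sum]
      simpa using hc
    have hcc := Fintype.linearIndependent_iff.mp r.linearIndependent (fun j => c (Sum.inr j)) hc'
    rintro ((i | i) | j)
    · exact ha i
    · exact hb i
    · exact hcc j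
  have hspan : ⊤ ≤ Submodule.span F (Set.range g) := by
    intro x _
    set y := x - ∑ i, B x (f i) • e i + ∑ i, B x (e i) • f i with hy
    have hyR : y ∈ R := by
      rw [LinearMap.mem_ker]
      apply h4
      · intro j
        simp only [hy, map_add, map_sub, map_sum, map_smul, LinearMap.add_apply,
          LinearMap.sub_apply, LinearMap.sum_apply, LinearMap.smul_apply, smul_eq_mul, h2, h1',
          mul_zero, Finset.sum_const_zero, sub_zero]
        simp
      · intro j
        simp only [hy, map_add, map_sub, map_sum, map_smul, LinearMap.add_apply,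
          LinearMap.sub_apply, LinearMap.sum_apply, LinearMap.smul_apply, smul_eq_mul, h1, h3,
          mul_zero, Finset.sum_const_zero, add_zero]
        simp
    have hx : x = y + ∑ i, B x (f i) • e i - ∑ i, B x (e i) • f i := by rw [hy]; abel
    rw [hx]
    apply Submodule.sub_mem
    · apply Submodule.add_mem
      · have h5 : y = ∑ j, r.repr ⟨y, hyR⟩ j • (r j : V) := by
          have h6 := congrArg Subtype.val (r.sum_repr ⟨y, hyR⟩)
          rw [Submodule.coe_sum] at h6
          simpa using h6.symm
        rw [h5]
        exact Submodule.sum_mem _ (fun j _ => Submodule.smul_mem _ _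
          (Submodule.subset_span ⟨Sum.inr j, rfl⟩))
      · exact Submodule.sum_mem _ (fun i _ => Submodule.smul_mem _ _
          (Submodule.subset_span ⟨Sum.inl (Sum.inl i), rfl⟩))
    · exact Submodule.sum_mem _ (fun i _ => Submodule.smul_mem _ _
        (Submodule.subset_span ⟨Sum.inl (Sum.inr i), rfl⟩))
  let b : Basis ((Fin m ⊕ Fin m) ⊕ Fin (Module.finrank F R)) F V := Basis.mk hli hspan
  have hb : ∀ idx, b idx = g idx := fun idx => Basis.mk_apply hli hspan idx
  refine ⟨m, Module.finrank F R, b, ?_, ?_, ?_, ?_⟩
  · intro i j
    rw [hb, hb]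
    exact h1 i j
  · intro i j
    rw [hb, hb]
    exact h2 i j
  · intro i j
    rw [hb, hb]
    exact h3 i j
  · intro j v
    rw [hb]
    exact hr0 j v

end Cfsg.Agent.S0752
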