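import Cfsg.Statements.S0754

set_option autoImplicit false
open Cfsg

namespace Cfsg.Agent.S0754

/-- In a field F with q^2 elements, every non-zero μ with μ^q = μ (that is, μ in the subfield of order q) has exactly q + 1 solutions λ of λ^(q+1) = μ. -/
theorem result {F : Type*} [Field F] [Fintype F] {q : ℕ} (hF : Fintype.card F = q ^ 2) (μ : F) (hμ : μ ≠ 0) (hμq : μ ^ q = μ) : Nat.card {x : F // x ^ (q + 1) = μ} = q + 1 := by
  classical
  have hq : 2 ≤ q := by
    have h1 := Fintype.one_lt_card (α := F)
    rw [hF] at h1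
    by_contra h
    interval_cases q <;> simp at h1
  set M : Finset F := Finset.univ.filter (fun y => y ^ (q - 1) = 1) with hM
  set S : F → Finset F := fun y => Finset.univ.filter (fun x => x ^ (q + 1) = y) with hS
  have hMcard : M.card ≤ q - 1 := by
    have hsub : M ⊆ (Polynomial.nthRoots (q - 1) (1 : F)).toFinset := by
      intro y hy
      rw [hM, Finset.mem_filter] at hy
      rw [Multiset.mem_toFinset, Polynomial.mem_nthRoots (by omega)]
      exact hy.2
    calc M.card ≤ (Polynomial.nthRoots (q - 1) (1 : F)).toFinset.card := Finset.card_le_card hsub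
      _ ≤ Multiset.card (Polynomial.nthRoots (q - 1) (1 : F)) := Multiset.toFinset_card_le _
      _ ≤ q - 1 := Polynomial.card_nthRoots _ _
  have hScard : ∀ y, (S y).card ≤ q + 1 := by
    intro y
    have hsub : S y ⊆ (Polynomial.nthRoots (q + 1) y).toFinset := by
      intro x hx
      rw [hS, Finset.mem_filter] at hx
      rw [Multiset.mem_toFinset, Polynomial.mem_nthRoots (by omega)]
      exact hx.2
    calc (S y).card ≤ (Polynomial.nthRoots (q + 1) y).toFinset.card := Finset.card_le_card hsub
      _ ≤ Multiset.card (Polynomial.nthRoots (q + 1) y) := Multiset.toFinset_card_le _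
      _ ≤ q + 1 := Polynomial.card_nthRoots _ _
  have hMne : ∀ y ∈ M, y ≠ 0 := by
    intro y hy h0
    rw [hM, Finset.mem_filter] at hy
    rw [h0, zero_pow (by omega)] at hy
    exact zero_ne_one hy.2
  have hsum : ∑ y ∈ M, (S y).card = q ^ 2 - 1 := by
    have hmaps : ∀ x ∈ (Finset.univ.filter (fun x : F => x ≠ 0)), x ^ (q + 1) ∈ M := by
      intro x hx
      rw [Finset.mem_filter] at hx
      rw [hM, Finset.mem_filter]
      refine ⟨Finset.mem_univ _, ?_⟩
      rw [← pow_mul]
      have h2 : (q + 1) * (q - 1) = Fintype.card F - 1 := by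
        rw [hF]
        zify [show 1 ≤ q by omega, show 1 ≤ q ^ 2 from Nat.one_le_pow _ _ (by omega)]
        ring
      rw [h2]
      exact FiniteField.pow_card_sub_one_eq_one x hx.2
    have h3 := Finset.card_eq_sum_card_fiberwise hmaps
    have h4 : (Finset.univ.filter (fun x : F => x ≠ 0)).card = q ^ 2 - 1 := by
      rw [Finset.filter_ne' Finset.univ (0 : F), Finset.card_erase_of_mem (Finset.mem_univ _),
        Finset.card_univ, hF]
    rw [← h4, h3]
    refine Finset.sum_congr rfl ?_
    intro y hy
    congr 1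
    ext x
    simp only [hS, Finset.mem_filter, Finset.mem_univ, true_and]
    constructor
    · intro h
      refine ⟨?_, h⟩
      intro hx0
      rw [hx0, zero_pow (by omega)] at h
      exact hMne y hy h.symm
    · exact fun h => h.2
  have hμM : μ ∈ M := by
    rw [hM, Finset.mem_filter]
    refine ⟨Finset.mem_univ _, ?_⟩
    have h5 : μ ^ (q - 1) * μ = μ := by
      rw [← pow_succ, Nat.sub_add_cancel (by omega), hμq]
    exact mul_right_cancel₀ hμ (by rw [h5, one_mul])
  have hfinal : (S μ).card = q + 1 := by
    by_contra hne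
    have hlt : (S μ).card < q + 1 := lt_of_le_of_ne (hScard μ) hne
    have h6 : ∑ y ∈ M, (S y).card < ∑ y ∈ M, (q + 1) :=
      Finset.sum_lt_sum (fun y _ => hScard y) ⟨μ, hμM, hlt⟩
    rw [hsum, Finset.sum_const, smul_eq_mul] at h6
    have h7 : M.card * (q + 1) ≤ (q - 1) * (q + 1) := Nat.mul_le_mul_right _ hMcard
    have h8 : (q - 1) * (q + 1) = q ^ 2 - 1 := by
      zify [show 1 ≤ q by omega, show 1 ≤ q ^ 2 from Nat.one_le_pow _ _ (by omega)]
      ring
    omega
  rw [Nat.card_eq_fintype_card, Fintype.card_subtype]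
  exact hfinal

end Cfsg.Agent.S0754
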