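import Cfsg.Statements.S0757
import Cfsg.Agent.H17.Symp

set_option autoImplicit false
open Cfsg

namespace Cfsg.Agent.S0757

open Matrix in
/-- The two diagonal forms Σ x_i^2 and Σ_(i<n) x_i^2 + α x_n^2 on F^(n+1), with α a non-square and 2 ≠ 0 in F, are inequivalent quadratic forms (so over a finite field of odd order there are exactly two classes of non-singular symmetric bilinear forms in each dimension). -/
theorem result {F : Type*} [Field F] (h2 : (2 : F) ≠ 0) (n : ℕ) (α : F) (hα : ¬ IsSquare α) : ¬ (QuadraticMap.weightedSumSquares F (fun _ : Fin (n + 1) => (1 : F))).Equivalent (QuadraticMap.weightedSumSquares F (fun i : Fin (n + 1) => if i = Fin.last n then α else (1 : F))) := by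
  rintro ⟨e⟩
  set w : Fin (n + 1) → F := fun i => if i = Fin.last n then α else (1 : F) with hw
  set P : Matrix (Fin (n + 1)) (Fin (n + 1)) F := LinearMap.toMatrix' (e.toLinearEquiv : (Fin (n + 1) → F) →ₗ[F] (Fin (n + 1) → F)) with hP
  have hPx : ∀ x, P *ᵥ x = e x := by
    intro x
    rw [hP, LinearMap.toMatrix'_mulVec]
    rfl
  have hiso : ∀ x : Fin (n + 1) → F, ∑ i, w i * ((P *ᵥ x) i * (P *ᵥ x) i) = ∑ i, x i * x i := by
    intro x
    have := e.map_app' x
    simp only [QuadraticMap.weightedSumSquares_apply, smul_eq_mul, one_mul] at this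
    rw [hPx]
    exact this
  have hpol : ∀ x y : Fin (n + 1) → F, ∑ i, w i * ((P *ᵥ x) i * (P *ᵥ y) i) = ∑ i, x i * y i := by
    intro x y
    have h1 := hiso (x + y)
    have h3 : ∑ i, w i * ((P *ᵥ (x + y)) i * (P *ᵥ (x + y)) i) =
        ∑ i, w i * ((P *ᵥ x) i * (P *ᵥ x) i) + ∑ i, w i * ((P *ᵥ y) i * (P *ᵥ y) i) +
          2 * ∑ i, w i * ((P *ᵥ x) i * (P *ᵥ y) i) := by
      rw [Finset.mul_sum, ← Finset.sum_add_distrib, ← Finset.sum_add_distrib]
      apply Finset.sum_congr rfl
      intro i _
      rw [Matrix.mulVec_add]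
      simp only [Pi.add_apply]
      ring
    have h4 : ∑ i, (x + y) i * (x + y) i = ∑ i, x i * x i + ∑ i, y i * y i + 2 * ∑ i, x i * y i := by
      rw [Finset.mul_sum, ← Finset.sum_add_distrib, ← Finset.sum_add_distrib]
      apply Finset.sum_congr rfl
      intro i _
      simp only [Pi.add_apply]
      ring
    rw [h3, h4, hiso x, hiso y] at h1
    have h5 : 2 * (∑ i, w i * ((P *ᵥ x) i * (P *ᵥ y) i) - ∑ i, x i * y i) = 0 := by
      linear_combination h1
    rcases mul_eq_zero.mp h5 with h | h
    · exact absurd h h2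
    · exact sub_eq_zero.mp h
  have hmat : Pᵀ * Matrix.diagonal w * P = 1 := by
    apply Cfsg.Agent.H17.matrix_ext_form
    intro u v
    rw [← Matrix.mulVec_mulVec, ← Matrix.mulVec_mulVec, Matrix.dotProduct_mulVec u Pᵀ,
      Matrix.vecMul_transpose, Matrix.one_mulVec]
    simp only [dotProduct, Matrix.mulVec_diagonal]
    rw [← hpol u v]
    apply Finset.sum_congr rfl
    intro i _
    ring
  have hdet := congrArg Matrix.det hmat
  rw [Matrix.det_mul, Matrix.det_mul, Matrix.det_transpose, Matrix.det_diagonal, Matrix.det_one] at hdet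
  have hprod : ∏ i, w i = α := by
    simp only [hw]
    rw [Finset.prod_ite_eq' Finset.univ (Fin.last n) (fun _ => α)]
    simp
  rw [hprod] at hdet
  have hdet0 : P.det ≠ 0 := by
    intro h0
    rw [h0] at hdet
    simp at hdet
  apply hα
  refine ⟨(P.det)⁻¹, ?_⟩
  field_simp
  linear_combination hdet

end Cfsg.Agent.S0757
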