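import Cfsg.Statements.S0759
import Cfsg.Agent.H17.TSOrtho

set_option autoImplicit false
open Cfsg

namespace Cfsg.Agent.S0759

/-- Type of the orthonormal form: over a finite field of odd order q and for m ≥ 1, the quadratic form Σ_(i<2m) x_i² on F^(2m) admits an m-dimensional subspace on which it vanishes identically if and only if it is not the case that q ≡ 3 (mod 4) and m is odd. -/
theorem result {F : Type*} [Field F] [Fintype F] (h2 : (2 : F) ≠ 0) (m : ℕ) (hm : 1 ≤ m) : (∃ W : Submodule F (Fin (2 * m) → F), Module.finrank F W = m ∧ ∀ w ∈ W, ∑ i, w i ^ 2 = 0) ↔ ¬ (Fintype.card F % 4 = 3 ∧ Odd m) := by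
  classical
  have hiff : (∃ W : Submodule F (Fin (2 * m) → F), Module.finrank F W = m ∧
      ∀ w ∈ W, ∑ i, w i ^ 2 = 0) ↔ Cfsg.Agent.H17.TSsq F (Fin (2 * m)) m := Iff.rfl
  rw [hiff]
  constructor
  · rintro h ⟨h3, hodd⟩
    have e : Fin (2 * m) ≃ Fin m ⊕ Fin m := (finCongr (two_mul m)).trans finSumFinEquiv.symm
    have h1 := Cfsg.Agent.H17.tsSq_det h2 m (Cfsg.Agent.H17.tsSq_equiv e h)
    rw [hodd.neg_one_pow] at h1
    exact (FiniteField.isSquare_neg_one_iff.mp h1) h3
  · intro h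
    by_cases h3 : Fintype.card F % 4 = 3
    · have hev : Even m := by
        rw [← Nat.not_odd_iff_even]
        exact fun ho => h ⟨h3, ho⟩
      obtain ⟨l, hl⟩ := hev
      obtain ⟨a, b, hab⟩ := Cfsg.Agent.H17.exists_sq_sum_eq h2 (one_ne_zero) (one_ne_zero) (-1 : F)
      have h4 : Cfsg.Agent.H17.TSsq F (Fin 4) 2 :=
        Cfsg.Agent.H17.tsSq_four a b (by linear_combination hab)
      have h5 : Cfsg.Agent.H17.TSsq F (Fin l × Fin 4) (Fintype.card (Fin l) * 2) :=
        Cfsg.Agent.H17.tsSq_blocks h4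
      have e : Fin l × Fin 4 ≃ Fin (2 * m) := finProdFinEquiv.trans (finCongr (by omega))
      have h6 := Cfsg.Agent.H17.tsSq_equiv e h5
      rw [Fintype.card_fin] at h6
      have : l * 2 = m := by omega
      rw [this] at h6
      exact h6
    · obtain ⟨i, hi⟩ := FiniteField.isSquare_neg_one_iff.mpr h3
      have h4 : Cfsg.Agent.H17.TSsq F (Fin 2) 1 :=
        Cfsg.Agent.H17.tsSq_two i (by rw [hi]; ring)
      have h5 : Cfsg.Agent.H17.TSsq F (Fin m × Fin 2) (Fintype.card (Fin m) * 1) :=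
        Cfsg.Agent.H17.tsSq_blocks h4
      have e : Fin m × Fin 2 ≃ Fin (2 * m) := finProdFinEquiv.trans (finCongr (by omega))
      have h6 := Cfsg.Agent.H17.tsSq_equiv e h5
      rw [Fintype.card_fin, mul_one] at h6
      exact h6

end Cfsg.Agent.S0759
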