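import Cfsg.Statements.S0760
import Cfsg.Agent.H17.Witt

set_option autoImplicit false
open Cfsg

namespace Cfsg.Agent.S0760

theorem finrank_eq_of_le {F V : Type*} [Field F] [AddCommGroup V] [Module F V]
    [FiniteDimensional F V] (Q : QuadraticForm F V)
    (hQ : (QuadraticMap.polarBilin Q).Nondegenerate) (W₁ W₂ : Submodule F V)
    (h₁ : ∀ w ∈ W₁, Q w = 0) (h₂ : ∀ w ∈ W₂, Q w = 0)
    (hmax₁ : ∀ W : Submodule F V, W₁ ≤ W → (∀ w ∈ W, Q w = 0) → W = W₁)
    (hle : Module.finrank F W₁ ≤ Module.finrank F W₂) :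
    Module.finrank F W₁ = Module.finrank F W₂ := by
  obtain ⟨j, hj⟩ := finrank_le_iff_exists_linearMap.mp hle
  obtain ⟨f, hf⟩ := LinearMap.exists_extend (W₂.subtype ∘ₗ j)
  have hfx : ∀ x : W₁, f (x : V) = (j x : V) := by
    intro x
    have := congrArg (fun l : W₁ →ₗ[F] V => l x) hf
    simpa using this
  obtain ⟨g, hg, hgX⟩ := Cfsg.Agent.H17.witt_quad Q hQ W₁ f
    (fun x hx => by
      have := hfx ⟨x, hx⟩
      simp only at this
      rw [this, h₁ x hx]
      exact h₂ _ (j ⟨x, hx⟩).2)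
    (fun x hx h0 => by
      have h1 := hfx ⟨x, hx⟩
      simp only at h1
      rw [h0] at h1
      have h2 : j ⟨x, hx⟩ = 0 := Subtype.ext h1.symm
      have h3 : (⟨x, hx⟩ : W₁) = 0 := by
        apply hj
        rw [h2, map_zero]
      exact congrArg Subtype.val h3)
  have hW : W₂.comap (g : V →ₗ[F] V) = W₁ := by
    apply hmax₁
    · intro x hx
      rw [Submodule.mem_comap]
      show g x ∈ W₂
      rw [hgX x hx, hfx ⟨x, hx⟩]
      exact (j ⟨x, hx⟩).2
    · intro w hw
      rw [← hg w]
      exact h₂ _ hw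
  rw [← hW]
  have : W₂.comap (g : V →ₗ[F] V) = W₂.map (g.symm : V →ₗ[F] V) :=
    Submodule.comap_equiv_eq_map_symm g W₂
  rw [this]
  exact LinearEquiv.finrank_map_eq g.symm W₂

/-- Witt index is well defined: if Q is a quadratic form on a finite-dimensional space V over a finite field with non-degenerate polar form, and W₁, W₂ are subspaces on which Q vanishes that are maximal with this property, then W₁ and W₂ have the same dimension, and twice this dimension is at most dim V. -/
theorem result {F V : Type*} [Field F] [Finite F] [AddCommGroup V] [Module F V] [FiniteDimensional F V] (Q : QuadraticForm F V) (hQ : (QuadraticMap.polarBilin Q).Nondegenerate) (W₁ W₂ : Submodule F V) (h₁ : ∀ w ∈ W₁, Q w = 0) (h₂ : ∀ w ∈ W₂, Q w = 0) (hmax₁ : ∀ W : Submodule F V, W₁ ≤ W → (∀ w ∈ W, Q w = 0) → W = W₁) (hmax₂ : ∀ W : Submodule F V, W₂ ≤ W → (∀ w ∈ W, Q w = 0) → W = W₂) : Module.finrank F W₁ = Module.finrank F W₂ ∧ 2 * Module.finrank F W₁ ≤ Module.finrank F V := by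
  constructor
  · rcases le_total (Module.finrank F W₁) (Module.finrank F W₂) with hle | hle
    · exact finrank_eq_of_le Q hQ W₁ W₂ h₁ h₂ hmax₁ hle
    · exact (finrank_eq_of_le Q hQ W₂ W₁ h₂ h₁ hmax₂ hle).symm
  · have hsub : W₁ ≤ LinearMap.BilinForm.orthogonal (QuadraticMap.polarBilin Q) W₁ := by
      intro w hw
      rw [LinearMap.BilinForm.mem_orthogonal_iff]
      intro n hn
      show QuadraticMap.polar ⇑Q n w = 0
      unfold QuadraticMap.polar
      rw [h₁ _ (W₁.add_mem hn hw), h₁ n hn, h₁ w hw]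
      simp
    have h3 := Submodule.finrank_mono hsub
    rw [LinearMap.BilinForm.finrank_orthogonal hQ W₁] at h3
    have h4 := Submodule.finrank_le W₁
    omega

end Cfsg.Agent.S0760
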