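import Cfsg.Statements.S0762

set_option autoImplicit false
open Cfsg

namespace Cfsg.Agent.S0762

/-- In characteristic two over a finite field, a quadratic form on a space of dimension at least 3 vanishes on some non-zero vector. -/
theorem result {F V : Type*} [Field F] [Finite F] [CharP F 2] [AddCommGroup V] [Module F V] [FiniteDimensional F V] (Q : QuadraticForm F V) (h3 : 3 ≤ Module.finrank F V) : ∃ v : V, v ≠ 0 ∧ Q v = 0 := by
  have hpos : 0 < Module.finrank F V := by omega
  obtain ⟨u, hu⟩ : ∃ u : V, u ≠ 0 := by
    have : Nontrivial V := Module.nontrivial_of_finrank_pos (R := F) hpos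
    exact exists_ne 0
  by_cases hQu : Q u = 0
  · exact ⟨u, hu, hQu⟩
  set f : V →ₗ[F] F := QuadraticMap.polarBilin Q u with hf
  have hrk := LinearMap.finrank_range_add_finrank_ker f
  have hrange : Module.finrank F (LinearMap.range f) ≤ 1 := by
    have := Submodule.finrank_le (LinearMap.range f)
    rwa [Module.finrank_self] at this
  have hker : 2 ≤ Module.finrank F (LinearMap.ker f) := by omega
  have hspan : Module.finrank F (F ∙ u) = 1 := finrank_span_singleton hu
  obtain ⟨w, hwK, hwu⟩ : ∃ w ∈ LinearMap.ker f, w ∉ (F ∙ u) := by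
    by_contra hcon
    push Not at hcon
    have hle : LinearMap.ker f ≤ (F ∙ u) := hcon
    have := Submodule.finrank_mono hle
    omega
  have hB : QuadraticMap.polar ⇑Q u w = 0 := by
    have := LinearMap.mem_ker.mp hwK
    simpa [hf] using this
  have hsq : IsSquare (Q w / Q u) :=
    FiniteField.isSquare_of_char_two (ringChar.eq F 2) _
  obtain ⟨c, hc⟩ := hsq
  refine ⟨w + c • u, ?_, ?_⟩
  · intro h0
    apply hwu
    have : w = (-c) • u := by
      rw [neg_smul]
      exact eq_neg_of_add_eq_zero_left h0
    rw [this]
    exact Submodule.smul_mem _ _ (Submodule.mem_span_singleton_self u)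
  · have h1 : Q (w + c • u) = Q w + Q (c • u) + QuadraticMap.polar ⇑Q w (c • u) :=
      QuadraticMap.map_add Q w (c • u)
    rw [h1, QuadraticMap.map_smul, QuadraticMap.polar_smul_right, QuadraticMap.polar_comm ⇑Q w u,
      hB]
    simp only [smul_eq_mul, mul_zero, add_zero]
    have h2 : c * c * Q u = Q w := by
      rw [← hc]
      field_simp
    rw [h2]
    have h3 : (2 : F) = 0 := CharTwo.two_eq_zero
    linear_combination Q w * h3

end Cfsg.Agent.S0762
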