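import Cfsg.Statements.S0763
-- import your own Cfsg.Agent.* helpers here

set_option autoImplicit false
open Cfsg

namespace Cfsg.Agent.S0763

/-- Binary quadratic forms in characteristic two over a finite field: if Q is a quadratic form on a 2-dimensional space whose polar form is non-degenerate, then either there are vectors v, w with Q v = Q w = 0 and polar value 1 (Q is xy in these coordinates), or there are v, w and μ with Q v = 1, Q w = μ, polar value 1 and x² + x + μ without roots in F (Q is x² + xy + μy²). -/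
theorem result {F V : Type*} [Field F] [Finite F] [CharP F 2] [AddCommGroup V] [Module F V] (Q : QuadraticForm F V) (h2 : Module.finrank F V = 2) (hQ : (QuadraticMap.polarBilin Q).Nondegenerate) : (∃ v w : V, LinearIndependent F ![v, w] ∧ Q v = 0 ∧ Q w = 0 ∧ QuadraticMap.polar Q v w = 1) ∨ (∃ (v w : V) (μ : F), LinearIndependent F ![v, w] ∧ (∀ x : F, x ^ 2 + x + μ ≠ 0) ∧ Q v = 1 ∧ Q w = μ ∧ QuadraticMap.polar Q v w = 1) := by
  classical
  have h20 : (2 : F) = 0 := by exact_mod_cast CharP.cast_eq_zero F 2
  have hPself : ∀ x, QuadraticMap.polar Q x x = 0 := by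
    intro x
    rw [QuadraticMap.polar_self, two_smul]
    linear_combination Q x * h20
  have hQadd : ∀ x y, Q (x + y) = Q x + Q y + QuadraticMap.polar Q x y := by
    intro x y
    rw [QuadraticMap.polar]
    ring
  have hQsmul : ∀ (a : F) x, Q (a • x) = a * a * Q x := by
    intro a x
    rw [QuadraticMap.map_smul, smul_eq_mul]
  have hPsr : ∀ (a : F) x y, QuadraticMap.polar Q x (a • y) = a * QuadraticMap.polar Q x y := by
    intro a x y
    rw [QuadraticMap.polar_smul_right, smul_eq_mul]
  have hPar : ∀ x y z, QuadraticMap.polar Q x (y + z) =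
      QuadraticMap.polar Q x y + QuadraticMap.polar Q x z := fun x y z =>
    QuadraticMap.polar_add_right Q x y z
  have hPcomm : ∀ x y, QuadraticMap.polar Q x y = QuadraticMap.polar Q y x := fun x y =>
    QuadraticMap.polar_comm Q x y
  have hP0 : ∀ x, QuadraticMap.polar Q x 0 = 0 := fun x => QuadraticMap.polar_zero_right Q x
  -- linear independence from polar value one
  have hLI : ∀ v w : V, QuadraticMap.polar Q v w = 1 → LinearIndependent F ![v, w] := by
    intro v w h
    rw [LinearIndependent.pair_iff]
    intro s t hst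
    have h1 := congrArg (fun z => QuadraticMap.polar Q v z) hst
    simp only [hPar, hPsr, hPself, h, hP0] at h1
    have h3 := congrArg (fun z => QuadraticMap.polar Q w z) hst
    simp only [hPar, hPsr, hPself, hPcomm w v, h, hP0] at h3
    constructor
    · linear_combination h3
    · linear_combination h1
  have hpartner : ∀ v : V, v ≠ 0 → ∃ w : V, QuadraticMap.polar Q v w = 1 := by
    intro v hv
    have : ∃ w0 : V, QuadraticMap.polar Q v w0 ≠ 0 := by
      by_contra hcon
      push Not at hcon
      exact hv (hQ.1 v hcon)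
    obtain ⟨w0, hw0⟩ := this
    refine ⟨(QuadraticMap.polar Q v w0)⁻¹ • w0, ?_⟩
    rw [hPsr, inv_mul_cancel₀ hw0]
  by_cases hiso : ∃ v : V, v ≠ 0 ∧ Q v = 0
  · left
    obtain ⟨v, hv, hQv⟩ := hiso
    obtain ⟨w1, hw1⟩ := hpartner v hv
    refine ⟨v, w1 + (-Q w1) • v, hLI _ _ ?_, hQv, ?_, ?_⟩
    · rw [hPar, hPsr, hPself, hw1]
      ring
    · rw [hQadd, hQsmul, hQv, hPsr, hPcomm, hw1]
      ring
    · rw [hPar, hPsr, hPself, hw1]
      ring
  · right
    push Not at hiso
    have : Nontrivial V := Module.nontrivial_of_finrank_pos (R := F) (by omega)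
    obtain ⟨v0, hv0⟩ := exists_ne (0 : V)
    have ha := hiso v0 hv0
    obtain ⟨s, hs⟩ := FiniteField.isSquare_of_char_two (ringChar.eq F 2) (Q v0)
    have hs0 : s ≠ 0 := by
      rintro rfl
      apply ha
      simpa using hs
    obtain ⟨v, hv, hQv⟩ : ∃ v : V, v ≠ 0 ∧ Q v = 1 := by
      refine ⟨s⁻¹ • v0, smul_ne_zero (inv_ne_zero hs0) hv0, ?_⟩
      rw [hQsmul, hs]
      field_simp
    obtain ⟨w, hw⟩ := hpartner _ hv
    refine ⟨v, w, Q w, hLI _ _ hw, ?_, hQv, rfl, hw⟩
    intro x hx
    have h1 : Q (x • v + w) = 0 := by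
      rw [hQadd, hQsmul, hQv, hPcomm, hPsr, hPcomm, hw]
      linear_combination hx
    have h3 : x • v + w = 0 := by
      by_contra hne
      exact hiso _ hne h1
    have h4 := congrArg (fun z => QuadraticMap.polar Q v z) h3
    simp only [hPar, hPsr, hPself, hw, hP0] at h4
    have : (1 : F) = 0 := by linear_combination h4
    exact one_ne_zero this

end Cfsg.Agent.S0763
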