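import Cfsg.Statements.S0765
import Cfsg.Agent.H17.SympGen

set_option autoImplicit false
open Cfsg

namespace Cfsg.Agent.S0765

/-- Generation of the symplectic group by symplectic transvections: the subgroup of Sp_2m(F) generated by all matrices of maps x ↦ x + c f(x, w) w is the whole group. -/
theorem result {F : Type*} [Field F] (m : ℕ) : Subgroup.closure {A : Matrix.symplecticGroup (Fin m) F | ∃ (w : Fin m ⊕ Fin m → F) (c : F), (A : Matrix (Fin m ⊕ Fin m) (Fin m ⊕ Fin m) F) = Cfsg.sympTransvection m w c} = ⊤ := by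
  rw [eq_top_iff, ← Cfsg.Agent.H17.closure_transvSet_top m]
  apply Subgroup.closure_mono
  rintro B ⟨w, _, c, hB⟩
  exact ⟨w, c, hB⟩

end Cfsg.Agent.S0765
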