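import Cfsg.Statements.S0770

set_option autoImplicit false
open Cfsg

namespace Cfsg.Agent.S0770

open Matrix

/-- The diagonal torus. -/
abbrev torus (F : Type*) [Field F] (n : ℕ) : Subgroup (Matrix.GeneralLinearGroup (Fin n) F) :=
  (Units.map (Matrix.diagonalRingHom (Fin n) F).toMonoidHom).range

theorem mem_torus_iff {F : Type*} [Field F] {n : ℕ} (h : Matrix.GeneralLinearGroup (Fin n) F) :
    h ∈ torus F n ↔ ∃ d : Fin n → F, (∀ i, d i ≠ 0) ∧ (h : Matrix (Fin n) (Fin n) F) = Matrix.diagonal d := by
  constructor
  · rintro ⟨u, rfl⟩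
    refine ⟨(u : Fin n → F), ?_, rfl⟩
    intro i hi
    have h1 := congrFun u.val_inv i
    simp only [Pi.mul_apply, Pi.one_apply] at h1
    rw [hi, zero_mul] at h1
    exact zero_ne_one h1
  · rintro ⟨d, hd, hh⟩
    let u : (Fin n → F)ˣ :=
      ⟨d, fun i => (d i)⁻¹, by ext i; simp [hd i], by ext i; simp [hd i]⟩
    refine ⟨u, ?_⟩
    apply Units.ext
    rw [hh]
    rfl

theorem row_mul_inv {F : Type*} [Field F] {n : ℕ} (g : Matrix.GeneralLinearGroup (Fin n) F) :
    (g : Matrix (Fin n) (Fin n) F) * ((g⁻¹ : Matrix.GeneralLinearGroup (Fin n) F) : Matrix (Fin n) (Fin n) F) = 1 := by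
  rw [← Units.val_mul, mul_inv_cancel]; rfl

/-- The normaliser of the diagonal torus in GL_n over a field with at least three elements is the group of monomial matrices: an invertible matrix g normalises the subgroup of invertible diagonal matrices if and only if each row of g has exactly one non-zero entry. -/
theorem result {F : Type*} [Field F] (hF : ∃ a : F, a ≠ 0 ∧ a ≠ 1) (n : ℕ) (g : Matrix.GeneralLinearGroup (Fin n) F) : g ∈ Subgroup.normalizer ((Units.map (Matrix.diagonalRingHom (Fin n) F).toMonoidHom).range : Subgroup (Matrix.GeneralLinearGroup (Fin n) F)) ↔ ∀ i : Fin n, ∃! j : Fin n, (g : Matrix (Fin n) (Fin n) F) i j ≠ 0 := by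
  classical
  have hgg := row_mul_inv g
  constructor
  · intro hg i
    -- existence of a nonzero entry
    have hex : ∃ j, (g : Matrix (Fin n) (Fin n) F) i j ≠ 0 := by
      by_contra hcon
      push Not at hcon
      have h1 := congrFun (congrFun hgg i) i
      rw [Matrix.mul_apply] at h1
      simp [hcon] at h1
    obtain ⟨j, hj⟩ := hex
    refine ⟨j, hj, ?_⟩
    intro k hk
    by_contra hkj
    obtain ⟨a, ha0, ha1⟩ := hF
    -- the diagonal element with a at position j
    let d : Fin n → F := fun l => if l = j then a else 1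
    have hd : ∀ l, d l ≠ 0 := by
      intro l
      simp only [d]
      split_ifs
      · exact ha0
      · exact one_ne_zero
    obtain ⟨u, hu⟩ : ∃ u : Matrix.GeneralLinearGroup (Fin n) F, (u : Matrix (Fin n) (Fin n) F) = Matrix.diagonal d := by
      have hmem : ∃ h : Matrix.GeneralLinearGroup (Fin n) F, h ∈ torus F n ∧ (h : Matrix (Fin n) (Fin n) F) = Matrix.diagonal d := by
        let u : (Fin n → F)ˣ :=
          ⟨d, fun i => (d i)⁻¹, by ext i; simp [hd i], by ext i; simp [hd i]⟩
        exact ⟨Units.map (Matrix.diagonalRingHom (Fin n) F).toMonoidHom u, ⟨u, rfl⟩, rfl⟩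
      obtain ⟨h, _, hh⟩ := hmem
      exact ⟨h, hh⟩
    have hut : u ∈ torus F n := (mem_torus_iff u).mpr ⟨d, hd, hu⟩
    have h2 : g * u * g⁻¹ ∈ torus F n := (Subgroup.mem_normalizer_iff.mp hg u).mp hut
    obtain ⟨d', hd', h3⟩ := (mem_torus_iff _).mp h2
    have h4 : (g : Matrix (Fin n) (Fin n) F) * Matrix.diagonal d = Matrix.diagonal d' * (g : Matrix (Fin n) (Fin n) F) := by
      have h5 : g * u = (g * u * g⁻¹) * g := by group
      have h6 := congrArg (fun x : Matrix.GeneralLinearGroup (Fin n) F => (x : Matrix (Fin n) (Fin n) F)) h5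
      simp only [Units.val_mul] at h6
      have h7 : ((g * u * g⁻¹ : Matrix.GeneralLinearGroup (Fin n) F) : Matrix (Fin n) (Fin n) F)
          = (g : Matrix (Fin n) (Fin n) F) * (u : Matrix (Fin n) (Fin n) F) * ((g⁻¹ : Matrix.GeneralLinearGroup (Fin n) F) : Matrix (Fin n) (Fin n) F) := by
        simp only [Units.val_mul]
      rw [← h7, h3, hu] at h6
      exact h6
    have e1 := congrFun (congrFun h4 i) j
    have e2 := congrFun (congrFun h4 i) k
    rw [Matrix.mul_diagonal, Matrix.diagonal_mul] at e1 e2
    have hdj : d j = a := by simp [d]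
    have hdk : d k = 1 := by simp [d, hkj]
    rw [hdj] at e1
    rw [hdk, mul_one] at e2
    have e3 : d' i = a := by
      have := mul_right_cancel₀ hj (by rw [← e1, mul_comm] : a * (g : Matrix (Fin n) (Fin n) F) i j = d' i * (g : Matrix (Fin n) (Fin n) F) i j)
      exact this.symm
    have e4 : d' i = 1 := by
      have := mul_right_cancel₀ hk (by rw [← e2, one_mul] : (1 : F) * (g : Matrix (Fin n) (Fin n) F) i k = d' i * (g : Matrix (Fin n) (Fin n) F) i k)
      exact this.symm
    exact ha1 (e3.symm.trans e4)
  · intro hmono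
    choose σ hσ1 hσ2 using hmono
    have hσ0 : ∀ i j, j ≠ σ i → (g : Matrix (Fin n) (Fin n) F) i j = 0 := by
      intro i j hj
      by_contra hne
      exact hj (hσ2 i j hne)
    -- σ is injective
    have hinj : Function.Injective σ := by
      intro i i' hii
      by_contra hne
      have h1 := congrFun (congrFun hgg i) i
      have h2 := congrFun (congrFun hgg i') i
      rw [Matrix.mul_apply] at h1 h2
      rw [Finset.sum_eq_single (σ i)] at h1
      · rw [Finset.sum_eq_single (σ i)] at h2
        · rw [Matrix.one_apply_eq] at h1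
          rw [Matrix.one_apply_ne (fun h => hne h.symm)] at h2
          have h3 : ((g⁻¹ : Matrix.GeneralLinearGroup (Fin n) F) : Matrix (Fin n) (Fin n) F) (σ i) i ≠ 0 := by
            intro h0
            rw [h0, mul_zero] at h1
            exact zero_ne_one h1
          have h4 := hσ1 i'
          rw [← hii] at h4
          rcases mul_eq_zero.mp h2 with h5 | h5
          · exact h4 h5
          · exact h3 h5
        · intro k _ hk
          rw [hσ0 i' k (by rw [← hii]; exact hk), zero_mul]
        · intro h; exact absurd (Finset.mem_univ _) h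
      · intro k _ hk
        rw [hσ0 i k hk, zero_mul]
      · intro h; exact absurd (Finset.mem_univ _) h
    have hbij : Function.Bijective σ := Finite.injective_iff_bijective.mp hinj
    let τ : Equiv.Perm (Fin n) := Equiv.ofBijective σ hbij
    have hτ : ∀ i, τ i = σ i := fun i => rfl
    -- key commutation
    have hkey : ∀ d : Fin n → F, (g : Matrix (Fin n) (Fin n) F) * Matrix.diagonal d
        = Matrix.diagonal (fun i => d (σ i)) * (g : Matrix (Fin n) (Fin n) F) := by
      intro d
      ext i j
      rw [Matrix.mul_diagonal, Matrix.diagonal_mul]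
      by_cases hj : j = σ i
      · rw [hj, mul_comm]
      · rw [hσ0 i j hj, zero_mul, mul_zero]
    rw [Subgroup.mem_normalizer_iff]
    intro h
    constructor
    · intro hh
      obtain ⟨d, hd, hh⟩ := (mem_torus_iff h).mp hh
      rw [mem_torus_iff]
      refine ⟨fun i => d (σ i), fun i => hd _, ?_⟩
      have h1 : ((g * h * g⁻¹ : Matrix.GeneralLinearGroup (Fin n) F) : Matrix (Fin n) (Fin n) F)
          = (g : Matrix (Fin n) (Fin n) F) * Matrix.diagonal d * ((g⁻¹ : Matrix.GeneralLinearGroup (Fin n) F) : Matrix (Fin n) (Fin n) F) := by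
        simp only [Units.val_mul]
        rw [hh]
      rw [h1, hkey d, Matrix.mul_assoc, hgg, Matrix.mul_one]
    · intro hh
      obtain ⟨d', hd', hh⟩ := (mem_torus_iff _).mp hh
      rw [mem_torus_iff]
      refine ⟨fun i => d' (τ.symm i), fun i => hd' _, ?_⟩
      have h1 := hkey (fun i => d' (τ.symm i))
      have h2 : (fun i => (fun i => d' (τ.symm i)) (σ i)) = d' := by
        funext i
        show d' (τ.symm (σ i)) = d' i
        rw [← hτ i, Equiv.symm_apply_apply]
      rw [h2, ← hh] at h1
      -- h1 : g * diag = (g h g⁻¹) * g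
      have h3 : ((g * h * g⁻¹ : Matrix.GeneralLinearGroup (Fin n) F) : Matrix (Fin n) (Fin n) F) * (g : Matrix (Fin n) (Fin n) F)
          = (g : Matrix (Fin n) (Fin n) F) * (h : Matrix (Fin n) (Fin n) F) := by
        rw [← Units.val_mul, ← Units.val_mul]
        congr 1
        group
      rw [h3] at h1
      -- cancel g on the left
      have h4 : ((g⁻¹ : Matrix.GeneralLinearGroup (Fin n) F) : Matrix (Fin n) (Fin n) F) * (g : Matrix (Fin n) (Fin n) F) = 1 := by
        rw [← Units.val_mul, inv_mul_cancel]; rfl
      have h5 := congrArg (fun M => ((g⁻¹ : Matrix.GeneralLinearGroup (Fin n) F) : Matrix (Fin n) (Fin n) F) * M) h1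
      simp only [← Matrix.mul_assoc, h4, Matrix.one_mul] at h5
      exact h5.symm

end Cfsg.Agent.S0770
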