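import Cfsg.Statements.S0772
import Cfsg.Agent.H42.Rk1

set_option autoImplicit false
open Cfsg

namespace Cfsg.Agent.S0772

open Matrix Cfsg.Agent.H42

theorem aux {F : Type*} [Field F] (n k : ℕ)
    (H : Subgroup (GL (Fin n) F))
    (hPH : Cfsg.stabilizing (Cfsg.glToMat (Fin n) F)
        {v : Fin n → F | ∀ i : Fin n, k ≤ (i : ℕ) → v i = 0} ≤ H)
    (h : GL (Fin n) F) (hh : h ∈ H) (a b : Fin n) (ha : k ≤ (a : ℕ)) (hb : (b : ℕ) < k)
    (hab : (h : Matrix (Fin n) (Fin n) F) a b ≠ 0) :
    H = ⊤ := by
  -- Step A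
  have stepA : ∀ (j : Fin n), (j : ℕ) < k → ∀ y : Fin n → F, y a ≠ 0 → y j = 0 →
      ∀ t : GL (Fin n) F, (t : Matrix (Fin n) (Fin n) F) = rk1 y (Pi.single j 1) → t ∈ H := by
    intro j hj y hya hyj t ht
    set x : Fin n → F := (h : Matrix (Fin n) (Fin n) F) *ᵥ Pi.single b 1 with hx
    have hxa : x a = (h : Matrix (Fin n) (Fin n) F) a b := by
      rw [hx, Matrix.mulVec_single_one]
      rfl
    have hxa0 : x a ≠ 0 := by rw [hxa]; exact hab
    -- p
    have hpdet : (rk1 ((x a)⁻¹ • (y - x)) (Pi.single a 1)).det ≠ 0 := by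
      rw [det_rk1]
      simp only [single_dotProduct, one_mul, Pi.smul_apply, Pi.sub_apply, smul_eq_mul]
      have : 1 + (x a)⁻¹ * (y a - x a) = (x a)⁻¹ * y a := by
        field_simp
        ring
      rw [this]
      exact mul_ne_zero (inv_ne_zero hxa0) hya
    obtain ⟨p, hp⟩ := exists_GL_of_det_ne_zero _ hpdet
    have hpP : p ∈ Cfsg.stabilizing (Cfsg.glToMat (Fin n) F)
        {v : Fin n → F | ∀ i : Fin n, k ≤ (i : ℕ) → v i = 0} := by
      apply rk1_mem_stab n k _ _ p hp
      intro i l hi hl
      have : l ≠ a := by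
        intro h'
        rw [h'] at hl
        omega
      simp [this]
    obtain ⟨g, hg⟩ : ∃ g : GL (Fin n) F, g = p * h := ⟨_, rfl⟩
    have hgH : g ∈ H := by
      rw [hg]
      exact H.mul_mem (hPH hpP) hh
    have hgb : (g : Matrix (Fin n) (Fin n) F) *ᵥ Pi.single b 1 = y := by
      rw [hg, Units.val_mul, ← Matrix.mulVec_mulVec, ← hx, hp, rk1_mulVec]
      simp only [single_dotProduct, one_mul]
      rw [smul_smul, mul_inv_cancel₀ hxa0, one_smul]
      abel
    have hgjb : (g : Matrix (Fin n) (Fin n) F) j b = 0 := by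
      have := congrFun hgb j
      rw [Matrix.mulVec_single_one] at this
      rw [← hyj, ← this]
      rfl
    have hTdet : (rk1 (Pi.single b 1) ((g : Matrix (Fin n) (Fin n) F).row j)).det ≠ 0 := by
      rw [det_rk1]
      simp only [dotProduct_single, mul_one]
      rw [show (g : Matrix (Fin n) (Fin n) F).row j b = (g : Matrix (Fin n) (Fin n) F) j b from rfl, hgjb]
      simp
    obtain ⟨T, hT⟩ := exists_GL_of_det_ne_zero _ hTdet
    have hTP : T ∈ Cfsg.stabilizing (Cfsg.glToMat (Fin n) F)
        {v : Fin n → F | ∀ i : Fin n, k ≤ (i : ℕ) → v i = 0} := by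
      apply rk1_mem_stab n k _ _ T hT
      intro i l hi hl
      have : i ≠ b := by
        intro h'
        rw [h'] at hi
        omega
      simp [this]
    have hconj : t = g * T * g⁻¹ := by
      rw [eq_mul_inv_iff_mul_eq]
      apply Units.ext
      rw [Units.val_mul, Units.val_mul, hT, rk1_conj, hgb, ht]
    rw [hconj]
    exact H.mul_mem (H.mul_mem hgH (hPH hTP)) (H.inv_mem hgH)
  -- Step B
  have stepB : ∀ (i j : Fin n) (c : F), i ≠ j →
      ∀ t : GL (Fin n) F, (t : Matrix (Fin n) (Fin n) F) = Matrix.transvection i j c → t ∈ H := by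
    intro i j c hij t ht
    rw [transvection_eq_rk1] at ht
    by_cases hcase : k ≤ (i : ℕ) ∧ (j : ℕ) < k
    · obtain ⟨hi, hj⟩ := hcase
      have hja : j ≠ a := by
        intro h'
        rw [h'] at hj
        omega
      by_cases hia : i = a
      · by_cases hc : c = 0
        · have : t = 1 := by
            apply Units.ext
            rw [ht, hc]
            ext r s
            simp [rk1_apply, Matrix.one_apply]
          rw [this]
          exact H.one_mem
        · apply stepA j hj (Pi.single i c) _ _ t ht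
          · rw [hia]
            simpa using hc
          · simp [hij.symm]
      · -- split
        have hd1 : (rk1 (Pi.single i c - Pi.single a 1 : Fin n → F) (Pi.single j 1)).det ≠ 0 := by
          rw [det_rk1]
          simp [hij.symm, hja]
        have hd2 : (rk1 (Pi.single a 1 : Fin n → F) (Pi.single j 1)).det ≠ 0 := by
          rw [det_rk1]
          simp [hja]
        obtain ⟨t1, ht1⟩ := exists_GL_of_det_ne_zero _ hd1
        obtain ⟨t2, ht2⟩ := exists_GL_of_det_ne_zero _ hd2
        have h1 : t1 ∈ H := by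
          apply stepA j hj _ _ _ t1 ht1
          · simp [hia]
          · simp [hij.symm, hja]
        have h2 : t2 ∈ H := by
          apply stepA j hj _ _ _ t2 ht2
          · simp
          · simp [hja]
        have : t = t1 * t2 := by
          apply Units.ext
          rw [Units.val_mul, ht1, ht2, rk1_mul_rk1 _ _ _ (by simp [hja]), ht, sub_add_cancel]
        rw [this]
        exact H.mul_mem h1 h2
    · apply hPH
      apply rk1_mem_stab n k _ _ t ht
      intro r s hr hs
      by_cases h1 : r = i
      · by_cases h2 : s = j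
        · exfalso
          apply hcase
          rw [← h1, ← h2]
          exact ⟨hr, hs⟩
        · simp [h2]
      · simp [h1]
  -- Step D
  have key : ∀ M : Matrix (Fin n) (Fin n) F, M.det ≠ 0 →
      ∀ g : GL (Fin n) F, (g : Matrix (Fin n) (Fin n) F) = M → g ∈ H := by
    intro M hM
    refine Matrix.diagonal_transvection_induction_of_det_ne_zero
      (fun M => ∀ g : GL (Fin n) F, (g : Matrix (Fin n) (Fin n) F) = M → g ∈ H) M hM ?_ ?_ ?_
    · intro D _ g hg
      apply hPH
      rw [stab_mem_iff]
      intro i j hi hj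
      rw [hg]
      have : i ≠ j := by
        intro h'
        rw [h'] at hi
        omega
      simp [Matrix.diagonal_apply, this]
    · intro t g hg
      exact stepB t.i t.j t.c t.hij g hg
    · intro A B hA hB hPA hPB g hg
      obtain ⟨gA, hgA⟩ := exists_GL_of_det_ne_zero A hA
      obtain ⟨gB, hgB⟩ := exists_GL_of_det_ne_zero B hB
      have h1 := hPA gA hgA
      have h2 := hPB gB hgB
      have : g = gA * gB := by
        apply Units.ext
        rw [hg, Units.val_mul, hgA, hgB]
      rw [this]
      exact H.mul_mem h1 h2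
  rw [eq_top_iff]
  intro g _
  exact key _ ((Matrix.isUnit_iff_isUnit_det _).1 g.isUnit).ne_zero g rfl

/-- Maximal parabolics of GL_n(q) are maximal subgroups: for 0 < k < n the stabiliser in GL_n(q) of the coordinate k-subspace is a maximal subgroup (equivalently GL_n(q) is primitive on k-subspaces). -/
theorem result {F : Type*} [Field F] [Finite F] (n k : ℕ) (hk0 : 0 < k) (hkn : k < n) : IsCoatom (Cfsg.stabilizing (Cfsg.glToMat (Fin n) F) {v : Fin n → F | ∀ i : Fin n, k ≤ (i : ℕ) → v i = 0}) := by
  constructor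
  · intro htop
    have hne : (⟨k, hkn⟩ : Fin n) ≠ ⟨0, by omega⟩ := by
      intro h'
      have := congrArg Fin.val h'
      simp at this
      omega
    have hd : (Matrix.transvection (⟨k, hkn⟩ : Fin n) (⟨0, by omega⟩ : Fin n) (1 : F)).det ≠ 0 := by
      rw [Matrix.det_transvection_of_ne _ _ hne]
      exact one_ne_zero
    obtain ⟨t, ht'⟩ := exists_GL_of_det_ne_zero _ hd
    have ht : t ∈ Cfsg.stabilizing (Cfsg.glToMat (Fin n) F)
        {v : Fin n → F | ∀ i : Fin n, k ≤ (i : ℕ) → v i = 0} := by
      rw [htop]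
      exact Subgroup.mem_top _
    rw [stab_mem_iff] at ht
    have := ht ⟨k, hkn⟩ ⟨0, by omega⟩ (le_refl _) hk0
    rw [ht'] at this
    simp [Matrix.transvection, hne] at this
  · intro H hPH
    obtain ⟨h, hhH, hhP⟩ := SetLike.exists_of_lt hPH
    rw [stab_mem_iff] at hhP
    push Not at hhP
    obtain ⟨a, b, ha, hb, hab⟩ := hhP
    exact aux n k H hPH.le h hhH a b ha hb hab

end Cfsg.Agent.S0772
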