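import Cfsg.Statements.S0774
import Cfsg.Agent.H50.SpBorel

set_option autoImplicit false
open Cfsg

namespace Cfsg.Agent.S0774

/-- Borel subgroup of the symplectic group: the elements of Sp_2m(q) stabilising each of the totally isotropic coordinate subspaces ⟨e_0, ..., e_k⟩ (k < m) form a subgroup of order q^(m²) (q − 1)^m. -/
theorem result {F : Type*} [Field F] [Fintype F] {q : ℕ} (hF : Fintype.card F = q) (m : ℕ) : Nat.card ↥(⨅ k : Fin m, Cfsg.stabilizing (Cfsg.spToMat m F) {v : Fin m ⊕ Fin m → F | (∀ i : Fin m, (k : ℕ) < (i : ℕ) → v (Sum.inl i) = 0) ∧ ∀ i : Fin m, v (Sum.inr i) = 0}) = q ^ (m ^ 2) * (q - 1) ^ m := by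
  exact Cfsg.Agent.H50.SpParab.card_borel hF m

end Cfsg.Agent.S0774
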