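import Cfsg.Statements.S0779
import Cfsg.Agent.H17.Herm

set_option autoImplicit false
open Cfsg

namespace Cfsg.Agent.S0779

open Cfsg.Agent.H17 in
/-- Unitary transvections: let |F| = q², h the standard Hermitian form Σ x_i y_i^q and v ≠ 0 with h(v, v) = 0. The linear map x ↦ x + c h(x, v) v is an isometry of h if and only if c = 0 or c^(q−1) = −1. -/
theorem result {F : Type*} [Field F] [Fintype F] {q : ℕ} (hF : Fintype.card F = q ^ 2) (n : ℕ) (v : Fin n → F) (hv : v ≠ 0) (hv0 : Cfsg.hermForm n F q v v = 0) (c : F) : (∀ x y : Fin n → F, Cfsg.hermForm n F q ((Cfsg.unitaryTransvection n q v c).mulVec x) ((Cfsg.unitaryTransvection n q v c).mulVec y) = Cfsg.hermForm n F q x y) ↔ (c = 0 ∨ c ^ (q - 1) = -1) := by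
  have hq := two_le_of_card_sq hF
  have key : ∀ x y : Fin n → F, Cfsg.hermForm n F q ((Cfsg.unitaryTransvection n q v c).mulVec x) ((Cfsg.unitaryTransvection n q v c).mulVec y) = Cfsg.hermForm n F q x y + (c ^ q + c) * (Cfsg.hermForm n F q x v * Cfsg.hermForm n F q v y) := by
    intro x y
    rw [unitaryTransvection_mulVec, unitaryTransvection_mulVec, hermForm_add_left,
      hermForm_add_right n hF, hermForm_add_right n hF, hermForm_smul_left, hermForm_smul_right,
      hermForm_smul_right, hermForm_smul_left, hv0, mul_pow, hermForm_conj n hF y v]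
    ring
  have hcq : c ^ q = c ^ (q - 1) * c := by
    rw [← pow_succ, Nat.sub_add_cancel (by omega)]
  constructor
  · intro h
    obtain ⟨i, hi⟩ : ∃ i, v i ≠ 0 := by
      by_contra hcon
      push Not at hcon
      exact hv (funext hcon)
    have h1 := h (Pi.single i 1) (Pi.single i 1)
    rw [key] at h1
    have h2 : (c ^ q + c) * (Cfsg.hermForm n F q (Pi.single i 1) v * Cfsg.hermForm n F q v (Pi.single i 1)) = 0 := by
      linear_combination h1
    rw [hermForm_single_left, hermForm_single_right n hF] at h2
    have h3 : v i ^ q * v i ≠ 0 := mul_ne_zero (pow_ne_zero _ hi) hi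
    have h4 : c ^ q + c = 0 := by
      rcases mul_eq_zero.mp h2 with h | h
      · exact h
      · exact absurd h h3
    by_cases hc : c = 0
    · exact Or.inl hc
    · right
      rw [hcq] at h4
      have h5 : (c ^ (q - 1) + 1) * c = 0 := by linear_combination h4
      rcases mul_eq_zero.mp h5 with h | h
      · exact eq_neg_of_add_eq_zero_left h
      · exact absurd h hc
  · intro h x y
    rw [key]
    have h4 : c ^ q + c = 0 := by
      rcases h with h | h
      · rw [h, zero_pow (by omega)]; simp
      · rw [hcq, h]; ring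
    rw [h4]
    ring

end Cfsg.Agent.S0779
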