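import Cfsg.Statements.S0782
import Cfsg.Agent.H42.SUPara

set_option autoImplicit false
open Cfsg

namespace Cfsg.Agent.S0782

/-- Maximal parabolics of SU_n(q): if W is a k-dimensional subspace of F^n (n ≥ 1, |F| = q²) on which the Hermitian form vanishes, then (q + 1) times the order of its stabiliser in SU_n(q) equals q^(k(2n−3k)) · |GL_k(q²)| · |GU_(n−2k)(q)|, where |GU_m(q)| = q^(m(m−1)/2) Π_(i=1..m) (q^i − (−1)^i). -/
theorem result {F : Type*} [Field F] [Fintype F] {q : ℕ} (hF : Fintype.card F = q ^ 2) (n k : ℕ) (hn : 1 ≤ n) (hk : 2 * k ≤ n) (W : Submodule F (Fin n → F)) (hWk : Module.finrank F W = k) (hW : ∀ u ∈ W, ∀ v ∈ W, Cfsg.hermForm n F q u v = 0) : (q + 1) * Nat.card ↥((Cfsg.stabilizing (Cfsg.slToMat n F) (W : Set (Fin n → F))).subgroupOf (Cfsg.SU n F q)) = q ^ (k * (2 * n - 3 * k)) * (∏ i : Fin k, ((q ^ 2) ^ k - (q ^ 2) ^ (i : ℕ))) * (q ^ ((n - 2 * k) * ((n - 2 * k) - 1) / 2) * ∏ i ∈ Finset.range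 (n - 2 * k), (if Even i then q ^ (i + 1) + 1 else q ^ (i + 1) - 1)) := by
  exact Cfsg.Agent.H42.card_su_stabilizer_ti hF n k hn hk W hWk hW

end Cfsg.Agent.S0782
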