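import Cfsg.Statements.S0783
import Cfsg.Agent.H17.GUDet

set_option autoImplicit false
open Cfsg

namespace Cfsg.Agent.S0783

/-- PGU_n(q)/PSU_n(q) is cyclic of order (n, q+1): for n ≥ 2 and |F| = q² there is a surjective homomorphism from GU_n(q) onto the cyclic group of order gcd(n, q + 1) whose kernel is generated by the determinant-one elements together with the centre. -/
theorem result {F : Type*} [Field F] [Fintype F] {q : ℕ} (hF : Fintype.card F = q ^ 2) (n : ℕ) (hn : 2 ≤ n) : ∃ φ : ↥(Cfsg.GU n F q) →* Multiplicative (ZMod (Nat.gcd n (q + 1))), Function.Surjective φ ∧ φ.ker = (Matrix.GeneralLinearGroup.det : Matrix.GeneralLinearGroup (Fin n) F →* Fˣ).ker.subgroupOf (Cfsg.GU n F q) ⊔ Subgroup.center ↥(Cfsg.GU n F q) := by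
  exact Cfsg.Agent.H17.gu_quot hF n hn

end Cfsg.Agent.S0783
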