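import Cfsg.Statements.S0786
import Cfsg.Agent.H49.Omega2

set_option autoImplicit false
open Cfsg

namespace Cfsg.Agent.S0786

/-- Generation by reflections: if F is finite, Q is a quadratic form on F^n with non-degenerate polar form, and (|F|, n) ≠ (2, 4), then the isometry group of Q is generated by the reflections r_v, Q(v) ≠ 0. -/
theorem result {F : Type*} [Field F] [Fintype F] {n : ℕ} (Q : QuadraticForm F (Fin n → F)) (hQ : (QuadraticMap.polarBilin Q).Nondegenerate) (h : Fintype.card F ≠ 2 ∨ n ≠ 4) : Subgroup.closure {g : ↥(Cfsg.isometryGroup F ⇑Q) | ∃ v : Fin n → F, Q v ≠ 0 ∧ ((g : Matrix.GeneralLinearGroup (Fin n) F) : Matrix (Fin n) (Fin n) F) = Cfsg.reflectionMatrix ⇑Q v} = ⊤ := by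
  classical
  have hsub : Cfsg.Agent.H49.reflSet Q ⊆ {g : ↥(Cfsg.isometryGroup F ⇑Q) | ∃ v : Fin n → F, Q v ≠ 0 ∧ ((g : Matrix.GeneralLinearGroup (Fin n) F) : Matrix (Fin n) (Fin n) F) = Cfsg.reflectionMatrix ⇑Q v} := by
    rintro r ⟨v, hv, rfl⟩
    exact ⟨v, hv, Cfsg.Agent.H49.reflG_coe Q v⟩
  rw [eq_top_iff]
  by_cases h2 : (2 : F) = 0
  · obtain ⟨m, hm⟩ := Cfsg.Agent.H49.even_finrank_char_two h2 Q hQ
    have hn : n = 2 * m := by
      rw [← hm, Module.finrank_pi]
      simp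
    have hex : Fintype.card F ≠ 2 ∨ m ≠ 2 := by
      rcases h with h | h
      · exact Or.inl h
      · right
        omega
    rw [← Cfsg.Agent.H49.closure_reflSet_eq_top_two Q h2 hQ hm hex]
    exact Subgroup.closure_mono hsub
  · rw [← Cfsg.Agent.H49.closure_reflSet_eq_top Q h2 hQ]
    exact Subgroup.closure_mono hsub

end Cfsg.Agent.S0786
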