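import Cfsg.Statements.S0789
import Cfsg.Agent.H49.Summand

set_option autoImplicit false
open Cfsg

namespace Cfsg.Agent.S0789

open Cfsg.Agent.H49

/-- Ω has index 2 in O for q even: if F is finite of characteristic two, n ≥ 2, Q is a quadratic form on F^n with non-degenerate polar form, and (|F|, n) ≠ (2, 4), then the commutator subgroup of the isometry group of Q has index 2 in it. -/
theorem result {F : Type*} [Field F] [Fintype F] [CharP F 2] {n : ℕ} (hn : 2 ≤ n) (Q : QuadraticForm F (Fin n → F)) (hQ : (QuadraticMap.polarBilin Q).Nondegenerate) (h : Fintype.card F ≠ 2 ∨ n ≠ 4) : (Cfsg.Omega F ⇑Q).index = 2 := by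
  classical
  have h2 : (2 : F) = 0 := CharTwo.two_eq_zero
  obtain ⟨m, hm⟩ := even_finrank_char_two h2 Q hQ
  have hn' : n = 2 * m := by
    rw [← hm, Module.finrank_pi]
    simp
  have hex : Fintype.card F ≠ 2 ∨ m ≠ 2 := by
    rcases h with h | h
    · exact Or.inl h
    · right
      omega
  have hex_v : ∃ v : Fin n → F, Q v ≠ 0 := by
    by_contra hcon
    push Not at hcon
    have h0 : (Pi.single (⟨0, by omega⟩ : Fin n) (1 : F) : Fin n → F) = 0 :=
      hQ.1 _ (fun y => by
        rw [QuadraticMap.polarBilin_apply_apply, QuadraticMap.polar, hcon, hcon, hcon]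
        simp)
    have := congrFun h0 ⟨0, by omega⟩
    simp at this
  obtain ⟨v, hv⟩ := hex_v
  have hker : Cfsg.Omega F ⇑Q = (dicksonHom Q h2 hQ).ker := by
    apply le_antisymm
    · exact Abelianization.commutator_subset_ker _
    · intro g hg
      exact mem_commutator_of_hom_two Q h2 hQ hm hex _
        (fun v hv => dicksonHom_reflG Q h2 hQ v hv) g (MonoidHom.mem_ker.mp hg)
  rw [hker, Subgroup.index_ker]
  have hr : (dicksonHom Q h2 hQ).range = ⊤ := by
    rw [eq_top_iff]
    intro x _
    rcases Int.units_eq_one_or x with rfl | rfl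
    · exact Subgroup.one_mem _
    · exact ⟨reflG Q v, dicksonHom_reflG Q h2 hQ v hv⟩
  rw [hr, Subgroup.card_top, Nat.card_eq_fintype_card, Fintype.card_units_int]

end Cfsg.Agent.S0789
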