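import Cfsg.Statements.S0787
import Cfsg.Agent.H49.Summand
import Cfsg.Agent.H18.Spin
import Cfsg.Agent.H18.IndexTwo
import Cfsg.Agent.S0789

set_option autoImplicit false
set_option linter.unusedSectionVars false
open Cfsg

namespace Cfsg.Agent.S0787

open Matrix Cfsg.Agent.H49

/-- A normal subgroup of index four contains the commutator subgroup. -/
theorem commutator_le_of_normal_index_four {G : Type*} [Group G] (H : Subgroup G) [H.Normal]
    (h : H.index = 4) : commutator G ≤ H := by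
  have hcard : Nat.card (G ⧸ H) = 2 ^ 2 := h
  have : Fact (Nat.Prime 2) := ⟨Nat.prime_two⟩
  have hcomm := (IsPGroup.isMulCommutative_of_card_eq_prime_sq hcard).is_comm.comm
  let _ : CommGroup (G ⧸ H) := { (inferInstance : Group (G ⧸ H)) with mul_comm := hcomm }
  have := Abelianization.commutator_subset_ker (QuotientGroup.mk' H)
  rwa [QuotientGroup.ker_mk'] at this

theorem eq_of_le_of_index_eq {G : Type*} [Group G] (K H : Subgroup G) (hle : K ≤ H)
    (hidx : K.index = H.index) (h0 : H.index ≠ 0) : K = H := by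
  apply le_antisymm hle
  rw [← Subgroup.relIndex_eq_one]
  have := Subgroup.relIndex_mul_index hle
  rw [hidx] at this
  exact Nat.eq_of_mul_eq_mul_right (Nat.pos_of_ne_zero h0) (by rw [this, one_mul])

theorem mem_map_subtype {G : Type*} [Group G] (S : Subgroup G) (H : Subgroup S) (n : G) :
    n ∈ H.map S.subtype ↔ ∃ hn : n ∈ S, (⟨n, hn⟩ : S) ∈ H := by
  constructor
  · rintro ⟨h, hh, rfl⟩
    exact ⟨h.2, hh⟩
  · rintro ⟨hn, hh⟩
    exact ⟨⟨n, hn⟩, hh, rfl⟩

theorem conj_mem_map_subtype {G : Type*} [Group G] (S : Subgroup G) (H : Subgroup S) [H.Normal]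
    (s : G) (hs : s ∈ S) (n : G) (hn : n ∈ H.map S.subtype) : s * n * s⁻¹ ∈ H.map S.subtype := by
  rw [mem_map_subtype] at hn ⊢
  obtain ⟨hnS, hnH⟩ := hn
  refine ⟨S.mul_mem (S.mul_mem hs hnS) (S.inv_mem hs), ?_⟩
  exact Subgroup.Normal.conj_mem (H := H) inferInstance (⟨n, hnS⟩ : S) hnH (⟨s, hs⟩ : S)

theorem sq_mem_map_subtype {G : Type*} [Group G] (S : Subgroup G) (H : Subgroup S)
    (hH : H.index = 2) (a : G) (ha : a ∈ S) : a * a ∈ H.map S.subtype := by
  rw [mem_map_subtype]
  exact ⟨S.mul_mem ha ha, Subgroup.mul_self_mem_of_index_two hH ⟨a, ha⟩⟩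

section
variable {F : Type*} [Field F] {ι : Type} [Fintype ι] [DecidableEq ι] (Q : QuadraticForm F (ι → F))

theorem detHom_reflG' (v : ι → F) (hv : Q v ≠ 0) : detHom Q (reflG Q v) = -1 := by
  apply Units.ext
  rw [detHom_val, reflG_coe, det_reflectionMatrix Q v hv]
  simp

theorem mem_special_iff (g : ↥(Cfsg.isometryGroup F (⇑Q))) :
    g ∈ Cfsg.specialIsometryGroup F (⇑Q) ↔ detHom Q g = 1 := Iff.rfl

theorem det_dichotomy (hgen : Subgroup.closure (reflSet Q) = ⊤)
    (g : ↥(Cfsg.isometryGroup F (⇑Q))) : detHom Q g = 1 ∨ detHom Q g = -1 := by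
  have hle : Subgroup.closure (reflSet Q) ≤ (Subgroup.zpowers (-1 : Fˣ)).comap (detHom Q) := by
    rw [Subgroup.closure_le]
    rintro r ⟨v, hv, rfl⟩
    rw [SetLike.mem_coe, Subgroup.mem_comap, detHom_reflG' Q v hv]
    exact Subgroup.mem_zpowers _
  have hg : g ∈ Subgroup.closure (reflSet Q) := by rw [hgen]; exact Subgroup.mem_top g
  exact Cfsg.Agent.H18.mem_zpowers_of_sq_eq_one (-1) (by simp) _ (hle hg)

theorem neg_one_ne_one_units (h2 : (2 : F) ≠ 0) : (-1 : Fˣ) ≠ 1 := by
  intro h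
  have h1 : ((-1 : Fˣ) : F) = ((1 : Fˣ) : F) := congrArg Units.val h
  rw [Units.val_neg, Units.val_one] at h1
  apply h2
  linear_combination -h1

/-- the product of two reflections of equal norm is the square of a rotation -/
theorem pair_sq (h2 : (2 : F) ≠ 0) (x y : ι → F) (hx : Q x ≠ 0) (hxy : Q x = Q y) :
    ∃ a : ↥(Cfsg.isometryGroup F (⇑Q)), detHom Q a = 1 ∧ a * a = reflG Q x * reflG Q y := by
  by_cases h1 : Q (x - y) = 0
  · have hsum : Q (x + y) + Q (x - y) = 2 * Q x + 2 * Q y := by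
      have e := Q_sub_smul Q x y 1
      simp only [one_smul, one_mul] at e
      have hpol : QuadraticMap.polar (⇑Q) y x = Q (x + y) - Q x - Q y := by
        rw [QuadraticMap.polar_comm]; rfl
      rw [e, hpol]; ring
    have h4 : Q (x - -y) ≠ 0 := by
      rw [sub_neg_eq_add]
      have h3 : Q (x + y) = 2 * 2 * Q x := by
        rw [h1, add_zero, ← hxy] at hsum
        rw [hsum]; ring
      rw [h3]
      exact mul_ne_zero (mul_ne_zero h2 h2) hx
    refine ⟨reflG Q x * reflG Q (x - -y), ?_, ?_⟩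
    · rw [map_mul, detHom_reflG' Q x hx, detHom_reflG' Q _ h4]
      simp
    · have hc := conj_reflG Q (reflG Q (x - -y)) x
      rw [reflG_coe, reflection_map Q x (-y) (by rw [QuadraticMap.map_neg]; exact hxy) h4,
        reflG_inv] at hc
      have hneg : reflG Q (-y) = reflG Q y := by
        rw [← neg_one_smul F y, reflG_smul Q y (neg_ne_zero.mpr one_ne_zero)]
      rw [hneg] at hc
      rw [← hc]
      simp only [mul_assoc]
  · refine ⟨reflG Q x * reflG Q (x - y), ?_, ?_⟩
    · rw [map_mul, detHom_reflG' Q x hx, detHom_reflG' Q _ h1]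
      simp
    · have hc := conj_reflG Q (reflG Q (x - y)) x
      rw [reflG_coe, reflection_map Q x y hxy h1, reflG_inv] at hc
      rw [← hc]
      simp only [mul_assoc]

theorem special_index (h2 : (2 : F) ≠ 0) (hgen : Subgroup.closure (reflSet Q) = ⊤)
    (v₀ : ι → F) (hv₀ : Q v₀ ≠ 0) : (Cfsg.specialIsometryGroup F (⇑Q)).index = 2 := by
  rw [Subgroup.index_eq_two_iff]
  refine ⟨reflG Q v₀, fun b => ?_⟩
  rw [mem_special_iff, mem_special_iff, map_mul, detHom_reflG' Q v₀ hv₀]
  rcases det_dichotomy Q hgen b with h | h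
  · right
    rw [h]
    exact ⟨rfl, by rw [one_mul]; exact neg_one_ne_one_units h2⟩
  · left
    rw [h]
    exact ⟨by simp, neg_one_ne_one_units h2⟩

theorem map_normal (h2 : (2 : F) ≠ 0) (hgen : Subgroup.closure (reflSet Q) = ⊤)
    (v₀ : ι → F) (hv₀ : Q v₀ ≠ 0) (H : Subgroup ↥(Cfsg.specialIsometryGroup F (⇑Q)))
    (hH : H.index = 2) : (H.map (Cfsg.specialIsometryGroup F (⇑Q)).subtype).Normal := by
  have hHn := Subgroup.normal_of_index_eq_two hH
  have hpair : ∀ x y : ι → F, Q x ≠ 0 → Q x = Q y →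
      reflG Q x * reflG Q y ∈ H.map (Cfsg.specialIsometryGroup F (⇑Q)).subtype := by
    intro x y hx hxy
    obtain ⟨a, ha, haa⟩ := pair_sq Q h2 x y hx hxy
    rw [← haa]
    exact sq_mem_map_subtype _ H hH a ha
  have hS : ∀ s ∈ Cfsg.specialIsometryGroup F (⇑Q),
      ∀ n ∈ H.map (Cfsg.specialIsometryGroup F (⇑Q)).subtype,
        s * n * s⁻¹ ∈ H.map (Cfsg.specialIsometryGroup F (⇑Q)).subtype := by
    intro s hs n hn
    exact conj_mem_map_subtype _ H s hs n hn
  have hR : ∀ x : ι → F, Q x ≠ 0 → ∀ n ∈ H.map (Cfsg.specialIsometryGroup F (⇑Q)).subtype,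
      reflG Q x * n * (reflG Q x)⁻¹ ∈ H.map (Cfsg.specialIsometryGroup F (⇑Q)).subtype := by
    intro x hx n hn
    have hc := conj_reflG Q n x
    have e : reflG Q x * n * (reflG Q x)⁻¹ =
        (reflG Q x * reflG Q (((n : Matrix.GeneralLinearGroup ι F) : Matrix ι ι F) *ᵥ x)) * n := by
      rw [← hc, reflG_inv]
      group
    rw [e]
    exact Subgroup.mul_mem _ (hpair x _ hx (isometry_apply n x).symm) hn
  constructor
  intro n hn g
  rcases det_dichotomy Q hgen g with hg | hg
  · exact hS g hg n hn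
  · have hs : reflG Q v₀ * g ∈ Cfsg.specialIsometryGroup F (⇑Q) := by
      rw [mem_special_iff, map_mul, detHom_reflG' Q v₀ hv₀, hg]
      simp
    have hrr := reflG_mul_self Q v₀
    have e : g * n * g⁻¹ =
        reflG Q v₀ * ((reflG Q v₀ * g) * n * (reflG Q v₀ * g)⁻¹) * (reflG Q v₀)⁻¹ := by
      calc g * n * g⁻¹ = (reflG Q v₀ * reflG Q v₀) * (g * n * g⁻¹) * (reflG Q v₀ * reflG Q v₀)⁻¹ := by
            rw [hrr]; simp
        _ = reflG Q v₀ * ((reflG Q v₀ * g) * n * (reflG Q v₀ * g)⁻¹) * (reflG Q v₀)⁻¹ := by group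
    rw [e]
    exact hR v₀ hv₀ _ (hS _ hs n hn)

theorem key_odd [Fintype F] (h2 : (2 : F) ≠ 0) (hQ : (QuadraticMap.polarBilin Q).Nondegenerate)
    (hn : 2 ≤ Fintype.card ι) (H : Subgroup ↥(Cfsg.specialIsometryGroup F (⇑Q)))
    (hH : H.index = 2) :
    commutator ↥(Cfsg.isometryGroup F (⇑Q)) = H.map (Cfsg.specialIsometryGroup F (⇑Q)).subtype := by
  classical
  have hgen := closure_reflSet_eq_top Q h2 hQ
  obtain ⟨v₀, hv₀⟩ := Cfsg.Agent.H18.exists_norm_eq Q h2 hQ hn 1
  have hv₀0 : Q v₀ ≠ 0 := by rw [hv₀]; exact one_ne_zero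
  have hN := map_normal Q h2 hgen v₀ hv₀0 H hH
  have hidx : (H.map (Cfsg.specialIsometryGroup F (⇑Q)).subtype).index = 4 := by
    rw [Subgroup.index_map_subtype, hH, special_index Q h2 hgen v₀ hv₀0]
  apply eq_of_le_of_index_eq _ _ (commutator_le_of_normal_index_four _ hidx)
  · rw [hidx]
    exact Cfsg.Agent.H18.index_commutator Q h2 hQ hn
  · rw [hidx]; norm_num

end

/-- Existence and uniqueness of Ω: if F is finite, n ≥ 2, Q is a quadratic form on F^n with non-degenerate polar form and (|F|, n) ≠ (2, 4), then the group of isometries of determinant one has a unique subgroup of index 2. -/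
theorem result {F : Type*} [Field F] [Fintype F] {n : ℕ} (hn : 2 ≤ n) (Q : QuadraticForm F (Fin n → F)) (hQ : (QuadraticMap.polarBilin Q).Nondegenerate) (h : Fintype.card F ≠ 2 ∨ n ≠ 4) : ∃! H : Subgroup ↥(Cfsg.specialIsometryGroup F ⇑Q), H.index = 2 := by
  classical
  have hmain : (commutator ↥(Cfsg.isometryGroup F (⇑Q))).index =
        2 * (Cfsg.specialIsometryGroup F (⇑Q)).index ∧
      (Cfsg.specialIsometryGroup F (⇑Q)).index ≠ 0 ∧
      ∀ H : Subgroup ↥(Cfsg.specialIsometryGroup F (⇑Q)), H.index = 2 →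
        commutator ↥(Cfsg.isometryGroup F (⇑Q)) =
          H.map (Cfsg.specialIsometryGroup F (⇑Q)).subtype := by
    by_cases h2 : (2 : F) = 0
    · have : CharP F 2 := CharTwo.of_one_ne_zero_of_two_eq_zero one_ne_zero h2
      obtain ⟨m, hm⟩ := even_finrank_char_two h2 Q hQ
      have hn' : n = 2 * m := by
        rw [← hm, Module.finrank_pi]
        simp
      have hex : Fintype.card F ≠ 2 ∨ m ≠ 2 := by
        rcases h with h | h
        · exact Or.inl h
        · right
          omega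
      have hgen := closure_reflSet_eq_top_two Q h2 hQ hm hex
      have hone : (-1 : Fˣ) = 1 := by
        apply Units.ext
        rw [Units.val_neg, Units.val_one]
        linear_combination -h2
      have htop : Cfsg.specialIsometryGroup F (⇑Q) = ⊤ := by
        rw [eq_top_iff]
        intro g _
        rw [mem_special_iff]
        rcases det_dichotomy Q hgen g with hg | hg
        · exact hg
        · rw [hg, hone]
      have hS1 : (Cfsg.specialIsometryGroup F (⇑Q)).index = 1 := Subgroup.index_eq_one.mpr htop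
      have hΩ : (commutator ↥(Cfsg.isometryGroup F (⇑Q))).index = 2 :=
        Cfsg.Agent.S0789.result hn Q hQ h
      refine ⟨by rw [hΩ, hS1], by rw [hS1]; exact one_ne_zero, fun H hH => ?_⟩
      have hidx : (H.map (Cfsg.specialIsometryGroup F (⇑Q)).subtype).index = 2 := by
        rw [Subgroup.index_map_subtype, hH, hS1]
      apply eq_of_le_of_index_eq _ _ (Cfsg.Agent.H18.commutator_le_of_index_two _ hidx)
      · rw [hidx, hΩ]
      · rw [hidx]; norm_num
    · have hcard : 2 ≤ Fintype.card (Fin n) := by rw [Fintype.card_fin]; exact hn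
      have hgen := closure_reflSet_eq_top Q h2 hQ
      obtain ⟨v₀, hv₀⟩ := Cfsg.Agent.H18.exists_norm_eq Q h2 hQ hcard 1
      have hv₀0 : Q v₀ ≠ 0 := by rw [hv₀]; exact one_ne_zero
      have hS2 := special_index Q h2 hgen v₀ hv₀0
      refine ⟨by rw [hS2]; exact Cfsg.Agent.H18.index_commutator Q h2 hQ hcard,
        by rw [hS2]; norm_num, fun H hH => key_odd Q h2 hQ hcard H hH⟩
  obtain ⟨hidx, hS0, hkey⟩ := hmain
  have hle : commutator ↥(Cfsg.isometryGroup F (⇑Q)) ≤ Cfsg.specialIsometryGroup F (⇑Q) :=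
    Abelianization.commutator_subset_ker _
  refine ⟨(commutator ↥(Cfsg.isometryGroup F (⇑Q))).subgroupOf (Cfsg.specialIsometryGroup F (⇑Q)),
    ?_, ?_⟩
  · show (commutator ↥(Cfsg.isometryGroup F (⇑Q))).relIndex (Cfsg.specialIsometryGroup F (⇑Q)) = 2
    have := Subgroup.relIndex_mul_index hle
    rw [hidx] at this
    exact Nat.eq_of_mul_eq_mul_right (Nat.pos_of_ne_zero hS0) this
  · intro H hH
    apply Subgroup.map_injective (Subgroup.subtype_injective _)
    rw [← hkey H hH, Subgroup.subgroupOf_map_subtype, inf_eq_left.mpr hle]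

end Cfsg.Agent.S0787
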