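import Cfsg.Statements.S0791
import Cfsg.Agent.H49.StdForms

set_option autoImplicit false
open Cfsg

namespace Cfsg.Agent.S0791

open Cfsg.Agent.H49 Matrix

/-- arithmetic: for odd `q`, `q ^ m % 4 = 3` iff `m` is odd and `q % 4 = 3`. -/
theorem pow_mod_four_eq_three {q : ℕ} (hq : Odd q) (m : ℕ) : q ^ m % 4 = 3 ↔ (Odd m ∧ q % 4 = 3) := by
  have h := Nat.odd_iff.mp hq
  have h13 : q % 4 = 1 ∨ q % 4 = 3 := by omega
  rw [Nat.pow_mod]
  rcases h13 with h1 | h3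
  · rw [h1]; simp
  · rw [h3]
    rcases Nat.even_or_odd m with ⟨k, hk⟩ | ⟨k, hk⟩
    · have : ¬ Odd m := by rw [Nat.not_odd_iff_even]; exact ⟨k, hk⟩
      have e : 3 ^ m % 4 = 1 := by
        rw [hk, ← two_mul, pow_mul]; norm_num [Nat.pow_mod]
      simp [this, e]
    · have : Odd m := ⟨k, hk⟩
      have e : 3 ^ m % 4 = 3 := by
        rw [hk, pow_succ, pow_mul, Nat.mul_mod]; norm_num [Nat.pow_mod]
      simp [this, e]

/-- −1 ∈ Ω⁻_2m(q) iff q^m ≡ −1 (mod 4), for q odd and m ≥ 1; for the minus-type form quadFormMinus (m−1) with anisotropic binary part. -/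
theorem result {F : Type*} [Field F] [Fintype F] {q : ℕ} (hF : Fintype.card F = q) (hodd : Odd q) (m : ℕ) (hm : 1 ≤ m) (a b : F) (hab : ∀ z₁ z₂ : F, z₁ ^ 2 + a * z₁ * z₂ + b * z₂ ^ 2 = 0 → z₁ = 0 ∧ z₂ = 0) : (∃ g : ↥(Cfsg.isometryGroup F (Cfsg.quadFormMinus (m - 1) F a b)), g ∈ Cfsg.Omega F (Cfsg.quadFormMinus (m - 1) F a b) ∧ ((g : Matrix.GeneralLinearGroup ((Fin (m - 1) ⊕ Fin (m - 1)) ⊕ Fin 2) F) : Matrix ((Fin (m - 1) ⊕ Fin (m - 1)) ⊕ Fin 2) ((Fin (m - 1) ⊕ Fin (m - 1)) ⊕ Fin 2) F) = -1) ↔ q ^ m % 4 = 3 := by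
  classical
  subst hF
  have h2 : (2 : F) ≠ 0 := two_ne_zero_of_odd_card hodd
  have h4 : (4 : F) ≠ 0 := by
    have : (4 : F) = 2 * 2 := by norm_num
    rw [this]; exact mul_ne_zero h2 h2
  -- the form as a QuadraticForm
  set aa : Fin (m - 1) → (Fin (m - 1) ⊕ Fin (m - 1)) ⊕ Fin 2 := fun j => Sum.inl (Sum.inl j) with haa
  set bb : Fin (m - 1) → (Fin (m - 1) ⊕ Fin (m - 1)) ⊕ Fin 2 := fun j => Sum.inl (Sum.inr j) with hbb
  set R : QuadraticForm F ((Fin (m - 1) ⊕ Fin (m - 1)) ⊕ Fin 2 → F) :=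
    QuadraticMap.proj (Sum.inr 0) (Sum.inr 0) + a • QuadraticMap.proj (Sum.inr 0) (Sum.inr 1)
      + b • QuadraticMap.proj (Sum.inr 1) (Sum.inr 1) with hR
  set Q : QuadraticForm F ((Fin (m - 1) ⊕ Fin (m - 1)) ⊕ Fin 2 → F) := hypSum aa bb R with hQdef
  have hQ : ⇑Q = Cfsg.quadFormMinus (m - 1) F a b := by
    funext v
    simp [hQdef, hypSum_apply, Cfsg.quadFormMinus, hR, haa, hbb]
    ring
  have hQv : ∀ v, Q v = Cfsg.quadFormMinus (m - 1) F a b v := fun v => congrFun hQ v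
  -- the hyperbolic part
  obtain ⟨vs, hvs, hlen, hprod, hmat⟩ := hyp_involution Q aa bb
    (fun j j' h => by simpa [haa] using h) (fun j j' h => by simpa [hbb] using h)
    (fun j j' => by simp [haa, hbb])
    (hypSum_single_a aa bb R (fun j j' => by simp [haa, hbb]) (by simp [hR, haa]))
    (hypSum_single_b aa bb R (fun j j' => by simp [haa, hbb]) (by simp [hR, hbb]))
    (polar_hypSum_single_a aa bb R (fun j j' h => by simpa [haa] using h) (fun j j' => by simp [haa, hbb])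
      (by simp [QuadraticMap.polar, hR, haa]))
    (polar_hypSum_single_b aa bb R (fun j j' h => by simpa [hbb] using h) (fun j j' => by simp [haa, hbb])
      (by simp [QuadraticMap.polar, hR, hbb])) (m - 1) le_rfl
  -- the binary part
  set w1 : (Fin (m - 1) ⊕ Fin (m - 1)) ⊕ Fin 2 → F := Pi.single (Sum.inr 0) 1 with hw1
  set w2 : (Fin (m - 1) ⊕ Fin (m - 1)) ⊕ Fin 2 → F :=
    (-a / 2) • Pi.single (Sum.inr 0) 1 + Pi.single (Sum.inr 1) 1 with hw2
  set d : F := b - a ^ 2 / 4 with hd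
  have hQw1 : Q w1 = 1 := by
    rw [hQv, hw1]; simp [Cfsg.quadFormMinus]
  have hQw2 : Q w2 = d := by
    rw [hQv, hw2, hd]; simp [Cfsg.quadFormMinus]
    field_simp
    ring
  have hN : ¬ IsSquare (a ^ 2 - 4 * b) := aniso_not_isSquare h2 hab
  have hd0 : d ≠ 0 := by
    intro h0
    apply hN
    refine ⟨0, ?_⟩
    rw [hd] at h0
    field_simp at h0
    linear_combination (-1 : F) * h0
  have hp1 : ∀ x, QuadraticMap.polar (⇑Q) w1 x = 2 * x (Sum.inr 0) + a * x (Sum.inr 1) := by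
    intro x
    rw [hQ, hw1]
    simp [QuadraticMap.polar, Cfsg.quadFormMinus]
    ring
  have hp2 : ∀ x, QuadraticMap.polar (⇑Q) w2 x = 2 * d * x (Sum.inr 1) := by
    intro x
    rw [hQ, hw2, hd]
    simp [QuadraticMap.polar, Cfsg.quadFormMinus]
    field_simp
    ring
  have hbin : Cfsg.reflectionMatrix (⇑Q) w1 * Cfsg.reflectionMatrix (⇑Q) w2
      = Matrix.diagonal (fun k : (Fin (m - 1) ⊕ Fin (m - 1)) ⊕ Fin 2 =>
          if k = Sum.inr 0 ∨ k = Sum.inr 1 then (-1 : F) else 1) := by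
    apply matrix_ext_mulVec
    intro x
    rw [← Matrix.mulVec_mulVec, reflectionMatrix_mulVec Q w2, reflectionMatrix_mulVec, hQw1, hQw2,
      hp1, hp2]
    funext k
    rw [Matrix.mulVec_diagonal]
    rcases k with (j | j) | j
    · simp [hw1, hw2]
    · simp [hw1, hw2]
    · fin_cases j
      · simp [hw1, hw2]
        field_simp
        ring
      · simp [hw1, hw2]
        field_simp
        ring
  -- assemble
  have hD : (-1 : Matrix ((Fin (m - 1) ⊕ Fin (m - 1)) ⊕ Fin 2) ((Fin (m - 1) ⊕ Fin (m - 1)) ⊕ Fin 2) F)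
      = ((vs ++ [w1, w2]).map (fun v => Cfsg.reflectionMatrix (Cfsg.quadFormMinus (m - 1) F a b) v)).prod := by
    rw [← hQ, List.map_append, List.prod_append, hmat]
    simp only [List.map_cons, List.map_nil, List.prod_cons, List.prod_nil, mul_one]
    rw [hbin, Matrix.diagonal_mul_diagonal]
    have hfun : (fun k : (Fin (m - 1) ⊕ Fin (m - 1)) ⊕ Fin 2 =>
        (if ∃ j : Fin (m - 1), (j : ℕ) < m - 1 ∧ (k = aa j ∨ k = bb j) then (-1 : F) else 1)
          * (if k = Sum.inr 0 ∨ k = Sum.inr 1 then (-1 : F) else 1)) = fun _ => -1 := by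
      funext k
      rcases k with (j | j) | j
      · have h1 : ∃ j' : Fin (m - 1), (j' : ℕ) < m - 1 ∧
            ((Sum.inl (Sum.inl j) : (Fin (m - 1) ⊕ Fin (m - 1)) ⊕ Fin 2) = aa j' ∨
              (Sum.inl (Sum.inl j) : (Fin (m - 1) ⊕ Fin (m - 1)) ⊕ Fin 2) = bb j') :=
          ⟨j, j.2, Or.inl rfl⟩
        rw [if_pos h1, if_neg (by simp)]; ring
      · have h1 : ∃ j' : Fin (m - 1), (j' : ℕ) < m - 1 ∧
            ((Sum.inl (Sum.inr j) : (Fin (m - 1) ⊕ Fin (m - 1)) ⊕ Fin 2) = aa j' ∨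
              (Sum.inl (Sum.inr j) : (Fin (m - 1) ⊕ Fin (m - 1)) ⊕ Fin 2) = bb j') :=
          ⟨j, j.2, Or.inr rfl⟩
        rw [if_pos h1, if_neg (by simp)]; ring
      · have h1 : ¬ ∃ j' : Fin (m - 1), (j' : ℕ) < m - 1 ∧
            ((Sum.inr j : (Fin (m - 1) ⊕ Fin (m - 1)) ⊕ Fin 2) = aa j' ∨
              (Sum.inr j : (Fin (m - 1) ⊕ Fin (m - 1)) ⊕ Fin 2) = bb j') := by
          rintro ⟨j', _, h | h⟩ <;> simp [haa, hbb] at h
        have h3 : (Sum.inr j : (Fin (m - 1) ⊕ Fin (m - 1)) ⊕ Fin 2) = Sum.inr 0 ∨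
            (Sum.inr j : (Fin (m - 1) ⊕ Fin (m - 1)) ⊕ Fin 2) = Sum.inr 1 := by
          fin_cases j <;> simp
        rw [if_neg h1, if_pos h3]; ring
    rw [hfun]
    ext i j
    by_cases hij : i = j
    · simp [hij]
    · simp [hij]
  have hvs' : ∀ v ∈ vs ++ [w1, w2], Cfsg.quadFormMinus (m - 1) F a b v ≠ 0 := by
    intro v hv
    rw [← hQv]
    simp only [List.mem_append, List.mem_cons, List.not_mem_nil, or_false] at hv
    rcases hv with hv | rfl | rfl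
    · exact hvs v hv
    · rw [hQw1]; exact one_ne_zero
    · rw [hQw2]; exact hd0
  rw [show Cfsg.Omega F (Cfsg.quadFormMinus (m - 1) F a b)
      = commutator ↥(Cfsg.isometryGroup F (Cfsg.quadFormMinus (m - 1) F a b)) from rfl,
    exists_mem_commutator_iff_of_prod_refl (Cfsg.quadFormMinus (m - 1) F a b) Q hQ h2 (-1)
      (vs ++ [w1, w2]) hvs' hD]
  have hprod' : ((vs ++ [w1, w2]).map (Cfsg.quadFormMinus (m - 1) F a b)).prod
      = (2⁻¹ : F) ^ 2 * ((-1) ^ m * (a ^ 2 - 4 * b)) := by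
    rw [← hQ, List.map_append, List.prod_append, hprod]
    simp only [List.map_cons, List.map_nil, List.prod_cons, List.prod_nil, mul_one, hQw1, hQw2, hd]
    obtain ⟨k, rfl⟩ : ∃ k, m = k + 1 := ⟨m - 1, by omega⟩
    simp only [Nat.add_sub_cancel, pow_succ]
    field_simp
    ring
  rw [hprod', isSquare_sq_mul_iff (inv_ne_zero h2),
    isSquare_mul_nonsquare_iff (pow_ne_zero _ (neg_ne_zero.mpr one_ne_zero)) hN,
    isSquare_neg_one_pow_iff, pow_mod_four_eq_three hodd]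
  have hlen' : (vs ++ [w1, w2]).length = 2 * m := by
    rw [List.length_append, hlen]
    simp
    omega
  rw [hlen']
  constructor
  · rintro ⟨_, h⟩
    simp only [not_or, not_not] at h
    exact ⟨Nat.not_even_iff_odd.mp h.1, h.2⟩
  · rintro ⟨h1, h3⟩
    refine ⟨⟨m, by ring⟩, ?_⟩
    simp only [not_or, not_not]
    exact ⟨Nat.not_even_iff_odd.mpr h1, h3⟩

end Cfsg.Agent.S0791
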