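import Cfsg.Statements.S0792
import Cfsg.Agent.H18.CD

set_option autoImplicit false
open Cfsg

namespace Cfsg.Agent.S0792

open Matrix Cfsg.Agent.H18

theorem mem_specialIsometryGroup_iff {F : Type*} [Field F] {ι : Type} [Fintype ι] [DecidableEq ι]
    (Q : (ι → F) → F) (g : ↥(Cfsg.isometryGroup F Q)) :
    g ∈ Cfsg.specialIsometryGroup F Q ↔ ((g : Matrix.GeneralLinearGroup ι F) : Matrix ι ι F).det = 1 := by
  unfold Cfsg.specialIsometryGroup
  rw [MonoidHom.mem_ker, MonoidHom.comp_apply, Units.ext_iff]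
  rfl

theorem det_list_prod {F : Type*} [Field F] {ι : Type} [Fintype ι] [DecidableEq ι]
    (Q : QuadraticForm F (ι → F)) :
    ∀ l : List ↥(Cfsg.isometryGroup F (⇑Q)), (∀ y ∈ l, y ∈ reflSet Q) →
      ((l.prod : Matrix.GeneralLinearGroup ι F) : Matrix ι ι F).det = (-1) ^ l.length
  | [], _ => by simp [isometry_coe_one]
  | a :: l, h => by
    have ih := det_list_prod Q l (fun y hy => h y (List.mem_cons_of_mem _ hy))
    obtain ⟨v, hv, hav⟩ := h a List.mem_cons_self
    rw [List.prod_cons, isometry_coe_mul, Matrix.det_mul, ih, hav, reflection_det Q v hv, List.length_cons,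
      pow_succ]
    ring

theorem even_list_prod_mem {F : Type*} [Field F] {ι : Type} [Fintype ι] [DecidableEq ι]
    (Q : QuadraticForm F (ι → F)) (H : Subgroup ↥(Cfsg.isometryGroup F (⇑Q)))
    (hH : ∀ a b, a ∈ reflSet Q → b ∈ reflSet Q → a * b ∈ H) :
    ∀ l : List ↥(Cfsg.isometryGroup F (⇑Q)), (∀ y ∈ l, y ∈ reflSet Q) → Even l.length → l.prod ∈ H
  | [], _, _ => by simpa using H.one_mem
  | [a], _, he => by simp at he
  | a :: b :: l, h, he => by
    have he' : Even l.length := by
      simp only [List.length_cons] at he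
      rcases he with ⟨r, hr⟩
      exact ⟨r - 1, by omega⟩
    have ih := even_list_prod_mem Q H hH l
      (fun y hy => h y (List.mem_cons_of_mem _ (List.mem_cons_of_mem _ hy))) he'
    rw [List.prod_cons, List.prod_cons, ← mul_assoc]
    exact H.mul_mem (hH a b (h a List.mem_cons_self) (h b (List.mem_cons_of_mem _ List.mem_cons_self))) ih

/-- For q odd and Q with non-degenerate polar form on F^n, the determinant-one isometries form the subgroup generated by all products r_u r_v of two reflections (Q(u), Q(v) ≠ 0). -/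
theorem result {F : Type*} [Field F] [Fintype F] (h2 : (2 : F) ≠ 0) {n : ℕ} (Q : QuadraticForm F (Fin n → F)) (hQ : (QuadraticMap.polarBilin Q).Nondegenerate) : Cfsg.specialIsometryGroup F ⇑Q = Subgroup.closure {g : ↥(Cfsg.isometryGroup F ⇑Q) | ∃ u v : Fin n → F, Q u ≠ 0 ∧ Q v ≠ 0 ∧ ((g : Matrix.GeneralLinearGroup (Fin n) F) : Matrix (Fin n) (Fin n) F) = Cfsg.reflectionMatrix ⇑Q u * Cfsg.reflectionMatrix ⇑Q v} := by
  apply le_antisymm
  · intro g hg
    rw [mem_specialIsometryGroup_iff] at hg
    obtain ⟨l, hl, rfl⟩ := exists_list_reflections Q h2 hQ g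
    rw [det_list_prod Q l hl] at hg
    have hne : (-1 : F) ≠ 1 := by
      intro h
      apply h2
      linear_combination -h
    have heven : Even l.length := (neg_one_pow_eq_one_iff_even hne).mp hg
    apply even_list_prod_mem Q _ _ l hl heven
    intro a b ha hb
    apply Subgroup.subset_closure
    obtain ⟨u, hu, hau⟩ := ha
    obtain ⟨v, hv, hbv⟩ := hb
    exact ⟨u, v, hu, hv, by rw [isometry_coe_mul, hau, hbv]⟩
  · rw [Subgroup.closure_le]
    rintro g ⟨u, v, hu, hv, hg⟩
    rw [SetLike.mem_coe, mem_specialIsometryGroup_iff, hg, Matrix.det_mul, reflection_det Q u hu,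
      reflection_det Q v hv]
    ring

end Cfsg.Agent.S0792
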