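import Cfsg.Statements.S0793

set_option autoImplicit false
open Cfsg

namespace Cfsg.Agent.S0793

open Matrix in
theorem polarVec_dot {F : Type*} [Field F] {n : ℕ} (Q : QuadraticForm F (Fin n → F)) (v x : Fin n → F) :
    Cfsg.polarVec (⇑Q) v ⬝ᵥ x = QuadraticMap.polar (⇑Q) v x := by
  have h : x = ∑ j, x j • (Pi.single j (1 : F) : Fin n → F) := by
    ext i
    simp [Finset.sum_apply, Pi.single_apply]
  conv_rhs => rw [h]
  have : QuadraticMap.polar (⇑Q) v (∑ j, x j • (Pi.single j (1 : F) : Fin n → F))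
      = QuadraticMap.polarBilin Q v (∑ j, x j • (Pi.single j (1 : F) : Fin n → F)) := rfl
  rw [this, map_sum]
  simp only [dotProduct, Cfsg.polarVec, map_smul, smul_eq_mul]
  apply Finset.sum_congr rfl
  intro j _
  rw [mul_comm]
  rfl

open Matrix in
theorem siegel_mulVec {F : Type*} [Field F] {n : ℕ} (Q : QuadraticForm F (Fin n → F)) (u v : Fin n → F) (c : F)
    (x : Fin n → F) :
    (Cfsg.siegelMatrix (⇑Q) u v c).mulVec x
      = x + (c * QuadraticMap.polar (⇑Q) u x) • v - (c * QuadraticMap.polar (⇑Q) v x) • u := by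
  unfold Cfsg.siegelMatrix
  rw [Matrix.add_mulVec, Matrix.one_mulVec, Matrix.smul_mulVec, Matrix.sub_mulVec,
    Matrix.vecMulVec_mulVec, Matrix.vecMulVec_mulVec, polarVec_dot, polarVec_dot]
  ext i
  simp
  ring

/-- Root elements: if Q(u) = Q(v) = 0 and f(u, v) = 0 (f the polar form), then for every c the Siegel matrix T_(u,v)(c) preserves Q, fixes u and v, and T(c) T(d) = T(c + d). -/
theorem result {F : Type*} [Field F] {n : ℕ} (Q : QuadraticForm F (Fin n → F)) (u v : Fin n → F) (hu : Q u = 0) (hv : Q v = 0) (huv : QuadraticMap.polar ⇑Q u v = 0) : (∀ c x, Q ((Cfsg.siegelMatrix ⇑Q u v c).mulVec x) = Q x) ∧ (∀ c, (Cfsg.siegelMatrix ⇑Q u v c).mulVec u = u ∧ (Cfsg.siegelMatrix ⇑Q u v c).mulVec v = v) ∧ ∀ c d, Cfsg.siegelMatrix ⇑Q u v c * Cfsg.siegelMatrix ⇑Q u v d = Cfsg.siegelMatrix ⇑Q u v (c + d) := by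
  have hvu : QuadraticMap.polar (⇑Q) v u = 0 := by rw [QuadraticMap.polar_comm]; exact huv
  have huu : QuadraticMap.polar (⇑Q) u u = 0 := by
    rw [QuadraticMap.polar_self, hu]; simp
  have hvv : QuadraticMap.polar (⇑Q) v v = 0 := by
    rw [QuadraticMap.polar_self, hv]; simp
  refine ⟨?_, ?_, ?_⟩
  · intro c x
    rw [siegel_mulVec]
    set a := c * QuadraticMap.polar (⇑Q) u x with ha
    set b := c * QuadraticMap.polar (⇑Q) v x with hb
    have h1 : Q (x + a • v - b • u) = Q (x + a • v) + Q (-(b • u)) + QuadraticMap.polar (⇑Q) (x + a • v) (-(b • u)) := by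
      rw [sub_eq_add_neg]
      unfold QuadraticMap.polar
      ring
    have h2 : Q (x + a • v) = Q x + Q (a • v) + QuadraticMap.polar (⇑Q) x (a • v) := by
      unfold QuadraticMap.polar
      ring
    rw [h1, h2]
    simp only [QuadraticMap.map_neg, QuadraticMap.map_smul, QuadraticMap.polar_neg_right,
      QuadraticMap.polar_smul_right, QuadraticMap.polar_add_left, QuadraticMap.polar_smul_left, hu, hv, hvu,
      smul_eq_mul]
    rw [QuadraticMap.polar_comm (⇑Q) x v, QuadraticMap.polar_comm (⇑Q) x u, ha, hb]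
    ring
  · intro c
    constructor
    · rw [siegel_mulVec, huu, hvu]; simp
    · rw [siegel_mulVec, huv, hvv]; simp
  · intro c d
    apply Matrix.toLin'.injective
    apply LinearMap.ext
    intro x
    rw [Matrix.toLin'_mul, LinearMap.comp_apply]
    simp only [Matrix.toLin'_apply]
    rw [siegel_mulVec, siegel_mulVec, siegel_mulVec]
    simp only [QuadraticMap.polar_add_right, QuadraticMap.polar_sub_right, QuadraticMap.polar_smul_right, huu, hvv, huv, hvu, smul_eq_mul]
    ext i
    simp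
    ring

end Cfsg.Agent.S0793
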