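import Cfsg.Statements.S0794
import Cfsg.Agent.H18.Quad
import Cfsg.Agent.S0793

set_option autoImplicit false
open Cfsg

namespace Cfsg.Agent.S0794

open Matrix Cfsg.Agent.H18

/-- The involution negating the hyperbolic pair `u, u'`. -/
noncomputable def hypNeg {F : Type*} [Field F] {n : ℕ} (Q : QuadraticForm F (Fin n → F)) (u u' : Fin n → F) :
    Matrix (Fin n) (Fin n) F :=
  1 - (2 : F) • (Matrix.vecMulVec u (Cfsg.polarVec (⇑Q) u') + Matrix.vecMulVec u' (Cfsg.polarVec (⇑Q) u))

theorem hypNeg_mulVec {F : Type*} [Field F] {n : ℕ} (Q : QuadraticForm F (Fin n → F)) (u u' x : Fin n → F) :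
    hypNeg Q u u' *ᵥ x = x - (2 * QuadraticMap.polar (⇑Q) u' x) • u - (2 * QuadraticMap.polar (⇑Q) u x) • u' := by
  unfold hypNeg
  rw [Matrix.sub_mulVec, Matrix.one_mulVec, Matrix.smul_mulVec, Matrix.add_mulVec,
    vecMulVec_polarVec_mulVec, vecMulVec_polarVec_mulVec]
  ext i
  simp
  ring

/-- For q odd, n ≥ 5 and Q with non-degenerate polar form: an isometry whose matrix is a Siegel transformation T_(u,v)(c) (u, v singular and orthogonal) is a commutator in the isometry group, so lies in Ω. -/
theorem result {F : Type*} [Field F] [Fintype F] (h2 : (2 : F) ≠ 0) {n : ℕ} (hn : 5 ≤ n) (Q : QuadraticForm F (Fin n → F)) (hQ : (QuadraticMap.polarBilin Q).Nondegenerate) (u v : Fin n → F) (hu : Q u = 0) (hv : Q v = 0) (huv : QuadraticMap.polar ⇑Q u v = 0) (c : F) (g : ↥(Cfsg.isometryGroup F ⇑Q)) (hg : ((g : Matrix.GeneralLinearGroup (Fin n) F) : Matrix (Fin n) (Fin n) F) = Cfsg.siegelMatrix ⇑Q u v c) : g ∈ commutatorSet ↥(Cfsg.isometryGroup F ⇑Q) ∧ g ∈ Cfsg.Omega F ⇑Q := by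
  suffices hmain : g ∈ commutatorSet ↥(Cfsg.isometryGroup F ⇑Q) by
    refine ⟨hmain, ?_⟩
    show g ∈ commutator ↥(Cfsg.isometryGroup F ⇑Q)
    rw [commutator_eq_closure]
    exact Subgroup.subset_closure hmain
  have hvu : QuadraticMap.polar (⇑Q) v u = 0 := by rw [QuadraticMap.polar_comm]; exact huv
  have huu : QuadraticMap.polar (⇑Q) u u = 0 := by
    rw [QuadraticMap.polar_self, hu]; simp
  have hvv : QuadraticMap.polar (⇑Q) v v = 0 := by
    rw [QuadraticMap.polar_self, hv]; simp
  by_cases hex : ∃ x, QuadraticMap.polar (⇑Q) u x ≠ 0 ∧ QuadraticMap.polar (⇑Q) v x = 0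
  · obtain ⟨x₀, hx₀u, hx₀v⟩ := hex
    -- normalise
    obtain ⟨x, hxu, hxv⟩ : ∃ x, QuadraticMap.polar (⇑Q) u x = 1 ∧ QuadraticMap.polar (⇑Q) v x = 0 := by
      refine ⟨(QuadraticMap.polar (⇑Q) u x₀)⁻¹ • x₀, ?_, ?_⟩
      · rw [QuadraticMap.polar_smul_right, smul_eq_mul, inv_mul_cancel₀ hx₀u]
      · rw [QuadraticMap.polar_smul_right, hx₀v, smul_zero]
    -- the singular partner of u
    obtain ⟨u', hQu', huu', hvu'⟩ : ∃ u', Q u' = 0 ∧ QuadraticMap.polar (⇑Q) u u' = 1 ∧
        QuadraticMap.polar (⇑Q) v u' = 0 := by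
      refine ⟨x - Q x • u, ?_, ?_, ?_⟩
      · rw [Q_sub, QuadraticMap.map_smul, hu, QuadraticMap.polar_smul_right,
          QuadraticMap.polar_comm, hxu]
        simp
      · rw [QuadraticMap.polar_sub_right, QuadraticMap.polar_smul_right, hxu, huu]
        simp
      · rw [QuadraticMap.polar_sub_right, QuadraticMap.polar_smul_right, hxv, hvu]
        simp
    have hu'u : QuadraticMap.polar (⇑Q) u' u = 1 := by rw [QuadraticMap.polar_comm]; exact huu'
    have hu'v : QuadraticMap.polar (⇑Q) u' v = 0 := by rw [QuadraticMap.polar_comm]; exact hvu'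
    have hu'u' : QuadraticMap.polar (⇑Q) u' u' = 0 := by
      rw [QuadraticMap.polar_self, hQu']; simp
    -- the involution D
    have hDD : hypNeg Q u u' * hypNeg Q u u' = 1 := by
      apply matrix_eq_of_mulVec
      intro y
      rw [← Matrix.mulVec_mulVec, hypNeg_mulVec, hypNeg_mulVec, Matrix.one_mulVec]
      simp only [QuadraticMap.polar_sub_right, QuadraticMap.polar_smul_right, huu, hu'u', huu', hu'u, smul_eq_mul]
      ext i
      simp
      ring
    have hDQ : ∀ y, Q (hypNeg Q u u' *ᵥ y) = Q y := by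
      intro y
      rw [hypNeg_mulVec, Q_sub, Q_sub]
      simp only [QuadraticMap.map_smul, QuadraticMap.polar_sub_left, QuadraticMap.polar_smul_left,
        QuadraticMap.polar_smul_right, hu, hQu', huu', smul_eq_mul]
      rw [QuadraticMap.polar_comm (⇑Q) y u, QuadraticMap.polar_comm (⇑Q) y u']
      ring
    obtain ⟨d, hd⟩ := exists_isometry_of_matrix (⇑Q) (hypNeg Q u u') (hypNeg Q u u') hDD hDQ
    -- the Siegel element with parameter -c/2
    have hS := Cfsg.Agent.S0793.result Q u v hu hv huv
    have hT0 : Cfsg.siegelMatrix (⇑Q) u v 0 = 1 := by simp [Cfsg.siegelMatrix]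
    obtain ⟨s, hs⟩ := exists_isometry_of_matrix (⇑Q) (Cfsg.siegelMatrix (⇑Q) u v (-c / 2))
      (Cfsg.siegelMatrix (⇑Q) u v (c / 2)) (by rw [hS.2.2, ← hT0]; congr 1; ring) (hS.1 _)
    apply mem_commSet_of_mul_eq g d s
    apply isometry_ext
    rw [isometry_coe_mul, isometry_coe_mul, isometry_coe_mul, hd, hs, hg]
    apply matrix_eq_of_mulVec
    intro y
    rw [← Matrix.mulVec_mulVec, ← Matrix.mulVec_mulVec, ← Matrix.mulVec_mulVec, siegel_mulVec, siegel_mulVec,
      hypNeg_mulVec, hypNeg_mulVec, siegel_mulVec]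
    simp only [QuadraticMap.polar_sub_right, QuadraticMap.polar_add_right, QuadraticMap.polar_smul_right, huu, huu', hu'u, hvu, hvv, huv, hvu', hu'v, smul_eq_mul]
    ext i
    simp
    field_simp
    ring
  · -- degenerate case: the Siegel matrix is the identity
    simp only [not_exists, not_and] at hex
    have hT1 : Cfsg.siegelMatrix (⇑Q) u v c = 1 := by
      apply matrix_eq_of_mulVec
      intro y
      rw [siegel_mulVec, Matrix.one_mulVec]
      by_cases hv0 : ∀ z, QuadraticMap.polar (⇑Q) v z = 0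
      · have hu0 : ∀ z, QuadraticMap.polar (⇑Q) u z = 0 := fun z => by
          by_contra hz
          exact hex z hz (hv0 z)
        rw [hv0 y, hu0 y]; simp
      · simp only [not_forall] at hv0
        obtain ⟨z, hz⟩ := hv0
        set lam := QuadraticMap.polar (⇑Q) u z / QuadraticMap.polar (⇑Q) v z with hlam
        have hker : ∀ w, QuadraticMap.polar (⇑Q) u w = lam * QuadraticMap.polar (⇑Q) v w := by
          intro w
          have h0 : QuadraticMap.polar (⇑Q) v (w - (QuadraticMap.polar (⇑Q) v w / QuadraticMap.polar (⇑Q) v z) • z) = 0 := by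
            rw [QuadraticMap.polar_sub_right, QuadraticMap.polar_smul_right, smul_eq_mul]
            field_simp
            ring
          have h1 : QuadraticMap.polar (⇑Q) u (w - (QuadraticMap.polar (⇑Q) v w / QuadraticMap.polar (⇑Q) v z) • z) = 0 := by
            by_contra h
            exact hex _ h h0
          rw [QuadraticMap.polar_sub_right, QuadraticMap.polar_smul_right, smul_eq_mul] at h1
          rw [hlam]
          field_simp
          field_simp at h1
          linear_combination h1
        have hulv : u = lam • v := by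
          have := hQ.1 (u - lam • v) (fun w => by
            show QuadraticMap.polar (⇑Q) (u - lam • v) w = 0
            rw [QuadraticMap.polar_sub_left, QuadraticMap.polar_smul_left, hker w, smul_eq_mul, sub_self])
          exact sub_eq_zero.mp this
        rw [hker y, hulv]
        ext i
        simp
        ring
    have hg1 : g = 1 := by
      apply isometry_ext
      rw [hg, hT1, isometry_coe_one]
    rw [hg1]
    exact one_mem_commutatorSet _

end Cfsg.Agent.S0794
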