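import Cfsg.Statements.S0838

set_option autoImplicit false
open Cfsg

namespace Cfsg.Agent.S0838

/-- binary diagonal forms over a finite field of odd characteristic are universal -/
theorem binary_universal {F : Type*} [Field F] [Fintype F] (h2 : (2 : F) ≠ 0) (a b c : F) (ha : a ≠ 0)
    (hb : b ≠ 0) : ∃ s t : F, a * s ^ 2 + b * t ^ 2 = c := by
  have hcard : Fintype.card F % 2 = 1 := by
    apply FiniteField.odd_card_of_char_ne_two
    intro h
    apply h2
    have := ringChar.Nat.cast_ringChar (R := F)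
    rw [h] at this
    exact_mod_cast this
  have hf : (Polynomial.C a * Polynomial.X ^ 2 : Polynomial F).degree = 2 := by
    rw [Polynomial.degree_C_mul_X_pow 2 ha]; rfl
  have hg : (Polynomial.C b * Polynomial.X ^ 2 - Polynomial.C c : Polynomial F).degree = 2 := by
    rw [Polynomial.degree_sub_C (by rw [Polynomial.degree_C_mul_X_pow 2 hb]; norm_num),
      Polynomial.degree_C_mul_X_pow 2 hb]; rfl
  obtain ⟨x, y, hxy⟩ := FiniteField.exists_root_sum_quadratic hf hg hcard
  simp only [Polynomial.eval_mul, Polynomial.eval_C, Polynomial.eval_pow, Polynomial.eval_X,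
    Polynomial.eval_sub] at hxy
  exact ⟨x, y, by linear_combination hxy⟩

section sweep

variable {F : Type*} [Field F] {V : Type*} [AddCommGroup V] [Module F V] (Q : QuadraticForm F V)

theorem Q_add (x y : V) : Q (x + y) = Q x + Q y + QuadraticMap.polar (⇑Q) x y := by
  unfold QuadraticMap.polar
  ring

/-- the partial-product sequence of norms of a family -/
noncomputable def normSeq {m : ℕ} (v : Fin m → V) (j : ℕ) : F :=
  if h : j < m then Q (v ⟨j, h⟩) else 1

/-- Sweep an orthogonal family: make the first `k` norms equal to `c`. -/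
theorem sweep [Fintype F] (h2 : (2 : F) ≠ 0) (c : F) (hc : c ≠ 0) {m : ℕ} (v : Fin m → V)
    (hO : ∀ i j, i ≠ j → QuadraticMap.polar (⇑Q) (v i) (v j) = 0) (hA : ∀ i, Q (v i) ≠ 0) :
    ∀ (k : ℕ) (hk : k < m), ∃ v' : Fin m → V,
      (∀ i j, i ≠ j → QuadraticMap.polar (⇑Q) (v' i) (v' j) = 0) ∧ (∀ i, Q (v' i) ≠ 0) ∧
      (∀ i : Fin m, (i : ℕ) < k → Q (v' i) = c) ∧ (∀ i : Fin m, k < (i : ℕ) → v' i = v i) ∧
      Q (v' ⟨k, hk⟩) = c ^ k * ∏ j ∈ Finset.range (k + 1), normSeq Q v j := by
  intro k
  induction k with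
  | zero =>
    intro hk
    refine ⟨v, hO, hA, fun i hi => absurd hi (Nat.not_lt_zero _), fun i _ => rfl, ?_⟩
    simp [normSeq, hk]
  | succ k ih =>
    intro hk
    obtain ⟨v', hO', hA', hc', hv', hlast⟩ := ih (by omega)
    set i₀ : Fin m := ⟨k, by omega⟩ with hi₀
    set i₁ : Fin m := ⟨k + 1, hk⟩ with hi₁
    have h01 : i₀ ≠ i₁ := by
      intro h
      have := congrArg Fin.val h
      simp [hi₀, hi₁] at this
    set a := Q (v' i₀) with ha
    set b := Q (v' i₁) with hb
    have ha0 : a ≠ 0 := hA' i₀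
    have hb0 : b ≠ 0 := hA' i₁
    obtain ⟨s, t, hst⟩ := binary_universal h2 a b c ha0 hb0
    have hpq : QuadraticMap.polar (⇑Q) (v' i₀) (v' i₁) = 0 := hO' i₀ i₁ h01
    have hqp : QuadraticMap.polar (⇑Q) (v' i₁) (v' i₀) = 0 := hO' i₁ i₀ h01.symm
    have hpp : QuadraticMap.polar (⇑Q) (v' i₀) (v' i₀) = 2 * a := by
      rw [QuadraticMap.polar_self, ha]; simp [two_mul]
    have hqq : QuadraticMap.polar (⇑Q) (v' i₁) (v' i₁) = 2 * b := by
      rw [QuadraticMap.polar_self, hb]; simp [two_mul]
    set x : V := s • v' i₀ + t • v' i₁ with hx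
    set y : V := (-(b * t)) • v' i₀ + (a * s) • v' i₁ with hy
    have hQx : Q x = c := by
      rw [hx, Q_add, QuadraticMap.map_smul, QuadraticMap.map_smul, QuadraticMap.polar_smul_left,
        QuadraticMap.polar_smul_right, hpq, ← ha, ← hb]
      simp only [smul_eq_mul]
      linear_combination hst
    have hQy : Q y = a * b * c := by
      rw [hy, Q_add, QuadraticMap.map_smul, QuadraticMap.map_smul, QuadraticMap.polar_smul_left,
        QuadraticMap.polar_smul_right, hpq, ← ha, ← hb]
      simp only [smul_eq_mul]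
      linear_combination (a * b) * hst
    have hxy : QuadraticMap.polar (⇑Q) x y = 0 := by
      rw [hx, hy]
      simp only [QuadraticMap.polar_add_left, QuadraticMap.polar_add_right, QuadraticMap.polar_smul_left,
        QuadraticMap.polar_smul_right, hpq, hqp, hpp, hqq, smul_eq_mul]
      ring
    have hyx : QuadraticMap.polar (⇑Q) y x = 0 := by rw [QuadraticMap.polar_comm]; exact hxy
    have hxj : ∀ j, j ≠ i₀ → j ≠ i₁ → QuadraticMap.polar (⇑Q) x (v' j) = 0 := by
      intro j hj0 hj1
      rw [hx]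
      simp only [QuadraticMap.polar_add_left, QuadraticMap.polar_smul_left,
        hO' i₀ j (Ne.symm hj0), hO' i₁ j (Ne.symm hj1), smul_eq_mul]
      ring
    have hyj : ∀ j, j ≠ i₀ → j ≠ i₁ → QuadraticMap.polar (⇑Q) y (v' j) = 0 := by
      intro j hj0 hj1
      rw [hy]
      simp only [QuadraticMap.polar_add_left, QuadraticMap.polar_smul_left,
        hO' i₀ j (Ne.symm hj0), hO' i₁ j (Ne.symm hj1), smul_eq_mul]
      ring
    refine ⟨fun i => if i = i₀ then x else if i = i₁ then y else v' i, ?_, ?_, ?_, ?_, ?_⟩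
    · intro i j hij
      by_cases hi0 : i = i₀
      · subst hi0
        by_cases hj1 : j = i₁
        · subst hj1
          simp only [if_true, if_neg (Ne.symm hij)]
          exact hxy
        · simp only [if_true, if_neg (Ne.symm hij), if_neg hj1]
          exact hxj j (Ne.symm hij) hj1
      · by_cases hi1 : i = i₁
        · subst hi1
          by_cases hj0 : j = i₀
          · subst hj0
            simp only [if_true, if_neg hi0]
            exact hyx
          · simp only [if_true, if_neg hi0, if_neg hj0, if_neg (Ne.symm hij)]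
            exact hyj j hj0 (Ne.symm hij)
        · by_cases hj0 : j = i₀
          · subst hj0
            simp only [if_true, if_neg hi0, if_neg hi1]
            rw [QuadraticMap.polar_comm]
            exact hxj i hi0 hi1
          · by_cases hj1 : j = i₁
            · subst hj1
              simp only [if_true, if_neg hi0, if_neg hi1, if_neg hj0]
              rw [QuadraticMap.polar_comm]
              exact hyj i hi0 hi1
            · simp only [if_neg hi0, if_neg hi1, if_neg hj0, if_neg hj1]
              exact hO' i j hij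
    · intro i
      by_cases hi0 : i = i₀
      · simp only [if_pos hi0]; rw [hQx]; exact hc
      · by_cases hi1 : i = i₁
        · simp only [if_neg hi0, if_pos hi1]; rw [hQy]
          exact mul_ne_zero (mul_ne_zero ha0 hb0) hc
        · simp only [if_neg hi0, if_neg hi1]; exact hA' i
    · intro i hi
      by_cases hi0 : i = i₀
      · simp only [if_pos hi0]; exact hQx
      · have hi1 : i ≠ i₁ := by
          intro h
          rw [h, hi₁] at hi
          simp at hi
        have hik : (i : ℕ) < k := by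
          have : (i : ℕ) ≠ k := fun h => hi0 (Fin.ext h)
          omega
        simp only [if_neg hi0, if_neg hi1]
        exact hc' i hik
    · intro i hi
      have hi0 : i ≠ i₀ := by
        intro h
        rw [h, hi₀] at hi
        simp at hi
      have hi1 : i ≠ i₁ := by
        intro h
        rw [h, hi₁] at hi
        simp at hi
      simp only [if_neg hi0, if_neg hi1]
      exact hv' i (by omega)
    · show Q (if i₁ = i₀ then x else if i₁ = i₁ then y else v' i₁) = _
      simp only [if_neg h01.symm, if_true]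
      rw [hQy, hlast, hb, hv' i₁ (by simp [hi₁]), Finset.prod_range_succ _ (k + 1)]
      have e2 : normSeq Q v (k + 1) = Q (v i₁) := by
        simp [normSeq, hk, hi₁]
      rw [e2]
      ring

/-- the quadratic form in an orthogonal basis -/
theorem Q_sum_orthogonal [Invertible (2 : F)] {ι : Type*} [Fintype ι] (b : Module.Basis ι F V)
    (hO : ∀ i j, i ≠ j → QuadraticMap.polar (⇑Q) (b i) (b j) = 0) (w : ι → F) :
    Q (∑ i, w i • b i) = ∑ i, Q (b i) * (w i * w i) := by
  have h := QuadraticMap.basisRepr_eq_of_iIsOrtho Q b (by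
    intro i j hij
    show QuadraticMap.associated (R := F) Q (b i) (b j) = 0
    rw [QuadraticMap.associated_apply]
    have := hO i j hij
    unfold QuadraticMap.polar at this
    rw [this, smul_zero])
  have h2 := congrArg (fun q => q w) h
  simp only [QuadraticMap.basisRepr_apply, QuadraticMap.weightedSumSquares_apply, smul_eq_mul] at h2
  exact h2

end sweep

/-- Over a finite field with 2 ≠ 0 and n odd: two quadratic forms Q₁, Q₂ on F^n with non-degenerate polar forms are similar — there are an invertible linear map g and a scalar c ≠ 0 with Q₂ (g v) = c · Q₁ v for all v. -/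
theorem result {F : Type*} [Field F] [Fintype F] (h2 : (2 : F) ≠ 0) {n : ℕ} (hn : Odd n) (Q₁ Q₂ : QuadraticForm F (Fin n → F)) (h₁ : (QuadraticMap.polarBilin Q₁).Nondegenerate) (h₂ : (QuadraticMap.polarBilin Q₂).Nondegenerate) : ∃ (g : (Fin n → F) ≃ₗ[F] (Fin n → F)) (c : F), c ≠ 0 ∧ ∀ v, Q₂ (g v) = c * Q₁ v := by
  classical
  have inv2 : Invertible (2 : F) := invertibleOfNonzero h2
  have hfr : Module.finrank F (Fin n → F) = n := Module.finrank_fin_fun F
  -- initial orthogonal bases
  have key : ∀ Q : QuadraticForm F (Fin n → F), (QuadraticMap.polarBilin Q).Nondegenerate →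
      ∃ v : Fin n → (Fin n → F), (∀ i j, i ≠ j → QuadraticMap.polar (⇑Q) (v i) (v j) = 0) ∧
        (∀ i, Q (v i) ≠ 0) := by
    intro Q hQ
    have hsymm : LinearMap.IsSymm (QuadraticMap.polarBilin Q) := by
      constructor
      intro x y
      simp [QuadraticMap.polar_comm]
    obtain ⟨b, hb⟩ := LinearMap.BilinForm.exists_orthogonal_basis hsymm
    have hbO : ∀ i j, i ≠ j → QuadraticMap.polar (⇑Q) (b i) (b j) = 0 := fun i j hij => hb hij
    have hbA : ∀ i, Q (b i) ≠ 0 := by
      intro i h0
      have hz : b i = 0 := by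
        apply hQ.1
        intro y
        rw [← b.sum_repr y, map_sum]
        apply Finset.sum_eq_zero
        intro j _
        rw [map_smul, QuadraticMap.polarBilin_apply_apply]
        by_cases hij : i = j
        · subst hij
          rw [QuadraticMap.polar_self, h0]; simp
        · rw [hbO i j hij]; simp
      exact b.ne_zero i hz
    refine ⟨fun i => b (Fin.cast hfr.symm i), ?_, ?_⟩
    · intro i j hij
      apply hbO
      intro h
      apply hij
      exact Fin.cast_injective _ h
    · intro i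
      exact hbA _
  obtain ⟨v₁, hO₁, hA₁⟩ := key Q₁ h₁
  obtain ⟨v₂, hO₂, hA₂⟩ := key Q₂ h₂
  obtain ⟨r, hr⟩ := hn
  have hpos : n - 1 < n := by omega
  set D₁ := ∏ j ∈ Finset.range (n - 1 + 1), normSeq Q₁ v₁ j with hD₁
  set D₂ := ∏ j ∈ Finset.range (n - 1 + 1), normSeq Q₂ v₂ j with hD₂
  have hD₁0 : D₁ ≠ 0 := by
    rw [hD₁, Finset.prod_ne_zero_iff]
    intro j _
    unfold normSeq
    split_ifs with h
    · exact hA₁ _
    · exact one_ne_zero
  have hD₂0 : D₂ ≠ 0 := by
    rw [hD₂, Finset.prod_ne_zero_iff]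
    intro j _
    unfold normSeq
    split_ifs with h
    · exact hA₂ _
    · exact one_ne_zero
  set c := D₂ / D₁ with hcdef
  have hc0 : c ≠ 0 := div_ne_zero hD₂0 hD₁0
  obtain ⟨u₁, hu₁O, hu₁A, hu₁c, -, hu₁last⟩ := sweep Q₁ h2 1 one_ne_zero v₁ hO₁ hA₁ (n - 1) hpos
  obtain ⟨u₂, hu₂O, hu₂A, hu₂c, -, hu₂last⟩ := sweep Q₂ h2 c hc0 v₂ hO₂ hA₂ (n - 1) hpos
  set last : Fin n := ⟨n - 1, hpos⟩ with hlast
  set t := c ^ r with ht
  have ht0 : t ≠ 0 := pow_ne_zero _ hc0
  have hct : c ^ (n - 1) = t ^ 2 := by
    rw [ht, ← pow_mul]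
    congr 1
    omega
  -- rescale the last vector of the second family
  set w₂ : Fin n → (Fin n → F) := fun i => if i = last then t⁻¹ • u₂ i else u₂ i with hw₂
  have hw₂O : ∀ i j, i ≠ j → QuadraticMap.polar (⇑Q₂) (w₂ i) (w₂ j) = 0 := by
    intro i j hij
    simp only [hw₂]
    split_ifs <;>
      simp [QuadraticMap.polar_smul_left, QuadraticMap.polar_smul_right, hu₂O i j hij]
  have hw₂Q : ∀ i, Q₂ (w₂ i) = c * Q₁ (u₁ i) := by
    intro i
    by_cases hi : i = last
    · simp only [hw₂, if_pos hi]
      rw [QuadraticMap.map_smul, hi, hu₂last, hu₁last, hct, ← hD₁, ← hD₂, one_pow, one_mul, hcdef]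
      simp only [smul_eq_mul]
      field_simp
    · simp only [hw₂, if_neg hi]
      have hlt : (i : ℕ) < n - 1 := by
        have : (i : ℕ) ≠ n - 1 := fun h => hi (Fin.ext h)
        have := i.2
        omega
      rw [hu₂c i hlt, hu₁c i hlt, mul_one]
  have hw₂A : ∀ i, Q₂ (w₂ i) ≠ 0 := by
    intro i
    rw [hw₂Q]
    exact mul_ne_zero hc0 (hu₁A i)
  -- bases
  have hne : Nonempty (Fin n) := ⟨last⟩
  have mkBasis : ∀ (Q : QuadraticForm F (Fin n → F)) (u : Fin n → (Fin n → F)),
      (∀ i j, i ≠ j → QuadraticMap.polar (⇑Q) (u i) (u j) = 0) → (∀ i, Q (u i) ≠ 0) →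
      ∃ b : Module.Basis (Fin n) F (Fin n → F), ⇑b = u := by
    intro Q u hO hA
    have hli : LinearIndependent F u := by
      apply LinearMap.BilinForm.linearIndependent_of_iIsOrtho (B := QuadraticMap.polarBilin Q)
      · intro i j hij
        exact hO i j hij
      · intro i
        rw [QuadraticMap.polarBilin_apply_apply, QuadraticMap.polar_self]
        simp only [nsmul_eq_mul]
        push_cast
        exact mul_ne_zero h2 (hA i)
    exact ⟨basisOfLinearIndependentOfCardEqFinrank hli (by rw [hfr]; simp),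
      coe_basisOfLinearIndependentOfCardEqFinrank _ _⟩
  obtain ⟨b₁, hb₁⟩ := mkBasis Q₁ u₁ hu₁O hu₁A
  obtain ⟨b₂, hb₂⟩ := mkBasis Q₂ w₂ hw₂O hw₂A
  refine ⟨b₁.equiv b₂ (Equiv.refl _), c, hc0, ?_⟩
  intro x
  have hx : x = ∑ i, (b₁.repr x) i • b₁ i := (b₁.sum_repr x).symm
  have hgx : (b₁.equiv b₂ (Equiv.refl _)) x = ∑ i, (b₁.repr x) i • b₂ i := by
    conv_lhs => rw [hx]
    rw [map_sum]
    apply Finset.sum_congr rfl
    intro i _
    rw [map_smul, Module.Basis.equiv_apply]
    rfl
  rw [hgx, Q_sum_orthogonal Q₂ b₂ (by rw [hb₂]; exact hw₂O)]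
  conv_rhs => rw [hx, Q_sum_orthogonal Q₁ b₁ (by rw [hb₁]; exact hu₁O)]
  rw [Finset.mul_sum]
  apply Finset.sum_congr rfl
  intro i _
  rw [hb₂, hb₁, hw₂Q]
  ring

end Cfsg.Agent.S0838
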