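import Cfsg.Statements.S0798
import Cfsg.Agent.H18.Spin
import Cfsg.Agent.H18.IndexTwo
import Cfsg.Agent.S0838
import Cfsg.Agent.H49.Witt

set_option autoImplicit false
set_option linter.unusedSectionVars false
open Cfsg

namespace Cfsg.Agent.S0798

open Matrix Cfsg.Agent.H49

section
variable {F : Type*} [Field F] {ι : Type} [Fintype ι] [DecidableEq ι] (Q : QuadraticForm F (ι → F))

theorem Q_comb (u w : ι → F) (s t : F) :
    Q (s • u + t • w) = s ^ 2 * Q u + s * t * QuadraticMap.polar (⇑Q) u w + t ^ 2 * Q w := by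
  rw [Cfsg.Agent.H18.Q_add, QuadraticMap.map_smul, QuadraticMap.map_smul,
    QuadraticMap.polar_smul_left, QuadraticMap.polar_smul_right]
  simp only [smul_eq_mul]
  ring

theorem polar_comb_left (u w x : ι → F) (s t : F) :
    QuadraticMap.polar (⇑Q) (s • u + t • w) x =
      s * QuadraticMap.polar (⇑Q) u x + t * QuadraticMap.polar (⇑Q) w x := by
  rw [QuadraticMap.polar_add_left, QuadraticMap.polar_smul_left, QuadraticMap.polar_smul_left]
  simp only [smul_eq_mul]

theorem polar_comb_right (u w x : ι → F) (s t : F) :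
    QuadraticMap.polar (⇑Q) x (s • u + t • w) =
      s * QuadraticMap.polar (⇑Q) u x + t * QuadraticMap.polar (⇑Q) w x := by
  rw [QuadraticMap.polar_comm, polar_comb_left]

theorem polar_self2 (v : ι → F) : QuadraticMap.polar (⇑Q) v v = 2 * Q v := by
  rw [QuadraticMap.polar_self]; simp [two_smul, two_mul]

/-- the rotation lemma: `r_a r_b = r_u r_w` for `a = αu + βw`, `b = a·u·w` (Clifford product) -/
theorem rotation (u w : ι → F) (α β : F) (hu : Q u ≠ 0) (hw : Q w ≠ 0)
    (ha : Q (α • u + β • w) ≠ 0) :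
    Q ((-(β * Q w)) • u + (α * Q u + β * QuadraticMap.polar (⇑Q) u w) • w) =
      Q (α • u + β • w) * Q u * Q w ∧
    reflG Q (α • u + β • w) *
      reflG Q ((-(β * Q w)) • u + (α * Q u + β * QuadraticMap.polar (⇑Q) u w) • w) =
      reflG Q u * reflG Q w := by
  have hQb : Q ((-(β * Q w)) • u + (α * Q u + β * QuadraticMap.polar (⇑Q) u w) • w) =
      Q (α • u + β • w) * Q u * Q w := by
    rw [Q_comb, Q_comb]
    ring
  refine ⟨hQb, ?_⟩
  apply isometry_ext
  intro x
  rw [coe_mul_mulVec, coe_mul_mulVec, reflG_coe, reflG_coe, reflG_coe, reflG_coe,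
    reflectionMatrix_mulVec, reflectionMatrix_mulVec, reflectionMatrix_mulVec,
    reflectionMatrix_mulVec, hQb]
  simp only [QuadraticMap.polar_sub_right, QuadraticMap.polar_smul_right, smul_eq_mul,
    polar_comb_left, polar_comb_right, polar_self2, QuadraticMap.polar_comm (⇑Q) w u]
  have hDdef := Q_comb Q u w α β
  clear hQb
  generalize Q (α • u + β • w) = D at *
  generalize QuadraticMap.polar (⇑Q) u w = φ at *
  generalize QuadraticMap.polar (⇑Q) u x = X at *
  generalize QuadraticMap.polar (⇑Q) w x = Y at *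
  generalize Q u = A at *
  generalize Q w = C at *
  match_scalars <;> field_simp <;> (subst hDdef; ring)

/-- binary forms with non-zero discriminant over a finite field of odd characteristic are
universal -/
theorem binary_gen [Fintype F] (h2 : (2 : F) ≠ 0) (A B C d : F) (hA : A ≠ 0)
    (hD : B ^ 2 - 4 * A * C ≠ 0) : ∃ α β : F, A * α ^ 2 + B * α * β + C * β ^ 2 = d := by
  have h4 : (4 : F) ≠ 0 := by
    have : (4 : F) = 2 * 2 := by norm_num
    rw [this]; exact mul_ne_zero h2 h2
  obtain ⟨s, t, hst⟩ := Cfsg.Agent.S0838.binary_universal h2 A (-(B ^ 2 - 4 * A * C) / (4 * A)) d hA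
    (div_ne_zero (neg_ne_zero.mpr hD) (mul_ne_zero h4 hA))
  refine ⟨s - B / (2 * A) * t, t, ?_⟩
  rw [← hst]
  field_simp
  ring

/-- a quadratic form represents every scalar on the orthogonal complement of a non-degenerate
subspace of codimension at least two -/
theorem exists_norm_orth [Fintype F] (h2 : (2 : F) ≠ 0)
    (hQ : (QuadraticMap.polarBilin Q).Nondegenerate)
    (U : Submodule F (ι → F)) (hU : Module.finrank F U + 2 ≤ Fintype.card ι)
    (hUnd : U ⊓ LinearMap.BilinForm.orthogonal (QuadraticMap.polarBilin Q) U = ⊥) (d : F) :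
    ∃ y : ι → F, (∀ x ∈ U, QuadraticMap.polar (⇑Q) x y = 0) ∧ Q y = d := by
  obtain ⟨v₁, hv₁U, hv₁⟩ := Cfsg.Agent.H18.exists_anisotropic_orthogonal Q hQ U (by omega) hUnd
  rw [LinearMap.BilinForm.mem_orthogonal_iff] at hv₁U
  have hv₁U' : ∀ x ∈ U, QuadraticMap.polar (⇑Q) x v₁ = 0 := fun x hx => by
    have := hv₁U x hx
    rwa [QuadraticMap.polarBilin_apply_apply] at this
  have hnd' : (U ⊔ Submodule.span F {v₁}) ⊓
      LinearMap.BilinForm.orthogonal (QuadraticMap.polarBilin Q) (U ⊔ Submodule.span F {v₁}) = ⊥ := by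
    rw [eq_bot_iff]
    intro x hx
    obtain ⟨hx1, hx2⟩ := Submodule.mem_inf.mp hx
    rw [LinearMap.BilinForm.mem_orthogonal_iff] at hx2
    obtain ⟨x₀, hx₀, x₁, hx₁, rfl⟩ := Submodule.mem_sup.mp hx1
    obtain ⟨a, rfl⟩ := Submodule.mem_span_singleton.mp hx₁
    have hx₀0 : x₀ = 0 := by
      have : x₀ ∈ U ⊓ LinearMap.BilinForm.orthogonal (QuadraticMap.polarBilin Q) U := by
        refine Submodule.mem_inf.mpr ⟨hx₀, ?_⟩
        rw [LinearMap.BilinForm.mem_orthogonal_iff]
        intro y hy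
        have h := hx2 y (Submodule.mem_sup_left hy)
        rw [QuadraticMap.polarBilin_apply_apply, QuadraticMap.polar_add_right,
          QuadraticMap.polar_smul_right, hv₁U' y hy] at h
        rw [QuadraticMap.polarBilin_apply_apply]
        simpa using h
      rw [hUnd] at this
      exact (Submodule.mem_bot F).mp this
    subst hx₀0
    have h := hx2 v₁ (Submodule.mem_sup_right (Submodule.mem_span_singleton_self v₁))
    rw [QuadraticMap.polarBilin_apply_apply, zero_add, QuadraticMap.polar_smul_right,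
      polar_self2, smul_eq_mul] at h
    have ha : a = 0 := by
      rcases mul_eq_zero.mp h with h | h
      · exact h
      · rcases mul_eq_zero.mp h with h | h
        · exact absurd h h2
        · exact absurd h hv₁
    rw [ha, zero_smul, zero_add]
    exact Submodule.zero_mem _
  have hfin : Module.finrank F (U ⊔ Submodule.span F {v₁} : Submodule F (ι → F)) <
      Fintype.card ι := by
    have h1 := Submodule.finrank_add_le_finrank_add_finrank U (Submodule.span F {v₁})
    have h3 : Module.finrank F (Submodule.span F {v₁}) ≤ 1 := by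
      rw [finrank_span_singleton (by rintro rfl; exact hv₁ (map_zero Q))]
    omega
  obtain ⟨v₂, hv₂U, hv₂⟩ := Cfsg.Agent.H18.exists_anisotropic_orthogonal Q hQ _ hfin hnd'
  rw [LinearMap.BilinForm.mem_orthogonal_iff] at hv₂U
  have hv₂U' : ∀ x ∈ U ⊔ Submodule.span F {v₁}, QuadraticMap.polar (⇑Q) x v₂ = 0 := fun x hx => by
    have := hv₂U x hx
    rwa [QuadraticMap.polarBilin_apply_apply] at this
  have h12 : QuadraticMap.polar (⇑Q) v₁ v₂ = 0 :=
    hv₂U' v₁ (Submodule.mem_sup_right (Submodule.mem_span_singleton_self v₁))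
  obtain ⟨s, t, hst⟩ := Cfsg.Agent.S0838.binary_universal h2 (Q v₁) (Q v₂) d hv₁ hv₂
  refine ⟨s • v₁ + t • v₂, ?_, ?_⟩
  · intro x hx
    rw [QuadraticMap.polar_add_right, QuadraticMap.polar_smul_right, QuadraticMap.polar_smul_right,
      hv₁U' x hx, hv₂U' x (Submodule.mem_sup_left hx)]
    simp
  · rw [Q_comb, h12]
    linear_combination hst

/-- a hyperbolic partner of a singular vector inside the orthogonal complement of an
anisotropic vector -/
theorem exists_partner_orth (h2 : (2 : F) ≠ 0) (hQ : (QuadraticMap.polarBilin Q).Nondegenerate)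
    (u z : ι → F) (hu : Q u ≠ 0) (hz0 : z ≠ 0) (hz : Q z = 0)
    (huz : QuadraticMap.polar (⇑Q) u z = 0) :
    ∃ z' : ι → F, Q z' = 0 ∧ QuadraticMap.polar (⇑Q) z z' = 1 ∧
      QuadraticMap.polar (⇑Q) u z' = 0 := by
  obtain ⟨z₂, hz₂, hzz₂⟩ := Cfsg.Agent.H49.exists_hyp_partner Q (fun a h => hQ.1 a h) z hz0 hz
  have hzu : QuadraticMap.polar (⇑Q) z u = 0 := by rw [QuadraticMap.polar_comm]; exact huz
  set p := QuadraticMap.polar (⇑Q) u z₂ with hp
  have h2u : (2 : F) * Q u ≠ 0 := mul_ne_zero h2 hu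
  have h4 : (4 : F) ≠ 0 := by
    have : (4 : F) = 2 * 2 := by norm_num
    rw [this]; exact mul_ne_zero h2 h2
  refine ⟨z₂ - (p / (2 * Q u)) • u - (-(p ^ 2 / (4 * Q u))) • z, ?_, ?_, ?_⟩
  · have e1 : Q (z₂ - (p / (2 * Q u)) • u) = -(p ^ 2 / (4 * Q u)) := by
      rw [Cfsg.Agent.H49.quad_sub_smul, hz₂, ← hp]
      field_simp
      ring
    have e2 : QuadraticMap.polar (⇑Q) z (z₂ - (p / (2 * Q u)) • u) = 1 := by
      rw [QuadraticMap.polar_sub_right, QuadraticMap.polar_smul_right, hzz₂, hzu]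
      simp
    rw [Cfsg.Agent.H49.quad_sub_smul, e1, hz, e2]
    ring
  · rw [QuadraticMap.polar_sub_right, QuadraticMap.polar_sub_right, QuadraticMap.polar_smul_right,
      QuadraticMap.polar_smul_right, hzz₂, hzu, polar_self2, hz]
    simp
  · rw [QuadraticMap.polar_sub_right, QuadraticMap.polar_sub_right, QuadraticMap.polar_smul_right,
      QuadraticMap.polar_smul_right, ← hp, huz, polar_self2]
    simp only [smul_eq_mul]
    field_simp
    ring

theorem card_three [Fintype F] (h2 : (2 : F) ≠ 0) (h : ∀ τ : F, τ ≠ 0 → τ ^ 2 = 1) :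
    Fintype.card F = 3 := by
  classical
  have huniv : (Finset.univ : Finset F) = {0, 1, -1} := by
    ext x
    simp only [Finset.mem_univ, Finset.mem_insert, Finset.mem_singleton, true_iff]
    by_cases hx : x = 0
    · exact Or.inl hx
    · right
      have := h x hx
      have h' : (x - 1) * (x + 1) = 0 := by linear_combination this
      rcases mul_eq_zero.mp h' with h' | h'
      · left; linear_combination h'
      · right; linear_combination h'
  rw [← Finset.card_univ, huniv, Finset.card_insert_of_notMem, Finset.card_insert_of_notMem,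
    Finset.card_singleton]
  · simp only [Finset.mem_singleton]
    intro h1
    apply h2
    linear_combination h1
  · simp

/-- the intermediate vector -/
theorem exists_intermediate [Fintype F] (h2 : (2 : F) ≠ 0)
    (hQ : (QuadraticMap.polarBilin Q).Nondegenerate)
    (heven : Even (Fintype.card ι)) (h43 : ¬ (Fintype.card ι = 4 ∧ Fintype.card F = 3))
    (u w : ι → F) (hu : Q u ≠ 0) (hw : Q w ≠ 0)
    (hD : QuadraticMap.polar (⇑Q) u w ^ 2 - 4 * Q u * Q w = 0)
    (hz : QuadraticMap.polar (⇑Q) u w • u + (-(2 * Q u)) • w ≠ 0) :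
    ∃ (y : ι → F) (τ : F), τ ≠ 0 ∧ Q y = Q u * τ ^ 2 ∧
      QuadraticMap.polar (⇑Q) u y ^ 2 - 4 * Q u * Q y ≠ 0 ∧
      QuadraticMap.polar (⇑Q) y w ^ 2 - 4 * Q y * Q w ≠ 0 := by
  have h4 : (4 : F) ≠ 0 := by
    have : (4 : F) = 2 * 2 := by norm_num
    rw [this]; exact mul_ne_zero h2 h2
  have h2u : (2 : F) * Q u ≠ 0 := mul_ne_zero h2 hu
  set φ := QuadraticMap.polar (⇑Q) u w with hφ
  have hφ0 : φ ≠ 0 := by
    intro h0
    rw [h0] at hD
    have : (4 : F) * Q u * Q w ≠ 0 := mul_ne_zero (mul_ne_zero h4 hu) hw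
    apply this
    linear_combination -hD
  set z := φ • u + (-(2 * Q u)) • w with hzdef
  have hQz : Q z = 0 := by
    rw [hzdef, Q_comb, ← hφ]
    linear_combination (-(Q u)) * hD
  have huz : QuadraticMap.polar (⇑Q) u z = 0 := by
    rw [hzdef, polar_comb_right, polar_self2, QuadraticMap.polar_comm (⇑Q) w u, ← hφ]
    ring
  have hzy : ∀ y, QuadraticMap.polar (⇑Q) z y =
      φ * QuadraticMap.polar (⇑Q) u y + (-(2 * Q u)) * QuadraticMap.polar (⇑Q) w y := by
    intro y
    rw [hzdef, polar_comb_left]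
  obtain ⟨z', hz', hzz', huz'⟩ := exists_partner_orth Q h2 hQ u z hu hz hQz huz
  by_cases hτ : ∃ τ : F, τ ≠ 0 ∧ τ ^ 2 ≠ 4 * φ ^ 2
  · obtain ⟨τ, hτ0, hτ2⟩ := hτ
    have hy : Q ((1 : F) • z + (Q u * τ ^ 2) • z') = Q u * τ ^ 2 := by
      rw [Q_comb, hQz, hz', hzz']
      ring
    have huy : QuadraticMap.polar (⇑Q) u ((1 : F) • z + (Q u * τ ^ 2) • z') = 0 := by
      rw [polar_comb_right, QuadraticMap.polar_comm (⇑Q) z u, QuadraticMap.polar_comm (⇑Q) z' u,
        huz, huz']
      ring
    have hzy' : QuadraticMap.polar (⇑Q) z ((1 : F) • z + (Q u * τ ^ 2) • z') = Q u * τ ^ 2 := by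
      rw [polar_comb_right, polar_self2, hQz, QuadraticMap.polar_comm (⇑Q) z' z, hzz']
      ring
    refine ⟨(1 : F) • z + (Q u * τ ^ 2) • z', τ, hτ0, hy, ?_, ?_⟩
    · rw [huy, hy]
      have : (4 : F) * Q u * (Q u * τ ^ 2) ≠ 0 :=
        mul_ne_zero (mul_ne_zero h4 hu) (mul_ne_zero hu (pow_ne_zero 2 hτ0))
      intro h0
      apply this
      linear_combination -h0
    · rw [hy, QuadraticMap.polar_comm]
      have h1 := hzy ((1 : F) • z + (Q u * τ ^ 2) • z')
      rw [hzy', huy] at h1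
      set P := QuadraticMap.polar (⇑Q) w ((1 : F) • z + (Q u * τ ^ 2) • z') with hP
      have hP2 : 2 * P = -τ ^ 2 := by
        apply mul_left_cancel₀ hu
        linear_combination h1
      intro h0
      apply hτ2
      have h3 : τ ^ 2 * (τ ^ 2 - 4 * φ ^ 2) = 0 := by
        linear_combination 4 * h0 + (τ ^ 2 - 2 * P) * hP2 - 4 * τ ^ 2 * hD
      rcases mul_eq_zero.mp h3 with h3 | h3
      · exact absurd h3 (pow_ne_zero 2 hτ0)
      · linear_combination h3
  · push Not at hτ
    have h1 : (1 : F) = 4 * φ ^ 2 := by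
      have := hτ 1 one_ne_zero
      rw [one_pow] at this
      exact this
    have hcard : Fintype.card F = 3 := card_three h2 (fun τ hτ0 => by rw [hτ τ hτ0, ← h1])
    have hn4 : Fintype.card ι ≠ 4 := fun h => h43 ⟨h, hcard⟩
    have hzu : QuadraticMap.polar (⇑Q) z u = 0 := by rw [QuadraticMap.polar_comm]; exact huz
    have hz'u : QuadraticMap.polar (⇑Q) z' u = 0 := by rw [QuadraticMap.polar_comm]; exact huz'
    have hz'z : QuadraticMap.polar (⇑Q) z' z = 1 := by rw [QuadraticMap.polar_comm]; exact hzz'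
    have hli : LinearIndependent F ![u, z, z'] := by
      apply linearIndependent_of_dual Q ![u, z, z'] ![(2 * Q u)⁻¹ • u, z', z]
      intro i j
      fin_cases i <;> fin_cases j <;>
        simp [QuadraticMap.polar_smul_right, polar_self2, huz, huz', hzz', hzu, hz'u, hz'z, hQz,
          hz', h2, hu] <;> field_simp
    have hn3 : 3 ≤ Fintype.card ι := by
      have := hli.fintype_card_le_finrank
      rw [Module.finrank_fintype_fun_eq_card] at this
      simpa using this
    have hn6 : 6 ≤ Fintype.card ι := by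
      obtain ⟨r, hr⟩ := heven
      omega
    have hUfin : Module.finrank F (Submodule.span F {u, z, z'} : Submodule F (ι → F)) + 2 ≤
        Fintype.card ι := by
      classical
      have h3 : Module.finrank F (Submodule.span F {u, z, z'} : Submodule F (ι → F)) ≤ 3 := by
        have := finrank_span_finset_le_card (R := F) ({u, z, z'} : Finset (ι → F))
        have hc := Finset.card_le_three (a := u) (b := z) (c := z')
        have he : ((({u, z, z'} : Finset (ι → F)) : Set (ι → F))) = {u, z, z'} := by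
          simp
        rw [he] at this
        unfold Set.finrank at this
        omega
      omega
    have hUnd : Submodule.span F {u, z, z'} ⊓ LinearMap.BilinForm.orthogonal
        (QuadraticMap.polarBilin Q) (Submodule.span F {u, z, z'}) = ⊥ := by
      rw [eq_bot_iff]
      intro x hx
      obtain ⟨hx1, hx2⟩ := Submodule.mem_inf.mp hx
      rw [LinearMap.BilinForm.mem_orthogonal_iff] at hx2
      obtain ⟨a, b, c, rfl⟩ := Submodule.mem_span_triple.mp hx1
      have e1 := hx2 u (Submodule.subset_span (by simp))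
      have e2 := hx2 z (Submodule.subset_span (by simp))
      have e3 := hx2 z' (Submodule.subset_span (by simp))
      simp only [QuadraticMap.polarBilin_apply_apply,
        QuadraticMap.polar_add_right, QuadraticMap.polar_smul_right, polar_self2, huz, huz',
        hzz', hzu, hz'u, hz'z, hQz, hz', smul_eq_mul, mul_zero, add_zero, zero_add, mul_one] at e1 e2 e3
      have ha : a = 0 := by
        rcases mul_eq_zero.mp e1 with h | h
        · exact h
        · exact absurd h h2u
      rw [ha, e2, e3]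
      simp
    obtain ⟨y, hyU, hy⟩ := exists_norm_orth Q h2 hQ _ hUfin hUnd (Q u)
    have huy : QuadraticMap.polar (⇑Q) u y = 0 := hyU u (Submodule.subset_span (by simp))
    have hzy0 : QuadraticMap.polar (⇑Q) z y = 0 := hyU z (Submodule.subset_span (by simp))
    have hwy : QuadraticMap.polar (⇑Q) w y = 0 := by
      have h1 := hzy y
      rw [hzy0, huy] at h1
      apply mul_left_cancel₀ h2u
      linear_combination h1
    refine ⟨y, 1, one_ne_zero, by rw [hy]; ring, ?_, ?_⟩
    · rw [huy, hy]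
      have : (4 : F) * Q u * Q u ≠ 0 := mul_ne_zero (mul_ne_zero h4 hu) hu
      intro h0
      apply this
      linear_combination -h0
    · rw [QuadraticMap.polar_comm, hwy, hy]
      have : (4 : F) * Q u * Q w ≠ 0 := mul_ne_zero (mul_ne_zero h4 hu) hw
      intro h0
      apply this
      linear_combination -h0

section main
variable [Fintype F]

/-- vectors whose norm lies in the class `c·(F^×)²` -/
def Good (c : F) (v : ι → F) : Prop := ∃ t : F, t ≠ 0 ∧ Q v = c * t ^ 2

/-- the generating set of the statement -/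
def genSet (c : F) : Set ↥(Cfsg.isometryGroup F (⇑Q)) :=
  {g | ∃ (v : ι → F) (t : F), t ≠ 0 ∧ Q v = c * t ^ 2 ∧
    ((g : Matrix.GeneralLinearGroup ι F) : Matrix ι ι F) = Cfsg.reflectionMatrix (⇑Q) v}

theorem bad_char [DecidableEq F] (c : F) (hc : c ≠ 0) (u : ι → F) (hu : Q u ≠ 0)
    (hbad : ¬ Good Q c u) : quadraticChar F (Q u) = -quadraticChar F c := by
  have hns : ¬ IsSquare (Q u / c) := by
    rintro ⟨s, hs⟩
    apply hbad
    have hs0 : s ≠ 0 := by
      rintro rfl
      rw [mul_zero, div_eq_zero_iff] at hs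
      rcases hs with hs | hs
      · exact hu hs
      · exact hc hs
    refine ⟨s, hs0, ?_⟩
    rw [div_eq_iff hc] at hs
    rw [hs]; ring
  have h1 := quadraticChar_neg_one_iff_not_isSquare.mpr hns
  have h2 : Q u = Q u / c * c := by field_simp
  rw [h2, map_mul, h1]
  ring

theorem same_class (c : F) (hc : c ≠ 0) (u w : ι → F) (hu : Q u ≠ 0) (hw : Q w ≠ 0)
    (hbu : ¬ Good Q c u) (hbw : ¬ Good Q c w) : ∃ τ : F, τ ≠ 0 ∧ Q w = Q u * τ ^ 2 := by
  classical
  have h1 := bad_char Q c hc u hu hbu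
  have h2 := bad_char Q c hc w hw hbw
  have h3 : quadraticChar F (Q w * Q u) = 1 := by
    rw [map_mul, h1, h2]
    have := quadraticChar_sq_one hc
    linear_combination this
  obtain ⟨s, hs⟩ := (quadraticChar_one_iff_isSquare (mul_ne_zero hw hu)).mp h3
  have hs0 : s ≠ 0 := by
    rintro rfl
    rw [mul_zero] at hs
    exact mul_ne_zero hw hu hs
  refine ⟨s / Q u, div_ne_zero hs0 hu, ?_⟩
  field_simp
  linear_combination hs

theorem bad_of_class (c : F) (u y : ι → F) (τ : F) (hτ : τ ≠ 0) (hy : Q y = Q u * τ ^ 2)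
    (hbu : ¬ Good Q c u) : ¬ Good Q c y := by
  rintro ⟨t, ht, hyt⟩
  apply hbu
  refine ⟨t / τ, div_ne_zero ht hτ, ?_⟩
  rw [hy] at hyt
  field_simp
  linear_combination hyt

theorem K1 (h2 : (2 : F) ≠ 0) (c : F) (hc : c ≠ 0) (u w : ι → F) (hu : Q u ≠ 0) (hw : Q w ≠ 0)
    (hbu : ¬ Good Q c u) (hbw : ¬ Good Q c w)
    (hD : QuadraticMap.polar (⇑Q) u w ^ 2 - 4 * Q u * Q w ≠ 0) :
    reflG Q u * reflG Q w ∈ Subgroup.closure (genSet Q c) := by
  obtain ⟨τ, hτ, hwu⟩ := same_class Q c hc u w hu hw hbu hbw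
  obtain ⟨α, β, hαβ⟩ := binary_gen h2 (Q u) (QuadraticMap.polar (⇑Q) u w) (Q w) c hu hD
  have ha : Q (α • u + β • w) = c := by
    rw [Q_comb]
    linear_combination hαβ
  obtain ⟨hb, hrot⟩ := rotation Q u w α β hu hw (by rw [ha]; exact hc)
  rw [← hrot]
  apply Subgroup.mul_mem
  · exact Subgroup.subset_closure ⟨_, 1, one_ne_zero, by rw [ha]; ring, rfl⟩
  · exact Subgroup.subset_closure ⟨_, Q u * τ, mul_ne_zero hu hτ, by rw [hb, ha, hwu]; ring, rfl⟩

theorem K (h2 : (2 : F) ≠ 0) (hQ : (QuadraticMap.polarBilin Q).Nondegenerate)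
    (heven : Even (Fintype.card ι)) (h43 : ¬ (Fintype.card ι = 4 ∧ Fintype.card F = 3))
    (c : F) (hc : c ≠ 0) (u w : ι → F) (hu : Q u ≠ 0) (hw : Q w ≠ 0)
    (hbu : ¬ Good Q c u) (hbw : ¬ Good Q c w) :
    reflG Q u * reflG Q w ∈ Subgroup.closure (genSet Q c) := by
  by_cases hD : QuadraticMap.polar (⇑Q) u w ^ 2 - 4 * Q u * Q w = 0
  swap
  · exact K1 Q h2 c hc u w hu hw hbu hbw hD
  have h4 : (4 : F) ≠ 0 := by
    have : (4 : F) = 2 * 2 := by norm_num
    rw [this]; exact mul_ne_zero h2 h2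
  have h2u : (2 : F) * Q u ≠ 0 := mul_ne_zero h2 hu
  have hφ0 : QuadraticMap.polar (⇑Q) u w ≠ 0 := by
    intro h0
    rw [h0] at hD
    have : (4 : F) * Q u * Q w ≠ 0 := mul_ne_zero (mul_ne_zero h4 hu) hw
    apply this
    linear_combination -hD
  by_cases hz : QuadraticMap.polar (⇑Q) u w • u + (-(2 * Q u)) • w = 0
  · have hw' : w = (QuadraticMap.polar (⇑Q) u w / (2 * Q u)) • u := by
      have h1 : (2 * Q u) • w = QuadraticMap.polar (⇑Q) u w • u := by
        rw [neg_smul, ← sub_eq_add_neg, sub_eq_zero] at hz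
        exact hz.symm
      rw [div_eq_inv_mul, mul_smul, ← h1, smul_smul, inv_mul_cancel₀ h2u, one_smul]
    rw [hw', reflG_smul Q u (div_ne_zero hφ0 h2u), reflG_mul_self]
    exact Subgroup.one_mem _
  · obtain ⟨y, τ, hτ, hy, h1, h2'⟩ := exists_intermediate Q h2 hQ heven h43 u w hu hw hD hz
    have hby : ¬ Good Q c y := bad_of_class Q c u y τ hτ hy hbu
    have hy0 : Q y ≠ 0 := by rw [hy]; exact mul_ne_zero hu (pow_ne_zero 2 hτ)
    have e : reflG Q u * reflG Q w = (reflG Q u * reflG Q y) * (reflG Q y * reflG Q w) := by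
      rw [mul_assoc, ← mul_assoc (reflG Q y), reflG_mul_self, one_mul]
    rw [e]
    exact Subgroup.mul_mem _ (K1 Q h2 c hc u y hu hy0 hbu hby h1) (K1 Q h2 c hc y w hy0 hw hby hbw h2')

theorem gen_normal (c : F) : (Subgroup.closure (genSet Q c)).Normal := by
  have : Subgroup.closure (genSet Q c) = Subgroup.normalClosure (genSet Q c) := by
    apply le_antisymm Subgroup.closure_le_normalClosure
    rw [Subgroup.normalClosure]
    apply Subgroup.closure_mono
    intro x hx
    obtain ⟨a, ha, hax⟩ := Group.mem_conjugatesOfSet_iff.mp hx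
    obtain ⟨g, hg⟩ := isConj_iff.mp hax
    obtain ⟨v, t, ht, hv, hav⟩ := ha
    have hav' : a = reflG Q v := isometry_ext (by intro x; rw [hav, reflG_coe])
    subst hav'
    rw [← hg, conj_reflG]
    exact ⟨_, t, ht, by rw [isometry_apply g v, hv], rfl⟩
  rw [this]
  exact Subgroup.normalClosure_normal

theorem good_mem (c : F) (v : ι → F) (hv : Good Q c v) :
    reflG Q v ∈ Subgroup.closure (genSet Q c) := by
  obtain ⟨t, ht, hv⟩ := hv
  exact Subgroup.subset_closure ⟨v, t, ht, hv, rfl⟩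

theorem prod_claim (h2 : (2 : F) ≠ 0) (hQ : (QuadraticMap.polarBilin Q).Nondegenerate)
    (heven : Even (Fintype.card ι)) (h43 : ¬ (Fintype.card ι = 4 ∧ Fintype.card F = 3))
    (c : F) (hc : c ≠ 0) :
    ∀ vs : List (ι → F), (∀ v ∈ vs, Q v ≠ 0) →
      ((vs.map (reflG Q)).prod ∈ Subgroup.closure (genSet Q c) ∨
        ∀ u : ι → F, Q u ≠ 0 → ¬ Good Q c u →
          reflG Q u * (vs.map (reflG Q)).prod ∈ Subgroup.closure (genSet Q c))
  | [], _ => Or.inl (by simp)
  | v :: vs, h => by
    have hN := gen_normal Q c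
    have hv : Q v ≠ 0 := h v List.mem_cons_self
    have ih := prod_claim h2 hQ heven h43 c hc vs (fun y hy => h y (List.mem_cons_of_mem _ hy))
    rw [List.map_cons, List.prod_cons]
    by_cases hg : Good Q c v
    · rcases ih with ih | ih
      · exact Or.inl (Subgroup.mul_mem _ (good_mem Q c v hg) ih)
      · right
        intro u hu hbu
        have e : reflG Q u * (reflG Q v * (vs.map (reflG Q)).prod) =
            (reflG Q u * reflG Q v * (reflG Q u)⁻¹) * (reflG Q u * (vs.map (reflG Q)).prod) := by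
          group
        rw [e]
        exact Subgroup.mul_mem _ (hN.conj_mem _ (good_mem Q c v hg) _) (ih u hu hbu)
    · rcases ih with ih | ih
      · right
        intro u hu hbu
        rw [← mul_assoc]
        exact Subgroup.mul_mem _ (K Q h2 hQ heven h43 c hc u v hu hv hbu hg) ih
      · exact Or.inl (ih v hv hg)

theorem bad_not_mem [DecidableEq F] (h2 : (2 : F) ≠ 0)
    (hQ : (QuadraticMap.polarBilin Q).Nondegenerate)
    (hn : 2 ≤ Fintype.card ι) (c : F) (hc : c ≠ 0) (u₀ : ι → F) (hu₀ : Q u₀ ≠ 0)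
    (hbad : ¬ Good Q c u₀) : reflG Q u₀ ∉ Subgroup.closure (genSet Q c) := by
  obtain ⟨v₀, hv₀⟩ := Cfsg.Agent.H18.exists_norm_eq Q h2 hQ hn c
  have hv₀0 : Q v₀ ≠ 0 := by rw [hv₀]; exact hc
  set ψ : ↥(Cfsg.isometryGroup F (⇑Q)) →* Fˣ × ℤˣ :=
    (Cfsg.Agent.H18.detHom Q).prod (spinSign Q) with hψ
  have hle : Subgroup.closure (genSet Q c) ≤
      (Subgroup.zpowers (ψ (reflG Q v₀))).comap ψ := by
    rw [Subgroup.closure_le]
    rintro g ⟨v, t, ht, hv, hgv⟩
    have hgv' : g = reflG Q v := isometry_ext (by intro x; rw [hgv, reflG_coe])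
    subst hgv'
    have hv0 : Q v ≠ 0 := by rw [hv]; exact mul_ne_zero hc (pow_ne_zero 2 ht)
    have hsq : IsSquare (Q v) ↔ IsSquare (Q v₀) := by
      rw [hv, hv₀]
      constructor
      · rintro ⟨s, hs⟩
        refine ⟨s / t, ?_⟩
        field_simp
        linear_combination hs
      · rintro ⟨s, hs⟩
        refine ⟨s * t, ?_⟩
        rw [hs]; ring
    have : ψ (reflG Q v) = ψ (reflG Q v₀) := by
      rw [hψ, MonoidHom.prod_apply, MonoidHom.prod_apply, Cfsg.Agent.H18.detHom_reflG Q v hv0,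
        Cfsg.Agent.H18.detHom_reflG Q v₀ hv₀0, spinSign_reflG Q h2 v hv0,
        spinSign_reflG Q h2 v₀ hv₀0]
      simp only [hsq]
    rw [SetLike.mem_coe, Subgroup.mem_comap, this]
    exact Subgroup.mem_zpowers _
  intro hmem
  have hmem' := hle hmem
  rw [Subgroup.mem_comap] at hmem'
  have hyy : ψ (reflG Q v₀) * ψ (reflG Q v₀) = 1 := by
    rw [← map_mul, reflG_mul_self, map_one]
  have hψu : ψ (reflG Q u₀) = (-1, if IsSquare (Q u₀) then -1 else 1) := by
    rw [hψ, MonoidHom.prod_apply, Cfsg.Agent.H18.detHom_reflG Q u₀ hu₀, spinSign_reflG Q h2 u₀ hu₀]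
  have hψv : ψ (reflG Q v₀) = (-1, if IsSquare (Q v₀) then -1 else 1) := by
    rw [hψ, MonoidHom.prod_apply, Cfsg.Agent.H18.detHom_reflG Q v₀ hv₀0,
      spinSign_reflG Q h2 v₀ hv₀0]
  rcases Cfsg.Agent.H18.mem_zpowers_of_sq_eq_one _ hyy _ hmem' with h | h
  · rw [hψu] at h
    have h1 : (-1 : Fˣ) = 1 := congrArg Prod.fst h
    have h1' : ((-1 : Fˣ) : F) = ((1 : Fˣ) : F) := congrArg Units.val h1
    rw [Units.val_neg, Units.val_one] at h1'
    apply h2
    linear_combination -h1'
  · rw [hψu, hψv] at h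
    have h1 : (if IsSquare (Q u₀) then (-1 : ℤˣ) else 1) = if IsSquare (Q v₀) then -1 else 1 :=
      congrArg Prod.snd h
    have hχ := bad_char Q c hc u₀ hu₀ hbad
    rw [hv₀] at h1
    by_cases hs1 : IsSquare (Q u₀) <;> by_cases hs2 : IsSquare c
    · rw [(quadraticChar_one_iff_isSquare hu₀).mpr hs1, (quadraticChar_one_iff_isSquare hc).mpr hs2]
        at hχ
      norm_num at hχ
    · rw [if_pos hs1, if_neg hs2] at h1
      exact absurd h1 (by decide)
    · rw [if_neg hs1, if_pos hs2] at h1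
      exact absurd h1 (by decide)
    · rw [quadraticChar_neg_one_iff_not_isSquare.mpr hs1,
        quadraticChar_neg_one_iff_not_isSquare.mpr hs2] at hχ
      norm_num at hχ

theorem main (h2 : (2 : F) ≠ 0) (hQ : (QuadraticMap.polarBilin Q).Nondegenerate)
    (hn : 2 ≤ Fintype.card ι)
    (heven : Even (Fintype.card ι)) (h43 : ¬ (Fintype.card ι = 4 ∧ Fintype.card F = 3))
    (c : F) (hc : c ≠ 0) : (Subgroup.closure (genSet Q c)).index = 2 := by
  classical
  have hN := gen_normal Q c
  -- a bad vector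
  have hchar : ringChar F ≠ 2 := by
    intro h
    apply h2
    have := ringChar.Nat.cast_ringChar (R := F)
    rw [h] at this
    exact_mod_cast this
  obtain ⟨δ, hδ⟩ := FiniteField.exists_nonsquare hchar
  have hδ0 : δ ≠ 0 := by
    rintro rfl
    exact hδ ⟨0, by simp⟩
  obtain ⟨u₀, hu₀⟩ := Cfsg.Agent.H18.exists_norm_eq Q h2 hQ hn (c * δ)
  have hu₀0 : Q u₀ ≠ 0 := by rw [hu₀]; exact mul_ne_zero hc hδ0
  have hbad : ¬ Good Q c u₀ := by
    rintro ⟨t, ht, hut⟩
    apply hδ
    refine ⟨t, ?_⟩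
    rw [hu₀] at hut
    have := mul_left_cancel₀ hc hut
    rw [this]; ring
  have hnot := bad_not_mem Q h2 hQ hn c hc u₀ hu₀0 hbad
  rw [Subgroup.index_eq_two_iff]
  refine ⟨reflG Q u₀, fun b => ?_⟩
  by_cases hb : b ∈ Subgroup.closure (genSet Q c)
  · refine Or.inr ⟨hb, fun hba => hnot ?_⟩
    have := Subgroup.mul_mem _ (Subgroup.inv_mem _ hb) hba
    rwa [inv_mul_cancel_left] at this
  · refine Or.inl ⟨?_, hb⟩
    obtain ⟨vs, hvs, rfl⟩ := Cfsg.Agent.H18.exists_vectors Q h2 hQ b
    rcases prod_claim Q h2 hQ heven h43 c hc vs hvs with h | h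
    · exact absurd h hb
    · have h1 := h u₀ hu₀0 hbad
      have h3 := hN.conj_mem _ h1 (reflG Q u₀)
      rw [reflG_inv] at h3
      have e : reflG Q u₀ * (reflG Q u₀ * (vs.map (reflG Q)).prod) * reflG Q u₀ =
          (vs.map (reflG Q)).prod * reflG Q u₀ := by
        rw [← mul_assoc, reflG_mul_self, one_mul]
      rw [e] at h3
      exact h3

end main

end

theorem result {F : Type*} [Field F] [Fintype F] (h2 : (2 : F) ≠ 0) {n : ℕ} (hn : 2 ≤ n) (heven : Even n) (Q : QuadraticForm F (Fin n → F)) (hQ : (QuadraticMap.polarBilin Q).Nondegenerate) (h43 : ¬ (n = 4 ∧ Fintype.card F = 3)) (c : F) (hc : c ≠ 0) : (Subgroup.closure {g : ↥(Cfsg.isometryGroup F ⇑Q) | ∃ (v : Fin n → F) (t : F), t ≠ 0 ∧ Q v = c * t ^ 2 ∧ ((g : Matrix.GeneralLinearGroup (Fin n) F) : Matrix (Fin n) (Fin n) F) = Cfsg.reflectionMatrix ⇑Q v}).index = 2 :=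
  main Q h2 hQ (by rw [Fintype.card_fin]; exact hn) (by rwa [Fintype.card_fin])
    (by rwa [Fintype.card_fin]) c hc

end Cfsg.Agent.S0798
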