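import Cfsg.Statements.S0795
import Cfsg.Agent.S0793
import Cfsg.Agent.S0794
import Cfsg.Agent.S0798
import Cfsg.Agent.H49.CD

set_option autoImplicit false
set_option linter.unusedSectionVars false
open Cfsg

namespace Cfsg.Agent.S0795

open Matrix Cfsg.Agent.H49

/-- If the images of a generating set commute modulo a normal subgroup `T`, then `T` contains
the commutator subgroup. -/
theorem commutator_le_of_gens {G : Type*} [Group G] (T : Subgroup G) [T.Normal] (S : Set G)
    (hS : Subgroup.closure S = ⊤) (h : ∀ a ∈ S, ∀ b ∈ S, (a * b)⁻¹ * (b * a) ∈ T) :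
    commutator G ≤ T := by
  have h1 : ∀ a ∈ S, ∀ g : G, ((a : G ⧸ T) * (g : G ⧸ T)) = (g : G ⧸ T) * (a : G ⧸ T) := by
    intro a ha g
    have hle : Subgroup.closure S ≤
        (Subgroup.centralizer {((a : G) : G ⧸ T)}).comap (QuotientGroup.mk' T) := by
      rw [Subgroup.closure_le]
      intro b hb
      rw [SetLike.mem_coe, Subgroup.mem_comap, Subgroup.mem_centralizer_iff]
      intro x hx
      rw [Set.mem_singleton_iff] at hx
      subst hx
      rw [QuotientGroup.mk'_apply, ← QuotientGroup.mk_mul, ← QuotientGroup.mk_mul,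
        QuotientGroup.eq]
      exact h a ha b hb
    have hg : g ∈ Subgroup.closure S := by rw [hS]; exact Subgroup.mem_top g
    have := hle hg
    rw [Subgroup.mem_comap, Subgroup.mem_centralizer_iff] at this
    exact this _ rfl
  have h2 : ∀ x y : G ⧸ T, x * y = y * x := by
    intro x y
    obtain ⟨g, rfl⟩ := QuotientGroup.mk_surjective x
    obtain ⟨k, rfl⟩ := QuotientGroup.mk_surjective y
    have hle : Subgroup.closure S ≤
        (Subgroup.centralizer {((k : G) : G ⧸ T)}).comap (QuotientGroup.mk' T) := by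
      rw [Subgroup.closure_le]
      intro b hb
      rw [SetLike.mem_coe, Subgroup.mem_comap, Subgroup.mem_centralizer_iff]
      intro x hx
      rw [Set.mem_singleton_iff] at hx
      subst hx
      rw [QuotientGroup.mk'_apply]
      exact (h1 b hb k).symm
    have hg : g ∈ Subgroup.closure S := by rw [hS]; exact Subgroup.mem_top g
    have := hle hg
    rw [Subgroup.mem_comap, Subgroup.mem_centralizer_iff] at this
    exact (this _ rfl).symm
  let _ : CommGroup (G ⧸ T) := { (inferInstance : Group (G ⧸ T)) with mul_comm := h2 }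
  have := Abelianization.commutator_subset_ker (QuotientGroup.mk' T)
  rwa [QuotientGroup.ker_mk'] at this

section
variable {F : Type*} [Field F] {n : ℕ} (Q : QuadraticForm F (Fin n → F))

/-- the Siegel generating set -/
def siegelSet : Set ↥(Cfsg.isometryGroup F (⇑Q)) :=
  {g | ∃ (u v : Fin n → F) (c : F), Q u = 0 ∧ Q v = 0 ∧ QuadraticMap.polar (⇑Q) u v = 0 ∧
    ((g : Matrix.GeneralLinearGroup (Fin n) F) : Matrix (Fin n) (Fin n) F) =
      Cfsg.siegelMatrix (⇑Q) u v c}

theorem exists_siegel (u v : Fin n → F) (c : F) (hu : Q u = 0) (hv : Q v = 0)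
    (huv : QuadraticMap.polar (⇑Q) u v = 0) :
    ∃ g : ↥(Cfsg.isometryGroup F (⇑Q)), g ∈ siegelSet Q ∧
      ∀ x, ((g : Matrix.GeneralLinearGroup (Fin n) F) : Matrix (Fin n) (Fin n) F) *ᵥ x =
        x + (c * QuadraticMap.polar (⇑Q) u x) • v - (c * QuadraticMap.polar (⇑Q) v x) • u := by
  obtain ⟨h1, -, h3⟩ := Cfsg.Agent.S0793.result Q u v hu hv huv
  have h0 : Cfsg.siegelMatrix (⇑Q) u v 0 = 1 := by
    unfold Cfsg.siegelMatrix
    rw [zero_smul, add_zero]
  obtain ⟨g, hg⟩ := Cfsg.Agent.H18.exists_isometry_of_matrix (⇑Q) (Cfsg.siegelMatrix (⇑Q) u v c)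
    (Cfsg.siegelMatrix (⇑Q) u v (-c)) (by rw [h3, add_neg_cancel, h0]) (h1 c)
  exact ⟨g, ⟨u, v, c, hu, hv, huv, hg⟩, fun x => by rw [hg, Cfsg.Agent.H18.siegel_mulVec]⟩

theorem siegel_normal : (Subgroup.closure (siegelSet Q)).Normal := by
  have : Subgroup.closure (siegelSet Q) = Subgroup.normalClosure (siegelSet Q) := by
    apply le_antisymm Subgroup.closure_le_normalClosure
    rw [Subgroup.normalClosure]
    apply Subgroup.closure_mono
    intro x hx
    obtain ⟨a, ha, hax⟩ := Group.mem_conjugatesOfSet_iff.mp hx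
    obtain ⟨g, hg⟩ := isConj_iff.mp hax
    obtain ⟨u, v, c, hu, hv, huv, hav⟩ := ha
    refine ⟨((g : Matrix.GeneralLinearGroup (Fin n) F) : Matrix (Fin n) (Fin n) F) *ᵥ u,
      ((g : Matrix.GeneralLinearGroup (Fin n) F) : Matrix (Fin n) (Fin n) F) *ᵥ v, c,
      by rw [isometry_apply g u, hu], by rw [isometry_apply g v, hv],
      by rw [isometry_polar Q g u v, huv], ?_⟩
    apply matrix_ext_mulVec
    intro y
    rw [← hg, coe_mul_mulVec, coe_mul_mulVec, hav, Cfsg.Agent.H18.siegel_mulVec,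
      Cfsg.Agent.H18.siegel_mulVec, Matrix.mulVec_sub, Matrix.mulVec_add, Matrix.mulVec_smul,
      Matrix.mulVec_smul, coe_mulVec_inv_cancel]
    have e1 := isometry_polar Q g u
      ((((g⁻¹ : ↥(Cfsg.isometryGroup F (⇑Q))) : Matrix.GeneralLinearGroup (Fin n) F) :
        Matrix (Fin n) (Fin n) F) *ᵥ y)
    have e2 := isometry_polar Q g v
      ((((g⁻¹ : ↥(Cfsg.isometryGroup F (⇑Q))) : Matrix.GeneralLinearGroup (Fin n) F) :
        Matrix (Fin n) (Fin n) F) *ᵥ y)
    rw [coe_mulVec_inv_cancel] at e1 e2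
    rw [e1, e2]
  rw [this]
  exact Subgroup.normalClosure_normal

end

section geom
variable {F : Type*} [Field F] [Fintype F] {n : ℕ} (Q : QuadraticForm F (Fin n → F))

/-- given an anisotropic `u` and a non-zero singular `d ⊥ u` in dimension at least five: a vector
orthogonal to `u` and `d` of any prescribed norm -/
theorem exists_norm_perp (h2 : (2 : F) ≠ 0) (hQ : (QuadraticMap.polarBilin Q).Nondegenerate)
    (hn : 5 ≤ n) (u d : Fin n → F) (hu : Q u ≠ 0) (hd0 : d ≠ 0) (hd : Q d = 0)
    (hud : QuadraticMap.polar (⇑Q) u d = 0) (a : F) :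
    ∃ y : Fin n → F, QuadraticMap.polar (⇑Q) u y = 0 ∧ QuadraticMap.polar (⇑Q) d y = 0 ∧
      Q y = a := by
  classical
  obtain ⟨d', hd', hdd', hud'⟩ := Cfsg.Agent.S0798.exists_partner_orth Q h2 hQ u d hu hd0 hd hud
  have h2u : (2 : F) * Q u ≠ 0 := mul_ne_zero h2 hu
  have hdu : QuadraticMap.polar (⇑Q) d u = 0 := by rw [QuadraticMap.polar_comm]; exact hud
  have hd'u : QuadraticMap.polar (⇑Q) d' u = 0 := by rw [QuadraticMap.polar_comm]; exact hud'
  have hd'd : QuadraticMap.polar (⇑Q) d' d = 1 := by rw [QuadraticMap.polar_comm]; exact hdd'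
  have hUfin : Module.finrank F (Submodule.span F {u, d, d'} : Submodule F (Fin n → F)) + 2 ≤
      Fintype.card (Fin n) := by
    have h3 : Module.finrank F (Submodule.span F {u, d, d'} : Submodule F (Fin n → F)) ≤ 3 := by
      have := finrank_span_finset_le_card (R := F) ({u, d, d'} : Finset (Fin n → F))
      have hc := Finset.card_le_three (a := u) (b := d) (c := d')
      have he : ((({u, d, d'} : Finset (Fin n → F)) : Set (Fin n → F))) = {u, d, d'} := by
        simp
      rw [he] at this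
      unfold Set.finrank at this
      omega
    rw [Fintype.card_fin]
    omega
  have hUnd : Submodule.span F {u, d, d'} ⊓ LinearMap.BilinForm.orthogonal
      (QuadraticMap.polarBilin Q) (Submodule.span F {u, d, d'}) = ⊥ := by
    rw [eq_bot_iff]
    intro x hx
    obtain ⟨hx1, hx2⟩ := Submodule.mem_inf.mp hx
    rw [LinearMap.BilinForm.mem_orthogonal_iff] at hx2
    obtain ⟨a, b, c, rfl⟩ := Submodule.mem_span_triple.mp hx1
    have e1 := hx2 u (Submodule.subset_span (by simp))
    have e2 := hx2 d (Submodule.subset_span (by simp))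
    have e3 := hx2 d' (Submodule.subset_span (by simp))
    simp only [QuadraticMap.polarBilin_apply_apply,
      QuadraticMap.polar_add_right, QuadraticMap.polar_smul_right, Cfsg.Agent.S0798.polar_self2,
      hud, hud', hdd', hdu, hd'u, hd'd, hd, hd', smul_eq_mul, mul_zero, add_zero, zero_add,
      mul_one] at e1 e2 e3
    have ha : a = 0 := by
      rcases mul_eq_zero.mp e1 with h | h
      · exact h
      · exact absurd h h2u
    rw [ha, e2, e3]
    simp
  obtain ⟨y, hyU, hy⟩ := Cfsg.Agent.S0798.exists_norm_orth Q h2 hQ _ hUfin hUnd a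
  exact ⟨y, hyU u (Submodule.subset_span (by simp)), hyU d (Submodule.subset_span (by simp)), hy⟩

/-- a Siegel element moving an anisotropic vector along a singular vector orthogonal to it -/
theorem step (h2 : (2 : F) ≠ 0) (hQ : (QuadraticMap.polarBilin Q).Nondegenerate)
    (hn : 5 ≤ n) (u d : Fin n → F) (hu : Q u ≠ 0) (hd : Q d = 0)
    (hud : QuadraticMap.polar (⇑Q) u d = 0) :
    ∃ t ∈ Subgroup.closure (siegelSet Q),
      ((t : Matrix.GeneralLinearGroup (Fin n) F) : Matrix (Fin n) (Fin n) F) *ᵥ u = u + d := by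
  by_cases hd0 : d = 0
  · refine ⟨1, Subgroup.one_mem _, ?_⟩
    rw [hd0, add_zero]
    exact Matrix.one_mulVec u
  obtain ⟨y, huy, hdy, hy⟩ := exists_norm_perp Q h2 hQ hn u d hu hd0 hd hud (-(Q u))
  have hx : Q (u + y) = 0 := by
    rw [Cfsg.Agent.H18.Q_add, hy, huy]; ring
  have hxd : QuadraticMap.polar (⇑Q) (u + y) d = 0 := by
    rw [QuadraticMap.polar_add_left, hud, QuadraticMap.polar_comm (⇑Q) y d, hdy, add_zero]
  have hxu : QuadraticMap.polar (⇑Q) (u + y) u = 2 * Q u := by
    rw [QuadraticMap.polar_add_left, Cfsg.Agent.S0798.polar_self2,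
      QuadraticMap.polar_comm (⇑Q) y u, huy, add_zero]
  obtain ⟨g, hg, hgx⟩ := exists_siegel Q (u + y) d (QuadraticMap.polar (⇑Q) (u + y) u)⁻¹ hx hd hxd
  refine ⟨g, Subgroup.subset_closure hg, ?_⟩
  have hne : QuadraticMap.polar (⇑Q) (u + y) u ≠ 0 := by rw [hxu]; exact mul_ne_zero h2 hu
  rw [hgx, QuadraticMap.polar_comm (⇑Q) d u, hud, mul_zero, zero_smul, sub_zero,
    inv_mul_cancel₀ hne, one_smul]

/-- a singular vector orthogonal to `u` but not to `w` -/
theorem exists_sing_perp (h2 : (2 : F) ≠ 0) (hQ : (QuadraticMap.polarBilin Q).Nondegenerate)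
    (hn : 4 ≤ n) (u w : Fin n → F) (hu : Q u ≠ 0)
    (hw' : w - (QuadraticMap.polar (⇑Q) u w / (2 * Q u)) • u ≠ 0) :
    ∃ s : Fin n → F, Q s = 0 ∧ QuadraticMap.polar (⇑Q) u s = 0 ∧
      QuadraticMap.polar (⇑Q) s w ≠ 0 := by
  classical
  have h2u : (2 : F) * Q u ≠ 0 := mul_ne_zero h2 hu
  set l := QuadraticMap.polar (⇑Q) u w / (2 * Q u) with hl
  set w' := w - l • u with hw'def
  have huw' : QuadraticMap.polar (⇑Q) u w' = 0 := by
    rw [hw'def, QuadraticMap.polar_sub_right, QuadraticMap.polar_smul_right,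
      Cfsg.Agent.S0798.polar_self2, hl, smul_eq_mul]
    field_simp
    ring
  have hw : w = w' + l • u := by rw [hw'def]; abel
  by_cases hQw' : Q w' = 0
  · obtain ⟨z', hz', hw'z', huz'⟩ :=
      Cfsg.Agent.S0798.exists_partner_orth Q h2 hQ u w' hu hw' hQw' huw'
    refine ⟨z', hz', huz', ?_⟩
    rw [hw, QuadraticMap.polar_add_right, QuadraticMap.polar_smul_right,
      QuadraticMap.polar_comm (⇑Q) z' w', hw'z', QuadraticMap.polar_comm (⇑Q) z' u, huz']
    simp
  · have hw'u : QuadraticMap.polar (⇑Q) w' u = 0 := by rw [QuadraticMap.polar_comm]; exact huw'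
    have hUfin : Module.finrank F (Submodule.span F {u, w'} : Submodule F (Fin n → F)) + 2 ≤
        Fintype.card (Fin n) := by
      have h3 : Module.finrank F (Submodule.span F {u, w'} : Submodule F (Fin n → F)) ≤ 2 := by
        have := finrank_span_finset_le_card (R := F) ({u, w'} : Finset (Fin n → F))
        have hc := Finset.card_le_two (a := u) (b := w')
        have he : ((({u, w'} : Finset (Fin n → F)) : Set (Fin n → F))) = {u, w'} := by
          simp
        rw [he] at this
        unfold Set.finrank at this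
        omega
      rw [Fintype.card_fin]
      omega
    have hUnd : Submodule.span F {u, w'} ⊓ LinearMap.BilinForm.orthogonal
        (QuadraticMap.polarBilin Q) (Submodule.span F {u, w'}) = ⊥ := by
      rw [eq_bot_iff]
      intro x hx
      obtain ⟨hx1, hx2⟩ := Submodule.mem_inf.mp hx
      rw [LinearMap.BilinForm.mem_orthogonal_iff] at hx2
      obtain ⟨a, b, rfl⟩ := Submodule.mem_span_pair.mp hx1
      have e1 := hx2 u (Submodule.subset_span (by simp))
      have e2 := hx2 w' (Submodule.subset_span (by simp))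
      simp only [QuadraticMap.polarBilin_apply_apply,
        QuadraticMap.polar_add_right, QuadraticMap.polar_smul_right, Cfsg.Agent.S0798.polar_self2,
        huw', hw'u, smul_eq_mul, mul_zero, add_zero, zero_add] at e1 e2
      have ha : a = 0 := by
        rcases mul_eq_zero.mp e1 with h | h
        · exact h
        · exact absurd h h2u
      have hb : b = 0 := by
        rcases mul_eq_zero.mp e2 with h | h
        · exact h
        · exact absurd h (mul_ne_zero h2 hQw')
      rw [ha, hb]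
      simp
    obtain ⟨y, hyU, hy⟩ := Cfsg.Agent.S0798.exists_norm_orth Q h2 hQ _ hUfin hUnd (-(Q w'))
    have huy : QuadraticMap.polar (⇑Q) u y = 0 := hyU u (Submodule.subset_span (by simp))
    have hw'y : QuadraticMap.polar (⇑Q) w' y = 0 := hyU w' (Submodule.subset_span (by simp))
    refine ⟨w' + y, ?_, ?_, ?_⟩
    · rw [Cfsg.Agent.H18.Q_add, hy, hw'y]; ring
    · rw [QuadraticMap.polar_add_right, huw', huy, add_zero]
    · rw [hw, QuadraticMap.polar_add_right, QuadraticMap.polar_smul_right,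
        QuadraticMap.polar_add_left, QuadraticMap.polar_add_left, Cfsg.Agent.S0798.polar_self2,
        hw'u, QuadraticMap.polar_comm (⇑Q) y w', hw'y, QuadraticMap.polar_comm (⇑Q) y u, huy]
      simp only [add_zero, smul_eq_mul, mul_zero]
      exact mul_ne_zero h2 hQw'

/-- the group generated by the Siegel elements is transitive on vectors of a given non-zero norm -/
theorem siegel_trans (h2 : (2 : F) ≠ 0) (hQ : (QuadraticMap.polarBilin Q).Nondegenerate)
    (hn : 5 ≤ n) (u w : Fin n → F) (hu : Q u ≠ 0) (huw : Q u = Q w)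
    (hw' : w - (QuadraticMap.polar (⇑Q) u w / (2 * Q u)) • u ≠ 0) :
    ∃ t ∈ Subgroup.closure (siegelSet Q),
      ((t : Matrix.GeneralLinearGroup (Fin n) F) : Matrix (Fin n) (Fin n) F) *ᵥ u = w := by
  obtain ⟨s₀, hs₀, hus₀, hs₀w⟩ := exists_sing_perp Q h2 hQ (by omega) u w hu hw'
  set β := 2 * Q u - QuadraticMap.polar (⇑Q) u w with hβ
  set s := (β / QuadraticMap.polar (⇑Q) s₀ w) • s₀ with hs
  have hQs : Q s = 0 := by rw [hs, QuadraticMap.map_smul, hs₀, smul_zero]
  have hus : QuadraticMap.polar (⇑Q) u s = 0 := by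
    rw [hs, QuadraticMap.polar_smul_right, hus₀, smul_zero]
  have hsw : QuadraticMap.polar (⇑Q) s w = β := by
    rw [hs, QuadraticMap.polar_smul_left, smul_eq_mul, div_mul_cancel₀ _ hs₀w]
  obtain ⟨t₁, ht₁, ht₁u⟩ := step Q h2 hQ hn u s hu hQs hus
  have hQz : Q (u + s) = Q u := by
    rw [Cfsg.Agent.H18.Q_add, hQs, hus]; ring
  have hQe : Q (w - (u + s)) = 0 := by
    rw [Cfsg.Agent.H18.Q_sub, hQz, ← huw, QuadraticMap.polar_add_right,
      QuadraticMap.polar_comm (⇑Q) w u, QuadraticMap.polar_comm (⇑Q) w s, hsw, hβ]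
    ring
  have hze : QuadraticMap.polar (⇑Q) (u + s) (w - (u + s)) = 0 := by
    rw [QuadraticMap.polar_sub_right, Cfsg.Agent.S0798.polar_self2, hQz,
      QuadraticMap.polar_add_left, hsw, hβ]
    ring
  obtain ⟨t₂, ht₂, ht₂z⟩ := step Q h2 hQ hn (u + s) (w - (u + s)) (by rw [hQz]; exact hu) hQe hze
  refine ⟨t₂ * t₁, Subgroup.mul_mem _ ht₂ ht₁, ?_⟩
  rw [coe_mul_mulVec, ht₁u, ht₂z]
  abel

theorem crux (h2 : (2 : F) ≠ 0) (hQ : (QuadraticMap.polarBilin Q).Nondegenerate)
    (hn : 5 ≤ n) (u w : Fin n → F) (hu : Q u ≠ 0) (huw : Q u = Q w) :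
    reflG Q u * reflG Q w ∈ Subgroup.closure (siegelSet Q) := by
  have hN := siegel_normal Q
  by_cases hw' : w - (QuadraticMap.polar (⇑Q) u w / (2 * Q u)) • u = 0
  · have hw : w = (QuadraticMap.polar (⇑Q) u w / (2 * Q u)) • u := sub_eq_zero.mp hw'
    have hl : QuadraticMap.polar (⇑Q) u w / (2 * Q u) ≠ 0 := by
      intro h0
      rw [h0, zero_smul] at hw
      rw [hw, map_zero] at huw
      exact hu huw
    have hrr : reflG Q w = reflG Q u := by
      rw [hw, reflG_smul Q u hl]
    rw [hrr, reflG_mul_self]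
    exact Subgroup.one_mem _
  · obtain ⟨t, ht, htu⟩ := siegel_trans Q h2 hQ hn u w hu huw hw'
    have hc := conj_reflG Q t u
    rw [htu] at hc
    rw [← hc]
    have e : reflG Q u * (t * reflG Q u * t⁻¹) = (reflG Q u * t * (reflG Q u)⁻¹) * t⁻¹ := by
      rw [reflG_inv]
      group
    rw [e]
    exact Subgroup.mul_mem _ (hN.conj_mem t ht _) (Subgroup.inv_mem _ ht)

end geom

/-- Generation of Ω by root elements: for q odd, n ≥ 5 and Q with non-degenerate polar form on F^n, the commutator subgroup of the isometry group equals the subgroup generated by the isometries whose matrices are Siegel transformations T_(u,v)(c) with u, v singular and orthogonal. -/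
theorem result {F : Type*} [Field F] [Fintype F] (h2 : (2 : F) ≠ 0) {n : ℕ} (hn : 5 ≤ n) (Q : QuadraticForm F (Fin n → F)) (hQ : (QuadraticMap.polarBilin Q).Nondegenerate) : Cfsg.Omega F ⇑Q = Subgroup.closure {g : ↥(Cfsg.isometryGroup F ⇑Q) | ∃ (u v : Fin n → F) (c : F), Q u = 0 ∧ Q v = 0 ∧ QuadraticMap.polar ⇑Q u v = 0 ∧ ((g : Matrix.GeneralLinearGroup (Fin n) F) : Matrix (Fin n) (Fin n) F) = Cfsg.siegelMatrix ⇑Q u v c} := by
  show commutator ↥(Cfsg.isometryGroup F (⇑Q)) = Subgroup.closure (siegelSet Q)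
  have hN := siegel_normal Q
  apply le_antisymm
  · apply commutator_le_of_gens (Subgroup.closure (siegelSet Q)) (reflSet Q)
      (closure_reflSet_eq_top Q h2 hQ)
    rintro a ⟨u, hu, rfl⟩ b ⟨w, hw, rfl⟩
    have hc := conj_reflG Q (reflG Q u) w
    rw [reflG_inv] at hc
    have e : (reflG Q u * reflG Q w)⁻¹ * (reflG Q w * reflG Q u) =
        reflG Q w * (reflG Q u * reflG Q w * reflG Q u) := by
      rw [_root_.mul_inv_rev, reflG_inv, reflG_inv]
      group
    rw [e, hc]
    exact crux Q h2 hQ hn w _ hw (isometry_apply (reflG Q u) w).symm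
  · rw [Subgroup.closure_le]
    rintro g ⟨u, v, c, hu, hv, huv, hg⟩
    exact (Cfsg.Agent.S0794.result h2 hn Q hQ u v hu hv huv c g hg).2

end Cfsg.Agent.S0795
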