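import Cfsg.Statements.S0796

set_option autoImplicit false
open Cfsg

namespace Cfsg.Agent.S0796

open scoped Pointwise

/-- If G is finite and acts faithfully and primitively on X, H is the stabiliser of a point, A is a normal subgroup of H whose normal closure in G is G, then for every non-trivial normal subgroup K of G the quotient G ⧸ K is isomorphic to A ⧸ B for some normal subgroup B of A. -/
theorem result {G X : Type*} [Group G] [Finite G] [MulAction G X] [FaithfulSMul G X] (hprim : MulAction.IsPreprimitive G X) (x : X) (A : Subgroup G) (hA : A ≤ MulAction.stabilizer G x) (hAn : (A.subgroupOf (MulAction.stabilizer G x)).Normal) (hgen : Subgroup.normalClosure (A : Set G) = ⊤) (K : Subgroup G) [K.Normal] (hK : K ≠ ⊥) : ∃ (B : Subgroup A) (_ : B.Normal), Nonempty (G ⧸ K ≃* A ⧸ B) := by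
  -- K acts nontrivially
  have hNX : MulAction.fixedPoints K X ≠ Set.univ := by
    intro h
    apply hK
    rw [Subgroup.eq_bot_iff_forall]
    intro k hk
    apply FaithfulSMul.eq_of_smul_eq_smul (α := X)
    intro y
    rw [one_smul]
    have : y ∈ MulAction.fixedPoints K X := by rw [h]; trivial
    exact this ⟨k, hk⟩
  have htrans : MulAction.IsPretransitive K X :=
    MulAction.IsQuasiPreprimitive.isPretransitive_of_normal hNX
  -- every element of G is k * h with k ∈ K, h ∈ stabilizer
  have hdecomp : ∀ g : G, ∃ k ∈ K, ∃ h ∈ MulAction.stabilizer G x, g = k * h := by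
    intro g
    obtain ⟨k, hk⟩ := MulAction.exists_smul_eq K x (g • x)
    refine ⟨k, k.2, (k : G)⁻¹ * g, ?_, by group⟩
    rw [MulAction.mem_stabilizer_iff, mul_smul, inv_smul_eq_iff]
    exact hk.symm
  -- K ⊔ A = ⊤
  have htop : K ⊔ A = ⊤ := by
    rw [eq_top_iff, ← hgen]
    unfold Subgroup.normalClosure
    rw [Subgroup.closure_le]
    intro y hy
    rw [Group.mem_conjugatesOfSet_iff] at hy
    obtain ⟨a, ha, hconj⟩ := hy
    rw [isConj_iff] at hconj
    obtain ⟨g, rfl⟩ := hconj
    obtain ⟨k, hk, h, hh, rfl⟩ := hdecomp g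
    have h1 : h * a * h⁻¹ ∈ A := by
      have := hAn.conj_mem ⟨a, hA ha⟩ (by rw [Subgroup.mem_subgroupOf]; exact ha) ⟨h, hh⟩
      rw [Subgroup.mem_subgroupOf] at this
      simpa using this
    have h2 : k * h * a * (k * h)⁻¹ = k * (h * a * h⁻¹) * k⁻¹ := by group
    rw [SetLike.mem_coe, h2]
    exact Subgroup.mul_mem _ (Subgroup.mul_mem _ (Subgroup.mem_sup_left hk) (Subgroup.mem_sup_right h1))
      (Subgroup.inv_mem _ (Subgroup.mem_sup_left hk))
  -- the map A → G ⧸ K
  let φ : A →* G ⧸ K := (QuotientGroup.mk' K).comp A.subtype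
  have hφ : Function.Surjective φ := by
    intro y
    obtain ⟨g, rfl⟩ := QuotientGroup.mk_surjective y
    have hg : g ∈ (↑(K ⊔ A) : Set G) := by rw [htop]; trivial
    rw [Subgroup.normal_mul] at hg
    obtain ⟨k, hk, a, ha, rfl⟩ := hg
    refine ⟨⟨a, ha⟩, ?_⟩
    show (QuotientGroup.mk a : G ⧸ K) = QuotientGroup.mk (k * a)
    rw [QuotientGroup.eq]
    have : a⁻¹ * (k * a) = a⁻¹ * k * a⁻¹⁻¹ := by group
    rw [this]
    exact Subgroup.Normal.conj_mem inferInstance k hk a⁻¹
  exact ⟨φ.ker, MonoidHom.normal_ker φ, ⟨(QuotientGroup.quotientKerEquivOfSurjective φ hφ).symm⟩⟩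

end Cfsg.Agent.S0796
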