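import Cfsg.Statements.S0797
import Cfsg.Agent.H18.Spin
import Cfsg.Agent.H18.IndexTwo

set_option autoImplicit false
open Cfsg

namespace Cfsg.Agent.S0797

open Cfsg.Agent.H18

/-- O^ε_2m(q) ≅ Ω.2² for q odd: if F is finite of odd characteristic, n ≥ 2 is even and Q has non-degenerate polar form on F^n, the isometry group of Q has exactly three subgroups of index 2. -/
theorem result {F : Type*} [Field F] [Fintype F] (h2 : (2 : F) ≠ 0) {n : ℕ} (hn : 2 ≤ n) (heven : Even n) (Q : QuadraticForm F (Fin n → F)) (hQ : (QuadraticMap.polarBilin Q).Nondegenerate) : Nat.card {H : Subgroup ↥(Cfsg.isometryGroup F ⇑Q) // H.index = 2} = 3 := by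
  classical
  obtain ⟨w₁, w₂, hw₁, hw₂, hc₁, hc₂⟩ := exists_both_classes Q h2 hQ (by simpa using hn)
  apply card_index_two_subgroups (abel_card Q h2 hQ w₁ w₂ hw₁ hw₂ hc₁ hc₂)
  intro x
  have hα : (Abelianization.of (Cfsg.Agent.H49.reflG Q w₁) : Abelianization ↥(Cfsg.isometryGroup F (⇑Q)))
      * Abelianization.of (Cfsg.Agent.H49.reflG Q w₁) = 1 := by
    rw [← map_mul, Cfsg.Agent.H49.reflG_mul_self, map_one]
  have hβ : (Abelianization.of (Cfsg.Agent.H49.reflG Q w₂) : Abelianization ↥(Cfsg.isometryGroup F (⇑Q)))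
      * Abelianization.of (Cfsg.Agent.H49.reflG Q w₂) = 1 := by
    rw [← map_mul, Cfsg.Agent.H49.reflG_mul_self, map_one]
  rcases abel_cover Q h2 hQ w₁ w₂ hw₁ hw₂ hc₁ hc₂ x with rfl | rfl | rfl | rfl
  · simp
  · exact hα
  · exact hβ
  · rw [mul_mul_mul_comm, hα, hβ, one_mul]

end Cfsg.Agent.S0797
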