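import Cfsg.Statements.S0800

set_option autoImplicit false
open Cfsg

namespace Cfsg.Agent.S0800

open Polynomial

/-- If the characteristic polynomial of `M` divides `X^n - 1` then `M^n = 1`. -/
theorem pow_eq_one_of_dvd {F : Type*} [Field F] (M : Matrix (Fin 2) (Fin 2) F) (χ : F[X])
    (hχ : aeval M χ = 0) (n : ℕ) (h : χ ∣ X ^ n - 1) : M ^ n = 1 := by
  obtain ⟨r, hr⟩ := h
  have := congrArg (aeval M) hr
  rw [map_mul, hχ, zero_mul] at this
  simpa [sub_eq_zero] using this

/-- the key statement on matrices -/
theorem matrix_key {F : Type*} [Field F] [Fintype F] (p : ℕ) [Fact p.Prime] [CharP F p]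
    (M : Matrix (Fin 2) (Fin 2) F) (hdet : M.det = 1) (k : ℕ) (hk : Nat.Coprime k p) (hMk : M ^ k = 1) :
    M ^ (Fintype.card F - 1) = 1 ∨ M ^ (Fintype.card F + 1) = 1 := by
  classical
  set q := Fintype.card F with hq
  set χ : F[X] := X ^ 2 - C M.trace * X + 1 with hχdef
  have hχ : M.charpoly = χ := by
    rw [Matrix.charpoly_fin_two, hdet, hχdef]; simp
  have hχM : aeval M χ = 0 := by rw [← hχ]; exact Matrix.aeval_self_charpoly M
  have hmonic : χ.Monic := by rw [← hχ]; exact Matrix.charpoly_monic M
  have hdeg : χ.natDegree = 2 := by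
    rw [← hχ, Matrix.charpoly_natDegree_eq_dim]; simp
  have hqpos : 0 < q := Fintype.card_pos
  by_cases hirr : Irreducible χ
  · -- irreducible case: work in the field AdjoinRoot χ
    have : Fact (Irreducible χ) := ⟨hirr⟩
    set α : AdjoinRoot χ := AdjoinRoot.root χ with hα
    have hroot : α ^ 2 - (algebraMap F (AdjoinRoot χ) M.trace) * α + 1 = 0 := by
      have h := AdjoinRoot.eval₂_root χ
      rw [hχdef] at h
      simpa [eval₂_sub, eval₂_add, eval₂_mul, eval₂_pow, AdjoinRoot.algebraMap_eq] using h
    have hα0 : α ≠ 0 := by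
      intro h0
      rw [h0] at hroot
      simp at hroot
    -- the Frobenius image of α is again a root
    have hroot' : (α ^ q) ^ 2 - (algebraMap F (AdjoinRoot χ) M.trace) * α ^ q + 1 = 0 := by
      have hφ : ∀ x, FiniteField.frobeniusAlgHom F (AdjoinRoot χ) x = x ^ q := fun x => rfl
      have h := congrArg (FiniteField.frobeniusAlgHom F (AdjoinRoot χ)) hroot
      rw [map_zero, map_add, map_sub, map_mul, map_pow, map_one, AlgHom.commutes, hφ] at h
      exact h
    have hfact : (α ^ q - α) * (α ^ q - (algebraMap F (AdjoinRoot χ) M.trace - α)) = 0 := by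
      linear_combination hroot' - hroot
    rcases mul_eq_zero.mp hfact with h1 | h1
    · left
      apply pow_eq_one_of_dvd M χ hχM
      rw [← AdjoinRoot.mk_eq_zero]
      have h2 : α ^ (q - 1) * α = 1 * α := by
        rw [← pow_succ, Nat.sub_add_cancel hqpos, one_mul]
        exact sub_eq_zero.mp h1
      have h3 := mul_right_cancel₀ hα0 h2
      simp only [map_sub, map_pow, map_one, AdjoinRoot.mk_X]
      rw [← hα, h3, sub_self]
    · right
      apply pow_eq_one_of_dvd M χ hχM
      rw [← AdjoinRoot.mk_eq_zero]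
      simp only [map_sub, map_pow, map_one, AdjoinRoot.mk_X]
      rw [← hα, pow_succ]
      have : α ^ q = algebraMap F (AdjoinRoot χ) M.trace - α := sub_eq_zero.mp h1
      rw [this]
      linear_combination -hroot
  · -- reducible case: there is a root in F
    have hroots : χ.roots ≠ 0 := by
      intro h
      exact hirr ((hmonic.irreducible_iff_roots_eq_zero_of_degree_le_three (by omega) (by omega)).mpr h)
    obtain ⟨lam, hlam⟩ := Multiset.exists_mem_of_ne_zero hroots
    rw [mem_roots hmonic.ne_zero, IsRoot, hχdef] at hlam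
    simp only [eval_add, eval_sub, eval_pow, eval_X, eval_mul, eval_C, eval_one] at hlam
    set mu := M.trace - lam with hmu
    have hlm : lam * mu = 1 := by rw [hmu]; linear_combination -hlam
    have hlam0 : lam ≠ 0 := left_ne_zero_of_mul_eq_one hlm
    have hmu0 : mu ≠ 0 := right_ne_zero_of_mul_eq_one hlm
    have hfac : χ = (X - C lam) * (X - C mu) := by
      have h1 : (C lam * C mu : F[X]) = 1 := by rw [← C_mul, hlm, C_1]
      have h2 : (C mu : F[X]) = C M.trace - C lam := by rw [hmu, C_sub]
      rw [hχdef]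
      linear_combination -h1 + X * h2
    by_cases hne : lam = mu
    · -- repeated root: M ^ p is scalar
      left
      have hp : p.Prime := Fact.out
      set L : Matrix (Fin 2) (Fin 2) F := algebraMap F (Matrix (Fin 2) (Fin 2) F) lam with hL
      have hN2 : (M - L) ^ 2 = 0 := by
        have := hχM
        rw [hfac, ← hne] at this
        simpa [hL, sq] using this
      have hcomm : Commute M L := (Algebra.commutes lam M).symm
      have hMp : M ^ p = L ^ p := by
        have h1 : (M - L) ^ p = M ^ p - L ^ p := sub_pow_char_of_commute p hcomm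
        have h2 : (M - L) ^ p = 0 := by
          obtain ⟨r, hr⟩ : ∃ r, p = 2 + r := ⟨p - 2, by have := hp.two_le; omega⟩
          rw [hr, pow_add, hN2, zero_mul]
        rw [h2] at h1
        exact (sub_eq_zero.mp h1.symm)
      have hMpq : M ^ (p * (q - 1)) = 1 := by
        rw [pow_mul, hMp, ← pow_mul, mul_comm, pow_mul, hL, ← map_pow,
          FiniteField.pow_card_sub_one_eq_one lam hlam0, map_one, one_pow]
      have hd1 : orderOf M ∣ k := orderOf_dvd_of_pow_eq_one hMk
      have hd2 : orderOf M ∣ (q - 1) * p := by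
        rw [mul_comm]; exact orderOf_dvd_of_pow_eq_one hMpq
      have hcop : Nat.Coprime (orderOf M) p := Nat.Coprime.coprime_dvd_left hd1 hk
      exact orderOf_dvd_iff_pow_eq_one.mp (hcop.dvd_of_dvd_mul_right hd2)
    · left
      apply pow_eq_one_of_dvd M χ hχM
      rw [hfac]
      apply IsCoprime.mul_dvd
      · exact isCoprime_X_sub_C_of_isUnit_sub (IsUnit.mk0 _ (sub_ne_zero.mpr hne))
      · rw [dvd_iff_isRoot]
        have hl1 : lam ^ (q - 1) = 1 := FiniteField.pow_card_sub_one_eq_one lam hlam0
        simp [hl1]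
      · rw [dvd_iff_isRoot]
        have hm1 : mu ^ (q - 1) = 1 := FiniteField.pow_card_sub_one_eq_one mu hmu0
        simp [hm1]

/-- Tori of SL_2(q): if g ∈ SL_2(q) has order coprime to the characteristic p, then the order of g divides q − 1 or q + 1. -/
theorem result {F : Type*} [Field F] [Fintype F] {q : ℕ} (hF : Fintype.card F = q) (p : ℕ) [Fact p.Prime] [CharP F p] (g : Matrix.SpecialLinearGroup (Fin 2) F) (hg : Nat.Coprime (orderOf g) p) : orderOf g ∣ q - 1 ∨ orderOf g ∣ q + 1 := by
  subst hF
  have hMk : (g : Matrix (Fin 2) (Fin 2) F) ^ (orderOf g) = 1 := by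
    rw [← Matrix.SpecialLinearGroup.coe_pow, pow_orderOf_eq_one]; rfl
  rcases matrix_key p (g : Matrix (Fin 2) (Fin 2) F) g.2 (orderOf g) hg hMk with h | h
  · left
    apply orderOf_dvd_of_pow_eq_one
    apply Matrix.SpecialLinearGroup.ext
    intro i j
    rw [Matrix.SpecialLinearGroup.coe_pow, h]; rfl
  · right
    apply orderOf_dvd_of_pow_eq_one
    apply Matrix.SpecialLinearGroup.ext
    intro i j
    rw [Matrix.SpecialLinearGroup.coe_pow, h]; rfl

end Cfsg.Agent.S0800
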