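import Cfsg.Statements.S0810
import Cfsg.Agent.H18.DkSolv
import Cfsg.Agent.S0804
import Cfsg.Agent.S0805
import Cfsg.Agent.S0806

set_option autoImplicit false
open Cfsg

namespace Cfsg.Agent.S0810

open Cfsg.Agent.H18.Dk Cfsg.Agent.H29.Dk Cfsg.Agent.H65.SL2

theorem noncomm_PSL2 {F : Type*} [Field F] :
    ¬ IsMulCommutative (Matrix.ProjectiveSpecialLinearGroup (Fin 2) F) := by
  intro h
  have hc : mkP F (uT 1) * mkP F (lT 1) = mkP F (lT 1) * mkP F (uT 1) := h.is_comm.comm _ _
  rw [← map_mul, ← map_mul, mkP_eq_iff, mem_Ze] at hc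
  have h1 := hc.1
  simp only [mul10, mul00, inv10, inv11, uT00, uT01, uT10, uT11,
    lT00, lT01, lT10, lT11] at h1
  norm_num at h1

theorem not_five_dvd (q : ℕ) (h : q % 5 = 2 ∨ q % 5 = 3) : ¬ 5 ∣ q * (q ^ 2 - 1) := by
  have h1 : q ^ 2 % 5 = 4 := by
    rw [Nat.pow_mod]; rcases h with h | h <;> rw [h]
  have h2 : (q ^ 2 - 1) % 5 = 3 := by omega
  intro hd
  have h3 := Nat.mod_eq_zero_of_dvd hd
  rw [Nat.mul_mod, h2] at h3
  rcases h with h | h <;> rw [h] at h3 <;> omega

theorem five_dvd (q : ℕ) (h : q % 5 = 1 ∨ q % 5 = 4) : 5 ∣ q * (q ^ 2 - 1) := by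
  have h1 : q ^ 2 % 5 = 1 := by
    rw [Nat.pow_mod]; rcases h with h | h <;> rw [h]
  apply Dvd.dvd.mul_left
  omega

theorem two_pow_odd (j : ℕ) : 2 ^ (2 * j + 1) % 5 = 2 ∨ 2 ^ (2 * j + 1) % 5 = 3 := by
  induction j with
  | zero => left; norm_num
  | succ j ih =>
    have e : 2 ^ (2 * (j + 1) + 1) = 2 ^ (2 * j + 1) * 4 := by ring
    rw [e]
    omega

theorem three_pow_odd5 (j : ℕ) : 3 ^ (2 * j + 1) % 5 = 2 ∨ 3 ^ (2 * j + 1) % 5 = 3 := by
  induction j with
  | zero => right; norm_num
  | succ j ih =>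
    have e : 3 ^ (2 * (j + 1) + 1) = 3 ^ (2 * j + 1) * 9 := by ring
    rw [e]
    omega

theorem three_pow_odd16 (j : ℕ) : 3 ^ (2 * j + 1) % 16 = 3 ∨ 3 ^ (2 * j + 1) % 16 = 11 := by
  induction j with
  | zero => left; norm_num
  | succ j ih =>
    have e : 3 ^ (2 * (j + 1) + 1) = 3 ^ (2 * j + 1) * 9 := by ring
    rw [e]
    omega

theorem not_sixteen_dvd (q : ℕ) (h : q % 16 = 3 ∨ q % 16 = 11) : ¬ 16 ∣ q * (q ^ 2 - 1) := by
  have h1 : q ^ 2 % 16 = 9 := by
    rw [Nat.pow_mod]; rcases h with h | h <;> rw [h]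
  have h2 : (q ^ 2 - 1) % 16 = 8 := by omega
  intro hd
  have h3 := Nat.mod_eq_zero_of_dvd hd
  rw [Nat.mul_mod, h2] at h3
  rcases h with h | h <;> rw [h] at h3 <;> omega

theorem pow_eq_prime_pow (p : ℕ) (hp : p.Prime) (r : ℕ) (hr : r.Prime) (k m : ℕ) (hm : 2 ≤ m)
    (h : k ^ m = p ^ r) : k = p := by
  have hk : k ∣ p ^ r := by rw [← h]; exact dvd_pow_self k (by omega)
  obtain ⟨j, -, rfl⟩ := (Nat.dvd_prime_pow hp).1 hk
  rw [← pow_mul] at h
  have h1 : j * m = r := Nat.pow_right_injective hp.two_le h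
  have h2 : m ∣ r := ⟨j, by rw [← h1, mul_comm]⟩
  rcases (Nat.dvd_prime hr).1 h2 with h3 | h3
  · omega
  · rw [h3] at h1
    have h4 : j = 1 := by
      have : j * r = 1 * r := by rw [h1, one_mul]
      exact Nat.eq_of_mul_eq_mul_right hr.pos this
    rw [h4, pow_one]

/-- Sufficient conditions for `PSL(2, q)` to be minimal simple. -/
theorem minimal_of {F : Type*} [Field F] [Fintype F] (p : ℕ) [Fact p.Prime] [CharP F p]
    (hq4 : 4 ≤ Fintype.card F)
    (hC1 : 5 ∣ Fintype.card F * (Fintype.card F ^ 2 - 1) →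
      Fintype.card F = 4 ∨ Fintype.card F = 5)
    (hC2 : ∀ k m : ℕ, 2 ≤ m → k ^ m = Fintype.card F →
      k = 2 ∨ (k = 3 ∧ ¬ 16 ∣ Fintype.card F * (Fintype.card F ^ 2 - 1))) :
    Cfsg.IsMinimalSimple (Matrix.ProjectiveSpecialLinearGroup (Fin 2) F) := by
  refine ⟨Matrix.ProjectiveSpecialLinearGroup.rank_two_simple
    (by rw [Nat.card_eq_fintype_card]; exact hq4), noncomm_PSL2, ?_⟩
  intro H hH
  have hG := card_PSL2_mul (F := F)
  have hdvd : Nat.card H ∣ Nat.card (Matrix.ProjectiveSpecialLinearGroup (Fin 2) F) :=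
    Subgroup.card_subgroup_dvd_card H
  have hne : Nat.card H ≠ Nat.card (Matrix.ProjectiveSpecialLinearGroup (Fin 2) F) :=
    fun h => hH ((Subgroup.card_eq_iff_eq_top H).1 h)
  have hGpos : 0 < Nat.card (Matrix.ProjectiveSpecialLinearGroup (Fin 2) F) := Nat.card_pos
  have hle := Nat.le_of_dvd hGpos hdvd
  have hz : Nat.gcd 2 (Fintype.card F - 1) = 1 ∨ Nat.gcd 2 (Fintype.card F - 1) = 2 := by
    have h1 : Nat.gcd 2 (Fintype.card F - 1) ∣ 2 := Nat.gcd_dvd_left _ _
    have h2 := Nat.le_of_dvd (by norm_num) h1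
    have h3 : 0 < Nat.gcd 2 (Fintype.card F - 1) := Nat.gcd_pos_of_pos_left _ (by norm_num)
    omega
  rcases dickson p H with ⟨k, hk, h | ⟨⟨f⟩⟩⟩ | ⟨P, K, hK, ⟨f⟩⟩ | ⟨⟨f⟩⟩ | ⟨⟨f⟩⟩ | ⟨⟨f⟩⟩ |
    ⟨K, i1, i2, m, hm, hf⟩
  · have hcyc := h.1
    apply Group.isSolvable_of_comm
    intro a b
    obtain ⟨g, hg⟩ := IsCyclic.exists_generator (α := ↥H)
    obtain ⟨i, rfl⟩ := Subgroup.mem_zpowers_iff.1 (hg a)
    obtain ⟨j, rfl⟩ := Subgroup.mem_zpowers_iff.1 (hg b)
    exact (Commute.zpow_zpow_self g i j).eq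
  · have := dihedral_solvable k
    exact Group.isSolvable_of_isSolvable_injective (f := f.toMonoidHom) f.injective
  · have h1 := normalizer_sylow_solvable p P
    have h2 : Group.IsSolvable ↥K :=
      Group.isSolvable_of_isSolvable_injective (Subgroup.inclusion_injective hK)
    exact Group.isSolvable_of_isSolvable_injective (f := f.toMonoidHom) f.injective
  · have := a4_solvable
    exact Group.isSolvable_of_isSolvable_injective (f := f.toMonoidHom) f.injective
  · have := Cfsg.Agent.H76.isSolvable_perm_fin_four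
    exact Group.isSolvable_of_isSolvable_injective (f := f.toMonoidHom) f.injective
  · exfalso
    have hc : Nat.card H = 60 := by rw [Nat.card_congr f.toEquiv, card_A5]
    rw [hc] at hdvd hne
    have h5 : 5 ∣ Fintype.card F * (Fintype.card F ^ 2 - 1) := by
      rw [← hG]
      exact Dvd.dvd.mul_left (Dvd.dvd.trans (by norm_num) hdvd) _
    rcases hC1 h5 with h4 | h4
    · rw [h4] at hG
      norm_num at hG
      omega
    · rw [h4] at hG
      norm_num at hG
      omega
  · letI : Field K := i1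
    letI : Fintype K := i2
    have hk2 : 2 ≤ Fintype.card K := Fintype.one_lt_card
    have hKG := card_PSL2_mul (F := K)
    have hKP := Cfsg.Agent.S0806.card_PGL2' K
    rcases Nat.lt_or_ge m 2 with hm2 | hm2
    · exfalso
      interval_cases m
      · rw [pow_zero] at hm; omega
      · rw [pow_one] at hm
        rw [hm] at hKG hKP
        rcases hf with ⟨⟨f⟩⟩ | ⟨⟨f⟩⟩
        · have h1 := Nat.card_congr f.toEquiv
          rw [← h1, ← hG] at hKG
          have := Nat.eq_of_mul_eq_mul_left (by rcases hz with h | h <;> omega) hKG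
          omega
        · have h1 := Nat.card_congr f.toEquiv
          rw [← h1, ← hG] at hKP
          have h2 : Nat.card (Matrix.ProjectiveSpecialLinearGroup (Fin 2) F) ≤
              Nat.gcd 2 (Fintype.card F - 1) *
                Nat.card (Matrix.ProjectiveSpecialLinearGroup (Fin 2) F) :=
            Nat.le_mul_of_pos_left _ (by rcases hz with h | h <;> omega)
          omega
    · rcases hC2 _ m hm2 hm with hk | ⟨hk, h16⟩
      · rcases hf with ⟨⟨f⟩⟩ | ⟨⟨f⟩⟩
        · have := psl_small_solvable (K := K) (by omega)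
          exact Group.isSolvable_of_isSolvable_injective (f := f.toMonoidHom) f.injective
        · have := pgl_two_solvable (K := K) hk
          exact Group.isSolvable_of_isSolvable_injective (f := f.toMonoidHom) f.injective
      · rcases hf with ⟨⟨f⟩⟩ | ⟨⟨f⟩⟩
        · have := psl_small_solvable (K := K) (by omega)
          exact Group.isSolvable_of_isSolvable_injective (f := f.toMonoidHom) f.injective
        · exfalso
          apply h16
          have hc : Nat.card H = 24 := by rw [Nat.card_congr f.toEquiv, hKP, hk]; norm_num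
          rw [hc] at hdvd
          have hodd : Fintype.card F % 2 = 1 := by
            rw [← hm, hk, Nat.pow_mod]; norm_num
          have hz2 : Nat.gcd 2 (Fintype.card F - 1) = 2 :=
            Nat.gcd_eq_left (by omega)
          rw [hz2] at hG
          rw [← hG]
          obtain ⟨c, hc'⟩ := hdvd
          exact ⟨3 * c, by rw [hc']; ring⟩

theorem not_minimal_of_A5 {F : Type*} [Field F] [Fintype F]
    (h5 : 5 ∣ Fintype.card F * (Fintype.card F ^ 2 - 1))
    (hbig : 120 < Fintype.card F * (Fintype.card F ^ 2 - 1)) :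
    ∃ H : Subgroup (Matrix.ProjectiveSpecialLinearGroup (Fin 2) F),
      H ≠ ⊤ ∧ ¬ Group.IsSolvable H := by
  obtain ⟨H, ⟨f⟩⟩ := (Cfsg.Agent.S0804.result (F := F) rfl).2 h5
  refine ⟨H, ?_, ?_⟩
  · intro htop
    have hc : Nat.card H = 60 := by rw [Nat.card_congr f.toEquiv, card_A5]
    rw [htop, Subgroup.card_top] at hc
    have hG := card_PSL2_mul (F := F)
    rw [hc] at hG
    have hz : Nat.gcd 2 (Fintype.card F - 1) ≤ 2 :=
      Nat.le_of_dvd (by norm_num) (Nat.gcd_dvd_left _ _)
    have : Nat.gcd 2 (Fintype.card F - 1) * 60 ≤ 2 * 60 := Nat.mul_le_mul_right _ hz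
    omega
  · intro hsol
    exact a5_not_solvable
      (Group.isSolvable_of_isSolvable_injective (f := f.symm.toMonoidHom) f.symm.injective)

/-- PSL_2(q) is minimal simple iff q is 2^r (r prime), 3^r (r an odd prime), a prime greater than 5 congruent to 2 or 3 mod 5, or 5. -/
theorem result {F : Type*} [Field F] [Fintype F] {q : ℕ} (hF : Fintype.card F = q) : Cfsg.IsMinimalSimple (Matrix.ProjectiveSpecialLinearGroup (Fin 2) F) ↔ ((∃ r : ℕ, r.Prime ∧ q = 2 ^ r) ∨ (∃ r : ℕ, r.Prime ∧ r ≠ 2 ∧ q = 3 ^ r) ∨ (q.Prime ∧ 5 < q ∧ (q % 5 = 2 ∨ q % 5 = 3)) ∨ q = 5) := by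
  subst hF
  obtain ⟨p, hp⟩ := CharP.exists F
  haveI := hp
  haveI : Fact p.Prime := ⟨CharP.char_is_prime F p⟩
  constructor
  · rintro ⟨hsimp, hnc, hsolv⟩
    obtain ⟨n, hpp, hn⟩ := FiniteField.card F p
    have hno : ¬ ∃ H : Subgroup (Matrix.ProjectiveSpecialLinearGroup (Fin 2) F),
        H ≠ ⊤ ∧ ¬ Group.IsSolvable H := fun ⟨H, h1, h2⟩ => h2 (hsolv H h1)
    have hq4 : 4 ≤ Fintype.card F := by
      by_contra hlt
      have hsol := psl_small_solvable (K := F) (by omega)
      have hcomm := (IsSimpleGroup.comm_iff_isSolvable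
        (G := Matrix.ProjectiveSpecialLinearGroup (Fin 2) F)).2 hsol
      exact hnc ⟨⟨hcomm⟩⟩
    by_contra hnot
    push Not at hnot
    obtain ⟨hn1, hn2, hn3, hn4⟩ := hnot
    have hsub : ∀ a b : ℕ, (n : ℕ) = a * b → 2 ≤ b → a ≠ 0 → 4 ≤ p ^ a → False := by
      intro a b hab hb ha0 h4
      haveI : Fintype (GaloisField p a) := Fintype.ofFinite _
      have hcK : Fintype.card (GaloisField p a) = p ^ a := by
        rw [← Nat.card_eq_fintype_card]; exact GaloisField.card p a ha0
      have hKF : Fintype.card (GaloisField p a) ^ b = Fintype.card F := by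
        rw [hcK, ← pow_mul, ← hab, hn]
      obtain ⟨ι⟩ := Cfsg.Agent.S0805.exists_field_hom b hKF
      apply hno
      apply exists_nonsolvable_subfield ι (by rw [hcK]; exact h4)
      rw [← hKF]
      exact Nat.pow_le_pow_right (by omega) hb
    have hcomp : 2 ≤ (n : ℕ) → ¬ (n : ℕ).Prime → 4 ≤ p ^ 2 → False := by
      intro h2 hnp h4
      obtain ⟨a, hdvd, ha2, han⟩ := Nat.exists_dvd_of_not_prime2 h2 hnp
      obtain ⟨b, hb⟩ := hdvd
      have hb2 : 2 ≤ b := by
        by_contra hlt
        have : b = 0 ∨ b = 1 := by omega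
        rcases this with h | h
        · rw [h, mul_zero] at hb; omega
        · rw [h, mul_one] at hb; omega
      refine hsub a b hb hb2 (by omega) ?_
      calc 4 ≤ p ^ 2 := h4
        _ ≤ p ^ a := Nat.pow_le_pow_right hpp.pos ha2
    have hp2 := hpp.two_le
    have h4p : 4 ≤ p ^ 2 := by
      calc 4 = 2 ^ 2 := by norm_num
        _ ≤ p ^ 2 := Nat.pow_le_pow_left hp2 2
    have hnpos : 1 ≤ (n : ℕ) := n.pos
    rcases Nat.lt_or_ge p 5 with hp5 | hp5
    · have hp23 : p = 2 ∨ p = 3 := by
        interval_cases p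
        · left; rfl
        · right; rfl
        · exact absurd hpp (by norm_num)
      rcases hp23 with rfl | rfl
      · -- `p = 2`
        have hn2' : 2 ≤ (n : ℕ) := by
          by_contra hlt
          have : (n : ℕ) = 1 := by omega
          rw [hn, this] at hq4
          omega
        exact hcomp hn2' (fun hpr => hn1 _ hpr hn) h4p
      · -- `p = 3`
        rcases Nat.lt_or_ge (n : ℕ) 3 with hn3' | hn3'
        · have : (n : ℕ) = 1 ∨ (n : ℕ) = 2 := by omega
          rcases this with h | h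
          · rw [hn, h] at hq4; omega
          · apply hno
            apply not_minimal_of_A5
            · rw [hn, h]; norm_num
            · rw [hn, h]; norm_num
        · exact hcomp (by omega) (fun hpr => hn2 _ hpr (by omega) hn) h4p
    · rcases Nat.lt_or_ge (n : ℕ) 2 with hn2' | hn2'
      · have h1 : (n : ℕ) = 1 := by omega
        rw [h1, pow_one] at hn
        rw [hn] at hn3 hn4
        have hp6 : 5 < p := by omega
        have hmod := hn3 hpp hp6
        have h0 : p % 5 ≠ 0 := by
          intro h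
          have := (Nat.prime_dvd_prime_iff_eq Nat.prime_five hpp).1 (Nat.dvd_of_mod_eq_zero h)
          omega
        apply hno
        apply not_minimal_of_A5
        · rw [hn]; exact five_dvd p (by omega)
        · rw [hn]
          have h7 : 7 ≤ p := by
            by_contra hlt
            have : p = 6 := by omega
            rw [this] at hpp
            exact absurd hpp (by norm_num)
          have h49 : 49 ≤ p ^ 2 := by
            calc 49 = 7 ^ 2 := by norm_num
              _ ≤ p ^ 2 := Nat.pow_le_pow_left h7 2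
          calc 120 < 7 * 48 := by norm_num
            _ ≤ p * (p ^ 2 - 1) := Nat.mul_le_mul h7 (by omega)
      · refine hsub 1 (n : ℕ) (by rw [one_mul]) hn2' one_ne_zero ?_
        rw [pow_one]; omega
  · rintro (⟨r, hr, hq⟩ | ⟨r, hr, hr2, hq⟩ | ⟨hqp, hq5, hmod⟩ | hq)
    · -- `q = 2 ^ r`
      have hr2 := hr.two_le
      refine minimal_of p ?_ ?_ ?_
      · rw [hq]
        calc 4 = 2 ^ 2 := by norm_num
          _ ≤ 2 ^ r := Nat.pow_le_pow_right (by norm_num) hr2
      · intro h5
        rcases Nat.even_or_odd r with he | ho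
        · have : r = 2 := ((Nat.Prime.even_iff hr).1 he)
          left; rw [hq, this]; norm_num
        · exfalso
          obtain ⟨j, rfl⟩ := ho
          exact not_five_dvd _ (by rw [hq]; exact two_pow_odd j) h5
      · intro k m hm hkm
        left
        rw [hq] at hkm
        exact pow_eq_prime_pow 2 Nat.prime_two r hr k m hm hkm
    · -- `q = 3 ^ r`
      have hodd : Odd r := hr.odd_of_ne_two hr2
      obtain ⟨j, rfl⟩ := hodd
      refine minimal_of p ?_ ?_ ?_
      · rw [hq]
        calc 4 ≤ 3 ^ 2 := by norm_num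
          _ ≤ 3 ^ (2 * j + 1) := Nat.pow_le_pow_right (by norm_num) hr.two_le
      · intro h5
        exfalso
        exact not_five_dvd _ (by rw [hq]; exact three_pow_odd5 j) h5
      · intro k m hm hkm
        right
        rw [hq] at hkm
        refine ⟨pow_eq_prime_pow 3 Nat.prime_three _ hr k m hm hkm, ?_⟩
        exact not_sixteen_dvd _ (by rw [hq]; exact three_pow_odd16 j)
    · -- `q` prime, `q ≡ ±2 (mod 5)`
      refine minimal_of p (by omega) ?_ ?_
      · intro h5
        exact absurd h5 (not_five_dvd _ hmod)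
      · intro k m hm hkm
        exfalso
        have := ((Nat.Prime.pow_eq_iff hqp).1 hkm).2
        omega
    · -- `q = 5`
      refine minimal_of p (by omega) ?_ ?_
      · intro _; right; exact hq
      · intro k m hm hkm
        exfalso
        rw [hq] at hkm
        have := ((Nat.Prime.pow_eq_iff Nat.prime_five).1 hkm).2
        omega

end Cfsg.Agent.S0810
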