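import Cfsg.Statements.S0812
import Cfsg.Agent.H18.DkDihMax

set_option autoImplicit false
open Cfsg

namespace Cfsg.Agent.S0812

/-- For q ∉ {2, 3, 5, 7, 9, 11}, PSL_2(q) has a maximal subgroup isomorphic to the dihedral group of order 2(q − 1)/d, d = gcd(2, q − 1). -/
theorem result {F : Type*} [Field F] [Fintype F] {q : ℕ} (hF : Fintype.card F = q) (hq : q ∉ ({2, 3, 5, 7, 9, 11} : Finset ℕ)) : ∃ H : Subgroup (Matrix.ProjectiveSpecialLinearGroup (Fin 2) F), IsCoatom H ∧ Nonempty (H ≃* DihedralGroup ((q - 1) / Nat.gcd 2 (q - 1))) := by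
  subst hF
  have hq2 : 2 ≤ Fintype.card F := Fintype.one_lt_card
  have hq4 : 4 ≤ Fintype.card F := by
    by_contra h
    have : Fintype.card F = 2 ∨ Fintype.card F = 3 := by omega
    rcases this with h | h <;> rw [h] at hq <;> simp at hq
  obtain ⟨H, ⟨e⟩⟩ := Cfsg.Agent.H18.Dk.exists_dih_sub (F := F) hq4
  exact ⟨H, Cfsg.Agent.H18.Dk.dih_coatom_sub_aux rfl hq rfl rfl H e, ⟨e⟩⟩

end Cfsg.Agent.S0812
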