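import Mathlib
import Cfsg.Statements.S0814
import Cfsg.Agent.H50.AutPSpOut
import Cfsg.Agent.S2600

set_option autoImplicit false
open Cfsg

namespace Cfsg.Agent.S0814

/-- |Aut(PSp_2m(q))| = gcd(2, q−1) · f · |PSp_2m(q)| for q = p^f, m ≥ 2, (m, q) ≠ (2, 2), with an extra factor 2 exactly when m = 2 and p = 2. -/
theorem result {F : Type*} [Field F] [Fintype F] (p f : ℕ) [Fact p.Prime] (hf : 1 ≤ f) (hF : Fintype.card F = p ^ f) (m : ℕ) (hm : 2 ≤ m) (h22 : m = 2 → 3 ≤ p ^ f) : Nat.card (MulAut (Cfsg.PSp m F)) = (if m = 2 ∧ p = 2 then 2 else 1) * Nat.gcd 2 (p ^ f - 1) * f * Nat.card (Cfsg.PSp m F) := by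
  by_cases h : m = 2 ∧ p = 2
  · obtain ⟨rfl, rfl⟩ := h
    rw [if_pos ⟨rfl, rfl⟩]
    obtain ⟨-, hout⟩ := Cfsg.Agent.S2600.result hf hF
    have h3 := Subgroup.card_mul_index (Cfsg.Inn (Cfsg.PSp 2 F))
    have h4 : (Cfsg.Inn (Cfsg.PSp 2 F)).index = Nat.card (Cfsg.Out (Cfsg.PSp 2 F)) := rfl
    have hg : Nat.gcd 2 (2 ^ f - 1) = 1 := by
      have hodd : Odd (2 ^ f - 1) := by
        have h1 : Even (2 ^ f) := (Nat.even_pow' (by omega)).mpr even_two
        have h2 : 1 ≤ 2 ^ f := Nat.one_le_two_pow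
        exact Nat.Even.sub_odd h2 h1 odd_one
      exact Nat.coprime_two_left.mpr hodd
    rw [← h3, Cfsg.Agent.H50.FieldAutSp.card_inn (le_refl 2), h4, hout, hg]
    ring
  · rw [if_neg h, one_mul]
    apply Cfsg.Agent.H50.FieldAutSp.card_aut_psp hf hF hm
    intro hp
    by_contra hcon
    exact h ⟨by omega, hp⟩

end Cfsg.Agent.S0814
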