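import Cfsg.Statements.S2579
import Cfsg.Agent.H48.Transvection

set_option autoImplicit false
open Cfsg

namespace Cfsg.Agent.S2579

open Cfsg.Agent.H48

/-- In SL_n(F) with n ≥ 3, over a finite field F, any two transvections (matrices t with t − 1 of rank one and square zero) are conjugate by an element of SL_n(F). -/
theorem result {F : Type*} [Field F] [Finite F] {n : ℕ} (hn : 3 ≤ n) (s t : Matrix.SpecialLinearGroup (Fin n) F) (hs : Cfsg.IsTransvection (s : Matrix (Fin n) (Fin n) F)) (ht : Cfsg.IsTransvection (t : Matrix (Fin n) (Fin n) F)) : IsConj s t := by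
  obtain ⟨g, hg, hgT⟩ := exists_sl_conj_of_rank_one_sq_zero (by simpa using hn)
    ((s : Matrix (Fin n) (Fin n) F) - 1) ((t : Matrix (Fin n) (Fin n) F) - 1)
    hs.1 hs.2 ht.1 ht.2
  rw [isConj_iff]
  let g' : Matrix.SpecialLinearGroup (Fin n) F := ⟨g, hg⟩
  refine ⟨g', ?_⟩
  rw [mul_inv_eq_iff_eq_mul]
  apply Subtype.ext
  show g * (s : Matrix (Fin n) (Fin n) F) = (t : Matrix (Fin n) (Fin n) F) * g
  rw [mul_sub, sub_mul, mul_one, one_mul] at hgT
  exact sub_left_injective hgT
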