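import Cfsg.Statements.S0820
import Cfsg.Agent.S2579
import Cfsg.Agent.H48.PSL34

set_option autoImplicit false
open Cfsg

namespace Cfsg.Agent.S0820

open Cfsg.Agent.H48

/-- Every element of order 2 of `PSL₃(4)` is the image of a transvection. -/
theorem exists_transvection_lift {F : Type*} [Field F] [Fintype F] (hF : Fintype.card F = 4)
    (x : Matrix.ProjectiveSpecialLinearGroup (Fin 3) F) (hx : orderOf x = 2) :
    ∃ t : Matrix.SpecialLinearGroup (Fin 3) F,
      (QuotientGroup.mk t : Matrix.ProjectiveSpecialLinearGroup (Fin 3) F) = x ∧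
        Cfsg.IsTransvection (t : Matrix (Fin 3) (Fin 3) F) := by
  classical
  have h4 : (4 : F) = 0 := by
    have := Nat.cast_card_eq_zero F
    rw [hF] at this
    exact_mod_cast this
  have h2 : (2 : F) = 0 := by
    have : (2 : F) * 2 = 0 := by rw [← h4]; norm_num
    exact mul_self_eq_zero.mp this
  have hfrob : ∀ a : F, a ^ 4 = a := by
    intro a
    rw [← hF]
    exact FiniteField.pow_card a
  obtain ⟨g, rfl⟩ := QuotientGroup.mk_surjective x
  have hg2 : g ^ 2 ∈ Subgroup.center (Matrix.SpecialLinearGroup (Fin 3) F) := by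
    rw [← QuotientGroup.eq_one_iff, QuotientGroup.mk_pow, ← hx, pow_orderOf_eq_one]
  obtain ⟨ζ, hζ3, hζ⟩ := Matrix.SpecialLinearGroup.mem_center_iff.mp hg2
  rw [Fintype.card_fin] at hζ3
  have hg2' : (g : Matrix (Fin 3) (Fin 3) F) ^ 2 = ζ • (1 : Matrix (Fin 3) (Fin 3) F) := by
    rw [← Matrix.SpecialLinearGroup.coe_pow, ← hζ, Matrix.scalar_apply,
      Matrix.smul_one_eq_diagonal]
  set η := ζ ^ 2 with hηdef
  have hη2 : η ^ 2 = ζ := by rw [hηdef, ← pow_mul]; exact hfrob ζ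
  have hη3 : η ^ 3 = 1 := by rw [hηdef, ← pow_mul, show 2 * 3 = 3 * 2 from rfl, pow_mul, hζ3, one_pow]
  have hη0 : η ≠ 0 := by
    intro h0
    rw [h0] at hη3
    simp at hη3
  have hinv3 : η⁻¹ ^ 3 = 1 := by rw [inv_pow, hη3, inv_one]
  -- the central scalar `η⁻¹`
  let s : Matrix.SpecialLinearGroup (Fin 3) F :=
    ⟨η⁻¹ • (1 : Matrix (Fin 3) (Fin 3) F), by
      rw [Matrix.det_smul, Matrix.det_one, mul_one, Fintype.card_fin, hinv3]⟩
  have hs : s ∈ Subgroup.center (Matrix.SpecialLinearGroup (Fin 3) F) := by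
    rw [Matrix.SpecialLinearGroup.mem_center_iff]
    refine ⟨η⁻¹, by rw [Fintype.card_fin, hinv3], ?_⟩
    rw [Matrix.scalar_apply, ← Matrix.smul_one_eq_diagonal]
  let t : Matrix.SpecialLinearGroup (Fin 3) F := s * g
  have ht : (t : Matrix (Fin 3) (Fin 3) F) = η⁻¹ • (g : Matrix (Fin 3) (Fin 3) F) := by
    show (η⁻¹ • (1 : Matrix (Fin 3) (Fin 3) F)) * (g : Matrix (Fin 3) (Fin 3) F) = _
    rw [Matrix.smul_mul, one_mul]
  have hmk : (QuotientGroup.mk t : Matrix.ProjectiveSpecialLinearGroup (Fin 3) F) =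
      QuotientGroup.mk g := by
    show (QuotientGroup.mk (s * g) : Matrix.ProjectiveSpecialLinearGroup (Fin 3) F) = _
    rw [QuotientGroup.mk_mul, (QuotientGroup.eq_one_iff s).mpr hs, one_mul]
  have hsq : ((t : Matrix (Fin 3) (Fin 3) F) - 1) * ((t : Matrix (Fin 3) (Fin 3) F) - 1) = 0 := by
    have e : ((t : Matrix (Fin 3) (Fin 3) F) - 1) * ((t : Matrix (Fin 3) (Fin 3) F) - 1) =
        (η⁻¹ ^ 2) • (g : Matrix (Fin 3) (Fin 3) F) ^ 2 - (2 * η⁻¹) • (g : Matrix (Fin 3) (Fin 3) F)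
          + 1 := by
      rw [ht, sub_mul, mul_sub, mul_sub, Matrix.smul_mul, Matrix.mul_smul, mul_one, one_mul,
        mul_one, smul_smul, two_mul, add_smul, ← pow_two, ← pow_two]
      abel
    rw [e, hg2', h2, zero_mul, zero_smul, sub_zero, smul_smul, ← hη2, ← mul_pow,
      inv_mul_cancel₀ hη0, one_pow, one_smul]
    have : (1 : Matrix (Fin 3) (Fin 3) F) + 1 = (2 : F) • (1 : Matrix (Fin 3) (Fin 3) F) := by
      rw [two_smul]
    rw [this, h2, zero_smul]
  have hne : (t : Matrix (Fin 3) (Fin 3) F) - 1 ≠ 0 := by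
    intro h0
    have ht1 : t = 1 := by
      apply Subtype.ext
      rw [sub_eq_zero] at h0
      rw [h0]; rfl
    have hx1 : (QuotientGroup.mk g : Matrix.ProjectiveSpecialLinearGroup (Fin 3) F) = 1 := by
      rw [← hmk, ht1]; rfl
    rw [hx1, orderOf_one] at hx
    exact absurd hx (by norm_num)
  have hrank : ((t : Matrix (Fin 3) (Fin 3) F) - 1).rank = 1 := by
    have h1 := Matrix.rank_add_rank_le_card_of_mul_eq_zero hsq
    rw [Fintype.card_fin] at h1
    have h3 : ((t : Matrix (Fin 3) (Fin 3) F) - 1).rank ≠ 0 :=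
      fun h => hne (eq_zero_of_rank_eq_zero _ h)
    omega
  exact ⟨t, hmk, hrank, hsq⟩

/-- Any two elements of order 2 of PSL_3(4) are conjugate. -/
theorem result {F : Type*} [Field F] [Fintype F] (hF : Fintype.card F = 4) (x y : Matrix.ProjectiveSpecialLinearGroup (Fin 3) F) (hx : orderOf x = 2) (hy : orderOf y = 2) : IsConj x y := by
  obtain ⟨t, rfl, ht⟩ := exists_transvection_lift hF x hx
  obtain ⟨t', rfl, ht'⟩ := exists_transvection_lift hF y hy
  have h := Cfsg.Agent.S2579.result (F := F) (n := 3) (by norm_num) t t' ht ht'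
  rw [isConj_iff] at h ⊢
  obtain ⟨c, hc⟩ := h
  refine ⟨QuotientGroup.mk c, ?_⟩
  rw [← hc]
  rfl

end Cfsg.Agent.S0820
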