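import Cfsg.Statements.S0821
-- import your own Cfsg.Agent.* helpers here
import Cfsg.Agent.H45.PSpInvol
import Cfsg.Agent.H45.OmInvol
import Cfsg.Agent.S0292

set_option autoImplicit false
open Cfsg

namespace Cfsg.Agent.S0821

/-- PSp_2m(q) ≇ PΩ_(2m+1)(q) for q odd and m ≥ 3 (they have the same order). -/
theorem result {F : Type*} [Field F] [Fintype F] (hodd : Odd (Fintype.card F)) (m : ℕ) (hm : 3 ≤ m) : IsEmpty (Cfsg.PSp m F ≃* Cfsg.POmega F (Cfsg.quadFormOdd m F)) := by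
  classical
  have h2 : (2 : F) ≠ 0 := H7.two_ne_zero_of_odd_card hodd
  rw [← H7.qOdd_coe m]
  constructor
  intro φ
  have hne : Nonempty (Fin m) := ⟨⟨0, by omega⟩⟩
  have hpr : (ringChar F).Prime := CharP.char_is_prime F (ringChar F)
  have hfact : Fact (ringChar F).Prime := ⟨hpr⟩
  obtain ⟨t, ht2, ht1, htc⟩ := H45.omega_odd_invols (F := F) m h2
  have hcenter := Cfsg.Agent.S0292.center_eq_bot (F := F) h2 m (by omega)
  have hπinj : Function.Injective
      (QuotientGroup.mk' (Subgroup.center (Omega F ⇑(H7.qOdd m F)))) := by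
    rw [← MonoidHom.ker_eq_bot_iff, QuotientGroup.ker_mk', hcenter]
  have hsurj : Function.Surjective
      (QuotientGroup.mk' (Subgroup.center (Matrix.symplecticGroup (Fin m) F))) :=
    QuotientGroup.mk'_surjective _
  obtain ⟨lift, hlift⟩ : ∃ lift : Fin m → ↥(Matrix.symplecticGroup (Fin m) F),
      ∀ k, (QuotientGroup.mk (lift k) : PSp m F) =
        φ.symm (QuotientGroup.mk' (Subgroup.center (Omega F ⇑(H7.qOdd m F))) (t k)) :=
    ⟨fun k => Function.surjInv hsurj _, fun k => Function.surjInv_eq hsurj _⟩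
  have hord : ∀ k, orderOf (QuotientGroup.mk (lift k) : PSp m F) = 2 := by
    intro k
    rw [hlift k, MulEquiv.orderOf_eq, orderOf_injective _ hπinj]
    have : Fact (Nat.Prime 2) := ⟨Nat.prime_two⟩
    exact orderOf_eq_prime (by rw [pow_two]; exact ht2 k) (ht1 k)
  have hle : ∀ k, H45.spTy m
      (lift k : Matrix (Fin m ⊕ Fin m) (Fin m ⊕ Fin m) F) ≤ m / 2 :=
    fun k => H45.psp_invol_ty_le h2 (ringChar F) m (lift k) (hord k)
  obtain ⟨k, l, hkl, hty⟩ := Fintype.exists_ne_map_eq_of_card_lt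
    (fun k : Fin m => (⟨H45.spTy m (lift k : Matrix (Fin m ⊕ Fin m) (Fin m ⊕ Fin m) F),
      Nat.lt_succ_of_le (hle k)⟩ : Fin (m / 2 + 1)))
    (by rw [Fintype.card_fin, Fintype.card_fin]; omega)
  have hty' : H45.spTy m (lift k : Matrix (Fin m ⊕ Fin m) (Fin m ⊕ Fin m) F) =
      H45.spTy m (lift l : Matrix (Fin m ⊕ Fin m) (Fin m ⊕ Fin m) F) := congrArg Fin.val hty
  have hconj := H45.psp_invol_conj h2 (ringChar F) m (lift k) (lift l) (hord k) (hord l) hty'
  rw [hlift k, hlift l] at hconj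
  have hconj2 : IsConj (QuotientGroup.mk' (Subgroup.center (Omega F ⇑(H7.qOdd m F))) (t k))
      (QuotientGroup.mk' (Subgroup.center (Omega F ⇑(H7.qOdd m F))) (t l)) := by
    have h3 := MonoidHom.map_isConj φ.toMonoidHom hconj
    simpa using h3
  obtain ⟨c, hc⟩ := isConj_iff.mp hconj2
  obtain ⟨g, rfl⟩ := QuotientGroup.mk'_surjective _ c
  apply hkl
  apply htc
  rw [isConj_iff]
  refine ⟨g, hπinj ?_⟩
  rw [map_mul, map_mul, map_inv]
  exact hc

end Cfsg.Agent.S0821
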