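import Mathlib
import Cfsg.Statements.S0823
import Cfsg.Agent.H7.Omega3
import Cfsg.Agent.H7.S4Gen
import Cfsg.Agent.S0286

set_option autoImplicit false
open Cfsg

namespace Cfsg.Agent.S0823

open Matrix
open scoped MatrixGroups

section Rho

variable {F : Type*} [Field F]

/-- The kernel of the conjugation representation consists of the scalar matrices. -/
theorem rhoO_eq_one_iff (g : GL (Fin 2) F) :
    H7.rhoO g = 1 ↔ g.1 0 1 = 0 ∧ g.1 1 0 = 0 ∧ g.1 0 0 = g.1 1 1 := by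
  constructor
  · intro h
    have hv : ∀ v, H7.conjT g v = v := by
      intro v
      rw [← H7.rhoO_mulVec, h]
      simp
    have hc : ∀ v : Unit ⊕ (Fin 1 ⊕ Fin 1) → F, g.1 * H7.phiL v = H7.phiL v * g.1 := by
      intro v
      have h2 := H7.phiL_conjT g v
      rw [hv v] at h2
      have h3 := congrArg (fun X => X * (g : Matrix (Fin 2) (Fin 2) F)) h2
      beta_reduce at h3
      rw [mul_assoc, ← Units.val_mul, inv_mul_cancel, Units.val_one, mul_one] at h3
      exact h3.symm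
    have h1 := hc (Pi.single (Sum.inr (Sum.inl 0)) 1)
    have h2 := hc (Pi.single (Sum.inr (Sum.inr 0)) 1)
    have e1 := congrFun (congrFun h1 0) 0
    have e2 := congrFun (congrFun h1 0) 1
    have e3 := congrFun (congrFun h2 0) 0
    simp [H7.phiL_apply, Matrix.mul_apply, Fin.sum_univ_two] at e1 e2 e3
    exact ⟨e3, e1.symm, e2⟩
  · rintro ⟨h01, h10, h00⟩
    apply Cfsg.Agent.H49.isometry_ext
    intro v
    rw [H7.rhoO_mulVec, H7.conjT_apply]
    have hcomm : g.1 * H7.phiL v = H7.phiL v * g.1 := by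
      ext i j
      fin_cases i <;> fin_cases j <;>
        simp [H7.phiL_apply, Matrix.mul_apply, Fin.sum_univ_two, h01, h10, h00] <;> ring
    rw [hcomm, mul_assoc, ← Units.val_mul, mul_inv_cancel, Units.val_one, mul_one, H7.psiL_phiL]
    simp

/-- Proportional matrices have the same image under the conjugation representation. -/
theorem rhoO_eq_of_smul (g h : GL (Fin 2) F) (c : F) (hgh : h.1 = c • g.1) :
    H7.rhoO g = H7.rhoO h := by
  have hz : H7.rhoO (g⁻¹ * h) = 1 := by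
    rw [rhoO_eq_one_iff]
    have : (g⁻¹ * h).1 = c • (1 : Matrix (Fin 2) (Fin 2) F) := by
      rw [Units.val_mul, hgh, Matrix.mul_smul, ← Units.val_mul, inv_mul_cancel, Units.val_one]
    rw [this]
    simp
  rw [map_mul, map_inv] at hz
  exact inv_mul_eq_one.mp hz

theorem rel2 (g h k : GL (Fin 2) F) (c : F) (hk : k.1 = c • (g.1 * h.1)) :
    H7.rhoO g * H7.rhoO h = H7.rhoO k := by
  rw [← map_mul]
  exact rhoO_eq_of_smul _ _ c (by rw [Units.val_mul]; exact hk)

theorem rel3 (g h l k : GL (Fin 2) F) (c : F) (hk : k.1 = c • (g.1 * h.1 * l.1)) :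
    H7.rhoO g * H7.rhoO h * H7.rhoO l = H7.rhoO k := by
  rw [← map_mul, ← map_mul]
  exact rhoO_eq_of_smul _ _ c (by rw [Units.val_mul, Units.val_mul]; exact hk)

/-- The image of an element of `SL₂` has determinant one. -/
theorem rhoO_sl_mem (h2 : (2 : F) ≠ 0) (s : SL(2, F)) :
    H7.rhoO (Matrix.SpecialLinearGroup.toGL s) ∈
      specialIsometryGroup F (quadFormOdd 1 F) := by
  have hF' : ∃ a : F, a ≠ 0 ∧ a ≠ 1 :=
    ⟨-1, by simp, by intro h; apply h2; linear_combination -h⟩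
  have hmem := (H7.sigma3 hF' s).2
  have hle : Omega F (quadFormOdd 1 F) ≤ specialIsometryGroup F (quadFormOdd 1 F) :=
    Abelianization.commutator_subset_ker _
  exact hle hmem

/-- The image of `diag(-1, 1)` has determinant one. -/
theorem rhoO_diag_mem (gd : GL (Fin 2) F) (hgd : gd.1 = !![-1, 0; 0, 1]) :
    H7.rhoO gd ∈ specialIsometryGroup F (quadFormOdd 1 F) := by
  have hinv : gd⁻¹ = gd := by
    apply inv_eq_of_mul_eq_one_right
    apply Units.ext
    rw [Units.val_mul, hgd]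
    ext a b
    fin_cases a <;> fin_cases b <;> simp [Matrix.mul_apply, Fin.sum_univ_two]
  have hmat : (((H7.rhoO gd : ↥(isometryGroup F (quadFormOdd 1 F))) :
      GL (Unit ⊕ (Fin 1 ⊕ Fin 1)) F) : Matrix (Unit ⊕ (Fin 1 ⊕ Fin 1)) (Unit ⊕ (Fin 1 ⊕ Fin 1)) F) =
      Matrix.diagonal (Sum.elim (fun _ => 1) (fun _ => -1)) := by
    apply Cfsg.Agent.H49.matrix_ext_mulVec
    intro v
    rw [H7.rhoO_mulVec, H7.conjT_apply, hinv, hgd]
    funext i
    rcases i with ⟨⟩ | i | i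
    · simp [H7.phiL_apply, H7.psiL_apply, Matrix.mulVec_diagonal, Matrix.mul_apply,
        Fin.sum_univ_two]
    · obtain rfl : i = 0 := Subsingleton.elim _ _
      simp [H7.phiL_apply, H7.psiL_apply, Matrix.mulVec_diagonal, Matrix.mul_apply,
        Fin.sum_univ_two]
    · obtain rfl : i = 0 := Subsingleton.elim _ _
      simp [H7.phiL_apply, H7.psiL_apply, Matrix.mulVec_diagonal, Matrix.mul_apply,
        Fin.sum_univ_two]
  show (Matrix.GeneralLinearGroup.det.comp (isometryGroup F (quadFormOdd 1 F)).subtype)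
    (H7.rhoO gd) = 1
  apply Units.ext
  rw [MonoidHom.comp_apply, Matrix.GeneralLinearGroup.val_det_apply, Units.val_one]
  show Matrix.det (((H7.rhoO gd : ↥(isometryGroup F (quadFormOdd 1 F))) :
      GL (Unit ⊕ (Fin 1 ⊕ Fin 1)) F) : Matrix (Unit ⊕ (Fin 1 ⊕ Fin 1)) (Unit ⊕ (Fin 1 ⊕ Fin 1)) F) = 1
  rw [hmat, Matrix.det_diagonal]
  simp [Fintype.prod_sum_type]

theorem neg_one_mem :
    (-1 : GL (Unit ⊕ (Fin 1 ⊕ Fin 1)) F) ∈ isometryGroup F (quadFormOdd 1 F) := by
  rw [Cfsg.Agent.H49.mem_isometryGroup_iff]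
  intro u
  have : ((-1 : GL (Unit ⊕ (Fin 1 ⊕ Fin 1)) F) :
      Matrix (Unit ⊕ (Fin 1 ⊕ Fin 1)) (Unit ⊕ (Fin 1 ⊕ Fin 1)) F) *ᵥ u = -u := by
    rw [Units.val_neg, Units.val_one, Matrix.neg_mulVec, Matrix.one_mulVec]
  rw [this]
  simp [quadFormOdd]

end Rho

set_option maxHeartbeats 3200000 in
/-- SO_3(3) ≅ S_4: the determinant-one isometries of the form x_0² + x_1y_1 over the field with 3 elements form a group isomorphic to the symmetric group on 4 letters. -/
theorem result {F : Type*} [Field F] [Fintype F] (hF : Fintype.card F = 3) : Nonempty (↥(Cfsg.specialIsometryGroup F (Cfsg.quadFormOdd 1 F)) ≃* Equiv.Perm (Fin 4)) := by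
  classical
  have h3 : (3 : F) = 0 := by
    have := Nat.cast_card_eq_zero F
    rw [hF] at this
    exact_mod_cast this
  have h2 : (2 : F) ≠ 0 := by
    intro h
    have : (1 : F) = 0 := by linear_combination h3 - h
    exact one_ne_zero this
  obtain ⟨gd, hgd⟩ : ∃ g : GL (Fin 2) F, g.1 = !![-1, 0; 0, 1] :=
    ⟨⟨!![-1, 0; 0, 1], !![-1, 0; 0, 1], by ext a b; fin_cases a <;> fin_cases b <;> simp [Matrix.mul_apply, Fin.sum_univ_two] <;> grind, by ext a b; fin_cases a <;> fin_cases b <;> simp [Matrix.mul_apply, Fin.sum_univ_two] <;> grind⟩, rfl⟩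
  obtain ⟨gv, hgv⟩ : ∃ g : GL (Fin 2) F, g.1 = !![0, 1; 1, 0] :=
    ⟨⟨!![0, 1; 1, 0], !![0, 1; 1, 0], by ext a b; fin_cases a <;> fin_cases b <;> simp [Matrix.mul_apply, Fin.sum_univ_two] <;> grind, by ext a b; fin_cases a <;> fin_cases b <;> simp [Matrix.mul_apply, Fin.sum_univ_two] <;> grind⟩, rfl⟩
  obtain ⟨ge, hge⟩ : ∃ g : GL (Fin 2) F, g.1 = !![-1, -1; 0, 1] :=
    ⟨⟨!![-1, -1; 0, 1], !![-1, -1; 0, 1], by ext a b; fin_cases a <;> fin_cases b <;> simp [Matrix.mul_apply, Fin.sum_univ_two] <;> grind, by ext a b; fin_cases a <;> fin_cases b <;> simp [Matrix.mul_apply, Fin.sum_univ_two] <;> grind⟩, rfl⟩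
  obtain ⟨gi, hgi⟩ : ∃ g : GL (Fin 2) F, g.1 = !![0, -1; 1, 0] :=
    ⟨⟨!![0, -1; 1, 0], !![0, 1; -1, 0], by ext a b; fin_cases a <;> fin_cases b <;> simp [Matrix.mul_apply, Fin.sum_univ_two] <;> grind, by ext a b; fin_cases a <;> fin_cases b <;> simp [Matrix.mul_apply, Fin.sum_univ_two] <;> grind⟩, rfl⟩
  obtain ⟨gj, hgj⟩ : ∃ g : GL (Fin 2) F, g.1 = !![1, -1; -1, -1] :=
    ⟨⟨!![1, -1; -1, -1], !![-1, 1; 1, 1], by ext a b; fin_cases a <;> fin_cases b <;> simp [Matrix.mul_apply, Fin.sum_univ_two] <;> grind, by ext a b; fin_cases a <;> fin_cases b <;> simp [Matrix.mul_apply, Fin.sum_univ_two] <;> grind⟩, rfl⟩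
  obtain ⟨gk, hgk⟩ : ∃ g : GL (Fin 2) F, g.1 = !![-1, -1; -1, 1] :=
    ⟨⟨!![-1, -1; -1, 1], !![1, 1; 1, -1], by ext a b; fin_cases a <;> fin_cases b <;> simp [Matrix.mul_apply, Fin.sum_univ_two] <;> grind, by ext a b; fin_cases a <;> fin_cases b <;> simp [Matrix.mul_apply, Fin.sum_univ_two] <;> grind⟩, rfl⟩
  have r1 : H7.rhoO gd * H7.rhoO gd = 1 := by
    rw [← map_one H7.rhoO]
    exact rel2 gd gd 1 1 (by rw [hgd, Units.val_one]; ext a b; fin_cases a <;> fin_cases b <;> simp [Matrix.mul_apply, Fin.sum_univ_two] <;> grind)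
  have r2 : H7.rhoO gv * H7.rhoO gv = 1 := by
    rw [← map_one H7.rhoO]
    exact rel2 gv gv 1 1 (by rw [hgv, Units.val_one]; ext a b; fin_cases a <;> fin_cases b <;> simp [Matrix.mul_apply, Fin.sum_univ_two] <;> grind)
  have r3 : H7.rhoO ge * H7.rhoO ge = 1 := by
    rw [← map_one H7.rhoO]
    exact rel2 ge ge 1 1 (by rw [hge, Units.val_one]; ext a b; fin_cases a <;> fin_cases b <;> simp [Matrix.mul_apply, Fin.sum_univ_two] <;> grind)
  have r4 : H7.rhoO gk * H7.rhoO gk = 1 := by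
    rw [← map_one H7.rhoO]
    exact rel2 gk gk 1 (-1) (by rw [hgk, Units.val_one]; ext a b; fin_cases a <;> fin_cases b <;> simp [Matrix.mul_apply, Fin.sum_univ_two] <;> grind)
  have r5 : H7.rhoO gd * H7.rhoO gv = H7.rhoO gi :=
    rel2 gd gv gi 1 (by rw [hgd, hgv, hgi]; ext a b; fin_cases a <;> fin_cases b <;> simp [Matrix.mul_apply, Fin.sum_univ_two] <;> grind)
  have r6 : H7.rhoO gv * H7.rhoO gd = H7.rhoO gi :=
    rel2 gv gd gi (-1) (by rw [hgd, hgv, hgi]; ext a b; fin_cases a <;> fin_cases b <;> simp [Matrix.mul_apply, Fin.sum_univ_two] <;> grind)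
  have r7 : H7.rhoO ge * H7.rhoO gi * H7.rhoO ge = H7.rhoO gj :=
    rel3 ge gi ge gj 1 (by rw [hge, hgi, hgj]; ext a b; fin_cases a <;> fin_cases b <;> simp [Matrix.mul_apply, Fin.sum_univ_two] <;> grind)
  have r8 : H7.rhoO gj * H7.rhoO gd * H7.rhoO gj = H7.rhoO gv :=
    rel3 gj gd gj gv (-1) (by rw [hgj, hgd, hgv]; ext a b; fin_cases a <;> fin_cases b <;> simp [Matrix.mul_apply, Fin.sum_univ_two] <;> grind)
  have r9 : H7.rhoO gj * H7.rhoO gi = H7.rhoO gk :=
    rel2 gj gi gk 1 (by rw [hgj, hgi, hgk]; ext a b; fin_cases a <;> fin_cases b <;> simp [Matrix.mul_apply, Fin.sum_univ_two] <;> grind)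
  have r10 : H7.rhoO gk * H7.rhoO gd * H7.rhoO gk = H7.rhoO gv :=
    rel3 gk gd gk gv 1 (by rw [hgk, hgd, hgv]; ext a b; fin_cases a <;> fin_cases b <;> simp [Matrix.mul_apply, Fin.sum_univ_two] <;> grind)
  have hbr : H7.rhoO ge * H7.rhoO gd * H7.rhoO ge = H7.rhoO gd * H7.rhoO ge * H7.rhoO gd := by
    rw [← map_mul, ← map_mul, ← map_mul, ← map_mul]
    apply rhoO_eq_of_smul _ _ 1
    rw [Units.val_mul, Units.val_mul, Units.val_mul, Units.val_mul, hgd, hge]
    ext a b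
    fin_cases a <;> fin_cases b <;> simp [Matrix.mul_apply, Fin.sum_univ_two] <;> grind
  have r12 : H7.rhoO gi ≠ 1 := by
    rw [Ne, rhoO_eq_one_iff, hgi]
    simp
  obtain ⟨e⟩ := H7.closure_equiv_S4 (H7.rhoO gd) (H7.rhoO gv) (H7.rhoO ge) (H7.rhoO gi)
    (H7.rhoO gj) (H7.rhoO gk) r1 r2 r3 r4 r5 r6 r7 r8 r9 r10 hbr r12
  -- the generators have determinant one
  have hdSO := rhoO_diag_mem gd hgd
  have hvSO : H7.rhoO gv ∈ specialIsometryGroup F (quadFormOdd 1 F) := by
    obtain ⟨s, hs⟩ : ∃ s : SL(2, F), s.1 = !![0, -1; 1, 0] :=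
      ⟨⟨!![0, -1; 1, 0], by simp [Matrix.det_fin_two_of]⟩, rfl⟩
    have : gv = gd * Matrix.SpecialLinearGroup.toGL s := by
      apply Units.ext
      rw [Units.val_mul, hgv, hgd]
      show _ = _ * s.1
      rw [hs]
      ext a b
      fin_cases a <;> fin_cases b <;> simp [Matrix.mul_apply, Fin.sum_univ_two]
    rw [this, map_mul]
    exact Subgroup.mul_mem _ hdSO (rhoO_sl_mem h2 s)
  have heSO : H7.rhoO ge ∈ specialIsometryGroup F (quadFormOdd 1 F) := by
    obtain ⟨s, hs⟩ : ∃ s : SL(2, F), s.1 = !![1, 1; 0, 1] :=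
      ⟨⟨!![1, 1; 0, 1], by simp [Matrix.det_fin_two_of]⟩, rfl⟩
    have : ge = gd * Matrix.SpecialLinearGroup.toGL s := by
      apply Units.ext
      rw [Units.val_mul, hge, hgd]
      show _ = _ * s.1
      rw [hs]
      ext a b
      fin_cases a <;> fin_cases b <;> simp [Matrix.mul_apply, Fin.sum_univ_two]
    rw [this, map_mul]
    exact Subgroup.mul_mem _ hdSO (rhoO_sl_mem h2 s)
  have hle : Subgroup.closure ({H7.rhoO gd, H7.rhoO ge, H7.rhoO gv} :
      Set ↥(isometryGroup F (quadFormOdd 1 F))) ≤ specialIsometryGroup F (quadFormOdd 1 F) := by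
    rw [Subgroup.closure_le]
    rintro x (rfl | rfl | rfl)
    · exact hdSO
    · exact heSO
    · exact hvSO
  -- cardinalities
  have hO : Nat.card ↥(isometryGroup F (quadFormOdd 1 F)) = 48 := by
    have := Cfsg.Agent.S0286.result hF (by decide : Odd 3) 1
    rw [this]
    norm_num [Finset.prod_range_one]
  have hneg : ∃ x : ↥(isometryGroup F (quadFormOdd 1 F)),
      x ∉ specialIsometryGroup F (quadFormOdd 1 F) := by
    refine ⟨⟨-1, neg_one_mem⟩, ?_⟩
    intro hmem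
    have hdet : (Matrix.GeneralLinearGroup.det.comp
        (isometryGroup F (quadFormOdd 1 F)).subtype) ⟨-1, neg_one_mem⟩ = 1 := hmem
    have hdet' := congrArg Units.val hdet
    rw [MonoidHom.comp_apply, Matrix.GeneralLinearGroup.val_det_apply, Units.val_one] at hdet'
    have hdet'' : Matrix.det (-1 : Matrix (Unit ⊕ (Fin 1 ⊕ Fin 1)) (Unit ⊕ (Fin 1 ⊕ Fin 1)) F)
        = 1 := hdet'
    rw [Matrix.det_neg, Matrix.det_one] at hdet''
    simp at hdet''
    apply h2
    linear_combination -hdet''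
  have hidx : 2 ≤ (specialIsometryGroup F (quadFormOdd 1 F)).index := by
    have h1 : (specialIsometryGroup F (quadFormOdd 1 F)).index ≠ 1 := by
      rw [Ne, Subgroup.index_eq_one]
      intro htop
      obtain ⟨x, hx⟩ := hneg
      exact hx (by rw [htop]; trivial)
    have h0 : (specialIsometryGroup F (quadFormOdd 1 F)).index ≠ 0 :=
      Subgroup.index_ne_zero_of_finite
    omega
  have hSOcard : Nat.card ↥(specialIsometryGroup F (quadFormOdd 1 F)) ≤ 24 := by
    have := Subgroup.card_mul_index (specialIsometryGroup F (quadFormOdd 1 F))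
    rw [hO] at this
    nlinarith
  have hcard : Nat.card ↥(Subgroup.closure ({H7.rhoO gd, H7.rhoO ge, H7.rhoO gv} :
      Set ↥(isometryGroup F (quadFormOdd 1 F)))) = 24 := by
    rw [Nat.card_congr e.toEquiv, Nat.card_perm, Nat.card_fin]
    rfl
  have heq : Subgroup.closure ({H7.rhoO gd, H7.rhoO ge, H7.rhoO gv} :
      Set ↥(isometryGroup F (quadFormOdd 1 F))) = specialIsometryGroup F (quadFormOdd 1 F) :=
    Subgroup.eq_of_le_of_card_ge hle (by rw [hcard]; exact hSOcard)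
  exact ⟨(MulEquiv.subgroupCongr heq).symm.trans e⟩

end Cfsg.Agent.S0823
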