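import Cfsg.Statements.S0825
import Cfsg.Agent.H48.SymOrth
import Cfsg.Agent.H48.FieldTwo
import Cfsg.Agent.S0287

set_option autoImplicit false
open Cfsg

namespace Cfsg.Agent.S0825

/-- O⁺_6(2) is isomorphic to the symmetric group S_8. -/
theorem result {F : Type*} [Field F] [Fintype F] (hF : Fintype.card F = 2) : Nonempty (↥(Cfsg.isometryGroup F (Cfsg.quadFormPlus 3 F)) ≃* Equiv.Perm (Fin 8)) := by
  classical
  have hcard : Fintype.card (Fin 6) = 4 * 1 + 2 := Fintype.card_fin _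
  have hκ : Even (Fintype.card (Fin 6)) := by
    rw [hcard]
    exact ⟨3, by norm_num⟩
  have h3 : 3 ≤ Fintype.card (Fin 6) := by
    rw [hcard]
    norm_num
  let emb : Fin 8 ↪ Fin 6 ⊕ Fin 2 := (finSumFinEquiv (m := 6) (n := 2)).symm.toEmbedding
  have hcase : 4 ∣ Fintype.card (Fin 6) + 2 ∨
      (Sum.inr 1 : Fin 6 ⊕ Fin 2) ∉ Set.range emb := by
    left
    rw [hcard]
    exact ⟨2, by norm_num⟩
  obtain ⟨h, hQ⟩ := Cfsg.Agent.H48.exists_weight_equiv_plus (Fin 6) 1 hcard (by decide)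
  obtain ⟨φ, hφ⟩ := Cfsg.Agent.H48.exists_perm_hom_of_weight (Fin 6) hκ h3 emb hcase _ h hQ
  let σ : ZMod 2 ≃+* F := ZMod.ringEquivOfPrime F Nat.prime_two hF
  obtain ⟨τ, hτ⟩ := Cfsg.Agent.H48.exists_hom_isometryGroup_of_ringEquiv σ
    (Cfsg.quadFormPlus 3 (ZMod 2)) (Cfsg.quadFormPlus 3 F)
    (Cfsg.Agent.H48.quadFormPlus_map σ 3)
  have hinj : Function.Injective (τ.comp φ) := hτ.comp hφ
  have hc1 : Nat.card ↥(Cfsg.isometryGroup F (Cfsg.quadFormPlus 3 F)) = 40320 := by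
    rw [Cfsg.Agent.S0287.result hF 3 (by norm_num)]
    decide
  have hc2 : Nat.card (Equiv.Perm (Fin 8)) = 40320 := by
    rw [Nat.card_eq_fintype_card, Fintype.card_perm, Fintype.card_fin]
    decide
  have hbij : Function.Bijective (τ.comp φ) :=
    hinj.bijective_of_nat_card_le (by rw [hc1, hc2])
  exact ⟨(MulEquiv.ofBijective (τ.comp φ) hbij).symm⟩

end Cfsg.Agent.S0825
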