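import Cfsg.Statements.S0826
import Cfsg.Agent.H17.AltBasis

set_option autoImplicit false
set_option linter.unusedSectionVars false
open Cfsg

namespace Cfsg.Agent.S0826

section
variable {N : Type} [Fintype N] [DecidableEq N]

/-- weight parity functional -/
noncomputable def wtL : (N → ZMod 2) →ₗ[ZMod 2] ZMod 2 := ∑ i, LinearMap.proj i

theorem wtL_apply (x : N → ZMod 2) : wtL x = ∑ i, x i := by
  simp [wtL, LinearMap.sum_apply]

/-- dot product form -/
def dotL : LinearMap.BilinForm (ZMod 2) (N → ZMod 2) :=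
  LinearMap.mk₂ (ZMod 2) (fun x y => ∑ i, x i * y i)
    (fun x x' y => by simp [add_mul, Finset.sum_add_distrib])
    (fun c x y => by simp [Finset.mul_sum, mul_assoc])
    (fun x y y' => by simp [mul_add, Finset.sum_add_distrib])
    (fun c x y => by simp [Finset.mul_sum, mul_left_comm])

theorem dotL_apply (x y : N → ZMod 2) : dotL x y = ∑ i, x i * y i := rfl

/-- permutation action -/
def pactL (σ : Equiv.Perm N) : (N → ZMod 2) →ₗ[ZMod 2] (N → ZMod 2) :=
  LinearMap.funLeft (ZMod 2) (ZMod 2) σ.symm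

theorem pactL_apply (σ : Equiv.Perm N) (x : N → ZMod 2) (i : N) :
    pactL σ x i = x (σ.symm i) := rfl

theorem dotL_comm (x y : N → ZMod 2) : dotL x y = dotL y x := by
  simp only [dotL_apply]
  exact Finset.sum_congr rfl (fun i _ => mul_comm _ _)

theorem zmod2_mul_self (a : ZMod 2) : a * a = a := by revert a; decide

theorem dotL_self (x : N → ZMod 2) : dotL x x = wtL x := by
  simp [dotL_apply, wtL_apply, zmod2_mul_self]

theorem dotL_one_right (x : N → ZMod 2) : dotL x 1 = wtL x := by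
  simp [dotL_apply, wtL_apply]

theorem wtL_pact (σ : Equiv.Perm N) (x : N → ZMod 2) : wtL (pactL σ x) = wtL x := by
  simp only [wtL_apply, pactL_apply]
  exact Equiv.sum_comp σ.symm x

theorem dotL_pact (σ : Equiv.Perm N) (x y : N → ZMod 2) :
    dotL (pactL σ x) (pactL σ y) = dotL x y := by
  simp only [dotL_apply, pactL_apply]
  exact Equiv.sum_comp σ.symm (fun i => x i * y i)

theorem pactL_mul (σ τ : Equiv.Perm N) (x : N → ZMod 2) :
    pactL (σ * τ) x = pactL σ (pactL τ x) := rfl

theorem pactL_one (x : N → ZMod 2) : pactL 1 x = x := rfl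

theorem pactL_const (σ : Equiv.Perm N) : pactL σ (1 : N → ZMod 2) = 1 := by
  ext i
  simp [pactL_apply]

theorem wtL_one (h : Even (Fintype.card N)) : wtL (1 : N → ZMod 2) = 0 := by
  simp only [wtL_apply, Pi.one_apply, Finset.sum_const, Finset.card_univ, nsmul_eq_mul, mul_one]
  exact (ZMod.natCast_eq_zero_iff_even).mpr h

/-- hyperbolic system data -/
structure Hyp (m : ℕ) (w : Fin m ⊕ Fin m → N → ZMod 2) : Prop where
  wt0 : ∀ c, wtL (w c) = 0
  gram : ∀ a b, dotL (w a.swap) (w b) = if a = b then 1 else 0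
  rad : ∀ v, wtL v = 0 → (∀ a, dotL (w a) v = 0) → ∃ k : ZMod 2, v = k • 1

variable {m : ℕ} {w : Fin m ⊕ Fin m → N → ZMod 2}

theorem Hyp.gram' (h : Hyp m w) (a c : Fin m ⊕ Fin m) :
    dotL (w a) (w c) = if a.swap = c then 1 else 0 := by
  have := h.gram a.swap c
  rwa [Sum.swap_swap] at this

theorem expansion (h : Hyp m w) (x : N → ZMod 2) (hx : wtL x = 0) :
    ∃ k : ZMod 2, x = ∑ c, dotL (w c.swap) x • w c + k • 1 := by
  have h1 : wtL (x - ∑ c, dotL (w c.swap) x • w c) = 0 := by
    simp [map_sub, map_sum, hx, h.wt0]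
  have h2 : ∀ a, dotL (w a) (x - ∑ c, dotL (w c.swap) x • w c) = 0 := by
    intro a
    rw [map_sub, map_sum]
    simp only [map_smul, smul_eq_mul, h.gram', mul_ite, mul_one, mul_zero, Finset.sum_ite_eq,
      Finset.mem_univ, if_true, Sum.swap_swap, sub_self]
  obtain ⟨k, hk⟩ := h.rad _ h1 h2
  exact ⟨k, by rw [← hk]; abel⟩

/-- the matrix of a permutation -/
def M (w : Fin m ⊕ Fin m → N → ZMod 2) (σ : Equiv.Perm N) :
    Matrix (Fin m ⊕ Fin m) (Fin m ⊕ Fin m) (ZMod 2) :=
  fun a b => dotL (w a.swap) (pactL σ (w b))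

theorem star (h : Hyp m w) (σ : Equiv.Perm N) (x : N → ZMod 2) (hx : wtL x = 0)
    (a : Fin m ⊕ Fin m) :
    dotL (w a.swap) (pactL σ x) = ∑ c, M w σ a c * dotL (w c.swap) x := by
  obtain ⟨k, hk⟩ := expansion h x hx
  conv_lhs => rw [hk]
  simp only [map_add, map_sum, map_smul, smul_eq_mul, pactL_const, dotL_one_right, h.wt0,
    mul_zero, add_zero]
  exact Finset.sum_congr rfl (fun c _ => mul_comm _ _)

theorem M_mul (h : Hyp m w) (σ τ : Equiv.Perm N) : M w (σ * τ) = M w σ * M w τ := by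
  ext a b
  rw [Matrix.mul_apply]
  show dotL (w a.swap) (pactL (σ * τ) (w b)) = _
  rw [pactL_mul, star h σ _ (by rw [wtL_pact]; exact h.wt0 b)]
  rfl

theorem M_one (h : Hyp m w) : M w (1 : Equiv.Perm N) = 1 := by
  ext a b
  show dotL (w a.swap) (pactL 1 (w b)) = _
  rw [pactL_one, h.gram, Matrix.one_apply]

theorem M_col (h : Hyp m w) (σ : Equiv.Perm N) (b : Fin m ⊕ Fin m) :
    ∃ k : ZMod 2, pactL σ (w b) = ∑ c, M w σ c b • w c + k • 1 :=
  expansion h _ (by rw [wtL_pact]; exact h.wt0 b)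

theorem J_eq (h : Hyp m w) (c c' : Fin m ⊕ Fin m) :
    Matrix.J (Fin m) (ZMod 2) c c' = dotL (w c) (w c') := by
  rw [h.gram']
  rcases c with i | i <;> rcases c' with j | j <;> simp [Matrix.J, Matrix.one_apply]

theorem M_symp (h : Hyp m w) (hN : Even (Fintype.card N)) (σ : Equiv.Perm N) :
    (M w σ).transpose * Matrix.J (Fin m) (ZMod 2) * M w σ = Matrix.J (Fin m) (ZMod 2) := by
  ext a b
  obtain ⟨ka, hka⟩ := M_col h σ a
  obtain ⟨kb, hkb⟩ := M_col h σ b
  have hwa : wtL (pactL σ (w a)) = 0 := by rw [wtL_pact]; exact h.wt0 a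
  have hwb : wtL (pactL σ (w b)) = 0 := by rw [wtL_pact]; exact h.wt0 b
  have e1 : ∑ c, M w σ c a • w c = pactL σ (w a) - ka • 1 := eq_sub_of_add_eq hka.symm
  have e2 : ∑ c, M w σ c b • w c = pactL σ (w b) - kb • 1 := eq_sub_of_add_eq hkb.symm
  rw [J_eq h a b, ← dotL_pact σ (w a) (w b)]
  calc ((M w σ).transpose * Matrix.J (Fin m) (ZMod 2) * M w σ) a b
      = dotL (∑ c, M w σ c a • w c) (∑ c, M w σ c b • w c) := by
        simp only [Matrix.mul_apply, Matrix.transpose_apply, J_eq h, map_sum, map_smul,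
          LinearMap.sum_apply, LinearMap.smul_apply, smul_eq_mul, Finset.sum_mul, Finset.mul_sum]
        refine Finset.sum_congr rfl (fun c _ => Finset.sum_congr rfl (fun c' _ => ?_))
        ring
    _ = dotL (pactL σ (w a) - ka • 1) (pactL σ (w b) - kb • 1) := by rw [e1, e2]
    _ = dotL (pactL σ (w a)) (pactL σ (w b)) := by
        simp [map_sub, LinearMap.sub_apply, dotL_one_right, hwa, hwb, wtL_one hN,
          dotL_comm (1 : N → ZMod 2)]

theorem exists_notMem (s : Finset N) (hs : s.card < Fintype.card N) : ∃ p, p ∉ s := by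
  by_contra hall
  simp only [not_exists, not_not] at hall
  have : s = Finset.univ := Finset.eq_univ_iff_forall.mpr hall
  rw [this, Finset.card_univ] at hs
  exact lt_irrefl _ hs

theorem M_inj (h : Hyp m w) (hN5 : 5 ≤ Fintype.card N) (σ : Equiv.Perm N) (hσ : M w σ = 1) :
    σ = 1 := by
  have key : ∀ x, wtL x = 0 → ∃ k : ZMod 2, pactL σ x = x + k • 1 := by
    intro x hx
    have h2 : ∀ a, dotL (w a) (pactL σ x - x) = 0 := by
      intro a
      have := star h σ x hx a.swap
      rw [Sum.swap_swap, hσ] at this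
      simp only [Matrix.one_apply, ite_mul, one_mul, zero_mul, Finset.sum_ite_eq,
        Finset.mem_univ, if_true, Sum.swap_swap] at this
      rw [map_sub, this, sub_self]
    obtain ⟨k, hk⟩ := h.rad (pactL σ x - x) (by simp [map_sub, wtL_pact, hx]) h2
    exact ⟨k, by rw [← hk]; abel⟩
  by_contra hne
  obtain ⟨i, hi⟩ : ∃ i, σ i ≠ i := by
    by_contra hall
    simp only [not_exists, not_not] at hall
    exact hne (Equiv.ext hall)
  have hi' : σ.symm i ≠ i := by
    intro h'
    apply hi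
    rw [← h', Equiv.apply_symm_apply, h']
  obtain ⟨j, hj⟩ := exists_notMem ({i, σ i, σ.symm i} : Finset N)
    (lt_of_le_of_lt Finset.card_le_three (by omega))
  obtain ⟨p, hp⟩ := exists_notMem ({i, j, σ i, σ j} : Finset N)
    (lt_of_le_of_lt Finset.card_le_four (by omega))
  simp only [Finset.mem_insert, Finset.mem_singleton, not_or] at hj hp
  obtain ⟨hj1, hj2, hj3⟩ := hj
  obtain ⟨hp1, hp2, hp3, hp4⟩ := hp
  obtain ⟨k, hk⟩ := key (Pi.single i 1 + Pi.single j 1) (by
    simp only [wtL_apply, Pi.add_apply, Finset.sum_add_distrib, Finset.sum_pi_single',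
      Finset.mem_univ, if_true]
    decide)
  have hsp1 : σ.symm p ≠ i := fun h' => hp3 (by rw [← h', Equiv.apply_symm_apply])
  have hsp2 : σ.symm p ≠ j := fun h' => hp4 (by rw [← h', Equiv.apply_symm_apply])
  have e1 : (Pi.single i 1 + Pi.single j 1 : N → ZMod 2) (σ.symm i) = 0 := by
    simp [Pi.single_apply, hi', Ne.symm hj3]
  have e2 : (Pi.single i 1 + Pi.single j 1 : N → ZMod 2) i = 1 := by
    simp [Pi.single_apply, Ne.symm hj1]
  have e3 : (Pi.single i 1 + Pi.single j 1 : N → ZMod 2) (σ.symm p) = 0 := by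
    simp [Pi.single_apply, hsp1, hsp2]
  have e4 : (Pi.single i 1 + Pi.single j 1 : N → ZMod 2) p = 0 := by
    simp [Pi.single_apply, hp1, hp2]
  have h1 := congrFun hk i
  have h2 := congrFun hk p
  rw [pactL_apply, e1, Pi.add_apply, e2] at h1
  rw [pactL_apply, e3, Pi.add_apply, e4] at h2
  have h1' : (0 : ZMod 2) = 1 + k := by simpa using h1
  have h2' : (0 : ZMod 2) = 0 + k := by simpa using h2
  rw [zero_add] at h2'
  rw [← h2'] at h1'
  exact absurd h1' (by decide)

theorem dim_count (h : Hyp m w) (hN : Even (Fintype.card N)) (i0 : N) :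
    2 * m + 2 = Fintype.card N := by
  let Φ : ((Fin m ⊕ Fin m → ZMod 2) × ZMod 2) →ₗ[ZMod 2] (N → ZMod 2) :=
    (Fintype.linearCombination (ZMod 2) w).coprod (LinearMap.toSpanSingleton (ZMod 2) _ 1)
  have hΦ : ∀ α k, Φ (α, k) = ∑ c, α c • w c + k • 1 := by
    intro α k
    simp [Φ, Fintype.linearCombination_apply]
  have hinj : Function.Injective Φ := by
    rw [← LinearMap.ker_eq_bot, LinearMap.ker_eq_bot']
    rintro ⟨α, k⟩ h0
    rw [hΦ] at h0
    have hα : α = 0 := by
      ext a
      have := congrArg (dotL (w a.swap)) h0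
      simp only [map_add, map_sum, map_smul, smul_eq_mul, h.gram, dotL_one_right, h.wt0,
        mul_zero, add_zero, mul_ite, mul_one, Finset.sum_ite_eq, Finset.mem_univ, if_true,
        map_zero] at this
      simpa using this
    subst hα
    have := congrFun h0 i0
    simp at this
    rw [this]
    rfl
  have hrange : LinearMap.range Φ = LinearMap.ker (wtL : (N → ZMod 2) →ₗ[ZMod 2] ZMod 2) := by
    ext x
    constructor
    · rintro ⟨⟨α, k⟩, rfl⟩
      rw [LinearMap.mem_ker, hΦ]
      simp [map_add, map_sum, h.wt0, wtL_one hN]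
    · intro hx
      obtain ⟨k, hk⟩ := expansion h x (LinearMap.mem_ker.mp hx)
      exact ⟨(fun c => dotL (w c.swap) x, k), by rw [hΦ]; exact hk.symm⟩
  have h1 := LinearMap.finrank_range_of_inj hinj
  have h2 := LinearMap.finrank_range_add_finrank_ker (wtL : (N → ZMod 2) →ₗ[ZMod 2] ZMod 2)
  have h3 : LinearMap.range (wtL : (N → ZMod 2) →ₗ[ZMod 2] ZMod 2) = ⊤ := by
    rw [LinearMap.range_eq_top]
    intro c
    exact ⟨Pi.single i0 c, by simp [wtL_apply]⟩
  rw [h3, finrank_top, ← hrange, h1] at h2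
  simp at h2
  omega

theorem exists_hyp (i0 : N) : ∃ (m : ℕ) (w : Fin m ⊕ Fin m → N → ZMod 2), Hyp m w := by
  let E : Submodule (ZMod 2) (N → ZMod 2) := LinearMap.ker wtL
  let B : LinearMap.BilinForm (ZMod 2) E := dotL.restrict E
  have hB : ∀ x y : E, B x y = dotL (x : N → ZMod 2) (y : N → ZMod 2) := fun x y => rfl
  have hAlt : B.IsAlt := fun x => by
    rw [hB, dotL_self]
    exact LinearMap.mem_ker.mp x.2
  obtain ⟨m, e, f, hef, hee, hff, hrad⟩ :=
    Cfsg.Agent.H17.alt_hyp_aux (F := ZMod 2) _ E B hAlt rfl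
  refine ⟨m, Sum.elim (fun i => (e i : N → ZMod 2)) (fun i => (f i : N → ZMod 2)), ?_, ?_, ?_⟩
  · rintro (i | i)
    · exact LinearMap.mem_ker.mp (e i).2
    · exact LinearMap.mem_ker.mp (f i).2
  · rintro (i | i) (j | j)
    · have := hef j i
      rw [hB] at this
      simp only [Sum.swap_inl, Sum.elim_inr, Sum.elim_inl, Sum.inl.injEq]
      rw [dotL_comm, this]
      simp [eq_comm]
    · have := hff i j
      rw [hB] at this
      simpa using this
    · have := hee i j
      rw [hB] at this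
      simpa using this
    · have := hef i j
      rw [hB] at this
      simpa using this
  · intro v hv hv'
    have hvE : v ∈ E := LinearMap.mem_ker.mpr hv
    have hr := hrad ⟨v, hvE⟩ (fun i => by rw [hB]; exact hv' (Sum.inl i))
      (fun i => by rw [hB]; exact hv' (Sum.inr i))
    refine ⟨v i0, ?_⟩
    ext j
    have hx : (Pi.single j 1 + Pi.single i0 1 : N → ZMod 2) ∈ E := by
      rw [LinearMap.mem_ker]
      simp only [wtL_apply, Pi.add_apply, Finset.sum_add_distrib, Finset.sum_pi_single',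
        Finset.mem_univ, if_true]
      decide
    have h1 := hr ⟨_, hx⟩
    rw [hB] at h1
    simp only [dotL_apply, Pi.add_apply, mul_add, Finset.sum_add_distrib, Pi.single_apply,
      mul_ite, mul_one, mul_zero, Finset.sum_ite_eq', Finset.mem_univ, if_true] at h1
    simp only [Pi.smul_apply, Pi.one_apply, smul_eq_mul, mul_one]
    revert h1
    generalize v j = a
    generalize v i0 = b
    revert a b
    decide

end

theorem result (n : ℕ) (hn : 3 ≤ n) : ∃ f : Equiv.Perm (Fin (2 * n)) →* Matrix.symplecticGroup (Fin (n - 1)) (ZMod 2), Function.Injective f := by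
  have i0 : Fin (2 * n) := ⟨0, by omega⟩
  have hN : Even (Fintype.card (Fin (2 * n))) := by simp
  obtain ⟨m, w, h⟩ := exists_hyp (N := Fin (2 * n)) i0
  have hm := dim_count h hN i0
  rw [Fintype.card_fin] at hm
  obtain rfl : m = n - 1 := by omega
  refine ⟨{ toFun := fun σ => ⟨M w σ, (SymplecticGroup.mem_iff').mpr (M_symp h hN σ)⟩
            map_one' := Subtype.ext (M_one h)
            map_mul' := fun σ τ => Subtype.ext (M_mul h σ τ) }, ?_⟩
  rw [injective_iff_map_eq_one]
  intro σ hσ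
  have hσ' : M w σ = 1 := congrArg Subtype.val hσ
  exact M_inj h (by rw [Fintype.card_fin]; omega) σ hσ'

end Cfsg.Agent.S0826
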