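import Cfsg.Statements.S0827
import Cfsg.Agent.H18.U32Q8
import Cfsg.Agent.S0282

set_option autoImplicit false
open Cfsg

namespace Cfsg.Agent.S0827

open Cfsg.Agent.H18 Cfsg.Agent.H98

section
variable {F : Type*} [Field F] [Fintype F]

/-- the subgroup of cyclic-monomial matrices of `SU₃` -/
def cycSub (F : Type*) [Field F] [Fintype F] : Subgroup (Cfsg.SU 3 F 2) where
  carrier := {g | Cyc g.1.1}
  one_mem' := cyc_one
  mul_mem' := fun {a b} ha hb => cyc_mul ha hb
  inv_mem' := by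
    intro g hg
    have hpow : ∀ n : ℕ, Cyc (g ^ n).1.1 := by
      intro n
      induction n with
      | zero => rw [pow_zero]; exact cyc_one
      | succ n ih => rw [pow_succ]; exact cyc_mul ih hg
    have hpos := orderOf_pos g
    have e : g * g ^ (orderOf g - 1) = 1 := by
      rw [← pow_succ', Nat.sub_add_cancel hpos, pow_orderOf_eq_one]
    rw [Set.mem_ofPred_eq, inv_eq_of_mul_eq_one_right e]
    exact hpow _

theorem mem_cycSub_iff (g : Cfsg.SU 3 F 2) : g ∈ cycSub F ↔ Cyc g.1.1 := Iff.rfl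

theorem mem_cycSub_iff_scal (hF : Fintype.card F = 4) (g : Cfsg.SU 3 F 2) :
    g ∈ cycSub F ↔ Scal (g * g * g).1.1 := by
  rw [mem_cycSub_iff]
  exact su3_cyc_iff hF g.1 g.2

theorem scal_mem_center (z : Cfsg.SU 3 F 2) (hz : Scal z.1.1) :
    z ∈ Subgroup.center (Cfsg.SU 3 F 2) := by
  rw [Subgroup.mem_center_iff]
  intro h
  apply Subtype.ext
  apply Subtype.ext
  show h.1.1 * z.1.1 = z.1.1 * h.1.1
  exact (scal_comm hz h.1.1).symm

theorem cycSub_normal (hF : Fintype.card F = 4) : (cycSub F).Normal := by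
  constructor
  intro g hg h
  rw [mem_cycSub_iff_scal hF] at hg ⊢
  have hz : g * g * g ∈ Subgroup.center (Cfsg.SU 3 F 2) := scal_mem_center _ hg
  have e : (h * g * h⁻¹) * (h * g * h⁻¹) * (h * g * h⁻¹) = g * g * g := by
    calc (h * g * h⁻¹) * (h * g * h⁻¹) * (h * g * h⁻¹) = h * (g * g * g) * h⁻¹ := by group
      _ = (g * g * g) * h * h⁻¹ := by rw [Subgroup.mem_center_iff.mp hz h]
      _ = g * g * g := by group
  rw [e]
  exact hg

theorem center_le_cycSub (hF : Fintype.card F = 4) :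
    Subgroup.center (Cfsg.SU 3 F 2) ≤ cycSub F := by
  intro z hz
  exact cyc_of_offdiag (center_offdiag hF z hz)

theorem pow_four_mem (hF : Fintype.card F = 4) (g : Cfsg.SU 3 F 2) : g ^ 4 ∈ cycSub F := by
  have e : g ^ 4 = g * g * (g * g) := by
    simp only [pow_succ, pow_zero, one_mul, mul_assoc]
  rw [e]
  exact su3_pow_four hF g.1 g.2

theorem exists_tau (hF : Fintype.card F = 4) :
    ∃ t : Cfsg.SU 3 F 2, ∀ g : Cfsg.SU 3 F 2, g * g ∈ cycSub F → g ∈ cycSub F ∨ t * g ∈ cycSub F := by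
  obtain ⟨t, ht, htm⟩ := exists_su3_of_gf4 hF tauMat tauMat_col tauMat_det
  refine ⟨⟨t, ht⟩, fun g hg => ?_⟩
  exact su3_sq_cyc hF t htm g.1 g.2 hg


/-- a finite group all of whose elements are killed by `4`, with a distinguished element `u`
that is the only involution, and of order `8`, is the quaternion group -/
theorem quat_of_facts {Q : Type*} [Group Q] [Finite Q] (hcard : Nat.card Q = 8)
    (h4 : ∀ y : Q, y ^ 4 = 1) (u : Q) (hu : ∀ y : Q, y ≠ 1 → y * y = 1 → y = u) :
    Nonempty (Q ≃* QuaternionGroup 2) := by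
  have hP : IsPGroup 2 Q := by
    intro y
    exact ⟨2, by rw [show (2 : ℕ) ^ 2 = 4 by norm_num]; exact h4 y⟩
  have huniq : ∀ H K : Subgroup Q, Nat.card H = 2 → Nat.card K = 2 → H = K := by
    have key : ∀ H : Subgroup Q, Nat.card H = 2 → ∀ z : Q, z ∈ H ↔ z = 1 ∨ z = u := by
      intro H hH z
      have hsq : ∀ y : Q, y ∈ H → y * y = 1 := by
        intro y hy
        have h1 : orderOf (⟨y, hy⟩ : H) ∣ Nat.card H := orderOf_dvd_natCard _
        rw [hH] at h1
        have h2 := orderOf_dvd_iff_pow_eq_one.mp h1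
        have h3 := congrArg (fun w : H => (w : Q)) h2
        simp only [Subgroup.coe_pow, Subgroup.coe_one] at h3
        rw [← pow_two]
        exact h3
      have hne : H ≠ ⊥ := by
        intro hb
        rw [hb, Subgroup.card_bot] at hH
        omega
      obtain ⟨a, ha1⟩ := (Subgroup.ne_bot_iff_exists_ne_one).mp hne
      have ha : (a : Q) ∈ H := a.2
      have hau : (a : Q) = u := hu a (fun e => ha1 (Subtype.ext e)) (hsq a ha)
      constructor
      · intro hz
        by_cases hz1 : z = 1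
        · left; exact hz1
        · right; exact hu z hz1 (hsq z hz)
      · rintro (rfl | rfl)
        · exact H.one_mem
        · rw [← hau]; exact ha
    intro H K hH hK
    ext z
    rw [key H hH, key K hK]
  have hncyc : ¬ IsCyclic Q := by
    intro hc
    obtain ⟨y, hy⟩ := hc.exists_generator
    have h1 : orderOf y = Nat.card Q := orderOf_eq_card_of_forall_mem_zpowers hy
    have h2 : orderOf y ∣ 4 := orderOf_dvd_of_pow_eq_one (h4 y)
    rw [h1, hcard] at h2
    norm_num at h2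
  obtain ⟨n, ⟨e⟩⟩ := Cfsg.Agent.H59.quaternion_of_unique_two hP huniq hncyc
  have hn : n = 1 := by
    have h1 : Nat.card Q = Nat.card (QuaternionGroup (2 ^ n)) := Nat.card_congr e.toEquiv
    rw [hcard, Nat.card_eq_fintype_card, QuaternionGroup.card] at h1
    have h2 : 2 ^ n = 2 ^ 1 := by omega
    exact Nat.pow_right_injective (le_refl 2) h2
  subst hn
  exact ⟨e⟩

theorem main (hF : Fintype.card F = 4) :
    ∃ (N : Subgroup (Cfsg.PSU 3 F 2)) (_ : N.Normal), Nat.card N = 9 ∧ (∀ x ∈ N, x ^ 3 = 1) ∧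
      Nonempty (Cfsg.PSU 3 F 2 ⧸ N ≃* QuaternionGroup 2) := by
  have hEn : (cycSub F).Normal := cycSub_normal hF
  have hle := center_le_cycSub hF
  let N : Subgroup (Cfsg.PSU 3 F 2) :=
    (cycSub F).map (QuotientGroup.mk' (Subgroup.center (Cfsg.SU 3 F 2)))
  have hNn : N.Normal :=
    Subgroup.Normal.map hEn _ (QuotientGroup.mk'_surjective _)
  let φ : (Cfsg.PSU 3 F 2) ⧸ N ≃* (Cfsg.SU 3 F 2) ⧸ cycSub F :=
    QuotientGroup.quotientQuotientEquivQuotient (Subgroup.center (Cfsg.SU 3 F 2)) (cycSub F) hle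
  -- exponent three
  have hexp : ∀ x ∈ N, x ^ 3 = 1 := by
    rintro x ⟨g, hg, rfl⟩
    rw [← map_pow, QuotientGroup.mk'_apply, QuotientGroup.eq_one_iff]
    have e : g ^ 3 = g * g * g := by
      simp only [pow_succ, pow_zero, one_mul]
    rw [e]
    exact scal_mem_center _ ((mem_cycSub_iff_scal hF g).mp hg)
  -- the quotient is killed by four
  have h4 : ∀ y : (Cfsg.SU 3 F 2) ⧸ cycSub F, y ^ 4 = 1 := by
    intro y
    induction y using QuotientGroup.induction_on with
    | H g =>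
      rw [← QuotientGroup.mk_pow, QuotientGroup.eq_one_iff]
      exact pow_four_mem hF g
  -- cardinalities
  have h72 : Nat.card (Cfsg.PSU 3 F 2) = 72 := (Cfsg.Agent.S0282.result hF).1
  have hfinG : Finite (Cfsg.PSU 3 F 2) := Nat.finite_of_card_ne_zero (by rw [h72]; norm_num)
  have hmul := Subgroup.card_eq_card_quotient_mul_card_subgroup N
  have hQN : Nat.card ((Cfsg.PSU 3 F 2) ⧸ N) = Nat.card ((Cfsg.SU 3 F 2) ⧸ cycSub F) :=
    Nat.card_congr φ.toEquiv
  have hP2 : IsPGroup 2 ((Cfsg.SU 3 F 2) ⧸ cycSub F) := by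
    intro y
    exact ⟨2, by rw [show (2 : ℕ) ^ 2 = 4 by norm_num]; exact h4 y⟩
  have hP3 : IsPGroup 3 N := by
    intro x
    refine ⟨1, ?_⟩
    apply Subtype.ext
    rw [pow_one, Subgroup.coe_pow]
    exact hexp x x.2
  have : Fact (Nat.Prime 2) := ⟨Nat.prime_two⟩
  have : Fact (Nat.Prime 3) := ⟨Nat.prime_three⟩
  have hfinQ : Finite ((Cfsg.SU 3 F 2) ⧸ cycSub F) := Finite.of_equiv _ φ.toEquiv
  obtain ⟨b, hb⟩ := IsPGroup.iff_card.mp hP2
  obtain ⟨a, ha⟩ := IsPGroup.iff_card.mp hP3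
  rw [h72, hQN, hb, ha] at hmul
  have ha2 : a ≤ 2 := by
    by_contra hcon
    have h27 : 3 ^ 3 ∣ 3 ^ a := pow_dvd_pow 3 (by omega)
    have : 3 ^ 3 ∣ 72 := by rw [hmul]; exact Dvd.dvd.mul_left h27 _
    norm_num at this
  have hb3 : b ≤ 3 := by
    by_contra hcon
    have h16 : 2 ^ 4 ∣ 2 ^ b := pow_dvd_pow 2 (by omega)
    have : 2 ^ 4 ∣ 72 := by rw [hmul]; exact Dvd.dvd.mul_right h16 _
    norm_num at this
  have hab : a = 2 ∧ b = 3 := by
    interval_cases a <;> interval_cases b <;> simp_all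
  obtain ⟨rfl, rfl⟩ := hab
  have hcardQ : Nat.card ((Cfsg.SU 3 F 2) ⧸ cycSub F) = 8 := by rw [hb]; norm_num
  have hcardN : Nat.card N = 9 := by rw [ha]; norm_num
  -- the unique involution
  obtain ⟨t, ht⟩ := exists_tau hF
  have hu : ∀ y : (Cfsg.SU 3 F 2) ⧸ cycSub F, y ≠ 1 → y * y = 1 →
      y = (QuotientGroup.mk t : (Cfsg.SU 3 F 2) ⧸ cycSub F)⁻¹ := by
    intro y
    induction y using QuotientGroup.induction_on with
    | H g =>
      intro hy1 hy2
      rw [Ne, QuotientGroup.eq_one_iff] at hy1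
      rw [← QuotientGroup.mk_mul, QuotientGroup.eq_one_iff] at hy2
      rcases ht g hy2 with h | h
      · exact absurd h hy1
      · rw [eq_inv_iff_mul_eq_one, ← QuotientGroup.mk_mul, QuotientGroup.eq_one_iff]
        have : g * t = t⁻¹ * (t * g) * t := by group
        rw [this]
        exact hEn.conj_mem' _ h t
  obtain ⟨e⟩ := quat_of_facts hcardQ h4 _ hu
  exact ⟨N, hNn, hcardN, hexp, ⟨φ.trans e⟩⟩

end

theorem result {F : Type*} [Field F] [Fintype F] (hF : Fintype.card F = 4) : ∃ (N : Subgroup (Cfsg.PSU 3 F 2)) (_ : N.Normal), Nat.card N = 9 ∧ (∀ x ∈ N, x ^ 3 = 1) ∧ Nonempty (Cfsg.PSU 3 F 2 ⧸ N ≃* QuaternionGroup 2) := by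
  exact main hF

end Cfsg.Agent.S0827
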