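import Cfsg.Statements.S0829
import Cfsg.Agent.H18.HermCount

set_option autoImplicit false
open Cfsg

namespace Cfsg.Agent.S0829

open Cfsg.Agent.H18

/-- The unitary quadrangle of PSU_4(q): with |F| = q², the number of 2-dimensional subspaces of F^4 on which the Hermitian form Σ x_i y_i^q vanishes is (q + 1)(q³ + 1). -/
theorem result {F : Type*} [Field F] [Fintype F] {q : ℕ} (hF : Fintype.card F = q ^ 2) : Nat.card {W : Submodule F (Fin 4 → F) // Module.finrank F W = 2 ∧ ∀ u ∈ W, ∀ v ∈ W, Cfsg.hermForm 4 F q u v = 0} = (q + 1) * (q ^ 3 + 1) := by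
  have hq := Cfsg.Agent.H17.two_le_of_card_sq hF
  have hq1 : (1 : ℤ) ≤ q := by exact_mod_cast (by omega : 1 ≤ q)
  have h1 := Cfsg.Agent.H7.herm_card_zero hF 4
  have c1 : ((q ^ 2 - 1 : ℕ) : ℤ) = (q : ℤ) ^ 2 - 1 := by
    rw [Nat.cast_sub (Nat.one_le_pow _ _ (by omega))]; push_cast; ring
  have c2 : (((q ^ 2) ^ 2 - q ^ 2 : ℕ) : ℤ) = (q : ℤ) ^ 4 - (q : ℤ) ^ 2 := by
    rw [Nat.cast_sub (Nat.le_self_pow (by norm_num) _)]; push_cast; ring
  have c3 : (((q ^ 2) ^ 2 - 1 : ℕ) : ℤ) = (q : ℤ) ^ 4 - 1 := by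
    rw [Nat.cast_sub (Nat.one_le_pow _ _ (by positivity))]; push_cast; ring
  have hne : ((q : ℤ) ^ 4 - (q : ℤ) ^ 2) * q ≠ 0 := by
    have : (0 : ℤ) < ((q : ℤ) ^ 4 - (q : ℤ) ^ 2) * q := by
      have h2 : (2 : ℤ) ≤ q := by exact_mod_cast hq
      have : (q : ℤ) ^ 4 - (q : ℤ) ^ 2 = (q : ℤ) ^ 2 * ((q : ℤ) ^ 2 - 1) := by ring
      rw [this]
      have : (0 : ℤ) < (q : ℤ) ^ 2 - 1 := by nlinarith
      positivity
    exact ne_of_gt this
  have hne' : ((q : ℤ) ^ 4 - 1) * q ≠ 0 := by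
    have h2 : (2 : ℤ) ≤ q := by exact_mod_cast hq
    have : (0 : ℤ) < (q : ℤ) ^ 4 - 1 := by nlinarith [sq_nonneg ((q : ℤ) ^ 2)]
    positivity
  have hthrough : ∀ v : Fin 4 → F, v ≠ 0 → hermForm 4 F q v v = 0 →
      Nat.card {W : Submodule F (Fin 4 → F) // Module.finrank F W = 2 ∧ v ∈ W ∧
        ∀ u ∈ W, ∀ w ∈ W, hermForm 4 F q u w = 0} = q + 1 := by
    intro v hv hv0
    have h2 := congrArg (Nat.cast : ℕ → ℤ) (card_iso_one 4 hF v hv hv0)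
    have h3 := congrArg (Nat.cast : ℕ → ℤ) (card_iso_split 4 hF v)
    have h4 := congrArg (Nat.cast : ℕ → ℤ) (card_iso_perp_split 4 hF v hv hv0)
    have h5 := congrArg (Nat.cast : ℕ → ℤ) (herm_count_through 4 hF v hv hv0)
    rw [Nat.cast_mul] at h2
    rw [Nat.cast_add, Nat.cast_mul, c1] at h3
    rw [Nat.cast_add] at h4
    rw [Nat.cast_mul, c2] at h5
    push_cast at h2 h4
    have key : (Nat.card {W : Submodule F (Fin 4 → F) // Module.finrank F W = 2 ∧ v ∈ W ∧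
        ∀ u ∈ W, ∀ w ∈ W, hermForm 4 F q u w = 0} : ℤ) * (((q : ℤ) ^ 4 - (q : ℤ) ^ 2) * q) =
        ((q : ℤ) + 1) * (((q : ℤ) ^ 4 - (q : ℤ) ^ 2) * q) := by
      linear_combination (q : ℤ) * h5 + h1 - ((q : ℤ) ^ 2 - 1) * h2 - (q : ℤ) * h3 - (q : ℤ) * h4
    have := mul_right_cancel₀ hne key
    exact_mod_cast this
  have h6 := congrArg (Nat.cast : ℕ → ℤ) (card_iso_nonzero (F := F) (q := q) 4)
  have h7 := congrArg (Nat.cast : ℕ → ℤ) (herm_count_all 4 hF (q + 1) hthrough)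
  rw [Nat.cast_add] at h6
  rw [Nat.cast_mul, Nat.cast_mul, c3] at h7
  push_cast at h6 h7
  have key : (Nat.card {W : Submodule F (Fin 4 → F) // Module.finrank F W = 2 ∧
        ∀ u ∈ W, ∀ w ∈ W, hermForm 4 F q u w = 0} : ℤ) * (((q : ℤ) ^ 4 - 1) * q) =
        (((q : ℤ) + 1) * ((q : ℤ) ^ 3 + 1)) * (((q : ℤ) ^ 4 - 1) * q) := by
    linear_combination ((q : ℤ) + 1) * h1 - (q : ℤ) * ((q : ℤ) + 1) * h6 - (q : ℤ) * h7
  have := mul_right_cancel₀ hne' key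
  exact_mod_cast this

end Cfsg.Agent.S0829
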