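import Cfsg.Statements.S0831
import Cfsg.Agent.H97.HypQuad

set_option autoImplicit false
open Cfsg

namespace Cfsg.Agent.S0831

/-- The two families of maximal totally singular subspaces of the hyperbolic quadric: for the form Σ x_i y_i on F^(2m), m ≥ 1, and m-dimensional subspaces U, W, X on which it vanishes, the parities of m − dim(U ∩ W), m − dim(W ∩ X) and m − dim(U ∩ X) sum to an even number (so 'even codimension of the intersection' is an equivalence relation), and there exist two such subspaces meeting in codimension 1 (so there are exactly two classes). -/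
theorem result {F : Type*} [Field F] (m : ℕ) (hm : 1 ≤ m) : (∀ U W X : Submodule F (Fin m ⊕ Fin m → F), (Module.finrank F U = m ∧ ∀ w ∈ U, Cfsg.quadFormPlus m F w = 0) → (Module.finrank F W = m ∧ ∀ w ∈ W, Cfsg.quadFormPlus m F w = 0) → (Module.finrank F X = m ∧ ∀ w ∈ X, Cfsg.quadFormPlus m F w = 0) → Even ((m - Module.finrank F ↥(U ⊓ W)) + (m - Module.finrank F ↥(W ⊓ X)) + (m - Module.finrank F ↥(U ⊓ X)))) ∧ ∃ U W : Submodule F (Fin m ⊕ Fin m → F), (Module.finrank F U = m ∧ ∀ w ∈ U, Cfsg.quadFormPlus m F w = 0) ∧ (Module.finrank F W = m ∧ ∀ w ∈ W, Cfsg.quadFormPlus m F w = 0) ∧ Module.finrank F ↥(U ⊓ W) + 1 = m := by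
  constructor
  · rintro U W X ⟨hUm, hU⟩ ⟨hWm, hW⟩ ⟨hXm, hX⟩
    have h := Cfsg.Agent.H97.TS.parity_aux (m - Module.finrank F ↥(W ⊓ X)) W X U
      hW hWm hX hXm hU hUm rfl
    rw [Nat.even_iff] at h ⊢
    omega
  · classical
    have hx : Cfsg.quadFormPlus m F (Pi.single (Sum.inr ⟨0, hm⟩) 1) = 0 := by
      simp [Cfsg.quadFormPlus]
    have hxE : (Pi.single (Sum.inr ⟨0, hm⟩) 1 : Fin m ⊕ Fin m → F) ∉ Cfsg.Agent.H97.stdE m F := by
      intro h
      have := h ⟨0, hm⟩
      simp at this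
    obtain ⟨W, hW, hWm, -, -, hadj⟩ :=
      Cfsg.Agent.H97.TS.exists_adjacent Cfsg.Agent.H97.stdE_TS Cfsg.Agent.H97.stdE_finrank hx hxE
    exact ⟨Cfsg.Agent.H97.stdE m F, W, ⟨Cfsg.Agent.H97.stdE_finrank, Cfsg.Agent.H97.stdE_TS⟩,
      ⟨hWm, hW⟩, hadj⟩

end Cfsg.Agent.S0831
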