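import Cfsg.Statements.S0832
import Cfsg.Agent.H97.HypQuad

set_option autoImplicit false
open Cfsg

namespace Cfsg.Agent.S0832

/-- For the form Σ x_i y_i on F^(2m) over a finite field, m ≥ 1: an (m−1)-dimensional subspace on which the form vanishes is contained in exactly two m-dimensional subspaces on which it vanishes. -/
theorem result {F : Type*} [Field F] [Finite F] (m : ℕ) (hm : 1 ≤ m) (U : Submodule F (Fin m ⊕ Fin m → F)) (hU : Module.finrank F U + 1 = m ∧ ∀ u ∈ U, Cfsg.quadFormPlus m F u = 0) : Nat.card {W : Submodule F (Fin m ⊕ Fin m → F) // Module.finrank F W = m ∧ (∀ w ∈ W, Cfsg.quadFormPlus m F w = 0) ∧ U ≤ W} = 2 := by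
  obtain ⟨hUm, hU⟩ := hU
  obtain ⟨M₁, M₂, hne, ⟨h1, h1m, h1U⟩, ⟨h2, h2m, h2U⟩, huniq⟩ :=
    Cfsg.Agent.H97.TS.exists_two (H := U) hU hUm
  have hset : {W : Submodule F (Fin m ⊕ Fin m → F) | Module.finrank F W = m ∧
      (∀ w ∈ W, Cfsg.quadFormPlus m F w = 0) ∧ U ≤ W} = {M₁, M₂} := by
    ext W
    simp only [Set.mem_setOf_eq, Set.mem_insert_iff, Set.mem_singleton_iff]
    constructor
    · rintro ⟨hWm, hW, hUW⟩
      exact huniq W hW hWm hUW
    · rintro (rfl | rfl)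
      · exact ⟨h1m, h1, h1U⟩
      · exact ⟨h2m, h2, h2U⟩
  have hcard : Nat.card ↥({W : Submodule F (Fin m ⊕ Fin m → F) | Module.finrank F W = m ∧
      (∀ w ∈ W, Cfsg.quadFormPlus m F w = 0) ∧ U ≤ W}) = 2 := by
    rw [hset, Nat.card_coe_set_eq, Set.ncard_pair hne]
  exact hcard

end Cfsg.Agent.S0832
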