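import Cfsg.Statements.S0833

set_option autoImplicit false
open Cfsg

namespace Cfsg.Agent.S0833

open TensorProduct

section
variable {F V : Type*} [Field F] [AddCommGroup V] [Module F V]

/-- totally isotropic subspaces of every dimension up to half -/
theorem exists_isotropic [FiniteDimensional F V] (B : LinearMap.BilinForm F V)
    (hB : B.Nondegenerate) (hA : B.IsAlt) (k : ℕ) (hV : Module.finrank F V = 2 * k) :
    ∀ n ≤ k, ∃ L : Submodule F V, n ≤ Module.finrank F L ∧ ∀ x ∈ L, ∀ y ∈ L, B x y = 0 := by
  intro n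
  induction n with
  | zero => exact fun _ => ⟨⊥, by simp, by
      intro x hx y hy
      rw [Submodule.mem_bot] at hx
      subst hx; simp⟩
  | succ n ih =>
    intro hn
    obtain ⟨L, hL, hiso⟩ := ih (by omega)
    by_cases hlt : n + 1 ≤ Module.finrank F L
    · exact ⟨L, hlt, hiso⟩
    have hLn : Module.finrank F L = n := by omega
    have hle : L ≤ B.orthogonal L := by
      intro x hx
      rw [LinearMap.BilinForm.mem_orthogonal_iff]
      intro y hy
      exact hiso y hy x hx
    have hfin := LinearMap.BilinForm.finrank_orthogonal hB L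
    have hne : L ≠ B.orthogonal L := by
      intro h
      rw [← h] at hfin
      omega
    obtain ⟨v, hv, hvL⟩ := SetLike.exists_of_lt (lt_of_le_of_ne hle hne)
    rw [LinearMap.BilinForm.mem_orthogonal_iff] at hv
    refine ⟨L ⊔ Submodule.span F {v}, ?_, ?_⟩
    · have hlt' : L < L ⊔ Submodule.span F {v} := by
        refine lt_of_le_of_ne le_sup_left ?_
        intro h
        apply hvL
        rw [h]
        exact Submodule.mem_sup_right (Submodule.mem_span_singleton_self v)
      have := Submodule.finrank_lt_finrank_of_lt hlt'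
      omega
    · intro x hx y hy
      rw [Submodule.mem_sup] at hx hy
      obtain ⟨a, ha, z, hz, rfl⟩ := hx
      obtain ⟨a', ha', z', hz', rfl⟩ := hy
      rw [Submodule.mem_span_singleton] at hz hz'
      obtain ⟨c, rfl⟩ := hz
      obtain ⟨c', rfl⟩ := hz'
      have h1 : B a v = 0 := hv a ha
      have h2 : B v a' = 0 := by rw [← hA.neg_eq, hv a' ha', neg_zero]
      simp [hiso a ha a' ha', h1, h2, hA.self_eq_zero v]

theorem sepRight_of_dual {ι : Type*} [Fintype ι] [DecidableEq ι] (B : LinearMap.BilinForm F V)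
    (T : Module.Basis ι F V) (T' : ι → V) (h : ∀ a b, B (T' a) (T b) = if b = a then 1 else 0) :
    ∀ y, (∀ x, B x y = 0) → y = 0 := by
  intro y hy
  apply T.repr.injective
  ext a
  have := hy (T' a)
  rw [← T.sum_repr y, map_sum] at this
  simp only [map_smul, h, smul_eq_mul, mul_ite, mul_one, mul_zero, Finset.sum_ite_eq',
    Finset.mem_univ, if_true] at this
  simp [this]

end


theorem tmul_symm {F U W : Type*} [Field F] [AddCommGroup U] [Module F U] [AddCommGroup W]
    [Module F W] (B₁ : LinearMap.BilinForm F U) (B₂ : LinearMap.BilinForm F W)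
    (hA₁ : B₁.IsAlt) (hA₂ : B₂.IsAlt) (x y : TensorProduct F U W) :
    (B₁.tmul B₂) x y = (B₁.tmul B₂) y x := by
  induction x using TensorProduct.induction_on with
  | zero => simp
  | add x₁ x₂ h₁ h₂ => rw [map_add, LinearMap.add_apply, h₁, h₂, map_add]
  | tmul u w =>
    induction y using TensorProduct.induction_on with
    | zero => simp
    | add y₁ y₂ h₁ h₂ => rw [map_add, h₁, h₂, map_add, LinearMap.add_apply]
    | tmul u' w' =>
      rw [LinearMap.BilinForm.tensorDistrib_tmul, LinearMap.BilinForm.tensorDistrib_tmul,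
        ← hA₁.neg_eq u u', ← hA₂.neg_eq w w']
      simp

theorem result {F U W : Type*} [Field F] [Fintype F] [AddCommGroup U] [Module F U] [FiniteDimensional F U] [AddCommGroup W] [Module F W] [FiniteDimensional F W] (B₁ : LinearMap.BilinForm F U) (B₂ : LinearMap.BilinForm F W) (h₁ : B₁.Nondegenerate) (h₂ : B₂.Nondegenerate) (hA₁ : B₁.IsAlt) (hA₂ : B₂.IsAlt) (k l : ℕ) (hU : Module.finrank F U = 2 * k) (hW : Module.finrank F W = 2 * l) : (B₁.tmul B₂).IsSymm ∧ (B₁.tmul B₂).Nondegenerate ∧ (∃ X : Submodule F (TensorProduct F U W), Module.finrank F X = 2 * k * l ∧ ∀ x ∈ X, ∀ y ∈ X, (B₁.tmul B₂) x y = 0) := by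
  have hsymm := tmul_symm B₁ B₂ hA₁ hA₂
  have hsepR : ∀ y, (∀ x, (B₁.tmul B₂) x y = 0) → y = 0 := by
    classical
    let b := Module.finBasis F U
    let c := Module.finBasis F W
    refine sepRight_of_dual (B₁.tmul B₂) (b.tensorProduct c)
      (fun a => (B₁.dualBasis h₁ b a.1) ⊗ₜ[F] (B₂.dualBasis h₂ c a.2)) ?_
    rintro ⟨i, j⟩ ⟨i', j'⟩
    rw [Module.Basis.tensorProduct_apply, LinearMap.BilinForm.tensorDistrib_tmul,
      LinearMap.BilinForm.apply_dualBasis_left, LinearMap.BilinForm.apply_dualBasis_left]
    simp only [Prod.mk.injEq]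
    by_cases h1 : i' = i <;> by_cases h2 : j' = j <;> simp [h1, h2]
  refine ⟨⟨fun x y => by simpa using hsymm x y⟩, ⟨?_, ?_⟩, ?_⟩
  · intro x hx
    exact hsepR x (fun y => by rw [hsymm]; exact hx y)
  · intro y hy
    exact hsepR y hy
  · obtain ⟨L, hLk, hiso⟩ := exists_isotropic B₁ h₁ hA₁ k hU k le_rfl
    have hle : L ≤ B₁.orthogonal L := by
      intro x hx
      rw [LinearMap.BilinForm.mem_orthogonal_iff]
      intro y hy
      exact hiso y hy x hx
    have hfin := LinearMap.BilinForm.finrank_orthogonal h₁ L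
    have hLk' : Module.finrank F L = k := by
      have := Submodule.finrank_mono hle
      omega
    have hinj : Function.Injective (LinearMap.rTensor W L.subtype) :=
      Module.Flat.rTensor_preserves_injective_linearMap _ L.injective_subtype
    refine ⟨LinearMap.range (LinearMap.rTensor W L.subtype), ?_, ?_⟩
    · rw [LinearMap.finrank_range_of_inj hinj, Module.finrank_tensorProduct, hLk', hW]
      ring
    · rintro _ ⟨ξ, rfl⟩ _ ⟨η, rfl⟩
      induction ξ using TensorProduct.induction_on with
      | zero => simp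
      | add x₁ x₂ h₁ h₂ => rw [map_add, map_add, LinearMap.add_apply, h₁, h₂, add_zero]
      | tmul u w =>
        induction η using TensorProduct.induction_on with
        | zero => simp
        | add y₁ y₂ h₁ h₂ => rw [map_add, map_add, h₁, h₂, add_zero]
        | tmul u' w' =>
          rw [LinearMap.rTensor_tmul, LinearMap.rTensor_tmul,
            LinearMap.BilinForm.tensorDistrib_tmul]
          simp [hiso u u.2 u' u'.2]

end Cfsg.Agent.S0833
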