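import Cfsg.Statements.S0834
import Cfsg.Agent.H18.Disc

set_option autoImplicit false
open Cfsg

namespace Cfsg.Agent.S0834

open Cfsg.Agent.H18

/-- Over a finite field with 2 ≠ 0: if B₁ on U (dim 2k, k ≥ 1) and B₂ on W (dim 2l, l ≥ 1) are non-degenerate symmetric forms admitting no totally isotropic subspaces of dimensions k, resp. l (minus type), then B₁ ⊗ B₂ admits a totally isotropic subspace of dimension 2kl (plus type). -/
theorem result {F U W : Type*} [Field F] [Fintype F] [AddCommGroup U] [Module F U] [FiniteDimensional F U] [AddCommGroup W] [Module F W] [FiniteDimensional F W] (h2 : (2 : F) ≠ 0) (B₁ : LinearMap.BilinForm F U) (B₂ : LinearMap.BilinForm F W) (h₁ : B₁.Nondegenerate) (h₂ : B₂.Nondegenerate) (hS₁ : B₁.IsSymm) (hS₂ : B₂.IsSymm) (k l : ℕ) (hk : 1 ≤ k) (hl : 1 ≤ l) (hU : Module.finrank F U = 2 * k) (hW : Module.finrank F W = 2 * l) (hm₁ : ¬ (∃ X : Submodule F (U), Module.finrank F X = k ∧ ∀ x ∈ X, ∀ y ∈ X, (B₁) x y = 0)) (hm₂ : ¬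 (∃ X : Submodule F (W), Module.finrank F X = l ∧ ∀ x ∈ X, ∀ y ∈ X, (B₂) x y = 0)) : (∃ X : Submodule F (TensorProduct F U W), Module.finrank F X = 2 * k * l ∧ ∀ x ∈ X, ∀ y ∈ X, (B₁.tmul B₂) x y = 0) := by
  classical
  let b := Module.finBasisOfFinrankEq F U hU
  let c := Module.finBasisOfFinrankEq F W hW
  have hdet := det_toMatrix_tmul B₁ B₂ b c
  rw [Fintype.card_fin, Fintype.card_fin] at hdet
  have hd1 : (LinearMap.BilinForm.toMatrix b B₁).det ≠ 0 :=
    (LinearMap.BilinForm.nondegenerate_iff_det_ne_zero b).mp h₁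
  have hd2 : (LinearMap.BilinForm.toMatrix c B₂).det ≠ 0 :=
    (LinearMap.BilinForm.nondegenerate_iff_det_ne_zero c).mp h₂
  have hnd : (B₁.tmul B₂).Nondegenerate :=
    (LinearMap.BilinForm.nondegenerate_iff_det_ne_zero (b.tensorProduct c)).mpr (by
      rw [hdet]
      exact mul_ne_zero (pow_ne_zero _ hd1) (pow_ne_zero _ hd2))
  have hfin : Module.finrank F (TensorProduct F U W) = 2 * (2 * k * l) := by
    rw [Module.finrank_tensorProduct, hU, hW]; ring
  rcases ti_or_nonsquare h2 (B₁.tmul B₂) hnd (LinearMap.BilinForm.isSymm_iff.mpr (LinearMap.IsSymm.tmul (LinearMap.BilinForm.isSymm_iff.mp hS₁) (LinearMap.BilinForm.isSymm_iff.mp hS₂))) (2 * k * l) hfin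
    (b.tensorProduct c) with h | h
  · exact h
  · exfalso
    apply h
    rw [hdet]
    refine ⟨(LinearMap.BilinForm.toMatrix b B₁).det ^ l *
      (LinearMap.BilinForm.toMatrix c B₂).det ^ k, ?_⟩
    have : ((-1 : F)) ^ (2 * k * l) = 1 := by
      rw [mul_assoc, pow_mul]; simp
    rw [this, one_mul]
    ring

end Cfsg.Agent.S0834
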