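import Cfsg.Statements.S0835
import Cfsg.Agent.H18.Disc

set_option autoImplicit false
open Cfsg

namespace Cfsg.Agent.S0835

open Cfsg.Agent.H18

/-- Over a finite field with 2 ≠ 0: if B₁ on U (dim 2k, k ≥ 1) is non-degenerate symmetric of minus type (no totally isotropic k-subspace) and B₂ on W (dim 2l + 1) is non-degenerate symmetric, then B₁ ⊗ B₂ (dimension 2k(2l+1)) admits no totally isotropic subspace of dimension k(2l+1) (minus type). -/
theorem result {F U W : Type*} [Field F] [Fintype F] [AddCommGroup U] [Module F U] [FiniteDimensional F U] [AddCommGroup W] [Module F W] [FiniteDimensional F W] (h2 : (2 : F) ≠ 0) (B₁ : LinearMap.BilinForm F U) (B₂ : LinearMap.BilinForm F W) (h₁ : B₁.Nondegenerate) (h₂ : B₂.Nondegenerate) (hS₁ : B₁.IsSymm) (hS₂ : B₂.IsSymm) (k l : ℕ) (hk : 1 ≤ k) (hU : Module.finrank F U = 2 * k) (hW : Module.finrank F W = 2 * l + 1) (hm₁ : ¬ (∃ X : Submodule F (U), Module.finrank F X = k ∧ ∀ x ∈ X, ∀ y ∈ X,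 (B₁) x y = 0)) : ¬ (∃ X : Submodule F (TensorProduct F U W), Module.finrank F X = k * (2 * l + 1) ∧ ∀ x ∈ X, ∀ y ∈ X, (B₁.tmul B₂) x y = 0) := by
  classical
  rintro ⟨X, hX, hti⟩
  let b := Module.finBasisOfFinrankEq F U hU
  let c := Module.finBasisOfFinrankEq F W hW
  have hdet := det_toMatrix_tmul B₁ B₂ b c
  rw [Fintype.card_fin, Fintype.card_fin] at hdet
  have hd2 : (LinearMap.BilinForm.toMatrix c B₂).det ≠ 0 :=
    (LinearMap.BilinForm.nondegenerate_iff_det_ne_zero c).mp h₂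
  have hfin : Module.finrank F (TensorProduct F U W) = 2 * (k * (2 * l + 1)) := by
    rw [Module.finrank_tensorProduct, hU, hW]; ring
  have hsq := isSquare_of_ti (B₁.tmul B₂) (LinearMap.BilinForm.isSymm_iff.mpr (LinearMap.IsSymm.tmul (LinearMap.BilinForm.isSymm_iff.mp hS₁) (LinearMap.BilinForm.isSymm_iff.mp hS₂))) (k * (2 * l + 1)) hfin
    X hX hti (b.tensorProduct c)
  have hns : ¬ IsSquare ((-1) ^ k * (LinearMap.BilinForm.toMatrix b B₁).det) :=
    (ti_or_nonsquare h2 B₁ h₁ hS₁ k hU b).resolve_left hm₁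
  apply hns
  obtain ⟨r, hr⟩ := hsq
  rw [hdet] at hr
  set x := (-1 : F) ^ k * (LinearMap.BilinForm.toMatrix b B₁).det with hx
  set D2 := (LinearMap.BilinForm.toMatrix c B₂).det with hD2
  have hx0 : x ≠ 0 := by
    intro h0
    apply hns
    rw [h0]
    exact ⟨0, by simp⟩
  have hy0 : x ^ l * D2 ^ k ≠ 0 := mul_ne_zero (pow_ne_zero _ hx0) (pow_ne_zero _ hd2)
  have hr' : x * (x ^ l * D2 ^ k) ^ 2 = r * r := by
    rw [← hr, hx]
    have : ((-1 : F)) ^ (k * (2 * l + 1)) = ((-1) ^ k) ^ (2 * l + 1) := by rw [pow_mul]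
    rw [this]
    ring
  refine ⟨r / (x ^ l * D2 ^ k), ?_⟩
  rw [div_mul_div_comm, eq_div_iff (mul_ne_zero hy0 hy0)]
  linear_combination hr'

end Cfsg.Agent.S0835
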