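import Mathlib
import Cfsg.Statements.S0839

set_option autoImplicit false
open Cfsg

namespace Cfsg.Agent.S0839

/-- Every transvection t ∈ SL_(n+2)(F) (rank(t − 1) = 1, (t − 1)² = 0) is conjugate in SL_(n+2)(F) to 1 + v·e_0ᵀ for some column vector v with v_0 = 0 (the group A of matrices that are the identity except in the first column below the diagonal); the dimension is written n + 2 ≥ 2. -/
theorem result {F : Type*} [Field F] (n : ℕ) (t : Matrix.SpecialLinearGroup (Fin (n + 2)) F) (ht : Cfsg.IsTransvection (t : Matrix (Fin (n + 2)) (Fin (n + 2)) F)) : ∃ (g : Matrix.SpecialLinearGroup (Fin (n + 2)) F) (v : Fin (n + 2) → F), v 0 = 0 ∧ ((g⁻¹ * t * g : Matrix.SpecialLinearGroup (Fin (n + 2)) F) : Matrix (Fin (n + 2)) (Fin (n + 2)) F) = 1 + Matrix.vecMulVec v (Pi.single 0 1) := by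
  classical
  obtain ⟨hrank, hsq⟩ := ht
  set A : Matrix (Fin (n+2)) (Fin (n+2)) F := (t : Matrix _ _ F) - 1 with hA
  -- kernel has dimension n+1
  have hker : Module.finrank F (LinearMap.ker A.mulVecLin) = n + 1 := by
    have h := LinearMap.finrank_range_add_finrank_ker A.mulVecLin
    have h1 : Module.finrank F (LinearMap.range A.mulVecLin) = 1 := hrank
    rw [h1, Module.finrank_fin_fun] at h
    omega
  let bK := Module.finBasisOfFinrankEq F (LinearMap.ker A.mulVecLin) hker
  -- b0 not in kernel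
  obtain ⟨b0, hb0⟩ : ∃ b0 : Fin (n+2) → F, b0 ∉ LinearMap.ker A.mulVecLin := by
    by_contra h
    push Not at h
    have : LinearMap.ker A.mulVecLin = ⊤ := by
      rw [eq_top_iff]; intro x _; exact h x
    rw [this, finrank_top, Module.finrank_fin_fun] at hker
    omega
  -- the family of columns
  have hli0 : LinearIndependent F (fun i : Fin (n+1) => ((bK i : LinearMap.ker A.mulVecLin) : Fin (n+2) → F)) :=
    bK.linearIndependent.map' (Submodule.subtype _) (Submodule.ker_subtype _)
  have hspan : Submodule.span F (Set.range (fun i : Fin (n+1) => ((bK i : LinearMap.ker A.mulVecLin) : Fin (n+2) → F))) ≤ LinearMap.ker A.mulVecLin := by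
    rw [Submodule.span_le]
    rintro _ ⟨i, rfl⟩
    exact (bK i).2
  have key : ∀ b : Fin (n+2) → F, b ∉ LinearMap.ker A.mulVecLin →
      IsUnit (Matrix.of (fun i j => (Fin.cons b (fun i : Fin (n+1) => ((bK i : LinearMap.ker A.mulVecLin) : Fin (n+2) → F)) : Fin (n+2) → Fin (n+2) → F) j i)) := by
    intro b hb
    rw [← Matrix.linearIndependent_cols_iff_isUnit]
    have : (Matrix.of (fun i j => (Fin.cons b (fun i : Fin (n+1) => ((bK i : LinearMap.ker A.mulVecLin) : Fin (n+2) → F)) : Fin (n+2) → Fin (n+2) → F) j i)).col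
        = Fin.cons b (fun i : Fin (n+1) => ((bK i : LinearMap.ker A.mulVecLin) : Fin (n+2) → F)) := by
      funext j i; rfl
    rw [this, linearIndependent_finCons]
    exact ⟨hli0, fun h => hb (hspan h)⟩
  set c : (Fin (n+2) → F) → Fin (n+2) → Fin (n+2) → F := fun b => Fin.cons b (fun i : Fin (n+1) => ((bK i : LinearMap.ker A.mulVecLin) : Fin (n+2) → F)) with hc
  set P1 : Matrix (Fin (n+2)) (Fin (n+2)) F := Matrix.of (fun i j => c b0 j i) with hP1
  have hd : P1.det ≠ 0 := by
    have := key b0 hb0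
    exact ((Matrix.isUnit_iff_isUnit_det _).mp this).ne_zero
  set b1 : Fin (n+2) → F := P1.det⁻¹ • b0 with hb1
  have hb1ker : b1 ∉ LinearMap.ker A.mulVecLin := by
    intro h
    apply hb0
    have : b0 = P1.det • b1 := by rw [hb1, smul_smul, mul_inv_cancel₀ hd, one_smul]
    rw [this]
    exact Submodule.smul_mem _ _ h
  set P : Matrix (Fin (n+2)) (Fin (n+2)) F := Matrix.of (fun i j => c b1 j i) with hP
  have hPdet : P.det = 1 := by
    have e1 : P = P1.updateCol 0 (P1.det⁻¹ • b0) := by
      ext i j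
      refine Fin.cases ?_ (fun j' => ?_) j
      · simp [hP, hc, hb1]
      · simp [hP, hP1, hc, Fin.succ_ne_zero]
    have e2 : P1.updateCol 0 b0 = P1 := by
      ext i j
      refine Fin.cases ?_ (fun j' => ?_) j
      · simp [hP1, hc]
      · simp [hP1, hc, Fin.succ_ne_zero]
    rw [e1, Matrix.det_updateCol_smul, e2, inv_mul_cancel₀ hd]
  -- A * P has only column 0 nonzero
  set y : Fin (n+2) → F := A.mulVec b1 with hy
  have hAP : A * P = Matrix.vecMulVec y (Pi.single 0 1) := by
    ext i j
    refine Fin.cases ?_ (fun j' => ?_) j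
    · simp [Matrix.mul_apply, Matrix.vecMulVec_apply, hy, Matrix.mulVec, dotProduct, hP, hc]
    · have hk : A.mulVec ((bK j' : LinearMap.ker A.mulVecLin) : Fin (n+2) → F) = 0 := by
        have := (bK j').2
        rwa [LinearMap.mem_ker] at this
      have hk' := congrFun hk i
      simp only [Matrix.mulVec, dotProduct, Pi.zero_apply] at hk'
      simp [Matrix.mul_apply, Matrix.vecMulVec_apply, hP, hc, Fin.succ_ne_zero, hk']
  have hy0 : y ≠ 0 := by
    intro h
    apply hb1ker
    rw [LinearMap.mem_ker]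
    exact h
  have hadjP : P.adjugate * P = 1 := by rw [Matrix.adjugate_mul, hPdet, one_smul]
  have hPadj : P * P.adjugate = 1 := by rw [Matrix.mul_adjugate, hPdet, one_smul]
  set v : Fin (n+2) → F := P.adjugate.mulVec y with hv
  have hv0 : v 0 = 0 := by
    have h1 : (A * P) * (P.adjugate * (A * P)) = 0 := by
      calc (A * P) * (P.adjugate * (A * P)) = A * (P * P.adjugate) * (A * P) := by
            simp only [Matrix.mul_assoc]
        _ = A * A * P := by rw [hPadj, Matrix.mul_one, Matrix.mul_assoc]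
        _ = 0 := by rw [hsq, Matrix.zero_mul]
    rw [hAP, Matrix.mul_vecMulVec, Matrix.vecMulVec_mul_vecMulVec] at h1
    by_contra hne
    apply hy0
    funext i
    have h3 := congrFun (congrFun h1 i) 0
    have h4 : (Pi.single 0 1 : Fin (n+2) → F) ⬝ᵥ P.adjugate.mulVec y = v 0 := by
      rw [single_one_dotProduct]
    rw [h4] at h3
    simp [Matrix.vecMulVec_apply] at h3
    rcases h3 with h3 | h3
    · exact h3
    · exact absurd h3 hne
  set g : Matrix.SpecialLinearGroup (Fin (n + 2)) F := ⟨P, hPdet⟩ with hg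
  refine ⟨g, v, hv0, ?_⟩
  have hcoe : ((g⁻¹ * t * g : Matrix.SpecialLinearGroup (Fin (n + 2)) F) : Matrix (Fin (n + 2)) (Fin (n + 2)) F) = P.adjugate * (t : Matrix _ _ F) * P := by
    rw [Matrix.SpecialLinearGroup.coe_mul, Matrix.SpecialLinearGroup.coe_mul, Matrix.SpecialLinearGroup.coe_inv]
  rw [hcoe]
  have ht' : (t : Matrix (Fin (n + 2)) (Fin (n + 2)) F) = 1 + A := by rw [hA]; abel
  rw [ht', Matrix.mul_add, Matrix.add_mul, Matrix.mul_one, hadjP, Matrix.mul_assoc, hAP, Matrix.mul_vecMulVec]

end Cfsg.Agent.S0839
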