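import Mathlib
import Cfsg.Statements.S0840
import Cfsg.Agent.H4.IrrCount
import Cfsg.Agent.H4.Integral
import Cfsg.Agent.H83.Basic

set_option autoImplicit false
open scoped ComplexConjugate
open Cfsg

namespace Cfsg.Agent.S0840

/-- Counting pairs of conjugators against pairs of conjugates. -/
theorem card_conjugators {G : Type*} [Group G] [Finite G] (a b c : G) :
    Nat.card {st : G × G // st.1 * a * st.1⁻¹ * (st.2 * b * st.2⁻¹) = c}
      = Nat.card {p : G × G // IsConj a p.1 ∧ IsConj b p.2 ∧ p.1 * p.2 = c}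
        * (Nat.card (Subgroup.centralizer ({a} : Set G)) * Nat.card (Subgroup.centralizer ({b} : Set G))) := by
  classical
  have := Fintype.ofFinite G
  let P := {p : G × G // IsConj a p.1 ∧ IsConj b p.2 ∧ p.1 * p.2 = c}
  let T := {st : G × G // st.1 * a * st.1⁻¹ * (st.2 * b * st.2⁻¹) = c}
  have : Fintype P := Fintype.ofFinite P
  let f : T → P := fun st => ⟨(st.1.1 * a * st.1.1⁻¹, st.1.2 * b * st.1.2⁻¹),
    isConj_iff.mpr ⟨_, rfl⟩, isConj_iff.mpr ⟨_, rfl⟩, st.2⟩
  have hfib : ∀ p : P, Nat.card {st : T // f st = p}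
      = Nat.card (Subgroup.centralizer ({a} : Set G)) * Nat.card (Subgroup.centralizer ({b} : Set G)) := by
    intro p
    obtain ⟨c₁, h₁⟩ := isConj_iff.mp p.2.1
    obtain ⟨c₂, h₂⟩ := isConj_iff.mp p.2.2.1
    rw [← Cfsg.Agent.H4.card_conj_fiber a c₁, ← Cfsg.Agent.H4.card_conj_fiber b c₂, ← Nat.card_prod]
    apply Nat.card_congr
    exact
      { toFun := fun st => (⟨st.1.1.1, by
            have h := congrArg (fun q : P => q.1.1) st.2
            exact h.trans h₁.symm⟩, ⟨st.1.1.2, by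
            have h := congrArg (fun q : P => q.1.2) st.2
            exact h.trans h₂.symm⟩)
        invFun := fun q => ⟨⟨(q.1.1, q.2.1), by
            change q.1.1 * a * q.1.1⁻¹ * (q.2.1 * b * q.2.1⁻¹) = c
            rw [q.1.2, q.2.2, h₁, h₂]; exact p.2.2.2⟩, by
            apply Subtype.ext
            apply Prod.ext
            · change q.1.1 * a * q.1.1⁻¹ = p.1.1
              rw [q.1.2, h₁]
            · change q.2.1 * b * q.2.1⁻¹ = p.1.2
              rw [q.2.2, h₂]⟩
        left_inv := fun st => rfl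
        right_inv := fun q => rfl }
  change Nat.card T = Nat.card P * _
  rw [← Nat.card_congr (Equiv.sigmaFiberEquiv f), Nat.card_sigma,
    Finset.sum_congr rfl (fun p _ => hfib p), Finset.sum_const, Finset.card_univ, smul_eq_mul,
    Nat.card_eq_fintype_card (α := P)]

/-- The indicator of the identity as a combination of irreducible characters. -/
theorem delta_eq {G : Type*} [Group G] [Fintype G] (g : G) [Decidable (g = 1)] :
    (if g = 1 then (1 : ℂ) else 0)
      = (Nat.card G : ℂ)⁻¹ * ∑ᶠ χ : Cfsg.IrrCharacter G, (χ : G → ℂ) 1 * (χ : G → ℂ) g := by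
  classical
  have hn0 : (Nat.card G : ℂ) ≠ 0 := by exact_mod_cast Nat.card_pos.ne'
  have h := Cfsg.Agent.H4.column_orthogonality (G := G) g 1
  have h2 : (∑ᶠ χ : Cfsg.IrrCharacter G, (χ : G → ℂ) 1 * (χ : G → ℂ) g)
      = ∑ᶠ χ : Cfsg.IrrCharacter G, (χ : G → ℂ) g * conj ((χ : G → ℂ) 1) := by
    congr 1
    funext χ
    rw [Cfsg.Agent.H4.irr_one_conj, mul_comm]
  rw [h2, h]
  by_cases hg : g = 1
  · rw [if_pos hg]
    have : Nat.card {c : G // c * g * c⁻¹ = 1} = Nat.card G := by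
      apply Nat.card_congr
      exact Equiv.subtypeUnivEquiv (fun c => by simp [hg])
    rw [this, inv_mul_cancel₀ hn0]
  · rw [if_neg hg]
    have : IsEmpty {c : G // c * g * c⁻¹ = 1} := by
      constructor
      rintro ⟨c, hc⟩
      apply hg
      have : g = c⁻¹ * (c * g * c⁻¹) * c := by group
      rw [this, hc]; group
    have hc0 : Nat.card {c : G // c * g * c⁻¹ = 1} = 0 := Nat.card_of_isEmpty
    rw [hc0]
    simp

/-- Class multiplication coefficients from the character table: for elements a, b, c of a finite group G, the number of ordered pairs (x, y) with x conjugate to a, y conjugate to b and x * y = c equals the product of the sizes of the conjugacy classes of a and b, divided by the order of G, times the sum over the irreducible characters χ of χ a * χ b * conj (χ c) / χ 1. -/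
theorem result {G : Type*} [Group G] [Finite G] (a b c : G) : (Nat.card {p : G × G // IsConj a p.1 ∧ IsConj b p.2 ∧ p.1 * p.2 = c} : ℂ) = (Nat.card {x : G // IsConj a x} : ℂ) * (Nat.card {x : G // IsConj b x} : ℂ) / (Nat.card G : ℂ) * ∑ᶠ χ : Cfsg.IrrCharacter G, (χ : G → ℂ) a * (χ : G → ℂ) b * conj ((χ : G → ℂ) c) / (χ : G → ℂ) 1 := by
  classical
  have := Fintype.ofFinite G
  let _ := Cfsg.Agent.H4.fintypeIrr G
  have hn0 : (Nat.card G : ℂ) ≠ 0 := by exact_mod_cast Nat.card_pos.ne'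
  -- class sizes
  have hKa : Nat.card {x : G // IsConj a x} * Nat.card (Subgroup.centralizer ({a} : Set G)) = Nat.card G := by
    rw [Nat.card_eq_fintype_card, Fintype.card_subtype, Cfsg.Agent.H4.card_filter_isConj, mul_comm,
      Subgroup.card_mul_index]
  have hKb : Nat.card {x : G // IsConj b x} * Nat.card (Subgroup.centralizer ({b} : Set G)) = Nat.card G := by
    rw [Nat.card_eq_fintype_card, Fintype.card_subtype, Cfsg.Agent.H4.card_filter_isConj, mul_comm,
      Subgroup.card_mul_index]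
  have hCa0 : (Nat.card (Subgroup.centralizer ({a} : Set G)) : ℂ) ≠ 0 := by
    exact_mod_cast Nat.card_pos.ne'
  have hCb0 : (Nat.card (Subgroup.centralizer ({b} : Set G)) : ℂ) ≠ 0 := by
    exact_mod_cast Nat.card_pos.ne'
  have hKa' : (Nat.card {x : G // IsConj a x} : ℂ) * (Nat.card (Subgroup.centralizer ({a} : Set G)) : ℂ) = (Nat.card G : ℂ) := by
    exact_mod_cast hKa
  have hKb' : (Nat.card {x : G // IsConj b x} : ℂ) * (Nat.card (Subgroup.centralizer ({b} : Set G)) : ℂ) = (Nat.card G : ℂ) := by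
    exact_mod_cast hKb
  -- count of conjugators via characters
  have hT : (Nat.card {st : G × G // st.1 * a * st.1⁻¹ * (st.2 * b * st.2⁻¹) = c} : ℂ)
      = (Nat.card G : ℂ) * ∑ᶠ χ : Cfsg.IrrCharacter G,
          (χ : G → ℂ) a * (χ : G → ℂ) b * conj ((χ : G → ℂ) c) / (χ : G → ℂ) 1 := by
    rw [Nat.card_eq_fintype_card, Fintype.card_subtype, Finset.card_filter]
    push_cast
    rw [Fintype.sum_prod_type]
    have h1 : ∀ s t : G, (if s * a * s⁻¹ * (t * b * t⁻¹) = c then (1 : ℂ) else 0)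
        = (Nat.card G : ℂ)⁻¹ * ∑ χ : Cfsg.IrrCharacter G,
            (χ : G → ℂ) 1 * (χ : G → ℂ) (s * a * s⁻¹ * (t * b * t⁻¹ * c⁻¹)) := by
      intro s t
      rw [← Cfsg.Agent.H4.finsum_irr_eq_sum, ← delta_eq]
      have : s * a * s⁻¹ * (t * b * t⁻¹ * c⁻¹) = 1 ↔ s * a * s⁻¹ * (t * b * t⁻¹) = c := by
        rw [← mul_assoc, mul_inv_eq_one]
      simp only [this]
    simp_rw [h1]
    rw [Cfsg.Agent.H4.finsum_irr_eq_sum]
    simp_rw [← Finset.mul_sum]
    rw [Finset.sum_comm]
    simp_rw [Finset.sum_comm (γ := G) (α := Cfsg.IrrCharacter G), ← Finset.mul_sum]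
    rw [Finset.mul_sum, Finset.mul_sum]
    apply Finset.sum_congr rfl
    intro χ _
    have hχ1 : (χ : G → ℂ) 1 ≠ 0 := Cfsg.Agent.H4.irr_one_ne_zero χ
    have h2 : ∀ t : G, ∑ s : G, (χ : G → ℂ) (s * a * s⁻¹ * (t * b * t⁻¹ * c⁻¹))
        = (Nat.card G : ℂ) * (χ : G → ℂ) a * (χ : G → ℂ) (t * b * t⁻¹ * c⁻¹) / (χ : G → ℂ) 1 :=
      fun t => Cfsg.Agent.H83.irr_sum_conj_mul χ.2 a _
    have h3 : ∑ t : G, (χ : G → ℂ) (t * b * t⁻¹ * c⁻¹)
        = (Nat.card G : ℂ) * (χ : G → ℂ) b * (χ : G → ℂ) c⁻¹ / (χ : G → ℂ) 1 :=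
      Cfsg.Agent.H83.irr_sum_conj_mul χ.2 b _
    rw [Finset.sum_congr rfl (fun t _ => h2 t), ← Finset.sum_div, ← Finset.mul_sum, h3,
      Cfsg.Agent.H83.IsIrrCharacter.inv_eq_conj χ.2 c]
    field_simp
  have hA := card_conjugators a b c
  have hA' : (Nat.card {st : G × G // st.1 * a * st.1⁻¹ * (st.2 * b * st.2⁻¹) = c} : ℂ)
      = (Nat.card {p : G × G // IsConj a p.1 ∧ IsConj b p.2 ∧ p.1 * p.2 = c} : ℂ)
        * ((Nat.card (Subgroup.centralizer ({a} : Set G)) : ℂ) * (Nat.card (Subgroup.centralizer ({b} : Set G)) : ℂ)) := by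
    exact_mod_cast hA
  rw [hT] at hA'
  -- solve for the count
  have hfinal : (Nat.card {p : G × G // IsConj a p.1 ∧ IsConj b p.2 ∧ p.1 * p.2 = c} : ℂ)
      = (Nat.card G : ℂ) * (∑ᶠ χ : Cfsg.IrrCharacter G,
          (χ : G → ℂ) a * (χ : G → ℂ) b * conj ((χ : G → ℂ) c) / (χ : G → ℂ) 1)
        / ((Nat.card (Subgroup.centralizer ({a} : Set G)) : ℂ) * (Nat.card (Subgroup.centralizer ({b} : Set G)) : ℂ)) := by
    rw [hA']
    field_simp
  rw [hfinal, eq_div_of_mul_eq hCa0 hKa', eq_div_of_mul_eq hCb0 hKb']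
  field_simp

end Cfsg.Agent.S0840
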