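import Mathlib
import Cfsg.Statements.S0842
import Cfsg.Agent.H19.QuatSylow

set_option autoImplicit false
open Cfsg

namespace Cfsg.Agent.S0842

/-- Suppose a Sylow 2-subgroup S of the finite group G is generalized quaternion of order at least 16, and let D be the commutator subgroup of S, C its centralizer and N its normalizer in G. Then there is a subgroup K of odd order, contained in C and normalized by N, with K ⊔ S = N and K ⊔ (S ⊓ C) = C, and C has index 2 in N. -/
theorem result {G : Type*} [Group G] [Finite G] (S : Sylow 2 G) (n : ℕ) (e : (S : Subgroup G) ≃* QuaternionGroup (2 ^ (n + 2))) (D : Subgroup G) (hD : D = ⁅(S : Subgroup G), (S : Subgroup G)⁆) : ∃ K : Subgroup G, Odd (Nat.card K) ∧ K ≤ Subgroup.centralizer (D : Set G) ∧ Subgroup.normalizer (D : Set G) ≤ Subgroup.normalizer (K : Set G) ∧ K ⊔ (S : Subgroup G) = Subgroup.normalizer (D : Set G) ∧ K ⊔ ((S : Subgroup G) ⊓ Subgroup.centralizer (D : Set G)) = Subgroup.centralizer (D : Set G) ∧ ((Subgroup.centralizer (D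 : Set G)).subgroupOf (Subgroup.normalizer (D : Set G))).index = 2 := by
  haveI : NeZero (2 * 2 ^ (n + 2)) := ⟨by positivity⟩
  let ψ : QuaternionGroup (2 ^ (n + 2)) →* G := (S : Subgroup G).subtype.comp e.symm.toMonoidHom
  have hψ : Function.Injective ψ := (Subgroup.subtype_injective _).comp e.symm.injective
  have hS : ψ.range = (S : Subgroup G) := by
    rw [MonoidHom.range_comp, MonoidHom.range_eq_top.mpr e.symm.surjective,
      ← MonoidHom.range_eq_map, Subgroup.range_subtype]
  have hDq : D = Cfsg.Agent.H19.qD ψ := by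
    rw [hD, ← hS]
    exact Cfsg.Agent.H19.quat_range_commutator ψ
  subst hDq
  obtain ⟨K', hK'n, hK'c, hodd⟩ := Cfsg.Agent.H19.quat_exists_complement S ψ hψ hS
  refine ⟨K'.map (Cfsg.Agent.H19.qC ψ).subtype, ?_, Subgroup.map_subtype_le K',
    Cfsg.Agent.H19.quat_qN_le_normalizer S ψ hψ hS K' hK'n hK'c hodd,
    Cfsg.Agent.H19.quat_sup_S S ψ hψ hS K' hK'n hK'c hodd, ?_,
    Cfsg.Agent.H19.quat_relIndex_two S ψ hψ hS⟩
  · rw [Cfsg.Agent.H19.quat_card_map S ψ hψ hS K' hK'n hK'c hodd]
    exact hodd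
  · rw [Cfsg.Agent.H19.quat_S_inf_qC S ψ hψ hS]
    exact Cfsg.Agent.H19.quat_sup_qA S ψ hψ hS K' hK'n hK'c hodd

end Cfsg.Agent.S0842
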