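import Mathlib
import Cfsg.Statements.S0843
import Cfsg.Agent.H19.QuatTI

set_option autoImplicit false
open Cfsg

namespace Cfsg.Agent.S0843

/-- Suppose a Sylow 2-subgroup S of the finite group G is generalized quaternion of order at least 16; let D be the commutator subgroup of S and X the set of elements of the centralizer of D whose order is divisible by the order of D. Then D is contained in the cyclic subgroup generated by any element of X; an element of G conjugating some element of X into the centralizer of D normalizes D; and the normalizer of D maps X to itself under conjugation. -/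
theorem result {G : Type*} [Group G] [Finite G] (S : Sylow 2 G) (n : ℕ) (e : (S : Subgroup G) ≃* QuaternionGroup (2 ^ (n + 2))) (D : Subgroup G) (hD : D = ⁅(S : Subgroup G), (S : Subgroup G)⁆) : (∀ y : G, y ∈ Subgroup.centralizer (D : Set G) → Nat.card D ∣ orderOf y → D ≤ Subgroup.zpowers y) ∧ (∀ g y : G, y ∈ Subgroup.centralizer (D : Set G) → Nat.card D ∣ orderOf y → g * y * g⁻¹ ∈ Subgroup.centralizer (D : Set G) → g ∈ Subgroup.normalizer (D : Set G)) ∧ (∀ g y : G, g ∈ Subgroup.normalizer (D : Set G) → y ∈ Subgroup.centralizer (D : Set G) → Nat.card D ∣ orderOf y → g * y * g⁻¹ ∈ Subgroup.centralizer (D : Set G) ∧ Nat.card D ∣ orderOf (g * y * g⁻¹)) := by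
  haveI : NeZero (2 * 2 ^ (n + 2)) := ⟨by positivity⟩
  let ψ : QuaternionGroup (2 ^ (n + 2)) →* G := (S : Subgroup G).subtype.comp e.symm.toMonoidHom
  have hψ : Function.Injective ψ := (Subgroup.subtype_injective _).comp e.symm.injective
  have hS : ψ.range = (S : Subgroup G) := by
    rw [MonoidHom.range_comp, MonoidHom.range_eq_top.mpr e.symm.surjective,
      ← MonoidHom.range_eq_map, Subgroup.range_subtype]
  have hDq : D = Cfsg.Agent.H19.qD ψ := by
    rw [hD, ← hS]
    exact Cfsg.Agent.H19.quat_range_commutator ψ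
  subst hDq
  rw [Cfsg.Agent.H19.quat_card_qD S ψ hψ hS]
  refine ⟨?_, ?_, ?_⟩
  · intro y hy hdvd
    exact Cfsg.Agent.H19.quat_qD_le_zpowers S ψ hψ hS hy hdvd
  · intro g y hy hdvd hgy
    exact Cfsg.Agent.H19.quat_mem_qN_of_conj S ψ hψ hS hy hdvd hgy
  · intro g y hg hy hdvd
    refine ⟨Cfsg.Agent.H19.conj_mem_centralizer_of_mem_normalizer _ hg hy, ?_⟩
    rw [Cfsg.Agent.H19.orderOf_conj_eq]
    exact hdvd

end Cfsg.Agent.S0843
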