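import Mathlib
import Cfsg.Statements.S0845
import Cfsg.Agent.H19.BSKer

set_option autoImplicit false
open Cfsg

namespace Cfsg.Agent.S0845

/-- Suppose a Sylow 2-subgroup S of the finite group G is generalized quaternion of order at least 16. Then G has a normal subgroup M of even order such that G / M is non-abelian, that is, M does not contain the commutator subgroup of G. -/
theorem result {G : Type*} [Group G] [Finite G] (S : Sylow 2 G) (n : ℕ) (e : (S : Subgroup G) ≃* QuaternionGroup (2 ^ (n + 2))) : ∃ M : Subgroup G, M.Normal ∧ Even (Nat.card M) ∧ ¬ commutator G ≤ M := by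
  haveI : NeZero (2 ^ (n + 2)) := ⟨by positivity⟩
  let ψ : QuaternionGroup (2 ^ (n + 2)) →* G := (S : Subgroup G).subtype.comp e.symm.toMonoidHom
  have hψ : Function.Injective ψ := (Subgroup.subtype_injective _).comp e.symm.injective
  have hS : ψ.range = (S : Subgroup G) := by
    rw [MonoidHom.range_comp, MonoidHom.range_eq_top.mpr e.symm.surjective,
      ← MonoidHom.range_eq_map, Subgroup.range_subtype]
  obtain ⟨M, hMn, hz, -, hcomm⟩ := Cfsg.Agent.H19.quat_exists_normal S ψ hψ hS
  refine ⟨M, hMn, ?_, hcomm⟩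
  have h2 : orderOf (Cfsg.Agent.H19.qz ψ) = 2 := Cfsg.Agent.H19.qz_orderOf ψ hψ
  have hdvd : 2 ∣ Nat.card M := by
    rw [← h2, ← Subgroup.orderOf_mk _ hz]
    exact orderOf_dvd_natCard _
  exact even_iff_two_dvd.mpr hdvd

end Cfsg.Agent.S0845
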