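import Mathlib
import Cfsg.Statements.S0846
import Cfsg.Agent.H19.BSKer

set_option autoImplicit false
open Cfsg

namespace Cfsg.Agent.S0846

/-- Suppose a Sylow 2-subgroup S of the finite group G is generalized quaternion of order at least 16. Then every Sylow 2-subgroup of the subgroup generated by the involutions of G is cyclic. -/
theorem result {G : Type*} [Group G] [Finite G] (S : Sylow 2 G) (n : ℕ) (e : (S : Subgroup G) ≃* QuaternionGroup (2 ^ (n + 2))) (Q : Sylow 2 ↥(Subgroup.closure {g : G | orderOf g = 2})) : IsCyclic Q := by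
  haveI : Fact (Nat.Prime 2) := ⟨Nat.prime_two⟩
  haveI : NeZero (2 ^ (n + 2)) := ⟨by positivity⟩
  let ψ : QuaternionGroup (2 ^ (n + 2)) →* G := (S : Subgroup G).subtype.comp e.symm.toMonoidHom
  have hψ : Function.Injective ψ := (Subgroup.subtype_injective _).comp e.symm.injective
  have hS : ψ.range = (S : Subgroup G) := by
    rw [MonoidHom.range_comp, MonoidHom.range_eq_top.mpr e.symm.surjective,
      ← MonoidHom.range_eq_map, Subgroup.range_subtype]
  obtain ⟨M, hMn, hz, ha, -⟩ := Cfsg.Agent.H19.quat_exists_normal S ψ hψ hS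
  haveI := hMn
  have hcyc : ∀ R : Sylow 2 M, IsCyclic (R : Subgroup M) := fun R =>
    Cfsg.Agent.H60.isCyclic_sylow_of_normal M S (Cfsg.Agent.H19.qA ψ) inferInstance
      (Cfsg.Agent.H19.quat_S_inf_le_qA S ψ hψ hS M ha) R
  have hIM : Subgroup.closure {g : G | orderOf g = 2} ≤ M := by
    rw [Subgroup.closure_le]
    intro u hu
    obtain ⟨g, hg⟩ := Cfsg.Agent.H19.quat_invol_conj S ψ hψ hS hu
    have hu' : u = g⁻¹ * (g * u * g⁻¹) * g⁻¹⁻¹ := by group
    rw [SetLike.mem_coe, hu', hg]
    exact hMn.conj_mem _ hz _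
  let f : Q →* M := (Subgroup.inclusion hIM).comp (SubgroupClass.subtype Q)
  have hf : Function.Injective f :=
    (Subgroup.inclusion_injective hIM).comp (SubgroupClass.subtype_injective Q)
  have hp : IsPGroup 2 f.range :=
    Q.isPGroup'.of_surjective f.rangeRestrict f.rangeRestrict_surjective
  obtain ⟨R, hR⟩ := hp.exists_le_sylow
  exact Cfsg.Agent.H60.isCyclic_of_injective_range_le f hf hR (hcyc R)

end Cfsg.Agent.S0846
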