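import Mathlib
import Cfsg.Statements.S0849
import Cfsg.Agent.H19.IndFun

set_option autoImplicit false
open Cfsg

namespace Cfsg.Agent.S0849

open Cfsg.Agent.H19

/-- A sum over the group of a function vanishing off a subgroup is the sum over the subgroup. -/
theorem sum_eq_sum_subgroup {G : Type*} [Group G] [Fintype G] (H : Subgroup G) [Fintype H]
    (h : G → ℂ) (hh : ∀ a : G, a ∉ H → h a = 0) : ∑ a : G, h a = ∑ a : H, h (a : G) := by
  classical
  rw [← Finset.sum_subtype (Finset.univ.filter (fun a : G => a ∈ H)) (by simp) h]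
  symm
  apply Finset.sum_subset (Finset.filter_subset _ _)
  intro a _ ha
  apply hh
  simpa using ha

/-- Let H be a subgroup of a finite group G and S a subset of H that is mapped to itself under conjugation by H, is disjoint from its conjugate by any element outside H, and is closed under inverses. Let φ be a class function of H vanishing on H away from S, and let u, v be involutions of G. Then the sum of the induced function of φ over all products a * b with a conjugate to u and b conjugate to v equals the index of H times the sum of φ (a * b) over such pairs with a and b in H. -/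
theorem result {G : Type*} [Group G] [Fintype G] (H : Subgroup G) (S : Set G) (hSH : S ⊆ H) (hHS : ∀ h ∈ H, ∀ s ∈ S, h * s * h⁻¹ ∈ S) (hTI : ∀ g : G, g ∉ H → ∀ s ∈ S, g * s * g⁻¹ ∉ S) (hinv : ∀ s ∈ S, s⁻¹ ∈ S) (φ : H → ℂ) (hφ : Cfsg.IsClassFunction H φ) (hφS : ∀ x : H, (x : G) ∉ S → φ x = 0) (u v : G) (hu : orderOf u = 2) (hv : orderOf v = 2) : ∑ᶠ p ∈ {p : G × G | IsConj u p.1 ∧ IsConj v p.2}, Cfsg.indFun H φ (p.1 * p.2) = (H.index : ℂ) * ∑ᶠ p ∈ {p : H × H | IsConj u (p.1 : G) ∧ IsConj v (p.2 : G)}, φ (p.1 * p.2) := by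
  classical
  have : Fintype H := Fintype.ofFinite H
  set F : G → ℂ := Cfsg.extendByZero H φ with hF
  -- the indicator form of the summands
  let f : G × G → ℂ := fun p => if IsConj u p.1 ∧ IsConj v p.2 then F (p.1 * p.2) else 0
  let g : H × H → ℂ := fun q => if IsConj u (q.1 : G) ∧ IsConj v (q.2 : G) then φ (q.1 * q.2) else 0
  -- conjugates of involutions
  have hsq : ∀ w a : G, orderOf w = 2 → IsConj w a → a * a = 1 := by
    intro w a hw hwa
    obtain ⟨c, rfl⟩ := isConj_iff.mp hwa
    have hw2 : w * w = 1 := by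
      have := pow_orderOf_eq_one w
      rwa [hw, pow_two] at this
    calc c * w * c⁻¹ * (c * w * c⁻¹) = c * (w * w) * c⁻¹ := by group
      _ = 1 := by rw [hw2]; group
  -- nonvanishing summands come from H × H
  have hf : ∀ a b : G, f (a, b) ≠ 0 → a ∈ H ∧ b ∈ H := by
    intro a b hab
    simp only [f] at hab
    split_ifs at hab with hc
    swap
    · exact absurd rfl hab
    obtain ⟨hca, hcb⟩ := hc
    have ha2 := hsq u a hu hca
    have hb2 := hsq v b hv hcb
    have hainv : a⁻¹ = a := inv_eq_of_mul_eq_one_left ha2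
    have hbinv : b⁻¹ = b := inv_eq_of_mul_eq_one_left hb2
    have habH : a * b ∈ H := by
      by_contra hn
      exact hab (extendByZero_of_not_mem H φ hn)
    have habS : a * b ∈ S := by
      by_contra hn
      apply hab
      rw [hF, extendByZero_of_mem H φ habH]
      exact hφS ⟨a * b, habH⟩ hn
    have hinvS : (a * b)⁻¹ ∈ S := hinv _ habS
    constructor
    · by_contra ha
      apply hTI a ha (a * b) habS
      have : a * (a * b) * a⁻¹ = (a * b)⁻¹ := by
        rw [mul_inv_rev, hainv, hbinv, ← mul_assoc, ha2, one_mul]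
      rw [this]
      exact hinvS
    · by_contra hb
      apply hTI b hb (a * b) habS
      have : b * (a * b) * b⁻¹ = (a * b)⁻¹ := by
        rw [mul_inv_rev, hainv, hbinv, mul_assoc, mul_assoc, hb2, mul_one]
      rw [this]
      exact hinvS
  -- the sum of f over G × G is the sum of g over H × H
  have hfg : ∑ p : G × G, f p = ∑ q : H × H, g q := by
    rw [Fintype.sum_prod_type, Fintype.sum_prod_type]
    rw [sum_eq_sum_subgroup H (fun a => ∑ b : G, f (a, b))]
    · apply Finset.sum_congr rfl
      intro a _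
      rw [sum_eq_sum_subgroup H (fun b => f ((a : G), b))]
      · apply Finset.sum_congr rfl
        intro b _
        simp only [f, g]
        congr 1
        rw [hF]
        exact extendByZero_coe H φ (a * b)
      · intro b hb
        by_contra hne
        exact hb (hf a b hne).2
    · intro a ha
      apply Finset.sum_eq_zero
      intro b _
      by_contra hne
      exact ha (hf a b hne).1
  -- conjugation invariance
  have hconj : ∀ x : G, ∑ p : G × G,
      (if IsConj u p.1 ∧ IsConj v p.2 then F (x⁻¹ * (p.1 * p.2) * x) else 0) = ∑ p : G × G, f p := by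
    intro x
    let e : G × G ≃ G × G :=
      Equiv.prodCongr (MulAut.conj x⁻¹).toEquiv (MulAut.conj x⁻¹).toEquiv
    apply Fintype.sum_equiv e
    rintro ⟨a, b⟩
    have hc : ∀ w c : G, IsConj w (x⁻¹ * c * x) ↔ IsConj w c := by
      intro w c
      have hcc : IsConj c (x⁻¹ * c * x) := isConj_iff.mpr ⟨x⁻¹, by rw [inv_inv]⟩
      exact ⟨fun h => h.trans hcc.symm, fun h => h.trans hcc⟩
    have he : e (a, b) = (x⁻¹ * a * x, x⁻¹ * b * x) := by
      simp [e]
    rw [he]
    simp only [f]
    have hiff : (IsConj u (x⁻¹ * a * x) ∧ IsConj v (x⁻¹ * b * x)) ↔ (IsConj u a ∧ IsConj v b) := by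
      rw [hc u a, hc v b]
    have : x⁻¹ * a * x * (x⁻¹ * b * x) = x⁻¹ * (a * b) * x := by group
    by_cases h : IsConj u a ∧ IsConj v b
    · rw [if_pos h, if_pos (hiff.mpr h), this]
    · rw [if_neg h, if_neg (fun h' => h (hiff.mp h'))]
  -- rewrite both finsums
  have hL : ∑ᶠ p ∈ {p : G × G | IsConj u p.1 ∧ IsConj v p.2}, Cfsg.indFun H φ (p.1 * p.2)
      = ∑ p : G × G, (if IsConj u p.1 ∧ IsConj v p.2 then Cfsg.indFun H φ (p.1 * p.2) else 0) := by
    rw [finsum_mem_def, finsum_eq_sum_of_fintype]
    apply Finset.sum_congr rfl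
    intro p _
    by_cases hp : IsConj u p.1 ∧ IsConj v p.2
    · rw [Set.indicator_of_mem (by exact hp), if_pos hp]
    · rw [Set.indicator_of_notMem (by exact hp), if_neg hp]
  have hR : ∑ᶠ p ∈ {p : H × H | IsConj u (p.1 : G) ∧ IsConj v (p.2 : G)}, φ (p.1 * p.2)
      = ∑ q : H × H, g q := by
    rw [finsum_mem_def, finsum_eq_sum_of_fintype]
    apply Finset.sum_congr rfl
    intro p _
    by_cases hp : IsConj u (p.1 : G) ∧ IsConj v (p.2 : G)
    · rw [Set.indicator_of_mem (by exact hp)]; simp only [g]; rw [if_pos hp]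
    · rw [Set.indicator_of_notMem (by exact hp)]; simp only [g]; rw [if_neg hp]
  rw [hL, hR, ← hfg]
  have hstep : ∀ p : G × G, (if IsConj u p.1 ∧ IsConj v p.2 then Cfsg.indFun H φ (p.1 * p.2) else 0)
      = (Nat.card H : ℂ)⁻¹ * ∑ x : G,
          (if IsConj u p.1 ∧ IsConj v p.2 then F (x⁻¹ * (p.1 * p.2) * x) else 0) := by
    intro p
    by_cases hp : IsConj u p.1 ∧ IsConj v p.2
    · simp only [if_pos hp]
      rfl
    · simp only [if_neg hp]
      simp
  rw [Finset.sum_congr rfl (fun p _ => hstep p), ← Finset.mul_sum, Finset.sum_comm,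
    Finset.sum_congr rfl (fun x _ => hconj x), Finset.sum_const, Finset.card_univ, nsmul_eq_mul,
    ← mul_assoc]
  congr 1
  have hcard : (Fintype.card G : ℂ) = (H.index : ℂ) * (Nat.card H : ℂ) := by
    rw [← Nat.cast_mul, Subgroup.index_mul_card, Nat.card_eq_fintype_card]
  have hH0 : (Nat.card H : ℂ) ≠ 0 := by exact_mod_cast Nat.card_pos.ne'
  rw [hcard]
  field_simp

end Cfsg.Agent.S0849
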