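import Mathlib
import Cfsg.Statements.S0850
import Cfsg.Agent.H19.IndFun
import Cfsg.Agent.H19.PGroupAct

set_option autoImplicit false
open Cfsg

namespace Cfsg.Agent.S0850

/-- No element of `N(K) ∖ K` is conjugate to an element of `K`. -/
theorem not_conj_mem {G : Type*} [Group G] [Finite G] (K : Subgroup G) (hTI : ∀ g : G, g ∉ Subgroup.normalizer (K : Set G) → ∀ k ∈ K, g * k * g⁻¹ ∈ K → k = 1) (hC : ∀ k ∈ K, k ≠ 1 → Subgroup.centralizer ({k} : Set G) ≤ K) : (∀ x ∈ Subgroup.normalizer (K : Set G), x ∉ K → ∀ g : G, g * x * g⁻¹ ∉ K) := by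
  intro x hxN hxK g hgx
  have hx1 : x ≠ 1 := fun h => hxK (h ▸ K.one_mem)
  -- g is not in the normalizer
  have hgN : g ∉ Subgroup.normalizer (K : Set G) := by
    intro hg
    apply hxK
    have := (Subgroup.mem_normalizer_iff.mp hg x).mpr hgx
    exact this
  -- a prime dividing the order of x
  have hord : orderOf x ≠ 1 := fun h => hx1 (orderOf_eq_one_iff.mp h)
  obtain ⟨p, hp, hpx⟩ := Nat.exists_prime_and_dvd hord
  have : Fact p.Prime := ⟨hp⟩
  have hxpos : 0 < orderOf x := orderOf_pos x
  set y : G := x ^ (orderOf x / p) with hy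
  have hyord : orderOf y = p := orderOf_pow_orderOf_div hxpos.ne' hpx
  have hy1 : y ≠ 1 := by
    intro h
    rw [h, orderOf_one] at hyord
    exact hp.one_lt.ne hyord
  have hyN : y ∈ Subgroup.normalizer (K : Set G) := Subgroup.pow_mem _ hxN _
  have hgy : g * y * g⁻¹ ∈ K := by
    have : g * y * g⁻¹ = (g * x * g⁻¹) ^ (orderOf x / p) := by
      rw [hy, conj_pow]
    rw [this]
    exact K.pow_mem hgx _
  have hgy1 : g * y * g⁻¹ ≠ 1 := by
    intro h
    apply hy1
    have : y = g⁻¹ * (g * y * g⁻¹) * g := by group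
    rw [this, h]; group
  -- p divides |K|
  have hpK : p ∣ Nat.card K := by
    have h1 : orderOf (g * y * g⁻¹) = p := by
      rw [← hyord]
      exact orderOf_injective (MulAut.conj g).toMonoidHom (MulAut.conj g).injective y
    have h2 : orderOf (⟨g * y * g⁻¹, hgy⟩ : K) = p := by
      rw [← h1, ← Subgroup.orderOf_coe]
    rw [← h2]
    exact orderOf_dvd_natCard _
  -- the p-group ⟨y⟩ acts on K by conjugation
  have hA : IsPGroup p (Subgroup.zpowers y) := by
    apply IsPGroup.of_card (n := 1)
    rw [Nat.card_zpowers, hyord, pow_one]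
  have hs : ∀ a ∈ Subgroup.zpowers y, ∀ z ∈ (K : Set G), a * z * a⁻¹ ∈ (K : Set G) := by
    intro a ha z hz
    have haN : a ∈ Subgroup.normalizer (K : Set G) := by
      obtain ⟨i, rfl⟩ := ha
      exact Subgroup.zpow_mem _ hyN _
    exact (Subgroup.mem_normalizer_iff.mp haN z).mp hz
  obtain ⟨z, hzK, hz1, hzfix⟩ := Cfsg.Agent.H19.exists_ne_fixed_of_pgroup_conj p (Subgroup.zpowers y) hA
    (K : Set G) hs hpK 1 K.one_mem (by intro a _; simp)
  -- z commutes with y
  have hzy : y * z * y⁻¹ = z := hzfix y (Subgroup.mem_zpowers y)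
  -- so g z g⁻¹ centralizes g y g⁻¹ ∈ K, hence lies in K
  have hgz : g * z * g⁻¹ ∈ K := by
    apply hC (g * y * g⁻¹) hgy hgy1
    rw [Subgroup.mem_centralizer_iff]
    intro w hw
    rw [Set.mem_singleton_iff] at hw
    rw [hw]
    have : y * z = z * y := by
      calc y * z = (y * z * y⁻¹) * y := by group
        _ = z * y := by rw [hzy]
    calc g * y * g⁻¹ * (g * z * g⁻¹) = g * (y * z) * g⁻¹ := by group
      _ = g * (z * y) * g⁻¹ := by rw [this]
      _ = g * z * g⁻¹ * (g * y * g⁻¹) := by group
  exact hz1 (hTI g hgN z hzK hgz)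

/-- Let K be a subgroup of the finite group G that meets each conjugate by an element outside its normalizer N trivially, is properly contained in N, and contains the centralizer of each of its non-identity elements (a T.I. subgroup with Frobenius normalizer). Then no element of N outside K is conjugate in G to an element of K, and for every class function ϑ of N that vanishes on N away from K and at the identity, the function induced from ϑ to G agrees with ϑ on all of N. -/
theorem result {G : Type*} [Group G] [Fintype G] (K : Subgroup G) (hTI : ∀ g : G, g ∉ Subgroup.normalizer (K : Set G) → ∀ k ∈ K, g * k * g⁻¹ ∈ K → k = 1) (hlt : K < Subgroup.normalizer (K : Set G)) (hC : ∀ k ∈ K, k ≠ 1 → Subgroup.centralizer ({k} : Set G) ≤ K) : (∀ x ∈ Subgroup.normalizer (K : Set G), x ∉ K → ∀ g : G, g * x * g⁻¹ ∉ K) ∧ ∀ (ϑ : Subgroup.normalizer (K : Set G) → ℂ), Cfsg.IsClassFunction (Subgroup.normalizer (K : Set G)) ϑ → (∀ x : Subgroup.normalizer (K : Set G), (x : G) ∉ K → ϑ x = 0) → ϑ 1 = 0 → ∀ x : Subgroup.normalizer (K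 : Set G), Cfsg.indFun (Subgroup.normalizer (K : Set G)) ϑ x = ϑ x := by
  classical
  have h1 := not_conj_mem K hTI hC
  refine ⟨h1, ?_⟩
  generalize hN : Subgroup.normalizer (K : Set G) = N at *
  intro ϑ hcf hvan hone x
  -- value of the extension by zero at conjugates of x
  have key : ∀ t : G, Cfsg.extendByZero N ϑ (t⁻¹ * (x : G) * t) = if t ∈ N then ϑ x else 0 := by
    intro t
    by_cases ht : t ∈ N
    · rw [if_pos ht]
      have hmem : t⁻¹ * (x : G) * t ∈ N := N.mul_mem (N.mul_mem (N.inv_mem ht) x.2) ht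
      rw [Cfsg.Agent.H19.extendByZero_of_mem N ϑ hmem]
      have := hcf x ⟨t⁻¹, N.inv_mem ht⟩
      rw [← this]
      congr 1
      apply Subtype.ext
      simp
    · rw [if_neg ht]
      by_cases hmem : t⁻¹ * (x : G) * t ∈ N
      · rw [Cfsg.Agent.H19.extendByZero_of_mem N ϑ hmem]
        by_cases hxK : (x : G) ∈ K
        · by_cases hx1 : (x : G) = 1
          · have : (⟨t⁻¹ * (x : G) * t, hmem⟩ : N) = 1 := by
              apply Subtype.ext
              simp [hx1]
            rw [this, hone]
          · apply hvan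
            intro hcontra
            apply hx1
            have htinv : t⁻¹ ∉ N := fun h => ht (by simpa using N.inv_mem h)
            apply hTI t⁻¹ htinv (x : G) hxK
            simpa using hcontra
        · apply hvan
          have := h1 (x : G) x.2 hxK t⁻¹
          simpa using this
      · exact Cfsg.Agent.H19.extendByZero_of_not_mem N ϑ hmem
  unfold Cfsg.indFun
  simp_rw [key]
  rw [Finset.sum_ite, Finset.sum_const_zero, add_zero, Finset.sum_const, nsmul_eq_mul]
  have hcard : (Finset.univ.filter (fun t : G => t ∈ N)).card = Nat.card N := by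
    rw [Nat.card_eq_fintype_card, Fintype.card_subtype]
  rw [hcard, ← mul_assoc, inv_mul_cancel₀, one_mul]
  exact_mod_cast Nat.card_pos.ne'

end Cfsg.Agent.S0850
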