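import Cfsg.Statements.S0852
import Cfsg.Agent.H5.Coherent
import Cfsg.Agent.H32.Coherence

set_option autoImplicit false
open Cfsg

namespace Cfsg.Agent.S0852

open Cfsg.Agent.H4 Cfsg.Agent.H5

/-- Let K be a subgroup of the finite group G that meets each conjugate by an element outside its normalizer N trivially, is properly contained in N, and contains the centralizer of each of its non-identity elements (a T.I. subgroup with Frobenius normalizer). Let S be the set of irreducible characters of N taking at some element of K a value different from their degree, suppose S has at least two members, and let star be a linear isometry on the integer span of S into the generalized characters of G that agrees with induction on the members vanishing at the identity (so S is coherent, with star as the extending isometry). Then an irreducible character ψ of G is of the form star χ or -star χ for some χ in S if and only if ψ is not constant on the non-identity elements of K. -/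
theorem result {G : Type*} [Group G] [Fintype G] (K : Subgroup G) (hTI : ∀ g : G, g ∉ Subgroup.normalizer (K : Set G) → ∀ k ∈ K, g * k * g⁻¹ ∈ K → k = 1) (hlt : K < Subgroup.normalizer (K : Set G)) (hC : ∀ k ∈ K, k ≠ 1 → Subgroup.centralizer ({k} : Set G) ≤ K) [Fintype ↥(Subgroup.normalizer (K : Set G))] (S : Set (↥(Subgroup.normalizer (K : Set G)) → ℂ)) (hS : S = {χ : ↥(Subgroup.normalizer (K : Set G)) → ℂ | Cfsg.IsIrrCharacter ↥(Subgroup.normalizer (K : Set G)) χ ∧ ∃ k : ↥(Subgroup.normalizer (K : Set G)), (k : G) ∈ K ∧ χ k ≠ χ 1}) (htwo : ∃ χ ∈ S, ∃ ξ ∈ S, χ ≠ ξ) (star : (↥(Subgroup.normalizer (K : Set G)) → ℂ) → (G → ℂ)) (hstar : Cfsg.IsLinearIsometryOn (Cfsg.zspan S) star) (hext : ∀ α ∈ Cfsg.zspanOn S ({1}ᶜ : Set ↥(Subgroup.normalizer (K : Set G))), star α = Cfsg.indFun (Subgroup.normalizer (K : Set G)) α) (ψ : G → ℂ) (hψ : Cfsg.IsIrrCharacter G ψ) : (∃ χ ∈ S, ψ = star χ ∨ ψ = -star χ) ↔ ∃ a ∈ K, ∃ b ∈ K, a ≠ 1 ∧ b ≠ 1 ∧ ψ a ≠ ψ b := by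
  classical
  have hS' : S = relSet (K.subgroupOf (Subgroup.normalizer (K : Set G))) := hS
  subst hS'
  have hfpf := normalizer_fpf K hC
  haveI : Fintype (K.subgroupOf (Subgroup.normalizer (K : Set G))) := Fintype.ofFinite _
  constructor
  · rintro ⟨χ, hχ, hψχ⟩
    -- another member of `S`
    obtain ⟨ξ, hξ, hne⟩ : ∃ ξ ∈ relSet (K.subgroupOf (Subgroup.normalizer (K : Set G))),
        χ ≠ ξ := by
      obtain ⟨χ₀, hχ₀, ξ₀, hξ₀, hne₀⟩ := htwo
      by_cases h : χ = χ₀
      · exact ⟨ξ₀, hξ₀, h ▸ hne₀⟩
      · exact ⟨χ₀, hχ₀, h⟩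
    obtain ⟨a, b, ha, hb, hab⟩ := relSet_not_const _ hfpf hχ hξ hne
    obtain ⟨d, hd⟩ := star_sub_const K hC star hstar hext χ hχ
    have ha1 : (a : ↥(Subgroup.normalizer (K : Set G))) ≠ 1 := fun h => ha (Subtype.ext h)
    have hb1 : (b : ↥(Subgroup.normalizer (K : Set G))) ≠ 1 := fun h => hb (Subtype.ext h)
    have hda := hd (a : ↥(Subgroup.normalizer (K : Set G))) a.2 ha1
    have hdb := hd (b : ↥(Subgroup.normalizer (K : Set G))) b.2 hb1
    have hstarne : star χ ((a : ↥(Subgroup.normalizer (K : Set G))) : G) ≠
        star χ ((b : ↥(Subgroup.normalizer (K : Set G))) : G) := by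
      intro h
      apply hab
      rw [h] at hda
      have := hda.trans hdb.symm
      exact sub_right_injective this
    refine ⟨((a : ↥(Subgroup.normalizer (K : Set G))) : G), a.2,
      ((b : ↥(Subgroup.normalizer (K : Set G))) : G), b.2, ?_, ?_, ?_⟩
    · intro h
      exact ha1 (Subtype.ext h)
    · intro h
      exact hb1 (Subtype.ext h)
    · rcases hψχ with h | h
      · rw [h]; exact hstarne
      · rw [h]
        simp only [Pi.neg_apply]
        intro h'
        exact hstarne (neg_injective h')
  · rintro ⟨a, ha, b, hb, ha1, hb1, hab⟩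
    by_contra hcon
    push Not at hcon
    have hψcf : IsClassFunction G ψ :=
      isClassFunction_of_isCharacter (isCharacter_of_isIrrCharacter hψ)
    have horth : ∀ χ ∈ relSet (K.subgroupOf (Subgroup.normalizer (K : Set G))),
        classInner (star χ) ψ = 0 := by
      intro χ hχ
      have hχs : χ ∈ zspan (relSet (K.subgroupOf (Subgroup.normalizer (K : Set G)))) :=
        Submodule.subset_span hχ
      have hgen := hstar.2.2.2 χ hχs
      have hnorm : classInner (star χ) (star χ) = 1 := by
        rw [hstar.2.2.1 χ hχs χ hχs]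
        exact irr_inner_self ⟨χ, hχ.1⟩
      obtain ⟨hne1, hne2⟩ := hcon χ hχ
      rcases Cfsg.Agent.H32.signed_of_norm_one hgen hnorm with h | h
      · by_contra h0
        exact hne1 (Cfsg.Agent.Clifford.eq_of_classInner_ne_zero h hψ h0).symm
      · by_contra h0
        apply hne2
        have h0' : classInner (-star χ) ψ ≠ 0 := by
          rw [classInner_neg_left]
          exact neg_ne_zero.mpr h0
        exact (Cfsg.Agent.Clifford.eq_of_classInner_ne_zero h hψ h0').symm
    have hres := orth_res K hC star hstar hext ψ hψcf horth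
    obtain ⟨s, -, hconst⟩ := const_of_orth (K.subgroupOf (Subgroup.normalizer (K : Set G)))
      hfpf (fun n : Subgroup.normalizer (K : Set G) => ψ n)
      (fun g h => hψcf (g : G) (h : G)) hres
    have haN : a ∈ Subgroup.normalizer (K : Set G) := Subgroup.le_normalizer ha
    have hbN : b ∈ Subgroup.normalizer (K : Set G) := Subgroup.le_normalizer hb
    have h1 := hconst ⟨⟨a, haN⟩, ha⟩ (fun h => ha1 (by
      have h' := congrArg (fun x : K.subgroupOf (Subgroup.normalizer (K : Set G)) =>
        ((x : ↥(Subgroup.normalizer (K : Set G))) : G)) h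
      exact h'))
    have h2 := hconst ⟨⟨b, hbN⟩, hb⟩ (fun h => hb1 (by
      have h' := congrArg (fun x : K.subgroupOf (Subgroup.normalizer (K : Set G)) =>
        ((x : ↥(Subgroup.normalizer (K : Set G))) : G)) h
      exact h'))
    exact hab (h1.trans h2.symm)

end Cfsg.Agent.S0852
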