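import Cfsg.Statements.S0853
import Cfsg.Agent.H5.Coherent

set_option autoImplicit false
open Cfsg

namespace Cfsg.Agent.S0853

open Cfsg.Agent.H4 Cfsg.Agent.H5

/-- Let K be a subgroup of the finite group G that meets each conjugate by an element outside its normalizer N trivially, is properly contained in N, and contains the centralizer of each of its non-identity elements (a T.I. subgroup with Frobenius normalizer). Let S be the set of irreducible characters of N taking at some element of K a value different from their degree, suppose S has at least two members, and let star be a linear isometry on the integer span of S into the generalized characters of G that agrees with induction on the members vanishing at the identity (so S is coherent, with star as the extending isometry). Then there is a single integer m such that star χ k - χ k = m * χ 1 / e for every χ in S and every non-identity element k of K, where e is the index of K in N. -/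
theorem result {G : Type*} [Group G] [Fintype G] (K : Subgroup G) (hTI : ∀ g : G, g ∉ Subgroup.normalizer (K : Set G) → ∀ k ∈ K, g * k * g⁻¹ ∈ K → k = 1) (hlt : K < Subgroup.normalizer (K : Set G)) (hC : ∀ k ∈ K, k ≠ 1 → Subgroup.centralizer ({k} : Set G) ≤ K) [Fintype ↥(Subgroup.normalizer (K : Set G))] (S : Set (↥(Subgroup.normalizer (K : Set G)) → ℂ)) (hS : S = {χ : ↥(Subgroup.normalizer (K : Set G)) → ℂ | Cfsg.IsIrrCharacter ↥(Subgroup.normalizer (K : Set G)) χ ∧ ∃ k : ↥(Subgroup.normalizer (K : Set G)), (k : G) ∈ K ∧ χ k ≠ χ 1}) (htwo : ∃ χ ∈ S, ∃ ξ ∈ S, χ ≠ ξ) (star : (↥(Subgroup.normalizer (K : Set G)) → ℂ) → (G → ℂ)) (hstar : Cfsg.IsLinearIsometryOn (Cfsg.zspan S) star) (hext : ∀ α ∈ Cfsg.zspanOn S ({1}ᶜ : Set ↥(Subgroup.normalizer (K : Set G))), star α = Cfsg.indFun (Subgroup.normalizer (K : Set G)) α) : ∃ m : ℤ, ∀ χ ∈ S, ∀ k : ↥(Subgroup.normalizer (K : Set G)), (k : G) ∈ K → k ≠ 1 → star χ k - χ k = (m : ℂ) * χ 1 / ((K.subgroupOf (Subgroup.normalizer (K : Set G))).index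 : ℂ) := by
  classical
  have hS' : S = relSet (K.subgroupOf (Subgroup.normalizer (K : Set G))) := hS
  subst hS'
  have hfpf := normalizer_fpf K hC
  haveI : Fintype (K.subgroupOf (Subgroup.normalizer (K : Set G))) := Fintype.ofFinite _
  obtain ⟨χ₀, hχ₀, -, -, -⟩ := htwo
  -- the integer constants
  have hd := fun χ : {χ // χ ∈ relSet (K.subgroupOf (Subgroup.normalizer (K : Set G)))} =>
    star_sub_const K hC star hstar hext χ.1 χ.2
  choose d hd using hd
  -- a non-identity element of `K`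
  obtain ⟨k₀, hk₀, hk₀ne⟩ := hχ₀.2
  have hk₀1 : k₀ ≠ 1 := by
    rintro rfl
    exact hk₀ne rfl
  have hk₀G : (k₀ : G) ∈ K := hk₀
  have hχ₀1 : χ₀ 1 ≠ 0 := irr_one_ne_zero ⟨χ₀, hχ₀.1⟩
  set c : ℂ := (d ⟨χ₀, hχ₀⟩ : ℂ) / χ₀ 1 with hc
  have hdc : ∀ (χ : ↥(Subgroup.normalizer (K : Set G)) → ℂ)
      (hχ : χ ∈ relSet (K.subgroupOf (Subgroup.normalizer (K : Set G)))),
      (d ⟨χ, hχ⟩ : ℂ) = c * χ 1 := by
    intro χ hχ
    have h := star_sub_ratio K hTI hC star hstar hext χ χ₀ hχ hχ₀ k₀ hk₀G hk₀1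
    rw [hd ⟨χ, hχ⟩ k₀ hk₀G hk₀1, hd ⟨χ₀, hχ₀⟩ k₀ hk₀G hk₀1] at h
    rw [hc]
    field_simp
    linear_combination h
  haveI : Nontrivial (K.subgroupOf (Subgroup.normalizer (K : Set G))) :=
    ⟨⟨⟨k₀, hk₀⟩, 1, fun h => hk₀1 (congrArg Subtype.val h)⟩⟩
  have hidx : ((K.subgroupOf (Subgroup.normalizer (K : Set G))).index : ℂ) ≠ 0 := by
    have : (K.subgroupOf (Subgroup.normalizer (K : Set G))).index ≠ 0 :=
      Subgroup.index_ne_zero_of_finite
    exact_mod_cast this
  obtain ⟨m, hm⟩ := int_of_mul_degree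
    (K := K.subgroupOf (Subgroup.normalizer (K : Set G)))
    (c * ((K.subgroupOf (Subgroup.normalizer (K : Set G))).index : ℂ)) (fun τ hτ => by
      have hmem : indFun (K.subgroupOf (Subgroup.normalizer (K : Set G))) (τ : _ → ℂ) ∈
          relSet (K.subgroupOf (Subgroup.normalizer (K : Set G))) :=
        (mem_relSet_iff _ hfpf _).mpr ⟨τ.1, τ.2, hτ, rfl⟩
      refine ⟨d ⟨_, hmem⟩, ?_⟩
      rw [hdc _ hmem, indFun_one_eq]
      ring)
  refine ⟨m, fun χ hχ k hk hk1 => ?_⟩
  rw [hd ⟨χ, hχ⟩ k hk hk1, hdc χ hχ, ← hm]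
  field_simp

end Cfsg.Agent.S0853
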