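import Cfsg.Statements.S0854
import Cfsg.Agent.Lib.CliffordCorr

set_option autoImplicit false
open Cfsg

namespace Cfsg.Agent.S0854

/-- Let H be a normal subgroup of the finite group G, ϑ an irreducible character of H, and T the inertia group of ϑ (the elements g with ϑ(g n g⁻¹) = ϑ(n) for all n in H). If χ is an irreducible character of G whose restriction to H has nonzero inner product with ϑ, then χ is induced from some irreducible character ψ of T, and the restrictions of ψ and of χ to H have the same inner product with ϑ. -/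
theorem result {G : Type*} [Group G] [Fintype G] (H : Subgroup G) [hN : H.Normal] [Fintype H] (ϑ : H → ℂ) (hϑ : Cfsg.IsIrrCharacter H ϑ) (T : Subgroup G) [Fintype T] (hT : ∀ g : G, g ∈ T ↔ ∀ n : H, ϑ ⟨g * n * g⁻¹, hN.conj_mem (n : G) n.2 g⟩ = ϑ n) (hHT : H ≤ T) (χ : G → ℂ) (hχ : Cfsg.IsIrrCharacter G χ) (hcon : Cfsg.classInner (fun n : H => χ n) ϑ ≠ 0) : ∃ ψ : T → ℂ, Cfsg.IsIrrCharacter T ψ ∧ Cfsg.indFun T ψ = χ ∧ Cfsg.classInner (fun n : H => ψ ⟨(n : G), hHT n.2⟩) ϑ = Cfsg.classInner (fun n : H => χ n) ϑ := by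
  exact Cfsg.Agent.Clifford.clifford_corr_surj hϑ hHT
    (Cfsg.Agent.Clifford.eq_inertia_of_forall H T hT) hχ hcon

end Cfsg.Agent.S0854
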