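import Cfsg.Statements.S0857
import Cfsg.Agent.H32.Isaacs618

set_option autoImplicit false
open Cfsg

namespace Cfsg.Agent.S0857

open Cfsg.Agent.H4 Cfsg.Agent.Clifford Cfsg.Agent.H32
open scoped ComplexConjugate commutatorElement

/-- Let L < K be normal subgroups of the finite group G with no normal subgroup of G strictly between them and with K / L abelian (the commutator subgroup of K lies in L). Let ϑ be an irreducible character of K invariant under conjugation by G. Then the restriction of ϑ to L is irreducible; or it equals e times an irreducible character of L with e ^ 2 equal to the index of L in K; or it is the sum of a family of pairwise distinct irreducible characters of L indexed by a set whose size is the index of L in K. -/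
theorem result {G : Type*} [Group G] [Fintype G] (K L : Subgroup G) [hK : K.Normal] [L.Normal] (hLK : L < K) (hchief : ∀ M : Subgroup G, M.Normal → L ≤ M → M ≤ K → M = L ∨ M = K) (hab : ⁅K, K⁆ ≤ L) (ϑ : K → ℂ) (hϑ : Cfsg.IsIrrCharacter K ϑ) (hinv : ∀ (g : G) (n : K), ϑ ⟨g * n * g⁻¹, hK.conj_mem (n : G) n.2 g⟩ = ϑ n) : Cfsg.IsIrrCharacter L (fun x : L => ϑ ⟨(x : G), hLK.le x.2⟩) ∨ (∃ (φ : L → ℂ) (e : ℕ), Cfsg.IsIrrCharacter L φ ∧ (fun x : L => ϑ ⟨(x : G), hLK.le x.2⟩) = (e : ℂ) • φ ∧ e ^ 2 = L.relIndex K) ∨ (∃ F : Finset (L → ℂ), (∀ φ ∈ F, Cfsg.IsIrrCharacter L φ) ∧ F.card = L.relIndex K ∧ (fun x : L => ϑ ⟨(x : G), hLK.le x.2⟩) = ∑ φ ∈ F, φ) := by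
  classical
  haveI : Fintype K := Fintype.ofFinite K
  haveI : Fintype L := Fintype.ofFinite L
  haveI : Fintype (L.subgroupOf K) := Fintype.ofFinite _
  obtain ⟨ι, hι⟩ : ∃ ι : L.subgroupOf K ≃* L, ∀ n, ((ι n : L) : G) = ((n : K) : G) :=
    ⟨Subgroup.subgroupOfEquivOfLe hLK.le, fun n => rfl⟩
  have hιs : ∀ x : L, (((ι.symm x : L.subgroupOf K) : K) : G) = (x : G) := by
    intro x
    rw [← hι (ι.symm x), MulEquiv.apply_symm_apply]
  have hcommK : commutator K ≤ L.subgroupOf K := by
    rw [commutator_def, Subgroup.commutator_le]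
    intro a _ b _
    rw [Subgroup.mem_subgroupOf]
    have h : ⁅(a : G), (b : G)⁆ ∈ ⁅K, K⁆ := Subgroup.commutator_mem_commutator a.2 b.2
    have h' := hab h
    simpa [commutatorElement_def] using h'
  obtain ⟨S, hS⟩ : ∃ S : Set G, S = {g | ∃ hg : g ∈ K, ϑ ⟨g, hg⟩ ≠ 0} := ⟨_, rfl⟩
  have hSK : S ⊆ K := by
    rw [hS]
    rintro g ⟨hg, -⟩
    exact hg
  have hSconj : Group.conjugatesOfSet S ⊆ S := by
    intro a ha
    rw [Group.mem_conjugatesOfSet_iff] at ha
    obtain ⟨b, hb, hba⟩ := ha
    rw [isConj_iff] at hba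
    obtain ⟨c, rfl⟩ := hba
    rw [hS] at hb ⊢
    obtain ⟨hbK, hb0⟩ := hb
    refine ⟨hK.conj_mem b hbK c, ?_⟩
    have h1 := hinv c ⟨b, hbK⟩
    rw [h1]
    exact hb0
  have hUn : (L ⊔ Subgroup.normalClosure S).Normal := inferInstance
  rcases hchief (L ⊔ Subgroup.normalClosure S) hUn le_sup_left
    (sup_le hLK.le (Subgroup.normalClosure_le_normal hSK)) with hU | hU
  · -- `ϑ` vanishes off `L`
    have hvan : ∀ k : K, k ∉ L.subgroupOf K → ϑ k = 0 := by
      intro k hk
      by_contra h
      apply hk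
      rw [Subgroup.mem_subgroupOf, ← hU]
      refine (le_sup_right : Subgroup.normalClosure S ≤ _) (Subgroup.subset_normalClosure ?_)
      rw [hS]
      exact ⟨k.2, h⟩
    have hnorm : classInner (fun x : L => ϑ ⟨x, hLK.le x.2⟩) (fun x : L => ϑ ⟨x, hLK.le x.2⟩) =
        (L.relIndex K : ℂ) := by
      have h1 := res_norm_of_vanish (L.subgroupOf K) ϑ hvan
      rw [classInner_irr_irr hϑ hϑ, if_pos rfl, mul_one] at h1
      have h2 : (fun n : L.subgroupOf K => ϑ n) =
          fun n => (fun x : L => ϑ ⟨x, hLK.le x.2⟩) (ι n) := by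
        funext n
        exact congrArg ϑ (Subtype.ext (hι n).symm)
      have h4 := classInner_comp_equiv ι (fun x : L => ϑ ⟨x, hLK.le x.2⟩)
        (fun x : L => ϑ ⟨x, hLK.le x.2⟩)
      rw [h2] at h1
      exact h4.symm.trans h1
    obtain ⟨φ, e, T, hφ, he, hTn, hLT, hTK, hTKcase, hTLcase⟩ :=
      clifford_invariant_decomp K L hLK.le hab ϑ hϑ hinv
    rcases hchief T hTn hLT hTK with hT | hT
    · obtain ⟨F, hFirr, hFcard, hFsum⟩ := hTLcase hT
      right
      right
      have hn2 : classInner ((e : ℂ) • ∑ ψ ∈ F, ψ) ((e : ℂ) • ∑ ψ ∈ F, ψ) =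
          ((e ^ 2 * F.card : ℕ) : ℂ) := by
        rw [classInner_smul_left, classInner_smul_right, classInner_sum_left]
        have h1 : ∀ ψ ∈ F, classInner ψ (∑ ψ' ∈ F, ψ') = 1 := by
          intro ψ hψ
          rw [classInner_sum_right, Finset.sum_eq_single ψ]
          · rw [classInner_irr_irr (hFirr ψ hψ) (hFirr ψ hψ), if_pos rfl]
          · intro ψ' hψ' hne
            rw [classInner_irr_irr (hFirr ψ hψ) (hFirr ψ' hψ'), if_neg (Ne.symm hne)]
          · intro h
            exact absurd hψ h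
        rw [Finset.sum_congr rfl h1]
        simp
        ring
      rw [hFsum, hn2] at hnorm
      have h3 : e ^ 2 * F.card = L.relIndex K := by exact_mod_cast hnorm
      rw [hFcard] at h3
      have hpos : 0 < L.relIndex K := Nat.pos_of_ne_zero Subgroup.index_ne_zero_of_finite
      have he2 : e ^ 2 = 1 := Nat.eq_of_mul_eq_mul_right hpos (by rw [h3, one_mul])
      have he1 : e = 1 := by
        rcases (Nat.pow_eq_one.mp he2) with h | h
        · exact h
        · omega
      refine ⟨F, hFirr, hFcard, ?_⟩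
      rw [hFsum, he1]
      simp
    · have h1 := hTKcase hT
      right
      left
      refine ⟨φ, e, hφ, h1, ?_⟩
      rw [h1, classInner_smul_left, classInner_smul_right, classInner_irr_irr hφ hφ,
        if_pos rfl] at hnorm
      have h2 : ((e ^ 2 : ℕ) : ℂ) = (L.relIndex K : ℂ) := by
        rw [← hnorm]
        simp
        ring
      exact_mod_cast h2
  · left
    have hirr := irr_res_of_twists_injective (L.subgroupOf K) hcommK ⟨ϑ, hϑ⟩ (by
      intro l m hl1 hm1 hlL hmL hlm
      have hE : L ⊔ Subgroup.normalClosure S ≤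
          (MonoidHom.eqLocus (Cfsg.Agent.H82.irrLinearHom l hl1)
            (Cfsg.Agent.H82.irrLinearHom m hm1)).map K.subtype := by
        refine sup_le ?_ ?_
        · intro x hx
          refine Subgroup.mem_map.mpr ⟨⟨x, hLK.le hx⟩, ?_, rfl⟩
          show Cfsg.Agent.H82.irrLinearHom l hl1 _ = Cfsg.Agent.H82.irrLinearHom m hm1 _
          apply Units.ext
          rw [Cfsg.Agent.H82.irrLinearHom_apply, Cfsg.Agent.H82.irrLinearHom_apply,
            hlL _ (Subgroup.mem_subgroupOf.mpr hx), hmL _ (Subgroup.mem_subgroupOf.mpr hx)]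
        · show Subgroup.closure (Group.conjugatesOfSet S) ≤ _
          rw [Subgroup.closure_le]
          intro g hg
          have hg' := hSconj hg
          rw [hS] at hg'
          obtain ⟨hgK, hg0⟩ := hg'
          refine Subgroup.mem_map.mpr ⟨⟨g, hgK⟩, ?_, rfl⟩
          show Cfsg.Agent.H82.irrLinearHom l hl1 _ = Cfsg.Agent.H82.irrLinearHom m hm1 _
          apply Units.ext
          rw [Cfsg.Agent.H82.irrLinearHom_apply, Cfsg.Agent.H82.irrLinearHom_apply]
          have h1 := congrFun hlm ⟨g, hgK⟩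
          exact mul_right_cancel₀ hg0 h1
      apply Subtype.ext
      funext k
      have hk : (k : G) ∈ L ⊔ Subgroup.normalClosure S := by
        rw [hU]
        exact k.2
      obtain ⟨k', hk', hkk⟩ := Subgroup.mem_map.mp (hE hk)
      have h1 : k' = k := Subtype.ext hkk
      rw [h1] at hk'
      have h2 : Cfsg.Agent.H82.irrLinearHom l hl1 k = Cfsg.Agent.H82.irrLinearHom m hm1 k := hk'
      have h3 := congrArg (fun u : ℂˣ => (u : ℂ)) h2
      simpa [Cfsg.Agent.H82.irrLinearHom_apply] using h3)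
    have h2 : IsIrrCharacter L (fun a : L => ϑ ((ι.symm a : L.subgroupOf K) : K)) :=
      isIrrCharacter_comp_equiv ι.symm hirr
    have h3 : (fun a : L => ϑ ((ι.symm a : L.subgroupOf K) : K)) =
        fun x : L => ϑ ⟨x, hLK.le x.2⟩ := by
      funext x
      exact congrArg ϑ (Subtype.ext (hιs x))
    rw [h3] at h2
    exact h2

end Cfsg.Agent.S0857
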