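import Cfsg.Statements.S0858
import Cfsg.Agent.H32.SubInd
import Cfsg.Agent.H4.BrauerBasic
import Cfsg.Agent.Lib.CliffordCorr
import Cfsg.Agent.S0857

set_option autoImplicit false
open Cfsg

namespace Cfsg.Agent.S0858

open Cfsg.Agent.H4 Cfsg.Agent.Clifford Cfsg.Agent.H32
open scoped ComplexConjugate commutatorElement

universe u

theorem aux : ∀ (n : ℕ) (G : Type u) [Group G] [Fintype G], Nat.card G = n →
    ∀ (N : Subgroup G) [N.Normal], Group.IsSolvable (G ⧸ N) →
    (∀ (H K L : Subgroup G), N ≤ L → L < K → K ≤ H → (∀ h ∈ H, ∀ k ∈ K, h * k * h⁻¹ ∈ K) →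
      (∀ h ∈ H, ∀ l ∈ L, h * l * h⁻¹ ∈ L) →
      (∀ M : Subgroup G, L ≤ M → M ≤ K → (∀ h ∈ H, ∀ m ∈ M, h * m * h⁻¹ ∈ M) → M = L ∨ M = K) →
      ¬ IsSquare (L.relIndex K)) →
    ∀ (χ : G → ℂ), Cfsg.IsIrrCharacter G χ →
    ∃ (H : Subgroup G) (hNH : N ≤ H) (ψ : H → ℂ), Cfsg.IsIrrCharacter H ψ ∧
      Cfsg.indFun H ψ = χ ∧ Cfsg.IsIrrCharacter N (fun n : N => ψ ⟨(n : G), hNH n.2⟩) := by
  intro n
  induction n using Nat.strong_induction_on with
  | _ n ih =>
  intro G _ _ hn N _ hsolv hchief χ hχ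
  classical
  have hclass : IsClassFunction G χ :=
    isClassFunction_of_isCharacter (isCharacter_of_isIrrCharacter hχ)
  by_cases hirrN : Cfsg.IsIrrCharacter N (fun n : N => χ n)
  · exact ⟨⊤, le_top, fun x => χ x, isIrrCharacter_comp_equiv Subgroup.topEquiv hχ,
      indFun_top χ hclass, hirrN⟩
  -- a minimal normal subgroup `K ≥ N` with `χ|K` irreducible
  have hex' : ∃ c : ℕ, ∃ K : Subgroup G, Nat.card K = c ∧ K.Normal ∧ N ≤ K ∧
      Cfsg.IsIrrCharacter K (fun k : K => χ k) :=
    ⟨_, ⊤, rfl, inferInstance, le_top, isIrrCharacter_comp_equiv Subgroup.topEquiv hχ⟩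
  obtain ⟨K, hKc, hKn, hNK, hKirr⟩ := Nat.find_spec hex'
  have hKmin : ∀ K' : Subgroup G, K'.Normal → N ≤ K' →
      Cfsg.IsIrrCharacter K' (fun k : K' => χ k) → K' ≤ K → K' = K := by
    intro K' h1 h2 h3 hle
    have h4 := Nat.find_min' hex' ⟨K', rfl, h1, h2, h3⟩
    exact Subgroup.eq_of_le_of_card_ge hle (by rw [hKc]; exact h4)
  haveI := hKn
  have hNK' : N < K := by
    refine lt_of_le_of_ne hNK (fun h => hirrN ?_)
    subst h
    exact hKirr
  -- a maximal normal subgroup `L` with `N ≤ L < K`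
  have hex2 : ∃ c : ℕ, ∃ L : Subgroup G, Nat.card G - Nat.card L = c ∧ L.Normal ∧ N ≤ L ∧
      L < K := ⟨_, N, rfl, inferInstance, le_rfl, hNK'⟩
  obtain ⟨L, hLc, hLn, hNL, hLK⟩ := Nat.find_spec hex2
  have hLmax : ∀ M : Subgroup G, M.Normal → L ≤ M → M < K → M = L := by
    intro M h1 h2 h3
    have h4 := Nat.find_min' hex2 ⟨M, rfl, h1, hNL.trans h2, h3⟩
    symm
    refine Subgroup.eq_of_le_of_card_ge h2 ?_
    have h5 := Subgroup.card_le_of_le h2
    have hM : Nat.card M ≤ Nat.card G := Subgroup.card_le_card_group M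
    omega
  haveI := hLn
  have hchiefKL : ∀ M : Subgroup G, M.Normal → L ≤ M → M ≤ K → M = L ∨ M = K := by
    intro M hMn h1 h2
    rcases eq_or_lt_of_le h2 with h | h
    · right
      exact h
    · left
      exact hLmax M hMn h1 h
  -- `K/L` is abelian
  have hab : ⁅K, K⁆ ≤ L := by
    rcases hchiefKL (⁅K, K⁆ ⊔ L) inferInstance le_sup_right
      (sup_le (Subgroup.commutator_le_left K K) hLK.le) with h | h
    · rw [← h]
      exact le_sup_left
    · exfalso
      haveI := hsolv
      haveI : Group.IsSolvable (G ⧸ L) :=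
        Group.isSolvable_of_surjective
          (f := QuotientGroup.map N L (MonoidHom.id G) (fun x hx => hNL hx))
          (fun y => by
            obtain ⟨g, rfl⟩ := QuotientGroup.mk_surjective y
            exact ⟨QuotientGroup.mk g, rfl⟩)
      have hKbar : K.map (QuotientGroup.mk' L) ≠ ⊥ := by
        intro h0
        rw [Subgroup.map_eq_bot_iff, QuotientGroup.ker_mk'] at h0
        exact not_le_of_gt hLK h0
      have hlt := Group.IsSolvable.commutator_lt_of_ne_bot hKbar
      rw [← Subgroup.map_commutator] at hlt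
      have h1 : (⁅K, K⁆ ⊔ L).map (QuotientGroup.mk' L) = (⁅K, K⁆).map (QuotientGroup.mk' L) := by
        rw [Subgroup.map_sup, (Subgroup.map_eq_bot_iff L).mpr (by rw [QuotientGroup.ker_mk']),
          sup_bot_eq]
      rw [h] at h1
      exact hlt.ne h1.symm
  haveI : Fintype L := Fintype.ofFinite L
  haveI : Fintype K := Fintype.ofFinite K
  have hϑinv : ∀ (g : G) (n : K),
      (fun k : K => χ k) ⟨g * n * g⁻¹, hKn.conj_mem (n : G) n.2 g⟩ = (fun k : K => χ k) n :=
    fun g n => hclass (n : G) g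
  rcases Cfsg.Agent.S0857.result K L hLK hchiefKL hab (fun k : K => χ k) hKirr hϑinv with
    h | ⟨φ, e, hφ, he, he2⟩ | ⟨F, hFirr, hFcard, hFsum⟩
  · exact absurd (hKmin L hLn hNL h hLK.le) hLK.ne
  · exfalso
    apply hchief ⊤ K L hNL hLK le_top (fun h _ k hk => hKn.conj_mem k hk h)
      (fun h _ l hl => hLn.conj_mem l hl h)
      (fun M h1 h2 h3 => hchiefKL M ⟨fun m hm g => h3 g (Subgroup.mem_top g) m hm⟩ h1 h2)
    exact ⟨e, by rw [← he2]; ring⟩
  · -- `χ|L` is a sum of `[K:L]` distinct irreducible characters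
    have hcard2 : 1 < F.card := by
      rw [hFcard]
      have h0 : L.relIndex K ≠ 0 := Subgroup.index_ne_zero_of_finite
      have h1 : L.relIndex K ≠ 1 := by
        intro h
        rw [Subgroup.relIndex_eq_one] at h
        exact not_le_of_gt hLK h
      omega
    obtain ⟨φ₁, hφ₁F, φ₂, hφ₂F, hne12⟩ := Finset.one_lt_card.mp hcard2
    have hχL : (fun x : L => χ x) = ∑ φ ∈ F, φ := hFsum
    have hin : ∀ φ ∈ F, classInner (fun x : L => χ x) φ = 1 := by
      intro φ hφ
      rw [hχL, classInner_sum_left, Finset.sum_eq_single φ]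
      · rw [classInner_irr_irr (hFirr φ hφ) (hFirr φ hφ), if_pos rfl]
      · intro φ' hφ' hne
        rw [classInner_irr_irr (hFirr φ' hφ') (hFirr φ hφ), if_neg hne]
      · intro h
        exact absurd hφ h
    have h1 : classInner (fun x : L => χ x) φ₁ ≠ 0 := by
      rw [hin φ₁ hφ₁F]
      exact one_ne_zero
    have h2 : classInner (fun x : L => χ x) φ₂ ≠ 0 := by
      rw [hin φ₂ hφ₂F]
      exact one_ne_zero
    have hLT : L ≤ Clifford.inertia L φ₁ :=
      Clifford.le_inertia L
        (isClassFunction_of_isCharacter (isCharacter_of_isIrrCharacter (hFirr φ₁ hφ₁F)))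
    obtain ⟨T, hT⟩ : ∃ T : Subgroup G, T = Clifford.inertia L φ₁ := ⟨_, rfl⟩
    have hLT' : L ≤ T := by
      rw [hT]
      exact hLT
    have hNT : N ≤ T := hNL.trans hLT'
    have hTtop : T ≠ ⊤ := by
      intro htop
      obtain ⟨g, hg⟩ := clifford_conj L hχ (hFirr φ₁ hφ₁F) (hFirr φ₂ hφ₂F) h1 h2
      have hgT : g ∈ Clifford.inertia L φ₁ := by
        rw [← hT, htop]
        exact Subgroup.mem_top g
      rw [(Clifford.mem_inertia L).mp hgT] at hg
      exact hne12 hg.symm
    haveI : Fintype T := Fintype.ofFinite T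
    obtain ⟨η, hη, hηind, -⟩ := clifford_corr_surj (hFirr φ₁ hφ₁F) hLT' hT hχ h1
    have hcardT : Nat.card T < n := by
      rw [← hn]
      by_contra hge
      push Not at hge
      exact hTtop (Subgroup.eq_top_of_le_card T hge)
    -- transfer of the hypotheses to `T`
    have hsolvT : Group.IsSolvable (↥T ⧸ N.subgroupOf T) := by
      haveI := hsolv
      refine Group.isSolvable_of_isSolvable_injective
        (f := QuotientGroup.map (N.subgroupOf T) N T.subtype (fun x hx => hx)) ?_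
      rw [injective_iff_map_eq_one]
      intro y hy
      obtain ⟨t, rfl⟩ := QuotientGroup.mk_surjective y
      have h3 : ((T.subtype t : G) : G ⧸ N) = 1 := hy
      rw [QuotientGroup.eq_one_iff] at h3 ⊢
      exact h3
    have hchiefT : ∀ (H₁ K₁ L₁ : Subgroup T), N.subgroupOf T ≤ L₁ → L₁ < K₁ → K₁ ≤ H₁ →
        (∀ h ∈ H₁, ∀ k ∈ K₁, h * k * h⁻¹ ∈ K₁) → (∀ h ∈ H₁, ∀ l ∈ L₁, h * l * h⁻¹ ∈ L₁) →
        (∀ M : Subgroup T, L₁ ≤ M → M ≤ K₁ → (∀ h ∈ H₁, ∀ m ∈ M, h * m * h⁻¹ ∈ M) →
          M = L₁ ∨ M = K₁) → ¬ IsSquare (L₁.relIndex K₁) := by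
      intro H₁ K₁ L₁ h1 h2 h3 h4 h5 h6
      rw [← Subgroup.relIndex_map_map_of_injective L₁ K₁ T.subtype_injective]
      apply hchief (H₁.map T.subtype) (K₁.map T.subtype) (L₁.map T.subtype)
      · intro x hx
        exact Subgroup.mem_map.mpr ⟨⟨x, hNT hx⟩, h1 (Subgroup.mem_subgroupOf.mpr hx), rfl⟩
      · exact (Subgroup.map_lt_map_iff_of_injective T.subtype_injective).mpr h2
      · exact Subgroup.map_mono h3
      · rintro _ ⟨h, hh, rfl⟩ _ ⟨k, hk, rfl⟩
        exact ⟨h * k * h⁻¹, h4 h hh k hk, by simp⟩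
      · rintro _ ⟨h, hh, rfl⟩ _ ⟨l, hl, rfl⟩
        exact ⟨h * l * h⁻¹, h5 h hh l hl, by simp⟩
      · intro M hM1 hM2 hM3
        have hMT : M ≤ T := hM2.trans (Subgroup.map_subtype_le K₁)
        have hM₁ := h6 (M.subgroupOf T)
          (fun x hx => Subgroup.mem_subgroupOf.mpr (hM1 (Subgroup.mem_map_of_mem _ hx)))
          (fun x hx => by
            obtain ⟨k, hk, hkx⟩ := Subgroup.mem_map.mp (hM2 (Subgroup.mem_subgroupOf.mp hx))
            have h7 : k = x := Subtype.ext hkx
            rw [← h7]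
            exact hk)
          (fun h hh m hm => by
            rw [Subgroup.mem_subgroupOf] at hm ⊢
            have h7 := hM3 (h : G) (Subgroup.mem_map_of_mem _ hh) (m : G) hm
            simpa using h7)
        rcases hM₁ with h | h
        · left
          rw [← h, Subgroup.map_subgroupOf_eq_of_le hMT]
        · right
          rw [← h, Subgroup.map_subgroupOf_eq_of_le hMT]
    obtain ⟨H', hN'H', ψ', hψ', hind', hresN'⟩ :=
      ih (Nat.card T) hcardT ↥T rfl (N.subgroupOf T) hsolvT hchiefT η hη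
    have hNH : N ≤ H'.map T.subtype := by
      intro x hx
      exact Subgroup.mem_map.mpr ⟨⟨x, hNT hx⟩, hN'H' (Subgroup.mem_subgroupOf.mpr hx), rfl⟩
    refine ⟨H'.map T.subtype, hNH,
      fun x => ψ' ((Subgroup.equivMapOfInjective H' T.subtype T.subtype_injective).symm x),
      isIrrCharacter_comp_equiv
        (Subgroup.equivMapOfInjective H' T.subtype T.subtype_injective).symm hψ', ?_, ?_⟩
    · rw [← hηind, ← hind']
      exact (indFun_map_subtype T H' ψ').symm
    · have hj := isIrrCharacter_comp_equiv (Subgroup.subgroupOfEquivOfLe hNT).symm hresN'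
      have hkey : (fun n : N => ψ' ((Subgroup.equivMapOfInjective H' T.subtype
          T.subtype_injective).symm ⟨(n : G), hNH n.2⟩)) =
          fun n : N => (fun n' : N.subgroupOf T => ψ' ⟨(n' : T), hN'H' n'.2⟩)
            ((Subgroup.subgroupOfEquivOfLe hNT).symm n) := by
        funext n
        refine congrArg ψ' ?_
        rw [MulEquiv.symm_apply_eq]
        apply Subtype.ext
        rw [Subgroup.coe_equivMapOfInjective_apply]
        have h8 : ∀ m : N.subgroupOf T, (((Subgroup.subgroupOfEquivOfLe hNT) m : N) : G) =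
            ((m : T) : G) := fun m => rfl
        have h9 := h8 ((Subgroup.subgroupOfEquivOfLe hNT).symm n)
        rw [MulEquiv.apply_symm_apply] at h9
        exact h9
      rw [hkey]
      exact hj

/-- Let N be a normal subgroup of the finite group G with G / N solvable, and suppose that for every subgroup H containing N and all subgroups L < K between N and H that are normal in H with no subgroup normal in H strictly between them, the index of L in K is not a perfect square. Then every irreducible character χ of G is induced from an irreducible character ψ of some subgroup H containing N such that the restriction of ψ to N is irreducible. -/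
theorem result {G : Type*} [Group G] [Fintype G] (N : Subgroup G) [N.Normal] (hsolv : Group.IsSolvable (G ⧸ N)) (hchief : ∀ (H K L : Subgroup G), N ≤ L → L < K → K ≤ H → (∀ h ∈ H, ∀ k ∈ K, h * k * h⁻¹ ∈ K) → (∀ h ∈ H, ∀ l ∈ L, h * l * h⁻¹ ∈ L) → (∀ M : Subgroup G, L ≤ M → M ≤ K → (∀ h ∈ H, ∀ m ∈ M, h * m * h⁻¹ ∈ M) → M = L ∨ M = K) → ¬ IsSquare (L.relIndex K)) (χ : G → ℂ) (hχ : Cfsg.IsIrrCharacter G χ) : ∃ (H : Subgroup G) (hNH : N ≤ H) (ψ : H → ℂ), Cfsg.IsIrrCharacter H ψ ∧ Cfsg.indFun H ψ = χ ∧ Cfsg.IsIrrCharacter N (fun n : N => ψ ⟨(n : G), hNH n.2⟩) := by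
  exact aux _ G rfl N hsolv hchief χ hχ

end Cfsg.Agent.S0858
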