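import Cfsg.Statements.S0859
import Cfsg.Agent.H32.Monomial

set_option autoImplicit false
open Cfsg

namespace Cfsg.Agent.S0859

/-- Let G be a finite solvable group and N a normal subgroup such that for every prime p every Sylow p-subgroup of N is abelian. Suppose every irreducible character of G is induced from an irreducible character of some subgroup containing N whose restriction to N is irreducible. Then every irreducible character of G is induced from a character of degree 1 of some subgroup. -/
theorem result {G : Type*} [Group G] [Fintype G] [Group.IsSolvable G] (N : Subgroup G) [N.Normal] (hab : ∀ (p : ℕ) [Fact p.Prime] (P : Sylow p N), ∀ a ∈ P, ∀ b ∈ P, a * b = b * a) (hrel : ∀ χ : G → ℂ, Cfsg.IsIrrCharacter G χ → ∃ (H : Subgroup G) (hNH : N ≤ H) (ψ : H → ℂ), Cfsg.IsIrrCharacter H ψ ∧ Cfsg.indFun H ψ = χ ∧ Cfsg.IsIrrCharacter N (fun n : N => ψ ⟨(n : G), hNH n.2⟩)) (χ : G → ℂ) (hχ : Cfsg.IsIrrCharacter G χ) : ∃ (U : Subgroup G) (lam : U → ℂ), Cfsg.IsCharacter U lam ∧ lam 1 = 1 ∧ Cfsg.indFun U lam =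 χ := by
  classical
  obtain ⟨H, hNH, ψ, hψ, hind, hres⟩ := hrel χ hχ
  haveI : Fintype H := Fintype.ofFinite H
  have hresN : Cfsg.IsIrrCharacter (N.subgroupOf H) (fun m : N.subgroupOf H => ψ m) := by
    have h1 := Cfsg.Agent.Clifford.isIrrCharacter_comp_equiv (Subgroup.subgroupOfEquivOfLe hNH) hres
    have h2 : (fun m : N.subgroupOf H => ψ m) = fun a : N.subgroupOf H =>
        (fun n : N => ψ ⟨(n : G), hNH n.2⟩) ((Subgroup.subgroupOfEquivOfLe hNH) a) := by
      funext m
      exact congrArg ψ (Subtype.ext rfl)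
    rw [h2]
    exact h1
  have habH : ∀ (p : ℕ) [Fact p.Prime] (P : Sylow p (N.subgroupOf H)), ∀ a ∈ P, ∀ b ∈ P,
      a * b = b * a := by
    refine Cfsg.Agent.H32.abelian_sylow_of_injective
      (((H.subtype).comp (N.subgroupOf H).subtype).codRestrict N
        (fun x => Subgroup.mem_subgroupOf.mp x.2)) ?_ hab
    intro x y hxy
    have h1 := congrArg (fun z : N => (z : G)) hxy
    exact Subtype.ext (Subtype.ext h1)
  obtain ⟨U', lam', hlam'c, hlam'1, hind'⟩ :=
    Cfsg.Agent.H32.monomial_of_irr_res_aux (Nat.card H) ↥H rfl (N.subgroupOf H) inferInstance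
      habH ψ hψ hresN
  refine ⟨U'.map H.subtype,
    fun x => lam' ((Subgroup.equivMapOfInjective U' H.subtype H.subtype_injective).symm x),
    Cfsg.Agent.Clifford.isCharacter_comp_equiv
      (Subgroup.equivMapOfInjective U' H.subtype H.subtype_injective).symm hlam'c, ?_, ?_⟩
  · show lam' ((Subgroup.equivMapOfInjective U' H.subtype H.subtype_injective).symm 1) = 1
    rw [map_one]
    exact hlam'1
  · rw [← hind, ← hind']
    exact (Cfsg.Agent.H32.indFun_map_subtype H U' lam').symm

end Cfsg.Agent.S0859
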