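import Mathlib
import Cfsg.Statements.S0860
import Cfsg.Agent.H4.IrrCount
import Cfsg.Agent.H4.Integral

set_option autoImplicit false
open scoped ComplexConjugate
open Cfsg

namespace Cfsg.Agent.S0860

/-- A sum over conjugacy classes as a sum over the group, weighted by class sizes. -/
theorem sum_conjClasses {G : Type*} [Group G] [Fintype G] [DecidableEq (ConjClasses G)]
    [Fintype (ConjClasses G)] (Φ : ConjClasses G → ℂ) :
    ∑ C : ConjClasses G, Φ C
      = ∑ g : G, Φ (ConjClasses.mk g)
          / ((Finset.univ.filter (fun x : G => ConjClasses.mk x = ConjClasses.mk g)).card : ℂ) := by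
  rw [← Finset.sum_fiberwise (s := Finset.univ) (g := (ConjClasses.mk : G → ConjClasses G))]
  apply Finset.sum_congr rfl
  intro C _
  obtain ⟨g₀, rfl⟩ := ConjClasses.mk_surjective C
  have h1 : ∀ g ∈ Finset.univ.filter (fun x : G => ConjClasses.mk x = ConjClasses.mk g₀),
      Φ (ConjClasses.mk g)
          / ((Finset.univ.filter (fun x : G => ConjClasses.mk x = ConjClasses.mk g)).card : ℂ)
        = Φ (ConjClasses.mk g₀)
          / ((Finset.univ.filter (fun x : G => ConjClasses.mk x = ConjClasses.mk g₀)).card : ℂ) := by
    intro g hg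
    rw [(Finset.mem_filter.mp hg).2]
  rw [Finset.sum_congr rfl h1, Finset.sum_const, nsmul_eq_mul]
  have hne : ((Finset.univ.filter (fun x : G => ConjClasses.mk x = ConjClasses.mk g₀)).card : ℂ) ≠ 0 := by
    have : g₀ ∈ Finset.univ.filter (fun x : G => ConjClasses.mk x = ConjClasses.mk g₀) := by simp
    exact_mod_cast (Finset.card_pos.mpr ⟨g₀, this⟩).ne'
  field_simp

/-- Brauer's permutation lemma. -/
theorem result {G : Type*} [Group G] [Finite G] {A : Type*} [Group A] [MulAction A (Cfsg.IrrCharacter G)] [MulAction A (ConjClasses G)] (hcompat : ∀ (a : A) (χ : Cfsg.IrrCharacter G) (g g' : G), ConjClasses.mk g' = a • ConjClasses.mk g → ((a • χ : Cfsg.IrrCharacter G) : G → ℂ) g' = (χ : G → ℂ) g) (a : A) : Nat.card {χ : Cfsg.IrrCharacter G // a • χ = χ} = Nat.card {C : ConjClasses G // a • C = C} := by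
  classical
  have := Fintype.ofFinite G
  let _ := Cfsg.Agent.H4.fintypeIrr G
  have : Fintype (ConjClasses G) := Fintype.ofFinite _
  have hn0 : (Nat.card G : ℂ) ≠ 0 := by exact_mod_cast Nat.card_pos.ne'
  have key : (Nat.card {χ : Cfsg.IrrCharacter G // a • χ = χ} : ℂ)
      = (Nat.card {C : ConjClasses G // a • C = C} : ℂ) := by
    rw [Nat.card_eq_fintype_card, Nat.card_eq_fintype_card, Fintype.card_subtype, Fintype.card_subtype,
      Finset.card_filter, Finset.card_filter]
    push_cast
    rw [sum_conjClasses]
    -- the summand for each g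
    have hg : ∀ g : G, (if a • ConjClasses.mk g = ConjClasses.mk g then (1 : ℂ) else 0)
          / ((Finset.univ.filter (fun x : G => ConjClasses.mk x = ConjClasses.mk g)).card : ℂ)
        = (Nat.card G : ℂ)⁻¹ * ∑ χ : Cfsg.IrrCharacter G,
            ((a⁻¹ • χ : Cfsg.IrrCharacter G) : G → ℂ) g * conj ((χ : G → ℂ) g) := by
      intro g
      set g' : G := Quotient.out (a • ConjClasses.mk g) with hg'
      have hmk : ConjClasses.mk g' = a • ConjClasses.mk g := Quotient.out_eq _
      have hχ : ∀ χ : Cfsg.IrrCharacter G,
          ((a⁻¹ • χ : Cfsg.IrrCharacter G) : G → ℂ) g = (χ : G → ℂ) g' := by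
        intro χ
        have := hcompat a (a⁻¹ • χ) g g' hmk
        rw [smul_inv_smul] at this
        exact this.symm
      simp_rw [hχ]
      have hcol := Cfsg.Agent.H4.column_orthogonality (G := G) g' g
      rw [Cfsg.Agent.H4.finsum_irr_eq_sum] at hcol
      rw [hcol]
      by_cases hfix : a • ConjClasses.mk g = ConjClasses.mk g
      · rw [if_pos hfix]
        have hconj : IsConj g' g := by
          rw [← ConjClasses.mk_eq_mk_iff_isConj, hmk, hfix]
        obtain ⟨c₀, hc₀⟩ := isConj_iff.mp hconj
        have h1 : Nat.card {c : G // c * g' * c⁻¹ = g}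
            = Nat.card (Subgroup.centralizer ({g'} : Set G)) := by
          rw [← hc₀]
          exact Cfsg.Agent.H4.card_conj_fiber g' c₀
        have h2 : (Finset.univ.filter (fun x : G => ConjClasses.mk x = ConjClasses.mk g)).card
            = (Subgroup.centralizer ({g'} : Set G)).index := by
          rw [← Cfsg.Agent.H4.card_filter_isConj g']
          congr 1
          ext x
          simp only [Finset.mem_filter, Finset.mem_univ, true_and]
          rw [ConjClasses.mk_eq_mk_iff_isConj]
          exact ⟨fun h => hconj.trans h.symm, fun h => (h.symm.trans hconj)⟩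
        rw [h1, h2]
        have h3 : ((Subgroup.centralizer ({g'} : Set G)).index : ℂ)
            * (Nat.card (Subgroup.centralizer ({g'} : Set G)) : ℂ) = (Nat.card G : ℂ) := by
          rw [← Nat.cast_mul, Subgroup.index_mul_card]
        have h4 : ((Subgroup.centralizer ({g'} : Set G)).index : ℂ) ≠ 0 := by
          intro h0
          rw [h0, zero_mul] at h3
          exact hn0 h3.symm
        rw [← h3]
        field_simp
      · rw [if_neg hfix, zero_div]
        have : IsEmpty {c : G // c * g' * c⁻¹ = g} := by
          constructor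
          rintro ⟨c, hc⟩
          apply hfix
          rw [← hmk, ConjClasses.mk_eq_mk_iff_isConj]
          exact isConj_iff.mpr ⟨c, hc⟩
        have hc0 : Nat.card {c : G // c * g' * c⁻¹ = g} = 0 := Nat.card_of_isEmpty
        rw [hc0]
        simp
    rw [Finset.sum_congr rfl (fun g _ => hg g), ← Finset.mul_sum, Finset.sum_comm, Finset.mul_sum]
    apply Finset.sum_congr rfl
    intro χ _
    have hin := Cfsg.Agent.H4.irr_inner (a⁻¹ • χ) χ
    unfold Cfsg.classInner at hin
    rw [hin]
    have hiff : a⁻¹ • χ = χ ↔ a • χ = χ := by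
      constructor
      · intro h
        have := congrArg (fun z => a • z) h
        simp only [smul_inv_smul] at this
        exact this.symm
      · intro h
        have := congrArg (fun z => a⁻¹ • z) h
        simp only [inv_smul_smul] at this
        exact this.symm
    by_cases h : a • χ = χ
    · rw [if_pos h, if_pos (hiff.mpr h)]
    · rw [if_neg h, if_neg (fun h' => h (hiff.mp h'))]
  exact_mod_cast key

end Cfsg.Agent.S0860
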