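import Cfsg.Statements.S0863
import Cfsg.Agent.Lib.Helper96.ProjLift3
import Cfsg.Agent.H19.ExtLin
import Cfsg.Agent.H19.LinChar

set_option autoImplicit false
open Cfsg

namespace Cfsg.Agent.S0863

open Cfsg.Agent Cfsg.Agent.H4

/-- Let N be a normal subgroup of the finite group G with G / N solvable, and ϑ an irreducible character of N, invariant under conjugation by G, of degree d coprime to the index of N. Then ϑ is the restriction of an irreducible character of G if and only if the determinantal character of ϑ is the restriction of a character of G of degree 1. -/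
theorem result {G : Type*} [Group G] [Finite G] (N : Subgroup G) [hN : N.Normal] (hsolv : Group.IsSolvable (G ⧸ N)) (ϑ : N → ℂ) (hϑ : Cfsg.IsIrrCharacter N ϑ) (hinv : ∀ (g : G) (n : N), ϑ ⟨g * n * g⁻¹, hN.conj_mem (n : G) n.2 g⟩ = ϑ n) (d : ℕ) (hd : ϑ 1 = d) (hcop : Nat.Coprime N.index d) : (∃ χ : G → ℂ, Cfsg.IsIrrCharacter G χ ∧ (∀ n : N, χ n = ϑ n)) ↔ ∃ μ : G → ℂ, Cfsg.IsCharacter G μ ∧ μ 1 = 1 ∧ ∀ n : N, μ n = Cfsg.detChar ϑ n := by
  classical
  haveI := Fintype.ofFinite G
  haveI : Fintype N := Fintype.ofFinite N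
  obtain ⟨d', σ, hσirr, hσχ⟩ := hϑ
  haveI := hσirr
  constructor
  · rintro ⟨χ, hχ, hres⟩
    obtain ⟨m, ρ, -, hρ⟩ := hχ
    let f : G →* ℂ := (LinearMap.det (M := Fin m → ℂ) (A := ℂ)).comp ρ
    refine ⟨fun g => f g, H19.isCharacter_of_monoidHom f, map_one f, fun n => ?_⟩
    let ρN : Representation ℂ N (Fin m → ℂ) := ρ.comp N.subtype
    have h1 : ρN.character = ϑ := by
      funext k
      have : ρN.character k = ρ.character (k : G) := rfl
      rw [this, hρ, hres]
    rw [← h1, Lib.Helper96.detChar_eq ρN n]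
    rfl
  · rintro ⟨μ, hμ, hμ1, hμres⟩
    have hinv' : ∀ (g : G) (n : N), σ.character (Lib.Helper96.cjG N g n) = σ.character n := by
      intro g n
      rw [hσχ]
      exact hinv g n
    have hfr : Module.finrank ℂ (Fin d' → ℂ) = d := by
      have h1 := Representation.char_one σ
      rw [hσχ, hd] at h1
      exact_mod_cast h1.symm
    let μ0 : G →* ℂ := H19.linCharHom μ hμ hμ1
    let μ' : G →* ℂˣ := μ0.toHomUnits
    have hμ' : ∀ g : G, ((μ' g : ℂˣ) : ℂ) = μ g := fun g => rfl
    have hdet : ∀ n : N, ((μ' (n : G) : ℂˣ) : ℂ) = LinearMap.det (σ n) := by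
      intro n
      rw [hμ', hμres, ← hσχ, Lib.Helper96.detChar_eq σ n]
    obtain ⟨τ, hτ⟩ := Lib.Helper96.ext_of_det_ext N σ hinv' (by rw [hfr]; exact hcop) μ' hdet
    have hτirr : τ.IsIrreducible := Lib.Helper96.irreducible_of_ext N σ τ hτ
    refine ⟨τ.character, isIrrCharacter_of_irreducible τ hτirr, fun n => ?_⟩
    rw [← hσχ]
    show LinearMap.trace ℂ _ (τ n) = LinearMap.trace ℂ _ (σ n)
    rw [hτ n]

end Cfsg.Agent.S0863
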