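import Cfsg.Statements.S0868
import Cfsg.Agent.Lib.Gallagher
import Cfsg.Agent.H82.CosetAvg
import Cfsg.Agent.H83.Basic

set_option autoImplicit false
open Cfsg

namespace Cfsg.Agent.S0868

open Cfsg.Agent.H4 Cfsg.Agent.Clifford
open scoped ComplexConjugate

/-- The coset average of a class function over a normal subgroup is a class function. -/
theorem avg_isClassFunction {G : Type*} [Group G] (N : Subgroup G) [N.Normal] [Fintype N]
    {f : G → ℂ} (hf : IsClassFunction G f) :
    IsClassFunction G (fun g => (Nat.card N : ℂ)⁻¹ * ∑ n : N, f ((n : G) * g)) := by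
  intro g h
  change (Nat.card N : ℂ)⁻¹ * ∑ n : N, f ((n : G) * (h * g * h⁻¹)) =
    (Nat.card N : ℂ)⁻¹ * ∑ n : N, f ((n : G) * g)
  congr 1
  rw [← Equiv.sum_comp (MulAut.conjNormal h⁻¹ : MulAut N).toEquiv (fun n : N => f ((n : G) * g))]
  refine Finset.sum_congr rfl fun n _ => ?_
  have h1 : (n : G) * (h * g * h⁻¹) =
      h * ((((MulAut.conjNormal h⁻¹ : MulAut N) n : N) : G) * g) * h⁻¹ := by
    rw [MulAut.conjNormal_apply]
    group
  change f ((n : G) * (h * g * h⁻¹)) = f ((((MulAut.conjNormal h⁻¹ : MulAut N) n : N) : G) * g)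
  rw [h1, hf]

open Classical in
/-- The inner product of a coset average with an irreducible character. -/
theorem classInner_avg {G : Type*} [Group G] [Fintype G] (N : Subgroup G) [N.Normal] [Fintype N]
    (f : G → ℂ) (φ : IrrCharacter G) :
    classInner (fun g => (Nat.card N : ℂ)⁻¹ * ∑ n : N, f ((n : G) * g)) φ.1 =
      if (∀ x ∈ N, φ.1 x = φ.1 1) then classInner f φ.1 else 0 := by
  classical
  have hN0 : (Nat.card N : ℂ) ≠ 0 := by
    have : 0 < Nat.card N := Nat.card_pos
    exact_mod_cast this.ne'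
  have hswap := Cfsg.Agent.H82.sum_coset_swap N f (fun g => conj (φ.1 g))
  have e1 : classInner (fun g => (Nat.card N : ℂ)⁻¹ * ∑ n : N, f ((n : G) * g)) φ.1 =
      (Nat.card G : ℂ)⁻¹ * ((Nat.card N : ℂ)⁻¹ *
        ∑ g : G, f g * ∑ x : N, conj (φ.1 ((x : G) * g))) := by
    unfold classInner
    congr 1
    rw [← hswap, Finset.mul_sum]
    refine Finset.sum_congr rfl fun g _ => ?_
    ring
  rw [e1]
  split_ifs with hker
  · have h2 : ∀ g : G, ∑ x : N, conj (φ.1 ((x : G) * g)) = (Nat.card N : ℂ) * conj (φ.1 g) := by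
      intro g
      have h3 : ∀ x : N, conj (φ.1 ((x : G) * g)) = conj (φ.1 g) := by
        intro x
        rw [(Cfsg.Agent.H82.irr_mul_of_mem_irrKer φ (x := (x : G)) (hker x x.2) g).1]
      simp only [h3, Finset.sum_const, Finset.card_univ, nsmul_eq_mul, Nat.card_eq_fintype_card]
    simp only [h2]
    unfold classInner
    congr 1
    rw [Finset.mul_sum]
    refine Finset.sum_congr rfl fun g _ => ?_
    field_simp
  · push Not at hker
    have h2 : ∀ g : G, ∑ x : N, conj (φ.1 ((x : G) * g)) = 0 := by
      intro g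
      rw [← map_sum]
      have h3 := Cfsg.Agent.H82.irr_sum_normal_mul_eq_zero φ N hker g
      rw [Finset.sum_subtype (Finset.univ.filter (· ∈ N)) (p := (· ∈ N)) (fun x => by simp)
        (fun n => φ.1 (n * g))] at h3
      rw [h3, map_zero]
    simp [h2]

/-- An irreducible character has `N` in its kernel iff it is a constituent of `(1_N)^G`. -/
theorem ker_iff {G : Type*} [Group G] [Fintype G] (N : Subgroup G) [N.Normal] [Fintype N]
    (β : IrrCharacter G) :
    (∀ x ∈ N, β.1 x = β.1 1) ↔ classInner (indFun N (fun _ : N => (1 : ℂ))) β.1 ≠ 0 := by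
  classical
  constructor
  · intro hker
    rw [frobenius_reciprocity N _ _ (irr_isClassFunction β)]
    unfold classInner
    have hN0 : (Nat.card N : ℂ) ≠ 0 := by
      have : 0 < Nat.card N := Nat.card_pos
      exact_mod_cast this.ne'
    have h3 : ∀ x : N, (1 : ℂ) * conj (β.1 (x : G)) = conj (β.1 1) := by
      intro x
      rw [hker x x.2, one_mul]
    simp only [h3, Finset.sum_const, Finset.card_univ, nsmul_eq_mul, Nat.card_eq_fintype_card]
    rw [← Nat.card_eq_fintype_card, ← mul_assoc, inv_mul_cancel₀ hN0, one_mul]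
    intro h0
    exact Cfsg.Agent.H82.irr_one_ne_zero β ((map_eq_zero _).mp h0)
  · intro hne x hx
    by_contra hcon
    apply hne
    apply Cfsg.Agent.H82.classInner_permChar_eq_zero N β
    intro hle
    rw [Subgroup.normalCore_eq_self] at hle
    exact hcon (hle hx)

/-- Let N be a normal subgroup of the finite group G, χ an irreducible character of G whose restriction ϑ to N is irreducible, and ψ an irreducible character of G. Define η on G by η g = (1 / order of N) * Σ over n in N of ψ (n * g) * conj (χ (n * g)). Then: if the restriction of ψ to N has nonzero inner product with ϑ, η is an irreducible character of G; if that inner product is zero, η vanishes identically; and if ψ = χ then η is identically 1. -/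
theorem result {G : Type*} [Group G] [Fintype G] (N : Subgroup G) [N.Normal] [Fintype N] (χ : G → ℂ) (hχ : Cfsg.IsIrrCharacter G χ) (hχN : Cfsg.IsIrrCharacter N (fun n : N => χ n)) (ψ : G → ℂ) (hψ : Cfsg.IsIrrCharacter G ψ) (η : G → ℂ) (hη : η = fun g => (Nat.card N : ℂ)⁻¹ * ∑ n : N, ψ ((n : G) * g) * conj (χ ((n : G) * g))) : (Cfsg.classInner (fun n : N => ψ n) (fun n : N => χ n) ≠ 0 → Cfsg.IsIrrCharacter G η) ∧ (Cfsg.classInner (fun n : N => ψ n) (fun n : N => χ n) = 0 → η = 0) ∧ (ψ = χ → η = fun _ => 1) := by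
  classical
  have hχc : IsCharacter G χ := isCharacter_of_isIrrCharacter hχ
  have hχcf : IsClassFunction G χ := isClassFunction_of_isCharacter hχc
  have hψcf : IsClassFunction G ψ := isClassFunction_of_isCharacter (isCharacter_of_isIrrCharacter hψ)
  have h1N : IsIrrCharacter N (fun _ : N => (1 : ℂ)) := Cfsg.Agent.H83.isIrrCharacter_one N
  have hmulone : ((fun _ : N => (1 : ℂ)) * fun n : N => χ n) = fun n : N => χ n := by
    funext n; simp
  have hprod : IsIrrCharacter N ((fun _ : N => (1 : ℂ)) * fun n : N => χ n) := by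
    rw [hmulone]; exact hχN
  obtain ⟨g1, g2, g3⟩ := gallagher N h1N hχN (fun g => rfl) (fun g => conjChar_res N hχcf g)
    hprod hχc (fun n => rfl)
  -- `η` as a coset average
  set f : G → ℂ := fun g => ψ g * conj (χ g) with hf
  have hfcf : IsClassFunction G f := by
    intro g h
    simp only [hf, hψcf g h, hχcf g h]
  have hη' : η = fun g => (Nat.card N : ℂ)⁻¹ * ∑ n : N, f ((n : G) * g) := hη
  have hηcf : IsClassFunction G η := by
    rw [hη']; exact avg_isClassFunction N hfcf
  have hfin : ∀ φ : G → ℂ, classInner f φ = classInner ψ (φ * χ) := by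
    intro φ
    unfold classInner
    congr 1
    refine Finset.sum_congr rfl fun g _ => ?_
    simp only [hf, Pi.mul_apply, map_mul]
    ring
  have hin : ∀ φ : IrrCharacter G, classInner η φ.1 =
      if (∀ x ∈ N, φ.1 x = φ.1 1) then classInner ψ (φ.1 * χ) else 0 := by
    intro φ
    rw [hη', classInner_avg N f φ, hfin]
  -- key: if `ψ = β χ` with `β` over the trivial character then `η = β`
  have key : ∀ β : G → ℂ, IsIrrCharacter G β →
      classInner (indFun N (fun _ : N => (1 : ℂ))) β ≠ 0 → β * χ = ψ → η = β := by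
    intro β hβ hβ0 hβχ
    have hβker : ∀ x ∈ N, β x = β 1 := (ker_iff N ⟨β, hβ⟩).mpr hβ0
    have hzero : η - β = 0 := by
      apply eq_zero_of_inner_irr_eq_zero
        (isClassFunction_sub hηcf (isClassFunction_of_isCharacter (isCharacter_of_isIrrCharacter hβ)))
      intro φ
      rw [classInner_sub_left, hin φ]
      split_ifs with hker
      · have hφ0 := (ker_iff N φ).mp hker
        have hφχ := (g1 φ.1 φ.2 hφ0).1
        have hβχirr := (g1 β hβ hβ0).1
        rw [← hβχ, classInner_irr_irr hβχirr hφχ, classInner_irr_irr hβ φ.2]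
        by_cases hEq : β = φ.1
        · subst hEq; simp
        · have : β * χ ≠ φ.1 * χ := fun h => hEq (g2 β φ.1 hβ hβ0 φ.2 hφ0 h)
          simp [hEq, this]
      · rw [classInner_irr_irr hβ φ.2]
        have : β ≠ φ.1 := by
          intro h
          apply hker
          rw [← h]; exact hβker
        simp [this]
    exact sub_eq_zero.mp hzero
  -- existence of `β` when `ψ` lies over `ϑ`
  have exβ : classInner (fun n : N => ψ n) (fun n : N => χ n) ≠ 0 →
      ∃ β : G → ℂ, IsIrrCharacter G β ∧
        classInner (indFun N (fun _ : N => (1 : ℂ))) β ≠ 0 ∧ β * χ = ψ := by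
    intro hne
    apply g3 ψ hψ
    rw [frobenius_reciprocity N _ _ hψcf, hmulone, ← classInner_conj_symm]
    intro h0
    exact hne ((map_eq_zero _).mp h0)
  refine ⟨?_, ?_, ?_⟩
  · intro hne
    obtain ⟨β, hβ, hβ0, hβχ⟩ := exβ hne
    rw [key β hβ hβ0 hβχ]
    exact hβ
  · intro h0
    apply eq_zero_of_inner_irr_eq_zero hηcf
    intro φ
    rw [hin φ]
    split_ifs with hker
    · have hφ0 := (ker_iff N φ).mp hker
      have hφχ := (g1 φ.1 φ.2 hφ0).1
      by_contra hne
      have hEq : ψ = φ.1 * χ := eq_of_classInner_ne_zero hψ hφχ hne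
      apply Cfsg.Agent.H82.irr_one_ne_zero φ
      have hres : (fun n : N => ψ n) = (φ.1 1) • (fun n : N => χ n) := by
        funext n
        rw [hEq]
        simp only [Pi.mul_apply, Pi.smul_apply, smul_eq_mul]
        rw [hker n n.2]
      rw [hres, classInner_smul_left, irr_inner_self ⟨_, hχN⟩, mul_one] at h0
      exact h0
    · rfl
  · intro hEq
    have hne : classInner (fun n : N => ψ n) (fun n : N => χ n) ≠ 0 := by
      rw [hEq, irr_inner_self ⟨_, hχN⟩]
      exact one_ne_zero
    obtain ⟨β, hβ, hβ0, hβχ⟩ := exβ hne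
    rw [key β hβ hβ0 hβχ]
    have h1G : IsIrrCharacter G (fun _ : G => (1 : ℂ)) := Cfsg.Agent.H83.isIrrCharacter_one G
    have h10 : classInner (indFun N (fun _ : N => (1 : ℂ))) (fun _ : G => (1 : ℂ)) ≠ 0 :=
      (ker_iff N ⟨_, h1G⟩).mp (fun x _ => rfl)
    apply g2 β (fun _ : G => (1 : ℂ)) hβ hβ0 h1G h10
    rw [hβχ, hEq]
    funext g
    simp
end Cfsg.Agent.S0868
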