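import Mathlib
import Cfsg.Statements.S0878
import Cfsg.Agent.H19.Zassenhaus

set_option autoImplicit false
open Cfsg

namespace Cfsg.Agent.S0878

/-- Let G be a Zassenhaus group on the finite set Ω, a a point, and let H be the subgroup of the stabilizer of a consisting of the identity and the elements fixing no point other than a (given here as a subgroup of the stabilizer of order one less than the number of points whose non-identity elements fix only a; it is the Frobenius kernel of the stabilizer). Then an element outside the stabilizer of a conjugates no non-identity element of H into H, and the normalizer of H is exactly the stabilizer of a. -/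
theorem result {G Ω : Type*} [Group G] [Finite G] [MulAction G Ω] [Fintype Ω] (hZ : Cfsg.IsZassenhausGroup G Ω) (a : Ω) (H : Subgroup G) (hHa : H ≤ MulAction.stabilizer G a) (hHcard : Nat.card H + 1 = Fintype.card Ω) (hHfix : ∀ u ∈ H, u ≠ 1 → ∀ c : Ω, u • c = c → c = a) : (∀ g : G, g ∉ MulAction.stabilizer G a → ∀ u ∈ H, g * u * g⁻¹ ∈ H → u = 1) ∧ Subgroup.normalizer (H : Set G) = MulAction.stabilizer G a := by
  have part1 : ∀ g : G, g ∉ MulAction.stabilizer G a → ∀ u ∈ H, g * u * g⁻¹ ∈ H → u = 1 := by
    intro g hg u hu hgu
    by_contra hu1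
    apply hg
    rw [MulAction.mem_stabilizer_iff]
    apply hHfix (g * u * g⁻¹) hgu
    · intro h
      apply hu1
      have : u = g⁻¹ * (g * u * g⁻¹) * g := by group
      rw [this, h]; group
    · rw [mul_smul, mul_smul, inv_smul_smul, (hHa hu : u • a = a)]
  refine ⟨part1, ?_⟩
  ext g
  constructor
  · intro hg
    by_contra hga
    -- H is nontrivial
    have h3 := Cfsg.Agent.H19.zass_three_le_card hZ
    have hH2 : 1 < Nat.card H := by omega
    have hnt : Nontrivial H := Finite.one_lt_card_iff_nontrivial.mp hH2
    obtain ⟨u, hu⟩ := exists_ne (1 : H)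
    have hu1 : (u : G) ≠ 1 := fun h => hu (Subtype.ext h)
    have hgu : g * (u : G) * g⁻¹ ∈ H := (Subgroup.mem_normalizer_iff.mp hg u).mp u.2
    exact hu1 (part1 g hga u u.2 hgu)
  · intro hg
    rw [MulAction.mem_stabilizer_iff] at hg
    rw [Subgroup.mem_normalizer_iff]
    intro h
    constructor
    · intro hh
      exact Cfsg.Agent.H19.zass_conj_mem_kernel hZ a H hHa hHcard hHfix g hg h hh
    · intro hh
      have hginv : g⁻¹ • a = a := by
        conv_lhs => rw [← hg]
        rw [inv_smul_smul]
      have := Cfsg.Agent.H19.zass_conj_mem_kernel hZ a H hHa hHcard hHfix g⁻¹ hginv _ hh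
      have e : g⁻¹ * (g * h * g⁻¹) * g⁻¹⁻¹ = h := by group
      rwa [e] at this

end Cfsg.Agent.S0878
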