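import Mathlib
import Cfsg.Statements.S0879
import Cfsg.Agent.H19.Zassenhaus

set_option autoImplicit false
open Cfsg

namespace Cfsg.Agent.S0879

/-- Let G be a Zassenhaus group on the finite set Ω and E the stabilizer of two distinct points a, b. Then an element outside the normalizer of E conjugates no non-identity element of E into E, and E has index 2 in its normalizer. -/
theorem result {G Ω : Type*} [Group G] [Finite G] [MulAction G Ω] [Fintype Ω] (hZ : Cfsg.IsZassenhausGroup G Ω) {a b : Ω} (hab : a ≠ b) : (∀ g : G, g ∉ Subgroup.normalizer ((MulAction.stabilizer G a ⊓ MulAction.stabilizer G b : Subgroup G) : Set G) → ∀ x ∈ (MulAction.stabilizer G a ⊓ MulAction.stabilizer G b : Subgroup G), g * x * g⁻¹ ∈ (MulAction.stabilizer G a ⊓ MulAction.stabilizer G b : Subgroup G) → x = 1) ∧ ((MulAction.stabilizer G a ⊓ MulAction.stabilizer G b : Subgroup G).subgroupOf (Subgroup.normalizer ((MulAction.stabilizer G a ⊓ MulAction.stabilizer G b : Subgroup G) : Set G))).index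 = 2 := by
  obtain ⟨hfaith, h2t, h3, ⟨g0, hg0, a0, b0, hab0, hga0, hgb0⟩, -⟩ := hZ
  rw [MulAction.is_two_pretransitive_iff] at h2t
  generalize hE : (MulAction.stabilizer G a ⊓ MulAction.stabilizer G b : Subgroup G) = E
  have hEmem : ∀ x : G, x ∈ E ↔ x • a = a ∧ x • b = b := by
    intro x
    rw [← hE, Subgroup.mem_inf, MulAction.mem_stabilizer_iff, MulAction.mem_stabilizer_iff]
  -- L1
  have L1 : ∀ g x : G, x ∈ E → x ≠ 1 → g * x * g⁻¹ ∈ E →
      (g • a = a ∧ g • b = b) ∨ (g • a = b ∧ g • b = a) := by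
    intro g x hx hx1 hgx
    have hy1 : g * x * g⁻¹ ≠ 1 := by
      intro h
      apply hx1
      have : x = g⁻¹ * (g * x * g⁻¹) * g := by group
      rw [this, h]; group
    obtain ⟨hxa, hxb⟩ := (hEmem x).mp hx
    obtain ⟨hya, hyb⟩ := (hEmem _).mp hgx
    have hyga : (g * x * g⁻¹) • (g • a) = g • a := by
      rw [mul_smul, mul_smul, inv_smul_smul, hxa]
    have hygb : (g * x * g⁻¹) • (g • b) = g • b := by
      rw [mul_smul, mul_smul, inv_smul_smul, hxb]
    have hgab : g • a ≠ g • b := fun h => hab (smul_left_cancel g h)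
    have ha' : g • a = a ∨ g • a = b := by
      by_contra hcon
      push Not at hcon
      exact hy1 (h3 _ a b (g • a) hab (Ne.symm hcon.2) (Ne.symm hcon.1) hya hyb hyga)
    have hb' : g • b = a ∨ g • b = b := by
      by_contra hcon
      push Not at hcon
      exact hy1 (h3 _ a b (g • b) hab (Ne.symm hcon.2) (Ne.symm hcon.1) hya hyb hygb)
    rcases ha' with ha' | ha'
    · rcases hb' with hb' | hb'
      · exact absurd (ha'.trans hb'.symm) hgab
      · exact Or.inl ⟨ha', hb'⟩
    · rcases hb' with hb' | hb'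
      · exact Or.inr ⟨ha', hb'⟩
      · exact absurd (ha'.trans hb'.symm) hgab
  -- L2
  have L2 : ∀ g : G, ((g • a = a ∧ g • b = b) ∨ (g • a = b ∧ g • b = a)) →
      g ∈ Subgroup.normalizer (E : Set G) := by
    intro g hg
    rw [Subgroup.mem_normalizer_iff]
    intro h
    have key : ∀ c : Ω, (g * h * g⁻¹) • (g • c) = g • c ↔ h • c = c := by
      intro c
      rw [mul_smul, mul_smul, inv_smul_smul]
      exact ⟨fun hh => smul_left_cancel g hh, fun hh => by rw [hh]⟩
    rw [hEmem, hEmem]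
    rcases hg with ⟨hga, hgb⟩ | ⟨hga, hgb⟩
    · rw [← key a, ← key b, hga, hgb]
    · rw [← key a, ← key b, hga, hgb, and_comm]
  -- L3
  have L3 : ∃ x ∈ E, x ≠ 1 := by
    obtain ⟨t, hta, htb⟩ := h2t hab0 hab
    refine ⟨t * g0 * t⁻¹, ?_, ?_⟩
    · rw [hEmem]
      constructor
      · rw [← hta, mul_smul, mul_smul, inv_smul_smul, hga0]
      · rw [← htb, mul_smul, mul_smul, inv_smul_smul, hgb0]
    · intro h
      apply hg0
      have : g0 = t⁻¹ * (t * g0 * t⁻¹) * t := by group
      rw [this, h]; group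
  obtain ⟨x0, hx0E, hx01⟩ := L3
  have L4 : ∀ g : G, g ∈ Subgroup.normalizer (E : Set G) →
      (g • a = a ∧ g • b = b) ∨ (g • a = b ∧ g • b = a) := by
    intro g hg
    exact L1 g x0 hx0E hx01 ((Subgroup.mem_normalizer_iff.mp hg x0).mp hx0E)
  obtain ⟨s, hsa, hsb⟩ := h2t hab (Ne.symm hab)
  constructor
  · intro g hg x hx hgx
    by_contra hx1
    exact hg (L2 g (L1 g x hx hx1 hgx))
  · rw [Subgroup.index_eq_two_iff']
    refine ⟨⟨s, L2 s (Or.inr ⟨hsa, hsb⟩)⟩, ?_⟩
    rintro ⟨g, hg⟩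
    rw [Subgroup.mem_subgroupOf, Subgroup.mem_subgroupOf]
    change Xor (s * g ∈ E) (g ∈ E)
    rw [hEmem, hEmem]
    rcases L4 g hg with ⟨hga, hgb⟩ | ⟨hga, hgb⟩
    · right
      refine ⟨⟨hga, hgb⟩, ?_⟩
      rintro ⟨h1, -⟩
      rw [mul_smul, hga, hsa] at h1
      exact hab h1.symm
    · left
      refine ⟨?_, ?_⟩
      · rw [mul_smul, mul_smul, hga, hgb, hsa, hsb]
        exact ⟨rfl, rfl⟩
      · rintro ⟨h1, -⟩
        rw [hga] at h1
        exact hab h1.symm

end Cfsg.Agent.S0879
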