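import Mathlib
import Cfsg.Statements.S0880
import Cfsg.Agent.H19.TwoTrans
import Cfsg.Agent.H19.Zassenhaus
import Cfsg.Agent.H4.Integral

set_option autoImplicit false
set_option linter.style.haveILetI false
open Cfsg

namespace Cfsg.Agent.S0880

/-- Let G be a finite simple Zassenhaus group on Ω with n points whose two-point stabilizer E has odd order less than n - 2. Then there are two elements of G, each fixing no point of Ω, that are not conjugate. -/
theorem result {G Ω : Type*} [Group G] [Finite G] [MulAction G Ω] [Fintype Ω] (hZ : Cfsg.IsZassenhausGroup G Ω) {a b : Ω} (hab : a ≠ b) [IsSimpleGroup G] (hodd : Odd (Nat.card ↥(MulAction.stabilizer G a ⊓ MulAction.stabilizer G b : Subgroup G))) (hlt : Nat.card ↥(MulAction.stabilizer G a ⊓ MulAction.stabilizer G b : Subgroup G) < Fintype.card Ω - 2) : ∃ x y : G, (∀ c : Ω, x • c ≠ c) ∧ (∀ c : Ω, y • c ≠ c) ∧ ¬ IsConj x y := by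
  classical
  haveI : Fintype G := Fintype.ofFinite G
  have hn3 := Cfsg.Agent.H19.zass_three_le_card hZ
  obtain ⟨hfaith, h2, h3, ⟨g0, hg0, a0, b0, hab0, hga0, hgb0⟩, -⟩ := hZ
  have h2t : ∀ {a b c d : Ω}, a ≠ b → c ≠ d → ∃ g : G, g • a = c ∧ g • b = d :=
    (MulAction.is_two_pretransitive_iff (G := G) (α := Ω)).mp h2
  haveI : Nonempty Ω := ⟨a⟩
  haveI : MulAction.IsPretransitive G Ω := by
    constructor
    intro c d
    by_cases hcd : c = d
    · exact ⟨1, by rw [one_smul, hcd]⟩
    · obtain ⟨g, hg, -⟩ := h2t hcd (fun h => hcd h.symm)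
      exact ⟨g, hg⟩
  set n := Fintype.card Ω with hn
  set e := Nat.card ↥(MulAction.stabilizer G a ⊓ MulAction.stabilizer G b : Subgroup G) with he
  -- e ≥ 3
  have he3 : 3 ≤ e := by
    have hne1 : e ≠ 1 := by
      intro h1
      obtain ⟨g, hg1, hg2⟩ := h2t hab0 hab
      have hmem : g * g0 * g⁻¹ ∈ (MulAction.stabilizer G a ⊓ MulAction.stabilizer G b : Subgroup G) := by
        rw [Subgroup.mem_inf, MulAction.mem_stabilizer_iff, MulAction.mem_stabilizer_iff]
        constructor
        · rw [mul_smul, mul_smul, ← hg1, inv_smul_smul, hga0]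
        · rw [mul_smul, mul_smul, ← hg2, inv_smul_smul, hgb0]
      have hbot := (Subgroup.card_eq_one).mp (he ▸ h1)
      rw [hbot, Subgroup.mem_bot] at hmem
      apply hg0
      have : g0 = g⁻¹ * (g * g0 * g⁻¹) * g := by group
      rw [this, hmem]; group
    obtain ⟨k, hk⟩ := hodd
    have : e ≠ 0 := by omega
    omega
  -- |G| = n (n-1) e
  have hG : Nat.card G = (n * n - n) * e := by
    have := Cfsg.Agent.H19.card_eq_of_two_pretransitive h2 hab
    rw [Nat.card_eq_fintype_card (α := Ω)] at this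
    exact this
  -- Burnside
  have hB1 : ∑ g : G, Nat.card (MulAction.fixedBy Ω g) = Nat.card G :=
    Cfsg.Agent.H19.sum_card_fixedBy_of_pretransitive
  have hB2 : ∑ g : G, Nat.card (MulAction.fixedBy Ω g) ^ 2 = 2 * Nat.card G :=
    Cfsg.Agent.H19.sum_card_fixedBy_sq_of_two_pretransitive h2 hab
  -- fixed point counts
  have hfix1 : Nat.card (MulAction.fixedBy Ω (1 : G)) = n := by
    rw [MulAction.fixedBy_one_eq_univ, Nat.card_coe_set_eq, Set.ncard_univ,
      Nat.card_eq_fintype_card]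
  have hfixle : ∀ g : G, g ≠ 1 → Nat.card (MulAction.fixedBy Ω g) ≤ 2 := by
    intro g hg
    by_contra hcon
    push Not at hcon
    rw [Nat.card_coe_set_eq, Set.two_lt_ncard] at hcon
    obtain ⟨c1, h1, c2, h2', c3, h3', h12, h13, h23⟩ := hcon
    exact hg (h3 g c1 c2 c3 h12 h23 h13 h1 h2' h3')
  have hfix0 : ∀ g : G, Nat.card (MulAction.fixedBy Ω g) = 0 ↔ ∀ c : Ω, g • c ≠ c := by
    intro g
    rw [Nat.card_eq_zero]
    constructor
    · rintro (h | h)
      · intro c hc
        exact h.false ⟨c, hc⟩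
      · exact absurd (inferInstance : Finite _) (not_finite_iff_infinite.mpr h)
    · intro h
      left
      exact ⟨fun ⟨c, hc⟩ => h c hc⟩
  set F0 : Finset G := Finset.univ.filter (fun g => Nat.card (MulAction.fixedBy Ω g) = 0) with hF0
  -- key identity
  have hkey : (Nat.card G : ℤ) = ((n : ℤ) - 1) * ((n : ℤ) - 2) + 2 * (F0.card : ℤ) := by
    have hs1 : ∑ g : G, ((Nat.card (MulAction.fixedBy Ω g) : ℤ) - 1) *
        ((Nat.card (MulAction.fixedBy Ω g) : ℤ) - 2) = (Nat.card G : ℤ) := by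
      have e1 : ∀ g : G, ((Nat.card (MulAction.fixedBy Ω g) : ℤ) - 1) *
          ((Nat.card (MulAction.fixedBy Ω g) : ℤ) - 2) =
          ((Nat.card (MulAction.fixedBy Ω g) ^ 2 : ℕ) : ℤ) -
            3 * ((Nat.card (MulAction.fixedBy Ω g) : ℕ) : ℤ) + 2 := by
        intro g; push_cast; ring
      rw [Finset.sum_congr rfl (fun g _ => e1 g), Finset.sum_add_distrib, Finset.sum_sub_distrib,
        ← Finset.mul_sum, ← Nat.cast_sum, ← Nat.cast_sum, hB1, hB2, Finset.sum_const,
        Finset.card_univ, ← Nat.card_eq_fintype_card]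
      push_cast
      simp only [nsmul_eq_mul]
      ring
    have hs2 : ∑ g : G, ((Nat.card (MulAction.fixedBy Ω g) : ℤ) - 1) *
        ((Nat.card (MulAction.fixedBy Ω g) : ℤ) - 2) =
        ∑ g : G, ((if g = 1 then ((n : ℤ) - 1) * ((n : ℤ) - 2) else 0) +
          2 * (if Nat.card (MulAction.fixedBy Ω g) = 0 then (1 : ℤ) else 0)) := by
      apply Finset.sum_congr rfl
      intro g _
      by_cases hg : g = 1
      · subst hg
        rw [if_pos rfl, hfix1, if_neg (by omega)]
        ring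
      · rw [if_neg hg]
        have hle := hfixle g hg
        generalize Nat.card (MulAction.fixedBy Ω g) = m at hle
        interval_cases m <;> simp
    rw [← hs1, hs2, Finset.sum_add_distrib, Finset.sum_ite_eq' Finset.univ (1 : G), ← Finset.mul_sum,
      Finset.sum_boole, if_pos (Finset.mem_univ _)]
  by_contra hcon
  push Not at hcon
  -- F0 nonempty
  have hF0pos : 0 < F0.card := by
    by_contra h0
    have h0' : F0.card = 0 := by omega
    rw [h0', Nat.cast_zero, mul_zero, add_zero] at hkey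
    have h1 : (Nat.card G : ℤ) = ((n * n - n : ℕ) : ℤ) * (e : ℤ) := by
      rw [hG]; push_cast; ring
    have h2' : ((n * n - n : ℕ) : ℤ) = (n : ℤ) * n - n := by
      rw [Nat.cast_sub (Nat.le_mul_self n)]; push_cast; ring
    rw [h1, h2'] at hkey
    have hn' : (3 : ℤ) ≤ n := by exact_mod_cast hn3
    have he' : (3 : ℤ) ≤ e := by exact_mod_cast he3
    have h5 : ((n : ℤ) * n - n) * 3 ≤ ((n : ℤ) * n - n) * e :=
      mul_le_mul_of_nonneg_left he' (by nlinarith)
    nlinarith
  obtain ⟨x0, hx0⟩ := Finset.card_pos.mp hF0pos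
  have hx0' : ∀ c : Ω, x0 • c ≠ c := by
    rw [hF0, Finset.mem_filter] at hx0
    exact (hfix0 x0).mp hx0.2
  have hF0eq : F0 = Finset.univ.filter (fun g => IsConj x0 g) := by
    ext g
    rw [hF0, Finset.mem_filter, Finset.mem_filter, hfix0]
    simp only [Finset.mem_univ, true_and]
    constructor
    · intro hg
      exact hcon x0 g hx0' hg
    · intro hg c hc
      obtain ⟨u, hu⟩ := isConj_iff.mp hg
      apply hx0' (u⁻¹ • c)
      rw [← hu] at hc
      rw [mul_smul, mul_smul] at hc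
      exact smul_left_cancel u (by rw [hc, smul_inv_smul])
  have hdvd : F0.card ∣ Nat.card G := by
    rw [hF0eq, Cfsg.Agent.H4.card_filter_isConj]
    exact Subgroup.index_dvd_card _
  -- arithmetic
  obtain ⟨k, hk⟩ := hdvd
  have h1 : (Nat.card G : ℤ) = ((n * n - n : ℕ) : ℤ) * (e : ℤ) := by
    rw [hG]; push_cast; ring
  have h2' : ((n * n - n : ℕ) : ℤ) = (n : ℤ) * n - n := by
    rw [Nat.cast_sub (Nat.le_mul_self n)]; push_cast; ring
  have hn' : (3 : ℤ) ≤ n := by exact_mod_cast hn3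
  have he' : (3 : ℤ) ≤ e := by exact_mod_cast he3
  have hk' : (Nat.card G : ℤ) = (F0.card : ℤ) * (k : ℤ) := by rw [hk]; push_cast; ring
  have hFpos : (1 : ℤ) ≤ F0.card := by exact_mod_cast hF0pos
  -- F0.card * (k - 2) = (n-1)(n-2) > 0, so k ≥ 3 and F0.card ≤ (n-1)(n-2)
  have hk3 : (3 : ℤ) ≤ k := by
    by_contra hk3
    have : (k : ℤ) ≤ 2 := by omega
    have hpos : 0 < ((n : ℤ) - 1) * ((n : ℤ) - 2) := by nlinarith
    have : (F0.card : ℤ) * ((k : ℤ) - 2) ≤ 0 := by nlinarith
    nlinarith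
  have hFle : (F0.card : ℤ) ≤ ((n : ℤ) - 1) * ((n : ℤ) - 2) := by
    have : (F0.card : ℤ) * ((k : ℤ) - 2) = ((n : ℤ) - 1) * ((n : ℤ) - 2) := by
      rw [hk'] at hkey; linarith
    nlinarith
  rw [h1, h2'] at hkey
  have h5 : ((n : ℤ) * n - n) * 3 ≤ ((n : ℤ) * n - n) * e :=
    mul_le_mul_of_nonneg_left he' (by nlinarith)
  nlinarith

end Cfsg.Agent.S0880
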