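import Mathlib
import Cfsg.Statements.S0882
import Cfsg.Agent.H19.ZassInvCount

set_option autoImplicit false
open Cfsg

namespace Cfsg.Agent.S0882

/-- Let G be a finite simple Zassenhaus group on Ω with n = h + 1 points whose two-point stabilizer E has odd order e with 2e < h - 1. Then any two involutions of G are conjugate, and the number of involutions is e * (h + 1) if h is even and e * h if h is odd. -/
theorem result {G Ω : Type*} [Group G] [Finite G] [MulAction G Ω] [Fintype Ω] (hZ : Cfsg.IsZassenhausGroup G Ω) {a b : Ω} (hab : a ≠ b) [IsSimpleGroup G] (h e : ℕ) (hh : Fintype.card Ω = h + 1) (he : Nat.card ↥(MulAction.stabilizer G a ⊓ MulAction.stabilizer G b : Subgroup G) = e) (hodd : Odd e) (hlt : 2 * e < h - 1) : (∀ x y : G, orderOf x = 2 → orderOf y = 2 → IsConj x y) ∧ Nat.card {x : G // orderOf x = 2} = (if Even h then e * (h + 1) else e * h) := by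
  classical
  have hodd' : Odd (Nat.card (MulAction.stabilizer G a ⊓ MulAction.stabilizer G b : Subgroup G)) := by
    rw [he]; exact hodd
  rcases Nat.even_or_odd h with hev | hod
  · have hn : Odd (Fintype.card Ω) := by rw [hh]; exact hev.add_one
    refine ⟨fun x y hx hy => isConj_iff.mpr
      (Cfsg.Agent.H19.zass_invol_isConj_of_odd_card hZ hab hodd' hn hx hy), ?_⟩
    rw [if_pos hev, Cfsg.Agent.H19.zass_card_invol_of_odd_card hZ hab hodd' hn, he, hh]
  · have hn : Even (Fintype.card Ω) := by rw [hh]; exact hod.add_one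
    have hinv : ∀ c d : Ω, c ≠ d → ∀ s : G, s • c = d → s • d = c →
        ∀ w ∈ (MulAction.stabilizer G c ⊓ MulAction.stabilizer G d : Subgroup G),
          s * w * s⁻¹ = w⁻¹ := by
      intro c d hcd
      have hodd'' : Odd (Nat.card (MulAction.stabilizer G c ⊓ MulAction.stabilizer G d : Subgroup G)) := by
        rw [Cfsg.Agent.H19.zass_card_two_stab hZ hab hcd]; exact hodd'
      exact (Cfsg.Agent.H19.zass_swap_inverts hZ hcd hodd''
        (fun q _ _ A _ f _ x => Cfsg.Agent.H19.zass_hom_trivial hZ f x)).2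
    obtain ⟨hconj, hcount⟩ := Cfsg.Agent.H19.zass_invol_of_even_card hZ hab hodd' hn hinv
    refine ⟨fun x y hx hy => isConj_iff.mpr (hconj x y hx hy), ?_⟩
    rw [if_neg (Nat.not_even_iff_odd.mpr hod), hcount, he, hh, Nat.add_sub_cancel, mul_comm]

end Cfsg.Agent.S0882
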