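import Cfsg.Statements.S0893
import Cfsg.Agent.H82.ExtraP
import Cfsg.Agent.H4.Chars
import Cfsg.Agent.H4.Induction

set_option autoImplicit false
open Cfsg

namespace Cfsg.Agent.S0893

open Cfsg.Agent.H82 Cfsg.Agent.H4
open scoped ComplexConjugate

/-- Let P be an extraspecial p-group of order p ^ (2 * n + 1), A an abelian subgroup of order p ^ (n + 1), and λ a character of A of degree 1 that is not identically 1 on the elements of A lying in the centre of P. Then the function induced from λ to P is an irreducible character of P and vanishes at every element outside the centre. -/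
theorem result {P : Type*} [Group P] [Fintype P] (p n : ℕ) [Fact p.Prime] (hP : Cfsg.IsExtraspecial p P) (hcard : Nat.card P = p ^ (2 * n + 1)) (A : Subgroup P) (hab : ∀ a ∈ A, ∀ b ∈ A, a * b = b * a) (hA : Nat.card A = p ^ (n + 1)) (lam : A → ℂ) (hlam : Cfsg.IsCharacter A lam ∧ lam 1 = 1) (hZ : ∃ a : A, (a : P) ∈ Subgroup.center P ∧ lam a ≠ 1) : Cfsg.IsIrrCharacter P (Cfsg.indFun A lam) ∧ ∀ x : P, x ∉ Subgroup.center P → Cfsg.indFun A lam x = 0 := by
  classical
  have hp := (Fact.out : p.Prime)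
  obtain ⟨⟨hpg, hfr, hcz⟩, hzp⟩ := hP
  obtain ⟨hlamc, hlam1⟩ := hlam
  have hlamirr : IsIrrCharacter A lam := by
    obtain ⟨m, ρ, hρ⟩ := hlamc
    have hm : m = 1 := by
      have := congrFun hρ 1
      rw [Representation.char_one, Module.finrank_fin_fun, hlam1] at this
      exact_mod_cast this
    subst hm
    exact ⟨1, ρ, irreducible_of_finrank_eq_one ρ (by simp), hρ⟩
  set L : IrrCharacter A := ⟨lam, hlamirr⟩ with hL
  have hmul : ∀ a b : A, lam (a * b) = lam a * lam b := irr_linear_mul L hlam1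
  have hzpow : ∀ (a : A) (k : ℤ), lam (a ^ k) = lam a ^ k := by
    intro a k
    have h1 : lam (a ^ k) = ((irrLinearHom L hlam1 (a ^ k) : ℂˣ) : ℂ) := rfl
    rw [h1, map_zpow, Units.val_zpow_eq_zpow_val]
    rfl
  have hpow : ∀ (a : A) (k : ℕ), lam (a ^ k) = lam a ^ k := by
    intro a k
    have := hzpow a k
    simpa using this
  have hnorm1 : ∀ a : A, lam a * conj (lam a) = 1 := by
    intro a
    have hk : lam a ^ orderOf a = 1 := by rw [← hpow, pow_orderOf_eq_one, hlam1]
    have hnorm : ‖lam a‖ = 1 := Complex.norm_eq_one_of_pow_eq_one hk (orderOf_pos a).ne'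
    rw [Complex.mul_conj, Complex.normSq_eq_norm_sq, hnorm]
    simp
  obtain ⟨a0, ha0z, ha0⟩ := hZ
  have ha01 : (a0 : P) ≠ 1 := by
    intro h
    apply ha0
    have : a0 = 1 := Subtype.ext h
    rw [this, hlam1]
  have hZA : Subgroup.center P ≤ A := by
    rw [← zpowers_eq_of_prime_card hp hzp ha0z ha01]
    exact Subgroup.zpowers_le.mpr a0.2
  have hlamZ : ∀ z : A, (z : P) ∈ Subgroup.center P → (z : P) ≠ 1 → lam z ≠ 1 := by
    intro z hz hz1 hlz
    have h1 := zpowers_eq_of_prime_card hp hzp hz hz1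
    have h2 : (a0 : P) ∈ Subgroup.zpowers (z : P) := by rw [h1]; exact ha0z
    obtain ⟨k, hk⟩ := Subgroup.mem_zpowers_iff.mp h2
    have h3 : a0 = z ^ k := Subtype.ext (by rw [← hk]; simp)
    apply ha0
    rw [h3, hzpow, hlz, one_zpow]
  have hcen : ∀ x y : P, x⁻¹ * (y⁻¹ * x * y) ∈ Subgroup.center P := by
    intro x y
    rw [← hcz]
    rw [show x⁻¹ * (y⁻¹ * x * y) = x⁻¹ * y⁻¹ * x⁻¹⁻¹ * y⁻¹⁻¹ from by group,
      ← commutatorElement_def]
    exact Subgroup.commutator_mem_commutator (Subgroup.mem_top _) (Subgroup.mem_top _)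
  have hconjA : ∀ x y : P, x ∈ A → y⁻¹ * x * y ∈ A := by
    intro x y hx
    have : y⁻¹ * x * y = x * (x⁻¹ * (y⁻¹ * x * y)) := by group
    rw [this]
    exact A.mul_mem hx (hZA (hcen x y))
  have hA0 : (Nat.card A : ℂ) ≠ 0 := by
    have : 0 < Nat.card A := Nat.card_pos
    exact_mod_cast this.ne'
  -- vanishing off the centre
  have hvanish : ∀ x : P, x ∉ Subgroup.center P → Cfsg.indFun A lam x = 0 := by
    intro x hx
    rw [indFun_apply]
    by_cases hxA : x ∈ A
    · -- x ∈ A, not central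
      set f : P → ℂ := fun y => lam ⟨x⁻¹ * (y⁻¹ * x * y), hZA (hcen x y)⟩ with hf
      have hterm : ∀ y : P, extendByZero A lam (y⁻¹ * x * y) = lam ⟨x, hxA⟩ * f y := by
        intro y
        rw [extendByZero_of_mem A lam (hconjA x y hxA), hf, ← hmul]
        congr 1
        apply Subtype.ext
        simp only [Subgroup.coe_mul]
        group
      have hfmul : ∀ y1 y2 : P, f (y1 * y2) = f y1 * f y2 := by
        intro y1 y2
        simp only [hf]
        rw [← hmul]
        congr 1
        apply Subtype.ext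
        simp only [Subgroup.coe_mul]
        have hc := Subgroup.mem_center_iff.mp (hcen x y1)
        have e1 : x⁻¹ * ((y1 * y2)⁻¹ * x * (y1 * y2)) =
            (x⁻¹ * y2⁻¹ * x) * ((x⁻¹ * (y1⁻¹ * x * y1)) * y2) := by group
        rw [e1, ← hc y2, ← mul_assoc, hc]
        group
      have hex : ∃ y0 : P, f y0 ≠ 1 := by
        rw [Subgroup.mem_center_iff] at hx
        push Not at hx
        obtain ⟨y0, hy0⟩ := hx
        refine ⟨y0, hlamZ _ (hcen x y0) ?_⟩
        intro h1
        apply hy0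
        have h2 : y0⁻¹ * x * y0 = x := (inv_mul_eq_one.mp h1).symm
        calc y0 * x = y0 * (y0⁻¹ * x * y0) := by rw [h2]
          _ = x * y0 := by group
      obtain ⟨y0, hy0⟩ := hex
      have hsum0 : ∑ y : P, f y = 0 := by
        have h1 : ∑ y : P, f y = f y0 * ∑ y : P, f y := by
          rw [Finset.mul_sum, ← Equiv.sum_comp (Equiv.mulLeft y0) f]
          exact Finset.sum_congr rfl fun y _ => hfmul y0 y
        have h2 : (1 - f y0) * ∑ y : P, f y = 0 := by linear_combination h1
        exact (mul_eq_zero.mp h2).resolve_left (sub_ne_zero.mpr (Ne.symm hy0))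
      simp only [hterm]
      rw [← Finset.mul_sum, hsum0, mul_zero, mul_zero]
    · have hterm : ∀ y : P, extendByZero A lam (y⁻¹ * x * y) = 0 := by
        intro y
        apply extendByZero_of_not_mem
        intro hy
        apply hxA
        have := hconjA (y⁻¹ * x * y) y⁻¹ hy
        simpa [mul_assoc] using this
      simp [hterm]
  refine ⟨?_, hvanish⟩
  -- irreducibility: norm one
  apply isIrrCharacter_of_norm_one (isCharacter_indFun A lam hlamc)
  have hval : ∀ z ∈ Finset.univ.filter (· ∈ Subgroup.center P),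
      Cfsg.indFun A lam z * conj (Cfsg.indFun A lam z) =
        ((Nat.card A : ℂ)⁻¹ * (Nat.card P : ℂ)) ^ 2 := by
    intro z hz
    have hzc : z ∈ Subgroup.center P := by simpa using hz
    have hterm : ∀ y : P, extendByZero A lam (y⁻¹ * z * y) = lam ⟨z, hZA hzc⟩ := by
      intro y
      have h1 : y⁻¹ * z * y = z := by
        rw [mul_assoc, ← Subgroup.mem_center_iff.mp hzc y, ← mul_assoc, inv_mul_cancel, one_mul]
      rw [h1, extendByZero_of_mem A lam (hZA hzc)]
    have h2 : Cfsg.indFun A lam z = (Nat.card A : ℂ)⁻¹ * (Nat.card P : ℂ) * lam ⟨z, hZA hzc⟩ := by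
      rw [indFun_apply]
      simp only [hterm, Finset.sum_const, Finset.card_univ, nsmul_eq_mul,
        Nat.card_eq_fintype_card]
      ring
    rw [h2, map_mul, map_mul, map_inv₀, Complex.conj_natCast, Complex.conj_natCast]
    calc (Nat.card A : ℂ)⁻¹ * (Nat.card P : ℂ) * lam ⟨z, hZA hzc⟩ *
          ((Nat.card A : ℂ)⁻¹ * (Nat.card P : ℂ) * conj (lam ⟨z, hZA hzc⟩))
        = ((Nat.card A : ℂ)⁻¹ * (Nat.card P : ℂ)) ^ 2 *
            (lam ⟨z, hZA hzc⟩ * conj (lam ⟨z, hZA hzc⟩)) := by ring
      _ = ((Nat.card A : ℂ)⁻¹ * (Nat.card P : ℂ)) ^ 2 := by rw [hnorm1, mul_one]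
  have hsub : ∑ g : P, Cfsg.indFun A lam g * conj (Cfsg.indFun A lam g) =
      ∑ g ∈ Finset.univ.filter (· ∈ Subgroup.center P),
        Cfsg.indFun A lam g * conj (Cfsg.indFun A lam g) := by
    symm
    apply Finset.sum_subset (Finset.subset_univ _)
    intro g _ hg
    have hgc : g ∉ Subgroup.center P := by simpa using hg
    rw [hvanish g hgc, zero_mul]
  have hcardZ : (Finset.univ.filter (· ∈ Subgroup.center P)).card = p := by
    rw [← hzp, Nat.card_eq_fintype_card, Fintype.card_subtype]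
  unfold classInner
  rw [hsub, Finset.sum_congr rfl hval, Finset.sum_const, nsmul_eq_mul, hcardZ, hcard, hA]
  have hp0 : (p : ℂ) ≠ 0 := by exact_mod_cast hp.ne_zero
  push_cast
  field_simp
  ring

end Cfsg.Agent.S0893
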