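import Cfsg.Statements.S0894
import Cfsg.Agent.H82.ExtraP

set_option autoImplicit false
open Cfsg

namespace Cfsg.Agent.S0894

open Cfsg.Agent.H82 Cfsg.Agent.H4

/-- Let P be an extraspecial p-group of order p ^ (2 * n + 1). Then every irreducible character of P has degree 1 or p ^ n, and exactly p - 1 of them have degree p ^ n. -/
theorem result {P : Type*} [Group P] [Finite P] (p n : ℕ) [Fact p.Prime] (hP : Cfsg.IsExtraspecial p P) (hcard : Nat.card P = p ^ (2 * n + 1)) : (∀ χ : Cfsg.IrrCharacter P, (χ : P → ℂ) 1 = 1 ∨ (χ : P → ℂ) 1 = (p : ℂ) ^ n) ∧ Nat.card {χ : Cfsg.IrrCharacter P // (χ : P → ℂ) 1 = (p : ℂ) ^ n} = p - 1 := by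
  classical
  have hp := (Fact.out : p.Prime)
  obtain ⟨⟨hpg, hfr, hcz⟩, hzp⟩ := hP
  letI := fintypeIrr P
  have hdeg : ∀ χ : IrrCharacter P, charDegree χ.1 ≠ 1 → charDegree χ.1 = p ^ n := by
    intro χ hχ
    have h1 := prime_mul_sq_of_nonlinear hp hcz hzp χ hχ
    rw [hcard] at h1
    have h2 : charDegree χ.1 ^ 2 = (p ^ n) ^ 2 := by
      apply Nat.eq_of_mul_eq_mul_left hp.pos
      rw [h1]
      ring
    exact Nat.pow_left_injective (by norm_num : (2 : ℕ) ≠ 0) h2
  have hn : n ≠ 0 := by
    rintro rfl
    have h1 : Nat.card (Subgroup.center P) = Nat.card P := by rw [hzp, hcard]; simp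
    have h2 : Subgroup.center P = ⊤ := (Subgroup.card_eq_iff_eq_top _).mp h1
    have h3 : commutator P = ⊥ := by
      rw [commutator_def]
      exact Subgroup.commutator_top_right_eq_bot_iff_le_center.mpr (by rw [h2])
    rw [hcz] at h3
    rw [h3, Subgroup.card_bot] at hzp
    exact hp.one_lt.ne' hzp.symm
  have hpn : p ^ n ≠ 1 := (Nat.one_lt_pow hn hp.one_lt).ne'
  refine ⟨?_, ?_⟩
  · intro χ
    by_cases h1 : charDegree χ.1 = 1
    · left
      rw [irr_one_eq_charDegree, h1]
      simp
    · right
      rw [irr_one_eq_charDegree, hdeg χ h1]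
      push_cast
      rfl
  · have hidx : (commutator P).index = p ^ (2 * n) := by
      have h := Subgroup.card_mul_index (commutator P)
      rw [show Nat.card (commutator P) = p from by rw [hcz]; exact hzp, hcard, pow_succ,
        mul_comm] at h
      exact Nat.eq_of_mul_eq_mul_right hp.pos h
    have hsum := index_add_sum_nonlinear (G := P)
    rw [hidx, hcard] at hsum
    have hsum2 : ∑ χ ∈ Finset.univ.filter (fun χ : IrrCharacter P => ¬ charDegree χ.1 = 1),
        charDegree χ.1 ^ 2 =
        (Finset.univ.filter (fun χ : IrrCharacter P => ¬ charDegree χ.1 = 1)).card *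
          p ^ (2 * n) := by
      rw [Finset.sum_congr rfl (fun χ hχ => by rw [hdeg χ (Finset.mem_filter.mp hχ).2]),
        Finset.sum_const, smul_eq_mul]
      ring
    rw [hsum2] at hsum
    have hk : (Finset.univ.filter (fun χ : IrrCharacter P => ¬ charDegree χ.1 = 1)).card + 1
        = p := by
      apply Nat.eq_of_mul_eq_mul_right (pow_pos hp.pos (2 * n))
      rw [pow_succ] at hsum
      linarith
    rw [Nat.card_eq_fintype_card, Fintype.card_subtype]
    have hfilt : Finset.univ.filter (fun χ : IrrCharacter P => (χ : P → ℂ) 1 = (p : ℂ) ^ n) =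
        Finset.univ.filter (fun χ : IrrCharacter P => ¬ charDegree χ.1 = 1) := by
      apply Finset.filter_congr
      intro χ _
      rw [irr_one_eq_charDegree]
      constructor
      · intro h h1
        rw [h1] at h
        have : (1 : ℕ) = p ^ n := by exact_mod_cast h
        exact hpn this.symm
      · intro h
        rw [hdeg χ h]
        push_cast
        rfl
    rw [hfilt]
    omega

end Cfsg.Agent.S0894
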