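import Cfsg.Statements.S0897
import Cfsg.Agent.Lib.Helper96.DadeExt
import Cfsg.Agent.S0896

set_option autoImplicit false
open Cfsg

namespace Cfsg.Agent.S0897

open Cfsg.Agent Cfsg.Agent.H4

/-- Let N be a normal subgroup of the finite group G with the index of N a power of the prime p, and P a Sylow p-subgroup of G such that P ⊓ N lies in the centre of P and every character of degree 1 of P ⊓ N is the restriction of a character of degree 1 of P. Then every irreducible character of N invariant under conjugation by G is the restriction of an irreducible character of G. -/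
theorem result {G : Type*} [Group G] [Fintype G] (p : ℕ) [Fact p.Prime] (N : Subgroup G) [hN : N.Normal] (hind : ∃ k : ℕ, N.index = p ^ k) (P : Sylow p G) (hcent : ∀ x ∈ (P : Subgroup G) ⊓ N, ∀ y ∈ (P : Subgroup G), x * y = y * x) (hlin : ∀ lam : ↥((P : Subgroup G) ⊓ N) → ℂ, Cfsg.IsCharacter ↥((P : Subgroup G) ⊓ N) lam → lam 1 = 1 → ∃ μ : ↥(P : Subgroup G) → ℂ, Cfsg.IsCharacter ↥(P : Subgroup G) μ ∧ μ 1 = 1 ∧ ∀ x : ↥((P : Subgroup G) ⊓ N), μ ⟨(x : G), x.2.1⟩ = lam x) (ϑ : N → ℂ) (hϑ : Cfsg.IsIrrCharacter N ϑ) (hinv : ∀ (g : G) (n : N), ϑ ⟨g * n * g⁻¹, hN.conj_mem (n : G) n.2 g⟩ = ϑ n) : ∃ χ : G → ℂ, Cfsg.IsIrrCharacter G χ ∧ ∀ n : N, χ n = ϑ n := by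
  classical
  obtain ⟨E, φ, hEel, hEtop, hφ, hφinv, b, hb, hbφ⟩ :=
    Cfsg.Agent.S0896.result p (Fact.out) N hind ϑ hϑ hinv
  haveI : Fintype ↥(E ⊓ N) := Fintype.ofFinite _
  have hPtriv := Lib.Helper96.inf_commutator_trivial (P : Subgroup G) N hcent hlin
  have hEtriv := Lib.Helper96.commutator_trivial_of_elementary p N P hPtriv E hEel
  obtain ⟨ψ, hψ, hψφ⟩ := Lib.Helper96.exists_char_ext E N hEtriv φ hφ
  apply Lib.Helper96.ext_of_ind p N hind ϑ hϑ hinv E hEtop ψ hψ b hb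
  rw [← classInner_conj_symm]
  have h1 : classInner (fun y : ↥(E ⊓ N) => ϑ ⟨y, y.2.2⟩)
      (fun y : ↥(E ⊓ N) => ψ ⟨y, y.2.1⟩) = b := by
    rw [finsum_eq_sum_of_fintype] at hbφ
    unfold classInner
    rw [← hbφ]
    congr 1
    refine Finset.sum_congr rfl fun y _ => ?_
    show ϑ ⟨y, y.2.2⟩ * (starRingEnd ℂ) (ψ ⟨y, y.2.1⟩) =
      ϑ ⟨y, y.2.2⟩ * (starRingEnd ℂ) (φ y)
    rw [hψφ y]
  rw [h1]
  simp

end Cfsg.Agent.S0897
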