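import Cfsg.Statements.S0901
import Mathlib

set_option autoImplicit false
set_option linter.style.haveILetI false
open Cfsg

namespace Cfsg.Agent.S0901

theorem natCast_p_eq_zero (p : ℕ) (M : Ideal AlgInt) (hM : IsPModular p M) :
    ((p : ℕ) : AlgInt ⧸ M) = 0 := by
  have : (Ideal.Quotient.mk M) (p : AlgInt) = 0 := Ideal.Quotient.eq_zero_iff_mem.mpr hM.2.2
  simpa using this

theorem not_mem_of_not_dvd (p : ℕ) (M : Ideal AlgInt) (hM : IsPModular p M) {m : ℕ}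
    (hm : ¬ p ∣ m) : (m : AlgInt) ∉ M := by
  intro h
  have hcop : Nat.Coprime m p := ((Nat.Prime.coprime_iff_not_dvd hM.1).mpr hm).symm
  obtain ⟨u, v, huv⟩ := Nat.isCoprime_iff_coprime.mpr hcop
  have h1 : (1 : AlgInt) = (u : AlgInt) * (m : AlgInt) + (v : AlgInt) * (p : AlgInt) := by
    have := congrArg (fun z : ℤ => (z : AlgInt)) huv
    simpa using this.symm
  have h2 : (1 : AlgInt) ∈ M := by
    rw [h1]; exact M.add_mem (M.mul_mem_left _ h) (M.mul_mem_left _ hM.2.2)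
  exact hM.2.1.ne_top ((Ideal.eq_top_iff_one M).mpr h2)

theorem part1 (p : ℕ) (M : Ideal AlgInt) (hM : IsPModular p M) (ε₁ ε₂ : AlgInt)
    (h1 : ∃ m : ℕ, ¬ p ∣ m ∧ (ε₁ : ℂ) ^ m = 1) (h2 : ∃ m : ℕ, ¬ p ∣ m ∧ (ε₂ : ℂ) ^ m = 1)
    (h : ε₁ - ε₂ ∈ M) : ε₁ = ε₂ := by
  obtain ⟨m₁, hm₁, e₁⟩ := h1
  obtain ⟨m₂, hm₂, e₂⟩ := h2
  have e₁' : ε₁ ^ m₁ = 1 := Subtype.ext (by simpa using e₁)
  have e₂' : ε₂ ^ m₂ = 1 := Subtype.ext (by simpa using e₂)
  obtain ⟨m, hmdef⟩ : ∃ m, m = m₁ * m₂ := ⟨_, rfl⟩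
  have hm : ¬ p ∣ m := by
    intro hd
    rw [hmdef] at hd
    rcases (Nat.Prime.dvd_mul hM.1).mp hd with h | h
    · exact hm₁ h
    · exact hm₂ h
  have f₁ : ε₁ ^ m = 1 := by rw [hmdef, pow_mul, e₁', one_pow]
  have f₂ : ε₂ ^ m = 1 := by rw [hmdef, mul_comm, pow_mul, e₂', one_pow]
  by_contra hne
  have hgeom := Commute.geom_sum₂_mul (Commute.all ε₁ ε₂) m
  rw [f₁, f₂, sub_self] at hgeom
  have hS : ∑ i ∈ Finset.range m, ε₁ ^ i * ε₂ ^ (m - 1 - i) = 0 := by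
    rcases mul_eq_zero.mp hgeom with h0 | h0
    · exact h0
    · exact absurd (sub_eq_zero.mp h0) hne
  have hq : (Ideal.Quotient.mk M) ε₁ = (Ideal.Quotient.mk M) ε₂ := Ideal.Quotient.eq.mpr h
  have hS' := congrArg (Ideal.Quotient.mk M) hS
  rw [map_sum, map_zero] at hS'
  have hterm : ∀ i ∈ Finset.range m, (Ideal.Quotient.mk M) (ε₁ ^ i * ε₂ ^ (m - 1 - i))
      = (Ideal.Quotient.mk M) ε₂ ^ (m - 1) := by
    intro i hi
    rw [map_mul, map_pow, map_pow, hq, ← pow_add]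
    congr 1
    have := Finset.mem_range.mp hi
    omega
  rw [Finset.sum_congr rfl hterm, Finset.sum_const, Finset.card_range, nsmul_eq_mul] at hS'
  have hm0 : m ≠ 0 := fun h0 => hm (by rw [h0]; exact dvd_zero p)
  have h3 : (m : AlgInt ⧸ M) = 0 := by
    have h5 : (m : AlgInt ⧸ M) * (Ideal.Quotient.mk M) ε₂ ^ (m - 1) * (Ideal.Quotient.mk M) ε₂ = 0 := by
      rw [hS', zero_mul]
    rw [mul_assoc, ← pow_succ, Nat.sub_add_cancel (Nat.pos_of_ne_zero hm0), ← map_pow, f₂, map_one,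
      mul_one] at h5
    exact h5
  have h4 : (m : AlgInt) ∈ M := by
    rw [← Ideal.Quotient.eq_zero_iff_mem]; simpa using h3
  exact not_mem_of_not_dvd p M hM hm h4

/-- A nonzero residue modulo `M` has finite multiplicative order. -/
theorem exists_pow_eq_one (p : ℕ) (M : Ideal AlgInt) (hM : IsPModular p M) (a : AlgInt)
    (ha : a ∉ M) : ∃ d : ℕ, 0 < d ∧ a ^ d - 1 ∈ M := by
  haveI := hM.2.1
  haveI : Fact p.Prime := ⟨hM.1⟩
  letI : Field (AlgInt ⧸ M) := Ideal.Quotient.field M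
  have hqa : (Ideal.Quotient.mk M) a ≠ 0 := fun h => ha (Ideal.Quotient.eq_zero_iff_mem.mp h)
  haveI : CharP (AlgInt ⧸ M) p :=
    (CharP.charP_iff_prime_eq_zero hM.1).mpr (natCast_p_eq_zero p M hM)
  letI : Algebra (ZMod p) (AlgInt ⧸ M) := ZMod.algebra _ p
  have hint : IsIntegral ℤ ((Ideal.Quotient.mk M) a) :=
    (integralClosure.isIntegral a).map ((Ideal.Quotient.mk M).toIntAlgHom)
  have hint' : IsIntegral (ZMod p) ((Ideal.Quotient.mk M) a) := hint.tower_top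
  have hfg := hint'.fg_adjoin_singleton
  haveI : Module.Finite (ZMod p) (Algebra.adjoin (ZMod p) {(Ideal.Quotient.mk M) a}) :=
    Module.Finite.iff_fg.mpr hfg
  haveI : Finite (Algebra.adjoin (ZMod p) {(Ideal.Quotient.mk M) a}) :=
    Module.finite_of_finite (ZMod p)
  let f : ℕ → Algebra.adjoin (ZMod p) {(Ideal.Quotient.mk M) a} := fun i =>
    ⟨(Ideal.Quotient.mk M) a ^ i, pow_mem (Algebra.self_mem_adjoin_singleton _ _) i⟩
  have key : ∀ i j : ℕ, i < j → f i = f j → ∃ d : ℕ, 0 < d ∧ a ^ d - 1 ∈ M := by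
    intro i j hij hf
    have hf' : (Ideal.Quotient.mk M) a ^ i = (Ideal.Quotient.mk M) a ^ j := congrArg Subtype.val hf
    refine ⟨j - i, Nat.sub_pos_of_lt hij, ?_⟩
    rw [← Ideal.Quotient.eq_zero_iff_mem, map_sub, map_pow, map_one, sub_eq_zero]
    have hj : j = i + (j - i) := by omega
    rw [hj, pow_add] at hf'
    have hi0 : (Ideal.Quotient.mk M) a ^ i ≠ 0 := pow_ne_zero _ hqa
    have := mul_left_cancel₀ hi0 (by rw [mul_one]; exact hf' :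
      (Ideal.Quotient.mk M) a ^ i * 1 = (Ideal.Quotient.mk M) a ^ i * (Ideal.Quotient.mk M) a ^ (j - i))
    exact this.symm
  obtain ⟨i, j, hij, hfij⟩ := Finite.exists_ne_map_eq_of_infinite f
  rcases Nat.lt_or_gt_of_ne hij with h | h
  · exact key i j h hfij
  · exact key j i h hfij.symm

theorem part2 (p : ℕ) (M : Ideal AlgInt) (hM : IsPModular p M) (a : AlgInt) (ha : a ∉ M) :
    ∃ ε : AlgInt, (∃ m : ℕ, ¬ p ∣ m ∧ (ε : ℂ) ^ m = 1) ∧ a - ε ∈ M := by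
  haveI := hM.2.1
  haveI : Fact p.Prime := ⟨hM.1⟩
  letI : Field (AlgInt ⧸ M) := Ideal.Quotient.field M
  haveI : CharP (AlgInt ⧸ M) p :=
    (CharP.charP_iff_prime_eq_zero hM.1).mpr (natCast_p_eq_zero p M hM)
  obtain ⟨d, hd0, hd⟩ := exists_pow_eq_one p M hM a ha
  obtain ⟨e, n, hn, hdn⟩ := Nat.exists_eq_pow_mul_and_not_dvd hd0.ne' p hM.1.ne_one
  have hd' : (Ideal.Quotient.mk M) a ^ d = 1 := by
    have := Ideal.Quotient.eq_zero_iff_mem.mpr hd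
    rw [map_sub, map_pow, map_one, sub_eq_zero] at this
    exact this
  have hn1 : (Ideal.Quotient.mk M) a ^ n = 1 := by
    have h0 : ((Ideal.Quotient.mk M) a ^ n - 1) ^ (p ^ e) = 0 := by
      rw [sub_pow_char_pow, one_pow, ← pow_mul, mul_comm, ← hdn, hd', sub_self]
    exact sub_eq_zero.mp ((pow_eq_zero_iff (pow_ne_zero e hM.1.ne_zero)).mp h0)
  have hn0 : n ≠ 0 := fun h0 => hn (by rw [h0]; exact dvd_zero p)
  have hζc : IsPrimitiveRoot (Complex.exp (2 * Real.pi * Complex.I / n)) n :=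
    Complex.isPrimitiveRoot_exp n hn0
  have hζint : IsIntegral ℤ (Complex.exp (2 * Real.pi * Complex.I / n)) :=
    hζc.isIntegral (Nat.pos_of_ne_zero hn0)
  have hζ : IsPrimitiveRoot (⟨_, hζint⟩ : AlgInt) n := by
    apply IsPrimitiveRoot.of_map_of_injective (f := (algebraMap AlgInt ℂ)) _ Subtype.val_injective
    exact hζc
  have hprod := Polynomial.X_pow_sub_one_eq_prod (Nat.pos_of_ne_zero hn0) hζ
  have hev : a ^ n - 1 = ∏ ζ' ∈ Polynomial.nthRootsFinset n (1 : AlgInt), (a - ζ') := by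
    have := congrArg (Polynomial.eval a) hprod
    simpa [Polynomial.eval_prod] using this
  have hmem : a ^ n - 1 ∈ M := by
    rw [← Ideal.Quotient.eq_zero_iff_mem, map_sub, map_pow, map_one, hn1, sub_self]
  rw [hev] at hmem
  obtain ⟨ζ', hζ', hmem'⟩ := (Ideal.IsPrime.prod_mem_iff (hp := hM.2.1.isPrime)).mp hmem
  refine ⟨ζ', ⟨n, hn, ?_⟩, hmem'⟩
  have h1 := (Polynomial.mem_nthRootsFinset (Nat.pos_of_ne_zero hn0) _).mp hζ'
  have h2 := congrArg (Subtype.val : AlgInt → ℂ) h1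
  simpa using h2

theorem result (p : ℕ) [Fact p.Prime] (M : Ideal Cfsg.AlgInt) (hM : Cfsg.IsPModular p M) : (∀ ε₁ ε₂ : Cfsg.AlgInt, (∃ m : ℕ, ¬ p ∣ m ∧ (ε₁ : ℂ) ^ m = 1) → (∃ m : ℕ, ¬ p ∣ m ∧ (ε₂ : ℂ) ^ m = 1) → ε₁ - ε₂ ∈ M → ε₁ = ε₂) ∧ (∀ a : Cfsg.AlgInt, a ∉ M → ∃ ε : Cfsg.AlgInt, (∃ m : ℕ, ¬ p ∣ m ∧ (ε : ℂ) ^ m = 1) ∧ a - ε ∈ M) :=
  ⟨fun ε₁ ε₂ h1 h2 h => part1 p M hM ε₁ ε₂ h1 h2 h, fun a ha => part2 p M hM a ha⟩

end Cfsg.Agent.S0901
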