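import Cfsg.Statements.S0903

set_option autoImplicit false
open Cfsg

namespace Cfsg.Agent.S0903

/-- The set of pairs of conjugates of `g`, `h` with product `c`. -/
abbrev PairSet {G : Type*} [Group G] (c g h : G) : Type _ :=
  {xy : G × G // IsConj g xy.1 ∧ IsConj h xy.2 ∧ xy.1 * xy.2 = c}

/-- The simultaneous conjugation action of `P` on the pairs. -/
@[reducible] def pairAction {G : Type*} [Group G] (P : Subgroup G) (c : G)
    (hc : c ∈ Subgroup.centralizer (P : Set G)) (g h : G) : MulAction P (PairSet c g h) where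
  smul u xy := ⟨((u : G) * xy.1.1 * (u : G)⁻¹, (u : G) * xy.1.2 * (u : G)⁻¹), by
    obtain ⟨⟨x, y⟩, hx, hy, hxy⟩ := xy
    refine ⟨?_, ?_, ?_⟩
    · exact hx.trans (isConj_iff.mpr ⟨u, rfl⟩)
    · exact hy.trans (isConj_iff.mpr ⟨u, rfl⟩)
    · have h1 : (u : G) * x * (u : G)⁻¹ * ((u : G) * y * (u : G)⁻¹) = (u : G) * (x * y) * (u : G)⁻¹ := by
        group
      show (u : G) * x * (u : G)⁻¹ * ((u : G) * y * (u : G)⁻¹) = c
      rw [h1]
      have hxy' : x * y = c := hxy
      rw [hxy']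
      have := hc (u : G) u.2
      rw [this]; group⟩
  one_smul xy := by
    apply Subtype.ext
    show (((1 : P) : G) * xy.1.1 * ((1 : P) : G)⁻¹, ((1 : P) : G) * xy.1.2 * ((1 : P) : G)⁻¹) = xy.1
    simp
  mul_smul u v xy := by
    apply Subtype.ext
    show (((u * v : P) : G) * xy.1.1 * ((u * v : P) : G)⁻¹, ((u * v : P) : G) * xy.1.2 * ((u * v : P) : G)⁻¹)
      = ((u : G) * ((v : G) * xy.1.1 * (v : G)⁻¹) * (u : G)⁻¹, (u : G) * ((v : G) * xy.1.2 * (v : G)⁻¹) * (u : G)⁻¹)
    simp [mul_assoc]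

/-- Let P be a p-subgroup of the finite group G, let c centralize P and let g, h ∈ G. The number of pairs (x, y) with x conjugate to g, y conjugate to h and x * y = c is congruent modulo p to the number of such pairs in which x and y both centralize P. (This is why the Brauer map on class sums is multiplicative.) -/
theorem result {G : Type*} [Group G] [Finite G] (p : ℕ) [Fact p.Prime] (P : Subgroup G) (hP : IsPGroup p P) (c : G) (hc : c ∈ Subgroup.centralizer (P : Set G)) (g h : G) : Nat.card {xy : G × G // IsConj g xy.1 ∧ IsConj h xy.2 ∧ xy.1 * xy.2 = c} ≡ Nat.card {xy : G × G // IsConj g xy.1 ∧ IsConj h xy.2 ∧ xy.1 * xy.2 = c ∧ xy.1 ∈ Subgroup.centralizer (P : Set G) ∧ xy.2 ∈ Subgroup.centralizer (P : Set G)} [MOD p] := by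
  let _ := pairAction P c hc g h
  have key := hP.card_modEq_card_fixedPoints (PairSet c g h)
  refine key.trans ?_
  have e : (MulAction.fixedPoints P (PairSet c g h)) ≃ {xy : G × G // IsConj g xy.1 ∧ IsConj h xy.2 ∧ xy.1 * xy.2 = c ∧ xy.1 ∈ Subgroup.centralizer (P : Set G) ∧ xy.2 ∈ Subgroup.centralizer (P : Set G)} :=
  { toFun := fun z => ⟨z.1.1, z.1.2.1, z.1.2.2.1, z.1.2.2.2, by
      intro u hu
      have h1 := z.2 ⟨u, hu⟩
      have h2 : (u * z.1.1.1 * u⁻¹, u * z.1.1.2 * u⁻¹) = z.1.1 := congrArg Subtype.val h1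
      have h3 : u * z.1.1.1 * u⁻¹ = z.1.1.1 := congrArg Prod.fst h2
      calc u * z.1.1.1 = (u * z.1.1.1 * u⁻¹) * u := by group
        _ = z.1.1.1 * u := by rw [h3], by
      intro u hu
      have h1 := z.2 ⟨u, hu⟩
      have h2 : (u * z.1.1.1 * u⁻¹, u * z.1.1.2 * u⁻¹) = z.1.1 := congrArg Subtype.val h1
      have h3 : u * z.1.1.2 * u⁻¹ = z.1.1.2 := congrArg Prod.snd h2
      calc u * z.1.1.2 = (u * z.1.1.2 * u⁻¹) * u := by group
        _ = z.1.1.2 * u := by rw [h3]⟩
    invFun := fun w => ⟨⟨w.1, w.2.1, w.2.2.1, w.2.2.2.1⟩, by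
      intro u
      apply Subtype.ext
      show ((u : G) * w.1.1 * (u : G)⁻¹, (u : G) * w.1.2 * (u : G)⁻¹) = w.1
      have h1 := w.2.2.2.2.1 (u : G) u.2
      have h2 := w.2.2.2.2.2 (u : G) u.2
      ext
      · show (u : G) * w.1.1 * (u : G)⁻¹ = w.1.1
        rw [h1]; group
      · show (u : G) * w.1.2 * (u : G)⁻¹ = w.1.2
        rw [h2]; group⟩
    left_inv := fun z => rfl
    right_inv := fun w => rfl }
  rw [Nat.card_congr e]

end Cfsg.Agent.S0903
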