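import Cfsg.Statements.S0905
import Cfsg.Agent.H20.Nilpotent
import Cfsg.Agent.H80.GroupBasic

set_option autoImplicit false
set_option linter.style.haveILetI false
open Cfsg

namespace Cfsg.Agent.S0905

/-- Let F be a field of characteristic p and let g be an element of the finite group G no conjugate of which centralizes O_p(G). Then the class sum of g is a nilpotent element of the group algebra F[G]. -/
theorem result {G : Type*} [Group G] [Finite G] (p : ℕ) [Fact p.Prime] (F : Type*) [Field F] [CharP F p] (g : G) (hg : ∀ x : G, IsConj g x → x ∉ Subgroup.centralizer (Cfsg.pCore p G : Set G)) : IsNilpotent (∑ᶠ x ∈ ConjClasses.carrier (ConjClasses.mk g), MonoidAlgebra.single x (1 : F) : MonoidAlgebra F G) := by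
  classical
  haveI : Fintype G := Fintype.ofFinite G
  haveI hPn : (Cfsg.pCore p G).Normal := Cfsg.Agent.H80.pCore_normal p G
  have hP : IsPGroup p (Cfsg.pCore p G) := Cfsg.Agent.H80.pCore_isPGroup p G
  have hg' : g ∉ Subgroup.centralizer (Cfsg.pCore p G : Set G) := hg g (IsConj.refl g)
  have nil : IsNilpotent (∑ x : G, MonoidAlgebra.single x (if IsConj g x then (1 : ZMod p) else 0) :
      MonoidAlgebra (ZMod p) G) := by
    apply Cfsg.Agent.H20.isNilpotent_of_mapDomain_eq_zero p (Cfsg.pCore p G) hP
    apply Cfsg.Agent.H20.mapDomain_mk_eq_zero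
    intro c
    rw [← Finset.sum_filter, Finset.sum_const, Finset.filter_filter, nsmul_eq_mul, mul_one]
    exact (ZMod.natCast_eq_zero_iff _ _).mpr
      (Cfsg.Agent.H20.card_conj_fiber_dvd (Cfsg.pCore p G) hP g hg' c)
  have key : (∑ᶠ x ∈ ConjClasses.carrier (ConjClasses.mk g), MonoidAlgebra.single x (1 : F) :
      MonoidAlgebra F G) = MonoidAlgebra.mapRingHom G (ZMod.castHom (dvd_refl p) F)
        (∑ x : G, MonoidAlgebra.single x (if IsConj g x then (1 : ZMod p) else 0)) := by
    rw [map_sum, finsum_mem_eq_finite_toFinset_sum _ (Set.toFinite _)]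
    have h1 : ∀ x : G, (MonoidAlgebra.mapRingHom G (ZMod.castHom (dvd_refl p) F))
        (MonoidAlgebra.single x (if IsConj g x then (1 : ZMod p) else 0))
        = if IsConj g x then MonoidAlgebra.single x (1 : F) else 0 := by
      intro x
      rw [MonoidAlgebra.mapRingHom_single]
      by_cases hx : IsConj g x
      · rw [if_pos hx, if_pos hx, map_one]
      · rw [if_neg hx, if_neg hx, map_zero, MonoidAlgebra.single_zero]
    simp only [h1]
    rw [← Finset.sum_filter]
    apply Finset.sum_congr
    · ext x
      rw [Set.Finite.mem_toFinset, Finset.mem_filter, ConjClasses.mem_carrier_iff_mk_eq,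
        ConjClasses.mk_eq_mk_iff_isConj]
      exact ⟨fun h => ⟨Finset.mem_univ _, h.symm⟩, fun h => h.2.symm⟩
    · intro x _
      rfl
  rw [key]
  exact nil.map _

end Cfsg.Agent.S0905
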