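import Cfsg.Statements.S0909
import Cfsg.Agent.H20.BlockIdem

set_option autoImplicit false
open Cfsg

namespace Cfsg.Agent.S0909

open Cfsg.Agent.H20 Cfsg.Agent.H4

/-- Let A be a set of irreducible characters of the finite group G such that, for every g, the inverse of the group order times the sum over χ ∈ A of χ 1 * conj (χ g) is a local integer at the maximal ideal M (containing the prime p) of the algebraic integers. Then A is a union of blocks relative to M: it contains the whole block of each of its members. -/
theorem result {G : Type*} [Group G] [Finite G] (p : ℕ) [Fact p.Prime] (M : Ideal Cfsg.AlgInt) (hM : Cfsg.IsPModular p M) (A : Set (Cfsg.IrrCharacter G)) (hA : ∀ g : G, Cfsg.MemLocalRing M (Cfsg.blockCoeff A g)) (χ : Cfsg.IrrCharacter G) (hχ : χ ∈ A) : Cfsg.blockOf M (χ : G → ℂ) ⊆ A := by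
  classical
  have : Fintype G := Fintype.ofFinite G
  have hMp := isPrime_of_isPModular hM
  intro ψ hψ
  have hblock : SameBlock M (χ : G → ℂ) (ψ : G → ℂ) := hψ
  have hz : blockElt A ∈ cfSubring G (localRing M hMp) :=
    ⟨isCF_blockElt A, fun g => by rw [coeff_blockElt]; exact hA g⟩
  have h1 := omega_sub_omega_memLocalIdeal hMp _ _ (irr_isClassFunction χ) (irr_isClassFunction ψ)
    hblock hz
  rw [omega_blockElt, omega_blockElt, if_pos hχ] at h1
  by_contra hψA
  rw [if_neg hψA, sub_zero] at h1
  exact not_memLocalIdeal_one hMp h1

end Cfsg.Agent.S0909
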