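import Cfsg.Statements.S0920
import Cfsg.Agent.H20.FirstMain

set_option autoImplicit false
set_option linter.style.haveILetI false
open Cfsg

namespace Cfsg.Agent.S0920

/-- Brauer's First Main Theorem. Let D be a p-subgroup of the finite group G with normalizer N, and fix a maximal ideal M of the algebraic integers containing p. Then (i) every block b of N having D as a defect group induces some block B of G having D as a defect group; (ii) every block of G with defect group D is induced by exactly one block of N with defect group D. -/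
theorem result {G : Type*} [Group G] [Finite G] (p : ℕ) [Fact p.Prime] (M : Ideal Cfsg.AlgInt) (hM : Cfsg.IsPModular p M) (D : Subgroup G) (hD : IsPGroup p D) : (∀ b : Set (Cfsg.IrrCharacter (Subgroup.normalizer (D : Set G))), Cfsg.IsPBlock M b → Cfsg.IsDefectGroup p M b (D.subgroupOf (Subgroup.normalizer (D : Set G))) → ∃ B : Set (Cfsg.IrrCharacter G), Cfsg.IsPBlock M B ∧ Cfsg.IsDefectGroup p M B D ∧ Cfsg.IsInducedBlock M (Subgroup.normalizer (D : Set G)) b B) ∧ (∀ B : Set (Cfsg.IrrCharacter G), Cfsg.IsPBlock M B → Cfsg.IsDefectGroup p M B D → ∃! b : Set (Cfsg.IrrCharacter (Subgroup.normalizer (D : Set G))), Cfsg.IsPBlock M b ∧ Cfsg.IsDefectGroup p M b (D.subgroupOf (Subgroup.normalizer (D : Set G))) ∧ Cfsg.IsInducedBlock M (Subgroup.normalizer (D : Set G)) b B) := by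
  classical
  letI : Fintype G := Fintype.ofFinite G
  refine ⟨?_, ?_⟩
  · rintro b ⟨ξ₀, rfl⟩ hdef
    obtain ⟨χ₀, h1, h2⟩ := Cfsg.Agent.H20.first_main_i hM D hD ξ₀ hdef
    exact ⟨_, ⟨χ₀, rfl⟩, h1, h2⟩
  · rintro B ⟨χ₀, rfl⟩ hdef
    obtain ⟨ξ₀, h1, h2⟩ := Cfsg.Agent.H20.first_main_exists hM D hD χ₀ hdef
    refine ⟨_, ⟨⟨ξ₀, rfl⟩, h1, h2⟩, ?_⟩
    rintro b' ⟨⟨ξ₂, rfl⟩, h1', h2'⟩
    exact Cfsg.Agent.H20.first_main_unique hM D hD χ₀ ξ₀ ξ₂ h1 h2 h2'

end Cfsg.Agent.S0920
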