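import Cfsg.Statements.S0924
import Cfsg.Agent.H20.SecondMain3

set_option autoImplicit false
set_option linter.style.haveILetI false
open Cfsg

namespace Cfsg.Agent.S0924

/-- Let χ be an irreducible character of the finite group G and g ∈ G, and fix a maximal ideal M of the algebraic integers containing the prime p. If the p-part of g is contained in no defect group of the block of χ, then χ g = 0. -/
theorem result {G : Type*} [Group G] [Finite G] (p : ℕ) [Fact p.Prime] (M : Ideal Cfsg.AlgInt) (hM : Cfsg.IsPModular p M) (χ : Cfsg.IrrCharacter G) (g x : G) (hx : Cfsg.IsPPart p g x) (hD : ∀ D : Subgroup G, Cfsg.IsDefectGroup p M (Cfsg.blockOf M (χ : G → ℂ)) D → x ∉ D) : (χ : G → ℂ) g = 0 := by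
  classical
  letI : Fintype G := Fintype.ofFinite G
  exact Cfsg.Agent.H20.irr_eq_zero_of_pPart hM χ g x hx hD

end Cfsg.Agent.S0924
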