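import Cfsg.Statements.S0926
import Cfsg.Agent.H20.Sections

set_option autoImplicit false
set_option linter.style.haveILetI false
open Cfsg

namespace Cfsg.Agent.S0926

/-- Let B be a block of the finite group G with defect group D (relative to a maximal ideal M of the algebraic integers containing p), let χ ∈ B have height zero, and let x be a p-element. Then some conjugate of x lies in D if and only if χ does not vanish on the whole p-section of x (the elements whose p-part is conjugate to x). -/
theorem result {G : Type*} [Group G] [Finite G] (p : ℕ) [Fact p.Prime] (M : Ideal Cfsg.AlgInt) (hM : Cfsg.IsPModular p M) (B : Set (Cfsg.IrrCharacter G)) (hB : Cfsg.IsPBlock M B) (D : Subgroup G) (hD : Cfsg.IsDefectGroup p M B D) (χ : Cfsg.IrrCharacter G) (hχ : χ ∈ B) (h0 : Cfsg.blockHeight p B (χ : G → ℂ) = 0) (x : G) (hx : ∃ k : ℕ, orderOf x = p ^ k) : (∃ g : G, g * x * g⁻¹ ∈ D) ↔ ∃ u : G, (∃ z : G, Cfsg.IsPPart p u z ∧ IsConj x z) ∧ (χ : G → ℂ) u ≠ 0 := by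
  classical
  letI : Fintype G := Fintype.ofFinite G
  obtain ⟨k, hk⟩ := hx
  obtain ⟨χ₀, rfl⟩ := hB
  exact Cfsg.Agent.H20.exists_conj_mem_defectGroup_iff hM χ₀ D hD χ hχ h0 x hk

end Cfsg.Agent.S0926
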