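import Cfsg.Statements.S0931
import Cfsg.Agent.H20.PElement
import Cfsg.Agent.H81.DefZero
import Cfsg.Agent.S0906
import Cfsg.Agent.S0917

set_option autoImplicit false
set_option linter.style.haveILetI false
open Cfsg

namespace Cfsg.Agent.S0931

/-- Let H be a subgroup of the finite group G and fix a maximal ideal M of the algebraic integers containing the prime p. If the block b of H induces the block B of G, then b has defect 0 if and only if B has defect 0. -/
theorem result {G : Type*} [Group G] [Finite G] (p : ℕ) [Fact p.Prime] (M : Ideal Cfsg.AlgInt) (hM : Cfsg.IsPModular p M) (H : Subgroup G) (b : Set (Cfsg.IrrCharacter H)) (B : Set (Cfsg.IrrCharacter G)) (hind : Cfsg.IsInducedBlock M H b B) : Cfsg.blockDefect p b = 0 ↔ Cfsg.blockDefect p B = 0 := by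
  classical
  haveI : Fintype G := Fintype.ofFinite G
  haveI : Fintype H := Fintype.ofFinite H
  have hp : p.Prime := hM.1
  have hMp := Cfsg.Agent.H20.isPrime_of_isPModular hM
  obtain ⟨ξ₀, hbe⟩ := hind.1
  obtain ⟨χ₀, hBe⟩ := hind.2.1
  subst hbe
  subst hBe
  have hχ₀ : χ₀ ∈ Cfsg.blockOf M (χ₀ : G → ℂ) := Cfsg.Agent.H80.sameBlock_refl hMp _
  have hξ₀ : ξ₀ ∈ Cfsg.blockOf M (ξ₀ : H → ℂ) := Cfsg.Agent.H80.sameBlock_refl hMp _
  constructor
  · intro hd
    by_contra hne
    -- `ξ₀` has defect zero, hence vanishes on `p`-singular elements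
    have h1 : (Nat.card H).factorization p ≤ (Cfsg.charDegree (ξ₀ : H → ℂ)).factorization p := by
      unfold Cfsg.blockDefect at hd
      exact (Nat.sub_eq_zero_iff_le.mp hd).trans (Nat.sInf_le (Set.mem_image_of_mem _ hξ₀))
    have h2 : p ^ (Nat.card H).factorization p ∣ Cfsg.charDegree (ξ₀ : H → ℂ) :=
      (Nat.Prime.pow_dvd_iff_le_factorization hp
        (Cfsg.Agent.H81.irr_charDegree ξ₀).2.ne').mpr h1
    have hsing := Cfsg.Agent.H81.blockOf_eq_singleton_of_defect_zero hM ξ₀
      (Cfsg.Agent.H81.not_dvd_div_of_pow_dvd hp ξ₀ h2)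
    have hvan := Cfsg.Agent.H81.vanish_of_blockOf_eq_singleton hM ξ₀ hsing
    -- a defect class of `B` and a nontrivial central element of the defect group
    obtain ⟨y, hy⟩ := Cfsg.Agent.S0906.result p M hM _ ⟨χ₀, rfl⟩
    obtain ⟨P⟩ : Nonempty (Sylow p (Subgroup.centralizer ({y} : Set G))) := inferInstance
    have hcard := Cfsg.Agent.H20.card_defectGroup hM χ₀
      ((P : Subgroup (Subgroup.centralizer ({y} : Set G))).map
        (Subgroup.centralizer ({y} : Set G)).subtype) ⟨y, hy, P, rfl⟩
    rw [Subgroup.card_map_of_injective (Subgroup.subtype_injective _)] at hcard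
    haveI : Nontrivial (P : Subgroup (Subgroup.centralizer ({y} : Set G))) := by
      rw [← Finite.one_lt_card_iff_nontrivial, hcard]
      exact Nat.one_lt_pow hne hp.one_lt
    haveI := IsPGroup.center_nontrivial P.isPGroup'
    obtain ⟨⟨x, hxc⟩, hx1⟩ := exists_ne
      (1 : Subgroup.center (P : Subgroup (Subgroup.centralizer ({y} : Set G))))
    have hx1' : ((x : Subgroup.centralizer ({y} : Set G)) : G) ≠ 1 := by
      intro h
      apply hx1
      apply Subtype.ext
      apply Subtype.ext
      apply Subtype.ext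
      exact h
    have hxc' : ∀ w ∈ (P : Subgroup (Subgroup.centralizer ({y} : Set G))),
        (x : Subgroup.centralizer ({y} : Set G)) * w = w * (x : Subgroup.centralizer ({y} : Set G)) := by
      intro w hw
      have := Subgroup.mem_center_iff.mp hxc ⟨w, hw⟩
      have h3 := congrArg (fun v : (P : Subgroup (Subgroup.centralizer ({y} : Set G))) =>
        (v : Subgroup.centralizer ({y} : Set G))) this
      exact h3.symm
    have hnot := Cfsg.Agent.H20.not_memLocalIdeal_centralChar_mul hM χ₀ y hy P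
      (x : Subgroup.centralizer ({y} : Set G)) x.2 hxc' χ₀ hχ₀
    obtain ⟨k, hk⟩ := P.isPGroup' x
    have hxk : ((x : Subgroup.centralizer ({y} : Set G)) : G) ^ p ^ k = 1 := by
      have := congrArg (fun v : (P : Subgroup (Subgroup.centralizer ({y} : Set G))) =>
        ((v : Subgroup.centralizer ({y} : Set G)) : G)) hk
      simpa using this
    have hxy : Commute ((x : Subgroup.centralizer ({y} : Set G)) : G) y :=
      Subgroup.mem_centralizer_singleton_iff.mp (x : Subgroup.centralizer ({y} : Set G)).2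
    have hyreg := Cfsg.Agent.H20.not_dvd_orderOf_of_isDefectClass hM χ₀ y hy
    have hdvd := Cfsg.Agent.H20.dvd_orderOf_mul_of_pElement hp _ y hxy hxk hx1' hyreg
    have hzero : Cfsg.inducedCentralChar H (ξ₀ : H → ℂ)
        (((x : Subgroup.centralizer ({y} : Set G)) : G) * y) = 0 := by
      unfold Cfsg.inducedCentralChar
      apply finsum_mem_eq_zero_of_forall_eq_zero
      intro h hh
      obtain ⟨c, hc⟩ := isConj_iff.mp (hh : IsConj _ (h : G))
      have ho : orderOf (h : G) = orderOf (((x : Subgroup.centralizer ({y} : Set G)) : G) * y) := by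
        rw [← hc]
        have := orderOf_injective (MulAut.conj c).toMonoidHom (MulAut.conj c).injective
          (((x : Subgroup.centralizer ({y} : Set G)) : G) * y)
        simpa using this
      have ho' : p ∣ orderOf h := by
        rw [← Subgroup.orderOf_coe, ho]; exact hdvd
      rw [hvan h ho', zero_div]
    have h4 := hind.2.2 ξ₀ hξ₀ χ₀ hχ₀ (((x : Subgroup.centralizer ({y} : Set G)) : G) * y)
    rw [hzero, zero_sub] at h4
    have h5 := Cfsg.Agent.H20.memLocalIdeal_neg h4
    rw [neg_neg] at h5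
    exact hnot h5
  · intro hd
    obtain ⟨k, hk⟩ := Cfsg.Agent.S0906.result p M hM _ ⟨ξ₀, rfl⟩
    obtain ⟨Q⟩ : Nonempty (Sylow p (Subgroup.centralizer ({k} : Set H))) := inferInstance
    have hD : Cfsg.IsDefectGroup p M (Cfsg.blockOf M (ξ₀ : H → ℂ))
        ((Q : Subgroup (Subgroup.centralizer ({k} : Set H))).map
          (Subgroup.centralizer ({k} : Set H)).subtype) := ⟨k, hk, Q, rfl⟩
    obtain ⟨E, hE, hDE⟩ := Cfsg.Agent.S0917.result p M hM H _ ⟨ξ₀, rfl⟩ _ ⟨χ₀, rfl⟩ hind _ hD
    have hEc := Cfsg.Agent.H20.card_defectGroup hM χ₀ E hE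
    rw [hd, pow_zero] at hEc
    have h1 := Subgroup.card_dvd_of_le hDE
    rw [hEc, Subgroup.card_map_of_injective (Subgroup.subtype_injective _),
      Cfsg.Agent.H20.card_defectGroup hM ξ₀ _ hD] at h1
    have h2 : p ^ Cfsg.blockDefect p (Cfsg.blockOf M (ξ₀ : H → ℂ)) = 1 := Nat.dvd_one.mp h1
    rcases Nat.pow_eq_one.mp h2 with h3 | h3
    · exact absurd h3 hp.one_lt.ne'
    · exact h3

end Cfsg.Agent.S0931
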