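import Cfsg.Statements.S0933
import Cfsg.Agent.H20.ClassSum
import Cfsg.Agent.H20.LocalRing
import Cfsg.Agent.S0932

set_option autoImplicit false
open Cfsg

namespace Cfsg.Agent.S0933

open Cfsg.Agent.H20

/-- Characters (traces of representations) are class functions. -/
theorem isIrrCharacter_conj {H : Type*} [Group H] {ξ : H → ℂ} (hξ : IsIrrCharacter H ξ) (h x : H) :
    ξ (x * h * x⁻¹) = ξ h := by
  obtain ⟨n, ρ, _, rfl⟩ := hξ
  exact ρ.char_conj h x

theorem result {G : Type*} [Group G] [Fintype G] (p : ℕ) [Fact p.Prime] (M : Ideal Cfsg.AlgInt) (hM : Cfsg.IsPModular p M) (H : Subgroup G) (ξ : Cfsg.IrrCharacter H) (hind : Cfsg.IsIrrCharacter G (Cfsg.indFun H (ξ : H → ℂ))) : Cfsg.IsInducedBlock M H (Cfsg.blockOf M (ξ : H → ℂ)) (Cfsg.blockOf M (Cfsg.indFun H (ξ : H → ℂ))) := by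
  classical
  have hMp := isPrime_of_isPModular hM
  have : Fintype H := Fintype.ofFinite H
  refine ⟨⟨ξ, rfl⟩, ⟨⟨_, hind⟩, rfl⟩, ?_⟩
  intro ξ' hξ' χ hχ g
  have hξ'' : ∀ h : H, MemLocalIdeal M (centralChar (ξ : H → ℂ) h - centralChar (ξ' : H → ℂ) h) := hξ'
  have hχ' : MemLocalIdeal M (centralChar (indFun H (ξ : H → ℂ)) g - centralChar (χ : G → ℂ) g) :=
    hχ g
  rw [← Cfsg.Agent.S0932.inducedCentralChar_eq] at hχ'
  have key : MemLocalIdeal M (inducedCentralChar H (ξ : H → ℂ) g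
      - inducedCentralChar H (ξ' : H → ℂ) g) := by
    unfold inducedCentralChar
    rw [finsum_mem_eq_finite_toFinset_sum _ (Set.toFinite _),
      finsum_mem_eq_finite_toFinset_sum _ (Set.toFinite _), ← Finset.sum_sub_distrib]
    rw [← mem_localIdeal hMp]
    apply sum_mem_of_conj_closed (localIdeal M hMp)
      (fun h : H => (ξ : H → ℂ) h / (ξ : H → ℂ) 1 - (ξ' : H → ℂ) h / (ξ' : H → ℂ) 1)
    · intro h x
      show (ξ : H → ℂ) (x * h * x⁻¹) / (ξ : H → ℂ) 1 - (ξ' : H → ℂ) (x * h * x⁻¹) / (ξ' : H → ℂ) 1 = _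
      rw [isIrrCharacter_conj ξ.2, isIrrCharacter_conj ξ'.2]
    · intro h
      rw [mem_localIdeal]
      have := hξ'' h
      unfold centralChar at this
      convert this using 1
      ring
    · intro h hh x
      rw [Set.Finite.mem_toFinset, Set.mem_ofPred_eq] at hh ⊢
      refine hh.trans (isConj_iff.mpr ⟨(x : G), ?_⟩)
      simp
  have := memLocalIdeal_sub hMp hχ' key
  convert this using 1
  ring

end Cfsg.Agent.S0933
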