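import Cfsg.Statements.S0934
import Cfsg.Agent.H20.BlockInd
import Cfsg.Agent.S0932

set_option autoImplicit false
open Cfsg

namespace Cfsg.Agent.S0934

open Cfsg.Agent.H20 Cfsg.Agent.H4

/-- Let H be a subgroup of the finite group G and fix a maximal ideal M of the algebraic integers containing the prime p. If the block b of H induces the block B of G and ξ ∈ b, then there is χ ∈ B whose restriction to H has nonzero inner product with ξ. -/
theorem result {G : Type*} [Group G] [Fintype G] (p : ℕ) [Fact p.Prime] (M : Ideal Cfsg.AlgInt) (hM : Cfsg.IsPModular p M) (H : Subgroup G) [Fintype H] (b : Set (Cfsg.IrrCharacter H)) (B : Set (Cfsg.IrrCharacter G)) (hind : Cfsg.IsInducedBlock M H b B) (ξ : Cfsg.IrrCharacter H) (hξ : ξ ∈ b) : ∃ χ ∈ B, Cfsg.classInner (fun h : H => (χ : G → ℂ) h) (ξ : H → ℂ) ≠ 0 := by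
  classical
  let _ := fintypeIrr G
  have hMp := isPrime_of_isPModular hM
  obtain ⟨_, ⟨χ₀, rfl⟩, hcong⟩ := hind
  have hχ₀ : χ₀ ∈ blockOf M (χ₀ : G → ℂ) := by
    show SameBlock M (χ₀ : G → ℂ) (χ₀ : G → ℂ)
    intro g
    rw [sub_self]
    exact memLocalIdeal_zero hMp
  by_contra hcon
  have hcon' : ∀ χ ∈ blockOf M (χ₀ : G → ℂ),
      classInner (fun h : H => (χ : G → ℂ) h) (ξ : H → ℂ) = 0 := by
    intro χ hχ
    by_contra h
    exact hcon ⟨χ, hχ, h⟩
  have hΘcl : IsClassFunction G (indFun H (ξ : H → ℂ)) := indFun_isClassFunction H _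
  have hsame : SameBlock M (indFun H (ξ : H → ℂ)) (χ₀ : G → ℂ) := by
    intro g
    rw [← Cfsg.Agent.S0932.inducedCentralChar_eq]
    exact hcong ξ hξ χ₀ hχ₀ g
  have hz := blockElt_mem hMp χ₀
  have h1 := omega_sub_omega_memLocalIdeal hMp _ _ hΘcl (irr_isClassFunction χ₀) hsame hz
  rw [omega_blockElt, if_pos hχ₀] at h1
  have h0 : omega (indFun H (ξ : H → ℂ)) (blockElt (blockOf M (χ₀ : G → ℂ))) = 0 := by
    unfold omega
    rw [sum_coeff_mul_classFunction hΘcl]
    have : ∀ χ : IrrCharacter G, classInner (indFun H (ξ : H → ℂ)) (χ : G → ℂ) *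
        ((χ : G → ℂ) 1 * omega (χ : G → ℂ) (blockElt (blockOf M (χ₀ : G → ℂ)))) = 0 := by
      intro χ
      rw [omega_blockElt]
      split_ifs with hχ
      · rw [frobenius_reciprocity H _ _ (irr_isClassFunction χ), ← classInner_conj_symm,
          hcon' χ hχ]
        simp
      · simp
    rw [Finset.sum_congr rfl (fun χ _ => this χ), Finset.sum_const_zero, zero_div]
  rw [h0, zero_sub] at h1
  have h2 := memLocalIdeal_neg h1
  rw [neg_neg] at h2
  exact not_memLocalIdeal_one hMp h2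

end Cfsg.Agent.S0934
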