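import Cfsg.Statements.S0935
import Cfsg.Agent.H20.HeightZero

set_option autoImplicit false
set_option linter.style.haveILetI false
open Cfsg

namespace Cfsg.Agent.S0935

/-- Let H be a subgroup of the finite group G and χ an irreducible character of G whose restriction to H is irreducible; fix a maximal ideal M of the algebraic integers containing the prime p and suppose χ and its restriction have height zero in their blocks B and b. If e is a block of H whose induced block is defined, then e induces B if and only if e = b. -/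
theorem result {G : Type*} [Group G] [Finite G] (p : ℕ) [Fact p.Prime] (M : Ideal Cfsg.AlgInt) (hM : Cfsg.IsPModular p M) (H : Subgroup G) (χ : Cfsg.IrrCharacter G) (hres : Cfsg.IsIrrCharacter H (fun h : H => (χ : G → ℂ) h)) (hχ0 : Cfsg.blockHeight p (Cfsg.blockOf M (χ : G → ℂ)) (χ : G → ℂ) = 0) (hψ0 : Cfsg.blockHeight p (Cfsg.blockOf M (fun h : H => (χ : G → ℂ) h)) (fun h : H => (χ : G → ℂ) h) = 0) (e : Set (Cfsg.IrrCharacter H)) (he : Cfsg.InducedBlockDefined M H e) : Cfsg.IsInducedBlock M H e (Cfsg.blockOf M (χ : G → ℂ)) ↔ e = Cfsg.blockOf M (fun h : H => (χ : G → ℂ) h) := by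
  classical
  letI : Fintype G := Fintype.ofFinite G
  letI : Fintype H := Fintype.ofFinite H
  have hMp := Cfsg.Agent.H20.isPrime_of_isPModular hM
  obtain ⟨ψ, hψdef⟩ : ∃ ψ : Cfsg.IrrCharacter H, (ψ : H → ℂ) = fun h : H => (χ : G → ℂ) h :=
    ⟨⟨_, hres⟩, rfl⟩
  rw [← hψdef] at hψ0 ⊢
  have htr : Cfsg.Agent.H80.truncTo H (Cfsg.Agent.H20.regElt p (χ : G → ℂ)) =
      Cfsg.Agent.H20.regElt p (ψ : H → ℂ) := by
    apply MonoidAlgebra.coeff_injective
    ext h
    rw [Cfsg.Agent.H80.coeff_truncTo, Cfsg.Agent.H20.coeff_regElt, Cfsg.Agent.H20.coeff_regElt,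
      Subgroup.orderOf_coe, hψdef]
    rfl
  have hχself := Cfsg.Agent.H80.mem_blockOf_self hMp χ
  have hψself := Cfsg.Agent.H80.mem_blockOf_self hMp ψ
  have hkl := Cfsg.Agent.H20.not_memLocalIdeal_omega_regElt hM ψ hψ0
  constructor
  · intro hind
    obtain ⟨θ₀, hθ₀⟩ := hind.1
    have hθ₀e : θ₀ ∈ e := by rw [hθ₀]; exact Cfsg.Agent.H80.mem_blockOf_self hMp θ₀
    have key := (Cfsg.Agent.H20.inner_regular_induced hM H e _ hind χ θ₀ hθ₀e).2 hχself hχ0
    rw [htr] at key
    by_contra hne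
    apply key
    have hnot : θ₀ ∉ Cfsg.blockOf M (ψ : H → ℂ) := by
      intro hmem
      apply hne
      rw [hθ₀]
      exact Cfsg.Agent.H80.blockOf_eq_of_mem hMp hmem
    rw [Cfsg.Agent.H20.omega_regElt_eq, Cfsg.Agent.H81.wbo_two (p := p) hM ψ θ₀ hnot, mul_zero,
      zero_div]
    exact Cfsg.Agent.H20.memLocalIdeal_zero hMp
  · intro heq
    obtain ⟨B', hind'⟩ := he
    have hψe : ψ ∈ e := by rw [heq]; exact hψself
    have key := (Cfsg.Agent.H20.inner_regular_induced hM H e B' hind' χ ψ hψe).1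
    rw [htr] at key
    have hχB' : χ ∈ B' := by
      by_contra hnot
      exact hkl (key hnot)
    obtain ⟨χ₁, hχ₁⟩ := hind'.2.1
    have hB' : Cfsg.blockOf M (χ : G → ℂ) = B' := by
      rw [hχ₁] at hχB' ⊢
      exact Cfsg.Agent.H80.blockOf_eq_of_mem hMp hχB'
    rw [hB']
    exact hind'

end Cfsg.Agent.S0935
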