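import Cfsg.Statements.S0937
import Cfsg.Agent.H20.HeightZero

set_option autoImplicit false
set_option linter.style.haveILetI false
open Cfsg

namespace Cfsg.Agent.S0937

/-- Let H be a subgroup of the finite group G and fix a maximal ideal M of the algebraic integers containing the prime p. If the block b of H induces the block B of G and χ ∈ B has height zero, then there is ξ ∈ b of height zero whose multiplicity in the restriction of χ to H is a natural number not divisible by p. -/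
theorem result {G : Type*} [Group G] [Fintype G] (p : ℕ) [Fact p.Prime] (M : Ideal Cfsg.AlgInt) (hM : Cfsg.IsPModular p M) (H : Subgroup G) [Fintype H] (b : Set (Cfsg.IrrCharacter H)) (B : Set (Cfsg.IrrCharacter G)) (hind : Cfsg.IsInducedBlock M H b B) (χ : Cfsg.IrrCharacter G) (hχ : χ ∈ B) (h0 : Cfsg.blockHeight p B (χ : G → ℂ) = 0) : ∃ ξ ∈ b, Cfsg.blockHeight p b (ξ : H → ℂ) = 0 ∧ ∃ n : ℕ, Cfsg.classInner (fun h : H => (χ : G → ℂ) h) (ξ : H → ℂ) = (n : ℂ) ∧ ¬ p ∣ n := by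
  classical
  letI := Cfsg.Agent.H4.fintypeIrr H
  have hMp := Cfsg.Agent.H20.isPrime_of_isPModular hM
  have hp : p.Prime := hM.1
  -- decomposition of the restriction
  have hchar : Cfsg.IsCharacter H (fun h : H => (χ : G → ℂ) h) :=
    Cfsg.Agent.H4.isCharacter_restrict H (Cfsg.Agent.H4.isCharacter_of_isIrrCharacter χ.2)
  obtain ⟨m, hm⟩ := Cfsg.Agent.H4.isCharacter_iff.mp hchar
  have hm' : ∀ h : H, (χ : G → ℂ) h =
      ∑ ξ : Cfsg.IrrCharacter H, (m ξ : ℂ) * (ξ : H → ℂ) h := by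
    intro h
    have := congrFun hm h
    rw [Cfsg.Agent.H4.finsum_irr_eq_sum, Finset.sum_apply] at this
    simpa using this
  have hinner : ∀ ξ : Cfsg.IrrCharacter H,
      Cfsg.classInner (fun h : H => (χ : G → ℂ) h) (ξ : H → ℂ) = (m ξ : ℂ) := by
    intro ξ
    rw [hm]
    exact Cfsg.Agent.H4.classInner_finsum_irr (fun ξ => (m ξ : ℂ)) ξ
  -- a height zero character of b
  obtain ⟨ξ₁, hξ₁⟩ := hind.1
  have hξ₁b : ξ₁ ∈ b := by rw [hξ₁]; exact Cfsg.Agent.H80.mem_blockOf_self hMp ξ₁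
  have hne : ((fun ψ : Cfsg.IrrCharacter H =>
      (Cfsg.charDegree (ψ : H → ℂ)).factorization p) '' b).Nonempty := ⟨_, ξ₁, hξ₁b, rfl⟩
  obtain ⟨ψ, hψ, hψmin⟩ := Nat.sInf_mem hne
  have key := (Cfsg.Agent.H20.inner_regular_induced hM H b B hind χ ψ hψ).2 hχ h0
  rw [Cfsg.Agent.H20.truncTo_regElt_eq_sum H (χ : G → ℂ) (fun ξ => (m ξ : ℂ)) hm',
    Cfsg.Agent.H20.omega_sum] at key
  by_contra hcon
  push Not at hcon
  apply key
  apply Cfsg.Agent.H20.memLocalIdeal_sum hMp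
  intro ξ _
  rw [Cfsg.Agent.H20.omega_smul]
  by_cases hξb : ξ ∈ b
  · by_cases hξ0 : Cfsg.blockHeight p b (ξ : H → ℂ) = 0
    · have hdvd := hcon ξ hξb hξ0 (m ξ) (hinner ξ)
      exact Cfsg.Agent.H20.memLocalIdeal_mul_right hMp
        ((Cfsg.Agent.H20.memLocalIdeal_natCast_iff hM _).mpr hdvd)
        (Cfsg.Agent.H20.omega_memLocalRing hMp ψ (Cfsg.Agent.H20.regElt_mem hMp p ξ))
    · apply Cfsg.Agent.H20.memLocalIdeal_mul_left hMp (Cfsg.Agent.H20.memLocalRing_natCast hMp _)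
      apply Cfsg.Agent.H20.omega_regElt_mem_of_height hM
      unfold Cfsg.blockHeight at hξ0
      simp only at hψmin
      omega
  · have h2 : Cfsg.Agent.H20.omega (ψ : H → ℂ) (Cfsg.Agent.H20.regElt p (ξ : H → ℂ)) = 0 := by
      have hnot : ψ ∉ Cfsg.blockOf M (ξ : H → ℂ) := by
        intro hmem
        apply hξb
        have hb : Cfsg.blockOf M (ψ : H → ℂ) = b := by
          rw [hξ₁] at hψ ⊢
          exact Cfsg.Agent.H80.blockOf_eq_of_mem hMp hψ
        rw [← hb]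
        exact Cfsg.Agent.H80.sameBlock_symm hmem
      rw [Cfsg.Agent.H20.omega_regElt_eq, Cfsg.Agent.H81.wbo_two (p := p) hM ξ ψ hnot, mul_zero,
        zero_div]
    rw [h2, mul_zero]
    exact Cfsg.Agent.H20.memLocalIdeal_zero hMp

end Cfsg.Agent.S0937
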