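import Cfsg.Statements.S0938
import Cfsg.Agent.H20.SubgroupIdem
import Cfsg.Agent.H80.Block
import Cfsg.Agent.H81.WBO

set_option autoImplicit false
set_option linter.style.haveILetI false
open Cfsg

namespace Cfsg.Agent.S0938

open scoped ComplexConjugate

/-- Let B be a block of the finite group G relative to a maximal ideal M of the algebraic integers containing the prime p, and let χ ∈ B. Then the kernel of B (the set of g with ψ g = ψ 1 for all ψ ∈ B) is a normal subgroup of order prime to p contained in the kernel of χ, and it contains every normal subgroup of order prime to p on which χ takes the value χ(1); that is, it is O_p' of the kernel of χ. -/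
theorem result {G : Type*} [Group G] [Finite G] (p : ℕ) [Fact p.Prime] (M : Ideal Cfsg.AlgInt) (hM : Cfsg.IsPModular p M) (B : Set (Cfsg.IrrCharacter G)) (hB : Cfsg.IsPBlock M B) (χ : Cfsg.IrrCharacter G) (hχ : χ ∈ B) : ∃ K : Subgroup G, K.Normal ∧ (K : Set G) = Cfsg.blockKer B ∧ ¬ p ∣ Nat.card K ∧ (∀ g ∈ K, (χ : G → ℂ) g = (χ : G → ℂ) 1) ∧ ∀ N : Subgroup G, N.Normal → ¬ p ∣ Nat.card N → (∀ g ∈ N, (χ : G → ℂ) g = (χ : G → ℂ) 1) → N ≤ K := by
  classical
  haveI : Fintype G := Fintype.ofFinite G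
  letI := Cfsg.Agent.H4.fintypeIrr G
  have hMp := Cfsg.Agent.H20.isPrime_of_isPModular hM
  have hp : p.Prime := Fact.out
  obtain ⟨χ₀, rfl⟩ := hB
  refine ⟨⨅ ψ : {ψ : Cfsg.IrrCharacter G // ψ ∈ Cfsg.blockOf M (χ₀ : G → ℂ)},
    Cfsg.Agent.H82.irrKer ψ.1, ?_, ?_, ?_, ?_, ?_⟩
  · exact Subgroup.normal_iInf_normal (fun ψ => inferInstance)
  · ext g
    rw [SetLike.mem_coe, Subgroup.mem_iInf]
    constructor
    · intro h ψ hψ
      exact h ⟨ψ, hψ⟩
    · intro h ψ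
      exact h ψ.1 ψ.2
  · intro hdvd
    obtain ⟨y, hy⟩ := exists_prime_orderOf_dvd_card' p hdvd
    have hyG : p ∣ orderOf (y : G) := by
      rw [Subgroup.orderOf_coe, hy]
    have h1 := Cfsg.Agent.H81.wbo_one hM χ₀ 1 (y : G)
      (by rw [orderOf_one]; exact fun h => hp.one_lt.ne' (Nat.dvd_one.mp h)) hyG
    have hyK : ∀ ψ ∈ Cfsg.blockOf M (χ₀ : G → ℂ), (ψ : G → ℂ) (y : G) = (ψ : G → ℂ) 1 := by
      intro ψ hψ
      have := (Subgroup.mem_iInf.mp y.2) ⟨ψ, hψ⟩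
      exact this
    have h2 : ∑ᶠ ψ ∈ Cfsg.blockOf M (χ₀ : G → ℂ), (ψ : G → ℂ) 1 * conj ((ψ : G → ℂ) (y : G))
        = ∑ᶠ ψ ∈ Cfsg.blockOf M (χ₀ : G → ℂ), (ψ : G → ℂ) 1 * conj ((ψ : G → ℂ) 1) :=
      finsum_mem_congr rfl (fun ψ hψ => by rw [hyK ψ hψ])
    rw [h2, finsum_mem_eq_finite_toFinset_sum _ (Set.toFinite _)] at h1
    have h3 := congrArg Complex.re h1
    rw [Complex.re_sum, Complex.zero_re] at h3
    have hnn : ∀ ψ ∈ (Set.toFinite (Cfsg.blockOf M (χ₀ : G → ℂ))).toFinset,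
        0 ≤ ((ψ : G → ℂ) 1 * conj ((ψ : G → ℂ) 1)).re := by
      intro ψ _
      rw [Complex.mul_conj]
      exact_mod_cast Complex.normSq_nonneg _
    have h4 := (Finset.sum_eq_zero_iff_of_nonneg hnn).mp h3 χ
      ((Set.Finite.mem_toFinset _).mpr hχ)
    rw [Complex.mul_conj] at h4
    have h5 : Complex.normSq ((χ : G → ℂ) 1) = 0 := by exact_mod_cast h4
    exact Cfsg.Agent.H4.irr_one_ne_zero χ (Complex.normSq_eq_zero.mp h5)
  · intro g hg
    exact (Subgroup.mem_iInf.mp hg) ⟨χ, hχ⟩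
  · intro N hN hpN hker
    haveI := hN
    refine le_iInf (fun ψ => ?_)
    intro n hn
    have hs : Cfsg.SameBlock M (χ : G → ℂ) (ψ.1 : G → ℂ) :=
      Cfsg.Agent.H80.sameBlock_trans hMp (Cfsg.Agent.H80.sameBlock_symm hχ) ψ.2
    exact Cfsg.Agent.H20.ker_of_sameBlock hM N hpN χ ψ.1 hker hs n hn

end Cfsg.Agent.S0938
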