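import Cfsg.Statements.S0943
import Cfsg.Agent.H83.Basic

set_option autoImplicit false
open Cfsg

namespace Cfsg.Agent.S0943

/-- Let χ be an irreducible character of the finite group G and u, v ∈ G. If χ (x * y) = χ (u * v) whenever x is conjugate to u and y is conjugate to v, then χ u * χ v = χ 1 * χ (u * v). (Multiply the class sums of u and v and apply the central character of χ.) -/
theorem result {G : Type*} [Group G] [Finite G] (χ : Cfsg.IrrCharacter G) (u v : G) (hc : ∀ x y : G, IsConj u x → IsConj v y → (χ : G → ℂ) (x * y) = (χ : G → ℂ) (u * v)) : (χ : G → ℂ) u * (χ : G → ℂ) v = (χ : G → ℂ) 1 * (χ : G → ℂ) (u * v) := by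
  have := Fintype.ofFinite G
  have h1 := Cfsg.Agent.H83.irr_sum_conj_mul χ.2 u v
  have h2 : ∑ x : G, (χ : G → ℂ) (x * u * x⁻¹ * v) = (Nat.card G : ℂ) * (χ : G → ℂ) (u * v) := by
    rw [Finset.sum_congr rfl (fun x _ => hc (x * u * x⁻¹) v (isConj_iff.2 ⟨x, rfl⟩) (IsConj.refl v))]
    simp [Nat.card_eq_fintype_card]
  rw [h2] at h1
  have hcard : (Nat.card G : ℂ) ≠ 0 := by
    exact_mod_cast (Nat.card_pos (α := G)).ne'
  have h0 : (χ : G → ℂ) 1 ≠ 0 := Cfsg.Agent.H83.IsIrrCharacter.one_ne_zero χ.2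
  have h3 : (χ : G → ℂ) (u * v) = (χ : G → ℂ) u * (χ : G → ℂ) v / (χ : G → ℂ) 1 := by
    have : (Nat.card G : ℂ) * (χ : G → ℂ) (u * v)
        = (Nat.card G : ℂ) * ((χ : G → ℂ) u * (χ : G → ℂ) v / (χ : G → ℂ) 1) := by
      rw [h1]; ring
    exact mul_left_cancel₀ hcard this
  rw [h3]
  field_simp

end Cfsg.Agent.S0943
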