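import Cfsg.Statements.S0946
import Cfsg.Agent.H21.Homocyclic4

set_option autoImplicit false
open Cfsg

namespace Cfsg.Agent.S0946

open Cfsg.Agent.H21 Subgroup

/-- An element of order `p` is conjugate into any given Sylow `p`-subgroup. -/
theorem exists_conj_mem_sylow {G : Type*} [Group G] [Finite G] {p : ℕ} [Fact p.Prime]
    (P : Sylow p G) (s : G) (hs : orderOf s = p) : ∃ g : G, g * s * g⁻¹ ∈ (P : Subgroup G) := by
  have hp : IsPGroup p (zpowers s) := by
    apply IsPGroup.of_card (n := 1)
    rw [Nat.card_zpowers, hs, pow_one]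
  obtain ⟨Q, hQ⟩ := hp.exists_le_sylow
  obtain ⟨g, hg⟩ := MulAction.exists_smul_eq G Q P
  refine ⟨g, ?_⟩
  have hsQ : s ∈ (Q : Subgroup G) := hQ (mem_zpowers s)
  rw [← hg, Sylow.smul_def, Sylow.pointwise_smul_def]
  have := Subgroup.smul_mem_pointwise_smul s (MulAut.conj g) (Q : Subgroup G) hsQ
  simpa [MulAut.smul_def] using this

/-- Let P be a Sylow 2-subgroup of the finite group G isomorphic to Z/2^m × Z/2^m with m ≥ 1. Then either P has a normal complement in G, or all involutions of G are conjugate. -/
theorem result {G : Type*} [Group G] [Finite G] (P : Sylow 2 G) (m : ℕ) (hm : 1 ≤ m) (e : (P : Subgroup G) ≃* Multiplicative (ZMod (2 ^ m) × ZMod (2 ^ m))) : (∃ N : Subgroup G, N.Normal ∧ Subgroup.IsComplement' N (P : Subgroup G)) ∨ ∀ s t : G, orderOf s = 2 → orderOf t = 2 → IsConj s t := by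
  rcases homocyclic_relIndex P m hm e with h1 | h3
  · left
    rw [Subgroup.relIndex_eq_one] at h1
    exact ⟨_, inferInstance, MonoidHom.ker_transferSylow_isComplement' P h1⟩
  · right
    obtain ⟨hab, hexp, t, u, htP, huP, ht2, hu2, ht1, hu1, htu, hall⟩ :=
      homocyclic_sylow_data (P : Subgroup G) m hm e
    have ht2' : t * t = 1 := by rw [← pow_two]; exact ht2
    have hu2' : u * u = 1 := by rw [← pow_two]; exact hu2
    have hcomm : t * u = u * t := hab t htP u huP
    have htu2 : (t * u) ^ 2 = 1 := by
      rw [pow_two]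
      calc t * u * (t * u) = t * (u * t) * u := by group
        _ = t * (t * u) * u := by rw [hcomm]
        _ = (t * t) * (u * u) := by group
        _ = 1 := by rw [ht2', hu2', one_mul]
    have htu1 : t * u ≠ 1 := by
      intro h
      apply htu
      calc t = t * (u * u) := by rw [hu2', mul_one]
        _ = (t * u) * u := by group
        _ = u := by rw [h, one_mul]
    -- an element n of N outside C
    have hne : ¬ normalizer ((P : Subgroup G) : Set G) ≤ centralizer ((P : Subgroup G) : Set G) := by
      rw [← Subgroup.relIndex_eq_one, h3]; norm_num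
    obtain ⟨n, hnN, hnC⟩ := SetLike.not_le_iff_exists.1 hne
    have hfix : ∀ τ ∈ (P : Subgroup G), τ ≠ 1 → n * τ * n⁻¹ ≠ τ := by
      intro τ hτP hτ1 hτ
      apply hnC
      apply homocyclic_centralizer_inf_normalizer P m hm e h3 n hnN τ hτP hτ1
      calc n * τ = (n * τ * n⁻¹) * n := by group
        _ = τ * n := by rw [hτ]
    have F1 : ∀ x y : G, n * (x * y) * n⁻¹ = (n * x * n⁻¹) * (n * y * n⁻¹) := by intro x y; group
    have F2 : ∀ x ∈ (P : Subgroup G), n * x * n⁻¹ ∈ (P : Subgroup G) :=
      fun x hx => (Subgroup.mem_normalizer_iff.1 hnN x).1 hx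
    have F3 : ∀ x : G, x ^ 2 = 1 → (n * x * n⁻¹) ^ 2 = 1 := by
      intro x hx; rw [conj_pow, hx]; group
    have F4 : ∀ x y : G, n * x * n⁻¹ = n * y * n⁻¹ → x = y := by
      intro x y h
      exact mul_left_cancel (mul_right_cancel h)
    have F5 : n * 1 * n⁻¹ = 1 := by group
    have key : IsConj t u ∧ IsConj t (t * u) := by
      rcases hall _ (F2 t htP) (F3 t ht2) with h | h | h | h
      · exact absurd (F4 t 1 (by rw [h, F5])) ht1
      · exact absurd h (hfix t htP ht1)
      · -- φ t = u
        rcases hall _ (F2 u huP) (F3 u hu2) with h' | h' | h' | h'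
        · exact absurd (F4 u 1 (by rw [h', F5])) hu1
        · exfalso
          apply hfix (t * u) (Subgroup.mul_mem _ htP huP) htu1
          rw [F1, h, h', hcomm]
        · exact absurd h' (hfix u huP hu1)
        · have c1 : IsConj t u := isConj_iff.2 ⟨n, h⟩
          have c2 : IsConj u (t * u) := isConj_iff.2 ⟨n, h'⟩
          exact ⟨c1, c1.trans c2⟩
      · -- φ t = t * u
        rcases hall _ (F2 u huP) (F3 u hu2) with h' | h' | h' | h'
        · exact absurd (F4 u 1 (by rw [h', F5])) hu1
        · have c1 : IsConj t (t * u) := isConj_iff.2 ⟨n, h⟩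
          have c2 : IsConj u t := isConj_iff.2 ⟨n, h'⟩
          exact ⟨c2.symm, c1⟩
        · exact absurd h' (hfix u huP hu1)
        · exact absurd (F4 t u (by rw [h, h'])) htu
    have hall' : ∀ s : G, orderOf s = 2 → IsConj s t := by
      intro s hs
      obtain ⟨g, hg⟩ := exists_conj_mem_sylow P s hs
      have hs2 : (g * s * g⁻¹) ^ 2 = 1 := by
        rw [conj_pow, ← hs, pow_orderOf_eq_one]; group
      have hs1 : g * s * g⁻¹ ≠ 1 := by
        intro h
        have : s = 1 := by
          have h2 : g * s * g⁻¹ = g * 1 * g⁻¹ := by rw [h]; group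
          exact mul_left_cancel (mul_right_cancel h2)
        rw [this, orderOf_one] at hs
        norm_num at hs
      have c0 : IsConj s (g * s * g⁻¹) := isConj_iff.2 ⟨g, rfl⟩
      rcases hall _ hg hs2 with h | h | h | h
      · exact absurd h hs1
      · rw [h] at c0; exact c0
      · rw [h] at c0; exact c0.trans key.1.symm
      · rw [h] at c0; exact c0.trans key.2.symm
    intro s s' hs hs'
    exact (hall' s hs).trans (hall' s' hs').symm

end Cfsg.Agent.S0946
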