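import Cfsg.Statements.S0952
import Cfsg.Agent.H81.Proj

set_option linter.style.haveILetI false

set_option autoImplicit false
open scoped ComplexConjugate
open Cfsg

namespace Cfsg.Agent.S0952

/-- Let χ and ψ be irreducible characters of the finite group G lying in different blocks relative to a maximal ideal M of the algebraic integers containing the prime p. Then the sum of χ x * conj (ψ x) over the elements x of order prime to p is zero. -/
theorem result {G : Type*} [Group G] [Finite G] (p : ℕ) [Fact p.Prime] (M : Ideal Cfsg.AlgInt) (hM : Cfsg.IsPModular p M) (χ ψ : Cfsg.IrrCharacter G) (h : ¬ Cfsg.SameBlock M (χ : G → ℂ) (ψ : G → ℂ)) : ∑ᶠ x ∈ {x : G | ¬ p ∣ orderOf x}, (χ : G → ℂ) x * conj ((ψ : G → ℂ) x) = 0 := by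
  classical
  haveI : Fintype G := Fintype.ofFinite G
  have h1 := Cfsg.Agent.H81.wbo_two (p := p) hM χ ψ h
  unfold classInner at h1
  have hG : (Nat.card G : ℂ) ≠ 0 := by exact_mod_cast (Nat.card_pos (α := G)).ne'
  have h2 := (mul_eq_zero.mp h1).resolve_left (inv_ne_zero hG)
  rw [finsum_mem_def, finsum_eq_sum_of_fintype, ← h2]
  apply Finset.sum_congr rfl
  intro x _
  rw [Set.indicator_apply]
  by_cases hx : p ∣ orderOf x
  · rw [if_neg (by simpa using hx), Cfsg.Agent.H81.pRegularPart_of_dvd p _ hx, zero_mul]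
  · rw [if_pos (by simpa using hx), Cfsg.Agent.H81.pRegularPart_of_not_dvd p _ hx]

end Cfsg.Agent.S0952
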