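import Cfsg.Statements.S0953
import Cfsg.Agent.H21.SylowBlocks
import Cfsg.Agent.S0920
import Cfsg.Agent.S0906
import Cfsg.Agent.S0912
import Cfsg.Agent.H20.FongReynolds2

set_option autoImplicit false
set_option linter.style.haveILetI false
open Cfsg

namespace Cfsg.Agent.S0953

/-- Every block of the normalizer of a Sylow `p`-subgroup `P` has `P` as a defect group. -/
theorem defect_normalizer {G : Type*} [Group G] [Finite G] (p : ℕ) [Fact p.Prime]
    (M : Ideal Cfsg.AlgInt) (hM : Cfsg.IsPModular p M) (P : Sylow p G)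
    (b : Set (Cfsg.IrrCharacter (Subgroup.normalizer ((P : Subgroup G) : Set G))))
    (hb : Cfsg.IsPBlock M b) :
    Cfsg.IsDefectGroup p M b
      ((P : Subgroup G).subgroupOf (Subgroup.normalizer ((P : Subgroup G) : Set G))) := by
  classical
  obtain ⟨g, hg⟩ := Cfsg.Agent.S0906.result p M hM b hb
  obtain ⟨S0⟩ : Nonempty (Sylow p (Subgroup.centralizer ({g} : Set
    (Subgroup.normalizer ((P : Subgroup G) : Set G))))) := inferInstance
  have hdef : Cfsg.IsDefectGroup p M b ((S0 : Subgroup _).map (Subgroup.centralizer ({g} : Set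
    (Subgroup.normalizer ((P : Subgroup G) : Set G)))).subtype) := ⟨g, hg, S0, rfl⟩
  have hcore := Cfsg.Agent.S0912.result p M hM b hb _ hdef
  have hQn : ((P : Subgroup G).subgroupOf (Subgroup.normalizer ((P : Subgroup G) : Set G))).Normal :=
    Subgroup.normal_in_normalizer
  have hQp : IsPGroup p ((P : Subgroup G).subgroupOf
      (Subgroup.normalizer ((P : Subgroup G) : Set G))) := P.isPGroup'.comap_subtype
  have hQle : (P : Subgroup G).subgroupOf (Subgroup.normalizer ((P : Subgroup G) : Set G)) ≤
      Cfsg.pCore p (Subgroup.normalizer ((P : Subgroup G) : Set G)) := le_sSup ⟨hQn, hQp⟩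
  have hDp : IsPGroup p ((S0 : Subgroup _).map (Subgroup.centralizer ({g} : Set
    (Subgroup.normalizer ((P : Subgroup G) : Set G)))).subtype) := S0.isPGroup'.map _
  have hmax := (P.subtype (Subgroup.le_normalizer)).is_maximal' hDp
    (by rw [Sylow.coe_subtype]; exact le_trans hQle hcore)
  rw [Sylow.coe_subtype] at hmax
  rw [← hmax]
  exact hdef

/-- Let P be a Sylow p-subgroup of the finite group G with normalizer N, and fix a maximal ideal M of the algebraic integers containing p. The number of blocks of G having P as a defect group equals the number of conjugacy classes of N consisting of elements of order prime to p that centralize P. -/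
theorem result {G : Type*} [Group G] [Finite G] (p : ℕ) [Fact p.Prime] (M : Ideal Cfsg.AlgInt) (hM : Cfsg.IsPModular p M) (P : Sylow p G) : Nat.card {B : Set (Cfsg.IrrCharacter G) // Cfsg.IsPBlock M B ∧ Cfsg.IsDefectGroup p M B (P : Subgroup G)} = Nat.card {C : ConjClasses (Subgroup.normalizer ((P : Subgroup G) : Set G)) // ∀ n : Subgroup.normalizer ((P : Subgroup G) : Set G), ConjClasses.mk n = C → ¬ p ∣ orderOf n ∧ (n : G) ∈ Subgroup.centralizer ((P : Subgroup G) : Set G)} := by
  classical
  haveI : Fintype G := Fintype.ofFinite G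
  have hMp := Cfsg.Agent.H20.isPrime_of_isPModular hM
  have hmain := Cfsg.Agent.S0920.result p M hM (P : Subgroup G) P.isPGroup'
  -- the normal Sylow subgroup of the normalizer
  have hQn : ((P : Subgroup G).subgroupOf (Subgroup.normalizer ((P : Subgroup G) : Set G))).Normal :=
    Subgroup.normal_in_normalizer
  have hQp : IsPGroup p ((P : Subgroup G).subgroupOf
      (Subgroup.normalizer ((P : Subgroup G) : Set G))) := P.isPGroup'.comap_subtype
  have hQidx : ¬ p ∣ ((P : Subgroup G).subgroupOf
      (Subgroup.normalizer ((P : Subgroup G) : Set G))).index := by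
    intro h
    have h1 : ((P : Subgroup G).subgroupOf
      (Subgroup.normalizer ((P : Subgroup G) : Set G))).index ∣ (P : Subgroup G).index := by
      have := Subgroup.relIndex_mul_index (Subgroup.le_normalizer (H := (P : Subgroup G)))
      exact Dvd.intro _ this
    exact P.not_dvd_index (dvd_trans h h1)
  -- Step 1: blocks of G with defect group P <-> blocks of the normalizer
  have step1 : Nat.card {B : Set (Cfsg.IrrCharacter G) // Cfsg.IsPBlock M B ∧
      Cfsg.IsDefectGroup p M B (P : Subgroup G)} =
      Nat.card {b : Set (Cfsg.IrrCharacter (Subgroup.normalizer ((P : Subgroup G) : Set G))) //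
        Cfsg.IsPBlock M b} := by
    have hex : ∀ b : {b : Set (Cfsg.IrrCharacter (Subgroup.normalizer ((P : Subgroup G) : Set G))) //
        Cfsg.IsPBlock M b}, ∃ B : Set (Cfsg.IrrCharacter G), Cfsg.IsPBlock M B ∧
        Cfsg.IsDefectGroup p M B (P : Subgroup G) ∧
        Cfsg.IsInducedBlock M (Subgroup.normalizer ((P : Subgroup G) : Set G)) b.1 B :=
      fun b => hmain.1 b.1 b.2 (defect_normalizer p M hM P b.1 b.2)
    choose Bf hBf using hex
    symm
    apply Nat.card_eq_of_bijective
      (fun b => (⟨Bf b, (hBf b).1, (hBf b).2.1⟩ : {B : Set (Cfsg.IrrCharacter G) //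
        Cfsg.IsPBlock M B ∧ Cfsg.IsDefectGroup p M B (P : Subgroup G)}))
    constructor
    · intro b b' hbb
      have hB : Bf b = Bf b' := congrArg Subtype.val hbb
      obtain ⟨b0, _, huniq⟩ := hmain.2 (Bf b) (hBf b).1 (hBf b).2.1
      have e1 := huniq b.1 ⟨b.2, defect_normalizer p M hM P b.1 b.2, (hBf b).2.2⟩
      have e2 := huniq b'.1 ⟨b'.2, defect_normalizer p M hM P b'.1 b'.2, by
        rw [hB]; exact (hBf b').2.2⟩
      exact Subtype.ext (e1.trans e2.symm)
    · intro B
      obtain ⟨b0, ⟨hb0, _, hind⟩, _⟩ := hmain.2 B.1 B.2.1 B.2.2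
      refine ⟨⟨b0, hb0⟩, Subtype.ext ?_⟩
      exact Cfsg.Agent.H20.isInducedBlock_unique hMp (hBf ⟨b0, hb0⟩).2.2 hind
  -- Step 2: count the blocks of the normalizer
  obtain ⟨K, hKn, hKp, hKmem⟩ := Cfsg.Agent.H21.SylowBlocks.exists_regular_subgroup
    ((P : Subgroup G).subgroupOf (Subgroup.normalizer ((P : Subgroup G) : Set G))) hQidx
  have step2 : Nat.card {b : Set (Cfsg.IrrCharacter (Subgroup.normalizer ((P : Subgroup G) : Set G))) //
        Cfsg.IsPBlock M b} =
      Nat.card {C : ConjClasses (Subgroup.normalizer ((P : Subgroup G) : Set G)) //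
        ∃ g : Subgroup.normalizer ((P : Subgroup G) : Set G), ConjClasses.mk g = C ∧
        (¬ p ∣ orderOf g ∧ g ∈ Subgroup.centralizer (SetLike.coe ((P : Subgroup G).subgroupOf
          (Subgroup.normalizer ((P : Subgroup G) : Set G)))))} := by
    apply le_antisymm
    · exact Cfsg.Agent.H21.SylowBlocks.card_blocks_le hM _ hQp
    · apply Cfsg.Agent.H21.SylowBlocks.card_classes_le hM K hKp
      · rintro h x ⟨h1, h2⟩
        refine ⟨?_, ?_⟩
        · rw [Cfsg.Agent.H81.orderOf_conj_eq]; exact h1
        · have hn : (Subgroup.centralizer (SetLike.coe ((P : Subgroup G).subgroupOf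
            (Subgroup.normalizer ((P : Subgroup G) : Set G))))).Normal :=
            inferInstance
          exact hn.conj_mem h h2 x
      · exact hKmem
  -- Step 3: rewrite the class condition
  have hcent : ∀ g : Subgroup.normalizer ((P : Subgroup G) : Set G),
      g ∈ Subgroup.centralizer (SetLike.coe ((P : Subgroup G).subgroupOf
          (Subgroup.normalizer ((P : Subgroup G) : Set G)))) ↔
      (g : G) ∈ Subgroup.centralizer ((P : Subgroup G) : Set G) := by
    intro g
    rw [Subgroup.mem_centralizer_iff, Subgroup.mem_centralizer_iff]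
    constructor
    · intro h x hx
      have hxN : x ∈ Subgroup.normalizer ((P : Subgroup G) : Set G) := Subgroup.le_normalizer hx
      have := h ⟨x, hxN⟩ (Subgroup.mem_subgroupOf.mpr hx)
      exact congrArg Subtype.val this
    · intro h q hq
      exact Subtype.ext (h (q : G) (Subgroup.mem_subgroupOf.mp hq))
  rw [step1, step2]
  apply Nat.card_congr
  apply Equiv.subtypeEquivRight
  intro C
  constructor
  · rintro ⟨g, hg, hg1, hg2⟩ n hn
    have h2 : ConjClasses.mk n = ConjClasses.mk g := hn.trans hg.symm
    rw [ConjClasses.mk_eq_mk_iff_isConj] at h2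
    obtain ⟨y, hy⟩ := isConj_iff.mp h2.symm
    rw [← hy]
    refine ⟨?_, ?_⟩
    · rw [Cfsg.Agent.H81.orderOf_conj_eq]; exact hg1
    · rw [← hcent]
      have hn' : (Subgroup.centralizer (SetLike.coe ((P : Subgroup G).subgroupOf
          (Subgroup.normalizer ((P : Subgroup G) : Set G))))).Normal :=
          inferInstance
      exact hn'.conj_mem g hg2 y
  · intro h
    obtain ⟨g, hg⟩ := ConjClasses.exists_rep C
    exact ⟨g, hg, (h g hg).1, (hcent g).mpr (h g hg).2⟩

end Cfsg.Agent.S0953
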