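import Cfsg.Statements.S0957
import Cfsg.Agent.H21.Orbits2

set_option autoImplicit false
open Cfsg

namespace Cfsg.Agent.S0957

open Cfsg.Agent.H21

theorem card_subgroupOf_eq_card_of_le' {G : Type*} [Group G] {H K : Subgroup G} (h : H ≤ K) :
    Nat.card (H.subgroupOf K) = Nat.card H :=
  Nat.card_congr (Subgroup.subgroupOfEquivOfLe h).toEquiv

/-- A `p`-subgroup of the centralizer of a conjugate of `g` has order dividing that of a Sylow
`p`-subgroup of the centralizer of `g`. -/
theorem card_dvd_card_sylow_centralizer {G : Type*} [Group G] [Finite G] (p : ℕ) [Fact p.Prime]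
    (g y : G) (hy : IsConj g y) (S : Sylow p (Subgroup.centralizer ({g} : Set G)))
    (H : Subgroup G) (hH : IsPGroup p H) (hHy : H ≤ Subgroup.centralizer ({y} : Set G)) :
    Nat.card H ∣ Nat.card S := by
  obtain ⟨c, hc⟩ := isConj_iff.1 hy
  set H' : Subgroup G := H.map (MulAut.conj c⁻¹).toMonoidHom with hH'
  have hinj : Function.Injective (MulAut.conj c⁻¹).toMonoidHom := (MulAut.conj c⁻¹).injective
  have hcard : Nat.card H' = Nat.card H := Subgroup.card_map_of_injective hinj
  have hH'p : IsPGroup p H' := hH.map _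
  have hle : H' ≤ Subgroup.centralizer ({g} : Set G) := by
    rintro x ⟨u, hu, rfl⟩
    rw [Subgroup.mem_centralizer_singleton_iff]
    have h1 : u * y = y * u := Subgroup.mem_centralizer_singleton_iff.1 (hHy hu)
    simp only [MulEquiv.coe_toMonoidHom, MulAut.conj_apply, inv_inv]
    rw [← hc] at h1
    have : c⁻¹ * (u * (c * g * c⁻¹)) * c = c⁻¹ * (c * g * c⁻¹ * u) * c := by rw [h1]
    calc c⁻¹ * u * c * g = c⁻¹ * (u * (c * g * c⁻¹)) * c := by group
      _ = c⁻¹ * (c * g * c⁻¹ * u) * c := this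
      _ = g * (c⁻¹ * u * c) := by group
  have hp' : IsPGroup p (H'.subgroupOf (Subgroup.centralizer ({g} : Set G))) := hH'p.comap_subtype
  obtain ⟨S', hS'⟩ := hp'.exists_le_sylow
  have h1 : Nat.card (H'.subgroupOf (Subgroup.centralizer ({g} : Set G))) ∣ Nat.card S' :=
    Subgroup.card_dvd_of_le hS'
  rw [card_subgroupOf_eq_card_of_le' hle, hcard] at h1
  rw [Sylow.card_eq_multiplicity] at h1 ⊢
  exact h1

theorem arith_aux (a d s i : ℕ) (hd : 0 < d) (h1 : s * i = a) (h2 : s ∣ d) (h3 : d ∣ a) : a / d ∣ i := by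
  obtain ⟨e, rfl⟩ := h2
  obtain ⟨q, rfl⟩ := h3
  rw [Nat.mul_div_cancel_left _ hd]
  have hs : 0 < s := Nat.pos_of_mul_pos_right hd
  have : i = e * q := by
    have : s * i = s * (e * q) := by rw [h1]; ring
    exact Nat.eq_of_mul_eq_mul_left hs this
  exact ⟨e, by rw [this]; ring⟩

/-- Let P be a Sylow p-subgroup of the finite group G, let g, h ∈ G and let p ^ d be the order of a Sylow p-subgroup of the centralizer of g. Then the number of pairs (y, z) with y conjugate to g, z conjugate to h and z * y⁻¹ ∈ P is divisible by the order of P divided by p ^ d. -/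
theorem result {G : Type*} [Group G] [Finite G] (p : ℕ) [Fact p.Prime] (P : Sylow p G) (g h : G) (S : Sylow p (Subgroup.centralizer ({g} : Set G))) : Nat.card P / Nat.card S ∣ Nat.card {yz : G × G // IsConj g yz.1 ∧ IsConj h yz.2 ∧ yz.2 * yz.1⁻¹ ∈ (P : Subgroup G)} := by
  let X := {yz : G × G // IsConj g yz.1 ∧ IsConj h yz.2 ∧ yz.2 * yz.1⁻¹ ∈ (P : Subgroup G)}
  let act : MulAction (P : Subgroup G) X :=
    { smul := fun u x => ⟨((u : G) * x.1.1 * (u : G)⁻¹, (u : G) * x.1.2 * (u : G)⁻¹),
        x.2.1.trans (isConj_iff.2 ⟨u, rfl⟩), x.2.2.1.trans (isConj_iff.2 ⟨u, rfl⟩), by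
          have : (u : G) * x.1.2 * (u : G)⁻¹ * ((u : G) * x.1.1 * (u : G)⁻¹)⁻¹
              = (u : G) * (x.1.2 * x.1.1⁻¹) * (u : G)⁻¹ := by group
          rw [this]
          exact Subgroup.mul_mem _ (Subgroup.mul_mem _ u.2 x.2.2.2) (Subgroup.inv_mem _ u.2)⟩
      one_smul := fun x => by
        apply Subtype.ext
        apply Prod.ext <;> simp [HSMul.hSMul]
      mul_smul := fun u v x => by
        apply Subtype.ext
        apply Prod.ext <;> simp [HSMul.hSMul, mul_assoc] }
  apply dvd_card_of_dvd_card_orbits (P := (P : Subgroup G)) (X := X)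
  intro x
  have hos := card_orbit_mul_card_stabilizer (P := (P : Subgroup G)) x
  set St := MulAction.stabilizer (P : Subgroup G) x with hSt
  -- the stabilizer as a subgroup of G
  have hStp : IsPGroup p (St.map (P : Subgroup G).subtype) := (P.2.to_subgroup St).map _
  have hStc : St.map (P : Subgroup G).subtype ≤ Subgroup.centralizer ({x.1.1} : Set G) := by
    rintro _ ⟨u, hu, rfl⟩
    rw [Subgroup.mem_centralizer_singleton_iff]
    have h1 : u • x = x := MulAction.mem_stabilizer_iff.1 hu
    have h2 : (u : G) * x.1.1 * (u : G)⁻¹ = x.1.1 := congrArg (fun t : X => t.1.1) h1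
    show (u : G) * x.1.1 = x.1.1 * (u : G)
    calc (u : G) * x.1.1 = (u : G) * x.1.1 * (u : G)⁻¹ * (u : G) := by group
      _ = x.1.1 * (u : G) := by rw [h2]
  have hd1 := card_dvd_card_sylow_centralizer p g x.1.1 x.2.1 S _ hStp hStc
  rw [Subgroup.card_map_of_injective (Subgroup.subtype_injective _)] at hd1
  have hd2 : Nat.card S ∣ Nat.card P := by
    obtain ⟨k, hk⟩ := S.2.exists_card_eq
    rw [hk]
    apply P.pow_dvd_card_of_pow_dvd_card
    rw [← hk]
    exact (Subgroup.card_subgroup_dvd_card (S : Subgroup (Subgroup.centralizer ({g} : Set G)))).trans (Subgroup.card_subgroup_dvd_card (Subgroup.centralizer ({g} : Set G)))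
  exact arith_aux _ _ _ _ Nat.card_pos (by rw [mul_comm]; exact hos) hd1 hd2

end Cfsg.Agent.S0957
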