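import Cfsg.Statements.S0958
import Cfsg.Agent.H79.BrauerCorr
import Cfsg.Agent.S0906

set_option autoImplicit false
open Cfsg

namespace Cfsg.Agent.S0958

/-- Let P be a p-subgroup of the finite group G and H a subgroup with P ⊔ C_G(P) ≤ H ≤ N_G(P); fix a maximal ideal M of the algebraic integers containing p. Then a block B of G is induced by some block of H if and only if some conjugate of P is contained in a defect group of B. -/
theorem result {G : Type*} [Group G] [Finite G] (p : ℕ) [Fact p.Prime] (M : Ideal Cfsg.AlgInt) (hM : Cfsg.IsPModular p M) (P H : Subgroup G) (hP : IsPGroup p P) (hPH : P ⊔ Subgroup.centralizer (P : Set G) ≤ H) (hHN : H ≤ Subgroup.normalizer (P : Set G)) (B : Set (Cfsg.IrrCharacter G)) (hB : Cfsg.IsPBlock M B) : (∃ b : Set (Cfsg.IrrCharacter H), Cfsg.IsInducedBlock M H b B) ↔ ∃ D : Subgroup G, Cfsg.IsDefectGroup p M B D ∧ ∃ x : G, P.map (MulAut.conj x).toMonoidHom ≤ D := by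
  classical
  have hfG : Fintype G := Fintype.ofFinite G
  have hfH : Fintype H := Fintype.ofFinite H
  have hp : p.Prime := hM.1
  have hMp := Cfsg.Agent.H20.isPrime_of_isPModular hM
  have hPH' : P ≤ H := le_sup_left.trans hPH
  have hCH : Subgroup.centralizer (P : Set G) ≤ H := le_sup_right.trans hPH
  constructor
  · rintro ⟨b, ⟨ξ₀, rfl⟩, -, hind⟩
    obtain ⟨g₀, hg₀⟩ := Cfsg.Agent.S0906.result p M hM B hB
    obtain ⟨χ₀, rfl⟩ := hB
    obtain ⟨S⟩ : Nonempty (Sylow p (Subgroup.centralizer ({g₀} : Set G))) := inferInstance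
    refine ⟨_, ⟨g₀, hg₀, S, rfl⟩, ?_⟩
    have hχ₀ := Cfsg.Agent.H80.mem_blockOf_self hMp χ₀
    have hξ₀ := Cfsg.Agent.H80.mem_blockOf_self hMp ξ₀
    have h1 := hind ξ₀ hξ₀ χ₀ hχ₀ g₀
    have h2 := Cfsg.Agent.H20.inducedCentralChar_sub_brauerCentralChar_mem hM P H hP hPH' hHN ξ₀ g₀
    have h3 : ¬ MemLocalIdeal M (brauerCentralChar P H (ξ₀ : H → ℂ) g₀) := by
      intro h4
      apply hg₀.2.2 χ₀ hχ₀
      have h5 := Cfsg.Agent.H20.memLocalIdeal_sub hMp (Cfsg.Agent.H20.memLocalIdeal_add hMp h4 h2) h1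
      convert h5 using 1
      ring
    have hne : ∃ h : H, IsConj g₀ (h : G) ∧ (h : G) ∈ Subgroup.centralizer (P : Set G) := by
      by_contra hnone
      apply h3
      have hempty : {h : H | IsConj g₀ (h : G) ∧ (h : G) ∈ Subgroup.centralizer (P : Set G)}
          = ∅ := Set.eq_empty_iff_forall_notMem.mpr (fun h hh => hnone ⟨h, hh⟩)
      unfold brauerCentralChar
      rw [hempty, finsum_mem_empty]
      exact Cfsg.Agent.H20.memLocalIdeal_zero hMp
    obtain ⟨h, hconj, hhc⟩ := hne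
    have hPh : P ≤ Subgroup.centralizer ({(h : G)} : Set G) := by
      intro q hq
      rw [Subgroup.mem_centralizer_iff]
      intro z hz
      rw [Set.mem_singleton_iff] at hz
      subst hz
      exact (Subgroup.mem_centralizer_iff.mp hhc q hq).symm
    obtain ⟨x, hx⟩ := Cfsg.Agent.H20.exists_le_conj_sylow_centralizer P hP g₀ (h : G) hconj hPh S
    exact ⟨x⁻¹, Cfsg.Agent.H79.map_conj_le_of_le_map_conj P _ x hx⟩
  · rintro ⟨D, hD, x, hx⟩
    obtain ⟨χ₀, rfl⟩ := hB
    obtain ⟨g₀, hg₀, S, rfl⟩ := hD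
    have hg₁ : x⁻¹ * g₀ * x ∈ Subgroup.centralizer (P : Set G) :=
      Cfsg.Agent.H79.conj_mem_centralizer_of_map_le P x g₀
        (hx.trans (Cfsg.Agent.H79.sylow_map_le_centralizer g₀ S))
    have hcoeff : ¬ MemLocalIdeal M (blockCoeff (blockOf M (χ₀ : G → ℂ)) (x⁻¹ * g₀ * x)) := by
      have e := Cfsg.Agent.H20.blockCoeff_conj_invariant (blockOf M (χ₀ : G → ℂ)) g₀ x⁻¹
      rw [inv_inv] at e
      rw [e]
      exact hg₀.2.1
    obtain ⟨ξ, hind, -⟩ := Cfsg.Agent.H79.exists_isInducedBlock_of_coeff hM P H hP hPH' hCH hHN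
      χ₀ _ hg₁ hcoeff
    exact ⟨_, hind⟩

end Cfsg.Agent.S0958
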