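import Cfsg.Statements.S0959
import Cfsg.Agent.H79.BrauerSupport

set_option autoImplicit false
open Cfsg

namespace Cfsg.Agent.S0959

/-- Let B be a block of the finite group G with defect group D (relative to a maximal ideal M of the algebraic integers containing the prime p), and let P be a p-subgroup. Then there is an element g whose idempotent coefficient for B is a local integer outside the local ideal at M and which has a conjugate centralizing P, if and only if some conjugate of P is contained in D. -/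
theorem result {G : Type*} [Group G] [Finite G] (p : ℕ) [Fact p.Prime] (M : Ideal Cfsg.AlgInt) (hM : Cfsg.IsPModular p M) (B : Set (Cfsg.IrrCharacter G)) (hB : Cfsg.IsPBlock M B) (D : Subgroup G) (hD : Cfsg.IsDefectGroup p M B D) (P : Subgroup G) (hP : IsPGroup p P) : (∃ g : G, Cfsg.MemLocalRing M (Cfsg.blockCoeff B g) ∧ ¬ Cfsg.MemLocalIdeal M (Cfsg.blockCoeff B g) ∧ ∃ c : G, IsConj g c ∧ c ∈ Subgroup.centralizer (P : Set G)) ↔ ∃ x : G, P.map (MulAut.conj x).toMonoidHom ≤ D := by
  classical
  obtain ⟨χ₀, rfl⟩ := hB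
  have hfG : Fintype G := Fintype.ofFinite G
  constructor
  · rintro ⟨g, -, hnI, c, hconj, hc⟩
    obtain ⟨t, rfl⟩ := isConj_iff.mp hconj
    rw [← Cfsg.Agent.H20.blockCoeff_conj_invariant _ g t] at hnI
    apply Cfsg.Agent.H79.exists_conj_le_defectGroup hM χ₀ D hD (t * g * t⁻¹) hnI P hP
    intro q hq
    rw [Subgroup.mem_centralizer_iff]
    intro z hz
    rw [Set.mem_singleton_iff] at hz
    subst hz
    exact (Subgroup.mem_centralizer_iff.mp hc q hq).symm
  · rintro ⟨x, hx⟩
    obtain ⟨g₀, hg₀, S, rfl⟩ := hD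
    refine ⟨g₀, hg₀.1, hg₀.2.1, x⁻¹ * g₀ * x, ?_, ?_⟩
    · exact isConj_iff.mpr ⟨x⁻¹, by rw [inv_inv]⟩
    · exact Cfsg.Agent.H79.conj_mem_centralizer_of_map_le P x g₀
        (hx.trans (Cfsg.Agent.H79.sylow_map_le_centralizer g₀ S))

end Cfsg.Agent.S0959
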