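import Cfsg.Statements.S0962
import Cfsg.Agent.H81.DefectCount2

set_option autoImplicit false
open Cfsg

namespace Cfsg.Agent.S0962

/-- Fix a maximal ideal M of the algebraic integers containing the prime p and a natural number d. The number of blocks of the finite group G of defect at least d is at most the number of conjugacy classes of p-regular elements of G of defect at least d, where the defect of a class is the exponent of p in the order of the centralizer of any of its elements. -/
theorem result {G : Type*} [Group G] [Finite G] (p : ℕ) [Fact p.Prime] (M : Ideal Cfsg.AlgInt) (hM : Cfsg.IsPModular p M) (d : ℕ) : Nat.card {B : Set (Cfsg.IrrCharacter G) // Cfsg.IsPBlock M B ∧ d ≤ Cfsg.blockDefect p B} ≤ Nat.card {C : ConjClasses G // ∃ g : G, ConjClasses.mk g = C ∧ Cfsg.IsPRegular p g ∧ d ≤ (Nat.card (Subgroup.centralizer ({g} : Set G))).factorization p} := by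
  classical
  haveI : Fintype G := Fintype.ofFinite G
  refine Cfsg.Agent.H81.card_blocks_le_card_classes hM
    (fun B => d ≤ Cfsg.blockDefect p B)
    (fun g => Cfsg.IsPRegular p g ∧
      d ≤ (Nat.card (Subgroup.centralizer ({g} : Set G))).factorization p) ?_ ?_
  · intro h x hh
    unfold Cfsg.IsPRegular at hh ⊢
    rw [Cfsg.Agent.H81.orderOf_conj_eq, Cfsg.Agent.H81.card_centralizer_conj]
    exact hh
  · intro χ₀ ψ h0 hψ h hh
    by_cases hs : p ∣ orderOf h
    · exact Cfsg.Agent.H81.blockCoeff_mul_centralChar_mem_of_singular hM χ₀ ψ h hs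
    · have hlt : (Nat.card (Subgroup.centralizer ({h} : Set G))).factorization p < d := by
        by_contra hge
        exact hh ⟨hs, not_lt.mp hge⟩
      apply Cfsg.Agent.H81.blockCoeff_mul_centralChar_mem_of_lt hM χ₀ ψ h
      exact lt_of_lt_of_le hlt hψ

end Cfsg.Agent.S0962
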