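import Cfsg.Statements.S0964
import Cfsg.Agent.H79.Covering

set_option autoImplicit false
open Cfsg

namespace Cfsg.Agent.S0964

/-- Let N be a normal subgroup of the finite group G, B a block of G and b a block of N relative to a maximal ideal M of the algebraic integers containing the prime p. Suppose some χ ∈ B has a constituent θ ∈ b on restriction to N. Then for every χ' ∈ B and every constituent ψ of the restriction of χ' to N there are g ∈ G and θ' ∈ b with ψ n = θ' (g n g⁻¹) for all n ∈ N. -/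
theorem result {G : Type*} [Group G] [Fintype G] (p : ℕ) [Fact p.Prime] (M : Ideal Cfsg.AlgInt) (hM : Cfsg.IsPModular p M) (N : Subgroup G) [hN : N.Normal] [Fintype N] (B : Set (Cfsg.IrrCharacter G)) (hB : Cfsg.IsPBlock M B) (b : Set (Cfsg.IrrCharacter N)) (hb : Cfsg.IsPBlock M b) (χ : Cfsg.IrrCharacter G) (hχ : χ ∈ B) (θ : Cfsg.IrrCharacter N) (hθ : θ ∈ b) (hcon : Cfsg.classInner (fun n : N => (χ : G → ℂ) n) (θ : N → ℂ) ≠ 0) (χ' : Cfsg.IrrCharacter G) (hχ' : χ' ∈ B) (ψ : Cfsg.IrrCharacter N) (hψ : Cfsg.classInner (fun n : N => (χ' : G → ℂ) n) (ψ : N → ℂ) ≠ 0) : ∃ g : G, ∃ θ' ∈ b, ∀ n : N, (ψ : N → ℂ) n = (θ' : N → ℂ) ⟨g * n * g⁻¹, hN.conj_mem n n.2 g⟩ := by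
  classical
  have hMp := Cfsg.Agent.H20.isPrime_of_isPModular hM
  obtain ⟨χ₀, rfl⟩ := hB
  obtain ⟨θ₀, rfl⟩ := hb
  have hbθ : blockOf M (θ : N → ℂ) = blockOf M (θ₀ : N → ℂ) :=
    Cfsg.Agent.H80.blockOf_eq_of_mem hMp hθ
  have hsame : SameBlock M (χ' : G → ℂ) (χ : G → ℂ) :=
    Cfsg.Agent.H80.sameBlock_trans hMp (Cfsg.Agent.H80.sameBlock_symm hχ') hχ
  have h0 := (Cfsg.Agent.S0963.result N χ θ).mp hcon
  have hcong : ∀ n : N, MemLocalIdeal M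
      (centralChar (χ' : G → ℂ) (n : G) - inducedCentralChar N (θ : N → ℂ) (n : G)) := by
    intro n
    rw [← h0 n]
    exact hsame (n : G)
  obtain ⟨μ, hμA, hμ⟩ := Cfsg.Agent.H79.exists_over_of_congr N hMp
    (Cfsg.Agent.H79.orbitSet N (blockOf M (θ : N → ℂ)))
    (Cfsg.Agent.H79.orbitSet_stable N _) (Cfsg.Agent.H79.orbitSet_closed N hMp θ) χ' θ
    (Cfsg.Agent.H79.subset_orbitSet N _ (Cfsg.Agent.H80.mem_blockOf_self hMp θ)) hcong
  obtain ⟨g, hg⟩ := Cfsg.Agent.Clifford.clifford_conj N χ'.2 μ.2 ψ.2 hμ hψ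
  have hψeq : ψ = Cfsg.Agent.H79.conjIrr N g μ := Subtype.ext hg
  have hψA : ψ ∈ Cfsg.Agent.H79.orbitSet N (blockOf M (θ : N → ℂ)) := by
    rw [hψeq]
    exact (Cfsg.Agent.H79.orbitSet_stable N _ g μ).mpr hμA
  obtain ⟨x, hx⟩ := hψA
  rw [hbθ] at hx
  refine ⟨x⁻¹, Cfsg.Agent.H79.conjIrr N x ψ, hx, fun n => ?_⟩
  rw [Cfsg.Agent.H79.conjIrr_apply]
  apply congrArg
  apply Subtype.ext
  simp [mul_assoc]

end Cfsg.Agent.S0964
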