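import Cfsg.Statements.S0965
import Cfsg.Agent.H79.Covering

set_option autoImplicit false
open Cfsg

namespace Cfsg.Agent.S0965

/-- Let N be a normal subgroup of the finite group G and let B, b be blocks of G and of N relative to a maximal ideal M of the algebraic integers containing the prime p. Then some χ ∈ B has a constituent in b on restriction to N if and only if, for all χ ∈ B, θ ∈ b and n ∈ N, the central character of χ at n is congruent modulo the local ideal at M to the sum of θ m / θ 1 over the elements m ∈ N conjugate in G to n. -/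
theorem result {G : Type*} [Group G] [Fintype G] (p : ℕ) [Fact p.Prime] (M : Ideal Cfsg.AlgInt) (hM : Cfsg.IsPModular p M) (N : Subgroup G) [N.Normal] [Fintype N] (B : Set (Cfsg.IrrCharacter G)) (hB : Cfsg.IsPBlock M B) (b : Set (Cfsg.IrrCharacter N)) (hb : Cfsg.IsPBlock M b) : (∃ χ ∈ B, ∃ θ ∈ b, Cfsg.classInner (fun n : N => (χ : G → ℂ) n) (θ : N → ℂ) ≠ 0) ↔ ∀ χ ∈ B, ∀ θ ∈ b, ∀ n : N, Cfsg.MemLocalIdeal M (Cfsg.centralChar (χ : G → ℂ) (n : G) - Cfsg.inducedCentralChar N (θ : N → ℂ) (n : G)) := by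
  classical
  have hMp := Cfsg.Agent.H20.isPrime_of_isPModular hM
  obtain ⟨χ₀, rfl⟩ := hB
  obtain ⟨θ₀, rfl⟩ := hb
  constructor
  · rintro ⟨χ₁, hχ₁, θ₁, hθ₁, hcon⟩ χ hχ θ hθ n
    have h0 := (Cfsg.Agent.S0963.result N χ₁ θ₁).mp hcon n
    have h1 : MemLocalIdeal M (centralChar (χ : G → ℂ) (n : G) - centralChar (χ₁ : G → ℂ) (n : G)) :=
      (Cfsg.Agent.H80.sameBlock_trans hMp (Cfsg.Agent.H80.sameBlock_symm hχ) hχ₁) (n : G)
    have h2 := Cfsg.Agent.H79.inducedCentralChar_sub_mem_of_sameBlock_gen hMp N (θ₁ : N → ℂ)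
      (θ : N → ℂ) (Cfsg.Agent.H4.irr_isClassFunction θ₁) (Cfsg.Agent.H4.irr_isClassFunction θ)
      (Cfsg.Agent.H80.sameBlock_trans hMp (Cfsg.Agent.H80.sameBlock_symm hθ₁) hθ) (n : G)
    rw [← h0] at h2
    have h3 := Cfsg.Agent.H20.memLocalIdeal_add hMp h1 h2
    convert h3 using 1
    ring
  · intro hall
    have hcong : ∀ n : N, MemLocalIdeal M
        (centralChar (χ₀ : G → ℂ) (n : G) - inducedCentralChar N (θ₀ : N → ℂ) (n : G)) :=
      fun n => hall χ₀ (Cfsg.Agent.H80.mem_blockOf_self hMp χ₀) θ₀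
        (Cfsg.Agent.H80.mem_blockOf_self hMp θ₀) n
    obtain ⟨μ, hμA, hμ⟩ := Cfsg.Agent.H79.exists_over_of_congr N hMp
      (Cfsg.Agent.H79.orbitSet N (blockOf M (θ₀ : N → ℂ)))
      (Cfsg.Agent.H79.orbitSet_stable N _) (Cfsg.Agent.H79.orbitSet_closed N hMp θ₀) χ₀ θ₀
      (Cfsg.Agent.H79.subset_orbitSet N _ (Cfsg.Agent.H80.mem_blockOf_self hMp θ₀)) hcong
    obtain ⟨g, hg⟩ := hμA
    refine ⟨χ₀, Cfsg.Agent.H80.mem_blockOf_self hMp χ₀, Cfsg.Agent.H79.conjIrr N g μ, hg, ?_⟩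
    have h4 : classInner (fun n : N => (χ₀ : G → ℂ) n) (Cfsg.Agent.H79.conjIrr N g μ : N → ℂ)
        = classInner (fun n : N => (χ₀ : G → ℂ) n) (μ : N → ℂ) :=
      Cfsg.Agent.Clifford.classInner_res_conjChar N (Cfsg.Agent.H4.irr_isClassFunction χ₀) μ.1 g
    rw [h4]
    exact hμ

end Cfsg.Agent.S0965
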