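import Cfsg.Statements.S0966
import Cfsg.Agent.H79.Covering
import Cfsg.Agent.Lib.ItoConv

set_option autoImplicit false
open Cfsg

namespace Cfsg.Agent.S0966

/-- Let N be a normal subgroup of p-power index in the finite group G and b a block of N relative to a maximal ideal M of the algebraic integers containing p. Then there is exactly one block B of G containing a character whose restriction to N has a constituent in b. -/
theorem result {G : Type*} [Group G] [Fintype G] (p : ℕ) [Fact p.Prime] (M : Ideal Cfsg.AlgInt) (hM : Cfsg.IsPModular p M) (N : Subgroup G) [N.Normal] [Fintype N] (hidx : ∃ k : ℕ, N.index = p ^ k) (b : Set (Cfsg.IrrCharacter N)) (hb : Cfsg.IsPBlock M b) : ∃! B : Set (Cfsg.IrrCharacter G), Cfsg.IsPBlock M B ∧ ∃ χ ∈ B, ∃ θ ∈ b, Cfsg.classInner (fun n : N => (χ : G → ℂ) n) (θ : N → ℂ) ≠ 0 := by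
  classical
  have hMp := Cfsg.Agent.H20.isPrime_of_isPModular hM
  obtain ⟨θ₀, rfl⟩ := hb
  obtain ⟨χf, hχirr, hχover⟩ := Cfsg.Agent.ItoConv.exists_irr_over N θ₀.2
  obtain ⟨χ, hχdef⟩ : ∃ χ : IrrCharacter G, χ = ⟨χf, hχirr⟩ := ⟨_, rfl⟩
  have hover : classInner (fun n : N => (χ : G → ℂ) n) (θ₀ : N → ℂ) ≠ 0 := by
    rw [hχdef]; exact hχover
  refine ⟨blockOf M (χ : G → ℂ), ⟨⟨χ, rfl⟩, χ, Cfsg.Agent.H80.mem_blockOf_self hMp χ, θ₀,
    Cfsg.Agent.H80.mem_blockOf_self hMp θ₀, hover⟩, ?_⟩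
  rintro B' ⟨⟨χ₀', rfl⟩, χ', hχ', θ', hθ', hover'⟩
  have hsame := Cfsg.Agent.H79.sameBlock_of_over_sameBlock_of_index_pow N hM hidx χ χ' θ₀ θ'
    hover hover' hθ'
  rw [← Cfsg.Agent.H80.blockOf_eq_of_mem hMp hχ']
  exact Cfsg.Agent.H80.blockOf_eq_of_sameBlock hMp hsame

end Cfsg.Agent.S0966
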