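import Cfsg.Statements.S0968
import Cfsg.Agent.H79.PCBlock

set_option autoImplicit false
open Cfsg

namespace Cfsg.Agent.S0968

/-- Let P be a p-subgroup of the finite group G with P ⊔ C_G(P) = G, and let B be a block with defect group P relative to a maximal ideal M of the algebraic integers containing p. Then there is exactly one θ ∈ B with θ x = θ 1 for all x ∈ P; for this θ the exponent of p in θ(1) equals the exponent of p in the index of P; and the number of members of B equals the number of conjugacy classes of P. -/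
theorem result {G : Type*} [Group G] [Finite G] (p : ℕ) [Fact p.Prime] (M : Ideal Cfsg.AlgInt) (hM : Cfsg.IsPModular p M) (P : Subgroup G) (hP : IsPGroup p P) (hG : P ⊔ Subgroup.centralizer (P : Set G) = ⊤) (B : Set (Cfsg.IrrCharacter G)) (hB : Cfsg.IsPBlock M B) (hD : Cfsg.IsDefectGroup p M B P) : (∃! θ : Cfsg.IrrCharacter G, θ ∈ B ∧ ∀ x ∈ P, (θ : G → ℂ) x = (θ : G → ℂ) 1) ∧ (∀ θ ∈ B, (∀ x ∈ P, (θ : G → ℂ) x = (θ : G → ℂ) 1) → (Cfsg.charDegree (θ : G → ℂ)).factorization p = P.index.factorization p) ∧ Nat.card B = Nat.card (ConjClasses P) := by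
  classical
  obtain ⟨χ₀, rfl⟩ := hB
  have hfG : Fintype G := Fintype.ofFinite G
  have hp : p.Prime := hM.1
  have hMp := Cfsg.Agent.H20.isPrime_of_isPModular hM
  have hPn : P.Normal := Cfsg.Agent.H79.normal_of_sup_centralizer_eq_top P hG
  obtain ⟨-, hge⟩ := Cfsg.Agent.H79.exists_height_zero_of_defectGroup hM χ₀ P hD
  refine ⟨?_, ?_, Cfsg.Agent.H79.card_block_eq_card_conjClasses hM P hP hG χ₀ hD⟩
  · obtain ⟨θ, hθB, hθker⟩ := Cfsg.Agent.H84.exists_mem_block_ker hM P hP χ₀
    refine ⟨θ, ⟨hθB, hθker⟩, ?_⟩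
    rintro θ' ⟨hθ'B, hθ'ker⟩
    exact Cfsg.Agent.H79.canonical_unique hM P hP hG θ θ'
      (Cfsg.Agent.H80.sameBlock_trans hMp (Cfsg.Agent.H80.sameBlock_symm hθB) hθ'B)
      hθker hθ'ker (hge θ hθB)
  · intro θ hθB hθker
    obtain ⟨θb, hθb⟩ := Cfsg.Agent.H82.exists_deflate P θ hθker
    have h1 := (Cfsg.Agent.H79.degree_of_ker hp P θb (by
      rw [← Cfsg.Agent.H82.charDegree_inflate P θb, hθb]
      exact hge θ hθB)).1
    rw [← Cfsg.Agent.H82.charDegree_inflate P θb, hθb] at h1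
    exact h1

end Cfsg.Agent.S0968
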