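import Cfsg.Statements.S0969
import Cfsg.Agent.H79.RelDefectZero
import Cfsg.Agent.H80.Block
import Cfsg.Agent.S0906
import Cfsg.Agent.S0911

set_option autoImplicit false
open Cfsg

namespace Cfsg.Agent.S0969

open Cfsg.Agent.H20 Cfsg.Agent.H4 Cfsg.Agent.H79
open scoped ComplexConjugate

/-- Laradji's Theorem: if D is a central p-subgroup and χ is an irreducible character whose degree has p-part equal to the p-part of #G/#D, then the p-block of χ has defect group D and χ vanishes at every element whose p-part lies outside D. -/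
theorem result {G : Type*} [Group G] [Finite G] (p : ℕ) [Fact p.Prime] (M : Ideal Cfsg.AlgInt) (hM : Cfsg.IsPModular p M) (D : Subgroup G) (hD : IsPGroup p D) (hDZ : D ≤ Subgroup.center G) (χ : Cfsg.IrrCharacter G) (hdeg : (Cfsg.charDegree (χ : G → ℂ)).factorization p = D.index.factorization p) : Cfsg.IsDefectGroup p M (Cfsg.blockOf M (χ : G → ℂ)) D ∧ ∀ g x : G, Cfsg.IsPPart p g x → x ∉ D → (χ : G → ℂ) g = 0 := by
  classical
  have hfG : Fintype G := Fintype.ofFinite G
  have hp : p.Prime := Fact.out
  have hMp := isPrime_of_isPModular hM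
  obtain ⟨hu, hunit⟩ := degree_units hM D χ hdeg
  refine ⟨?_, ?_⟩
  · -- the defect group
    obtain ⟨g, hgreg, hgω, hgχ⟩ := exists_regular_unit hM D hD hDZ χ hdeg
    have hIne : (Subgroup.centralizer ({g} : Set G)).index ≠ 0 := Subgroup.index_ne_zero_of_finite
    have hνidx : (charDegree (χ : G → ℂ)).factorization p
        ≤ (Subgroup.centralizer ({g} : Set G)).index.factorization p := by
      by_contra hlt
      push Not at hlt
      apply hgχ
      have h1 := memLocalIdeal_natCast_mul_div hM (a := charDegree (χ : G → ℂ))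
        (n := (Subgroup.centralizer ({g} : Set G)).index) hIne hlt
        (centralChar_memLocalRing hMp χ g⁻¹)
      have hχ1 : (χ : G → ℂ) 1 ≠ 0 := Cfsg.Agent.H4.irr_one_ne_zero χ
      have hI0 : ((Subgroup.centralizer ({g} : Set G)).index : ℂ) ≠ 0 := by exact_mod_cast hIne
      have h2 : (charDegree (χ : G → ℂ) : ℂ) * centralChar (χ : G → ℂ) g⁻¹
          / ((Subgroup.centralizer ({g} : Set G)).index : ℂ) = (χ : G → ℂ) g⁻¹ := by
        unfold centralChar
        rw [centralizer_inv, ← Cfsg.Agent.H82.irr_one_eq_charDegree χ]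
        field_simp
      rw [← h2]
      exact h1
    have hνC : (Nat.card (Subgroup.centralizer ({g} : Set G))).factorization p
        ≤ (Nat.card D).factorization p := by
      have hne1 : Nat.card (Subgroup.centralizer ({g} : Set G)) ≠ 0 := Nat.card_pos.ne'
      have hne2 : Nat.card D ≠ 0 := Nat.card_pos.ne'
      have hi2 : D.index ≠ 0 := Subgroup.index_ne_zero_of_finite
      have e1 := congrArg (fun n => n.factorization p)
        (Subgroup.card_mul_index (Subgroup.centralizer ({g} : Set G)))
      have e2 := congrArg (fun n => n.factorization p) (Subgroup.card_mul_index D)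
      simp only [Nat.factorization_mul hne1 hIne, Nat.factorization_mul hne2 hi2,
        Finsupp.add_apply] at e1 e2
      omega
    -- a defect class of the block and a Sylow subgroup of its centralizer containing `D`
    obtain ⟨g₀, hg₀⟩ := Cfsg.Agent.S0906.result p M hM (blockOf M (χ : G → ℂ)) ⟨χ, rfl⟩
    have hD₀ : IsPGroup p (D.subgroupOf (Subgroup.centralizer ({g₀} : Set G))) :=
      hD.comap_subtype
    obtain ⟨P, hP⟩ := hD₀.exists_le_sylow
    obtain ⟨x, Q, hxQ⟩ := (Cfsg.Agent.S0911.result p M hM (blockOf M (χ : G → ℂ)) ⟨χ, rfl⟩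
      g₀ hg₀ P g).2 ⟨χ, Cfsg.Agent.H80.mem_blockOf_self hMp χ, hgω⟩
    refine ⟨g₀, hg₀, P, ?_⟩
    apply Subgroup.eq_of_le_of_card_ge
    · intro u hu
      have huc : u ∈ Subgroup.centralizer ({g₀} : Set G) := by
        rw [Subgroup.mem_centralizer_iff]
        intro h hh
        rw [Set.mem_singleton_iff] at hh
        rw [hh]
        exact Subgroup.mem_center_iff.mp (hDZ hu) g₀
      exact Subgroup.mem_map.mpr ⟨⟨u, huc⟩, hP (Subgroup.mem_subgroupOf.mpr hu), rfl⟩
    · have h1 := Subgroup.card_le_of_le hxQ
      rw [Subgroup.card_map_of_injective (MulAut.conj x).injective,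
        Subgroup.card_map_of_injective (Subgroup.subtype_injective _),
        Subgroup.card_map_of_injective (Subgroup.subtype_injective _),
        Sylow.card_eq_multiplicity, Sylow.card_eq_multiplicity] at h1
      rw [Subgroup.card_map_of_injective (Subgroup.subtype_injective _),
        Sylow.card_eq_multiplicity]
      obtain ⟨d, hd⟩ := hD.exists_card_eq
      have hd' : (Nat.card D).factorization p = d := by
        rw [hd, hp.factorization_pow]
        simp
      rw [hd'] at hνC
      calc p ^ (Nat.card (Subgroup.centralizer ({g₀} : Set G))).factorization p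
          ≤ p ^ (Nat.card (Subgroup.centralizer ({g} : Set G))).factorization p := h1
        _ ≤ p ^ d := Nat.pow_le_pow_right hp.pos hνC
        _ = Nat.card D := hd.symm
  · intro g x hpart hxD
    obtain ⟨y, rfl, hcomm, ⟨kx, hkx⟩, hy⟩ := hpart
    apply irr_eq_zero_of_translates_singular hM D hDZ χ hu
    intro z hz
    have hzc := hDZ hz
    have h1 : x * y * z = (x * z) * y := by
      rw [mul_assoc, Subgroup.mem_center_iff.mp hzc y, ← mul_assoc]
    rw [h1]
    obtain ⟨m, hm⟩ := hD ⟨z, hz⟩
    have hzm : z ^ (p ^ m) = 1 := by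
      have := congrArg Subtype.val hm
      simpa using this
    have hxk : x ^ (p ^ kx) = 1 := by
      rw [← hkx]
      exact pow_orderOf_eq_one x
    have hxz : Commute x z := Subgroup.mem_center_iff.mp hzc x
    apply dvd_orderOf_mul_of_pow hp (u := x * z) (m := kx + m)
    · intro h
      apply hxD
      have h2 : x = z⁻¹ := eq_inv_of_mul_eq_one_left h
      rw [h2]
      exact D.inv_mem hz
    · rw [hxz.mul_pow, pow_add, pow_mul, hxk, one_pow, one_mul, mul_comm (p ^ kx), pow_mul, hzm,
        one_pow]
    · exact hcomm.mul_left (Subgroup.mem_center_iff.mp hzc y).symm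
    · exact hy

end Cfsg.Agent.S0969
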