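import Cfsg.Statements.S0970
import Cfsg.Agent.H79.Fong

set_option autoImplicit false
open Cfsg

namespace Cfsg.Agent.S0970

/-- Let N be a normal subgroup of the finite group G and fix a maximal ideal M of the algebraic integers containing the prime p. Let b be a block of N that is invariant under conjugation by G, and B a block of G covering b (some χ ∈ B has a constituent in b) whose defect is at least that of every block covering b. If P is a defect group of B, then p does not divide the index of P ⊔ N, the subgroup P ∩ N of N is a defect group of b, and the defect of B equals the defect of b plus the exponent of p in the index of N. -/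
theorem result {G : Type*} [Group G] [Fintype G] (p : ℕ) [Fact p.Prime] (M : Ideal Cfsg.AlgInt) (hM : Cfsg.IsPModular p M) (N : Subgroup G) [hN : N.Normal] [Fintype N] (b : Set (Cfsg.IrrCharacter N)) (hb : Cfsg.IsPBlock M b) (hinv : ∀ g : G, ∀ θ ∈ b, ∀ θ' : Cfsg.IrrCharacter N, (∀ n : N, (θ' : N → ℂ) n = (θ : N → ℂ) ⟨g * n * g⁻¹, hN.conj_mem n n.2 g⟩) → θ' ∈ b) (B : Set (Cfsg.IrrCharacter G)) (hB : Cfsg.IsPBlock M B) (hcov : ∃ χ ∈ B, ∃ θ ∈ b, Cfsg.classInner (fun n : N => (χ : G → ℂ) n) (θ : N → ℂ) ≠ 0) (hmax : ∀ B' : Set (Cfsg.IrrCharacter G), Cfsg.IsPBlock M B' → (∃ χ ∈ B', ∃ θ ∈ b, Cfsg.classInner (fun n : N => (χ : G → ℂ) n) (θ : N → ℂ) ≠ 0) → Cfsg.blockDefect p B' ≤ Cfsg.blockDefect p B) (P : Subgroup G) (hP : Cfsg.IsDefectGroup p M B P) : ¬ p ∣ (P ⊔ N).index ∧ Cfsg.IsDefectGroup p M b ((P ⊓ N).subgroupOf N) ∧ Cfsg.blockDefect p B = Cfsg.blockDefect p b + N.index.factorization p := by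
  classical
  have hMp := Cfsg.Agent.H20.isPrime_of_isPModular hM
  obtain ⟨θ₀, rfl⟩ := hb
  obtain ⟨χ₀, rfl⟩ := hB
  have hbst : ∀ (g : G) (μ : IrrCharacter N),
      Cfsg.Agent.H79.conjIrr N g μ ∈ blockOf M (θ₀ : N → ℂ) ↔ μ ∈ blockOf M (θ₀ : N → ℂ) := by
    intro g μ
    constructor
    · intro h
      have h1 := hinv g⁻¹ (Cfsg.Agent.H79.conjIrr N g μ) h
        (Cfsg.Agent.H79.conjIrr N g⁻¹ (Cfsg.Agent.H79.conjIrr N g μ)) (fun n => rfl)
      rw [Cfsg.Agent.H79.conjIrr_conjIrr, mul_inv_cancel, Cfsg.Agent.H79.conjIrr_one] at h1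
      exact h1
    · intro h
      exact hinv g μ h (Cfsg.Agent.H79.conjIrr N g μ) (fun n => rfl)
  obtain ⟨χ, hχ, θ, hθ, hcon⟩ := hcov
  have hcov₀ : ∃ μ ∈ blockOf M (θ₀ : N → ℂ),
      classInner (fun n : N => (χ₀ : G → ℂ) n) (μ : N → ℂ) ≠ 0 :=
    Cfsg.Agent.H79.over_closed N hMp θ₀ hbst χ ⟨θ, hθ, hcon⟩ χ₀
      (Cfsg.Agent.H80.sameBlock_symm hχ)
  exact Cfsg.Agent.H79.fong N hM θ₀ hbst χ₀ hcov₀
    (fun χ₁ ⟨μ, hμ, h⟩ => hmax (blockOf M (χ₁ : G → ℂ)) ⟨χ₁, rfl⟩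
      ⟨χ₁, Cfsg.Agent.H80.mem_blockOf_self hMp χ₁, μ, hμ, h⟩) P hP

end Cfsg.Agent.S0970
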