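import Cfsg.Statements.S0986
import Cfsg.Agent.H21.SylowInter

set_option autoImplicit false
open Cfsg

namespace Cfsg.Agent.S0986

open Cfsg.Agent.H21

/-- Let P and Q be distinct Sylow p-subgroups of a finite group G chosen so that the order of P ∩ Q is as large as possible among intersections of two distinct Sylow p-subgroups, and let N be the normalizer of P ∩ Q. Then N has more than one Sylow p-subgroup, any two distinct Sylow p-subgroups of N intersect exactly in P ∩ Q, and each Sylow p-subgroup of N lies in exactly one Sylow p-subgroup of G. -/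
theorem result {G : Type*} [Group G] [Finite G] (p : ℕ) [Fact p.Prime] (P Q : Sylow p G) (hPQ : P ≠ Q) (hmax : ∀ P' Q' : Sylow p G, P' ≠ Q' → Nat.card ↥((P' : Subgroup G) ⊓ (Q' : Subgroup G)) ≤ Nat.card ↥((P : Subgroup G) ⊓ (Q : Subgroup G))) : 1 < Nat.card (Sylow p ↥(Subgroup.normalizer (((P : Subgroup G) ⊓ (Q : Subgroup G) : Subgroup G) : Set G))) ∧ (∀ S T : Sylow p ↥(Subgroup.normalizer (((P : Subgroup G) ⊓ (Q : Subgroup G) : Subgroup G) : Set G)), S ≠ T → (S : Subgroup _) ⊓ (T : Subgroup _) = ((P : Subgroup G) ⊓ (Q : Subgroup G)).subgroupOf (Subgroup.normalizer (((P : Subgroup G) ⊓ (Q : Subgroup G) : Subgroup G) : Set G))) ∧ ∀ S : Sylow p ↥(Subgroup.normalizer (((P : Subgroup G) ⊓ (Q : Subgroup G) : Subgroup G) : Set G)), ∃! T : Sylow p G, (S : Subgroup _).map (Subgroup.normalizer (((P : Subgroup G) ⊓ (Q : Subgroup G) : Subgroup G) : Set G)).subtype ≤ (T : Subgroup G) := by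
  set D : Subgroup G := (P : Subgroup G) ⊓ (Q : Subgroup G) with hD
  set N : Subgroup G := Subgroup.normalizer (D : Set G) with hN
  have hDN : D ≤ N := Subgroup.le_normalizer
  have hDp : IsPGroup p D := P.2.to_le inf_le_left
  -- Fact 1
  obtain ⟨x, hxP, hxN, hxD⟩ := exists_normalizer_not_mem P.2 (sylow_inf_lt_left hPQ)
  obtain ⟨y, hyQ, hyN, hyD⟩ := exists_normalizer_not_mem Q.2
    (show D < Q by rw [hD, inf_comm]; exact sylow_inf_lt_left (Ne.symm hPQ))
  have hDnorm : (D.subgroupOf N).Normal := Subgroup.normal_in_normalizer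
  have hDNp : IsPGroup p (D.subgroupOf N) := hDp.comap_subtype
  -- Claim B
  have claimB : ∀ T₁ T₂ : Sylow p G, T₁ ≠ T₂ → D ≤ (T₁ : Subgroup G) ⊓ T₂ → (T₁ : Subgroup G) ⊓ T₂ = D := by
    intro T₁ T₂ hne hle
    exact (Subgroup.eq_of_le_of_card_ge hle (hmax T₁ T₂ hne)).symm
  -- Claim A
  have claimA1 : ∀ S : Sylow p N, D.subgroupOf N ≤ S := fun S => hDNp.le_sylow_of_normal S
  have claimA2 : ∀ S : Sylow p N, (S : Subgroup N) ≠ D.subgroupOf N := by
    intro S hS
    have hSn : (S : Subgroup N).Normal := hS ▸ hDnorm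
    have hHp : IsPGroup p (((P : Subgroup G) ⊓ N).subgroupOf N) := (P.2.to_le inf_le_left).comap_subtype
    have := S.3 (S.2.to_sup_of_normal_left hHp) le_sup_left
    have hle : ((P : Subgroup G) ⊓ N).subgroupOf N ≤ S := by
      rw [← this]; exact le_sup_right
    have hx : (⟨x, hxN⟩ : N) ∈ (S : Subgroup N) := hle (Subgroup.mem_subgroupOf.2 ⟨hxP, hxN⟩)
    rw [hS] at hx
    exact hxD (Subgroup.mem_subgroupOf.1 hx)
  have hDmap : ∀ S : Sylow p N, D ≤ (S : Subgroup N).map N.subtype := by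
    intro S d hd
    exact ⟨⟨d, hDN hd⟩, claimA1 S (Subgroup.mem_subgroupOf.2 hd), rfl⟩
  -- Claim C
  have claimC : ∀ (S : Sylow p N) (T₁ T₂ : Sylow p G), (S : Subgroup N).map N.subtype ≤ T₁ →
      (S : Subgroup N).map N.subtype ≤ T₂ → T₁ = T₂ := by
    intro S T₁ T₂ h1 h2
    by_contra hne
    have hle : (S : Subgroup N).map N.subtype ≤ (T₁ : Subgroup G) ⊓ T₂ := le_inf h1 h2
    rw [claimB T₁ T₂ hne ((hDmap S).trans hle)] at hle
    apply claimA2 S
    apply le_antisymm _ (claimA1 S)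
    intro s hs
    exact Subgroup.mem_subgroupOf.2 (hle ⟨s, hs, rfl⟩)
  have hex : ∀ S : Sylow p N, ∃ T : Sylow p G, (S : Subgroup N).map N.subtype ≤ T := by
    intro S
    exact (S.2.map N.subtype).exists_le_sylow
  refine ⟨?_, ?_, ?_⟩
  · -- (1)
    by_contra hcard
    have hsub : Subsingleton (Sylow p N) := by
      rw [← Finite.card_le_one_iff_subsingleton]
      omega
    obtain ⟨S⟩ : Nonempty (Sylow p N) := inferInstance
    obtain ⟨S', hS'⟩ := hex S
    have key : ∀ R : Sylow p G, ∀ z : G, z ∈ R → z ∈ N → z ∉ D → D ≤ R → S' = R := by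
      intro R z hzR hzN hzD hDR
      by_contra hne
      have hHp : IsPGroup p (((R : Subgroup G) ⊓ N).subgroupOf N) := (R.2.to_le inf_le_left).comap_subtype
      obtain ⟨S₂, hS₂⟩ := hHp.exists_le_sylow
      rw [Subsingleton.elim S₂ S] at hS₂
      have hz : z ∈ (S' : Subgroup G) :=
        hS' ⟨⟨z, hzN⟩, hS₂ (Subgroup.mem_subgroupOf.2 ⟨hzR, hzN⟩), rfl⟩
      have hDle : D ≤ (S' : Subgroup G) ⊓ R := le_inf ((hDmap S).trans hS') hDR
      have := claimB S' R hne hDle
      exact hzD (this ▸ ⟨hz, hzR⟩)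
    have h1 := key P x hxP hxN hxD inf_le_left
    have h2 := key Q y hyQ hyN hyD inf_le_right
    exact hPQ (h1.symm.trans h2)
  · -- (2)
    intro S T hST
    obtain ⟨S', hS'⟩ := hex S
    obtain ⟨T', hT'⟩ := hex T
    have hne : S' ≠ T' := by
      rintro rfl
      apply hST
      have hHp : IsPGroup p ((S' : Subgroup G).subgroupOf N) := S'.2.comap_subtype
      have e1 : (S : Subgroup N) = (S' : Subgroup G).subgroupOf N :=
        (S.3 hHp (fun s hs => Subgroup.mem_subgroupOf.2 (hS' ⟨s, hs, rfl⟩))).symm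
      have e2 : (T : Subgroup N) = (S' : Subgroup G).subgroupOf N :=
        (T.3 hHp (fun s hs => Subgroup.mem_subgroupOf.2 (hT' ⟨s, hs, rfl⟩))).symm
      exact Sylow.ext (e1.trans e2.symm)
    have hB := claimB S' T' hne (le_inf ((hDmap S).trans hS') ((hDmap T).trans hT'))
    apply le_antisymm
    · intro s hs
      rw [Subgroup.mem_subgroupOf, ← hB]
      exact ⟨hS' ⟨s, hs.1, rfl⟩, hT' ⟨s, hs.2, rfl⟩⟩
    · exact le_inf (claimA1 S) (claimA1 T)
  · -- (3)
    intro S
    obtain ⟨T, hT⟩ := hex S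
    exact ⟨T, hT, fun T' hT' => claimC S T' T hT' hT⟩

end Cfsg.Agent.S0986
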