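import Cfsg.Statements.S0987
import Mathlib

set_option autoImplicit false
open Cfsg

namespace Cfsg.Agent.S0987

/-- If a finite group has order pqr for primes p < q < r, then its Sylow r-subgroups are normal. -/
theorem result {G : Type*} [Group G] [Finite G] (p q r : ℕ) (hp : p.Prime) (hq : q.Prime) [Fact r.Prime] (hpq : p < q) (hqr : q < r) (hG : Nat.card G = p * q * r) (R : Sylow r G) : (R : Subgroup G).Normal := by
  have hr : r.Prime := Fact.out
  have : Fact p.Prime := ⟨hp⟩
  have hrp : ¬ r ∣ p := fun h => by
    have := (Nat.prime_dvd_prime_iff_eq hr hp).1 h; omega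
  have hrq : ¬ r ∣ q := fun h => by
    have := (Nat.prime_dvd_prime_iff_eq hr hq).1 h; omega
  have hpq' : ¬ p ∣ q := fun h => by
    have := (Nat.prime_dvd_prime_iff_eq hp hq).1 h; omega
  have hpr' : ¬ p ∣ r := fun h => by
    have := (Nat.prime_dvd_prime_iff_eq hp hr).1 h; omega
  -- minFac of the order is p
  have hmin : (Nat.card G).minFac = p := by
    rw [hG]
    have h1 : (p * q * r).minFac ∣ p * q * r := Nat.minFac_dvd _
    have hpr : (p * q * r).minFac.Prime := Nat.minFac_prime (by
      have := hp.two_le; have := hq.two_le; have := hr.two_le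
      intro h
      have : 2 * 2 * 2 ≤ p * q * r := Nat.mul_le_mul (Nat.mul_le_mul hp.two_le hq.two_le) hr.two_le
      omega)
    have hle : (p * q * r).minFac ≤ p := Nat.minFac_le_of_dvd hp.two_le (Dvd.intro (q * r) (by ring))
    rcases (Nat.Prime.dvd_mul hpr).1 h1 with h | h
    · rcases (Nat.Prime.dvd_mul hpr).1 h with h | h
      · exact (Nat.prime_dvd_prime_iff_eq hpr hp).1 h
      · have := (Nat.prime_dvd_prime_iff_eq hpr hq).1 h
        omega
    · have := (Nat.prime_dvd_prime_iff_eq hpr hr).1 h
      omega
  obtain ⟨P⟩ : Nonempty (Sylow p G) := inferInstance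
  have hPcard : Nat.card P = p := by
    rw [Sylow.card_eq_multiplicity, hG]
    rw [Nat.factorization_mul (Nat.mul_ne_zero hp.ne_zero hq.ne_zero) hr.ne_zero,
      Nat.factorization_mul hp.ne_zero hq.ne_zero]
    simp [hp.factorization_self, Nat.factorization_eq_zero_of_not_dvd hpq',
      Nat.factorization_eq_zero_of_not_dvd hpr']
  have hRcard : ∀ S : Sylow r G, Nat.card S = r := by
    intro S
    rw [Sylow.card_eq_multiplicity, hG]
    rw [Nat.factorization_mul (Nat.mul_ne_zero hp.ne_zero hq.ne_zero) hr.ne_zero,
      Nat.factorization_mul hp.ne_zero hq.ne_zero]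
    simp [hr.factorization_self, Nat.factorization_eq_zero_of_not_dvd hrp,
      Nat.factorization_eq_zero_of_not_dvd hrq]
  have hcyc : IsCyclic P := isCyclic_of_prime_card hPcard
  have hcompl := IsCyclic.isComplement' hmin hcyc
  set K := (MonoidHom.transferSylow P (hcyc.normalizer_le_centralizer hmin)).ker with hK
  have hKn : K.Normal := by rw [hK]; infer_instance
  have hKidx : K.index = p := by rw [hcompl.symm.index_eq_card, hPcard]
  have hKcard : Nat.card K = q * r := by
    have := K.card_mul_index
    rw [hKidx, hG] at this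
    have hp0 := hp.pos
    exact Nat.eq_of_mul_eq_mul_right hp0 (by linarith : Nat.card K * p = (q * r) * p)
  -- every Sylow r-subgroup lies in K
  have hle : ∀ S : Sylow r G, (S : Subgroup G) ≤ K := by
    intro S
    rw [← Subgroup.relIndex_eq_one]
    have h1 : K.relIndex S ∣ p := hKidx ▸ Subgroup.relIndex_dvd_index_of_normal K S
    have h2 : K.relIndex S ∣ r := by
      have := Subgroup.relIndex_dvd_card K (S : Subgroup G)
      rwa [hRcard S] at this
    have := Nat.dvd_gcd h1 h2
    rw [(Nat.coprime_primes hp hr).2 (by omega)] at this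
    exact Nat.dvd_one.1 this
  -- the Sylow r-subgroup of K is unique
  let R' : Sylow r K := R.subtype (hle R)
  have hR'idx : (R' : Subgroup K).index = q := by
    have h1 := (R' : Subgroup K).card_mul_index
    have h2 : Nat.card (R' : Subgroup K) = r := by
      have : Nat.card (R' : Subgroup K) = Nat.card R := by
        show Nat.card ((R : Subgroup G).subgroupOf K) = _
        exact Nat.card_congr (Subgroup.subgroupOfEquivOfLe (hle R)).toEquiv
      rw [this, hRcard]
    rw [h2, hKcard] at h1
    exact Nat.eq_of_mul_eq_mul_left hr.pos (by linarith)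
  have hn1 : Nat.card (Sylow r K) = 1 := by
    have hd : Nat.card (Sylow r K) ∣ q := hR'idx ▸ Sylow.card_dvd_index R'
    have hm := card_sylow_modEq_one r K
    rcases (Nat.dvd_prime hq).1 hd with h | h
    · exact h
    · rw [h] at hm
      have : q % r = 1 % r := hm
      rw [Nat.mod_eq_of_lt hqr, Nat.mod_eq_of_lt hr.one_lt] at this
      have := hq.one_lt
      omega
  have : Subsingleton (Sylow r K) := (Nat.card_eq_one_iff_unique.1 hn1).1
  have hR'char : (R' : Subgroup K).Characteristic := Sylow.characteristic_of_subsingleton R'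
  have hnorm : ((R' : Subgroup K).map K.subtype).Normal := ConjAct.normal_of_characteristic_of_normal
  have : (R' : Subgroup K).map K.subtype = R := by
    show ((R : Subgroup G).subgroupOf K).map K.subtype = R
    rw [Subgroup.subgroupOf_map_subtype]
    exact inf_eq_left.2 (hle R)
  rwa [this] at hnorm

end Cfsg.Agent.S0987
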