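import Cfsg.Statements.S0988
import Cfsg.Agent.S0144
import Cfsg.Agent.H21.AutSq
import Cfsg.Agent.H21.Transfer

set_option autoImplicit false
open Cfsg

namespace Cfsg.Agent.S0988

open Cfsg.Agent.H21 Subgroup

theorem prime_ne_not_dvd {a b : ℕ} (ha : a.Prime) (hb : b.Prime) (h : a ≠ b) : ¬ a ∣ b :=
  fun hd => h ((Nat.prime_dvd_prime_iff_eq ha hb).1 hd)

theorem fact_p (p q r : ℕ) (hp : p.Prime) (hq : q.Prime) (hr : r.Prime) (hpq : p ≠ q) (hpr : p ≠ r) :
    (p ^ 2 * q * r).factorization p = 2 := by
  rw [Nat.factorization_mul (Nat.mul_ne_zero (pow_ne_zero 2 hp.ne_zero) hq.ne_zero) hr.ne_zero,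
    Nat.factorization_mul (pow_ne_zero 2 hp.ne_zero) hq.ne_zero]
  simp [hp.factorization_self, Nat.factorization_eq_zero_of_not_dvd (prime_ne_not_dvd hp hq hpq),
    Nat.factorization_eq_zero_of_not_dvd (prime_ne_not_dvd hp hr hpr)]

theorem fact_q (p q r : ℕ) (hp : p.Prime) (hq : q.Prime) (hr : r.Prime) (hqp : q ≠ p) (hqr : q ≠ r) :
    (p ^ 2 * q * r).factorization q = 1 := by
  rw [Nat.factorization_mul (Nat.mul_ne_zero (pow_ne_zero 2 hp.ne_zero) hq.ne_zero) hr.ne_zero,
    Nat.factorization_mul (pow_ne_zero 2 hp.ne_zero) hq.ne_zero]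
  simp [hq.factorization_self, Nat.factorization_eq_zero_of_not_dvd (prime_ne_not_dvd hq hp hqp),
    Nat.factorization_eq_zero_of_not_dvd (prime_ne_not_dvd hq hr hqr)]

theorem not_comm {G : Type*} [Group G] [Finite G] [IsSimpleGroup G] (p q r : ℕ) (hp : p.Prime)
    (hq : q.Prime) (hr : r.Prime) (hG : Nat.card G = p ^ 2 * q * r) : ¬ IsMulCommutative G := by
  intro hc
  have hprime : (Nat.card G).Prime := Group.is_simple_iff_prime_card.1 inferInstance
  rw [hG] at hprime
  have h1 : p ∣ p ^ 2 * q * r := ⟨p * q * r, by ring⟩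
  rcases (Nat.dvd_prime hprime).1 h1 with h | h
  · exact hp.one_lt.ne' h
  · have h2 := hp.two_le
    have h3 := hq.two_le
    have h4 := hr.two_le
    have : p * 2 * 2 ≤ p * (p * q * r) := by
      have : 2 * 2 ≤ p * q * r := by
        calc 2 * 2 ≤ q * r := Nat.mul_le_mul h3 h4
          _ ≤ p * (q * r) := Nat.le_mul_of_pos_left _ hp.pos
          _ = p * q * r := by ring
      nlinarith
    have h5 : p ^ 2 * q * r = p * (p * q * r) := by ring
    rw [h5] at h
    nlinarith

theorem not_solvable {G : Type*} [Group G] [IsSimpleGroup G] (hnc : ¬ IsMulCommutative G) :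
    ¬ Group.IsSolvable G := by
  intro hs
  exact hnc ⟨⟨IsSimpleGroup.comm_iff_isSolvable.2 hs⟩⟩

/-- The case of order `12 * s`, `s ≥ 5` prime. -/
theorem case_12 {G : Type*} [Group G] [Finite G] [IsSimpleGroup G] (hnc : ¬ IsMulCommutative G)
    (s : ℕ) (hs : s.Prime) (h5 : 5 ≤ s) (hG : Nat.card G = 12 * s) : Nat.card G = 60 := by
  have : Fact s.Prime := ⟨hs⟩
  obtain ⟨S⟩ : Nonempty (Sylow s G) := inferInstance
  have hs12 : ¬ s ∣ 12 := by
    intro h
    have := Nat.le_of_dvd (by norm_num) h
    interval_cases s <;> first | (exact absurd h (by decide)) | (exact absurd hs (by norm_num))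
  have hScard : Nat.card S = s := by
    rw [Sylow.card_eq_multiplicity, hG, Nat.factorization_mul (by norm_num) hs.ne_zero]
    simp [hs.factorization_self, Nat.factorization_eq_zero_of_not_dvd hs12]
  have hSidx : (S : Subgroup G).index = 12 := by
    have := (S : Subgroup G).card_mul_index
    rw [hScard, hG] at this
    exact Nat.eq_of_mul_eq_mul_left hs.pos (by linarith)
  have hSne : (S : Subgroup G) ≠ ⊥ := by
    intro h
    rw [h, Subgroup.card_bot] at hScard
    omega
  have hn_dvd : Nat.card (Sylow s G) ∣ 12 := hSidx ▸ Sylow.card_dvd_index S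
  have hn_mod := card_sylow_modEq_one s G
  have hn_ne1 : Nat.card (Sylow s G) ≠ 1 := by
    intro h1
    have hsub : Subsingleton (Sylow s G) := (Nat.card_eq_one_iff_unique.1 h1).1
    have hnorm : (S : Subgroup G).Normal := Sylow.normal_of_subsingleton S
    rcases hnorm.eq_bot_or_eq_top with h | h
    · exact hSne h
    · rw [h, Subgroup.card_top, hG] at hScard
      omega
  have hle : Nat.card (Sylow s G) ≤ 12 := Nat.le_of_dvd (by norm_num) hn_dvd
  have hmod' : Nat.card (Sylow s G) % s = 1 := by
    have h := hn_mod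
    unfold Nat.ModEq at h
    rw [h, Nat.mod_eq_of_lt hs.one_lt]
  -- n_s ≥ s + 1
  have hge : s + 1 ≤ Nat.card (Sylow s G) := by
    by_contra hlt
    have hlt' : Nat.card (Sylow s G) < s := by
      rcases Nat.lt_or_ge (Nat.card (Sylow s G)) s with h | h
      · exact h
      · exfalso
        have : Nat.card (Sylow s G) = s := by omega
        rw [this, Nat.mod_self] at hmod'
        omega
    rw [Nat.mod_eq_of_lt hlt'] at hmod'
    exact hn_ne1 hmod'
  generalize hn : Nat.card (Sylow s G) = n at *
  have hn6 : n = 6 ∨ n = 12 := by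
    interval_cases n <;> omega
  rcases hn6 with rfl | rfl
  · -- s ∣ 5
    have : s = 5 := by
      have h1 : s ∣ 5 := by
        have := (Nat.modEq_iff_dvd' (by norm_num : 1 ≤ 6)).1 hn_mod.symm
        simpa using this
      exact (Nat.prime_dvd_prime_iff_eq hs (by norm_num)).1 h1
    rw [hG, this]
  · -- s ∣ 11, so s = 11, N(S) = S
    exfalso
    have hs11 : s = 11 := by
      have h1 : s ∣ 11 := by
        have := (Nat.modEq_iff_dvd' (by norm_num : 1 ≤ 12)).1 hn_mod.symm
        simpa using this
      exact (Nat.prime_dvd_prime_iff_eq hs (by norm_num)).1 h1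
    have hNidx : (normalizer ((S : Subgroup G) : Set G)).index = 12 := by
      have h1 := Sylow.card_eq_index_normalizer S
      rw [hn] at h1
      exact h1.symm
    have hNcard : Nat.card (normalizer ((S : Subgroup G) : Set G)) = s := by
      have := (normalizer ((S : Subgroup G) : Set G)).card_mul_index
      rw [hNidx, hG] at this
      exact Nat.eq_of_mul_eq_mul_right (by norm_num : 0 < 12) (by linarith)
    have hNS : normalizer ((S : Subgroup G) : Set G) = S := by
      symm
      apply Subgroup.eq_of_le_of_card_ge le_normalizer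
      rw [hNcard, hScard]
    have hcyc : IsCyclic (S : Subgroup G) := isCyclic_of_prime_card hScard
    have hcomm : IsMulCommutative (S : Subgroup G) := inferInstance
    apply simple_not_normalizer_le_centralizer hnc S hSne
    show normalizer ((S : Subgroup G) : Set G) ≤ centralizer ((S : Subgroup G) : Set G)
    rw [hNS]
    exact Subgroup.le_centralizer (S : Subgroup G)


/-- core: `p < q`, `p < r`, `q ≠ r`. -/
theorem core {G : Type*} [Group G] [Finite G] [IsSimpleGroup G] (hnc : ¬ IsMulCommutative G)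
    (p q r : ℕ) (hp : p.Prime) (hq : q.Prime) (hr : r.Prime) (hpq : p < q) (hpr : p < r)
    (hqr : q ≠ r) (hG : Nat.card G = p ^ 2 * q * r) : Nat.card G = 60 := by
  have : Fact p.Prime := ⟨hp⟩
  obtain ⟨P⟩ : Nonempty (Sylow p G) := inferInstance
  have hPcard : Nat.card P = p ^ 2 := by
    rw [Sylow.card_eq_multiplicity, hG, fact_p p q r hp hq hr (by omega) (by omega)]
  have hPidx : (P : Subgroup G).index = q * r := by
    have := (P : Subgroup G).card_mul_index
    rw [hPcard, hG] at this
    exact Nat.eq_of_mul_eq_mul_left (pow_pos hp.pos 2) (by linarith)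
  have hPne : (P : Subgroup G) ≠ ⊥ := by
    intro h
    rw [h, Subgroup.card_bot] at hPcard
    have := hp.two_le
    nlinarith
  have hcomm : IsMulCommutative (P : Subgroup G) :=
    IsPGroup.isMulCommutative_of_card_eq_prime_sq hPcard
  have hPC : (P : Subgroup G) ≤ centralizer ((P : Subgroup G) : Set G) := Subgroup.le_centralizer _
  have hne1 : (centralizer ((P : Subgroup G) : Set G)).relIndex (normalizer ((P : Subgroup G) : Set G)) ≠ 1 := by
    intro h
    rw [Subgroup.relIndex_eq_one] at h
    exact simple_not_normalizer_le_centralizer hnc P hPne h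
  have hdvd : (centralizer ((P : Subgroup G) : Set G)).relIndex (normalizer ((P : Subgroup G) : Set G)) ∣ q * r := by
    have h1 := Subgroup.relIndex_dvd_of_le_left (normalizer ((P : Subgroup G) : Set G)) hPC
    have h2 := Subgroup.relIndex_dvd_index_of_le (H := (P : Subgroup G))
      (K := normalizer ((P : Subgroup G) : Set G)) le_normalizer
    rw [hPidx] at h2
    exact h1.trans h2
  obtain ⟨ℓ, hℓ, hℓd⟩ := Nat.exists_prime_and_dvd hne1
  have hℓqr : ℓ = q ∨ ℓ = r := by
    rcases (Nat.Prime.dvd_mul hℓ).1 (hℓd.trans hdvd) with h | h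
    · left; exact (Nat.prime_dvd_prime_iff_eq hℓ hq).1 h
    · right; exact (Nat.prime_dvd_prime_iff_eq hℓ hr).1 h
  have hpℓ : p < ℓ := by rcases hℓqr with h | h <;> omega
  -- an automorphism of order ℓ
  let f : normalizer ((P : Subgroup G) : Set G) →* MulAut (P : Subgroup G) :=
    (P : Subgroup G).normalizerMonoidHom
  have hrange : Nat.card f.range
      = (centralizer ((P : Subgroup G) : Set G)).relIndex (normalizer ((P : Subgroup G) : Set G)) := by
    rw [← Subgroup.index_ker, Subgroup.normalizerMonoidHom_ker]; rfl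
  have : Fact ℓ.Prime := ⟨hℓ⟩
  obtain ⟨x, hx⟩ := exists_prime_orderOf_dvd_card' (G := f.range) ℓ (by rw [hrange]; exact hℓd)
  have hα : orderOf (x : MulAut (P : Subgroup G)) = ℓ := by rw [Subgroup.orderOf_coe, hx]
  have hℓp := aut_prime_order_of_card_sq p ℓ hp hℓ hpℓ hPcard (x : MulAut (P : Subgroup G)) hα
  -- p = 2, ℓ = 3
  have hp2 : p = 2 := by
    rcases hp.eq_two_or_odd with h | h
    · exact h
    · exfalso
      have h2 : 2 ∣ ℓ := by rw [hℓp]; omega
      have := (Nat.prime_dvd_prime_iff_eq Nat.prime_two hℓ).1 h2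
      have := hp.two_le
      omega
  subst hp2
  have hℓ3 : ℓ = 3 := hℓp
  rcases hℓqr with h | h
  · -- q = 3
    have hq3 : q = 3 := by omega
    subst hq3
    apply case_12 hnc r hr _ (by rw [hG]; ring)
    by_contra hlt
    have : r = 4 := by omega
    rw [this] at hr; norm_num at hr
  · have hr3 : r = 3 := by omega
    subst hr3
    apply case_12 hnc q hq _ (by rw [hG]; ring)
    by_contra hlt
    have : q = 4 := by omega
    rw [this] at hq; norm_num at hq

theorem minFac_pqr (p q r ℓ : ℕ) (hp : p.Prime) (hq : q.Prime) (hr : r.Prime) (hℓ : ℓ.Prime)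
    (hd : ℓ ∣ p ^ 2 * q * r) (h1 : ℓ ≤ p) (h2 : ℓ ≤ q) (h3 : ℓ ≤ r) :
    (p ^ 2 * q * r).minFac = ℓ := by
  have hn1 : p ^ 2 * q * r ≠ 1 := by
    intro h
    have := Nat.eq_one_of_mul_eq_one_left h
    have := hr.one_lt
    omega
  have hm := Nat.minFac_prime hn1
  have hmd := Nat.minFac_dvd (p ^ 2 * q * r)
  have hle : (p ^ 2 * q * r).minFac ≤ ℓ := Nat.minFac_le_of_dvd hℓ.two_le hd
  have : ℓ ≤ (p ^ 2 * q * r).minFac := by
    rcases (Nat.Prime.dvd_mul hm).1 hmd with h | h
    · rcases (Nat.Prime.dvd_mul hm).1 h with h | h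
      · have := (Nat.prime_dvd_prime_iff_eq hm hp).1 (hm.dvd_of_dvd_pow h)
        omega
      · have := (Nat.prime_dvd_prime_iff_eq hm hq).1 h
        omega
    · have := (Nat.prime_dvd_prime_iff_eq hm hr).1 h
      omega
  omega

theorem minFac_cyclic_false {G : Type*} [Group G] [Finite G] [IsSimpleGroup G]
    (hnc : ¬ IsMulCommutative G) (ℓ : ℕ) (hℓ : ℓ.Prime) (hmin : (Nat.card G).minFac = ℓ)
    (hfac : (Nat.card G).factorization ℓ = 1) : False := by
  have : Fact ℓ.Prime := ⟨hℓ⟩
  obtain ⟨S⟩ : Nonempty (Sylow ℓ G) := inferInstance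
  have hScard : Nat.card S = ℓ := by rw [Sylow.card_eq_multiplicity, hfac, pow_one]
  have hSne : (S : Subgroup G) ≠ ⊥ := by
    intro h
    rw [h, Subgroup.card_bot] at hScard
    have := hℓ.one_lt
    omega
  exact simple_sylow_minFac_not_cyclic hnc hmin S hSne (isCyclic_of_prime_card hScard)

/-- If a finite simple group has order p^2 * q * r with p, q and r prime, then its order is 60. -/
theorem result {G : Type*} [Group G] [Finite G] [IsSimpleGroup G] (p q r : ℕ) (hp : p.Prime) (hq : q.Prime) (hr : r.Prime) (hG : Nat.card G = p ^ 2 * q * r) : Nat.card G = 60 := by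
  have hnc := not_comm p q r hp hq hr hG
  have hns := not_solvable hnc
  have hqr : q ≠ r := by
    rintro rfl
    exact hns (Cfsg.Agent.S0144.result p q 2 2 hp hq (by rw [hG]; ring))
  have hpq : p ≠ q := by
    rintro rfl
    exact hns (Cfsg.Agent.S0144.result p r 3 1 hp hr (by rw [hG]; ring))
  have hpr : p ≠ r := by
    rintro rfl
    exact hns (Cfsg.Agent.S0144.result p q 3 1 hp hq (by rw [hG]; ring))
  rcases Nat.lt_or_ge p q with h1 | h1
  · rcases Nat.lt_or_ge p r with h2 | h2
    · exact core hnc p q r hp hq hr h1 h2 hqr hG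
    · -- r smallest
      exfalso
      apply minFac_cyclic_false hnc r hr
      · rw [hG]
        exact minFac_pqr p q r r hp hq hr hr ⟨p ^ 2 * q, by ring⟩ h2 (by omega) le_rfl
      · rw [hG]
        have : p ^ 2 * q * r = p ^ 2 * r * q := by ring
        rw [this]
        exact fact_q p r q hp hr hq (Ne.symm hpr) (Ne.symm hqr)
  · rcases Nat.lt_or_ge q r with h2 | h2
    · -- q smallest
      exfalso
      apply minFac_cyclic_false hnc q hq
      · rw [hG]
        exact minFac_pqr p q r q hp hq hr hq ⟨p ^ 2 * r, by ring⟩ h1 le_rfl h2.le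
      · rw [hG]
        exact fact_q p q r hp hq hr (Ne.symm hpq) hqr
    · -- r smallest
      exfalso
      apply minFac_cyclic_false hnc r hr
      · rw [hG]
        exact minFac_pqr p q r r hp hq hr hr ⟨p ^ 2 * q, by ring⟩ (by omega) h2 le_rfl
      · rw [hG]
        have : p ^ 2 * q * r = p ^ 2 * r * q := by ring
        rw [this]
        exact fact_q p r q hp hr hq (Ne.symm hpr) (Ne.symm hqr)

end Cfsg.Agent.S0988
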