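import Cfsg.Statements.S0990
import Mathlib

set_option autoImplicit false
open Cfsg

namespace Cfsg.Agent.S0990

theorem card_subgroupOf_eq_card_inf {G : Type*} [Group G] (H K : Subgroup G) :
    Nat.card (H.subgroupOf K) = Nat.card (H ⊓ K : Subgroup G) := by
  rw [← Subgroup.inf_subgroupOf_right]
  exact Nat.card_congr (Subgroup.subgroupOfEquivOfLe inf_le_right).toEquiv

/-- Let p be an odd prime and P a Sylow p-subgroup of the symmetric group on a finite set with at least two elements. Then P is contained in the alternating group, and twice the order of the normalizer of P inside the alternating group equals the order of the normalizer of P in the symmetric group. -/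
theorem result {α : Type*} [Fintype α] [DecidableEq α] (hα : 2 ≤ Fintype.card α) (p : ℕ) [Fact p.Prime] (hp : p ≠ 2) (P : Sylow p (Equiv.Perm α)) : (P : Subgroup (Equiv.Perm α)) ≤ alternatingGroup α ∧ 2 * Nat.card ↥(Subgroup.normalizer ((((P : Subgroup (Equiv.Perm α)).subgroupOf (alternatingGroup α) : Subgroup ↥(alternatingGroup α)) : Set ↥(alternatingGroup α)))) = Nat.card ↥(Subgroup.normalizer ((P : Subgroup (Equiv.Perm α)) : Set (Equiv.Perm α))) := by
  have hpp : p.Prime := Fact.out
  have : Nontrivial α := Fintype.one_lt_card_iff_nontrivial.1 hα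
  have hPA : (P : Subgroup (Equiv.Perm α)) ≤ alternatingGroup α := by
    intro σ hσ
    rw [Equiv.Perm.mem_alternatingGroup]
    obtain ⟨k, hk⟩ := P.2 ⟨σ, hσ⟩
    have hk' : σ ^ p ^ k = 1 := by simpa using congrArg Subtype.val hk
    have h1 : Equiv.Perm.sign σ ^ p ^ k = 1 := by rw [← map_pow, hk', map_one]
    rcases Int.units_eq_one_or (Equiv.Perm.sign σ) with h | h
    · exact h
    · rw [h] at h1
      have hodd : Odd (p ^ k) := (hpp.odd_of_ne_two hp).pow
      rw [hodd.neg_one_pow] at h1
      exact absurd h1 (by decide)
  refine ⟨hPA, ?_⟩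
  set N := Subgroup.normalizer ((P : Subgroup (Equiv.Perm α)) : Set (Equiv.Perm α)) with hN
  have hsup : N ⊔ alternatingGroup α = ⊤ := Sylow.normalizer_sup_eq_top' P hPA
  have hrel : (alternatingGroup α).relIndex N = 2 := by
    rw [← Subgroup.relIndex_sup_right, hsup, Subgroup.relIndex_top_right, alternatingGroup.index_eq_two]
  rw [← Subgroup.subgroupOf_normalizer_eq hPA, card_subgroupOf_eq_card_inf]
  have h1 := ((alternatingGroup α).subgroupOf N).card_mul_index
  rw [card_subgroupOf_eq_card_inf] at h1
  rw [← h1, inf_comm]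
  have : ((alternatingGroup α).subgroupOf N).index = 2 := hrel
  rw [this, mul_comm]

end Cfsg.Agent.S0990
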