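import Cfsg.Statements.S0992
import Cfsg.Agent.H21.Transfer

set_option autoImplicit false
open Cfsg

namespace Cfsg.Agent.S0992

open Cfsg.Agent.H21 Subgroup

theorem card_mulAut_dvd_factorial (H : Type*) [Group H] [Finite H] :
    Nat.card (MulAut H) ∣ (Nat.card H).factorial := by
  rw [← Nat.card_perm]
  apply Subgroup.card_dvd_of_injective (MulAut.toPerm H)
  intro f g hfg
  ext x
  exact congrArg (fun σ : Equiv.Perm H => σ x) hfg

/-- Let G be a non-abelian finite simple group of even order not divisible by 8, and T a Sylow 2-subgroup. Then T is a Klein four-group and the centralizer of T has index 3 in the normalizer of T. -/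
theorem result {G : Type*} [Group G] [Finite G] [IsSimpleGroup G] (hG : ¬ IsMulCommutative G) (h2 : Even (Nat.card G)) (h8 : ¬ 8 ∣ Nat.card G) (T : Sylow 2 G) : IsKleinFour ↥(T : Subgroup G) ∧ (Subgroup.centralizer ((T : Subgroup G) : Set G)).relIndex (Subgroup.normalizer ((T : Subgroup G) : Set G)) = 3 := by
  have h2' : 2 ∣ Nat.card G := even_iff_two_dvd.1 h2
  have hTne : (T : Subgroup G) ≠ ⊥ := T.ne_bot_of_dvd_card h2'
  have hmin : (Nat.card G).minFac = 2 := (Nat.minFac_eq_two_iff _).2 h2'
  have hncyc : ¬ IsCyclic T := simple_sylow_minFac_not_cyclic hG hmin T hTne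
  obtain ⟨k, hk⟩ := T.2.exists_card_eq
  have hk2 : k = 2 := by
    have hdvd : 2 ^ k ∣ Nat.card G := hk ▸ Subgroup.card_subgroup_dvd_card (T : Subgroup G)
    have hk3 : k < 3 := by
      by_contra h3
      exact h8 ((pow_dvd_pow 2 (by omega : 3 ≤ k)).trans hdvd)
    have hk0 : k ≠ 0 := by
      rintro rfl
      exact hTne (Subgroup.card_eq_one.1 (by simpa using hk))
    have hk1 : k ≠ 1 := by
      rintro rfl
      exact hncyc (isCyclic_of_prime_card (p := 2) (by simpa using hk))
    omega
  subst hk2
  have hcard : Nat.card (T : Subgroup G) = 4 := by rw [hk]; norm_num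
  have hexp : Monoid.exponent (T : Subgroup G) = 2 := by
    have hsq : ∀ x : (T : Subgroup G), x ^ 2 = 1 := by
      intro x
      have h1 : orderOf x ∣ 4 := hcard ▸ orderOf_dvd_natCard x
      have h4 : orderOf x ≠ 4 := fun h => hncyc (isCyclic_of_orderOf_eq_card x (h.trans hcard.symm))
      have : orderOf x ∣ 2 := by
        have hle : orderOf x ≤ 4 := Nat.le_of_dvd (by norm_num) h1
        interval_cases h : orderOf x <;> simp_all
      exact orderOf_dvd_iff_pow_eq_one.1 this
    have hd : Monoid.exponent (T : Subgroup G) ∣ 2 := Monoid.exponent_dvd_of_forall_pow_eq_one hsq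
    rcases (Nat.dvd_prime Nat.prime_two).1 hd with h | h
    · exfalso
      rw [Monoid.exp_eq_one_iff] at h
      have : Nat.card (T : Subgroup G) = 1 := Nat.card_eq_one_iff_unique.2 ⟨h, ⟨1⟩⟩
      omega
    · exact h
  refine ⟨⟨hcard, hexp⟩, ?_⟩
  have hd1 : (centralizer ((T : Subgroup G) : Set G)).relIndex (normalizer ((T : Subgroup G) : Set G)) ∣ 24 := by
    have := (relIndex_centralizer_normalizer_dvd_card_mulAut (T : Subgroup G)).trans
      (card_mulAut_dvd_factorial (T : Subgroup G))
    rw [hcard] at this
    exact this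
  have hTC : (T : Subgroup G) ≤ centralizer ((T : Subgroup G) : Set G) := by
    have : IsMulCommutative (T : Subgroup G) :=
      IsPGroup.isMulCommutative_of_card_eq_prime_sq (p := 2) (G := (T : Subgroup G)) (by rw [hcard]; norm_num)
    exact Subgroup.le_centralizer (T : Subgroup G)
  have hodd : ¬ 2 ∣ (centralizer ((T : Subgroup G) : Set G)).relIndex (normalizer ((T : Subgroup G) : Set G)) := by
    intro h
    have h1 := Subgroup.relIndex_dvd_of_le_left (normalizer ((T : Subgroup G) : Set G)) hTC
    have h2 := Subgroup.relIndex_dvd_index_of_le (H := (T : Subgroup G)) (K := normalizer ((T : Subgroup G) : Set G)) le_normalizer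
    exact T.not_dvd_index (h.trans (h1.trans h2))
  have hne1 : (centralizer ((T : Subgroup G) : Set G)).relIndex (normalizer ((T : Subgroup G) : Set G)) ≠ 1 := by
    intro h
    rw [Subgroup.relIndex_eq_one] at h
    exact simple_not_normalizer_le_centralizer hG T hTne h
  have hle : (centralizer ((T : Subgroup G) : Set G)).relIndex (normalizer ((T : Subgroup G) : Set G)) ≤ 24 :=
    Nat.le_of_dvd (by norm_num) hd1
  generalize (centralizer ((T : Subgroup G) : Set G)).relIndex (normalizer ((T : Subgroup G) : Set G)) = n at *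
  interval_cases n <;> omega

end Cfsg.Agent.S0992
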