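import Cfsg.Statements.S0995
import Cfsg.Agent.H21.SimpleTools
import Cfsg.Agent.H21.Counting
import Cfsg.Agent.H21.ConjCount

set_option autoImplicit false
open Cfsg

namespace Cfsg.Agent.S0995

open Cfsg.Agent.H21 Subgroup

/-- If `C_G(z) = ⟨z⟩` with `z` of prime order `p`, then `⟨z⟩` is a Sylow `p`-subgroup. -/
theorem sylow_eq_zpowers {G : Type*} [Group G] [Finite G] (p : ℕ) [Fact p.Prime] (z : G)
    (hz : orderOf z = p) (hC : Subgroup.centralizer ({z} : Set G) = Subgroup.zpowers z)
    (P : Sylow p G) (hzP : zpowers z ≤ (P : Subgroup G)) : (P : Subgroup G) = zpowers z := by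
  have hp : p.Prime := Fact.out
  have hZcard : Nat.card (zpowers z) = p := by rw [Nat.card_zpowers, hz]
  have hz1 : z ≠ 1 := by rintro rfl; rw [orderOf_one] at hz; exact hp.one_lt.ne hz
  apply le_antisymm _ hzP
  rw [← hC]
  have hnt : Nontrivial (P : Subgroup G) :=
    ⟨⟨⟨z, hzP (mem_zpowers z)⟩, 1, by simpa [Subtype.ext_iff] using hz1⟩⟩
  have hcen := P.2.center_nontrivial
  obtain ⟨c, hc1⟩ := exists_ne (1 : Subgroup.center (P : Subgroup G))
  obtain ⟨c', hc'⟩ : ∃ c' : G, c' = ((c : (P : Subgroup G)) : G) := ⟨_, rfl⟩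
  have hc'P : c' ∈ (P : Subgroup G) := by rw [hc']; exact (c : (P : Subgroup G)).2
  have hccomm : ∀ x ∈ (P : Subgroup G), c' * x = x * c' := by
    intro x hx
    have := Subgroup.mem_center_iff.1 c.2 ⟨x, hx⟩
    rw [hc']
    exact (congrArg Subtype.val this).symm
  have hcz : c' ∈ zpowers z := by
    rw [← hC, mem_centralizer_iff]
    intro y hy
    rw [Set.mem_singleton_iff] at hy
    subst hy
    exact (hccomm y (hzP (mem_zpowers y))).symm
  have hcne : c' ≠ 1 := by
    intro h
    apply hc1
    apply Subtype.ext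
    apply Subtype.ext
    rw [← hc', h]
    rfl
  have hco : orderOf c' = p := orderOf_eq_of_mem_card_prime hp (zpowers z) hZcard _ hcz hcne
  have hZeq : zpowers z = zpowers c' := eq_zpowers_of_card_prime (zpowers z) hZcard _ hcz hco
  have hzc : z ∈ zpowers c' := hZeq ▸ mem_zpowers z
  obtain ⟨k, hk⟩ := mem_zpowers_iff.1 hzc
  intro x hx
  rw [mem_centralizer_iff]
  intro y hy
  rw [Set.mem_singleton_iff] at hy
  subst hy
  rw [← hk]
  exact ((Commute.zpow_left (show Commute c' x from hccomm x hx) k).eq)

/-- Let G be a finite perfect group containing an element z of prime order p whose centralizer is the cyclic group it generates. Let t be the number of conjugacy classes of elements of order p. Then t divides p - 1, the number of Sylow p-subgroups has the form 1 + n * p, and |G| * t = (p - 1) * p * (1 + n * p). -/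
theorem result {G : Type*} [Group G] [Finite G] (hperf : commutator G = ⊤) (p : ℕ) [Fact p.Prime] (z : G) (hz : orderOf z = p) (hC : Subgroup.centralizer ({z} : Set G) = Subgroup.zpowers z) : ∃ n t : ℕ, t = Nat.card {c : ConjClasses G // ∃ g : G, ConjClasses.mk g = c ∧ orderOf g = p} ∧ t ∣ p - 1 ∧ Nat.card (Sylow p G) = 1 + n * p ∧ Nat.card G * t = (p - 1) * p * (1 + n * p) := by
  classical
  have hp : p.Prime := Fact.out
  have hpz : IsPGroup p (zpowers z) :=
    IsPGroup.of_card (n := 1) (by rw [Nat.card_zpowers, hz, pow_one])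
  obtain ⟨P, hzP⟩ := hpz.exists_le_sylow
  have hZcard : Nat.card (zpowers z) = p := by rw [Nat.card_zpowers, hz]
  have hPeq := sylow_eq_zpowers p z hz hC P hzP
  have hP : Nat.card (P : Subgroup G) = p := by rw [hPeq]; exact hZcard
  -- the centralizer of an element of order `p` in `⟨z⟩` is `⟨z⟩`
  have hcent : ∀ g' : G, g' ∈ zpowers z → orderOf g' = p →
      centralizer ({g'} : Set G) = zpowers z := by
    intro g' hg' ho
    have hZeq : zpowers z = zpowers g' := eq_zpowers_of_card_prime (zpowers z) hZcard _ hg' ho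
    apply le_antisymm
    · intro x hx
      rw [← hC, mem_centralizer_iff]
      intro y hy
      rw [Set.mem_singleton_iff] at hy
      subst hy
      have hyg : y ∈ zpowers g' := hZeq ▸ mem_zpowers y
      obtain ⟨k, hk⟩ := mem_zpowers_iff.1 hyg
      rw [← hk]
      have hgx : g' * x = x * g' := (mem_centralizer_iff.1 hx) g' rfl
      exact ((Commute.zpow_left (show Commute g' x from hgx) k).eq)
    · rw [hZeq]
      intro x hx
      rw [mem_centralizer_iff]
      intro y hy
      rw [Set.mem_singleton_iff] at hy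
      subst hy
      obtain ⟨k, hk⟩ := mem_zpowers_iff.1 hx
      rw [← hk]
      exact ((Commute.zpow_right (Commute.refl y) k).eq)
  have hCP : centralizer ((P : Subgroup G) : Set G) = zpowers z := by
    apply le_antisymm
    · intro x hx
      rw [← hC, mem_centralizer_iff]
      intro y hy
      rw [Set.mem_singleton_iff] at hy
      subst hy
      exact hx y (hzP (mem_zpowers y))
    · rw [← hC]
      intro x hx
      rw [mem_centralizer_iff]
      intro y hy
      have hy' : y ∈ zpowers z := hPeq ▸ hy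
      obtain ⟨k, hk⟩ := mem_zpowers_iff.1 hy'
      rw [← hk]
      have hzx : z * x = x * z := (mem_centralizer_iff.1 hx) z rfl
      exact ((Commute.zpow_left (show Commute z x from hzx) k).eq)
  have hCPcard : Nat.card (centralizer ((P : Subgroup G) : Set G)) = p := by rw [hCP, hZcard]
  -- N/C
  have hd : (centralizer ((P : Subgroup G) : Set G)).relIndex (normalizer ((P : Subgroup G) : Set G)) ∣ p - 1 := by
    have h1 := relIndex_centralizer_normalizer_dvd_card_mulAut (P : Subgroup G)
    have : IsCyclic (P : Subgroup G) := isCyclic_of_prime_card hP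
    rw [IsCyclic.card_mulAut, hP, Nat.totient_prime hp] at h1
    exact h1
  have hCd := card_centralizer_mul_relIndex_normalizer (P : Subgroup G)
  rw [hCPcard] at hCd
  have hNn : Nat.card (normalizer ((P : Subgroup G) : Set G)) * Nat.card (Sylow p G) = Nat.card G := by
    rw [Sylow.card_eq_index_normalizer P]
    exact Subgroup.card_mul_index (normalizer ((P : Subgroup G) : Set G))
  -- class sizes
  have hclass : ∀ g : G, orderOf g = p → Nat.card {h : G // IsConj g h} * p = Nat.card G := by
    intro g hg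
    obtain ⟨c, hc⟩ := Cfsg.Agent.S1018.exists_conj_mem_sylow' P g hg
    have h1 := card_conj_mul_card_centralizer g
    rw [← card_centralizer_conj g c] at h1
    have hc' : c * g * c⁻¹ ∈ zpowers z := hPeq ▸ hc
    rw [hcent _ hc' (by rw [Cfsg.Agent.S1018.orderOf_conj_eq, hg]), hZcard] at h1
    exact h1
  -- counting elements of order `p` by classes
  have hcount := card_orderOf_eq_prime p P hP
  have hord : ∀ (c : ConjClasses G), (∃ g : G, ConjClasses.mk g = c ∧ orderOf g = p) →
      ∀ g : G, ConjClasses.mk g = c → orderOf g = p := by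
    rintro c ⟨g0, rfl, hg0⟩ g hg
    obtain ⟨u, hu⟩ := isConj_iff.1 (ConjClasses.mk_eq_mk_iff_isConj.1 hg)
    rw [← hg0, ← hu, Cfsg.Agent.S1018.orderOf_conj_eq]
  let f : (Σ c : {c : ConjClasses G // ∃ g : G, ConjClasses.mk g = c ∧ orderOf g = p},
      {g : G // ConjClasses.mk g = c.1}) → {g : G // orderOf g = p} :=
    fun q => ⟨q.2.1, hord q.1.1 q.1.2 q.2.1 q.2.2⟩
  have hf : Function.Bijective f := by
    constructor
    · rintro ⟨⟨c, hc⟩, g, hg⟩ ⟨⟨c', hc'⟩, g', hg'⟩ h
      have hgg : g = g' := congrArg Subtype.val h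
      subst hgg
      simp only at hg hg'
      subst hg
      subst hg'
      rfl
    · rintro ⟨g, hg⟩
      exact ⟨⟨⟨ConjClasses.mk g, g, rfl, hg⟩, ⟨g, rfl⟩⟩, rfl⟩
  have := Fintype.ofFinite {c : ConjClasses G // ∃ g : G, ConjClasses.mk g = c ∧ orderOf g = p}
  have hsum := Nat.card_congr (Equiv.ofBijective f hf)
  rw [Nat.card_sigma, hcount] at hsum
  have hfib : ∀ c : {c : ConjClasses G // ∃ g : G, ConjClasses.mk g = c ∧ orderOf g = p},
      Nat.card {g : G // ConjClasses.mk g = c.1} * p = Nat.card G := by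
    rintro ⟨c, g0, rfl, hg0⟩
    rw [← hclass g0 hg0]
    congr 1
    apply Nat.card_congr
    refine Equiv.subtypeEquivRight (fun h => ?_)
    rw [ConjClasses.mk_eq_mk_iff_isConj]
    exact isConj_comm
  have htot : Nat.card (Sylow p G) * (p - 1) * p =
      Nat.card {c : ConjClasses G // ∃ g : G, ConjClasses.mk g = c ∧ orderOf g = p} * Nat.card G := by
    rw [← hsum, Finset.sum_mul, Finset.sum_congr rfl (fun c _ => hfib c), Finset.sum_const,
      Finset.card_univ, smul_eq_mul, ← Nat.card_eq_fintype_card]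
  have hmod : Nat.card (Sylow p G) % p = 1 := by
    have h := card_sylow_modEq_one p G
    unfold Nat.ModEq at h
    rw [h, Nat.mod_eq_of_lt hp.one_lt]
  have hnpos : 0 < Nat.card (Sylow p G) := Nat.card_pos
  refine ⟨(Nat.card (Sylow p G) - 1) / p, _, rfl, ?_, ?_, ?_⟩
  · -- t ∣ p - 1
    obtain ⟨d, hd'⟩ : ∃ d, d = (centralizer ((P : Subgroup G) : Set G)).relIndex (normalizer ((P : Subgroup G) : Set G)) := ⟨_, rfl⟩
    rw [← hd'] at hCd hd
    rw [← hNn, ← hCd] at htot
    refine ⟨d, ?_⟩
    have hpos : 0 < Nat.card (Sylow p G) * p := Nat.mul_pos hnpos hp.pos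
    apply Nat.eq_of_mul_eq_mul_left hpos
    calc Nat.card (Sylow p G) * p * (p - 1) = Nat.card (Sylow p G) * (p - 1) * p := by ring
      _ = _ := htot
      _ = _ := by ring
  · have h1 : p ∣ Nat.card (Sylow p G) - 1 := by
      apply (Nat.modEq_iff_dvd' hnpos).1
      exact (card_sylow_modEq_one p G).symm
    obtain ⟨e, he⟩ := h1
    rw [he, Nat.mul_div_cancel_left _ hp.pos, mul_comm e p]
    omega
  · have h1 : p ∣ Nat.card (Sylow p G) - 1 := by
      apply (Nat.modEq_iff_dvd' hnpos).1
      exact (card_sylow_modEq_one p G).symm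
    obtain ⟨e, he⟩ := h1
    rw [he, Nat.mul_div_cancel_left _ hp.pos]
    have h2 : Nat.card (Sylow p G) = 1 + e * p := by
      have : Nat.card (Sylow p G) = 1 + p * e := by omega
      rw [this, mul_comm]
    rw [← h2, mul_comm (Nat.card G), ← htot]
    ring

end Cfsg.Agent.S0995
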