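import Cfsg.Statements.S1019
import Mathlib

set_option autoImplicit false
open Cfsg

namespace Cfsg.Agent.S1019

/-- Let H be a subgroup of the finite group G and x ∈ H. The number of fixed points of x on the left cosets of H times the size of the conjugacy class of x in G equals the index of H times the number of G-conjugates of x lying in H. -/
theorem result {G : Type*} [Group G] [Finite G] (H : Subgroup G) (x : G) (hx : x ∈ H) : Nat.card (MulAction.fixedBy (G ⧸ H) x) * Nat.card {g : G // IsConj x g} = H.index * Nat.card {g : G // IsConj x g ∧ g ∈ H} := by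
  classical
  have := Fintype.ofFinite G
  have h1 : ∀ y : {g : G // IsConj x g}, Nat.card (MulAction.fixedBy (G ⧸ H) y.1) =
      Nat.card (MulAction.fixedBy (G ⧸ H) x) := by
    rintro ⟨y, hy⟩
    obtain ⟨c, hc⟩ := isConj_iff.1 hy
    show Nat.card (MulAction.fixedBy (G ⧸ H) y) = _
    clear hy
    subst hc
    refine Nat.card_congr ⟨fun a => ⟨c⁻¹ • a.1, ?_⟩, fun a => ⟨c • a.1, ?_⟩, ?_, ?_⟩
    · have ha : (c * x * c⁻¹) • a.1 = a.1 := a.2
      show x • c⁻¹ • a.1 = c⁻¹ • a.1
      calc x • c⁻¹ • a.1 = c⁻¹ • ((c * x * c⁻¹) • a.1) := by simp [mul_smul]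
        _ = c⁻¹ • a.1 := by rw [ha]
    · have ha : x • a.1 = a.1 := a.2
      show (c * x * c⁻¹) • c • a.1 = c • a.1
      calc (c * x * c⁻¹) • c • a.1 = c • (x • a.1) := by simp [mul_smul]
        _ = c • a.1 := by rw [ha]
    · intro a; ext; simp
    · intro a; ext; simp
  have h2 : ∀ c : G ⧸ H, Nat.card {y : G // IsConj x y ∧ y • c = c} =
      Nat.card {g : G // IsConj x g ∧ g ∈ H} := by
    intro c
    induction c using QuotientGroup.induction_on with
    | H g =>
      have key : ∀ y : G, y • (g : G ⧸ H) = (g : G ⧸ H) ↔ g⁻¹ * y * g ∈ H := by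
        intro y
        rw [eq_comm]
        show (g : G ⧸ H) = ((y * g : G) : G ⧸ H) ↔ _
        rw [QuotientGroup.eq]
        simp [mul_assoc]
      refine Nat.card_congr ⟨fun a => ⟨g⁻¹ * a.1 * g, ?_, ?_⟩, fun a => ⟨g * a.1 * g⁻¹, ?_, ?_⟩, ?_, ?_⟩
      · exact a.2.1.trans (isConj_iff.2 ⟨g⁻¹, by simp⟩)
      · exact (key a.1).1 a.2.2
      · exact a.2.1.trans (isConj_iff.2 ⟨g, rfl⟩)
      · rw [key]
        have : g⁻¹ * (g * a.1 * g⁻¹) * g = a.1 := by group
        rw [this]
        exact a.2.2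
      · intro a; ext; simp [mul_assoc]
      · intro a; ext; simp [mul_assoc]
  let e1 : {p : (G ⧸ H) × G // IsConj x p.2 ∧ p.2 • p.1 = p.1} ≃
      Σ y : {g : G // IsConj x g}, MulAction.fixedBy (G ⧸ H) y.1 :=
    { toFun := fun p => ⟨⟨p.1.2, p.2.1⟩, ⟨p.1.1, p.2.2⟩⟩
      invFun := fun q => ⟨(q.2.1, q.1.1), q.1.2, q.2.2⟩
      left_inv := fun p => rfl
      right_inv := fun q => rfl }
  let e2 : {p : (G ⧸ H) × G // IsConj x p.2 ∧ p.2 • p.1 = p.1} ≃
      Σ c : G ⧸ H, {y : G // IsConj x y ∧ y • c = c} :=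
    { toFun := fun p => ⟨p.1.1, ⟨p.1.2, p.2⟩⟩
      invFun := fun q => ⟨(q.1, q.2.1), q.2.2⟩
      left_inv := fun p => rfl
      right_inv := fun q => rfl }
  have h3 := Nat.card_congr (e1.symm.trans e2)
  rw [Nat.card_sigma, Nat.card_sigma] at h3
  simp only [h1, h2] at h3
  simp only [Finset.sum_const, Finset.card_univ, smul_eq_mul] at h3
  rw [← Nat.card_eq_fintype_card, ← Nat.card_eq_fintype_card] at h3
  rw [mul_comm, h3]
  rfl

end Cfsg.Agent.S1019
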