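import Cfsg.Statements.S1002
import Cfsg.Agent.H21.SimpleTools
import Cfsg.Agent.H21.Counting
import Cfsg.Agent.H21.PrimeSylow
import Cfsg.Agent.H21.PrimeSylowFix
import Cfsg.Agent.H21.OrderCount
import Cfsg.Agent.S1018
import Cfsg.Agent.S1019

set_option autoImplicit false
open Cfsg

namespace Cfsg.Agent.S1002

open Subgroup Cfsg.Agent.H21

/-- No finite simple group has order 1004913 = 3^3 * 7 * 13 * 409. -/
theorem result {G : Type*} [Group G] [Finite G] [IsSimpleGroup G] : Nat.card G ≠ 1004913 := by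
  intro hcard
  have hG : ¬ IsMulCommutative G := not_comm_of_not_prime (by rw [hcard]; norm_num)
  have : Fact (Nat.Prime 409) := ⟨by norm_num⟩
  have : Fact (Nat.Prime 7) := ⟨by norm_num⟩
  have : Fact (Nat.Prime 13) := ⟨by norm_num⟩
  have hp409 : Nat.Prime 409 := by norm_num
  -- p = 409
  obtain ⟨P⟩ : Nonempty (Sylow 409 G) := inferInstance
  obtain ⟨hP1, -, hNidx, hdvd, hmod, hne1, -, hNcard, -⟩ :=
    simple_sylow_facts hG (p := 409) (k := 1) (m := 2457) (by rw [hcard]; norm_num) (by norm_num)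
      (by norm_num) P
  have hP : Nat.card (P : Subgroup G) = 409 := by rw [hP1]; norm_num
  have hn : Nat.card (Sylow 409 G) = 819 := by
    have hle : Nat.card (Sylow 409 G) ≤ 2457 := Nat.le_of_dvd (by norm_num) hdvd
    obtain ⟨q, hq⟩ : ∃ q, Nat.card (Sylow 409 G) = 409 * q + 1 :=
      ⟨Nat.card (Sylow 409 G) / 409, by omega⟩
    have hq6 : q ≤ 6 := by omega
    rw [hq] at hdvd hne1 ⊢
    interval_cases q <;> first | rfl | omega | (exfalso; revert hdvd; decide)
  rw [hn, hcard] at hNcard
  have hN : Nat.card (normalizer ((P : Subgroup G) : Set G)) = 1227 := by omega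
  obtain ⟨d, hd, hd1, hd408, hdN⟩ := simple_sylow_prime_card_NC hG P hP
  have hCcard := card_centralizer_mul_relIndex_normalizer (P : Subgroup G)
  rw [← hd, hN] at hCcard
  rw [hN] at hdN
  have hd3 : d = 3 := by
    have h3 : d ∣ 3 := Nat.dvd_of_mul_dvd_mul_left (by norm_num : 0 < 409) hdN
    have := Nat.le_of_dvd (by norm_num) h3
    interval_cases d <;> first | rfl | omega | (exfalso; revert h3; decide)
  rw [hd3] at hCcard
  have hC : Nat.card (centralizer ((P : Subgroup G) : Set G)) = 409 := by omega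
  -- an element of order 3 in N(P)
  obtain ⟨x, hxN, hx⟩ := exists_mem_orderOf_eq_prime (normalizer ((P : Subgroup G) : Set G)) 3
    (by rw [hN]; norm_num)
  have hxC : x ∉ centralizer ((P : Subgroup G) : Set G) := by
    intro h
    have := orderOf_dvd_card_of_mem _ x h
    rw [hx, hC] at this
    revert this; decide
  have hfix := card_fixedBy_mul_le_sylow_prime 409 P hP x hxN hxC
  rw [hn] at hfix
  have hfix3 : Nat.card (MulAction.fixedBy (G ⧸ normalizer ((P : Subgroup G) : Set G)) x) ≤ 3 := by
    omega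
  have h19 := Cfsg.Agent.S1019.result (normalizer ((P : Subgroup G) : Set G)) x hxN
  rw [hNidx, hn] at h19
  -- at least 409 conjugates of x in N(P)
  have hconjN : 409 ≤ Nat.card {g : G // IsConj x g ∧ g ∈ normalizer ((P : Subgroup G) : Set G)} := by
    have hinj : ∀ f : ↥(P : Subgroup G) →
        {g : G // IsConj x g ∧ g ∈ normalizer ((P : Subgroup G) : Set G)},
        Function.Injective f → 409 ≤
          Nat.card {g : G // IsConj x g ∧ g ∈ normalizer ((P : Subgroup G) : Set G)} := by
      intro f hf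
      have := Nat.card_le_card_of_injective f hf
      rwa [hP] at this
    refine hinj
      (fun u : (P : Subgroup G) => ⟨(u : G) * x * (u : G)⁻¹, isConj_iff.2 ⟨(u : G), rfl⟩, ?_⟩) ?_
    · have huN : (u : G) ∈ normalizer ((P : Subgroup G) : Set G) := le_normalizer u.2
      exact mul_mem (mul_mem huN hxN) (inv_mem huN)
    · intro u v huv
      have h1 : (u : G) * x * (u : G)⁻¹ = (v : G) * x * (v : G)⁻¹ :=
        congrArg (fun t : {g : G // IsConj x g ∧ g ∈ normalizer ((P : Subgroup G) : Set G)} =>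
          (t : G)) huv
      by_contra hne
      obtain ⟨w, hw⟩ : ∃ w : G, w = (v : G)⁻¹ * (u : G) := ⟨_, rfl⟩
      have hwP : w ∈ (P : Subgroup G) := by rw [hw]; exact mul_mem (inv_mem v.2) u.2
      have hw1 : w ≠ 1 := by
        intro h
        rw [hw, inv_mul_eq_one] at h
        exact hne (Subtype.ext h.symm)
      have hwx : w * x = x * w := by
        rw [hw]
        have h2 : (v : G)⁻¹ * ((u : G) * x * (u : G)⁻¹) * (u : G) =
            (v : G)⁻¹ * ((v : G) * x * (v : G)⁻¹) * (u : G) := by rw [h1]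
        simpa [mul_assoc] using h2
      have hword := orderOf_eq_of_mem_card_prime hp409 (P : Subgroup G) hP w hwP hw1
      have hPz := eq_zpowers_of_card_prime (P : Subgroup G) hP w hwP hword
      apply hxC
      rw [mem_centralizer_iff]
      intro h hh
      have hh' : h ∈ zpowers w := by rw [← hPz]; exact hh
      obtain ⟨k, rfl⟩ := mem_zpowers_iff.1 hh'
      have hc : Commute w x := hwx
      exact (hc.zpow_left k).eq
  have hconj : 111657 ≤ Nat.card {g : G // IsConj x g} := by
    have h1 : Nat.card (MulAction.fixedBy (G ⧸ normalizer ((P : Subgroup G) : Set G)) x) *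
        Nat.card {g : G // IsConj x g} ≤ 3 * Nat.card {g : G // IsConj x g} :=
      Nat.mul_le_mul_right _ hfix3
    have h2 : 819 * 409 ≤
        819 * Nat.card {g : G // IsConj x g ∧ g ∈ normalizer ((P : Subgroup G) : Set G)} :=
      Nat.mul_le_mul_left _ hconjN
    omega
  have h3le := card_conj_le_card_orderOf x
  rw [hx] at h3le
  have h409 := card_orderOf_eq_prime 409 P hP
  rw [hn] at h409
  -- p = 7
  obtain ⟨Q⟩ : Nonempty (Sylow 7 G) := inferInstance
  obtain ⟨hQ1, -, -, hdvd7, hmod7, -, -, hNcard7, -⟩ :=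
    simple_sylow_facts hG (p := 7) (k := 1) (m := 143559) (by rw [hcard]; norm_num) (by norm_num)
      (by norm_num) Q
  have hQ : Nat.card (Q : Subgroup G) = 7 := by rw [hQ1]; norm_num
  have hnd7 := not_dvd_card_normalizer_of_centralizer 409 7 (by norm_num) P hP hC Q hQ
  have hn7 : Nat.card (Sylow 7 G) = 47853 := by
    have h1 : 409 ∣ Nat.card (normalizer ((Q : Subgroup G) : Set G)) * Nat.card (Sylow 7 G) := by
      rw [hNcard7, hcard]; norm_num
    obtain ⟨r, hr⟩ := ((Nat.Prime.dvd_mul hp409).1 h1).resolve_left hnd7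
    rw [hr] at hdvd7 hmod7 ⊢
    have h351 : r ∣ 351 := Nat.dvd_of_mul_dvd_mul_left (by norm_num : 0 < 409) hdvd7
    have hle := Nat.le_of_dvd (by norm_num) h351
    obtain ⟨s, hs⟩ : ∃ s, r = 7 * s + 5 := ⟨r / 7, by omega⟩
    have hs49 : s ≤ 49 := by omega
    rw [hs] at h351 ⊢
    interval_cases s <;> first | rfl | (exfalso; revert h351; decide)
  have h7 := card_orderOf_eq_prime 7 Q hQ
  rw [hn7] at h7
  -- p = 13
  obtain ⟨R⟩ : Nonempty (Sylow 13 G) := inferInstance
  obtain ⟨hR1, -, -, hdvd13, hmod13, -, -, hNcard13, -⟩ :=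
    simple_sylow_facts hG (p := 13) (k := 1) (m := 77301) (by rw [hcard]; norm_num) (by norm_num)
      (by norm_num) R
  have hR : Nat.card (R : Subgroup G) = 13 := by rw [hR1]; norm_num
  have hnd13 := not_dvd_card_normalizer_of_centralizer 409 13 (by norm_num) P hP hC R hR
  have hn13 : Nat.card (Sylow 13 G) = 25767 := by
    have h1 : 409 ∣ Nat.card (normalizer ((R : Subgroup G) : Set G)) * Nat.card (Sylow 13 G) := by
      rw [hNcard13, hcard]; norm_num
    obtain ⟨r, hr⟩ := ((Nat.Prime.dvd_mul hp409).1 h1).resolve_left hnd13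
    rw [hr] at hdvd13 hmod13 ⊢
    have h189 : r ∣ 189 := Nat.dvd_of_mul_dvd_mul_left (by norm_num : 0 < 409) hdvd13
    have hle := Nat.le_of_dvd (by norm_num) h189
    obtain ⟨s, hs⟩ : ∃ s, r = 13 * s + 11 := ⟨r / 13, by omega⟩
    have hs49 : s ≤ 13 := by omega
    rw [hs] at h189 ⊢
    interval_cases s <;> first | rfl | (exfalso; revert h189; decide)
  have h13 := card_orderOf_eq_prime 13 R hR
  rw [hn13] at h13
  have hsum := sum_card_orderOf_le (G := G) ({3, 7, 13, 409} : Finset ℕ)
  rw [Finset.sum_insert (by decide), Finset.sum_insert (by decide), Finset.sum_insert (by decide),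
    Finset.sum_singleton, hcard, h7, h13, h409] at hsum
  omega

end Cfsg.Agent.S1002
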