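import Cfsg.Statements.S1008
import Cfsg.Agent.H11.G168F

set_option autoImplicit false
open Cfsg

namespace Cfsg.Agent.S1008

/-- In a simple group of order 168 every maximal subgroup is either isomorphic to the symmetric group of degree 4 or non-abelian of order 21; the maximal subgroups of order 21 form one conjugacy class and those isomorphic to the symmetric group of degree 4 form exactly two conjugacy classes. -/
theorem result {G : Type*} [Group G] [Finite G] [IsSimpleGroup G] (h : Nat.card G = 168) : (∀ M : Subgroup G, IsCoatom M → Nonempty (↥M ≃* Equiv.Perm (Fin 4)) ∨ (Nat.card ↥M = 21 ∧ ¬ IsMulCommutative ↥M)) ∧ (∀ M M' : Subgroup G, IsCoatom M → IsCoatom M' → Nat.card ↥M = 21 → Nat.card ↥M' = 21 → ∃ g : G, M' = M.map (MulAut.conj g).toMonoidHom) ∧ ∃ M₁ M₂ : Subgroup G, IsCoatom M₁ ∧ IsCoatom M₂ ∧ Nonempty (↥M₁ ≃* Equiv.Perm (Fin 4)) ∧ Nonempty (↥M₂ ≃* Equiv.Perm (Fin 4)) ∧ (∀ g : G, M₂ ≠ M₁.map (MulAut.conj g).toMonoidHom)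 ∧ ∀ M : Subgroup G, IsCoatom M → Nonempty (↥M ≃* Equiv.Perm (Fin 4)) → ∃ g : G, M = M₁.map (MulAut.conj g).toMonoidHom ∨ M = M₂.map (MulAut.conj g).toMonoidHom := by
  have : Fact (Nat.Prime 2) := ⟨by norm_num⟩
  obtain ⟨T⟩ : Nonempty (Sylow 2 G) := inferInstance
  obtain ⟨V₁, V₂, h1, h2, hk1, hk2, hne, hall⟩ := Cfsg.Agent.H11.G168.klein_in_sylow h T
  refine ⟨?_, ?_, ?_⟩
  · intro M hM
    rcases Cfsg.Agent.H11.G168.coatom_card h hM with hc | hc
    · right; exact ⟨hc, Cfsg.Agent.H11.G168.not_comm_of_card_21 h hc⟩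
    · left; exact Cfsg.Agent.H11.G168.perm4_of_card_24 h M hc
  · intro M M' hM hM' hc hc'
    obtain ⟨y, hy, hMy⟩ := Cfsg.Agent.H11.G168.eq_normalizer_of_card_21 h hc
    obtain ⟨y', hy', hMy'⟩ := Cfsg.Agent.H11.G168.eq_normalizer_of_card_21 h hc'
    obtain ⟨g, hg⟩ := Cfsg.Agent.H11.G168.conj_zpowers7 h hy hy'
    refine ⟨g, ?_⟩
    rw [hMy', hMy, Subgroup.map_equiv_normalizer_eq, hg]
  · have hN1 := Cfsg.Agent.H11.G168.card_normalizer_klein h hk1
    have hN2 := Cfsg.Agent.H11.G168.card_normalizer_klein h hk2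
    refine ⟨Subgroup.normalizer (V₁ : Set G), Subgroup.normalizer (V₂ : Set G),
      Cfsg.Agent.H11.G168.isCoatom_of_card_24 h hN1,
      Cfsg.Agent.H11.G168.isCoatom_of_card_24 h hN2,
      Cfsg.Agent.H11.G168.perm4_of_card_24 h _ hN1,
      Cfsg.Agent.H11.G168.perm4_of_card_24 h _ hN2, ?_, ?_⟩
    · intro g heq
      rw [Subgroup.map_equiv_normalizer_eq] at heq
      have hk : IsKleinFour (V₁.map (MulAut.conj g).toMonoidHom) :=
        Cfsg.Agent.H11.isKleinFour_of_mulEquiv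
          (V₁.equivMapOfInjective _ (MulAut.conj g).injective) hk1
      have := Cfsg.Agent.H11.G168.klein_eq_of_normalizer_eq h hk2 hk heq
      exact Cfsg.Agent.H11.G168.klein_not_conj h T V₁ V₂ h1 h2 hk1 hk2 hne g this.symm
    · rintro M hM ⟨e⟩
      obtain ⟨O, hO, hMO⟩ := Cfsg.Agent.H11.G168.eq_normalizer_klein_of_perm4 h e
      obtain ⟨g, hg⟩ := Cfsg.Agent.H11.G168.conj_normalizer_klein T hall hO
      exact ⟨g, by rw [hMO]; exact hg⟩

end Cfsg.Agent.S1008
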