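import Cfsg.Statements.S1009
import Cfsg.Agent.H21.SylowLocal

set_option autoImplicit false
open Cfsg

namespace Cfsg.Agent.S1009

open Cfsg.Agent.H21 Subgroup

theorem mem_smul_sylow {G : Type*} [Group G] [Finite G] {p : ℕ} [Fact p.Prime]
    (R : Sylow p G) (n y : G) : y ∈ ((n • R : Sylow p G) : Subgroup G) ↔ n⁻¹ * y * n ∈ (R : Subgroup G) := by
  rw [Sylow.smul_def, Sylow.pointwise_smul_def, Subgroup.mem_pointwise_smul_iff_inv_smul_mem]
  simp [MulAut.smul_def]

/-- (Brodkey) If the Sylow p-subgroups of the finite group G are abelian, then some two of them intersect in O_p(G), the intersection of all Sylow p-subgroups. -/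
theorem result {G : Type*} [Group G] [Finite G] (p : ℕ) [Fact p.Prime] (hab : ∀ P : Sylow p G, IsMulCommutative ↥(P : Subgroup G)) : ∃ P Q : Sylow p G, (P : Subgroup G) ⊓ (Q : Subgroup G) = ⨅ R : Sylow p G, (R : Subgroup G) := by
  obtain ⟨⟨P, Q⟩, hmin⟩ := Finite.exists_min (fun pq : Sylow p G × Sylow p G =>
    Nat.card ((pq.1 : Subgroup G) ⊓ (pq.2 : Subgroup G) : Subgroup G))
  refine ⟨P, Q, le_antisymm ?_ (le_inf (iInf_le _ P) (iInf_le _ Q))⟩
  rw [le_iInf_iff]
  intro R
  have hcomm : ∀ S : Sylow p G, ∀ a ∈ (S : Subgroup G), ∀ b ∈ (S : Subgroup G), a * b = b * a := by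
    intro S a ha b hb
    have := (hab S).is_comm.comm ⟨a, ha⟩ ⟨b, hb⟩
    exact congrArg Subtype.val this
  obtain ⟨D, hD⟩ : ∃ D : Subgroup G, D = (P : Subgroup G) ⊓ (Q : Subgroup G) := ⟨_, rfl⟩
  have hPN : (P : Subgroup G) ≤ normalizer (D : Set G) := by
    intro x hx
    rw [mem_normalizer_iff]
    intro d
    have key : ∀ d ∈ D, x * d * x⁻¹ = d := by
      intro d hd
      have hdP : d ∈ (P : Subgroup G) := (hD ▸ hd : d ∈ (P : Subgroup G) ⊓ (Q : Subgroup G)).1
      rw [hcomm P x hx d hdP]; group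
    constructor
    · intro hd; rw [key d hd]; exact hd
    · intro hd
      have := key _ hd
      have h2 : d = x * d * x⁻¹ := by
        have h3 : x * (x * d * x⁻¹) * x⁻¹ = x * d * x⁻¹ := this
        exact mul_left_cancel (mul_right_cancel h3) |>.symm ▸ rfl
      rw [h2]; exact hd
  have hQN : (Q : Subgroup G) ≤ normalizer (D : Set G) := by
    intro x hx
    rw [mem_normalizer_iff]
    intro d
    have key : ∀ d ∈ D, x * d * x⁻¹ = d := by
      intro d hd
      have hdQ : d ∈ (Q : Subgroup G) := (hD ▸ hd : d ∈ (P : Subgroup G) ⊓ (Q : Subgroup G)).2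
      rw [hcomm Q x hx d hdQ]; group
    constructor
    · intro hd; rw [key d hd]; exact hd
    · intro hd
      have := key _ hd
      have h2 : d = x * d * x⁻¹ := by
        have h3 : x * (x * d * x⁻¹) * x⁻¹ = x * d * x⁻¹ := this
        exact mul_left_cancel (mul_right_cancel h3) |>.symm ▸ rfl
      rw [h2]; exact hd
  obtain ⟨n, hn, hconj⟩ := exists_mem_conj_le_sylow (normalizer (D : Set G)) P hPN
    ((R : Subgroup G) ⊓ normalizer (D : Set G)) (R.2.to_le inf_le_left) inf_le_right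
  have hle : ((n • R : Sylow p G) : Subgroup G) ⊓ (Q : Subgroup G) ≤ D := by
    rintro y ⟨hy1, hy2⟩
    rw [hD]
    refine ⟨?_, hy2⟩
    have h1 : n⁻¹ * y * n ∈ (R : Subgroup G) := (mem_smul_sylow R n y).1 hy1
    have h2 : n⁻¹ * y * n ∈ normalizer (D : Set G) := mul_mem (mul_mem (inv_mem hn) (hQN hy2)) hn
    have h3 : n * (n⁻¹ * y * n) * n⁻¹ ∈ (P : Subgroup G) := hconj _ ⟨h1, h2⟩
    have h4 : n * (n⁻¹ * y * n) * n⁻¹ = y := by group
    rw [h4] at h3
    exact h3
  have heq : ((n • R : Sylow p G) : Subgroup G) ⊓ (Q : Subgroup G) = D := by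
    have hc := hmin (n • R, Q)
    simp only at hc
    rw [← hD] at hc
    exact Subgroup.eq_of_le_of_card_ge hle hc
  intro d hd
  have hd' : d ∈ D := hD ▸ hd
  have h1 : n * d * n⁻¹ ∈ D := (mem_normalizer_iff.1 hn d).1 hd'
  have h2 : n * d * n⁻¹ ∈ ((n • R : Sylow p G) : Subgroup G) :=
    (heq ▸ h1 : n * d * n⁻¹ ∈ ((n • R : Sylow p G) : Subgroup G) ⊓ (Q : Subgroup G)).1
  have h3 := (mem_smul_sylow R n _).1 h2
  have h4 : n⁻¹ * (n * d * n⁻¹) * n = d := by group
  rw [h4] at h3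
  exact h3

end Cfsg.Agent.S1009
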