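import Cfsg.Statements.S1014
import Cfsg.Agent.H21.SimpleTools
import Cfsg.Agent.H21.PrimeSylowFix
import Cfsg.Agent.H21.OddPerm

set_option autoImplicit false
open Cfsg

namespace Cfsg.Agent.S1014

open Cfsg.Agent.H21 Subgroup

/-- No finite simple group has order 1104 = 2^4 * 3 * 23. -/
theorem result {G : Type*} [Group G] [Finite G] [IsSimpleGroup G] : Nat.card G ≠ 1104 := by
  intro hcard
  have hG : ¬ IsMulCommutative G := not_comm_of_not_prime (by rw [hcard]; norm_num)
  have : Fact (Nat.Prime 23) := ⟨by norm_num⟩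
  have : Fact (Nat.Prime 2) := ⟨by norm_num⟩
  obtain ⟨P⟩ : Nonempty (Sylow 23 G) := inferInstance
  obtain ⟨hP, -, hidx, hdvd, hmod, hne1, -, hNn, -⟩ :=
    simple_sylow_facts hG (p := 23) (k := 1) (m := 48) (by rw [hcard]; norm_num) (by norm_num)
      (by norm_num) P
  have hP' : Nat.card (P : Subgroup G) = 23 := by simpa using hP
  obtain ⟨d, hd, hd1, hd22, hdN⟩ := simple_sylow_prime_card_NC hG P hP'
  have hCd := card_centralizer_mul_relIndex_normalizer (P : Subgroup G)
  rw [← hd] at hCd
  have hn : Nat.card (Sylow 23 G) = 24 := by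
    generalize Nat.card (Sylow 23 G) = n at *
    have hle : n ≤ 48 := Nat.le_of_dvd (by norm_num) hdvd
    interval_cases n <;> omega
  rw [hn] at hNn hidx
  have hN : Nat.card (normalizer ((P : Subgroup G) : Set G)) = 46 := by omega
  rw [hN] at hdN hCd
  have hd2 : d = 2 := by
    have h1 : d ∣ 2 := by
      have : 23 * d ∣ 23 * 2 := hdN
      exact (Nat.mul_dvd_mul_iff_left (by norm_num)).1 this
    have hle : d ≤ 2 := Nat.le_of_dvd (by norm_num) h1
    interval_cases d <;> omega
  rw [hd2] at hCd
  have hC : Nat.card (centralizer ((P : Subgroup G) : Set G)) = 23 := by omega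
  obtain ⟨t, htN, ht⟩ := exists_mem_orderOf_eq_prime (normalizer ((P : Subgroup G) : Set G)) 2
    (by rw [hN]; norm_num)
  have htC : t ∉ centralizer ((P : Subgroup G) : Set G) := by
    intro h
    have := orderOf_dvd_card_of_mem _ t h
    rw [ht, hC] at this
    omega
  have h1 := card_fixedBy_mul_le_sylow_prime 23 P hP' t htN htC
  have h2 := one_le_card_fixedBy_of_mem (normalizer ((P : Subgroup G) : Set G)) t htN
  have h3 := simple_involution_four_dvd hG (X := G ⧸ normalizer ((P : Subgroup G) : Set G)) t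
    (by rw [← ht, pow_orderOf_eq_one])
  have h4 : Nat.card (G ⧸ normalizer ((P : Subgroup G) : Set G)) = 24 := hidx
  rw [h4] at h3
  rw [hn] at h1
  omega

end Cfsg.Agent.S1014
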