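import Cfsg.Statements.S1015
import Cfsg.Agent.H21.SimpleTools
import Cfsg.Agent.H21.SylowInter2

set_option autoImplicit false
open Cfsg

namespace Cfsg.Agent.S1015

open Cfsg.Agent.H21 Subgroup

/-- No finite simple group has order 1200 = 2^4 * 3 * 5^2. -/
theorem result {G : Type*} [Group G] [Finite G] [IsSimpleGroup G] : Nat.card G ≠ 1200 := by
  intro hcard
  have hG : ¬ IsMulCommutative G := not_comm_of_not_prime (by rw [hcard]; norm_num)
  have : Fact (Nat.Prime 5) := ⟨by norm_num⟩
  obtain ⟨P⟩ : Nonempty (Sylow 5 G) := inferInstance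
  obtain ⟨hP, -, hidx, hdvd, hmod, hne1, hfact, hNn, -⟩ :=
    simple_sylow_facts hG (p := 5) (k := 2) (m := 48) (by rw [hcard]; norm_num) (by norm_num)
      (by norm_num) P
  rw [hcard] at hfact
  have hn : Nat.card (Sylow 5 G) = 16 := by
    generalize Nat.card (Sylow 5 G) = n at *
    have hle : n ≤ 48 := Nat.le_of_dvd (by norm_num) hdvd
    interval_cases n <;> first | omega | (exfalso; revert hfact; decide)
  obtain ⟨Q, hQ, hcardD, hPN, hQN⟩ := exists_sylow_inter_index_p P (by rw [hn]; decide)
  obtain ⟨D, hD⟩ : ∃ D : Subgroup G, D = (P : Subgroup G) ⊓ Q := ⟨_, rfl⟩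
  rw [← hD] at hcardD hPN hQN
  have hD5 : Nat.card D = 5 := by
    rw [hP] at hcardD; omega
  have hNtop : normalizer (D : Set G) ≠ ⊤ := by
    intro h
    have hnorm : D.Normal := normalizer_eq_top_iff.1 h
    rcases hnorm.eq_bot_or_eq_top with h | h
    · rw [h, card_bot] at hD5; omega
    · rw [h, card_top, hcard] at hD5; omega
  obtain ⟨n, hn5, hn1, hndvd⟩ :=
    exists_sylow_count_of_two_le (normalizer (D : Set G)) P Q hQ.symm hPN hQN
  have hemb := two_mul_card_dvd_factorial_index hG _ hNtop
  have hci := Subgroup.card_mul_index (normalizer (D : Set G))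
  rw [hcard] at hci hemb
  rw [hP] at hndvd
  generalize (normalizer (D : Set G)).index = i at *
  generalize Nat.card (normalizer (D : Set G)) = c at *
  have hi : i ≤ 8 := by
    obtain ⟨e, he⟩ := hndvd
    have h6 : 6 ≤ n := by omega
    have he1 : 1 ≤ e := by
      rcases e with _ | e
      · simp at he; subst he; omega
      · omega
    by_contra hcon
    have h9 : 9 ≤ i := by omega
    have : 150 ≤ c := by nlinarith
    nlinarith
  interval_cases i <;> revert hemb <;> decide

end Cfsg.Agent.S1015
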