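import Cfsg.Statements.S1016
import Cfsg.Agent.H21.ZTrick

set_option autoImplicit false
open Cfsg

namespace Cfsg.Agent.S1016

open Cfsg.Agent.H21 Subgroup

/-- No finite simple group has order 1440 = 2^5 * 3^2 * 5. -/
theorem result {G : Type*} [Group G] [Finite G] [IsSimpleGroup G] : Nat.card G ≠ 1440 := by
  intro hcard
  have hG : ¬ IsMulCommutative G := not_comm_of_not_prime (by rw [hcard]; norm_num)
  have : Fact (Nat.Prime 5) := ⟨by norm_num⟩
  have : Fact (Nat.Prime 2) := ⟨by norm_num⟩
  obtain ⟨P⟩ : Nonempty (Sylow 5 G) := inferInstance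
  obtain ⟨hP, -, hidx, hdvd, hmod, hne1, hfact, hNn, -⟩ :=
    simple_sylow_facts hG (p := 5) (k := 1) (m := 288) (by rw [hcard]; norm_num) (by norm_num)
      (by norm_num) P
  have hP' : Nat.card (P : Subgroup G) = 5 := by simpa using hP
  obtain ⟨d, hd, hd1, hd4, hdN⟩ := simple_sylow_prime_card_NC hG P hP'
  have hCd := card_centralizer_mul_relIndex_normalizer (P : Subgroup G)
  rw [← hd] at hCd
  have hd0 : 0 < d := Nat.pos_of_dvd_of_pos hd4 (by norm_num)
  have hdle : d ≤ 4 := Nat.le_of_dvd (by norm_num) hd4
  rw [hcard] at hNn hfact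
  have hNtop : normalizer ((P : Subgroup G) : Set G) ≠ ⊤ := by
    intro htop
    rw [htop, index_top] at hidx
    exact hne1 hidx.symm
  have hn : Nat.card (Sylow 5 G) = 16 ∨ Nat.card (Sylow 5 G) = 36 ∨ Nat.card (Sylow 5 G) = 96 := by
    generalize Nat.card (Sylow 5 G) = n at *
    have hle : n ≤ 288 := Nat.le_of_dvd (by norm_num) hdvd
    interval_cases n <;> first | omega | (exfalso; revert hfact; decide)
  rcases hn with hn | hn | hn
  · -- n_5 = 16
    rw [hn] at hNn hidx
    have hN : Nat.card (normalizer ((P : Subgroup G) : Set G)) = 90 := by omega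
    rw [hN] at hCd hdN
    have hd2 : d = 2 := by
      have h1 : d ∣ 18 := by
        have : 5 * d ∣ 5 * 18 := hdN
        exact (Nat.mul_dvd_mul_iff_left (by norm_num)).1 this
      interval_cases d <;> omega
    rw [hd2] at hCd
    have hC : Nat.card (centralizer ((P : Subgroup G) : Set G)) = 45 := by omega
    obtain ⟨K, hK⟩ := Sylow.exists_subgroup_card_pow_prime 3 (n := 2)
      (G := centralizer ((P : Subgroup G) : Set G)) (by rw [hC]; norm_num)
    obtain ⟨Q, hQ⟩ : ∃ Q : Subgroup G, Q = K.map (centralizer ((P : Subgroup G) : Set G)).subtype :=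
      ⟨_, rfl⟩
    have hQcard : Nat.card Q = 9 := by
      rw [hQ, Subgroup.card_map_of_injective (Subgroup.subtype_injective _), hK]; norm_num
    have hQC : Q ≤ centralizer ((P : Subgroup G) : Set G) := hQ ▸ Subgroup.map_subtype_le _
    have h5 : Nat.card (G ⧸ normalizer ((P : Subgroup G) : Set G)) = 16 := hidx
    have hfix : ∀ x ∈ Q, x ≠ 1 →
        Nat.card (MulAction.fixedBy (G ⧸ normalizer ((P : Subgroup G) : Set G)) x) = 1 := by
      intro x hxQ hx1
      have h1 := card_fixedBy_modEq_one_of_mem_centralizer 5 P hP' x (hQC hxQ)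
      have h4 := card_fixedBy_lt_index _ hNtop x hx1
      rw [hidx] at h4
      have hord : orderOf x ∣ 3 ^ 2 := by
        have := orderOf_dvd_card_of_mem Q x hxQ
        rw [hQcard] at this
        exact this
      obtain ⟨j, -, hj⟩ := (Nat.dvd_prime_pow Nat.prime_three).1 hord
      have h3 := card_fixedBy_modEq_card_of_prime_pow
        (X := G ⧸ normalizer ((P : Subgroup G) : Set G)) (p := 3) x j hj
      rw [h5] at h3
      unfold Nat.ModEq at h1 h3
      generalize Nat.card (MulAction.fixedBy (G ⧸ normalizer ((P : Subgroup G) : Set G)) x) = f at *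
      interval_cases f <;> omega
    have hdvd9 := card_dvd_of_fixedBy_const (X := G ⧸ normalizer ((P : Subgroup G) : Set G)) Q 1 hfix
    rw [h5, hQcard] at hdvd9
    omega
  · -- n_5 = 36
    rw [hn] at hNn hidx
    have hN : Nat.card (normalizer ((P : Subgroup G) : Set G)) = 40 := by omega
    rw [hN] at hCd hdN
    have hC2 : 2 ∣ Nat.card (centralizer ((P : Subgroup G) : Set G)) := by
      generalize Nat.card (centralizer ((P : Subgroup G) : Set G)) = c at *
      interval_cases d <;> omega
    obtain ⟨t, htC, ht⟩ := exists_mem_orderOf_eq_prime (centralizer ((P : Subgroup G) : Set G)) 2 hC2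
    obtain ⟨T, hTN, hTcard, hT, htT⟩ := exists_sylow_subgroup_le_containing
      (normalizer ((P : Subgroup G) : Set G)) (p := 2) (k := 3) (m := 5) (by rw [hN]; norm_num)
      (by norm_num) t (centralizer_le_normalizer _ htC) 1 (by rw [ht, pow_one])
    refine central_involution_trick (p := 5) (by norm_num) P hP' (simple_center_eq_bot hG) T hT hTN
      (by rw [hN, hTcard]; norm_num) ⟨t, htT, htC, ht⟩ (by rw [hTcard, hcard]; norm_num) ?_ ?_
    · intro s hsN hs hy
      refine involution_commuting_mem_centralizer hG P hP' ?_ s hsN hs hy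
      intro f hf1 hf2 hf3
      rw [hn] at hf2 hf3
      have hf8 : f ≤ 8 := by omega
      interval_cases f <;> omega
    · intro K hK
      have hm1 := relIndex_normalizer_mod P K hK
      have hmul := Subgroup.relIndex_mul_index hK
      rw [hidx] at hmul
      have hi0 : K.index ≠ 0 := Subgroup.index_ne_zero_of_finite
      by_cases hKtop : K = ⊤
      · exact Or.inr hKtop
      left
      have hemb := two_mul_card_dvd_factorial_index hG K hKtop
      rw [hcard] at hemb
      generalize hm : (normalizer ((P : Subgroup G) : Set G)).relIndex K = m at *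
      have hmle : m ≤ 36 := by
        rcases Nat.eq_zero_or_pos K.index with h0 | h0
        · exact absurd h0 hi0
        · nlinarith
      have hi1 : K.index ≠ 1 := fun h => hKtop (Subgroup.index_eq_one.1 h)
      have hm' : m = 1 := by
        generalize K.index = i at *
        have h6 : m = 6 → False := by
          rintro rfl
          have hi6 : i = 6 := by omega
          subst hi6
          revert hemb
          decide
        interval_cases m <;> first | omega | exact (h6 rfl).elim
      subst hm'
      exact le_antisymm (Subgroup.relIndex_eq_one.1 hm) hK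
  · -- n_5 = 96
    rw [hn] at hNn
    have hN : Nat.card (normalizer ((P : Subgroup G) : Set G)) = 15 := by omega
    rw [hN] at hdN
    have h1 : d ∣ 3 := by
      have : 5 * d ∣ 5 * 3 := hdN
      exact (Nat.mul_dvd_mul_iff_left (by norm_num)).1 this
    have := Nat.le_of_dvd (by norm_num) h1
    interval_cases d <;> omega

end Cfsg.Agent.S1016
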