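import Cfsg.Statements.S1017
import Cfsg.Agent.H21.ZTrick

set_option autoImplicit false
open Cfsg

namespace Cfsg.Agent.S1017

open Cfsg.Agent.H21 Subgroup

/-- No finite simple group has order 2016 = 2^5 * 3^2 * 7. -/
theorem result {G : Type*} [Group G] [Finite G] [IsSimpleGroup G] : Nat.card G ≠ 2016 := by
  intro hcard
  have hG : ¬ IsMulCommutative G := not_comm_of_not_prime (by rw [hcard]; norm_num)
  have : Fact (Nat.Prime 7) := ⟨by norm_num⟩
  have : Fact (Nat.Prime 2) := ⟨by norm_num⟩
  obtain ⟨P⟩ : Nonempty (Sylow 7 G) := inferInstance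
  obtain ⟨hP, -, hidx, hdvd, hmod, hne1, -, hNn, -⟩ :=
    simple_sylow_facts hG (p := 7) (k := 1) (m := 288) (by rw [hcard]; norm_num) (by norm_num)
      (by norm_num) P
  have hP' : Nat.card (P : Subgroup G) = 7 := by simpa using hP
  obtain ⟨d, hd, hd1, hd6, hdN⟩ := simple_sylow_prime_card_NC hG P hP'
  have hCd := card_centralizer_mul_relIndex_normalizer (P : Subgroup G)
  rw [← hd] at hCd
  have hd0 : 0 < d := Nat.pos_of_dvd_of_pos hd6 (by norm_num)
  have hdle : d ≤ 6 := Nat.le_of_dvd (by norm_num) hd6
  rw [hcard] at hNn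
  have hn : Nat.card (Sylow 7 G) = 8 ∨ Nat.card (Sylow 7 G) = 36 ∨ Nat.card (Sylow 7 G) = 288 := by
    generalize Nat.card (Sylow 7 G) = n at *
    have hle : n ≤ 288 := Nat.le_of_dvd (by norm_num) hdvd
    interval_cases n <;> omega
  rcases hn with hn | hn | hn
  · -- n_7 = 8
    rw [hn] at hNn hidx
    have hN : Nat.card (normalizer ((P : Subgroup G) : Set G)) = 252 := by omega
    rw [hN] at hCd
    have hC2 : 2 ∣ Nat.card (centralizer ((P : Subgroup G) : Set G)) := by
      generalize Nat.card (centralizer ((P : Subgroup G) : Set G)) = c at *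
      interval_cases d <;> omega
    obtain ⟨t, htC, ht⟩ := exists_mem_orderOf_eq_prime (centralizer ((P : Subgroup G) : Set G)) 2 hC2
    have h1 := card_fixedBy_modEq_one_of_mem_centralizer 7 P hP' t htC
    have h3 := simple_involution_four_dvd hG (X := G ⧸ normalizer ((P : Subgroup G) : Set G)) t
      (by rw [← ht, pow_orderOf_eq_one])
    have hNtop : normalizer ((P : Subgroup G) : Set G) ≠ ⊤ := by
      intro htop
      rw [htop, index_top] at hidx
      omega
    have ht1 : t ≠ 1 := by
      rintro rfl
      rw [orderOf_one] at ht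
      omega
    have h4 := card_fixedBy_lt_index _ hNtop t ht1
    have h5 : Nat.card (G ⧸ normalizer ((P : Subgroup G) : Set G)) = 8 := hidx
    rw [h5] at h3
    rw [hidx] at h4
    unfold Nat.ModEq at h1
    generalize Nat.card (MulAction.fixedBy (G ⧸ normalizer ((P : Subgroup G) : Set G)) t) = f at *
    interval_cases f <;> omega
  · -- n_7 = 36
    rw [hn] at hNn hidx
    have hN : Nat.card (normalizer ((P : Subgroup G) : Set G)) = 56 := by omega
    rw [hN] at hCd hdN
    have hd2 : d = 2 := by
      have h1 : d ∣ 8 := by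
        have : 7 * d ∣ 7 * 8 := hdN
        exact (Nat.mul_dvd_mul_iff_left (by norm_num)).1 this
      interval_cases d <;> omega
    rw [hd2] at hCd
    have hC : Nat.card (centralizer ((P : Subgroup G) : Set G)) = 28 := by omega
    obtain ⟨t, htC, ht⟩ := exists_mem_orderOf_eq_prime (centralizer ((P : Subgroup G) : Set G)) 2
      (by rw [hC]; norm_num)
    obtain ⟨T, hTN, hTcard, hT, htT⟩ := exists_sylow_subgroup_le_containing
      (normalizer ((P : Subgroup G) : Set G)) (p := 2) (k := 3) (m := 7) (by rw [hN]; norm_num)
      (by norm_num) t (centralizer_le_normalizer _ htC) 1 (by rw [ht, pow_one])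
    refine central_involution_trick (p := 7) (by norm_num) P hP' (simple_center_eq_bot hG) T hT hTN
      (by rw [hN, hTcard]; norm_num) ⟨t, htT, htC, ht⟩ (by rw [hTcard, hcard]; norm_num) ?_ ?_
    · intro s hsN hs hy
      refine involution_commuting_mem_centralizer hG P hP' ?_ s hsN hs hy
      intro f hf1 hf2 hf3
      rw [hn] at hf2 hf3
      have hf6 : f ≤ 6 := by omega
      interval_cases f <;> omega
    · intro K hK
      have hm1 := relIndex_normalizer_mod P K hK
      have hmul := Subgroup.relIndex_mul_index hK
      rw [hidx] at hmul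
      have hi0 : K.index ≠ 0 := Subgroup.index_ne_zero_of_finite
      generalize hm : (normalizer ((P : Subgroup G) : Set G)).relIndex K = m at *
      have hmle : m ≤ 36 := by
        rcases Nat.eq_zero_or_pos K.index with h0 | h0
        · exact absurd h0 hi0
        · nlinarith
      have hm' : m = 1 ∨ m = 36 := by
        generalize K.index = i at *
        interval_cases m <;> omega
      rcases hm' with rfl | rfl
      · left
        exact le_antisymm (Subgroup.relIndex_eq_one.1 hm) hK
      · right
        have : K.index = 1 := by omega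
        exact Subgroup.index_eq_one.1 this
  · -- n_7 = 288
    rw [hn] at hNn
    have hN : Nat.card (normalizer ((P : Subgroup G) : Set G)) = 7 := by omega
    rw [hN] at hdN
    have := Nat.le_of_dvd (by norm_num) hdN
    omega

end Cfsg.Agent.S1017
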