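import Cfsg.Statements.S1024
import Cfsg.Agent.H22.ChevBasic

set_option autoImplicit false
open Cfsg

namespace Cfsg.Agent.S1024

open Cfsg.Lie Cfsg.Agent.H22

/-- the check on the `negIdx` table used below. -/
def negCheck (D : ChevalleyDatum) : Bool :=
  (List.range D.nroots).all fun r => !(Nat.beq (D.neg r) r) && Nat.blt (D.neg r) D.nroots

theorem negCheck_spec (D : ChevalleyDatum) (h : negCheck D = true) (r : ℕ) (hr : r < D.nroots) :
    D.neg r ≠ r ∧ D.neg r < D.nroots := by
  unfold negCheck at h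
  rw [List.all_eq_true] at h
  have h1 := h r (List.mem_range.mpr hr)
  rw [Bool.and_eq_true] at h1
  obtain ⟨h2, h3⟩ := h1
  constructor
  · intro heq
    rw [heq] at h2
    simp at h2
  · simpa [Nat.blt] using h3

set_option maxRecDepth 100000 in
theorem negCheck_all (D : ChevalleyDatum)
    (hD : D ∈ [chevG2, chevB2, chevD4, chevF4, chevE6, chevE7, chevE8]) : negCheck D = true := by
  revert D
  apply forall_mem_dataList <;> decide +kernel

/-- `x_r(0) = 1`, and `x_r(t) = 1` forces `t = 0`: the map `t ↦ x_r(t)` is injective. -/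
theorem result {F : Type*} [Field F] (D : Cfsg.Lie.ChevalleyDatum) (hD : D ∈ [Cfsg.Lie.chevG2, Cfsg.Lie.chevB2, Cfsg.Lie.chevD4, Cfsg.Lie.chevF4, Cfsg.Lie.chevE6, Cfsg.Lie.chevE7, Cfsg.Lie.chevE8]) (r : ℕ) (hr : r < D.nroots) (t : F) :
    D.x F r t = 1 ↔ t = 0 := by
  constructor
  · intro h
    obtain ⟨hne, hlt⟩ := negCheck_spec D (negCheck_all D hD) r hr
    rw [x_eq_xMat D F r hr] at h
    have hentry := xMat_apply_r_neg D F ⟨r, hr⟩ ⟨D.neg r, hlt⟩ rfl
      (fun h' => hne (congrArg Fin.val h')) t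
    rw [h] at hentry
    have hne' : (Sum.inr ⟨r, hr⟩ : D.Idx) ≠ Sum.inr ⟨D.neg r, hlt⟩ := by
      intro h'
      exact hne (congrArg Fin.val (Sum.inr.inj h')).symm
    rw [Matrix.one_apply_ne hne'] at hentry
    have : t ^ 2 = 0 := by
      have := hentry
      exact neg_eq_zero.mp this.symm
    exact pow_eq_zero_iff (two_ne_zero) |>.mp this
  · rintro rfl
    exact x_zero D F r

end Cfsg.Agent.S1024
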