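import Cfsg.Statements.S1028
import Cfsg.Agent.H22.ChevTriData

set_option autoImplicit false
open Cfsg

namespace Cfsg.Agent.S1028

open Cfsg.Lie Cfsg.Agent.H22

/-- Elements of `U` (the subgroup generated by the root elements of the positive roots) are unipotent linear maps: `(u - 1)^n = 0` with `n = rank + nroots` the dimension of the module. -/
theorem result {F : Type*} [Field F] (D : Cfsg.Lie.ChevalleyDatum) (hD : D ∈ [Cfsg.Lie.chevG2, Cfsg.Lie.chevB2, Cfsg.Lie.chevD4, Cfsg.Lie.chevF4, Cfsg.Lie.chevE6, Cfsg.Lie.chevE7, Cfsg.Lie.chevE8]) (g : GL D.Idx F) (hg : g ∈ D.posUnipotent F) :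
    ((g : Matrix D.Idx D.Idx F) - 1) ^ (D.rank + D.nroots) = 0 := by
  have h1 := (posUnipotent_le_lev hD hg).1
  have h2 := h1.pow (D.rank + D.nroots)
  exact h2.eq_zero (fun i j => by have := posZ_bound D i j; push_cast at this ⊢; omega)

end Cfsg.Agent.S1028
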