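import Cfsg.Statements.S1035
import Cfsg.Agent.H23.OrdH
-- import your own Cfsg.Agent.* helpers here

set_option autoImplicit false
open Cfsg

namespace Cfsg.Agent.S1035

/-- `d · |H| = (q - 1)^rank` over a field with `q` elements, with `d = 1` (G₂, F₄, E₈), `gcd(3, q-1)` (E₆), `gcd(2, q-1)` (E₇, B₂), `gcd(2, q-1)²` (D₄). -/
theorem result {F : Type*} [Field F] [Fintype F] {q : ℕ} (hq : Fintype.card F = q)
    (p : Cfsg.Lie.ChevalleyDatum × ℕ)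
    (hp : p ∈ [(Cfsg.Lie.chevG2, 1), (Cfsg.Lie.chevF4, 1), (Cfsg.Lie.chevE8, 1), (Cfsg.Lie.chevE6, Nat.gcd 3 (q - 1)),
      (Cfsg.Lie.chevE7, Nat.gcd 2 (q - 1)), (Cfsg.Lie.chevB2, Nat.gcd 2 (q - 1)), (Cfsg.Lie.chevD4, Nat.gcd 2 (q - 1) ^ 2)]) :
    p.2 * Nat.card (p.1.diagonalSubgroup F) = (q - 1) ^ p.1.rank := by
  simp only [List.mem_cons, List.not_mem_nil, or_false] at hp
  rcases hp with rfl | rfl | rfl | rfl | rfl | rfl | rfl
  · exact H23.cardH_G2 hq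
  · exact H23.cardH_F4 hq
  · exact H23.cardH_E8 hq
  · exact H23.cardH_E6 hq
  · exact H23.cardH_E7 hq
  · exact H23.cardH_B2 hq
  · exact H23.cardH_D4 hq

end Cfsg.Agent.S1035
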