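import Cfsg.Statements.S1041

set_option autoImplicit false
open Cfsg

namespace Cfsg.Agent.S1041

open Cfsg.Lie

/-- Every root index in range is a positive or a negative root. -/
def PosOrNeg (D : ChevalleyDatum) : Prop :=
  ∀ r ∈ List.range D.nroots, D.IsPosRoot r ∨ D.IsNegRoot r

instance (D : ChevalleyDatum) : Decidable (PosOrNeg D) := by unfold PosOrNeg; infer_instance

theorem posOrNeg_G2 : PosOrNeg chevG2 := by decide +kernel
theorem posOrNeg_B2 : PosOrNeg chevB2 := by decide +kernel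
theorem posOrNeg_D4 : PosOrNeg chevD4 := by decide +kernel
theorem posOrNeg_F4 : PosOrNeg chevF4 := by decide +kernel
theorem posOrNeg_E6 : PosOrNeg chevE6 := by decide +kernel
theorem posOrNeg_E7 : PosOrNeg chevE7 := by decide +kernel
theorem posOrNeg_E8 : PosOrNeg chevE8 := by decide +kernel

theorem posOrNeg (D : ChevalleyDatum) (hD : D ∈ [chevG2, chevB2, chevD4, chevF4, chevE6, chevE7, chevE8]) :
    PosOrNeg D := by
  simp only [List.mem_cons, List.not_mem_nil, or_false] at hD
  rcases hD with rfl | rfl | rfl | rfl | rfl | rfl | rfl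
  exacts [posOrNeg_G2, posOrNeg_B2, posOrNeg_D4, posOrNeg_F4, posOrNeg_E6, posOrNeg_E7, posOrNeg_E8]

/-- `U` and `V` generate the whole Chevalley group. -/
theorem result {F : Type*} [Field F] (D : Cfsg.Lie.ChevalleyDatum) (hD : D ∈ [Cfsg.Lie.chevG2, Cfsg.Lie.chevB2, Cfsg.Lie.chevD4, Cfsg.Lie.chevF4, Cfsg.Lie.chevE6, Cfsg.Lie.chevE7, Cfsg.Lie.chevE8]) : D.posUnipotent F ⊔ D.negUnipotent F = D.group F := by
  have hpn := posOrNeg D hD
  apply le_antisymm
  · apply sup_le
    · rw [ChevalleyDatum.posUnipotent, ChevalleyDatum.group]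
      apply Subgroup.closure_mono
      rintro g ⟨r, t, hr, hg⟩
      refine ⟨⟨r, hr.1⟩, t, ?_⟩
      rw [hg, ChevalleyDatum.x, dif_pos hr.1]
    · rw [ChevalleyDatum.negUnipotent, ChevalleyDatum.group]
      apply Subgroup.closure_mono
      rintro g ⟨r, t, hr, hg⟩
      refine ⟨⟨r, hr.1⟩, t, ?_⟩
      rw [hg, ChevalleyDatum.x, dif_pos hr.1]
  · rw [ChevalleyDatum.group, Subgroup.closure_le]
    rintro g ⟨r, t, hg⟩
    have hx : (g : Matrix D.Idx D.Idx F) = D.x F r.val t := by
      rw [hg, ChevalleyDatum.x, dif_pos r.isLt]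
    rcases hpn r.val (List.mem_range.mpr r.isLt) with h | h
    · exact (le_sup_left : D.posUnipotent F ≤ _) (Subgroup.subset_closure ⟨r.val, t, h, hx⟩)
    · exact (le_sup_right : D.negUnipotent F ≤ _) (Subgroup.subset_closure ⟨r.val, t, h, hx⟩)

end Cfsg.Agent.S1041
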