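import Cfsg.Statements.S1054
import Cfsg.Agent.H23.AllB

set_option autoImplicit false
open Cfsg

namespace Cfsg.Agent.S1054

/-- The Chevalley groups of types D₄, F₄, E₆, E₇, E₈ are simple over every field. -/
theorem result {F : Type*} [Field F] (D : Cfsg.Lie.ChevalleyDatum)
    (hD : D ∈ [Cfsg.Lie.chevD4, Cfsg.Lie.chevF4, Cfsg.Lie.chevE6, Cfsg.Lie.chevE7, Cfsg.Lie.chevE8]) :
    IsSimpleGroup ↥(D.group F) ∧ ¬ IsMulCommutative ↥(D.group F) := by
  simp only [List.mem_cons, List.not_mem_nil, or_false] at hD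
  rcases hD with rfl | rfl | rfl | rfl | rfl
  · exact H23.simple_all _ (by simp) (H23.perfect_D4 F)
  · exact H23.simple_all _ (by simp) (H23.perfect_F4 F)
  · exact H23.simple_all _ (by simp) (H23.perfect_E6 F)
  · exact H23.simple_all _ (by simp) (H23.perfect_E7 F)
  · exact H23.simple_all _ (by simp) (H23.perfect_E8 F)

end Cfsg.Agent.S1054
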