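import Cfsg.Statements.S1056
import Cfsg.Agent.H17.B2Gen
import Cfsg.Agent.H17.SpPerfect
import Cfsg.Agent.H17.PSpSimple

set_option autoImplicit false
open Cfsg

namespace Cfsg.Agent.S1056

/-- B₂(F) is simple for every field `F` other than the field with two elements. -/
theorem result {F : Type*} [Field F] (hF : ∃ a : F, a ≠ 0 ∧ a ≠ 1) : IsSimpleGroup ↥(Cfsg.Lie.chevB2.group F) ∧ ¬ IsMulCommutative ↥(Cfsg.Lie.chevB2.group F) := by
  classical
  obtain ⟨a, ha0, ha1⟩ := hF
  have hperf : commutator (Matrix.symplecticGroup (Fin 2) F) = ⊤ := by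
    by_cases hex : ∃ b : F, b ≠ 0 ∧ b * b ≠ 1
    · obtain ⟨b, hb0, hbb⟩ := hex
      exact H17.commutator_top_of_transv 2 (fun w hw c => H17.comm_case1 2 b hb0 hbb w hw c)
    · push Not at hex
      have haa := hex a ha0
      have h2 : (2 : F) ≠ 0 := by
        intro h2
        apply ha1
        have h5 : (a - 1) * (a - 1) = 0 := by linear_combination haa + (1 - a) * h2
        have h6 : a - 1 = 0 := mul_self_eq_zero.mp h5
        linear_combination h6
      have hf0 : H17.fVec 2 F ⟨0, by omega⟩ ≠ 0 := by
        intro h0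
        have := congrFun h0 (Sum.inr ⟨0, by omega⟩)
        simp [H17.fVec] at this
      apply H17.commutator_top_of_transv
      apply H17.transv_conj_mem 2 _ hf0
      intro c
      exact H17.comm_case2 2 h2 _ (H17.fVec 2 F ⟨1, by omega⟩) (H17.eVec 2 F ⟨1, by omega⟩)
        (H17.sympForm_f_f 2 _ _)
        (by rw [H17.sympForm_f_e]; simp) (by rw [H17.sympForm_f_e]; simp) c
  have hsimple : IsSimpleGroup (Matrix.symplecticGroup (Fin 2) F ⧸
      Subgroup.center (Matrix.symplecticGroup (Fin 2) F)) := H17.psp_simple 2 (by norm_num) hperf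
  have e := (H17.b2Equiv (F := F))
  refine ⟨e.symm.isSimpleGroup, ?_⟩
  intro hcomm
  have hcomm' : ∀ x y : Matrix.symplecticGroup (Fin 2) F ⧸
      Subgroup.center (Matrix.symplecticGroup (Fin 2) F), x * y = y * x := by
    intro x y
    apply e.injective
    rw [map_mul, map_mul]
    exact hcomm.is_comm.comm _ _
  have hle : commutator (Matrix.symplecticGroup (Fin 2) F) ≤
      Subgroup.center (Matrix.symplecticGroup (Fin 2) F) := by
    rw [commutator_def, Subgroup.commutator_le]
    intro x _ y _
    rw [← QuotientGroup.eq_one_iff, commutatorElement_def]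
    have := hcomm' (x : Matrix.symplecticGroup (Fin 2) F ⧸
      Subgroup.center (Matrix.symplecticGroup (Fin 2) F)) y
    simp only [QuotientGroup.mk_mul, QuotientGroup.mk_inv]
    rw [this]
    group
  rw [hperf] at hle
  have htop : Subgroup.center (Matrix.symplecticGroup (Fin 2) F) = ⊤ := top_le_iff.mp hle
  have hnt := hsimple.toNontrivial
  obtain ⟨x, y, hxy⟩ := hnt
  apply hxy
  induction x using QuotientGroup.induction_on with
  | H x =>
    induction y using QuotientGroup.induction_on with
    | H y =>
      rw [QuotientGroup.eq, htop]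
      trivial

end Cfsg.Agent.S1056
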