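import Cfsg.Statements.S1058
import Cfsg.Agent.H17.B2Gen
import Cfsg.Agent.H6.SpCenter
import Cfsg.Agent.S0247

set_option autoImplicit false
open Cfsg

namespace Cfsg.Agent.S1058

/-- B₂(2) ≅ S₆. -/
theorem result {F : Type*} [Field F] [Fintype F] (hF : Fintype.card F = 2) :
    Nonempty (↥(Cfsg.Lie.chevB2.group F) ≃* Equiv.Perm (Fin 6)) := by
  classical
  have e := (H17.b2Equiv (F := F))
  have h3 : Nat.card (Subgroup.center (Matrix.symplecticGroup (Fin 2) F)) = Nat.gcd 2 (2 - 1) :=
    H6.card_center_symplectic (l := Fin 2) hF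
  have hbot : Subgroup.center (Matrix.symplecticGroup (Fin 2) F) = ⊥ := by
    rw [← Subgroup.card_eq_one, h3]
    rfl
  obtain ⟨e6⟩ := S0247.result hF
  exact ⟨(e.symm.trans ((QuotientGroup.quotientMulEquivOfEq hbot).trans
    QuotientGroup.quotientBot)).trans e6⟩

end Cfsg.Agent.S1058
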