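import Cfsg.Statements.S1060
import Cfsg.Agent.H17.B2Gen
import Cfsg.Agent.H6.SpCenter
import Cfsg.Agent.S0245

set_option autoImplicit false
open Cfsg

namespace Cfsg.Agent.S1060

/-- `gcd(2, q-1) · |B₂(q)| = q⁴ (q² - 1)(q⁴ - 1)`. -/
theorem result {F : Type*} [Field F] [Fintype F] {q : ℕ} (hq : Fintype.card F = q) : Nat.gcd 2 (q - 1) * Nat.card ↥(Cfsg.Lie.chevB2.group F) = q ^ 4 * (q ^ 2 - 1) * (q ^ 4 - 1) := by
  classical
  have e := (H17.b2Equiv (F := F))
  have h1 : Nat.card ↥(Cfsg.Lie.chevB2.group F) = Nat.card (Matrix.symplecticGroup (Fin 2) F ⧸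
      Subgroup.center (Matrix.symplecticGroup (Fin 2) F)) := (Nat.card_congr e.toEquiv).symm
  have h2 := Subgroup.card_eq_card_quotient_mul_card_subgroup
    (Subgroup.center (Matrix.symplecticGroup (Fin 2) F))
  have h3 : Nat.card (Subgroup.center (Matrix.symplecticGroup (Fin 2) F)) = Nat.gcd 2 (q - 1) :=
    H6.card_center_symplectic (l := Fin 2) hq
  have h4 := S0245.result hq 2
  rw [h1, ← h3, mul_comm, ← h2, h4]
  simp [Finset.prod_range_succ]
  ring

end Cfsg.Agent.S1060
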