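import Cfsg.Statements.S1062
import Cfsg.Agent.H23.OrdF4
-- import your own Cfsg.Agent.* helpers here

set_option autoImplicit false
open Cfsg

namespace Cfsg.Agent.S1062

/-- `|F₄(q)| = q²⁴ (q² - 1)(q⁶ - 1)(q⁸ - 1)(q¹² - 1)`. -/
theorem result {F : Type*} [Field F] [Fintype F] {q : ℕ} (hq : Fintype.card F = q) : Nat.card ↥(Cfsg.Lie.chevF4.group F) = q ^ 24 * (q ^ 2 - 1) * (q ^ 6 - 1) * (q ^ 8 - 1) * (q ^ 12 - 1) := by
  exact Cfsg.Agent.H23.order_F4 hq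

end Cfsg.Agent.S1062
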