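import Cfsg.Statements.S1073
import Cfsg.Agent.H96.G2L.G2Facts
import Cfsg.Agent.H22.ReeCtx
import Cfsg.Agent.H22.ReeSimple

set_option autoImplicit false
open Cfsg

namespace Cfsg.Agent.S1073

/-- ²G₂(3^(2m+1)) is simple for `m ≥ 1`. -/
theorem result {K : Type*} [Field K] [Fintype K] {m : ℕ} (hm : 1 ≤ m) (hK : Fintype.card K = 3 ^ (2 * m + 1)) :
    IsSimpleGroup ↥(Cfsg.Lie.twistedG2 K (3 ^ m)) ∧ ¬ IsMulCommutative ↥(Cfsg.Lie.twistedG2 K (3 ^ m)) := by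
  have hc : CharP K 3 := Cfsg.Agent.H22.Ree.charP_three_of_card hK
  obtain ⟨C⟩ := Cfsg.Agent.H22.Ree.exists_ctx hK (Cfsg.Agent.H96.G2L.steinberg_G2 K)
    (Cfsg.Agent.H96.G2L.factor_G2 (F := K)).1
  have hcan : Cfsg.Agent.H22.Ree.CanonG2 K := Cfsg.Agent.H96.G2L.canon_G2 K
  have hW : Cfsg.Agent.H22.Ree.WeylG2 K :=
    Cfsg.Agent.H96.G2L.weyl_G2 K
  exact C.simple hK hm hcan hW

end Cfsg.Agent.S1073
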