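import Cfsg.Statements.S1091
import Cfsg.Agent.H96.G2L.G2Facts
import Cfsg.Agent.H22.ReeCtx
import Cfsg.Agent.H22.ReeBN

set_option autoImplicit false
open Cfsg

namespace Cfsg.Agent.S1091

/-- ²G₂(3^(2m+1)) has a (B,N)-pair: B¹ = G¹ ∩ B and N¹ = G¹ ∩ N, intersections with the ambient Chevalley group's B = UH and N. -/
theorem result {K : Type*} [Field K] [Fintype K] {m : ℕ} (hK : Fintype.card K = 3 ^ (2 * m + 1)) :
    ∃ P : Cfsg.BNPair ↥(Cfsg.Lie.twistedG2 K (3 ^ m)),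
      P.B = (Cfsg.Lie.chevG2.borelSubgroup K ⊓ Cfsg.Lie.twistedG2 K (3 ^ m)).subgroupOf (Cfsg.Lie.twistedG2 K (3 ^ m)) ∧
      P.N = (Cfsg.Lie.chevG2.monomialSubgroup K ⊓ Cfsg.Lie.twistedG2 K (3 ^ m)).subgroupOf (Cfsg.Lie.twistedG2 K (3 ^ m)) := by
  have hc : CharP K 3 := Cfsg.Agent.H22.Ree.charP_three_of_card hK
  obtain ⟨C⟩ := Cfsg.Agent.H22.Ree.exists_ctx hK (Cfsg.Agent.H96.G2L.steinberg_G2 K)
    (Cfsg.Agent.H96.G2L.factor_G2 (F := K)).1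
  have hcan : Cfsg.Agent.H22.Ree.CanonG2 K := Cfsg.Agent.H96.G2L.canon_G2 K
  have hW : Cfsg.Agent.H22.Ree.WeylG2 K :=
    Cfsg.Agent.H96.G2L.weyl_G2 K
  exact C.bn_pair hK hcan hW

end Cfsg.Agent.S1091
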