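import Cfsg.Statements.S1116
import Cfsg.Agent.H96.G2L.G2Facts
import Cfsg.Agent.H22.ReeCtx
import Cfsg.Agent.H22.ReeN

set_option autoImplicit false
open Cfsg

namespace Cfsg.Agent.S1116

/-- ²G₂(3^(2m+1)) (m ≥ 1) equals its derived subgroup. -/
theorem result {K : Type*} [Field K] [Fintype K] {m : ℕ} (hK : Fintype.card K = 3 ^ (2 * m + 1)) (hm : 1 ≤ m) : commutator ↥(Cfsg.Lie.twistedG2 K (3 ^ m)) = ⊤ := by
  have hc : CharP K 3 := Cfsg.Agent.H22.Ree.charP_three_of_card hK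
  obtain ⟨C⟩ := Cfsg.Agent.H22.Ree.exists_ctx hK (Cfsg.Agent.H96.G2L.steinberg_G2 K)
    (Cfsg.Agent.H96.G2L.factor_G2 (F := K)).1
  exact C.perfect hK hm

end Cfsg.Agent.S1116
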