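import Cfsg.Statements.S1118
import Cfsg.Agent.H24.RankOne

set_option autoImplicit false
open Cfsg

namespace Cfsg.Agent.S1118

/-- In the rank-one set-up (`G` finite and doubly transitive on `Ω`, `t` an involution moving `a`, `Q` normal in `G_a` with `G_a = Q D`, `Q ⊓ D = 1` for the two-point stabiliser `D = G_a ⊓ G_{t • a}`, `|Q|` even, `|D|` odd), the normaliser of a subset of `Q` containing a non-identity element lies in `G_a`; consequently `N_G(Q) = N_G(G_a) = G_a`. -/
theorem result {G Ω : Type*} [Group G] [Finite G] [MulAction G Ω] {a : Ω} {t : G} {Q : Subgroup G}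
    (hS : Cfsg.IsRankOneSetup G Ω a t Q) :
    (∀ X : Set G, X ⊆ (Q : Set G) → (∃ x ∈ X, x ≠ 1) → Subgroup.normalizer X ≤ MulAction.stabilizer G a) ∧
      Subgroup.normalizer (Q : Set G) = MulAction.stabilizer G a ∧
      Subgroup.normalizer (MulAction.stabilizer G a : Set G) = MulAction.stabilizer G a := by
  have key : ∀ X : Set G, X ⊆ (Q : Set G) → (∃ x ∈ X, x ≠ 1) →
      Subgroup.normalizer X ≤ MulAction.stabilizer G a := by
    intro X hX ⟨x, hxX, hx1⟩ g hg
    rw [MulAction.mem_stabilizer_iff]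
    by_contra hne
    have h1 : g * x * g⁻¹ ∈ X := (Subgroup.mem_set_normalizer_iff.mp hg x).mp hxX
    have h2 : g * x * g⁻¹ ∈ Q := hX h1
    have h3 : (g * x * g⁻¹) • (g • a) = g • a := by
      rw [mul_smul, mul_smul, inv_smul_smul, H24.RankOne.smul_eq_of_mem hS (hX hxX)]
    have h4 := H24.RankOne.eq_one_of_smul_eq hS hne h2 h3
    apply hx1
    have : x = g⁻¹ * (g * x * g⁻¹) * g := by group
    rw [this, h4]; group
  obtain ⟨x, hxQ, hx1⟩ := H24.RankOne.exists_ne_one hS
  refine ⟨key, ?_, ?_⟩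
  · apply le_antisymm
    · exact key _ (le_refl _) ⟨x, hxQ, hx1⟩
    · exact H24.RankOne.stab_le_normalizer hS
  · apply le_antisymm
    · intro g hg
      rw [MulAction.mem_stabilizer_iff]
      by_contra hne
      have h1 : g⁻¹ * x * g⁻¹⁻¹ ∈ MulAction.stabilizer G a :=
        (Subgroup.mem_set_normalizer_iff.mp (inv_mem hg) x).mp (hS.le hxQ)
      have h2 : (g⁻¹ * x * g⁻¹⁻¹) • a = a := h1
      have h3 : x • (g • a) = g • a := by
        rw [inv_inv, mul_smul, mul_smul] at h2
        have h4 := congrArg (fun c => g • c) h2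
        simpa using h4
      exact hx1 (H24.RankOne.eq_one_of_smul_eq hS hne hxQ h3)
    · exact Subgroup.le_normalizer
end Cfsg.Agent.S1118
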