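import Cfsg.Statements.S1120
import Cfsg.Agent.H24.RankOneInv
import Cfsg.Agent.H24.FourGroup

set_option autoImplicit false
open Cfsg

namespace Cfsg.Agent.S1120

open H24 H24.RankOne MulAction in
/-- In the rank-one set-up (`G` finite and doubly transitive on `Ω`, `t` an involution moving `a`, `Q` normal in `G_a` with `G_a = Q D`, `Q ⊓ D = 1` for the two-point stabiliser `D = G_a ⊓ G_{t • a}`, `|Q|` even, `|D|` odd), if `G` has 2-rank at least 2 then `O_{2'}(G)` equals the normal core of `G_a`. -/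
theorem result {G Ω : Type*} [Group G] [Finite G] [MulAction G Ω] {a : Ω} {t : G} {Q : Subgroup G}
    (hS : Cfsg.IsRankOneSetup G Ω a t Q)
    (h2 : ∃ x y : G, x ≠ 1 ∧ y ≠ 1 ∧ x ≠ y ∧ x * x = 1 ∧ y * y = 1 ∧ x * y = y * x) :
    Cfsg.pPrimeCore 2 G = (MulAction.stabilizer G a).normalCore := by
  obtain ⟨x, y, hx1, hy1, hxy_ne, hx2, hy2, hxy⟩ := h2
  have hxinv : x⁻¹ = x := inv_eq_of_mul_eq_one_left hx2
  have hyinv : y⁻¹ = y := inv_eq_of_mul_eq_one_left hy2
  have hz1 : x * y ≠ 1 := by
    intro h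
    apply hxy_ne
    rw [← hyinv]
    exact eq_inv_of_mul_eq_one_left h
  have hz2 : (x * y) * (x * y) = 1 := by
    calc (x * y) * (x * y) = x * (y * x) * y := by group
      _ = x * (x * y) * y := by rw [hxy]
      _ = (x * x) * (y * y) := by group
      _ = 1 := by rw [hx2, hy2, mul_one]
  obtain ⟨c, hc⟩ := invol_exists_fix hS hx2
  have hyc : y • c = c := invol_comm_fix hS hx1 hx2 hxy hc
  have hzc : (x * y) • c = c := by rw [mul_smul, hyc, hc]
  apply le_antisymm
  · apply sSup_le
    rintro N ⟨hNn, hNc⟩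
    have hodd : Odd (Nat.card N) := Nat.coprime_two_right.mp hNc
    have hdec := fourGroup_decomp N hodd x y hx2 hy2 hxy
      (fun n hn => hNn.conj_mem n hn x) (fun n hn => hNn.conj_mem n hn y)
    have hNc' : ∀ n ∈ N, n • c = c := by
      intro n hn
      obtain ⟨c1, c2, j, h1, h2, h3, rfl⟩ := hdec n hn
      have e1 : c1 • c = c := by
        have : x • (c1 • c) = c1 • c := by rw [← mul_smul, ← h1, mul_smul, hc]
        exact invol_fix_eq hS hx1 hx2 this hc
      have e2 : c2 • c = c := by
        have : y • (c2 • c) = c2 • c := by rw [← mul_smul, ← h2, mul_smul, hyc]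
        exact invol_fix_eq hS hy1 hy2 this hyc
      have e3 : j • c = c := by
        have : (x * y) • (j • c) = j • c := by rw [← mul_smul, ← h3, mul_smul, hzc]
        exact invol_fix_eq hS hz1 hz2 this hzc
      simp only [mul_smul]
      rw [e2, e3, e2, e1]
    have := hNn
    rw [Subgroup.normal_le_normalCore]
    intro n hn
    rw [mem_stabilizer_iff]
    obtain ⟨g, hg⟩ := RankOne.trans hS c a
    have h1 : g⁻¹ * n * g⁻¹⁻¹ ∈ N := hNn.conj_mem n hn g⁻¹
    have h2 := hNc' _ h1
    rw [inv_inv] at h2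
    simp only [mul_smul] at h2
    rw [← hg]
    have h3 := congrArg (fun w => g • w) h2
    simpa using h3
  · apply le_sSup
    refine ⟨inferInstance, ?_⟩
    rw [Nat.coprime_two_right]
    have hle : (stabilizer G a).normalCore ≤ stabilizer G a ⊓ stabilizer G (t • a) := by
      intro n hn
      refine Subgroup.mem_inf.mpr ⟨Subgroup.normalCore_le _ hn, ?_⟩
      have h1 : t⁻¹ * n * t⁻¹⁻¹ ∈ stabilizer G a := hn t⁻¹
      rw [mem_stabilizer_iff, inv_inv] at h1
      simp only [mul_smul] at h1
      rw [mem_stabilizer_iff]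
      have h3 := congrArg (fun w => t • w) h1
      simpa using h3
    exact Odd.of_dvd_nat hS.odd_card (Subgroup.card_dvd_of_le hle)

end Cfsg.Agent.S1120
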