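import Cfsg.Statements.S1122
import Cfsg.Agent.H24.RankOneK

set_option autoImplicit false
open Cfsg

namespace Cfsg.Agent.S1122

/-- In the rank-one set-up (`G` finite and doubly transitive on `Ω`, `t` an involution moving `a`, `Q` normal in `G_a` with `G_a = Q D`, `Q ⊓ D = 1` for the two-point stabiliser `D = G_a ⊓ G_{t • a}`, `|Q|` even, `|D|` odd), with `K` the set of elements of `D` inverted by `t`: `|K|` is the number of involutions of `G_a`, and for each involution `s` of `G_a` the `K`-conjugates of `s` are all the involutions of `G_a`. -/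
theorem result {G Ω : Type*} [Group G] [Finite G] [MulAction G Ω] {a : Ω} {t : G} {Q : Subgroup G}
    (hS : Cfsg.IsRankOneSetup G Ω a t Q) :
    Nat.card (Cfsg.invertedBy (MulAction.stabilizer G a ⊓ MulAction.stabilizer G (t • a)) t) = Nat.card (Cfsg.involutionsIn (MulAction.stabilizer G a : Set G)) ∧
      ∀ s ∈ Cfsg.involutionsIn (MulAction.stabilizer G a : Set G), ∀ s' ∈ Cfsg.involutionsIn (MulAction.stabilizer G a : Set G),
        ∃ k ∈ Cfsg.invertedBy (MulAction.stabilizer G a ⊓ MulAction.stabilizer G (t • a)) t, k⁻¹ * s * k = s' :=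
  ⟨H24.RankOne.card_K hS, fun _ hs _ hs' => H24.RankOne.exists_K_conj hS hs hs'⟩

end Cfsg.Agent.S1122
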