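import Cfsg.Statements.S1124
import Cfsg.Agent.H24.InvDecomp

set_option autoImplicit false
open Cfsg
open scoped Pointwise

namespace Cfsg.Agent.S1124

/-- Let `t` be an element of order 2 of a finite group normalising a subgroup `X` of odd order, `Y = C_X(t)` and `Z` the set of elements of `X` inverted by `t`. Then `(y, z) ↦ y z` is a bijection `Y × Z → X`, so `|X| = |Y| |Z|`, and the subgroup generated by `Z` is normal in `X`. -/
theorem result {M : Type*} [Group M] [Finite M]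
    (t : M) (ht : orderOf t = 2) (X : Subgroup M) (hodd : Odd (Nat.card X))
    (hnorm : ∀ x ∈ X, t * x * t⁻¹ ∈ X) :
    (∀ x ∈ X, ∃! p : M × M, p.1 ∈ X ⊓ Subgroup.centralizer {t} ∧ p.2 ∈ Cfsg.invertedBy X t ∧ x = p.1 * p.2) ∧
      Nat.card X = Nat.card ↥(X ⊓ Subgroup.centralizer {t}) * Nat.card (Cfsg.invertedBy X t) ∧
      ∀ x ∈ X, MulAut.conj x • Subgroup.closure (Cfsg.invertedBy X t) = Subgroup.closure (Cfsg.invertedBy X t) := by
  have ht2 : t * t = 1 := by
    have h := pow_orderOf_eq_one t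
    rw [ht, pow_two] at h; exact h
  obtain ⟨hex, huniq⟩ := H24.invDecomp_aux t ht2 X hodd hnorm
  have hconj := H24.invDecomp_conj_mem t ht2 X hodd hnorm
  refine ⟨?_, H24.invDecomp_card t ht2 X hodd hnorm, ?_⟩
  · intro x hx
    obtain ⟨y, z, hy, hz, hxyz⟩ := hex x hx
    refine ⟨(y, z), ⟨hy, hz, hxyz⟩, ?_⟩
    rintro ⟨y', z'⟩ ⟨hy', hz', hxyz'⟩
    obtain ⟨e1, e2⟩ := huniq y' z' y z hy' hz' hy hz (hxyz'.symm.trans hxyz)
    rw [e1, e2]
  · intro x hx
    ext g
    rw [Subgroup.mem_pointwise_smul_iff_inv_smul_mem, MulAut.smul_def, MulAut.conj_inv_apply]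
    constructor
    · intro h
      have h1 := hconj x hx _ h
      have h2 : x * (x⁻¹ * g * x) * x⁻¹ = g := by group
      rwa [h2] at h1
    · intro h
      have h1 := hconj x⁻¹ (inv_mem hx) g h
      rwa [inv_inv] at h1

end Cfsg.Agent.S1124
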