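import Cfsg.Statements.S1125
import Cfsg.Agent.H24.RankOneFix

set_option autoImplicit false
open Cfsg

namespace Cfsg.Agent.S1125

open H24 H24.RankOne MulAction in
/-- In the rank-one set-up (`G` finite and doubly transitive on `Ω`, `t` an involution moving `a`, `Q` normal in `G_a` with `G_a = Q D`, `Q ⊓ D = 1` for the two-point stabiliser `D = G_a ⊓ G_{t • a}`, `|Q|` even, `|D|` odd), let `X ⊆ D` fix at least three points of `Ω`. Then `C_G(X)` is doubly transitive on the fixed-point set of `X`, `|C_Q(X)|` is even, and `C_{G_a}(X) = C_Q(X) C_D(X)`. -/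
theorem result {G Ω : Type*} [Group G] [Finite G] [MulAction G Ω] {a : Ω} {t : G} {Q : Subgroup G}
    (hS : Cfsg.IsRankOneSetup G Ω a t Q)
    (X : Set G) (hX : X ⊆ ((MulAction.stabilizer G a ⊓ MulAction.stabilizer G (t • a)) : Set G))
    (h3 : ∃ b c d : Ω, b ≠ c ∧ b ≠ d ∧ c ≠ d ∧ ∀ x ∈ X, x • b = b ∧ x • c = c ∧ x • d = d) :
    (∀ b₁ b₂ c₁ c₂ : Ω, (∀ x ∈ X, x • b₁ = b₁ ∧ x • b₂ = b₂ ∧ x • c₁ = c₁ ∧ x • c₂ = c₂) →
        b₁ ≠ b₂ → c₁ ≠ c₂ → ∃ g ∈ Subgroup.centralizer X, g • b₁ = c₁ ∧ g • b₂ = c₂) ∧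
      Even (Nat.card ↥(Subgroup.centralizer X ⊓ Q)) ∧
      (Subgroup.centralizer X ⊓ Q) ⊔ (Subgroup.centralizer X ⊓ (MulAction.stabilizer G a ⊓ MulAction.stabilizer G (t • a))) = Subgroup.centralizer X ⊓ MulAction.stabilizer G a := by
  have hXa : ∀ x ∈ X, x • a = a := fun x hx => (Subgroup.mem_inf.mp (hX hx)).1
  have hXb : ∀ x ∈ X, x • (t • a) = t • a := fun x hx => (Subgroup.mem_inf.mp (hX hx)).2
  refine ⟨?_, ?_, ?_⟩
  · intro b₁ b₂ c₁ c₂ hfix hb hc
    exact centralizer_two_trans hS h3 (fun x hx => (hfix x hx).1) (fun x hx => (hfix x hx).2.1)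
      (fun x hx => (hfix x hx).2.2.1) (fun x hx => (hfix x hx).2.2.2) hb hc
  · obtain ⟨z, hzC, hz1, hz2, hza⟩ := exists_centralizer_swap hS hX h3
    obtain ⟨e, he⟩ := invol_exists_fix hS hz2
    have heF : ∀ x ∈ X, x • e = e := by
      intro x hx
      have h1 : z • (x • e) = x • e := by
        rw [← mul_smul, ← (Subgroup.mem_centralizer_iff.mp hzC) x hx, mul_smul, he]
      exact invol_fix_eq hS hz1 hz2 h1 he
    have hex : ∃ g ∈ Subgroup.centralizer X, g • e = a := by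
      by_cases hea : e = a
      · exact ⟨1, one_mem _, by rw [one_smul, hea]⟩
      · obtain ⟨g, hg, hg1, -⟩ := centralizer_two_trans hS h3 heF hXa hXa heF hea (Ne.symm hea)
        exact ⟨g, hg, hg1⟩
    obtain ⟨g, hgC, hge⟩ := hex
    have hs1 : g * z * g⁻¹ ≠ 1 := conj_ne_one hz1
    have hs2 : (g * z * g⁻¹) * (g * z * g⁻¹) = 1 := conj_mul_self hz2
    have hsa : g * z * g⁻¹ ∈ stabilizer G a := by
      rw [mem_stabilizer_iff]
      simp only [mul_smul]
      rw [← hge, inv_smul_smul, he]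
    have hsQ : g * z * g⁻¹ ∈ Q := mem_of_mul_self hS hsa hs2
    have hsC : g * z * g⁻¹ ∈ Subgroup.centralizer X := mul_mem (mul_mem hgC hzC) (inv_mem hgC)
    exact even_card_of_invol (Subgroup.mem_inf.mpr ⟨hsC, hsQ⟩) hs1 hs2
  · apply le_antisymm
    · apply sup_le
      · exact inf_le_inf_left _ hS.le
      · exact inf_le_inf_left _ inf_le_left
    · intro g hg
      obtain ⟨hgC, hga⟩ := Subgroup.mem_inf.mp hg
      have hga' : g • a = a := hga
      have hfix : ∀ x ∈ X, x • (g • (t • a)) = g • (t • a) := by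
        intro x hx
        rw [← mul_smul, (Subgroup.mem_centralizer_iff.mp hgC) x hx, mul_smul, hXb x hx]
      have hne : g • (t • a) ≠ a := smul_ne_of_ne hS (tsmul_ne hS) hga
      obtain ⟨y, hyC, hya, hyb, hyQ⟩ :=
        exists_centralizer_smul hS hXa hXb hfix (tsmul_ne hS) hne
      have hyQ' := hyQ rfl
      have h1 : g = y * (y⁻¹ * g) := by group
      rw [h1]
      apply Subgroup.mul_mem_sup
      · exact Subgroup.mem_inf.mpr ⟨hyC, hyQ'⟩
      · refine Subgroup.mem_inf.mpr ⟨mul_mem (inv_mem hyC) hgC, Subgroup.mem_inf.mpr ⟨?_, ?_⟩⟩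
        · rw [mem_stabilizer_iff, mul_smul, hga', inv_smul_eq_iff, hya]
        · rw [mem_stabilizer_iff, mul_smul, inv_smul_eq_iff, hyb]

end Cfsg.Agent.S1125
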