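import Cfsg.Statements.S1128
import Cfsg.Agent.H24.RankOneFix

set_option autoImplicit false
open Cfsg

namespace Cfsg.Agent.S1128

open H24 H24.RankOne MulAction in
/-- In the rank-one set-up (`G` finite and doubly transitive on `Ω`, `t` an involution moving `a`, `Q` normal in `G_a` with `G_a = Q D`, `Q ⊓ D = 1` for the two-point stabiliser `D = G_a ⊓ G_{t • a}`, `|Q|` even, `|D|` odd), with the action faithful and `G` containing two distinct commuting involutions: every non-identity element of `D` inverted by `t` acts fixed-point-freely on `Q`. -/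
theorem result {G Ω : Type*} [Group G] [Finite G] [MulAction G Ω] [FaithfulSMul G Ω] {a : Ω} {t : G} {Q : Subgroup G}
    (hS : Cfsg.IsRankOneSetup G Ω a t Q)
    (h2 : ∃ x y : G, x ≠ 1 ∧ y ≠ 1 ∧ x ≠ y ∧ x * x = 1 ∧ y * y = 1 ∧ x * y = y * x)
    (x : G) (hx : x ∈ Cfsg.invertedBy (MulAction.stabilizer G a ⊓ MulAction.stabilizer G (t • a)) t) (hx1 : x ≠ 1) :
    Q ⊓ Subgroup.centralizer {x} = ⊥ := by
  rw [eq_bot_iff]
  intro y hy
  rw [Subgroup.mem_bot]
  by_contra hy1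
  obtain ⟨hyQ, hyC⟩ := Subgroup.mem_inf.mp hy
  have hxy : x * y = y * x := (Subgroup.mem_centralizer_iff.mp hyC) x rfl
  have hxD := hx.1
  have hxa : x • a = a := (Subgroup.mem_inf.mp hxD).1
  have hxb : x • (t • a) = t • a := (Subgroup.mem_inf.mp hxD).2
  have hyb_ne_b : y • (t • a) ≠ t • a := fun h =>
    hy1 (eq_one_of_smul_eq hS (tsmul_ne hS) hyQ h)
  have hyb_ne_a : y • (t • a) ≠ a := smul_ne_of_ne hS (tsmul_ne hS) (hS.le hyQ)
  have h3 : ∃ b c d : Ω, b ≠ c ∧ b ≠ d ∧ c ≠ d ∧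
      ∀ x' ∈ ({x} : Set G), x' • b = b ∧ x' • c = c ∧ x' • d = d := by
    refine ⟨a, t • a, y • (t • a), Ne.symm (tsmul_ne hS), Ne.symm hyb_ne_a, Ne.symm hyb_ne_b, ?_⟩
    intro x' hx'
    rw [Set.mem_singleton_iff] at hx'
    subst hx'
    refine ⟨hxa, hxb, ?_⟩
    rw [← mul_smul, hxy, mul_smul, hxb]
  have hXD : ({x} : Set G) ⊆ ((stabilizer G a ⊓ stabilizer G (t • a) : Subgroup G) : Set G) := by
    intro x' hx'
    rw [Set.mem_singleton_iff] at hx'
    subst hx'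
    exact hxD
  obtain ⟨z, hzC, hz1, hz2, hza⟩ := exists_centralizer_swap hS hXD h3
  have hk := tmul_mem_K hS hz2 hza
  have hxz : x * z = z * x := (Subgroup.mem_centralizer_iff.mp hzC) x rfl
  have hconj : (t * z) * x * (t * z)⁻¹ = x⁻¹ := by
    calc (t * z) * x * (t * z)⁻¹ = t * (z * x) * z⁻¹ * t⁻¹ := by group
      _ = t * (x * z) * z⁻¹ * t⁻¹ := by rw [hxz]
      _ = t * x * t⁻¹ := by group
      _ = x⁻¹ := hx.2
  exact hx1 (eq_one_of_conj_eq_inv_of_odd hS.odd_card hk.1 hxD hconj)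

end Cfsg.Agent.S1128
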