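import Cfsg.Statements.S1129
import Cfsg.Agent.H24.RankOneE
import Cfsg.Agent.S0033

set_option autoImplicit false
open Cfsg

namespace Cfsg.Agent.S1129

open MulAction Cfsg.Agent.H24

/-- conjugation by an element of the point stabiliser, as an automorphism of `Q`. -/
theorem exists_conj_aut {G Ω : Type*} [Group G] [MulAction G Ω] {a : Ω} {t : G} {Q : Subgroup G}
    (hS : Cfsg.IsRankOneSetup G Ω a t Q) {k : G} (hk : k ∈ stabilizer G a) :
    ∃ φ : Q ≃* Q, ∀ x : Q, ((φ x : Q) : G) = k * x * k⁻¹ := by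
  have hk' : k⁻¹ ∈ stabilizer G a := inv_mem hk
  refine ⟨{ toFun := fun x => ⟨k * x * k⁻¹, hS.conj_mem k hk x x.2⟩
            invFun := fun x => ⟨k⁻¹ * x * k, by
              have := hS.conj_mem k⁻¹ hk' x x.2
              rwa [inv_inv] at this⟩
            left_inv := fun x => by
              apply Subtype.ext
              simp [mul_assoc]
            right_inv := fun x => by
              apply Subtype.ext
              simp [mul_assoc]
            map_mul' := fun x y => by
              apply Subtype.ext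
              simp [mul_assoc] }, fun x => rfl⟩

/-- In the rank-one set-up (`G` finite and doubly transitive on `Ω`, `t` an involution moving `a`, `Q` normal in `G_a` with `G_a = Q D`, `Q ⊓ D = 1` for the two-point stabiliser `D = G_a ⊓ G_{t • a}`, `|Q|` even, `|D|` odd), with the action faithful and `G` containing two distinct commuting involutions: `Q` is nilpotent. -/
theorem result {G Ω : Type*} [Group G] [Finite G] [MulAction G Ω] [FaithfulSMul G Ω] {a : Ω} {t : G} {Q : Subgroup G}
    (hS : Cfsg.IsRankOneSetup G Ω a t Q)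
    (h2 : ∃ x y : G, x ≠ 1 ∧ y ≠ 1 ∧ x ≠ y ∧ x * x = 1 ∧ y * y = 1 ∧ x * y = y * x) :
    Group.IsNilpotent Q := by
  obtain ⟨x, y, hx1, hy1, hxy, hx2, hy2, hcomm⟩ := h2
  obtain ⟨c, hc⟩ := RankOne.invol_exists_fix hS hx2
  have hyc : y • c = c := RankOne.invol_comm_fix hS hx1 hx2 hcomm hc
  obtain ⟨g, hg⟩ := RankOne.trans hS c a
  have hxa : (g * x * g⁻¹) • a = a := by
    rw [mul_smul, mul_smul, ← hg, inv_smul_smul, hc]
  have hya : (g * y * g⁻¹) • a = a := by
    rw [mul_smul, mul_smul, ← hg, inv_smul_smul, hyc]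
  have hxI : g * x * g⁻¹ ∈ Cfsg.involutionsIn (stabilizer G a : Set G) :=
    ⟨hxa, RankOne.conj_ne_one hx1, RankOne.conj_mul_self hx2⟩
  have hyI : g * y * g⁻¹ ∈ Cfsg.involutionsIn (stabilizer G a : Set G) :=
    ⟨hya, RankOne.conj_ne_one hy1, RankOne.conj_mul_self hy2⟩
  have hne : (⟨g * x * g⁻¹, hxI⟩ : ↥(Cfsg.involutionsIn (stabilizer G a : Set G))) ≠
      ⟨g * y * g⁻¹, hyI⟩ := by
    intro h
    apply hxy
    have h' : g * x * g⁻¹ = g * y * g⁻¹ := congrArg Subtype.val h
    exact mul_left_cancel (mul_right_cancel h')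
  -- `K` has at least two elements
  have hcard : 1 < Nat.card (Cfsg.invertedBy (stabilizer G a ⊓ stabilizer G (t • a)) t) := by
    rw [RankOne.card_K hS]
    have : Finite ↥(Cfsg.involutionsIn (stabilizer G a : Set G)) := Subtype.finite
    exact Finite.one_lt_card_iff_nontrivial.mpr ⟨⟨_, _, hne⟩⟩
  have hone : (1 : G) ∈ Cfsg.invertedBy (stabilizer G a ⊓ stabilizer G (t • a)) t :=
    ⟨one_mem _, by simp⟩
  have hK : ∃ k ∈ Cfsg.invertedBy (stabilizer G a ⊓ stabilizer G (t • a)) t, k ≠ 1 := by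
    have : Finite ↥(Cfsg.invertedBy (stabilizer G a ⊓ stabilizer G (t • a)) t) := Subtype.finite
    have hnt := Finite.one_lt_card_iff_nontrivial.mp hcard
    obtain ⟨k, hk⟩ := exists_ne (⟨1, hone⟩ :
      ↥(Cfsg.invertedBy (stabilizer G a ⊓ stabilizer G (t • a)) t))
    exact ⟨k.1, k.2, fun h => hk (Subtype.ext h)⟩
  obtain ⟨k, hkK, hk1⟩ := hK
  -- pass to an element of prime order
  have hopos : 0 < orderOf k := orderOf_pos k
  have hone' : orderOf k ≠ 1 := fun h => hk1 (orderOf_eq_one_iff.mp h)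
  set r := (orderOf k).minFac with hr
  have hrp : r.Prime := Nat.minFac_prime hone'
  have hrdvd : r ∣ orderOf k := Nat.minFac_dvd _
  set k' := k ^ (orderOf k / r) with hk'
  have hord' : orderOf k' = r := orderOf_pow_orderOf_div hopos.ne' hrdvd
  have hk'1 : k' ≠ 1 := by
    intro h
    rw [h, orderOf_one] at hord'
    exact hrp.one_lt.ne hord'
  have hk'K : k' ∈ Cfsg.invertedBy (stabilizer G a ⊓ stabilizer G (t • a)) t := by
    refine ⟨pow_mem hkK.1 _, ?_⟩
    rw [hk', ← inv_pow, ← hkK.2]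
    exact (conj_pow (a := t) (b := k) (i := orderOf k / r)).symm
  have hk'a : k' ∈ stabilizer G a := (Subgroup.mem_inf.mp hk'K.1).1
  obtain ⟨φ, hφ⟩ := exists_conj_aut hS hk'a
  have hfpf : MonoidHom.FixedPointFree (φ : Q →* Q) := by
    intro q hq
    have hq' : k' * (q : G) * k'⁻¹ = q := by
      rw [← hφ q]
      exact congrArg Subtype.val hq
    have hmem : (q : G) ∈ Q ⊓ Subgroup.centralizer {k'} := by
      refine Subgroup.mem_inf.mpr ⟨q.2, ?_⟩
      rw [Subgroup.mem_centralizer_iff]
      intro h hh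
      rw [Set.mem_singleton_iff] at hh
      subst hh
      calc k' * (q : G) = k' * q * k'⁻¹ * k' := by group
        _ = q * k' := by rw [hq']
    rw [RankOne.K_fpf hS hk'K hk'1, Subgroup.mem_bot] at hmem
    exact Subtype.ext hmem
  have hpow : ∀ (n : ℕ) (q : Q), (((φ ^ n) q : Q) : G) = k' ^ n * q * (k' ^ n)⁻¹ := by
    intro n
    induction n with
    | zero => intro q; simp
    | succ n ih =>
      intro q
      rw [pow_succ, MulAut.mul_apply, ih, hφ, pow_succ]
      group
  have hφr : φ ^ r = 1 := by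
    ext q
    rw [hpow, ← hord', pow_orderOf_eq_one]
    simp
  have hφ1 : φ ≠ 1 := by
    intro h
    obtain ⟨q, hqQ, hq1⟩ := RankOne.exists_ne_one hS
    apply hq1
    have := hfpf ⟨q, hqQ⟩ (by rw [MonoidHom.coe_coe, h]; rfl)
    exact congrArg Subtype.val this
  have : Fact r.Prime := ⟨hrp⟩
  have hordφ : orderOf φ = r := orderOf_eq_prime hφr hφ1
  exact Cfsg.Agent.S0033.result φ hfpf r hrp hordφ

end Cfsg.Agent.S1129
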