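import Cfsg.Statements.S1134
import Cfsg.Agent.H24.RankOneR

set_option autoImplicit false
open Cfsg

namespace Cfsg.Agent.S1134

open H24 H24.RankOne MulAction in
/-- In the rank-one set-up (`G` finite and doubly transitive on `Ω`, `t` an involution moving `a`, `Q` normal in `G_a` with `G_a = Q D`, `Q ⊓ D = 1` for the two-point stabiliser `D = G_a ⊓ G_{t • a}`, `|Q|` even, `|D|` odd), with the action faithful and `G` containing two distinct commuting involutions, with `V = C_D(t)`: subsets of `V` conjugate in `G` are conjugate in `V`. -/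
theorem result {G Ω : Type*} [Group G] [Finite G] [MulAction G Ω] [FaithfulSMul G Ω] {a : Ω} {t : G} {Q : Subgroup G}
    (hS : Cfsg.IsRankOneSetup G Ω a t Q)
    (h2 : ∃ x y : G, x ≠ 1 ∧ y ≠ 1 ∧ x ≠ y ∧ x * x = 1 ∧ y * y = 1 ∧ x * y = y * x)
    (X : Set G) (hX : X ⊆ (((MulAction.stabilizer G a ⊓ MulAction.stabilizer G (t • a)) ⊓ Subgroup.centralizer {t} : Subgroup G) : Set G)) (g : G)
    (hY : (fun x => g * x * g⁻¹) '' X ⊆ (((MulAction.stabilizer G a ⊓ MulAction.stabilizer G (t • a)) ⊓ Subgroup.centralizer {t} : Subgroup G) : Set G)) :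
    ∃ v ∈ (MulAction.stabilizer G a ⊓ MulAction.stabilizer G (t • a)) ⊓ Subgroup.centralizer {t}, (fun x => v * x * v⁻¹) '' X = (fun x => g * x * g⁻¹) '' X := by
  obtain ⟨c, hc⟩ := invol_exists_fix hS hS.mul_self
  have hca : c ≠ a := fun h => tsmul_ne hS (h ▸ hc)
  have hcb : c ≠ t • a := by
    intro h
    rw [h] at hc
    exact tsmul_ne hS (smul_left_cancel t hc)
  have hXD : ∀ x ∈ X, x ∈ stabilizer G a ⊓ stabilizer G (t • a) :=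
    fun x hx => (Subgroup.mem_inf.mp (hX hx)).1
  have hXt : ∀ x ∈ X, x * t = t * x := fun x hx =>
    ((Subgroup.mem_centralizer_iff.mp (Subgroup.mem_inf.mp (hX hx)).2) t rfl).symm
  have hXa : ∀ x ∈ X, x • a = a := fun x hx => (Subgroup.mem_inf.mp (hXD x hx)).1
  have hXb : ∀ x ∈ X, x • (t • a) = t • a := fun x hx => (Subgroup.mem_inf.mp (hXD x hx)).2
  have hXc : ∀ x ∈ X, x • c = c := fun x hx => smul_eq_of_comm_t hS hc (hXt x hx)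
  have h3 : ∃ b c d : Ω, b ≠ c ∧ b ≠ d ∧ c ≠ d ∧ ∀ x ∈ X, x • b = b ∧ x • c = c ∧ x • d = d :=
    ⟨a, t • a, c, Ne.symm (tsmul_ne hS), Ne.symm hca, Ne.symm hcb,
      fun x hx => ⟨hXa x hx, hXb x hx, hXc x hx⟩⟩
  have hYmem : ∀ x ∈ X, g * x * g⁻¹ ∈
      (stabilizer G a ⊓ stabilizer G (t • a)) ⊓ Subgroup.centralizer {t} :=
    fun x hx => hY ⟨x, hx, rfl⟩
  have hYa : ∀ x ∈ X, x • (g⁻¹ • a) = g⁻¹ • a := by
    intro x hx
    have h1 : (g * x * g⁻¹) • a = a := (Subgroup.mem_inf.mp (Subgroup.mem_inf.mp (hYmem x hx)).1).1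
    simp only [mul_smul] at h1
    have h4 := congrArg (fun w => g⁻¹ • w) h1
    simpa using h4
  have hYb : ∀ x ∈ X, x • (g⁻¹ • (t • a)) = g⁻¹ • (t • a) := by
    intro x hx
    have h1 : (g * x * g⁻¹) • (t • a) = t • a :=
      (Subgroup.mem_inf.mp (Subgroup.mem_inf.mp (hYmem x hx)).1).2
    simp only [mul_smul] at h1
    have h4 := congrArg (fun w => g⁻¹ • w) h1
    simpa using h4
  have hne : g⁻¹ • a ≠ g⁻¹ • (t • a) := by
    intro h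
    exact tsmul_ne hS (smul_left_cancel g⁻¹ h).symm
  obtain ⟨h, hhC, hha, hhb⟩ := centralizer_two_trans hS h3 hYa hYb hXa hXb hne
    (Ne.symm (tsmul_ne hS))
  have hhx : ∀ x ∈ X, x * h = h * x := fun x hx => (Subgroup.mem_centralizer_iff.mp hhC) x hx
  have hhx' : ∀ x ∈ X, h⁻¹ * x * h = x := by
    intro x hx
    rw [mul_assoc, hhx x hx]; group
  have hg'a : (g * h⁻¹) • a = a := by
    rw [mul_smul, inv_smul_eq_iff.mpr hha.symm, smul_inv_smul]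
  have hg'b : (g * h⁻¹) • (t • a) = t • a := by
    rw [mul_smul, inv_smul_eq_iff.mpr hhb.symm, smul_inv_smul]
  have hg'inva : (g * h⁻¹)⁻¹ • a = a := by rw [inv_smul_eq_iff, hg'a]
  have hg'invb : (g * h⁻¹)⁻¹ • (t • a) = t • a := by rw [inv_smul_eq_iff, hg'b]
  have hconj : ∀ x ∈ X, (g * h⁻¹) * x * (g * h⁻¹)⁻¹ = g * x * g⁻¹ := by
    intro x hx
    calc (g * h⁻¹) * x * (g * h⁻¹)⁻¹ = g * (h⁻¹ * x * h) * g⁻¹ := by group
      _ = g * x * g⁻¹ := by rw [hhx' x hx]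
  -- t' = g'⁻¹ t g'
  have ht'2 : ((g * h⁻¹)⁻¹ * t * (g * h⁻¹)) * ((g * h⁻¹)⁻¹ * t * (g * h⁻¹)) = 1 := by
    calc ((g * h⁻¹)⁻¹ * t * (g * h⁻¹)) * ((g * h⁻¹)⁻¹ * t * (g * h⁻¹))
        = (g * h⁻¹)⁻¹ * (t * t) * (g * h⁻¹) := by group
      _ = 1 := by rw [hS.mul_self]; group
  have ht'a : ((g * h⁻¹)⁻¹ * t * (g * h⁻¹)) • a = t • a := by
    rw [mul_smul, mul_smul, hg'a, hg'invb]
  have ht'X : ∀ x ∈ X, x * ((g * h⁻¹)⁻¹ * t * (g * h⁻¹)) = ((g * h⁻¹)⁻¹ * t * (g * h⁻¹)) * x := by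
    intro x hx
    have h1 : (g * x * g⁻¹) * t = t * (g * x * g⁻¹) :=
      ((Subgroup.mem_centralizer_iff.mp (Subgroup.mem_inf.mp (hYmem x hx)).2) t rfl).symm
    rw [← hconj x hx] at h1
    calc x * ((g * h⁻¹)⁻¹ * t * (g * h⁻¹))
        = (g * h⁻¹)⁻¹ * (((g * h⁻¹) * x * (g * h⁻¹)⁻¹) * t) * (g * h⁻¹) := by group
      _ = (g * h⁻¹)⁻¹ * (t * ((g * h⁻¹) * x * (g * h⁻¹)⁻¹)) * (g * h⁻¹) := by rw [h1]
      _ = ((g * h⁻¹)⁻¹ * t * (g * h⁻¹)) * x := by group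
  obtain ⟨n, hl, hlt⟩ := exists_pow_conj_eq_t hS ht'2 ht'a
  have hlX : ∀ x ∈ X, x * (t * ((g * h⁻¹)⁻¹ * t * (g * h⁻¹))) ^ n =
      (t * ((g * h⁻¹)⁻¹ * t * (g * h⁻¹))) ^ n * x := by
    intro x hx
    have h1 : Commute x (t * ((g * h⁻¹)⁻¹ * t * (g * h⁻¹))) :=
      Commute.mul_right (hXt x hx) (ht'X x hx)
    exact h1.pow_right n
  generalize (t * ((g * h⁻¹)⁻¹ * t * (g * h⁻¹))) ^ n = l at hl hlt hlX
  have hlD := hl.1
  have hla : l • a = a := (Subgroup.mem_inf.mp hlD).1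
  have hlb : l • (t • a) = t • a := (Subgroup.mem_inf.mp hlD).2
  have hlinva : l⁻¹ • a = a := by rw [inv_smul_eq_iff, hla]
  have hlinvb : l⁻¹ • (t • a) = t • a := by rw [inv_smul_eq_iff, hlb]
  refine ⟨(g * h⁻¹) * l⁻¹, ?_, ?_⟩
  · refine Subgroup.mem_inf.mpr ⟨Subgroup.mem_inf.mpr ⟨?_, ?_⟩, ?_⟩
    · rw [mem_stabilizer_iff, mul_smul, hlinva, hg'a]
    · rw [mem_stabilizer_iff, mul_smul, hlinvb, hg'b]
    · rw [Subgroup.mem_centralizer_iff]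
      intro w hw
      rw [Set.mem_singleton_iff] at hw
      subst hw
      have h1 : (g * h⁻¹) * l⁻¹ * w * ((g * h⁻¹) * l⁻¹)⁻¹ = w := by
        calc (g * h⁻¹) * l⁻¹ * w * ((g * h⁻¹) * l⁻¹)⁻¹
            = (g * h⁻¹) * (l⁻¹ * w * l) * (g * h⁻¹)⁻¹ := by group
          _ = (g * h⁻¹) * (l⁻¹ * (l * ((g * h⁻¹)⁻¹ * w * (g * h⁻¹)) * l⁻¹) * l) * (g * h⁻¹)⁻¹ := by
              rw [hlt]
          _ = w := by group
      calc w * ((g * h⁻¹) * l⁻¹) = ((g * h⁻¹) * l⁻¹ * w * ((g * h⁻¹) * l⁻¹)⁻¹) * ((g * h⁻¹) * l⁻¹) := by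
            rw [h1]
        _ = (g * h⁻¹) * l⁻¹ * w := by group
  · apply Set.image_congr
    intro x hx
    have h1 : l⁻¹ * x * l = x := by
      rw [mul_assoc, hlX x hx]; group
    calc (g * h⁻¹) * l⁻¹ * x * ((g * h⁻¹) * l⁻¹)⁻¹ = (g * h⁻¹) * (l⁻¹ * x * l) * (g * h⁻¹)⁻¹ := by
          group
      _ = g * x * g⁻¹ := by rw [h1, hconj x hx]

end Cfsg.Agent.S1134
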