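import Cfsg.Statements.S1135
import Cfsg.Agent.H24.RankOneR

set_option autoImplicit false
open Cfsg

namespace Cfsg.Agent.S1135

/-- In the rank-one set-up (`G` finite and doubly transitive on `Ω`, `t` an involution moving `a`, `Q` normal in `G_a` with `G_a = Q D`, `Q ⊓ D = 1` for the two-point stabiliser `D = G_a ⊓ G_{t • a}`, `|Q|` even, `|D|` odd), with the action faithful and `G` containing two distinct commuting involutions: if `x = u v` with `u, v` involutions and `x² ≠ 1`, then `x` is conjugate to `u' t` for some involution `u'` of `G_a`, and `|C_G(x)|` is odd. -/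
theorem result {G Ω : Type*} [Group G] [Finite G] [MulAction G Ω] [FaithfulSMul G Ω] {a : Ω} {t : G} {Q : Subgroup G}
    (hS : Cfsg.IsRankOneSetup G Ω a t Q)
    (h2 : ∃ x y : G, x ≠ 1 ∧ y ≠ 1 ∧ x ≠ y ∧ x * x = 1 ∧ y * y = 1 ∧ x * y = y * x)
    (u v : G) (hu1 : u ≠ 1) (hu2 : u * u = 1) (hv1 : v ≠ 1) (hv2 : v * v = 1) (hx : (u * v) * (u * v) ≠ 1) :
    (∃ g : G, ∃ u' ∈ Cfsg.involutionsIn (MulAction.stabilizer G a : Set G), g * (u * v) * g⁻¹ = u' * t) ∧
      Odd (Nat.card ↥(Subgroup.centralizer {u * v})) :=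
  ⟨H24.RankOne.exists_conj_eq_mul_t hS hu1 hu2 hv1 hv2 hx,
    H24.RankOne.odd_card_centralizer hS hu1 hu2 hv1 hv2 hx⟩

end Cfsg.Agent.S1135
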