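import Cfsg.Statements.S1140
import Cfsg.Agent.H24.FieldAut

set_option autoImplicit false
open Cfsg

namespace Cfsg.Agent.S1140

/-- For a finite field `F` of characteristic 2, the automorphisms of `F`, viewed as additive maps `F → F`, are linearly independent over `F` (acting on values) every additive endomorphism of `F` is an `F`-linear combination of them, and every biadditive map `F → F → F` is an `F`-combination of the maps `(x, y) ↦ σ(x) τ(y)`. -/
theorem result {F : Type*} [Field F] [Fintype F] [CharP F 2] :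
    LinearIndependent F (fun σ : F ≃+* F => ((σ : F →+* F) : F → F)) ∧
      (∀ f : F →+ F, ∃ (s : Finset (F ≃+* F)) (c : (F ≃+* F) → F), ∀ x : F, f x = ∑ σ ∈ s, c σ * σ x) ∧
      ∀ B : F →+ F →+ F, ∃ (s : Finset ((F ≃+* F) × (F ≃+* F))) (c : (F ≃+* F) × (F ≃+* F) → F),
        ∀ x y : F, B x y = ∑ p ∈ s, c p * (p.1 x * p.2 y) := by
  classical
  obtain ⟨ι, _, E, coef, hcoef⟩ := H24.exists_aut_coef F
  have key : ∀ f : F →+ F, ∀ x : F,
      f x = ∑ σ ∈ Finset.univ.map E.toEmbedding, coef f (E.symm σ) * σ x := by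
    intro f x
    rw [Finset.sum_map, hcoef f x]
    apply Finset.sum_congr rfl
    intro i _
    simp
  refine ⟨?_, ?_, ?_⟩
  · exact (linearIndependent_monoidHom F F).comp
      (fun σ : F ≃+* F => ((σ : F →+* F) : F →* F))
      (fun σ τ h => by ext x; exact DFunLike.congr_fun h x)
  · intro f
    exact ⟨Finset.univ.map E.toEmbedding, fun σ => coef f (E.symm σ), key f⟩
  · intro B
    let k : ι → (F →+ F) := fun i => ((Pi.evalAddMonoidHom (fun _ : ι => F) i).comp coef).comp B
    refine ⟨(Finset.univ.map E.toEmbedding) ×ˢ (Finset.univ.map E.toEmbedding),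
      fun p => coef (k (E.symm p.2)) (E.symm p.1), ?_⟩
    intro x y
    rw [Finset.sum_product, Finset.sum_comm, key (B x) y]
    apply Finset.sum_congr rfl
    intro σ _
    have h1 : coef (B x) (E.symm σ) = k (E.symm σ) x := rfl
    rw [h1, key (k (E.symm σ)) x, Finset.sum_mul]
    apply Finset.sum_congr rfl
    intro τ _
    ring

end Cfsg.Agent.S1140
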