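import Cfsg.Statements.S1142
import Cfsg.Agent.H95.FHMain
import Cfsg.Agent.H95.FHExist
import Cfsg.Agent.H95.FHMult
import Cfsg.Agent.H51.FHNT2
import Cfsg.Agent.H51.FHDIH
import Cfsg.Agent.Lib.Helper96.FHRow
import Cfsg.Agent.Lib.Helper96.FHAlg
import Cfsg.Agent.H8.FHBN
import Cfsg.Agent.H8.FHQuant1
import Cfsg.Agent.H32.FHSPEC2
import Cfsg.Agent.H32.FHSPEC
import Cfsg.Agent.H12.FHGam
import Cfsg.Agent.H12.FHExpand
import Cfsg.Agent.H80.FHNT1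
import Cfsg.Agent.H80.FHCHEB
import Cfsg.Agent.H80.FHNTODD
import Cfsg.Agent.H52.FHOrb
import Cfsg.Agent.H7.FHLW
import Cfsg.Agent.H50.FHQuant2
import Cfsg.Agent.H23.FHTRIGE
import Cfsg.Agent.H23.FHTRIGO
import Cfsg.Agent.H14.FHNTEVEN

/-!
# S1142: Feit–Higman for (B,N)-pairs of rank 2

Team project led by helper95; the pieces (statements in `Cfsg.Agent.H95.FHDefs`) were proved by
helper7 (LW), helper8 (BN, QUANT1), helper12 (GAM, EXPAND), helper14 (NTEVEN), helper23 (TRIGE,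
TRIGO), helper32 (SPEC, SPEC2), helper50 (QUANT2), helper51 (DIH, NT2), helper52 (ORB),
helper80 (NT1, CHEB, NTODD), helper96 (ROW, ALG) and helper95 (EXIST, MULT, assembly).
-/

set_option autoImplicit false
open Cfsg

namespace Cfsg.Agent.S1142

/-- Feit–Higman: if a finite group has a (B,N)-pair of rank 2, its Weyl group `N/(B ⊓ N)` has order 4, 6, 8, 12 or 16. -/
theorem result {G : Type*} [Group G] [Finite G] (P : Cfsg.BNPair G)
    (h2 : P.rank = 2) :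
    ((P.B ⊓ P.N).subgroupOf P.N).index ∈ ({4, 6, 8, 12, 16} : Set ℕ) := by
  have row := @Cfsg.Agent.Lib.Helper96.FH.row
  have lw := @Cfsg.Agent.H7.FH.lw row
  exact Cfsg.Agent.H95.FH.main
    (@Cfsg.Agent.H8.FH.bn @Cfsg.Agent.H51.FH.dih @Cfsg.Agent.H52.FH.orb) row
    (Cfsg.Agent.H95.FH.exist row @Cfsg.Agent.H8.FH.quant1
      (Cfsg.Agent.H50.FH.quant2 Cfsg.Agent.H80.FH.cheb) @Cfsg.Agent.H32.FH.spec2 lw)
    (Cfsg.Agent.H95.FH.mult @Cfsg.Agent.Lib.Helper96.FH.alg (@Cfsg.Agent.H12.FH.expand row)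
      @Cfsg.Agent.H32.FH.spec)
    (Cfsg.Agent.H23.FH.trigE Cfsg.Agent.H12.FH.gamStmt)
    (Cfsg.Agent.H23.FH.trigO Cfsg.Agent.H12.FH.gamStmt) Cfsg.Agent.H14.FH.nteven
    (Cfsg.Agent.H80.FH.ntodd Cfsg.Agent.H80.FH.nt1 Cfsg.Agent.H51.FH.nt2) P h2

end Cfsg.Agent.S1142
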