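import Cfsg.Statements.S1151
import Cfsg.Agent.H96.G2L.G2Facts
import Cfsg.Agent.H22.ReeCtx
import Cfsg.Agent.H22.ReeC

set_option autoImplicit false
open Cfsg

namespace Cfsg.Agent.S1151

/-- In the small Ree group ²G₂(q), q = 3^(2m+1), realised as G¹ inside the Chevalley group G₂ over the field with q elements (θ the 3^m-th power map), with H¹ = G¹ ∩ H and U¹ = G¹ ∩ U the intersections with the ambient diagonal and positive unipotent subgroups: `H¹` has exactly `(q - 1)/2` elements of odd order, and each non-identity one centralises no non-identity element of `U¹`. -/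
theorem result {K : Type*} [Field K] [Fintype K] {m : ℕ} (hK : Fintype.card K = 3 ^ (2 * m + 1)) :
    2 * Nat.card {h : ↥(Cfsg.Lie.chevG2.diagonalSubgroup K ⊓ Cfsg.Lie.twistedG2 K (3 ^ m)) // Odd (orderOf h)} = 3 ^ (2 * m + 1) - 1 ∧
      ∀ h ∈ (Cfsg.Lie.chevG2.diagonalSubgroup K ⊓ Cfsg.Lie.twistedG2 K (3 ^ m)), h ≠ 1 → Odd (orderOf h) →
        (Cfsg.Lie.chevG2.posUnipotent K ⊓ Cfsg.Lie.twistedG2 K (3 ^ m)) ⊓ Subgroup.centralizer {h} = ⊥ := by
  have hc : CharP K 3 := Cfsg.Agent.H22.Ree.charP_three_of_card hK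
  obtain ⟨C⟩ := Cfsg.Agent.H22.Ree.exists_ctx hK (Cfsg.Agent.H96.G2L.steinberg_G2 K)
    (Cfsg.Agent.H96.G2L.factor_G2 (F := K)).1
  constructor
  · have hmod := Cfsg.Agent.H22.Ree.card_mod_four m
    have hk : Odd ((3 ^ (2 * m + 1) - 1) / 2) := by rw [Nat.odd_iff]; omega
    have h2k : 3 ^ (2 * m + 1) - 1 = 2 * ((3 ^ (2 * m + 1) - 1) / 2) := by omega
    have := C.H1_cyclic
    have h := Cfsg.Agent.H22.Ree.two_mul_card_odd_order
      (G := ↥(Cfsg.Lie.chevG2.diagonalSubgroup K ⊓ Cfsg.Lie.twistedG2 K (3 ^ m))) _ hk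
      (by rw [C.card_H1 hK]; exact h2k)
    rw [h, ← h2k]
  · intro h hh hne hodd
    rw [eq_bot_iff]
    rintro u ⟨⟨huU, -⟩, huc⟩
    rw [Subgroup.mem_bot]
    refine C.centralizer_trivial h u hh ?_ huU ?_
    · intro h2
      have hd : orderOf h ∣ 2 := orderOf_dvd_of_pow_eq_one (by rw [pow_two]; exact h2)
      have h1 : orderOf h = 1 := by
        rcases (Nat.dvd_prime Nat.prime_two).mp hd with h1 | h1
        · exact h1
        · rw [h1] at hodd; exact absurd hodd (by decide)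
      exact hne (orderOf_eq_one_iff.mp h1)
    · exact (Subgroup.mem_centralizer_iff.mp huc) h rfl

end Cfsg.Agent.S1151
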