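import Cfsg.Statements.S1160
import Cfsg.Agent.S0126
import Cfsg.Agent.H25.ConstStab2
import Cfsg.Agent.H25.CycSub

set_option autoImplicit false
open Cfsg

namespace Cfsg.Agent.S1160

/-- Let `p ≠ 2` be prime and `P` a finite `p`-group acting faithfully by additive automorphisms on a finite elementary abelian `q`-group `E` (`q` prime), such that `|P_a|` is the same for all `a ≠ 0`. Then `P` is cyclic and every non-identity element of `P` fixes only `0`. -/
theorem result {P E : Type*} [Group P] [Finite P]
    [AddCommGroup E] [Finite E] [DistribMulAction P E] [FaithfulSMul P E]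
    {p q : ℕ} [Fact p.Prime] (hp2 : p ≠ 2) (hP : IsPGroup p P) (hq : q.Prime) (hE : ∀ e : E, q • e = 0)
    (hconst : ∀ a b : E, a ≠ 0 → b ≠ 0 →
      Nat.card (MulAction.stabilizer P a) = Nat.card (MulAction.stabilizer P b)) :
    IsCyclic P ∧ ∀ g : P, g ≠ 1 → ∀ a : E, g • a = a → a = 0 := by
  have hpp : p.Prime := Fact.out
  by_cases hqp : q = p
  · -- `P` is trivial
    subst hqp
    have htriv : ∀ g : P, g = 1 := by
      intro g
      apply FaithfulSMul.eq_of_smul_eq_smul (α := E)
      intro e
      rw [one_smul]
      by_cases hex : ∃ e0 : E, e0 ≠ 0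
      · obtain ⟨e0, he0⟩ := hex
        have hdvd : q ∣ Nat.card E := by
          have h1 : addOrderOf e0 = q := addOrderOf_eq_prime (hE e0) he0
          rw [← h1]; exact addOrderOf_dvd_natCard e0
        have h0 : (0 : E) ∈ MulAction.fixedPoints P E := fun g => smul_zero g
        obtain ⟨b, hb, hb0⟩ := hP.exists_fixed_point_of_prime_dvd_card_of_fixed_point E hdvd h0
        have hbtop : MulAction.stabilizer P b = ⊤ := by
          rw [eq_top_iff]; intro g _; exact hb g
        by_cases he : e = 0
        · rw [he, smul_zero]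
        · have hc := hconst e b he (Ne.symm hb0)
          rw [hbtop, Subgroup.card_top] at hc
          have htop : MulAction.stabilizer P e = ⊤ := Subgroup.eq_top_of_card_eq _ hc
          have hmem : g ∈ MulAction.stabilizer P e := by rw [htop]; exact Subgroup.mem_top g
          exact hmem
      · push Not at hex
        rw [hex e, smul_zero]
    have hsub : Subsingleton P := ⟨fun a b => by rw [htriv a, htriv b]⟩
    exact ⟨isCyclic_of_subsingleton, fun g hg => absurd (htriv g) hg⟩
  · have hcop : Nat.Coprime p q := (Nat.coprime_primes hpp hq).mpr (Ne.symm hqp)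
    have hpinj : ∀ v : E, p • v = 0 → v = 0 := by
      intro v hv
      have h1 : addOrderOf v ∣ p := addOrderOf_dvd_of_nsmul_eq_zero hv
      have h2 : addOrderOf v ∣ q := addOrderOf_dvd_of_nsmul_eq_zero (hE v)
      have h3 : addOrderOf v = 1 := Nat.eq_one_of_dvd_coprimes hcop h1 h2
      exact AddMonoid.addOrderOf_eq_one_iff.mp h3
    have hcyc : IsCyclic P := by
      by_contra hnc
      obtain ⟨A, hAn, hAe, hAc⟩ := Cfsg.Agent.S0126.result hp2 hP hnc
      exact Cfsg.Agent.H25.no_normal_rank_two p hp2 hP hpinj hconst A hAn hAe.2 hAc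
    refine ⟨hcyc, ?_⟩
    intro g hg a hga
    by_contra ha
    apply hg
    apply FaithfulSMul.eq_of_smul_eq_smul (α := E)
    intro b
    rw [one_smul]
    by_cases hb : b = 0
    · rw [hb, smul_zero]
    · have heq : MulAction.stabilizer P b = MulAction.stabilizer P a :=
        Cfsg.Agent.H25.cyclic_subgroup_eq_of_card_eq hcyc _ _ (hconst b a hb ha)
      have hmem : g ∈ MulAction.stabilizer P b := by rw [heq]; exact hga
      exact hmem

end Cfsg.Agent.S1160
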