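import Cfsg.Statements.S1163
import Cfsg.Agent.H8.SzLie2

set_option autoImplicit false
open Cfsg

namespace Cfsg.Agent.S1163

/-- For the Suzuki group Sz(q), q = 2^(2m+1) ≥ 8, realised as the elements g of Sp₄(F) with g* = g^θ (θ the 2^(m+1)-th power map, so that θ² is squaring): `|Sz(q)| = q² (q - 1) (q² + 1)`, and there is a Sylow 2-subgroup `S` whose normaliser `H` has order `q²(q-1)` and index `q² + 1`, the action of `Sz(q)` on the cosets of `H` is doubly transitive, and `S` acts regularly on the cosets other than `H` itself. -/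
theorem result {F : Type*} [Field F] [Fintype F] {m : ℕ} (hm : 1 ≤ m) (hF : Fintype.card F = 2 ^ (2 * m + 1)) :
    Nat.card ↥(Cfsg.Lie.Sz F (2 ^ (m + 1))) = (2 ^ (2 * m + 1)) ^ 2 * (2 ^ (2 * m + 1) - 1) * ((2 ^ (2 * m + 1)) ^ 2 + 1) ∧
    ∃ S : Sylow 2 ↥(Cfsg.Lie.Sz F (2 ^ (m + 1))),
      Nat.card (Subgroup.normalizer ((S : Subgroup ↥(Cfsg.Lie.Sz F (2 ^ (m + 1)))) : Set ↥(Cfsg.Lie.Sz F (2 ^ (m + 1))))) = (2 ^ (2 * m + 1)) ^ 2 * (2 ^ (2 * m + 1) - 1) ∧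
      (Subgroup.normalizer ((S : Subgroup ↥(Cfsg.Lie.Sz F (2 ^ (m + 1)))) : Set ↥(Cfsg.Lie.Sz F (2 ^ (m + 1))))).index = (2 ^ (2 * m + 1)) ^ 2 + 1 ∧
      MulAction.IsMultiplyPretransitive ↥(Cfsg.Lie.Sz F (2 ^ (m + 1))) (↥(Cfsg.Lie.Sz F (2 ^ (m + 1))) ⧸ Subgroup.normalizer ((S : Subgroup ↥(Cfsg.Lie.Sz F (2 ^ (m + 1)))) : Set ↥(Cfsg.Lie.Sz F (2 ^ (m + 1))))) 2 ∧
      ∀ x y : ↥(Cfsg.Lie.Sz F (2 ^ (m + 1))) ⧸ Subgroup.normalizer ((S : Subgroup ↥(Cfsg.Lie.Sz F (2 ^ (m + 1)))) : Set ↥(Cfsg.Lie.Sz F (2 ^ (m + 1)))),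
        x ≠ (QuotientGroup.mk 1) → y ≠ (QuotientGroup.mk 1) → ∃! s : ↥(S : Subgroup ↥(Cfsg.Lie.Sz F (2 ^ (m + 1)))), (s : ↥(Cfsg.Lie.Sz F (2 ^ (m + 1)))) • x = y := by
  exact ⟨Cfsg.Agent.H8.lieSz_card hm hF, Cfsg.Agent.H8.lieSz_cosetProp hm hF⟩

end Cfsg.Agent.S1163
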