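import Cfsg.Statements.S1165
import Cfsg.Agent.H25.RankOne

set_option autoImplicit false
open Cfsg

namespace Cfsg.Agent.S1165

open Cfsg.Agent.H25

/-- In the rank-one set-up (`G` finite and doubly transitive on `Ω`, `t` an involution moving `a`, `Q` normal in `G_a` with `G_a = Q D`, `Q ⊓ D = 1` for the two-point stabiliser `D = G_a ⊓ G_{t • a}`, `|Q|` even, `|D|` odd): every `x ∈ Q`, `x ≠ 1`, determines unique `g, f ∈ Q`, `h ∈ D` with `t x t = g h t f` (a consequence of the canonical form). For these: (H1) the `f`-part of `x⁻¹` is `g⁻¹`; (H2) the `f`-part of `f` is `x`; (H3) for `a ∈ D` the `f`-part of `a⁻¹ x a` is `(t a t)⁻¹ f (t a t)`; (H4) the `h`-part of `a⁻¹ x a` is `(t a t)⁻¹ h a`, that of `x⁻¹` is `t h⁻¹ t`, and that of `f` is `h⁻¹`. -/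
theorem result {G Ω : Type*} [Group G] [Finite G] [MulAction G Ω] {a : Ω} {t : G} {Q : Subgroup G}
    (hS : Cfsg.IsRankOneSetup G Ω a t Q)
    (x g h f : G) (hx : x ∈ Q) (hx1 : x ≠ 1) (hg : g ∈ Q) (hh : h ∈ (MulAction.stabilizer G a ⊓ MulAction.stabilizer G (t • a))) (hf : f ∈ Q)
    (heq : t * x * t = g * h * t * f) :
    (∀ g₁ h₁ f₁ : G, g₁ ∈ Q → h₁ ∈ (MulAction.stabilizer G a ⊓ MulAction.stabilizer G (t • a)) → f₁ ∈ Q → t * x⁻¹ * t = g₁ * h₁ * t * f₁ →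
        f₁ = g⁻¹ ∧ h₁ = t * h⁻¹ * t) ∧
      (∀ g₂ h₂ f₂ : G, g₂ ∈ Q → h₂ ∈ (MulAction.stabilizer G a ⊓ MulAction.stabilizer G (t • a)) → f₂ ∈ Q → t * f * t = g₂ * h₂ * t * f₂ →
        f₂ = x ∧ h₂ = h⁻¹) ∧
      ∀ c ∈ (MulAction.stabilizer G a ⊓ MulAction.stabilizer G (t • a)), ∀ g₃ h₃ f₃ : G, g₃ ∈ Q → h₃ ∈ (MulAction.stabilizer G a ⊓ MulAction.stabilizer G (t • a)) → f₃ ∈ Q →
        t * (c⁻¹ * x * c) * t = g₃ * h₃ * t * f₃ →
          f₃ = (t * c * t)⁻¹ * f * (t * c * t) ∧ h₃ = (t * c * t)⁻¹ * h * c := by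
  have hti := rankOne_t_inv hS
  have htt := hS.mul_self
  have hDa : ∀ {y : G}, y ∈ MulAction.stabilizer G a ⊓ MulAction.stabilizer G (t • a) →
      y ∈ MulAction.stabilizer G a := fun hy => (Subgroup.mem_inf.mp hy).1
  refine ⟨?_, ?_, ?_⟩
  · intro g₁ h₁ f₁ hg₁ hh₁ hf₁ e
    have e' : g₁ * h₁ * t * f₁ = f⁻¹ * (t * h⁻¹ * t) * t * g⁻¹ := by
      rw [← e]
      calc t * x⁻¹ * t = (t * x * t)⁻¹ := by rw [mul_inv_rev, mul_inv_rev, hti, mul_assoc]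
        _ = (g * h * t * f)⁻¹ := by rw [heq]
        _ = f⁻¹ * t * h⁻¹ * (t * t) * g⁻¹ := by rw [htt, mul_inv_rev, mul_inv_rev, mul_inv_rev, hti]; group
        _ = f⁻¹ * (t * h⁻¹ * t) * t * g⁻¹ := by group
    obtain ⟨r1, r2, -⟩ := rankOne_unique hS hg₁ hh₁ hf₁ (Q.inv_mem hf)
      (rankOne_conj_mem_D hS (Subgroup.inv_mem _ hh)) (Q.inv_mem hg) e'
    exact ⟨r1, r2⟩
  · intro g₂ h₂ f₂ hg₂ hh₂ hf₂ e
    have e' : g₂ * h₂ * t * f₂ = (h⁻¹ * g⁻¹ * (h⁻¹)⁻¹) * h⁻¹ * t * x := by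
      rw [← e]
      have hf' : f = t * h⁻¹ * g⁻¹ * (t * x * t) := by
        rw [heq]
        calc f = (t * t) * f := by rw [htt, one_mul]
          _ = t * h⁻¹ * g⁻¹ * (g * h * t * f) := by group
      calc t * f * t = t * (t * h⁻¹ * g⁻¹ * (t * x * t)) * t := by rw [← hf']
        _ = (t * t) * h⁻¹ * g⁻¹ * t * x * (t * t) := by group
        _ = (h⁻¹ * g⁻¹ * (h⁻¹)⁻¹) * h⁻¹ * t * x := by rw [htt]; group
    have hgQ : h⁻¹ * g⁻¹ * (h⁻¹)⁻¹ ∈ Q :=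
      hS.conj_mem _ (Subgroup.inv_mem _ (hDa hh)) _ (Q.inv_mem hg)
    obtain ⟨r1, r2, -⟩ := rankOne_unique hS hg₂ hh₂ hf₂ hgQ (Subgroup.inv_mem _ hh) hx e'
    exact ⟨r1, r2⟩
  · intro c hc g₃ h₃ f₃ hg₃ hh₃ hf₃ e
    have hc' := rankOne_conj_mem_D hS hc
    have e' : g₃ * h₃ * t * f₃ = ((t * c * t)⁻¹ * g * ((t * c * t)⁻¹)⁻¹) * ((t * c * t)⁻¹ * h * c) * t
        * ((t * c * t)⁻¹ * f * ((t * c * t)⁻¹)⁻¹) := by
      rw [← e]
      have i1 : (t * c * t)⁻¹ = t * c⁻¹ * t := by rw [mul_inv_rev, mul_inv_rev, hti, mul_assoc]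
      calc t * (c⁻¹ * x * c) * t = (t * c⁻¹ * t) * (t * x * t) * (t * c * t) := by
            have : (t * c⁻¹ * t) * (t * x * t) * (t * c * t)
                = t * c⁻¹ * (t * t) * x * (t * t) * c * t := by group
            rw [this, htt]; group
        _ = (t * c⁻¹ * t) * (g * h * t * f) * (t * c * t) := by rw [heq]
        _ = (t * c⁻¹ * t) * g * (t * c * t) * ((t * c⁻¹ * t) * h * c) * t * ((t * c⁻¹ * t) * f * (t * c * t)) := by
            have : (t * c⁻¹ * t) * g * (t * c * t) * ((t * c⁻¹ * t) * h * c) * t * ((t * c⁻¹ * t) * f * (t * c * t))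
                = (t * c⁻¹ * t) * g * (t * c * (t * t) * c⁻¹ * t) * h * c * (t * (t * c⁻¹ * t)) * f * (t * c * t) := by group
            rw [this, htt]
            have h2 : t * (t * c⁻¹ * t) = (t * t) * c⁻¹ * t := by group
            rw [h2, htt]
            have h3 : t * c * 1 * c⁻¹ * t = t * t := by group
            rw [h3, htt]
            group
        _ = ((t * c * t)⁻¹ * g * ((t * c * t)⁻¹)⁻¹) * ((t * c * t)⁻¹ * h * c) * t
              * ((t * c * t)⁻¹ * f * ((t * c * t)⁻¹)⁻¹) := by rw [inv_inv, i1]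
    have hgQ : (t * c * t)⁻¹ * g * ((t * c * t)⁻¹)⁻¹ ∈ Q :=
      hS.conj_mem _ (Subgroup.inv_mem _ (hDa hc')) _ hg
    have hfQ : (t * c * t)⁻¹ * f * ((t * c * t)⁻¹)⁻¹ ∈ Q :=
      hS.conj_mem _ (Subgroup.inv_mem _ (hDa hc')) _ hf
    have hhD : (t * c * t)⁻¹ * h * c ∈ MulAction.stabilizer G a ⊓ MulAction.stabilizer G (t • a) :=
      Subgroup.mul_mem _ (Subgroup.mul_mem _ (Subgroup.inv_mem _ hc') hh) hc
    obtain ⟨r1, r2, -⟩ := rankOne_unique hS hg₃ hh₃ hf₃ hgQ hhD hfQ e'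
    rw [inv_inv] at r1
    exact ⟨r1, r2⟩

end Cfsg.Agent.S1165
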