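import Cfsg.Statements.S1166
import Cfsg.Agent.H25.RankOne

set_option autoImplicit false
open Cfsg

namespace Cfsg.Agent.S1166

open Cfsg.Agent.H25

/-- In the rank-one set-up (`G` finite and doubly transitive on `Ω`, `t` an involution moving `a`, `Q` normal in `G_a` with `G_a = Q D`, `Q ⊓ D = 1` for the two-point stabiliser `D = G_a ⊓ G_{t • a}`, `|Q|` even, `|D|` odd), with `t x t = g_x h_x t f_x` and `t y t = g_y h_y t f_y` (`g, f ∈ Q`, `h ∈ D`) for `x, y ∈ Q ∖ 1` with `x y ≠ 1`: then `z = f_x g_y ≠ 1`, and if `t z t = g_z h_z t f_z` and `t (x y) t = g' h' t f'` then `f' = (t h_y t)⁻¹ f_z (t h_y t) f_y` and `h' = h_x h_z h_y` (H6). -/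
theorem result {G Ω : Type*} [Group G] [Finite G] [MulAction G Ω] {a : Ω} {t : G} {Q : Subgroup G}
    (hS : Cfsg.IsRankOneSetup G Ω a t Q)
    (x y gx hx fx gy hy fy : G) (hxQ : x ∈ Q) (hx1 : x ≠ 1) (hyQ : y ∈ Q) (hy1 : y ≠ 1) (hxy : x * y ≠ 1)
    (hgx : gx ∈ Q) (hhx : hx ∈ (MulAction.stabilizer G a ⊓ MulAction.stabilizer G (t • a))) (hfx : fx ∈ Q) (ex : t * x * t = gx * hx * t * fx)
    (hgy : gy ∈ Q) (hhy : hy ∈ (MulAction.stabilizer G a ⊓ MulAction.stabilizer G (t • a))) (hfy : fy ∈ Q) (ey : t * y * t = gy * hy * t * fy) :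
    fx * gy ≠ 1 ∧
      ∀ gz hz fz g' h' f' : G, gz ∈ Q → hz ∈ (MulAction.stabilizer G a ⊓ MulAction.stabilizer G (t • a)) → fz ∈ Q → t * (fx * gy) * t = gz * hz * t * fz →
        g' ∈ Q → h' ∈ (MulAction.stabilizer G a ⊓ MulAction.stabilizer G (t • a)) → f' ∈ Q → t * (x * y) * t = g' * h' * t * f' →
          f' = (t * hy * t)⁻¹ * fz * (t * hy * t) * fy ∧ h' = hx * hz * hy := by
  have hti := rankOne_t_inv hS
  have htt := hS.mul_self
  have hDa : ∀ {y : G}, y ∈ MulAction.stabilizer G a ⊓ MulAction.stabilizer G (t • a) →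
      y ∈ MulAction.stabilizer G a := fun hy => (Subgroup.mem_inf.mp hy).1
  have hd := rankOne_conj_mem_D hS hhy
  -- the basic product formula
  have base : t * (x * y) * t = gx * hx * (t * (fx * gy) * t) * (t * hy * t) * fy := by
    calc t * (x * y) * t = (t * x * t) * (t * y * t) := by
          have : (t * x * t) * (t * y * t) = t * x * (t * t) * y * t := by group
          rw [this, htt]; group
      _ = (gx * hx * t * fx) * (gy * hy * t * fy) := by rw [ex, ey]
      _ = gx * hx * (t * (fx * gy) * t) * (t * hy * t) * fy := by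
          have : gx * hx * (t * (fx * gy) * t) * (t * hy * t) * fy
              = gx * hx * t * fx * gy * (t * t) * hy * t * fy := by group
          rw [this, htt]; group
  refine ⟨?_, ?_⟩
  · intro h1
    apply hxy
    have hmem : t * (x * y) * t ∈ MulAction.stabilizer G a := by
      rw [base, h1]
      have : gx * hx * (t * 1 * t) * (t * hy * t) * fy = gx * hx * (t * t) * (t * hy * t) * fy := by group
      rw [this, htt, mul_one]
      exact Subgroup.mul_mem _ (Subgroup.mul_mem _ (Subgroup.mul_mem _ (hS.le hgx) (hDa hhx)) (hDa hd))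
        (hS.le hfy)
    have hq : x * y ∈ Q ⊓ MulAction.stabilizer G (t • a) := by
      refine Subgroup.mem_inf.mpr ⟨Q.mul_mem hxQ hyQ, ?_⟩
      rw [MulAction.mem_stabilizer_iff] at hmem ⊢
      rw [mul_smul, mul_smul] at hmem
      have := congrArg (fun w => t • w) hmem
      simp only [← mul_smul t t, htt, one_smul] at this
      exact this
    rw [hS.inf_eq_bot, Subgroup.mem_bot] at hq
    exact hq
  · intro gz hz fz g' h' f' hgz hhz hfz ez hg' hh' hf' e
    have i1 : (t * hy * t)⁻¹ = t * hy⁻¹ * t := by rw [mul_inv_rev, mul_inv_rev, hti, mul_assoc]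
    have e' : g' * h' * t * f' = (gx * (hx * gz * hx⁻¹)) * (hx * hz * hy) * t
        * ((t * hy * t)⁻¹ * fz * ((t * hy * t)⁻¹)⁻¹ * fy) := by
      rw [← e, base, ez, inv_inv, i1]
      have : (gx * (hx * gz * hx⁻¹)) * (hx * hz * hy) * t * ((t * hy⁻¹ * t) * fz * (t * hy * t) * fy)
          = gx * hx * gz * hz * hy * (t * t) * hy⁻¹ * t * fz * (t * hy * t) * fy := by group
      rw [this, htt]; group
    have hgQ : gx * (hx * gz * hx⁻¹) ∈ Q := Q.mul_mem hgx (hS.conj_mem _ (hDa hhx) _ hgz)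
    have hhD : hx * hz * hy ∈ MulAction.stabilizer G a ⊓ MulAction.stabilizer G (t • a) :=
      Subgroup.mul_mem _ (Subgroup.mul_mem _ hhx hhz) hhy
    have hfQ : (t * hy * t)⁻¹ * fz * ((t * hy * t)⁻¹)⁻¹ * fy ∈ Q :=
      Q.mul_mem (hS.conj_mem _ (Subgroup.inv_mem _ (hDa hd)) _ hfz) hfy
    obtain ⟨r1, r2, -⟩ := rankOne_unique hS hg' hh' hf' hgQ hhD hfQ e'
    rw [inv_inv] at r1
    exact ⟨r1, r2⟩

end Cfsg.Agent.S1166
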