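import Mathlib
import Cfsg.Statements.S1167
import Cfsg.Agent.H19.ZassEven

set_option autoImplicit false
open Cfsg

namespace Cfsg.Agent.S1167

/-- Let `G` be a finite simple Zassenhaus group on `Ω`, `U` a normal subgroup of `G_a` regular on `Ω` minus `a` which is an abelian 2-group, and `v` an involution with `v • a ≠ a`. Then there is a unique `u₀ ∈ U`, `u₀ ≠ 1`, with `v u₀ v = u₀ v u₀`. -/
theorem result {G Ω : Type*} [Group G] [Finite G] [MulAction G Ω] [Finite Ω]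
    (hZ : Cfsg.IsZassenhausGroup G Ω) [IsSimpleGroup G] {a : Ω}
    (U : Subgroup G) (hUle : U ≤ MulAction.stabilizer G a)
    (hUn : ∀ h ∈ MulAction.stabilizer G a, ∀ u ∈ U, h * u * h⁻¹ ∈ U)
    (hreg : ∀ c d : Ω, c ≠ a → d ≠ a → ∃! u : U, (u : G) • c = d)
    (hU2 : IsPGroup 2 U) (hUab : ∀ u ∈ U, ∀ u' ∈ U, u * u' = u' * u)
    (v : G) (hv1 : v ≠ 1) (hv2 : v * v = 1) (hva : v • a ≠ a) :
    ∃! u₀ : G, u₀ ∈ U ∧ u₀ ≠ 1 ∧ v * u₀ * v = u₀ * v * u₀ := by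
  exact Cfsg.Agent.H19.zass_even_structure_eq hZ U hUle hUn hreg hU2 hUab v hv1 hv2 hva

end Cfsg.Agent.S1167
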