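import Cfsg.Statements.S1168

set_option autoImplicit false
open Cfsg

namespace Cfsg.Agent.S1168

/-- the span of products of two automorphisms -/
noncomputable def V (F : Type*) [Field F] : Submodule F (F → F) :=
  Submodule.span F (Set.range fun p : (F ≃+* F) × (F ≃+* F) => fun x => p.1 x * p.2 x)

/-- the span of automorphisms -/
noncomputable def W (F : Type*) [Field F] : Submodule F (F → F) :=
  Submodule.span F (Set.range fun σ : (F ≃+* F) => fun x => σ x)

theorem mul_mem_V {F : Type*} [Field F] {f g : F → F} (hf : f ∈ W F) (hg : g ∈ W F) :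
    (fun x => f x * g x) ∈ V F := by
  unfold W at hf hg
  induction hf using Submodule.span_induction with
  | mem f hf =>
    obtain ⟨σ, rfl⟩ := hf
    induction hg using Submodule.span_induction with
    | mem g hg =>
      obtain ⟨τ, rfl⟩ := hg
      exact Submodule.subset_span ⟨(σ, τ), rfl⟩
    | zero =>
      have : (fun x => σ x * (0 : F → F) x) = 0 := by ext x; simp
      rw [this]; exact Submodule.zero_mem _
    | add g₁ g₂ _ _ h₁ h₂ =>
      have : (fun x => σ x * (g₁ + g₂) x) = (fun x => σ x * g₁ x) + (fun x => σ x * g₂ x) := by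
        ext x; simp [mul_add]
      rw [this]; exact Submodule.add_mem _ h₁ h₂
    | smul a g _ h =>
      have : (fun x => σ x * (a • g) x) = a • (fun x => σ x * g x) := by
        ext x; simp; ring
      rw [this]; exact Submodule.smul_mem _ _ h
  | zero =>
    have : (fun x => (0 : F → F) x * g x) = 0 := by ext x; simp
    rw [this]; exact Submodule.zero_mem _
  | add f₁ f₂ _ _ h₁ h₂ =>
    have : (fun x => (f₁ + f₂) x * g x) = (fun x => f₁ x * g x) + (fun x => f₂ x * g x) := by
      ext x; simp [add_mul]
    rw [this]; exact Submodule.add_mem _ h₁ h₂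
  | smul a f _ h =>
    have : (fun x => (a • f) x * g x) = a • (fun x => f x * g x) := by
      ext x; simp; ring
    rw [this]; exact Submodule.smul_mem _ _ h

theorem exists_coords (F : Type*) [Field F] [Fintype F] [CharP F 2] :
    ∃ (n : ℕ) (d : Fin n → F) (ℓ : Fin n → F → F),
      (∀ i, ℓ i ∈ W F) ∧ (∀ i x y, ℓ i (x + y) = ℓ i x + ℓ i y) ∧
      (∀ i x, ℓ i x = 0 ∨ ℓ i x = 1) ∧ (∀ x, x = ∑ i, ℓ i x * d i) := by
  letI : Algebra (ZMod 2) F := ZMod.algebra F 2
  let b := Module.finBasis (ZMod 2) F
  have hB := traceForm_nondegenerate (ZMod 2) F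
  let D := (Algebra.traceForm (ZMod 2) F).dualBasis hB b
  refine ⟨Module.finrank (ZMod 2) F, fun i => D i, fun i x => algebraMap (ZMod 2) F (D.repr x i),
    ?_, ?_, ?_, ?_⟩
  · intro i
    have key : (fun x => algebraMap (ZMod 2) F (D.repr x i))
        = ∑ σ : F ≃ₐ[ZMod 2] F, (σ (b i)) • (fun x => (σ : F ≃+* F) x) := by
      ext x
      rw [LinearMap.BilinForm.dualBasis_repr_apply, Algebra.traceForm_apply,
        trace_eq_sum_automorphisms]
      simp [mul_comm]
    show (fun x => algebraMap (ZMod 2) F (D.repr x i)) ∈ W F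
    rw [key]
    apply Submodule.sum_mem
    intro σ _
    apply Submodule.smul_mem
    exact Submodule.subset_span ⟨(σ : F ≃+* F), rfl⟩
  · intro i x y
    simp [map_add]
  · intro i x
    have : ∀ c : ZMod 2, c = 0 ∨ c = 1 := by decide
    show algebraMap (ZMod 2) F (D.repr x i) = 0 ∨ algebraMap (ZMod 2) F (D.repr x i) = 1
    rcases this (D.repr x i) with h | h
    · left; rw [h, map_zero]
    · right; rw [h, map_one]
  · intro x
    conv_lhs => rw [← D.sum_repr x]
    apply Finset.sum_congr rfl
    intro i _
    rw [Algebra.smul_def]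

section Expansion

variable {F : Type*} [Field F] [CharP F 2] (q : F → F)
  (hq : ∀ x y z : F, q (x + y + z) + q (x + y) + q (x + z) + q (y + z) + q x + q y + q z = 0)

include hq

theorem q_zero : q 0 = 0 := by
  have h := hq 0 0 0
  have h2 : (2 : F) = 0 := CharTwo.two_eq_zero
  simp only [add_zero] at h
  linear_combination h - 3 * q 0 * h2

theorem q_add (u v : F) : q (u + v) = q u + q v + (q (u + v) + q u + q v) := by
  have h2 : (2 : F) = 0 := CharTwo.two_eq_zero
  linear_combination (-(q u + q v)) * h2

theorem B_add_right (x y z : F) :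
    q (x + (y + z)) + q x + q (y + z) = (q (x + y) + q x + q y) + (q (x + z) + q x + q z) := by
  have h := hq x y z
  have h2 : (2 : F) = 0 := CharTwo.two_eq_zero
  rw [← add_assoc]
  linear_combination h - (q (x + y) + q (x + z) + q x + q y + q z) * h2

theorem B_zero_right (x : F) : q (x + 0) + q x + q 0 = 0 := by
  have h2 : (2 : F) = 0 := CharTwo.two_eq_zero
  rw [add_zero, q_zero q hq]
  linear_combination q x * h2

theorem q_smul (c v : F) (hc : c = 0 ∨ c = 1) : q (c * v) = c * q v := by
  rcases hc with rfl | rfl
  · simp [q_zero q hq]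
  · simp

theorem B_smul_right (c v w : F) (hc : c = 0 ∨ c = 1) :
    q (v + c * w) + q v + q (c * w) = c * (q (v + w) + q v + q w) := by
  rcases hc with rfl | rfl
  · simp only [zero_mul]; exact B_zero_right q hq v
  · simp

theorem B_sum {n : ℕ} (d : Fin n → F) (c : Fin n → F) (hc : ∀ i, c i = 0 ∨ c i = 1) (v : F)
    (T : Finset (Fin n)) :
    q (v + ∑ i ∈ T, c i * d i) + q v + q (∑ i ∈ T, c i * d i)
      = ∑ i ∈ T, c i * (q (v + d i) + q v + q (d i)) := by
  classical
  induction T using Finset.induction_on with
  | empty => simp only [Finset.sum_empty]; exact B_zero_right q hq v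
  | insert a T ha ih =>
    rw [Finset.sum_insert ha, Finset.sum_insert ha, B_add_right q hq, ih, B_smul_right q hq _ _ _ (hc a)]

theorem main_expansion {n : ℕ} (d : Fin n → F) (c : Fin n → F) (hc : ∀ i, c i = 0 ∨ c i = 1)
    (T : Finset (Fin n)) :
    q (∑ i ∈ T, c i * d i) =
      ∑ i ∈ T, ∑ j ∈ T, (if i < j then c i * c j * (q (d i + d j) + q (d i) + q (d j)) else 0)
      + ∑ i ∈ T, c i * q (d i) := by
  classical
  induction T using Finset.induction_on_max with
  | empty => simp [q_zero q hq]
  | insert a T hmax ih =>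
    have ha : a ∉ T := fun h => lt_irrefl a (hmax a h)
    have h2 : (2 : F) = 0 := CharTwo.two_eq_zero
    have hL : q (∑ i ∈ insert a T, c i * d i) = c a * q (d a) + q (∑ i ∈ T, c i * d i)
        + ∑ i ∈ T, c i * c a * (q (d i + d a) + q (d i) + q (d a)) := by
      rw [Finset.sum_insert ha]
      have := q_add q hq (c a * d a) (∑ i ∈ T, c i * d i)
      rw [this, B_sum q hq d c hc (c a * d a) T, q_smul q hq _ _ (hc a)]
      congr 1
      apply Finset.sum_congr rfl
      intro i _
      rcases hc a with h | h
      · rw [h]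
        simp only [zero_mul, zero_add, mul_zero]
        linear_combination c i * q (d i) * h2
      · rw [h, one_mul, one_mul, mul_one, add_comm (d a) (d i)]
        ring
    have e1 : ∑ j ∈ insert a T, (if a < j then c a * c j * (q (d a + d j) + q (d a) + q (d j)) else 0) = 0 := by
      apply Finset.sum_eq_zero
      intro j hj
      rcases Finset.mem_insert.mp hj with rfl | hj
      · simp
      · simp [not_lt.mpr (le_of_lt (hmax j hj))]
    have e2 : ∑ i ∈ T, ∑ j ∈ insert a T, (if i < j then c i * c j * (q (d i + d j) + q (d i) + q (d j)) else 0)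
        = ∑ i ∈ T, c i * c a * (q (d i + d a) + q (d i) + q (d a))
          + ∑ i ∈ T, ∑ j ∈ T, (if i < j then c i * c j * (q (d i + d j) + q (d i) + q (d j)) else 0) := by
      rw [← Finset.sum_add_distrib]
      apply Finset.sum_congr rfl
      intro i hi
      rw [Finset.sum_insert ha, if_pos (hmax i hi)]
    rw [hL, ih, Finset.sum_insert ha, e1, e2, Finset.sum_insert ha]
    ring

end Expansion

/-- For a finite field `F` of characteristic 2: if `q : F → F` is quadratic over the prime field, i.e. `(x, y) ↦ q (x + y) + q x + q y` is additive in each variable, then `q x = Σ c_{σ,τ} σ(x) τ(x)` for some coefficients indexed by pairs of field automorphisms. -/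
theorem result {F : Type*} [Field F] [Fintype F] [CharP F 2]
    (q : F → F)
    (hq : ∀ x y z : F, q (x + y + z) + q (x + y) + q (x + z) + q (y + z) + q x + q y + q z = 0) :
    ∃ (s : Finset ((F ≃+* F) × (F ≃+* F))) (c : (F ≃+* F) × (F ≃+* F) → F),
      ∀ x : F, q x = ∑ p ∈ s, c p * (p.1 x * p.2 x) := by
  classical
  obtain ⟨n, d, ℓ, hW, hadd, h01, hx⟩ := exists_coords F
  have hqV : q ∈ V F := by
    have hprod : ∀ i j, (fun x => ℓ i x * ℓ j x) ∈ V F := fun i j => mul_mem_V (hW i) (hW j)
    have hlin : ∀ i, (fun x => ℓ i x) ∈ V F := by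
      intro i
      have : (fun x => ℓ i x) = (fun x => ℓ i x * ℓ i x) := by
        ext x; rcases h01 i x with h | h <;> rw [h] <;> simp
      rw [this]; exact hprod i i
    have hq_eq : q = ∑ i, ∑ j, (if i < j then (q (d i + d j) + q (d i) + q (d j)) • (fun x => ℓ i x * ℓ j x) else 0)
        + ∑ i, q (d i) • (fun x => ℓ i x) := by
      ext x
      have := main_expansion q hq d (fun i => ℓ i x) (fun i => h01 i x) Finset.univ
      rw [← hx x] at this
      rw [this]
      simp only [Pi.add_apply, Finset.sum_apply]
      congr 1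
      · apply Finset.sum_congr rfl; intro i _
        apply Finset.sum_congr rfl; intro j _
        split_ifs
        · simp only [Pi.smul_apply, smul_eq_mul]; ring
        · rfl
      · apply Finset.sum_congr rfl; intro i _
        simp only [Pi.smul_apply, smul_eq_mul]; ring
    rw [hq_eq]
    apply Submodule.add_mem
    · apply Submodule.sum_mem; intro i _
      apply Submodule.sum_mem; intro j _
      split_ifs
      · exact Submodule.smul_mem _ _ (hprod i j)
      · exact Submodule.zero_mem _
    · apply Submodule.sum_mem; intro i _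
      exact Submodule.smul_mem _ _ (hlin i)
  haveI : Finite (F ≃+* F) :=
    Finite.of_injective (fun e : F ≃+* F => (e : F → F)) DFunLike.coe_injective
  letI := Fintype.ofFinite ((F ≃+* F) × (F ≃+* F))
  unfold V at hqV
  rw [Submodule.mem_span_range_iff_exists_fun] at hqV
  obtain ⟨c, hc⟩ := hqV
  refine ⟨Finset.univ, c, fun x => ?_⟩
  rw [← hc]
  simp [Finset.sum_apply]

end Cfsg.Agent.S1168
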