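import Cfsg.Statements.S1176
import Cfsg.Agent.H25Iso

set_option autoImplicit false
open Cfsg

namespace Cfsg.Agent.S1176

open scoped commutatorElement

/-- Let x₀ be an involution of the finite group G and D its conjugacy class. Assume (a) for each x ∈ D the subgroup W(x) generated by the members of D commuting with x is a 2-group of nilpotency class at most 2, and (b) the product of two distinct commuting members of D again lies in D. Then for all x, y ∈ D, if xy has even order greater than 2, its order is 4. -/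
theorem result {G : Type*} [Group G] [Finite G] (x₀ : G) (hx₀ : orderOf x₀ = 2) (ha : ∀ x : G, IsConj x₀ x → IsPGroup 2 ↥(Subgroup.closure {y : G | IsConj x₀ y ∧ Commute y x}) ∧ ⁅⁅Subgroup.closure {y : G | IsConj x₀ y ∧ Commute y x}, Subgroup.closure {y : G | IsConj x₀ y ∧ Commute y x}⁆, Subgroup.closure {y : G | IsConj x₀ y ∧ Commute y x}⁆ = ⊥) (hb : ∀ x y : G, IsConj x₀ x → IsConj x₀ y → x ≠ y → Commute x y → IsConj x₀ (x * y)) (x y : G) (hx : IsConj x₀ x) (hy : IsConj x₀ y) (heven : Even (orderOf (x * y))) (hgt : 2 < orderOf (x * y)) : orderOf (x * y) = 4 := by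
  -- x is an involution
  have hox : orderOf x = 2 := by
    obtain ⟨c, hc⟩ := isConj_iff.mp hx
    have : x = MulAut.conj c x₀ := by simp [MulAut.conj_apply, hc]
    rw [this, MulEquiv.orderOf_eq]; exact hx₀
  have hxx : x * x = 1 := by
    have := pow_orderOf_eq_one x
    rwa [hox, pow_two] at this
  -- y is a conjugate of x
  obtain ⟨g, hg⟩ := isConj_iff.mp ((hx.symm).trans hy)
  have hyy : y * y = 1 := by rw [← hg]; exact Cfsg.Agent.H25.conj_mul_self hxx g
  obtain ⟨m, hm⟩ := heven
  have hm2 : 2 ≤ m := by omega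
  obtain ⟨h, hh⟩ := Cfsg.Agent.H25.pow_mul_conj hxx g m
  rw [hg] at hh
  have key := Cfsg.Agent.H25.mul_pow_inv hxx hyy
  set w := x * y with hw
  have hwm : w ^ m * w ^ m = 1 := by rw [← pow_add, ← hm, pow_orderOf_eq_one]
  have hinv : (w ^ m)⁻¹ = w ^ m := inv_eq_of_mul_eq_one_left hwm
  have hwm1 : w ^ m ≠ 1 := by
    intro h1
    have := Nat.le_of_dvd (by omega) (orderOf_dvd_of_pow_eq_one h1)
    omega
  -- t = w^m * x is in D, commutes with x, differs from x
  have ht : IsConj x₀ (w ^ m * x) := by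
    rw [hh]; exact hx.trans (isConj_iff.mpr ⟨h, rfl⟩)
  have hxw : x * w ^ m = w ^ m * x := by
    have := key m; rwa [hinv] at this
  have hcomm : Commute x (w ^ m * x) := by
    unfold Commute SemiconjBy
    rw [← mul_assoc, hxw]
  have hne : x ≠ w ^ m * x := by
    intro h1
    apply hwm1
    have : 1 * x = w ^ m * x := by rw [one_mul]; exact h1
    exact (mul_right_cancel this).symm
  have hu : IsConj x₀ (w ^ m) := by
    have := hb x (w ^ m * x) hx ht hne hcomm
    rwa [← mul_assoc, hxw, mul_assoc, hxx, mul_one] at this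
  -- y commutes with w^m
  have hxi : x⁻¹ = x := inv_eq_of_mul_eq_one_left hxx
  have hyi : y⁻¹ = y := inv_eq_of_mul_eq_one_left hyy
  have hyxw : y = x * w := by rw [hw, ← mul_assoc, hxx, one_mul]
  have hyw : y * w ^ m = w ^ m * y := by
    rw [hyxw, mul_assoc, ← pow_succ', pow_succ, ← mul_assoc, hxw, mul_assoc]
  obtain ⟨-, hcl⟩ := ha (w ^ m) hu
  have hxW : x ∈ Subgroup.closure {y : G | IsConj x₀ y ∧ Commute y (w ^ m)} :=
    Subgroup.subset_closure ⟨hx, hxw⟩
  have hyW : y ∈ Subgroup.closure {y : G | IsConj x₀ y ∧ Commute y (w ^ m)} :=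
    Subgroup.subset_closure ⟨hy, hyw⟩
  have h1 : ⁅⁅x, y⁆, x⁆ ∈ ⁅⁅Subgroup.closure {y : G | IsConj x₀ y ∧ Commute y (w ^ m)},
      Subgroup.closure {y : G | IsConj x₀ y ∧ Commute y (w ^ m)}⁆,
      Subgroup.closure {y : G | IsConj x₀ y ∧ Commute y (w ^ m)}⁆ :=
    Subgroup.commutator_mem_commutator (Subgroup.commutator_mem_commutator hxW hyW) hxW
  rw [hcl, Subgroup.mem_bot] at h1
  have h2 : ⁅x, y⁆ = w ^ 2 := by
    rw [commutatorElement_def, hxi, hyi, pow_two, hw]; simp only [mul_assoc]
  have h3 : w ^ 4 = 1 := by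
    rw [h2, commutatorElement_def, hxi, mul_assoc (w ^ 2) x, key 2, mul_assoc, mul_assoc, hxx,
      mul_one, ← pow_add] at h1
    exact h1
  have h4 := Nat.le_of_dvd (by norm_num) (orderOf_dvd_of_pow_eq_one h3)
  omega

end Cfsg.Agent.S1176
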