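import Cfsg.Statements.S1177

set_option autoImplicit false
open Cfsg

namespace Cfsg.Agent.S1177

/-- Let A be a nontrivial elementary abelian 2-subgroup of a finite group G which is a T.I. set (each conjugate of A meets A trivially or equals A) and which does not commute elementwise with any conjugate of A other than A itself. Then for every a ∈ A, a ≠ 1, every conjugate of A contained in C_G(a) is equal to A (A is weakly closed in C_G(a)). -/
theorem result {G : Type*} [Group G] [Finite G] (A : Subgroup G) (hA : Cfsg.IsElementaryAbelian 2 A) (hA1 : A ≠ ⊥) (hTI : ∀ g : G, A.map (MulAut.conj g).toMonoidHom ⊓ A = ⊥ ∨ A.map (MulAut.conj g).toMonoidHom = A) (hb : ∀ g : G, (∀ a ∈ A, ∀ b ∈ A.map (MulAut.conj g).toMonoidHom, a * b = b * a) → A.map (MulAut.conj g).toMonoidHom = A) (a : G) (ha : a ∈ A) (ha1 : a ≠ 1) (g : G) (hg : A.map (MulAut.conj g).toMonoidHom ≤ Subgroup.centralizer ({a} : Set G)) : A.map (MulAut.conj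 g).toMonoidHom = A := by
  by_contra hne
  have hdisj : A.map (MulAut.conj g).toMonoidHom ⊓ A = ⊥ := (hTI g).resolve_right hne
  have hsq : ∀ x ∈ A, x * x = 1 := fun x hx => by rw [← pow_two]; exact hA.2 x hx
  -- membership in B
  have hBmem : ∀ b : G, b ∈ A.map (MulAut.conj g).toMonoidHom ↔ ∃ α ∈ A, g * α * g⁻¹ = b := by
    intro b
    rw [Subgroup.mem_map]
    simp [MulAut.conj_apply]
  -- TI consequence: if y fixes a nontrivial element of A under conjugation, y normalizes A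
  have hnorm : ∀ y : G, ∀ α ∈ A, α ≠ 1 → y * α * y⁻¹ = α → ∀ β ∈ A, y * β * y⁻¹ ∈ A := by
    intro y α hα hα1 hy β hβ
    have hmem : α ∈ A.map (MulAut.conj y).toMonoidHom ⊓ A := by
      refine Subgroup.mem_inf.mpr ⟨Subgroup.mem_map.mpr ⟨α, hα, ?_⟩, hα⟩
      simpa [MulAut.conj_apply] using hy
    rcases hTI y with h | h
    · rw [h, Subgroup.mem_bot] at hmem; exact absurd hmem hα1
    · rw [← h, Subgroup.mem_map]
      exact ⟨β, hβ, by simp [MulAut.conj_apply]⟩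
  -- 1. B normalizes A
  have h1 : ∀ b ∈ A.map (MulAut.conj g).toMonoidHom, ∀ β ∈ A, b * β * b⁻¹ ∈ A := by
    intro b hb' β hβ
    have hba := hg hb'
    rw [Subgroup.mem_centralizer_singleton_iff] at hba
    exact hnorm b a ha ha1 (by rw [hba, mul_assoc, mul_inv_cancel, mul_one]) β hβ
  -- 2. an element of A commuting with a nontrivial element of B normalizes B
  have h2 : ∀ a₁ ∈ A, ∀ b₁ ∈ A.map (MulAut.conj g).toMonoidHom, b₁ ≠ 1 → a₁ * b₁ = b₁ * a₁ →
      ∀ b ∈ A.map (MulAut.conj g).toMonoidHom, a₁ * b * a₁⁻¹ ∈ A.map (MulAut.conj g).toMonoidHom := by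
    intro a₁ _ b₁ hb₁ hb₁1 hcomm b hb'
    obtain ⟨α₁, hα₁, rfl⟩ := (hBmem b₁).mp hb₁
    obtain ⟨α, hα, rfl⟩ := (hBmem b).mp hb'
    have hα₁1 : α₁ ≠ 1 := by
      rintro rfl; apply hb₁1; group
    have hy : (g⁻¹ * a₁ * g) * α₁ * (g⁻¹ * a₁ * g)⁻¹ = α₁ := by
      calc (g⁻¹ * a₁ * g) * α₁ * (g⁻¹ * a₁ * g)⁻¹ = g⁻¹ * (a₁ * (g * α₁ * g⁻¹)) * a₁⁻¹ * g := by group
        _ = g⁻¹ * ((g * α₁ * g⁻¹) * a₁) * a₁⁻¹ * g := by rw [hcomm]
        _ = α₁ := by group
    have := hnorm (g⁻¹ * a₁ * g) α₁ hα₁ hα₁1 hy α hα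
    rw [hBmem]
    exact ⟨_, this, by group⟩
  -- 3. such an element centralizes B
  have h3 : ∀ a₁ ∈ A, ∀ b₁ ∈ A.map (MulAut.conj g).toMonoidHom, b₁ ≠ 1 → a₁ * b₁ = b₁ * a₁ →
      ∀ b ∈ A.map (MulAut.conj g).toMonoidHom, a₁ * b = b * a₁ := by
    intro a₁ ha₁ b₁ hb₁ hb₁1 hcomm b hb'
    have hcB : a₁ * b * a₁⁻¹ * b⁻¹ ∈ A.map (MulAut.conj g).toMonoidHom :=
      Subgroup.mul_mem _ (h2 a₁ ha₁ b₁ hb₁ hb₁1 hcomm b hb') (Subgroup.inv_mem _ hb')
    have hcA : a₁ * b * a₁⁻¹ * b⁻¹ ∈ A := by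
      have : a₁ * b * a₁⁻¹ * b⁻¹ = a₁ * (b * a₁⁻¹ * b⁻¹) := by group
      rw [this]
      exact A.mul_mem ha₁ (h1 b hb' _ (A.inv_mem ha₁))
    have hc1 : a₁ * b * a₁⁻¹ * b⁻¹ ∈ A.map (MulAut.conj g).toMonoidHom ⊓ A := Subgroup.mem_inf.mpr ⟨hcB, hcA⟩
    rw [hdisj, Subgroup.mem_bot] at hc1
    calc a₁ * b = (a₁ * b * a₁⁻¹ * b⁻¹) * b * a₁ := by group
      _ = b * a₁ := by rw [hc1, one_mul]
  -- 4. some element of A does not centralize B
  have h4 : ∃ a' ∈ A, ¬ ∀ b ∈ A.map (MulAut.conj g).toMonoidHom, a' * b = b * a' := by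
    by_contra hall
    push Not at hall
    exact hne (hb g hall)
  obtain ⟨a', ha', hna'⟩ := h4
  -- elements of B square to one
  have hBsq : ∀ b ∈ A.map (MulAut.conj g).toMonoidHom, b * b = 1 := by
    intro b hb'
    obtain ⟨α, hα, rfl⟩ := (hBmem b).mp hb'
    calc g * α * g⁻¹ * (g * α * g⁻¹) = g * (α * α) * g⁻¹ := by group
      _ = 1 := by rw [hsq α hα]; group
  -- 5. counting
  let A₀ : Set G := {x | x ∈ A ∧ ∀ b ∈ A.map (MulAut.conj g).toMonoidHom, x * b = b * x}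
  have hA₀ss : A₀ ⊂ (A : Set G) := by
    refine ⟨fun x hx => hx.1, fun hsub => hna' (hsub ha').2⟩
  have hlt : A₀.ncard < (A : Set G).ncard := Set.ncard_lt_ncard hA₀ss (Set.toFinite _)
  have hcardB : ((A.map (MulAut.conj g).toMonoidHom : Subgroup G) : Set G).ncard = (A : Set G).ncard := by
    rw [Subgroup.coe_map]
    exact Set.ncard_image_of_injective _ (MulAut.conj g).injective
  have hle : ((A.map (MulAut.conj g).toMonoidHom : Subgroup G) : Set G).ncard ≤ A₀.ncard := by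
    apply Set.ncard_le_ncard_of_injOn (fun b => a' * b * a'⁻¹ * b⁻¹) _ _ (Set.toFinite _)
    · intro b hb'
      have hb'' : b ∈ A.map (MulAut.conj g).toMonoidHom := hb'
      have hcA : a' * b * a'⁻¹ * b⁻¹ ∈ A := by
        have : a' * b * a'⁻¹ * b⁻¹ = a' * (b * a'⁻¹ * b⁻¹) := by group
        rw [this]
        exact A.mul_mem ha' (h1 b hb'' _ (A.inv_mem ha'))
      refine ⟨hcA, ?_⟩
      by_cases hb1 : b = 1
      · subst hb1
        intro b₂ _
        simp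
      · apply h3 _ hcA b hb'' hb1
        -- c commutes with b
        have hbi : b⁻¹ = b := inv_eq_of_mul_eq_one_left (hBsq b hb'')
        have hci : (a' * b * a'⁻¹ * b⁻¹)⁻¹ = a' * b * a'⁻¹ * b⁻¹ :=
          inv_eq_of_mul_eq_one_left (hsq _ hcA)
        have e : b * (a' * b * a'⁻¹ * b⁻¹) * b⁻¹ = (a' * b * a'⁻¹ * b⁻¹)⁻¹ := by
          rw [mul_inv_rev, mul_inv_rev, mul_inv_rev, inv_inv, inv_inv, hbi]
          simp only [mul_assoc]
          rw [hBsq b hb'', mul_one]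
        rw [hci] at e
        calc a' * b * a'⁻¹ * b⁻¹ * b = (b * (a' * b * a'⁻¹ * b⁻¹) * b⁻¹) * b := by rw [e]
          _ = b * (a' * b * a'⁻¹ * b⁻¹) := by group
    · intro b hb' b' hb'2 heq
      have hb'' : b ∈ A.map (MulAut.conj g).toMonoidHom := hb'
      have hb2'' : b' ∈ A.map (MulAut.conj g).toMonoidHom := hb'2
      simp only at heq
      by_contra hbb
      have hd : b'⁻¹ * b ≠ 1 := by
        intro h; apply hbb
        have := eq_of_inv_mul_eq_one h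
        exact this.symm
      have hdB : b'⁻¹ * b ∈ A.map (MulAut.conj g).toMonoidHom :=
        Subgroup.mul_mem _ (Subgroup.inv_mem _ hb2'') hb''
      have hcomm : a' * (b'⁻¹ * b) = (b'⁻¹ * b) * a' := by
        have e1 : b * a'⁻¹ * b⁻¹ = b' * a'⁻¹ * b'⁻¹ := by
          have : a' * (b * a'⁻¹ * b⁻¹) = a' * (b' * a'⁻¹ * b'⁻¹) := by
            simp only [← mul_assoc]; exact heq
          exact mul_left_cancel this
        have e2 : (b'⁻¹ * b) * a'⁻¹ = a'⁻¹ * (b'⁻¹ * b) := by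
          calc (b'⁻¹ * b) * a'⁻¹ = b'⁻¹ * (b * a'⁻¹ * b⁻¹) * b := by group
            _ = b'⁻¹ * (b' * a'⁻¹ * b'⁻¹) * b := by rw [e1]
            _ = a'⁻¹ * (b'⁻¹ * b) := by group
        calc a' * (b'⁻¹ * b) = a' * ((b'⁻¹ * b) * a'⁻¹) * a' := by group
          _ = a' * (a'⁻¹ * (b'⁻¹ * b)) * a' := by rw [e2]
          _ = (b'⁻¹ * b) * a' := by group
      exact hna' (h3 a' ha' _ hdB hd hcomm)
  omega

end Cfsg.Agent.S1177
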