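import Cfsg.Statements.S1178

set_option autoImplicit false
open Cfsg

namespace Cfsg.Agent.S1178

/-- Let A be a subgroup of a Sylow 2-subgroup S of the finite group G which is weakly closed in S. If a conjugate g A g⁻¹ commutes elementwise with A, then g A g⁻¹ = A. -/
theorem result {G : Type*} [Group G] [Finite G] (S : Sylow 2 G) (A : Subgroup G) (hW : Cfsg.IsWeaklyClosed A (S : Subgroup G)) (g : G) (hc : ∀ a ∈ A, ∀ b ∈ A.map (MulAut.conj g).toMonoidHom, a * b = b * a) : A.map (MulAut.conj g).toMonoidHom = A := by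
  haveI : Fact (Nat.Prime 2) := ⟨Nat.prime_two⟩
  obtain ⟨hAS, hwc⟩ := hW
  have hA2 : IsPGroup 2 A := S.2.to_le hAS
  have hB2 : IsPGroup 2 (A.map (MulAut.conj g).toMonoidHom) := hA2.map _
  have hBN : A.map (MulAut.conj g).toMonoidHom ≤ Subgroup.normalizer (A : Set G) := by
    intro b hb
    rw [Subgroup.mem_normalizer_iff]
    intro a
    constructor
    · intro ha
      have h1 := hc a ha b hb
      have : b * a * b⁻¹ = a := by rw [← h1, mul_assoc, mul_inv_cancel, mul_one]
      rw [this]; exact ha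
    · intro ha
      have h1 := hc _ ha b hb
      have : a = b * a * b⁻¹ := by
        have h2 : b * a * b⁻¹ = b⁻¹ * (b * a * b⁻¹ * b) := by rw [h1]; group
        rw [h2]; group
      rw [this]; exact ha
  have hAB : IsPGroup 2 (A.map (MulAut.conj g).toMonoidHom ⊔ A : Subgroup G) :=
    hB2.to_sup_of_normal_right' hA2 hBN
  obtain ⟨Q, hQ⟩ := hAB.exists_le_sylow
  obtain ⟨x, hx⟩ := MulAction.exists_smul_eq G Q S
  have hmem : ∀ a ∈ (Q : Subgroup G), x * a * x⁻¹ ∈ (S : Subgroup G) := by
    intro a ha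
    rw [← hx, Sylow.coe_subgroup_smul]
    have := Subgroup.smul_mem_pointwise_smul a (MulAut.conj x) (Q : Subgroup G) ha
    simpa [MulAut.smul_def] using this
  have h1 : A.map (MulAut.conj x).toMonoidHom ≤ S := by
    rintro _ ⟨a, ha, rfl⟩
    exact hmem a (hQ (Subgroup.mem_sup_right ha))
  have hcomp : A.map (MulAut.conj (x * g)).toMonoidHom
      = (A.map (MulAut.conj g).toMonoidHom).map (MulAut.conj x).toMonoidHom := by
    rw [Subgroup.map_map]
    congr 1
    ext a
    simp [MulAut.conj_apply, mul_assoc]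
  have h2 : A.map (MulAut.conj (x * g)).toMonoidHom ≤ S := by
    rw [hcomp]
    rintro _ ⟨b, hb, rfl⟩
    exact hmem b (hQ (Subgroup.mem_sup_left hb))
  have e1 := hwc x h1
  have e2 := hwc (x * g) h2
  have e3 : (A.map (MulAut.conj g).toMonoidHom).map (MulAut.conj x).toMonoidHom
      = A.map (MulAut.conj x).toMonoidHom := by rw [← hcomp, e2, e1]
  exact Subgroup.map_injective (MulAut.conj x).injective e3

end Cfsg.Agent.S1178
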