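import Cfsg.Statements.S1182
import Cfsg.Agent.H25Iso

set_option autoImplicit false
open Cfsg

namespace Cfsg.Agent.S1182

/-- Let z be an isolated involution of the finite group G and H a subgroup normalized by z. If x, y ∈ H both commute with z and y = h x h⁻¹ for some h ∈ H, then y = c x c⁻¹ for some c ∈ H commuting with z. -/
theorem result {G : Type*} [Group G] [Finite G] (z : G) (hz : Cfsg.IsIsolatedInvolution z) (H : Subgroup G) (hzH : z ∈ Subgroup.normalizer (H : Set G)) (x y : G) (hx : x ∈ H) (hy : y ∈ H) (hxz : Commute x z) (hyz : Commute y z) (h : G) (hh : h ∈ H) (hconj : h * x * h⁻¹ = y) : ∃ c ∈ H, Commute c z ∧ c * x * c⁻¹ = y := by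
  have hzz := Cfsg.Agent.H25.iso_mul_self hz
  have hzi : z⁻¹ = z := inv_eq_of_mul_eq_one_left hzz
  obtain ⟨j, hj⟩ := Cfsg.Agent.H25.exists_pow_conj hz h
  -- w = z * (h z h⁻¹) lies in H
  have hwH : z * (h * z * h⁻¹) ∈ H := by
    have h1 : z * h * z⁻¹ ∈ H := ((Subgroup.mem_normalizer_iff (H := H)).mp hzH h).mp hh
    have : z * (h * z * h⁻¹) = (z * h * z⁻¹) * h⁻¹ := by rw [hzi]; group
    rw [this]; exact H.mul_mem h1 (H.inv_mem hh)
  -- w commutes with y
  have hyz' : y * z = z * y := hyz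
  have hxz' : x * z = z * x := hxz
  have hyb : y * (h * z * h⁻¹) = (h * z * h⁻¹) * y := by
    rw [← hconj]
    calc h * x * h⁻¹ * (h * z * h⁻¹) = h * (x * z) * h⁻¹ := by group
      _ = h * (z * x) * h⁻¹ := by rw [hxz']
      _ = h * z * h⁻¹ * (h * x * h⁻¹) := by group
  have hyw : Commute y (z * (h * z * h⁻¹)) := by
    unfold Commute SemiconjBy
    rw [← mul_assoc, hyz', mul_assoc, hyb]; simp only [mul_assoc]
  have hyv : Commute y ((z * (h * z * h⁻¹)) ^ j) := hyw.pow_right j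
  have hvH : (z * (h * z * h⁻¹)) ^ j ∈ H := H.pow_mem hwH j
  generalize (z * (h * z * h⁻¹)) ^ j = v at hj hyv hvH
  refine ⟨v⁻¹ * h, H.mul_mem (H.inv_mem hvH) hh, ?_, ?_⟩
  · unfold Commute SemiconjBy
    have h2 : h * z = v * z * v⁻¹ * h := by rw [hj]; group
    calc v⁻¹ * h * z = v⁻¹ * (h * z) := by group
      _ = v⁻¹ * (v * z * v⁻¹ * h) := by rw [h2]
      _ = z * (v⁻¹ * h) := by group
  · have hyv' : y * v = v * y := hyv
    calc v⁻¹ * h * x * (v⁻¹ * h)⁻¹ = v⁻¹ * (h * x * h⁻¹) * v := by group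
      _ = v⁻¹ * (y * v) := by rw [hconj]; group
      _ = y := by rw [hyv']; group

end Cfsg.Agent.S1182
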