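import Cfsg.Statements.S1183
import Cfsg.Agent.H25Iso
import Cfsg.Agent.H25.PRes
import Cfsg.Agent.S1182

set_option autoImplicit false
open Cfsg

namespace Cfsg.Agent.S1183

open scoped commutatorElement

/-- Let z be an isolated involution of the finite group G and C = C_G(z). Then the subgroup of G generated by its elements of odd order is all of G if and only if the subgroup of C generated by its elements of odd order is all of C. -/
theorem result {G : Type*} [Group G] [Finite G] (z : G) (hz : Cfsg.IsIsolatedInvolution z) : Cfsg.pResidual 2 G = ⊤ ↔ Cfsg.pResidual 2 ↥(Subgroup.centralizer ({z} : Set G)) = ⊤ := by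
  haveI : Fact (Nat.Prime 2) := ⟨Nat.prime_two⟩
  have hzz := Cfsg.Agent.H25.iso_mul_self hz
  have hzi : z⁻¹ = z := inv_eq_of_mul_eq_one_left hzz
  -- a Sylow 2-subgroup containing z
  have hzp : IsPGroup 2 (Subgroup.zpowers z) := by
    rw [IsPGroup.iff_card]
    refine ⟨1, ?_⟩
    rw [Nat.card_zpowers, hz.1, pow_one]
  obtain ⟨S, hS⟩ := hzp.exists_le_sylow
  have hzS : z ∈ (S : Subgroup G) := hS (Subgroup.mem_zpowers z)
  -- S centralizes z
  have hSC : (S : Subgroup G) ≤ Subgroup.centralizer ({z} : Set G) := by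
    intro s hs
    rw [Subgroup.mem_centralizer_singleton_iff]
    have hodd := Cfsg.Agent.H25.odd_orderOf_mul_conj hz s
    have hmem : z * (s * z * s⁻¹) ∈ (S : Subgroup G) :=
      Subgroup.mul_mem _ hzS (Subgroup.mul_mem _ (Subgroup.mul_mem _ hs hzS) (Subgroup.inv_mem _ hs))
    obtain ⟨i, hi⟩ := (IsPGroup.iff_orderOf.mp S.2) ⟨_, hmem⟩
    rw [Subgroup.orderOf_mk] at hi
    have h1 : orderOf (z * (s * z * s⁻¹)) = 1 := by
      rw [hi] at hodd ⊢
      rcases Nat.eq_zero_or_pos i with h0 | h0
      · rw [h0, pow_zero]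
      · exfalso
        have : Even (2 ^ i) := (Nat.even_pow' h0.ne').mpr even_two
        exact (Nat.not_even_iff_odd.mpr hodd) this
    have h2 : z * (s * z * s⁻¹) = 1 := orderOf_eq_one_iff.mp h1
    have h3 : s * z * s⁻¹ = z := by
      have := eq_inv_of_mul_eq_one_right h2
      rw [this, hzi]
    calc s * z = s * z * s⁻¹ * s := by group
      _ = z * s := by rw [h3]
  rw [Cfsg.Agent.H25.pResidual_eq_top_iff S, Cfsg.Agent.H25.pResidual_eq_top_iff (S.subtype hSC)]
  rw [Sylow.coe_subtype]
  constructor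
  · intro h
    -- S = focal subgroup
    have hfoc : (S : Subgroup G) ≤ (S : Subgroup G).focalSubgroup := by
      rw [← Subgroup.commutator_inf_eq_focalSubgroup S]
      exact le_inf h le_rfl
    have hle : (S : Subgroup G).focalSubgroup ≤
        (commutator ↥(Subgroup.centralizer ({z} : Set G))).map (Subgroup.centralizer ({z} : Set G)).subtype := by
      rw [Subgroup.map_subtype_commutator, Subgroup.focalSubgroup_def, Subgroup.closure_le]
      rintro g ⟨hgS, x, hxS, u, rfl⟩
      have hxC : x ∈ Subgroup.centralizer ({z} : Set G) := hSC hxS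
      have hyS : u * x⁻¹ * u⁻¹ ∈ (S : Subgroup G) := by
        have : u * x⁻¹ * u⁻¹ = x⁻¹ * ⁅x, u⁆ := by rw [commutatorElement_def]; group
        rw [this]; exact Subgroup.mul_mem _ (Subgroup.inv_mem _ hxS) hgS
      have hyC := hSC hyS
      rw [Subgroup.mem_centralizer_singleton_iff] at hyC
      have hxC' := Subgroup.inv_mem _ hxC
      rw [Subgroup.mem_centralizer_singleton_iff] at hxC'
      obtain ⟨c, -, hcz, hc⟩ := Cfsg.Agent.S1182.result z hz ⊤ (by rw [Subgroup.mem_normalizer_iff]; intro h; simp) x⁻¹ (u * x⁻¹ * u⁻¹)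
        (Subgroup.mem_top _) (Subgroup.mem_top _) hxC' hyC u (Subgroup.mem_top _) rfl
      have hcC : c ∈ Subgroup.centralizer ({z} : Set G) := by
        rw [Subgroup.mem_centralizer_singleton_iff]; exact hcz
      have : ⁅x, u⁆ = ⁅x, c⁆ := by
        rw [commutatorElement_def, commutatorElement_def]
        calc x * u * x⁻¹ * u⁻¹ = x * (u * x⁻¹ * u⁻¹) := by group
          _ = x * (c * x⁻¹ * c⁻¹) := by rw [hc]
          _ = x * c * x⁻¹ * c⁻¹ := by group
      rw [SetLike.mem_coe, this]
      exact Subgroup.commutator_mem_commutator hxC hcC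
    intro s hs
    rw [Subgroup.mem_subgroupOf] at hs
    obtain ⟨c', hc', hcs⟩ := hle (hfoc hs)
    have : c' = s := Subtype.ext hcs
    rw [← this]; exact hc'
  · intro h s hs
    have h1 : (⟨s, hSC hs⟩ : ↥(Subgroup.centralizer ({z} : Set G))) ∈
        (S : Subgroup G).subgroupOf (Subgroup.centralizer ({z} : Set G)) := by
      rw [Subgroup.mem_subgroupOf]; exact hs
    have h2 := h h1
    have h3 : s ∈ (commutator ↥(Subgroup.centralizer ({z} : Set G))).map
        (Subgroup.centralizer ({z} : Set G)).subtype := ⟨_, h2, rfl⟩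
    rw [Subgroup.map_subtype_commutator] at h3
    exact Subgroup.commutator_mono le_top le_top h3

end Cfsg.Agent.S1183
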