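import Cfsg.Statements.S1224
import Cfsg.Agent.H26.SE2

set_option autoImplicit false
open Cfsg

namespace Cfsg.Agent.S1224

/-- Let H be a strongly embedded subgroup of the finite group G and x ≠ y two cosets in G/H. Then the number of involutions i of G with i • x = y equals the number of involutions lying in H. -/
theorem result {G : Type*} [Group G] [Finite G] (H : Subgroup G) (hH : Cfsg.IsStronglyEmbedded H) (x y : G ⧸ H) (hxy : x ≠ y) : Nat.card {i : G // orderOf i = 2 ∧ i • x = y} = Nat.card {t : G // orderOf t = 2 ∧ t ∈ H} := by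
  obtain ⟨g₁, rfl⟩ := QuotientGroup.mk_surjective x
  obtain ⟨g₂, rfl⟩ := QuotientGroup.mk_surjective y
  have hg : g₁⁻¹ * g₂ ∉ H := by
    intro h
    exact hxy (QuotientGroup.eq.mpr h)
  rw [← Cfsg.Agent.H26.se_card_swap hH hg]
  have hiff : ∀ i : G, i • (QuotientGroup.mk g₁ : G ⧸ H) = QuotientGroup.mk g₂ ↔
      (g₁⁻¹ * i * g₁)⁻¹ * (g₁⁻¹ * g₂) ∈ H := by
    intro i
    have h1 : i • (QuotientGroup.mk g₁ : G ⧸ H) = QuotientGroup.mk (i * g₁) := rfl
    rw [h1, QuotientGroup.eq]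
    have : (g₁⁻¹ * i * g₁)⁻¹ * (g₁⁻¹ * g₂) = (i * g₁)⁻¹ * g₂ := by group
    rw [this]
  apply Nat.card_congr
  exact
    { toFun := fun i => ⟨g₁⁻¹ * i.1 * g₁, by
        have := Cfsg.Agent.H26.orderOf_conj_eq g₁⁻¹ i.1
        rw [inv_inv] at this
        rw [this]; exact i.2.1, (hiff i.1).mp i.2.2⟩
      invFun := fun i => ⟨g₁ * i.1 * g₁⁻¹, by
        rw [Cfsg.Agent.H26.orderOf_conj_eq]; exact i.2.1, by
        rw [hiff]
        have : g₁⁻¹ * (g₁ * i.1 * g₁⁻¹) * g₁ = i.1 := by group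
        rw [this]; exact i.2.2⟩
      left_inv := fun i => by
        apply Subtype.ext
        show g₁ * (g₁⁻¹ * i.1 * g₁) * g₁⁻¹ = i.1
        group
      right_inv := fun i => by
        apply Subtype.ext
        show g₁⁻¹ * (g₁ * i.1 * g₁⁻¹) * g₁ = i.1
        group }

end Cfsg.Agent.S1224
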