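import Cfsg.Statements.S1231
import Cfsg.Agent.H26.Rank

set_option autoImplicit false
open Cfsg

namespace Cfsg.Agent.S1231

open Cfsg.Agent.H26

section

variable {G : Type*} [Group G] [Finite G] {p : ℕ} [Fact p.Prime]

/-- every p-subgroup of G inside H is H-conjugate into the Sylow subgroup `P` of `H` -/
theorem conj_into (H : Subgroup G) (P : Sylow p ↥H) (U : Subgroup G) (hU : IsPGroup p U)
    (hUH : U ≤ H) :
    ∃ h ∈ H, ∀ x ∈ U, h⁻¹ * x * h ∈ (P : Subgroup ↥H).map H.subtype := by
  have hU' : IsPGroup p (U.subgroupOf H) := hU.comap_subtype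
  obtain ⟨Q, hQ⟩ := hU'.exists_le_sylow
  obtain ⟨h, hh⟩ := MulAction.exists_smul_eq H P Q
  refine ⟨h, h.2, ?_⟩
  intro x hx
  have h1 : (⟨x, hUH hx⟩ : H) ∈ (Q : Subgroup H) :=
    hQ (by rw [Subgroup.mem_subgroupOf]; exact hx)
  rw [← hh, Sylow.coe_subgroup_smul, Subgroup.mem_pointwise_smul_iff_inv_smul_mem] at h1
  simp only [MulAut.smul_def, MulAut.conj_inv_apply] at h1
  exact ⟨_, h1, by simp⟩

omit [Finite G] in
theorem conj_mem_normalizer (X : Subgroup G) (h n : G)
    (hn : n ∈ Subgroup.normalizer (X : Set G)) :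
    h⁻¹ * n * h ∈ Subgroup.normalizer
      ((X.map (MulAut.conj h⁻¹).toMonoidHom : Subgroup G) : Set G) := by
  rw [Subgroup.mem_normalizer_iff]
  intro y
  rw [mem_map_conj_iff, mem_map_conj_iff]
  have e : h⁻¹⁻¹ * (h⁻¹ * n * h * y * (h⁻¹ * n * h)⁻¹) * h⁻¹ = n * (h⁻¹⁻¹ * y * h⁻¹) * n⁻¹ := by
    group
  rw [e]
  exact Subgroup.mem_normalizer_iff.mp hn _

theorem mem_normalizer_of_conj_le (X : Subgroup G) (n : G) (h : ∀ x ∈ X, n * x * n⁻¹ ∈ X) :
    n ∈ Subgroup.normalizer (X : Set G) := by
  have hle : X.map (MulAut.conj n).toMonoidHom ≤ X := by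
    rintro _ ⟨x, hx, rfl⟩
    simpa using h x hx
  have heq := Subgroup.eq_of_le_of_card_ge hle
    (by rw [Subgroup.card_map_of_injective (MulAut.conj n).injective])
  rw [Subgroup.mem_normalizer_iff]
  intro x
  constructor
  · exact h x
  · intro hx
    rw [← heq] at hx
    obtain ⟨y, hy, hyx⟩ := hx
    simp only [MulEquiv.coe_toMonoidHom, MulAut.conj_apply] at hyx
    have : y = x := mul_left_cancel (mul_right_cancel hyx)
    rw [← this]; exact hy

end

/-- Let H be a subgroup of the finite group G, p a prime, k ≥ 1, and P a Sylow p-subgroup of H whose p-rank is at least k. Then N_G(X) ≤ H for every subgroup X of P of p-rank at least k if and only if H ∩ gHg⁻¹ has p-rank less than k for every g ∉ H. -/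
theorem result {G : Type*} [Group G] [Finite G] {p : ℕ} [Fact p.Prime] (k : ℕ) (hk : 1 ≤ k) (H : Subgroup G) (P : Sylow p ↥H) (hP : ¬ Cfsg.PRankLE p (k - 1) ↥(P : Subgroup ↥H)) : (∀ X : Subgroup G, X ≤ (P : Subgroup ↥H).map H.subtype → ¬ Cfsg.PRankLE p (k - 1) ↥X → Subgroup.normalizer (X : Set G) ≤ H) ↔ (∀ g : G, g ∉ H → Cfsg.PRankLE p (k - 1) ↥(H ⊓ H.map (MulAut.conj g).toMonoidHom)) := by
  set PP : Subgroup G := (P : Subgroup ↥H).map H.subtype with hPP
  have hPPH : PP ≤ H := by
    rintro _ ⟨a, -, rfl⟩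
    exact a.2
  have hPPp : IsPGroup p PP := P.isPGroup'.map _
  have hrankPP : RankGT p (k - 1) PP := by
    obtain ⟨A, hAP, hA1, hA2, hA3⟩ := (not_pRankLE_iff p (k - 1) (P : Subgroup ↥H)).mp hP
    refine ⟨A.map H.subtype, Subgroup.map_mono hAP, inferInstance, ?_, ?_⟩
    · rintro _ ⟨a, ha, rfl⟩
      rw [← map_pow, hA2 a ha, map_one]
    · rw [Subgroup.card_map_of_injective H.subtype_injective]
      exact hA3
  constructor
  · intro h1 g hg
    by_contra hcon
    rw [not_pRankLE_iff] at hcon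
    have star : ∀ X : Subgroup G, IsPGroup p X → X ≤ H → RankGT p (k - 1) X →
        Subgroup.normalizer (X : Set G) ≤ H := by
      intro X hXp hXH hXr
      obtain ⟨h, hh, hconj⟩ := conj_into H P X hXp hXH
      have hX' : X.map (MulAut.conj h⁻¹).toMonoidHom ≤ PP := by
        rintro _ ⟨x, hx, rfl⟩
        simp only [MulEquiv.coe_toMonoidHom, MulAut.conj_apply, inv_inv]
        exact hconj x hx
      have h2 := h1 _ hX' ((not_pRankLE_iff _ _ _).mpr (hXr.conj h⁻¹))
      intro n hn
      have h4 := h2 (conj_mem_normalizer X h n hn)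
      have e : n = h * (h⁻¹ * n * h) * h⁻¹ := by group
      rw [e]; exact H.mul_mem (H.mul_mem hh h4) (H.inv_mem hh)
    have star2 : ∀ X : Subgroup G, IsPGroup p X → X ≤ H.map (MulAut.conj g).toMonoidHom →
        RankGT p (k - 1) X →
        Subgroup.normalizer (X : Set G) ≤ H.map (MulAut.conj g).toMonoidHom := by
      intro X hXp hXH hXr n hn
      have hX' : X.map (MulAut.conj g⁻¹).toMonoidHom ≤ H := by
        rintro _ ⟨x, hx, rfl⟩
        have := (mem_map_conj_iff H g x).mp (hXH hx)
        simpa using this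
      have h4 := star _ (hXp.map _) hX' (hXr.conj g⁻¹) (conj_mem_normalizer X g n hn)
      rw [mem_map_conj_iff]; exact h4
    obtain ⟨A, hAK, hAp, hAr⟩ := hcon.isPGroup_witness
    set K := H ⊓ H.map (MulAut.conj g).toMonoidHom with hK
    have hA' : IsPGroup p (A.subgroupOf K) := hAp.comap_subtype
    obtain ⟨Q, hQ⟩ := hA'.exists_le_sylow
    set U : Subgroup G := (Q : Subgroup K).map K.subtype with hU
    have hUK : U ≤ K := by
      rintro _ ⟨a, -, rfl⟩
      exact a.2
    have hUp : IsPGroup p U := Q.isPGroup'.map _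
    have hAU : A ≤ U := by
      intro a ha
      exact ⟨⟨a, hAK ha⟩, hQ (by rw [Subgroup.mem_subgroupOf]; exact ha), rfl⟩
    have hUr : RankGT p (k - 1) U := hAr.mono hAU
    have hN1 : Subgroup.normalizer (U : Set G) ≤ H := star U hUp (hUK.trans inf_le_left) hUr
    have hN2 : Subgroup.normalizer (U : Set G) ≤ H.map (MulAut.conj g).toMonoidHom :=
      star2 U hUp (hUK.trans inf_le_right) hUr
    have hNK : Subgroup.normalizer (U : Set G) ≤ K := le_inf hN1 hN2
    have hmax : ∀ R : Subgroup G, IsPGroup p R → U ≤ R → R ≤ K → R = U := by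
      intro R hR hUR hRK
      have h1' : (Q : Subgroup K) ≤ R.subgroupOf K := by
        intro x hx
        rw [Subgroup.mem_subgroupOf]
        exact hUR ⟨x, hx, rfl⟩
      have h2 : R.subgroupOf K = (Q : Subgroup K) := Q.is_maximal' (hR.comap_subtype) h1'
      apply le_antisymm
      · intro r hr
        have h3 : (⟨r, hRK hr⟩ : K) ∈ R.subgroupOf K := by
          rw [Subgroup.mem_subgroupOf]; exact hr
        rw [h2] at h3
        exact ⟨_, h3, rfl⟩
      · exact hUR
    obtain ⟨h, hh, hconj⟩ := conj_into H P U hUp (hUK.trans inf_le_left)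
    set P1 : Subgroup G := PP.map (MulAut.conj h).toMonoidHom with hP1
    have hUP1 : U ≤ P1 := by
      intro x hx
      rw [hP1, mem_map_conj_iff]; exact hconj x hx
    have hP1p : IsPGroup p P1 := hPPp.map _
    have hR : P1 ⊓ Subgroup.normalizer (U : Set G) = U :=
      hmax _ (hP1p.to_inf_left) (le_inf hUP1 Subgroup.le_normalizer) (inf_le_right.trans hNK)
    have hUtop : U.subgroupOf P1 = ⊤ := by
      have hnil : Group.IsNilpotent P1 := hP1p.isNilpotent
      have hnc := Group.normalizerCondition_of_isNilpotent (G := P1)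
      rw [normalizerCondition_iff_only_full_group_self_normalizing] at hnc
      apply hnc
      apply le_antisymm
      · intro x hx
        rw [Subgroup.mem_subgroupOf]
        have h3 : (x : G) ∈ P1 ⊓ Subgroup.normalizer (U : Set G) := by
          refine Subgroup.mem_inf.mpr ⟨x.2, ?_⟩
          rw [Subgroup.mem_normalizer_iff] at hx ⊢
          intro y
          constructor
          · intro hy
            have h4 := (hx ⟨y, hUP1 hy⟩).mp (by rw [Subgroup.mem_subgroupOf]; exact hy)
            rw [Subgroup.mem_subgroupOf] at h4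
            exact h4
          · intro hy
            have hyP1 : y ∈ P1 := by
              have h5 := P1.mul_mem (P1.mul_mem (P1.inv_mem x.2) (hUP1 hy)) x.2
              have e : (x : G)⁻¹ * (x * y * (x : G)⁻¹) * x = y := by group
              rw [e] at h5; exact h5
            have h4 := (hx ⟨y, hyP1⟩).mpr (by rw [Subgroup.mem_subgroupOf]; exact hy)
            rw [Subgroup.mem_subgroupOf] at h4
            exact h4
        rw [hR] at h3; exact h3
      · exact Subgroup.le_normalizer
    have hUeq : U = P1 := by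
      apply le_antisymm hUP1
      intro x hx
      have h3 : (⟨x, hx⟩ : P1) ∈ U.subgroupOf P1 := by rw [hUtop]; exact Subgroup.mem_top _
      rw [Subgroup.mem_subgroupOf] at h3; exact h3
    set U' : Subgroup G := U.map (MulAut.conj g⁻¹).toMonoidHom with hU'
    have hU'H : U' ≤ H := by
      rintro _ ⟨x, hx, rfl⟩
      have := (mem_map_conj_iff H g x).mp ((hUK hx).2)
      simpa using this
    obtain ⟨h', hh', hconj'⟩ := conj_into H P U' (hUp.map _) hU'H
    have hn : h'⁻¹ * g⁻¹ * h ∈ Subgroup.normalizer (PP : Set G) := by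
      apply mem_normalizer_of_conj_le
      intro x hx
      have h3 : h * x * h⁻¹ ∈ U := by
        rw [hUeq, hP1, mem_map_conj_iff]
        have e : h⁻¹ * (h * x * h⁻¹) * h = x := by group
        rw [e]; exact hx
      have h4 : g⁻¹ * (h * x * h⁻¹) * g ∈ U' := by
        rw [hU', mem_map_conj_iff]
        have e : g⁻¹⁻¹ * (g⁻¹ * (h * x * h⁻¹) * g) * g⁻¹ = h * x * h⁻¹ := by group
        rw [e]; exact h3
      have h5 := hconj' _ h4
      have e : h'⁻¹ * g⁻¹ * h * x * (h'⁻¹ * g⁻¹ * h)⁻¹ = h'⁻¹ * (g⁻¹ * (h * x * h⁻¹) * g) * h' := by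
        group
      rw [e]; exact h5
    have hnH := h1 PP le_rfl ((not_pRankLE_iff _ _ _).mpr hrankPP) hn
    apply hg
    have e : g = (h' * (h'⁻¹ * g⁻¹ * h) * h⁻¹)⁻¹ := by group
    rw [e]; exact H.inv_mem (H.mul_mem (H.mul_mem hh' hnH) (H.inv_mem hh))
  · intro h2 X hXPP hXr
    rw [not_pRankLE_iff] at hXr
    intro n hn
    by_contra hnH
    have h3 := h2 n hnH
    apply (not_pRankLE_iff p (k - 1) _).mpr _ h3
    apply hXr.mono
    intro x hx
    refine Subgroup.mem_inf.mpr ⟨hPPH (hXPP hx), ?_⟩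
    rw [mem_map_conj_iff]
    have hn' := Subgroup.inv_mem _ hn
    have h4 := (Subgroup.mem_normalizer_iff.mp hn' x).mp hx
    rw [inv_inv] at h4
    exact hPPH (hXPP h4)

end Cfsg.Agent.S1231
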