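import Cfsg.Statements.S1236
import Cfsg.Agent.H26.QD

set_option autoImplicit false
open Cfsg

namespace Cfsg.Agent.S1236

/-- Let R be a finite group, t a central involution of R such that R ⧸ ⟨t⟩ is dihedral (of order ≥ 4) or quasi-dihedral, and A ≤ R an elementary abelian subgroup of order 8 containing t. Then C_R(A) = A. -/
theorem result {R : Type*} [Group R] [Finite R] (t : R) (ht : orderOf t = 2) (htz : t ∈ Subgroup.center R) [(Subgroup.zpowers t).Normal] (hq : (∃ m : ℕ, 2 ≤ m ∧ Nonempty (R ⧸ Subgroup.zpowers t ≃* DihedralGroup m)) ∨ Cfsg.IsQuasiDihedral (R ⧸ Subgroup.zpowers t)) (A : Subgroup R) (hA : Cfsg.IsElementaryAbelian 2 A) (hA8 : Nat.card A = 8) (htA : t ∈ A) : Subgroup.centralizer (A : Set R) = A := by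
  have hcomm : ∀ a ∈ A, ∀ b ∈ A, a * b = b * a := fun a ha b hb =>
    congrArg Subtype.val (hA.1.is_comm.comm ⟨a, ha⟩ ⟨b, hb⟩)
  rcases hq with ⟨m, hm, ⟨e⟩⟩ | ⟨n, hn, hcard, x, y, hx, hy, hxy⟩
  · have : NeZero m := ⟨by omega⟩
    refine H26.central_ext_self_centralizing t ht ((H26.rotSub m).comap e.toMonoidHom)
      (e.symm (DihedralGroup.r ((m / 2 : ℕ) : ZMod m))) ?_ ?_ A hcomm hA.2 hA8
    · intro c hc hcc
      have h1 : e c * e c = 1 := by rw [← map_mul, hcc, map_one]
      rcases H26.rotSub_sq (e c) hc h1 with h | h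
      · left; exact e.injective (h.trans (map_one e).symm)
      · right; rw [← h, e.symm_apply_apply]
    · intro v hv
      exact le_trans (H26.card_centralizer_le_of_mulEquiv e v)
        (H26.dihedral_centralizer_card_le (e v) hv)
  · refine H26.central_ext_self_centralizing t ht (Subgroup.zpowers x) (x ^ (2 ^ (n - 1)))
      ?_ ?_ A hcomm hA.2 hA8
    · intro c hc hcc
      exact H26.qd_sq_one_of_mem hn hcard hx hy hxy hc hcc
    · intro v hv
      exact H26.qd_centralizer_card_le hn hcard hx hy hxy hv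

end Cfsg.Agent.S1236
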