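import Cfsg.Statements.S1241
import Cfsg.Agent.H26.Transfer

set_option autoImplicit false
open Cfsg

namespace Cfsg.Agent.S1241

open Cfsg.Agent.H26

open scoped IsMulCommutative in
/-- Let G be a finite group, p a prime, H a subgroup of index prime to p, K a subgroup of H normal in H with H/K commutative, and g ∈ H ∖ K an element of p-power order such that for all integers m and all a ∈ G with a g^m a⁻¹ ∈ H one has a g^m a⁻¹ ∈ g^m K. Then g ∉ G'. -/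
theorem result {G : Type*} [Group G] [Finite G] {p : ℕ} [Fact p.Prime] (H K : Subgroup G) (hHK : K ≤ H) (hKn : (K.subgroupOf H).Normal) (hab : ∀ x ∈ H, ∀ y ∈ H, x * y * x⁻¹ * y⁻¹ ∈ K) (hidx : Nat.Coprime p H.index) (g : G) (hgH : g ∈ H) (hgK : g ∉ K) (hgp : ∃ k : ℕ, orderOf g = p ^ k) (hctrl : ∀ (m : ℤ) (a : G), a * g ^ m * a⁻¹ ∈ H → (a * g ^ m * a⁻¹) * (g ^ m)⁻¹ ∈ K) : g ∉ commutator G := by
  intro hgc
  have hcomm : IsMulCommutative (H ⧸ K.subgroupOf H) := by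
    refine ⟨⟨fun a b => ?_⟩⟩
    induction a using QuotientGroup.induction_on with
    | H x =>
      induction b using QuotientGroup.induction_on with
      | H y =>
        rw [← QuotientGroup.mk_mul, ← QuotientGroup.mk_mul, QuotientGroup.eq,
          Subgroup.mem_subgroupOf]
        have h1 := hab (y : G)⁻¹ (H.inv_mem y.2) (x : G)⁻¹ (H.inv_mem x.2)
        have e : ((x * y)⁻¹ * (y * x) : H) = ((y : G)⁻¹ * (x : G)⁻¹ * (y : G)⁻¹⁻¹ * (x : G)⁻¹⁻¹ : G) := by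
          push_cast
          group
        rw [e]; exact h1
  let ϕ : H →* H ⧸ K.subgroupOf H := QuotientGroup.mk' (K.subgroupOf H)
  have key : ∀ (k : ℕ) (g₀ : G) (hk : g₀⁻¹ * ((⟨g, hgH⟩ : H) : G) ^ k * g₀ ∈ H),
      ϕ ⟨g₀⁻¹ * ((⟨g, hgH⟩ : H) : G) ^ k * g₀, hk⟩ = ϕ ((⟨g, hgH⟩ : H) ^ k) := by
    intro k g₀ hk
    symm
    show (QuotientGroup.mk ((⟨g, hgH⟩ : H) ^ k) : H ⧸ K.subgroupOf H) = QuotientGroup.mk _
    rw [QuotientGroup.eq, Subgroup.mem_subgroupOf]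
    have h1 := hctrl (k : ℤ) g₀⁻¹ (by
      rw [inv_inv, zpow_natCast]; exact hk)
    rw [inv_inv, zpow_natCast] at h1
    -- h1 : g₀⁻¹ * g ^ k * g₀ * (g ^ k)⁻¹ ∈ K ; conjugate by (g^k)⁻¹ ∈ H
    have h2 := hKn.conj_mem ⟨g₀⁻¹ * g ^ k * g₀ * (g ^ k)⁻¹, hHK h1⟩
      (by rw [Subgroup.mem_subgroupOf]; exact h1) ((⟨g, hgH⟩ : H) ^ k)⁻¹
    rw [Subgroup.mem_subgroupOf] at h2
    have e : (((⟨g, hgH⟩ : H) ^ k)⁻¹ * ⟨g₀⁻¹ * ((⟨g, hgH⟩ : H) : G) ^ k * g₀, hk⟩ : H) =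
        (((((⟨g, hgH⟩ : H) ^ k)⁻¹ * ⟨g₀⁻¹ * g ^ k * g₀ * (g ^ k)⁻¹, hHK h1⟩ *
          (((⟨g, hgH⟩ : H) ^ k)⁻¹)⁻¹ : H)) : G) := by
      push_cast
      group
    rw [e]; exact h2
  have htr := transfer_eq_pow_of_forall ϕ (⟨g, hgH⟩ : H) key
  have hker : (⟨g, hgH⟩ : H).1 ∈ (MonoidHom.transfer ϕ).ker :=
    Abelianization.commutator_subset_ker (MonoidHom.transfer ϕ) hgc
  rw [MonoidHom.mem_ker] at hker
  rw [htr] at hker
  -- so g ^ index ∈ K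
  have h3 : g ^ H.index ∈ K := by
    have h4 : ϕ ((⟨g, hgH⟩ : H) ^ H.index) = 1 := by rw [map_pow]; exact hker
    have h5 : ((⟨g, hgH⟩ : H) ^ H.index) ∈ K.subgroupOf H :=
      (QuotientGroup.eq_one_iff _).mp h4
    rw [Subgroup.mem_subgroupOf] at h5
    simpa using h5
  obtain ⟨k, hk⟩ := hgp
  have hcop : Nat.Coprime H.index (orderOf g) := by
    rw [hk]
    exact (Nat.Coprime.pow_left k hidx).symm
  obtain ⟨m, hm⟩ := exists_pow_eq_self_of_coprime hcop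
  apply hgK
  rw [← hm]
  exact K.pow_mem h3 m

end Cfsg.Agent.S1241
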