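import Cfsg.Statements.S1243

set_option autoImplicit false
open Cfsg

namespace Cfsg.Agent.S1243

theorem result {G : Type*} [Group G] [Finite G] {p : ℕ} [Fact p.Prime] (T : Sylow p G) (W : Subgroup G) (hW : Cfsg.IsWeaklyClosed W (T : Subgroup G)) (d g : G) (hd : d ∈ Subgroup.centralizer (W : Set G)) (hgd : g * d * g⁻¹ ∈ Subgroup.centralizer (W : Set G)) : ∃ h ∈ Subgroup.normalizer (W : Set G), h * d * h⁻¹ = g * d * g⁻¹ := by
  obtain ⟨hWT, hwc⟩ := hW
  -- W is a p-group
  have hWp : IsPGroup p W := T.isPGroup'.to_le hWT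
  set e := g * d * g⁻¹ with he
  set C : Subgroup G := Subgroup.centralizer ({e} : Set G) with hC
  -- W ≤ C
  have hWC : W ≤ C := by
    intro w hw
    rw [hC, Subgroup.mem_centralizer_iff]
    intro x hx
    rw [Set.mem_singleton_iff] at hx
    subst hx
    exact (hgd w hw).symm
  -- conj g W ≤ C
  have hgWC : W.map (MulAut.conj g).toMonoidHom ≤ C := by
    rintro _ ⟨w, hw, rfl⟩
    rw [hC, Subgroup.mem_centralizer_iff]
    intro x hx
    rw [Set.mem_singleton_iff] at hx
    subst hx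
    have h1 : w * d = d * w := hd w hw
    simp only [MulEquiv.coe_toMonoidHom, MulAut.conj_apply]
    rw [he]
    calc g * d * g⁻¹ * (g * w * g⁻¹) = g * (d * w) * g⁻¹ := by group
      _ = g * (w * d) * g⁻¹ := by rw [h1]
      _ = g * w * g⁻¹ * (g * d * g⁻¹) := by group
  -- the subgroups of C
  have hW'p : IsPGroup p (W.subgroupOf C) := hWp.comap_subtype
  have hgWp : IsPGroup p (W.map (MulAut.conj g).toMonoidHom) := hWp.map _
  have hgW'p : IsPGroup p ((W.map (MulAut.conj g).toMonoidHom).subgroupOf C) := hgWp.comap_subtype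
  obtain ⟨P, hP⟩ := hW'p.exists_le_sylow
  obtain ⟨P2, hP2⟩ := hgW'p.exists_le_sylow
  -- P2 is conjugate to P in C
  obtain ⟨c, hc⟩ := MulAction.exists_smul_eq C P2 P
  -- P.map subtype is a p-subgroup of G hence in a conjugate of T
  have hPG : IsPGroup p ((P : Subgroup C).map C.subtype) := P.isPGroup'.map _
  obtain ⟨T', hT'⟩ := hPG.exists_le_sylow
  obtain ⟨a, ha⟩ := MulAction.exists_smul_eq G T T'
  -- W ≤ T' = a • T
  have hWT' : W ≤ (T' : Subgroup G) := by
    intro w hw
    apply hT'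
    exact ⟨⟨w, hWC hw⟩, hP (by simpa [Subgroup.mem_subgroupOf] using hw), rfl⟩
  have hcgW : W.map (MulAut.conj ((c : G) * g)).toMonoidHom ≤ (T' : Subgroup G) := by
    rintro _ ⟨w, hw, rfl⟩
    apply hT'
    have h1 : (⟨g * w * g⁻¹, hgWC ⟨w, hw, rfl⟩⟩ : C) ∈ (P2 : Subgroup C) := by
      apply hP2
      rw [Subgroup.mem_subgroupOf]
      exact ⟨w, hw, rfl⟩
    have h2 : c * (⟨g * w * g⁻¹, hgWC ⟨w, hw, rfl⟩⟩ : C) * c⁻¹ ∈ (P : Subgroup C) := by
      rw [← hc]
      rw [Sylow.coe_subgroup_smul, Subgroup.mem_pointwise_smul_iff_inv_smul_mem]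
      simp only [MulAut.smul_def, MulAut.conj_inv_apply]
      convert h1 using 1
      group
    refine ⟨_, h2, ?_⟩
    simp [mul_assoc]
  -- translate to T
  have key : ∀ b : G, W.map (MulAut.conj b).toMonoidHom ≤ (T' : Subgroup G) →
      a⁻¹ * b ∈ Subgroup.normalizer (W : Set G) := by
    intro b hb
    have h3 : W.map (MulAut.conj (a⁻¹ * b)).toMonoidHom ≤ (T : Subgroup G) := by
      rintro _ ⟨w, hw, rfl⟩
      have h4 : b * w * b⁻¹ ∈ (T' : Subgroup G) := hb ⟨w, hw, rfl⟩
      rw [← ha, Sylow.coe_subgroup_smul, Subgroup.mem_pointwise_smul_iff_inv_smul_mem] at h4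
      simp only [MulAut.smul_def, MulAut.conj_inv_apply] at h4
      simpa [mul_assoc] using h4
    have h5 := hwc _ h3
    rw [Subgroup.mem_normalizer_iff]
    intro w
    constructor
    · intro hw
      rw [← h5]
      exact ⟨w, hw, rfl⟩
    · intro hw
      rw [← h5] at hw
      obtain ⟨w', hw', hw'2⟩ := hw
      simp only [MulEquiv.coe_toMonoidHom, MulAut.conj_apply] at hw'2
      have : w' = w := by
        exact mul_left_cancel (mul_right_cancel hw'2)
      rw [← this]; exact hw'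
  have h1 : a⁻¹ * 1 ∈ Subgroup.normalizer (W : Set G) := by
    apply key
    rintro _ ⟨w, hw, rfl⟩
    simpa using hWT' hw
  have h2 : a⁻¹ * ((c : G) * g) ∈ Subgroup.normalizer (W : Set G) := key _ hcgW
  refine ⟨(c : G) * g, ?_, ?_⟩
  · have h3 : a ∈ Subgroup.normalizer (W : Set G) := by
      have := Subgroup.inv_mem _ h1
      simpa using this
    have := Subgroup.mul_mem _ h3 h2
    simpa [mul_assoc] using this
  · have hcC : (c : G) * e = e * (c : G) := by
      have h6 : (c : G) ∈ Subgroup.centralizer ({e} : Set G) := c.2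
      rw [Subgroup.mem_centralizer_iff] at h6
      exact (h6 e rfl).symm
    calc (c : G) * g * d * ((c : G) * g)⁻¹ = (c : G) * e * (c : G)⁻¹ := by rw [he]; group
      _ = e := by rw [hcC]; group

end Cfsg.Agent.S1243
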