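import Cfsg.Statements.S1244
import Cfsg.Agent.H26.Rank

set_option autoImplicit false
open Cfsg

namespace Cfsg.Agent.S1244

open Cfsg.Agent.H26

theorem hom_trivial_of_no_index_two {G A : Type*} [Group G] [Finite G] [Group A]
    (hG : ∀ H : Subgroup G, H.index ≠ 2) (hA : IsPGroup 2 A) (τ : G →* A) (g : G) : τ g = 1 := by
  by_contra hne
  have : Fact (Nat.Prime 2) := ⟨Nat.prime_two⟩
  have hfin : Finite τ.range := Finite.of_surjective τ.rangeRestrict τ.rangeRestrict_surjective
  have hp : IsPGroup 2 τ.range := hA.to_subgroup _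
  have hnt : Nontrivial τ.range :=
    ⟨⟨⟨τ g, g, rfl⟩, 1, fun h => hne (congrArg Subtype.val h)⟩⟩
  obtain ⟨j, hj0, hj⟩ := hp.nontrivial_iff_card.mp hnt
  obtain ⟨K, hK⟩ := Sylow.exists_subgroup_card_pow_prime 2 (G := τ.range) (n := j - 1)
    (by rw [hj]; exact pow_dvd_pow 2 (by omega))
  have hidx : K.index = 2 := by
    have h1 := K.index_mul_card
    rw [hK, hj] at h1
    have h2 : (2 : ℕ) ^ j = 2 * 2 ^ (j - 1) := by
      rw [← pow_succ']; congr 1; omega
    rw [h2] at h1
    exact Nat.eq_of_mul_eq_mul_right (by positivity) h1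
  have h3 := Subgroup.index_comap_of_surjective K τ.rangeRestrict_surjective
  exact hG _ (h3.trans hidx)

open scoped IsMulCommutative in
/-- Let G be a finite group with no subgroup of index 2 whose Sylow 2-subgroup S is commutative, and let R ≤ S be a subgroup whose 2-rank is exactly one less than the 2-rank r of S. Then every involution of S is conjugate, by an element of N_G(S), to an element of R. -/
theorem result {G : Type*} [Group G] [Finite G] (hG : ∀ H : Subgroup G, H.index ≠ 2) (S : Sylow 2 G) (hS : IsMulCommutative (S : Subgroup G)) (r : ℕ) (hr1 : 1 ≤ r) (hSr : Cfsg.PRankLE 2 r (S : Subgroup G) ∧ ¬ Cfsg.PRankLE 2 (r - 1) (S : Subgroup G)) (R : Subgroup G) (hRS : R ≤ S) (hRr : Cfsg.PRankLE 2 (r - 1) R ∧ (r = 1 ∨ ¬ Cfsg.PRankLE 2 (r - 2) R)) (t : G) (ht : orderOf t = 2) (htS : t ∈ S) : ∃ n ∈ Subgroup.normalizer ((S : Subgroup G) : Set G), n * t * n⁻¹ ∈ R := by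
  have hF2 : Fact (Nat.Prime 2) := ⟨Nat.prime_two⟩
  have hcommS : ∀ a ∈ (S : Subgroup G), ∀ b ∈ (S : Subgroup G), a * b = b * a := by
    intro a ha b hb
    exact congrArg Subtype.val (hS.is_comm.comm ⟨a, ha⟩ ⟨b, hb⟩)
  let V : Subgroup G :=
    { carrier := {s | s ∈ (S : Subgroup G) ∧ s * s = 1}
      mul_mem' := by
        rintro a b ⟨ha, ha2⟩ ⟨hb, hb2⟩
        refine ⟨(S : Subgroup G).mul_mem ha hb, ?_⟩
        calc a * b * (a * b) = a * (b * a) * b := by group
          _ = a * (a * b) * b := by rw [hcommS b hb a ha]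
          _ = (a * a) * (b * b) := by group
          _ = 1 := by rw [ha2, hb2, one_mul]
      one_mem' := ⟨(S : Subgroup G).one_mem, by simp⟩
      inv_mem' := by
        rintro a ⟨ha, ha2⟩
        refine ⟨(S : Subgroup G).inv_mem ha, ?_⟩
        rw [← mul_inv_rev, ha2, inv_one] }
  have hVS : V ≤ (S : Subgroup G) := fun s hs => hs.1
  have hVcard : Nat.card V ≤ 2 ^ r := by
    have h1 := hSr.1 (V.subgroupOf (S : Subgroup G))
      ⟨⟨fun a b => Subtype.ext (hS.is_comm.comm a.1 b.1)⟩⟩
      (by
        intro a ha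
        rw [Subgroup.mem_subgroupOf] at ha
        apply Subtype.ext
        rw [pow_two]
        exact ha.2)
    rwa [Nat.card_congr (Subgroup.subgroupOfEquivOfLe hVS).toEquiv] at h1
  set W : Subgroup G := V ⊓ R with hW
  have hWcard : 2 ^ (r - 1) ≤ Nat.card W := by
    rcases hRr.2 with h1 | h1
    · subst h1
      simp only [Nat.sub_self, pow_zero]
      exact Nat.card_pos
    · obtain ⟨A, hAR, hA1, hA2, hA3⟩ := (not_pRankLE_iff 2 (r - 2) R).mp h1
      have hAW : A ≤ W := by
        intro a ha
        refine Subgroup.mem_inf.mpr ⟨⟨hRS (hAR ha), ?_⟩, hAR ha⟩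
        have := hA2 a ha
        rwa [pow_two] at this
      have hAp : IsPGroup 2 A := by
        intro a
        refine ⟨1, ?_⟩
        apply Subtype.ext
        simpa using hA2 a a.2
      obtain ⟨j, hj⟩ := IsPGroup.iff_card.mp hAp
      rw [hj] at hA3
      have hlt : r - 2 < j := (Nat.pow_lt_pow_iff_right (by norm_num)).mp hA3
      calc 2 ^ (r - 1) ≤ 2 ^ j := Nat.pow_le_pow_right (by norm_num) (by omega)
        _ = Nat.card A := hj.symm
        _ ≤ Nat.card W := Subgroup.card_le_of_le hAW
  by_contra hcon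
  simp only [not_exists, not_and] at hcon
  have htV : t ∈ V := ⟨htS, inv_sq ht⟩
  have htW : t ∉ W := fun h =>
    hcon 1 (Subgroup.one_mem _) (by simpa using (Subgroup.mem_inf.mp h).2)
  have hWV : W ≤ V := inf_le_left
  have hidx : (W.subgroupOf V).index = 2 := by
    have h1 := (W.subgroupOf V).index_mul_card
    rw [Nat.card_congr (Subgroup.subgroupOfEquivOfLe hWV).toEquiv] at h1
    have h2 : (W.subgroupOf V).index ≠ 1 := by
      intro h
      rw [Subgroup.index_eq_one] at h
      have h3 : (⟨t, htV⟩ : V) ∈ W.subgroupOf V := by rw [h]; exact Subgroup.mem_top _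
      rw [Subgroup.mem_subgroupOf] at h3
      exact htW h3
    have hVpos : 0 < Nat.card V := Nat.card_pos
    have h3 : (W.subgroupOf V).index ≠ 0 := by
      intro h
      rw [h, zero_mul] at h1
      omega
    have h4 : Nat.card V ≤ 2 * Nat.card W := by
      calc Nat.card V ≤ 2 ^ r := hVcard
        _ = 2 * 2 ^ (r - 1) := by rw [← pow_succ']; congr 1; omega
        _ ≤ 2 * Nat.card W := Nat.mul_le_mul_left 2 hWcard
    have hWpos : 0 < Nat.card W := Nat.card_pos
    have h5 : (W.subgroupOf V).index ≤ 2 := by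
      rw [← h1] at h4
      exact Nat.le_of_mul_le_mul_right h4 hWpos
    omega
  have hmul : ∀ a ∈ V, ∀ b ∈ V, (a * b ∈ W ↔ (a ∈ W ↔ b ∈ W)) := by
    intro a ha b hb
    have := Subgroup.mul_mem_iff_of_index_two hidx (a := ⟨a, ha⟩) (b := ⟨b, hb⟩)
    simpa [Subgroup.mem_subgroupOf] using this
  have hS' : IsMulCommutative (S : Subgroup G) := hS
  have hτ : MonoidHom.transfer (MonoidHom.id (S : Subgroup G)) t = 1 :=
    hom_trivial_of_no_index_two hG S.isPGroup' _ t
  classical
  letI hfin : Fintype (Quotient (MulAction.orbitRel (Subgroup.zpowers t) (G ⧸ (S : Subgroup G)))) :=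
    Fintype.ofFinite _
  have hformula := MonoidHom.transfer_eq_prod_quotient_orbitRel_zpowers_quot
    (MonoidHom.id (S : Subgroup G)) t
  have hsum := Subgroup.index_eq_sum_minimalPeriod (S : Subgroup G) t
  -- facts about the factors
  have hfac : ∀ q : Quotient (MulAction.orbitRel (Subgroup.zpowers t) (G ⧸ (S : Subgroup G))),
      (Even (Function.minimalPeriod (t • ·) q.out) →
        q.out.out⁻¹ * t ^ Function.minimalPeriod (t • ·) q.out * q.out.out = 1) ∧
      (Odd (Function.minimalPeriod (t • ·) q.out) →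
        q.out.out⁻¹ * t ^ Function.minimalPeriod (t • ·) q.out * q.out.out ∈ V ∧
        q.out.out⁻¹ * t ^ Function.minimalPeriod (t • ·) q.out * q.out.out ∉ W) := by
    intro q
    have hmem := QuotientGroup.out_conj_pow_minimalPeriod_mem (S : Subgroup G) t q.out
    constructor
    · rintro ⟨m, hm⟩
      rw [hm, ← two_mul, pow_mul, pow_two, inv_sq ht, one_pow, mul_one, inv_mul_cancel]
    · rintro ⟨m, hm⟩
      have e : t ^ Function.minimalPeriod (t • ·) q.out = t := by
        rw [hm, pow_succ, pow_mul, pow_two, inv_sq ht, one_pow, one_mul]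
      rw [e] at hmem ⊢
      obtain ⟨n, hn, hconj⟩ := S.conj_eq_normalizer_conj_of_mem t q.out.out htS hmem
      rw [hconj]
      constructor
      · refine ⟨?_, ?_⟩
        · rw [← hconj]; exact hmem
        · calc n⁻¹ * t * n * (n⁻¹ * t * n) = n⁻¹ * (t * t) * n := by group
            _ = 1 := by rw [inv_sq ht]; group
      · intro hW'
        have h1 := hcon n⁻¹ (Subgroup.inv_mem _ hn)
        rw [inv_inv] at h1
        exact h1 (Subgroup.mem_inf.mp hW').2
  have claim : ∀ s : Finset (Quotient (MulAction.orbitRel (Subgroup.zpowers t) (G ⧸ (S : Subgroup G)))),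
      (((∏ q ∈ s, (MonoidHom.id (S : Subgroup G))
          ⟨q.out.out⁻¹ * t ^ Function.minimalPeriod (t • ·) q.out * q.out.out,
            QuotientGroup.out_conj_pow_minimalPeriod_mem (S : Subgroup G) t q.out⟩ :
            (S : Subgroup G)) : G) ∈ V) ∧
      ((((∏ q ∈ s, (MonoidHom.id (S : Subgroup G))
          ⟨q.out.out⁻¹ * t ^ Function.minimalPeriod (t • ·) q.out * q.out.out,
            QuotientGroup.out_conj_pow_minimalPeriod_mem (S : Subgroup G) t q.out⟩ :
            (S : Subgroup G)) : G) ∈ W) ↔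
        Even (∑ q ∈ s, Function.minimalPeriod (t • ·) q.out)) := by
    intro s
    induction s using Finset.induction_on with
    | empty =>
      simp only [Finset.prod_empty, Finset.sum_empty, Subgroup.coe_one]
      exact ⟨V.one_mem, by simp [W.one_mem]⟩
    | insert q s hq ih =>
      rw [Finset.prod_insert hq, Finset.sum_insert hq, Subgroup.coe_mul]
      simp only [MonoidHom.id_apply] at ih ⊢
      rcases Nat.even_or_odd (Function.minimalPeriod (t • ·) q.out) with he | ho
      · rw [(hfac q).1 he, one_mul]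
        refine ⟨ih.1, ?_⟩
        rw [ih.2, Nat.even_add]
        simp [he]
      · obtain ⟨hv, hw⟩ := (hfac q).2 ho
        refine ⟨V.mul_mem hv ih.1, ?_⟩
        rw [hmul _ hv _ ih.1, ih.2, Nat.even_add]
        simp [hw, Nat.not_even_iff_odd.mpr ho]
  have hfinal := (claim Finset.univ).2
  rw [← hformula, hτ, ← hsum] at hfinal
  have heven : Even (S : Subgroup G).index := hfinal.mp (by simp [W.one_mem])
  exact S.not_dvd_index (even_iff_two_dvd.mp heven)

end Cfsg.Agent.S1244
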