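import Cfsg.Statements.S1246
import Mathlib
import Cfsg.Agent.H54.FStar

set_option autoImplicit false
open Cfsg

namespace Cfsg.Agent.S1246

open Cfsg Cfsg.Agent.H54

variable {G : Type*} [Group G] [Finite G] {p : ℕ} [Fact p.Prime]

omit [Finite G] [Fact p.Prime] in
/-- a `p'`-element of `M ⊔ V` (`V` a `p`-group normalizing `M`) lies in `M`. -/
theorem mem_of_coprime (M V : Subgroup G) (hV : IsPGroup p V)
    (hn : V ≤ Subgroup.normalizer (M : Set G))
    (c : G) (hc : c ∈ M ⊔ V) (hcop : (orderOf c).Coprime p) : c ∈ M := by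
  set N := Subgroup.normalizer (M : Set G) with hN
  have hMN : M ≤ N := Subgroup.le_normalizer
  have hcN : c ∈ N := (sup_le hMN hn) hc
  let φ := QuotientGroup.mk' (M.subgroupOf N)
  have himg : φ ⟨c, hcN⟩ ∈ (V.subgroupOf N).map φ := by
    have h1 : (⟨c, hcN⟩ : N) ∈ (M ⊔ V).subgroupOf N := Subgroup.mem_subgroupOf.mpr hc
    rw [Subgroup.subgroupOf_sup hMN hn] at h1
    have h2 := Subgroup.mem_map_of_mem φ h1
    rw [Subgroup.map_sup, QuotientGroup.map_mk'_self, bot_sup_eq] at h2
    exact h2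
  have hpg : IsPGroup p ((V.subgroupOf N).map φ) := (hV.comap_subtype).map φ
  obtain ⟨k, hk⟩ := hpg ⟨_, himg⟩
  have hk' : (φ ⟨c, hcN⟩) ^ p ^ k = 1 := by
    have := congrArg Subtype.val hk
    simpa using this
  have ho : (φ ⟨c, hcN⟩) ^ orderOf c = 1 := by
    rw [← map_pow]
    have : (⟨c, hcN⟩ : N) ^ orderOf c = 1 := by
      apply Subtype.ext
      simp [pow_orderOf_eq_one]
    rw [this, map_one]
  have h1 : orderOf (φ ⟨c, hcN⟩) ∣ p ^ k := orderOf_dvd_of_pow_eq_one hk'
  have h2 : orderOf (φ ⟨c, hcN⟩) ∣ orderOf c := orderOf_dvd_of_pow_eq_one ho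
  have h3 : Nat.Coprime (orderOf c) (p ^ k) := Nat.Coprime.pow_right k hcop
  have h4 : orderOf (φ ⟨c, hcN⟩) = 1 := Nat.eq_one_of_dvd_coprimes h3 h2 h1
  have h5 : φ ⟨c, hcN⟩ = 1 := orderOf_eq_one_iff.mp h4
  have h6 : (⟨c, hcN⟩ : N) ∈ M.subgroupOf N := (QuotientGroup.eq_one_iff _).mp h5
  exact Subgroup.mem_subgroupOf.mp h6

/-- an extension of a characteristic `p` group by a `p`-group has characteristic `p`. -/
theorem charP_sup (M V : Subgroup G) (hM : CharP p ↥M) (hV : IsPGroup p V)
    (hn : V ≤ Subgroup.normalizer (M : Set G)) : CharP p ↥(M ⊔ V) := by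
  apply charP_of_p'_trivial
  intro c hc hcop hcent
  have hcM := mem_of_coprime M V hV hn c hc hcop
  apply p'_trivial_of_charP M hM c hcM hcop
  intro q hq
  apply hcent
  exact pCoreOf_le_pCoreOf le_sup_left (sup_le Subgroup.le_normalizer hn) hq

theorem charP_step (V V₁ : Subgroup G) (hV₁ : IsPGroup p V₁) (hVV₁ : V ≤ V₁)
    (hn : V₁ ≤ Subgroup.normalizer (V : Set G))
    (hM : CharP p ↥(Subgroup.centralizer (V : Set G))) :
    CharP p ↥(Subgroup.centralizer (V₁ : Set G)) := by
  have hn' : V₁ ≤ Subgroup.normalizer ((Subgroup.centralizer (V : Set G) : Subgroup G) : Set G) :=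
    hn.trans (normalizer_le_normalizer_centralizer V)
  have hX := charP_sup (Subgroup.centralizer (V : Set G)) V₁ hM hV₁ hn'
  exact charP_centralizer_of_centralizer_le _ V₁ hX hV₁ le_sup_right
    ((Subgroup.centralizer_le hVV₁).trans le_sup_left)

/-- centralizers of larger `p`-subgroups inherit characteristic `p`. -/
theorem charP_chain (U : Subgroup G) (hU : IsPGroup p U) :
    ∀ (n : ℕ) (V : Subgroup G), V ≤ U → Nat.card U - Nat.card V = n →
      CharP p ↥(Subgroup.centralizer (V : Set G)) → CharP p ↥(Subgroup.centralizer (U : Set G)) := by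
  intro n
  induction n using Nat.strong_induction_on with
  | _ n ih =>
    intro V hVU hn hV
    by_cases hVeq : V = U
    · rw [← hVeq]; exact hV
    have hlt : V < U := lt_of_le_of_ne hVU hVeq
    have hnil : Group.IsNilpotent ↥U := hU.isNilpotent
    have hnc := Group.normalizerCondition_of_isNilpotent (G := ↥U)
    have hV'lt : V.subgroupOf U < ⊤ := by
      rw [lt_top_iff_ne_top]
      intro h
      rw [Subgroup.subgroupOf_eq_top] at h
      exact hVeq (le_antisymm hVU h)
    have h1 := hnc _ hV'lt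
    set V₁ := (Subgroup.normalizer ((V.subgroupOf U : Subgroup ↥U) : Set ↥U)).map U.subtype with hV₁
    have hV₁U : V₁ ≤ U := Subgroup.map_subtype_le _
    have hVV₁ : V < V₁ := by
      have h2 := (Subgroup.map_lt_map_iff_of_injective (f := U.subtype) Subtype.val_injective).mpr h1
      rw [Subgroup.map_subgroupOf_eq_of_le hVU] at h2
      exact h2
    have hnorm : V₁ ≤ Subgroup.normalizer (V : Set G) := by
      apply le_normalizer_of_conj_mem
      rintro _ ⟨x, hx, rfl⟩ h hh
      have h3 : (⟨h, hVU hh⟩ : U) ∈ V.subgroupOf U := Subgroup.mem_subgroupOf.mpr hh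
      have h4 := (Subgroup.mem_normalizer_iff.mp hx _).mp h3
      exact Subgroup.mem_subgroupOf.mp h4
    have hstep := charP_step V V₁ (hU.to_le hV₁U) hVV₁.le hnorm hV
    have hc1 : Nat.card V < Nat.card V₁ := by
      have h5 : Nat.card V ≤ Nat.card V₁ := Subgroup.card_le_of_le hVV₁.le
      rcases Nat.lt_or_ge (Nat.card V) (Nat.card V₁) with h6 | h6
      · exact h6
      · exfalso
        have h7 : V = V₁ := Subgroup.eq_of_le_of_card_ge hVV₁.le h6
        exact hVV₁.ne h7
    have hc2 : Nat.card V₁ ≤ Nat.card U := Subgroup.card_le_of_le hV₁U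
    exact ih (Nat.card U - Nat.card V₁) (by omega) V₁ hV₁U rfl hstep

/-- Let V ≤ U be p-subgroups of the finite group G. If the generalized Fitting subgroup of C_G(V) is a p-group, then so is that of C_G(U). -/
theorem result {G : Type*} [Group G] [Finite G] {p : ℕ} [Fact p.Prime] (U V : Subgroup G) (hVU : V ≤ U) (hU : IsPGroup p U) (hV : IsPGroup p ↥(Cfsg.generalizedFittingSubgroup ↥(Subgroup.centralizer (V : Set G)))) : IsPGroup p ↥(Cfsg.generalizedFittingSubgroup ↥(Subgroup.centralizer (U : Set G))) := by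
  have h1 : CharP p ↥(Subgroup.centralizer (V : Set G)) := by
    rw [← fstar_eq_pCore_iff_charP]
    apply le_antisymm
    · exact le_pCore inferInstance hV
    · exact (Cfsg.Agent.H27.pCore_le_fitting p).trans le_sup_right
  have h2 := charP_chain U hU _ V hVU rfl h1
  rw [← fstar_eq_pCore_iff_charP] at h2
  rw [h2]
  exact pCore_isPGroup p _

end Cfsg.Agent.S1246
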