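import Cfsg.Statements.S1248
import Cfsg.Agent.H60.SuzSU
import Cfsg.Agent.H60.SuzFacts

set_option autoImplicit false
open Cfsg

namespace Cfsg.Agent.S1248

/-- Let F be a field with 16 elements and S a Sylow 2-subgroup of PSU(3) over F (the unitary group U₃(4)). Then |S| = 64; the centre Z(S) is a Klein four-group and coincides with the subgroup generated by the involutions of S and with the derived subgroup; and every element of S ⧸ Z(S) squares to the identity, S ⧸ Z(S) having order 16. -/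
theorem result {F : Type*} [Field F] [Fintype F] (hF : Fintype.card F = 16) (S : Sylow 2 (Cfsg.PSU 3 F 4)) : Nat.card S = 64 ∧ IsKleinFour (Subgroup.center (S : Subgroup (Cfsg.PSU 3 F 4))) ∧ Subgroup.center (S : Subgroup (Cfsg.PSU 3 F 4)) = Subgroup.closure {x : (S : Subgroup (Cfsg.PSU 3 F 4)) | orderOf x = 2} ∧ Subgroup.center (S : Subgroup (Cfsg.PSU 3 F 4)) = commutator (S : Subgroup (Cfsg.PSU 3 F 4)) ∧ Nat.card ((S : Subgroup (Cfsg.PSU 3 F 4)) ⧸ Subgroup.center (S : Subgroup (Cfsg.PSU 3 F 4))) = 16 ∧ ∀ x : (S : Subgroup (Cfsg.PSU 3 F 4)) ⧸ Subgroup.center (S : Subgroup (Cfsg.PSU 3 F 4)), x ^ 2 = 1 := by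
  have hS2 : Cfsg.Agent.H60.SuzFin F 2 := ⟨hF.trans (by norm_num), by norm_num⟩
  obtain ⟨e⟩ := Cfsg.Agent.H60.sylow_psu_iso (F := F) (n := 2) S
  have hc : Nat.card (Subgroup.center (S : Subgroup (Cfsg.PSU 3 F 4))) = 4 :=
    Cfsg.Agent.H60.tr_card_center e
  refine ⟨Cfsg.Agent.H60.tr_card e, ⟨hc, ?_⟩, Cfsg.Agent.H60.tr_center_eq_closure e,
    Cfsg.Agent.H60.tr_center_eq_commutator e, Cfsg.Agent.H60.tr_card_quot e,
    Cfsg.Agent.H60.tr_quot_sq e⟩
  have h1 : Monoid.exponent (Subgroup.center (S : Subgroup (Cfsg.PSU 3 F 4))) ∣ 2 := by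
    apply Monoid.exponent_dvd_of_forall_pow_eq_one
    intro g
    apply Subtype.ext
    have := Cfsg.Agent.H60.tr_center_sq e g.2
    rw [pow_two]
    exact this
  rcases (Nat.dvd_prime Nat.prime_two).mp h1 with h | h
  · exfalso
    rw [Monoid.exp_eq_one_iff] at h
    have : Nat.card (Subgroup.center (S : Subgroup (Cfsg.PSU 3 F 4))) ≤ 1 :=
      Finite.card_le_one_iff_subsingleton.mpr h
    omega
  · exact h

end Cfsg.Agent.S1248
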