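import Cfsg.Statements.S1256
import Cfsg.Agent.H11.DihKlein

set_option autoImplicit false
open Cfsg

namespace Cfsg.Agent.S1256

/-- Let X be a finite group whose Sylow 2-subgroup S is dihedral of order 2m ≥ 4. If |S| = 4, any two Klein four-subgroups of X are conjugate; if |S| > 4, there are Klein four-subgroups U₁, U₂ of X that are not conjugate, and every Klein four-subgroup of X is conjugate to U₁ or to U₂. -/
theorem result {X : Type*} [Group X] [Finite X] (S : Sylow 2 X) (m : ℕ) (hm : 2 ≤ m) (eS : (S : Subgroup X) ≃* DihedralGroup m) : (Nat.card S = 4 → ∀ U V : Subgroup X, IsKleinFour U → IsKleinFour V → (∃ x : X, U.map (MulAut.conj x).toMonoidHom = V)) ∧ (4 < Nat.card S → ∃ U₁ U₂ : Subgroup X, IsKleinFour U₁ ∧ IsKleinFour U₂ ∧ ¬ (∃ x : X, U₁.map (MulAut.conj x).toMonoidHom = U₂) ∧ ∀ V : Subgroup X, IsKleinFour V → (∃ x : X, V.map (MulAut.conj x).toMonoidHom = U₁) ∨ (∃ x : X, V.map (MulAut.conj x).toMonoidHom = U₂)) := by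
  refine ⟨?_, ?_⟩
  · intro h4 U V hU hV
    exact Cfsg.Agent.H11.DK.one_class S h4 U V hU hV
  · intro h4
    exact Cfsg.Agent.H11.DK.two_classes S m eS h4

end Cfsg.Agent.S1256
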