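import Cfsg.Statements.S1267
import Cfsg.Agent.H28.PLocal

namespace Cfsg.Agent.S1267

theorem result {G : Type*} [Group G] [Finite G] (p : ℕ) [Fact p.Prime] (P : Subgroup G) (hP : P ≤ Cfsg.pCore p G) : (Cfsg.layer ↥(Subgroup.normalizer ((P : Subgroup G) : Set G))).map (Subgroup.normalizer ((P : Subgroup G) : Set G)).subtype = Cfsg.layer G := by
  exact Cfsg.Agent.H28.layer_normalizer_eq p P hP

end Cfsg.Agent.S1267
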