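import Cfsg.Statements.S1268
import Cfsg.Agent.H28.PLocal

namespace Cfsg.Agent.S1268

theorem result {G : Type*} [Group G] [Finite G] (p : ℕ) [Fact p.Prime] (h : Cfsg.generalizedFittingSubgroup G = Cfsg.pCore p G) (P : Subgroup G) (hP : IsPGroup p ↥P) : Cfsg.generalizedFittingSubgroup ↥(Subgroup.normalizer ((P : Subgroup G) : Set G)) = Cfsg.pCore p ↥(Subgroup.normalizer ((P : Subgroup G) : Set G)) := by
  exact Cfsg.Agent.H28.genFitting_normalizer_eq_pCore_of_eq p h P hP

end Cfsg.Agent.S1268
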