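import Cfsg.Statements.S1272
import Cfsg.Agent.H27.PComp

set_option autoImplicit false
open Cfsg

namespace Cfsg.Agent.S1272

/-- Let X be finite and Q = X / O_{p'}(X). For every component Kbar of Q there is a unique p-component K of X whose image in Q is Kbar; and the image of the p-layer L_{p'}(X) in Q is E(Q). -/
theorem result {X : Type*} [Group X] [Finite X] (p : ℕ) [Fact p.Prime] : (∀ Kbar : Subgroup (X ⧸ Cfsg.pPrimeCore p X), Cfsg.IsComponent Kbar → ∃! K : Subgroup X, Cfsg.IsPComponent p K ∧ K.map (QuotientGroup.mk' (Cfsg.pPrimeCore p X)) = Kbar) ∧ (Cfsg.pLayer p X).map (QuotientGroup.mk' (Cfsg.pPrimeCore p X)) = Cfsg.layer (X ⧸ Cfsg.pPrimeCore p X) := by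
  refine ⟨fun Kbar hKbar => ?_, ?_⟩
  · refine ⟨Cfsg.Agent.H27.pGen p Kbar,
      ⟨Cfsg.Agent.H27.isPComponent_pGen hKbar, Cfsg.Agent.H27.map_pGen hKbar⟩, ?_⟩
    rintro K ⟨hK, hmap⟩
    rw [← Cfsg.Agent.H27.pGen_map_eq hK, hmap]
  · unfold Cfsg.pLayer Cfsg.layer
    apply le_antisymm
    · rw [Subgroup.map_le_iff_le_comap]
      apply sSup_le
      intro K hK
      rw [← Subgroup.map_le_iff_le_comap]
      exact le_sSup hK.2.1
    · apply sSup_le
      intro Kbar hKbar
      rw [← Cfsg.Agent.H27.map_pGen (p := p) hKbar]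
      exact Subgroup.map_mono (le_sSup (Cfsg.Agent.H27.isPComponent_pGen hKbar))

end Cfsg.Agent.S1272
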