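import Cfsg.Statements.S1273
import Cfsg.Agent.H27.PComp

set_option autoImplicit false
open Cfsg

namespace Cfsg.Agent.S1273

/-- Let K be a p-component of the finite group X and N a normal subgroup of K whose index in K is prime to p. Then N = K. -/
theorem result {X : Type*} [Group X] [Finite X] (p : ℕ) [Fact p.Prime] (K : Subgroup X) (hK : Cfsg.IsPComponent p K) (N : Subgroup ↥K) [N.Normal] (hidx : (N.index).Coprime p) : N = ⊤ := by
  rw [eq_top_iff]
  have h1 : K ≤ N.map K.subtype := by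
    conv_lhs => rw [← Cfsg.Agent.H27.pGen_map_eq hK]
    apply (Subgroup.closure_le _).mpr
    intro x hx
    have hxK : x ∈ K := by
      have h2 : x ∈ Cfsg.Agent.H27.pGen p (K.map (QuotientGroup.mk' (Cfsg.pPrimeCore p X))) :=
        Subgroup.subset_closure hx
      rw [Cfsg.Agent.H27.pGen_map_eq hK] at h2
      exact h2
    have hx' : Cfsg.Agent.H27.IsPElt p (⟨x, hxK⟩ : K) :=
      Cfsg.Agent.H27.isPElt_of_map_injective K.subtype K.subtype_injective hx.1
    exact ⟨⟨x, hxK⟩, Cfsg.Agent.H27.isPElt_mem_of_index_coprime N hidx hx', rfl⟩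
  rintro ⟨x, hx⟩ _
  obtain ⟨y, hy, hyx⟩ := h1 hx
  have hyeq : y = ⟨x, hx⟩ := Subtype.ext hyx
  rw [← hyeq]
  exact hy

end Cfsg.Agent.S1273
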