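import Mathlib
import Cfsg.Statements.S1279
import Cfsg.Agent.H58.Bal
import Cfsg.Agent.H58.Std
import Cfsg.Agent.H37.Balance

set_option autoImplicit false
open Cfsg

namespace Cfsg.Agent.S1279

open Cfsg.Agent.H58 Cfsg.Agent.H37 in
/-- Let A be a noncyclic elementary abelian p-subgroup of the finite group G such that C_G(a) is solvable for every non-identity a ∈ A. Then a ↦ O_{p'}(C_G(a)) is a solvable A-signalizer functor on G. -/
theorem result {G : Type*} [Group G] [Finite G] (p : ℕ) [Fact p.Prime] (A : Subgroup G) (hA : Cfsg.IsElementaryAbelian p A) (hA2 : p ^ 2 ≤ Nat.card ↥A) (hsolv : ∀ a ∈ A, a ≠ 1 → Group.IsSolvable ↥(Subgroup.centralizer ({a} : Set G))) : Cfsg.IsSolvableSignalizerFunctor p A (fun a => Cfsg.centralizerPPrimeCore p a) := by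
  have hp : p.Prime := Fact.out
  have hcomm : ∀ a ∈ A, ∀ b ∈ A, a * b = b * a := fun a ha b hb =>
    congrArg Subtype.val ((isMulCommutative_iff.mp hA.1) ⟨a, ha⟩ ⟨b, hb⟩)
  have hAC : ∀ a ∈ A, ∀ b ∈ A, b ∈ Subgroup.centralizer ({a} : Set G) := fun a ha b hb =>
    Subgroup.mem_centralizer_singleton_iff.mpr (hcomm b hb a ha)
  have hndvd : ∀ a : G, ¬ p ∣ Nat.card ↥(Cfsg.centralizerPPrimeCore p a) := by
    intro a h
    have h1 := card_centralizerPPrimeCore_coprime p a
    have := Nat.dvd_gcd h (dvd_refl p)
    rw [h1] at this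
    exact hp.one_lt.ne' (Nat.dvd_one.mp this)
  refine ⟨⟨?_, ?_, ?_, ?_⟩, ?_⟩
  · intro a _ _
    exact centralizerPPrimeCore_le_centralizer p a
  · intro a _ _
    exact hndvd a
  · intro a ha _ b hb x hx
    exact conj_mem_centralizerPPrimeCore p (hAC a ha b hb) hx
  · intro a ha ha1 b hb hb1 x hx
    have hx1 := (Subgroup.mem_inf.mp hx).1
    have hx2 := (Subgroup.mem_inf.mp hx).2
    have hs := hsolv b hb hb1
    have hab : a ∈ Subgroup.centralizer ({b} : Set G) := hAC b hb a ha
    have hord : ∃ k : ℕ, orderOf (⟨a, hab⟩ : ↥(Subgroup.centralizer ({b} : Set G))) = p ^ k := by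
      refine ⟨1, ?_⟩
      rw [pow_one]
      refine orderOf_eq_prime ?_ ?_
      · apply Subtype.ext
        simp only [Subgroup.coe_pow, Subgroup.coe_one]
        exact hA.2 a ha
      · intro h
        exact ha1 (congrArg Subtype.val h)
    have hD1 : (Nat.card ↥((Cfsg.centralizerPPrimeCore p a).subgroupOf
        (Subgroup.centralizer ({b} : Set G)))).Coprime p := by
      have h1 : Nat.card ↥((Cfsg.centralizerPPrimeCore p a).subgroupOf
          (Subgroup.centralizer ({b} : Set G))) ∣ Nat.card ↥(Cfsg.centralizerPPrimeCore p a) := by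
        have h2 : Nat.card ↥((Cfsg.centralizerPPrimeCore p a).subgroupOf
            (Subgroup.centralizer ({b} : Set G))) =
            Nat.card ↥(Cfsg.centralizerPPrimeCore p a ⊓ Subgroup.centralizer ({b} : Set G)) := by
          rw [← Subgroup.inf_subgroupOf_right]
          exact Nat.card_congr (Subgroup.subgroupOfEquivOfLe inf_le_right).toEquiv
        rw [h2]
        exact Subgroup.card_dvd_of_le inf_le_left
      exact Nat.Coprime.coprime_dvd_left h1 (card_centralizerPPrimeCore_coprime p a)
    have hD2 : (Cfsg.centralizerPPrimeCore p a).subgroupOf (Subgroup.centralizer ({b} : Set G)) ≤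
        Subgroup.centralizer ({⟨a, hab⟩} : Set ↥(Subgroup.centralizer ({b} : Set G))) := by
      intro z hz
      rw [Subgroup.mem_subgroupOf] at hz
      have h1 := centralizerPPrimeCore_le_centralizer p a hz
      rw [Subgroup.mem_centralizer_singleton_iff] at h1 ⊢
      exact Subtype.ext h1
    have hD3 : Subgroup.centralizer ({⟨a, hab⟩} : Set ↥(Subgroup.centralizer ({b} : Set G))) ≤
        Subgroup.normalizer (((Cfsg.centralizerPPrimeCore p a).subgroupOf
          (Subgroup.centralizer ({b} : Set G)) : Subgroup _) : Set _) := by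
      apply le_normalizer_of_conj
      intro c hc z hz
      rw [Subgroup.mem_subgroupOf] at hz ⊢
      have hc' : (c : G) ∈ Subgroup.centralizer ({a} : Set G) := by
        rw [Subgroup.mem_centralizer_singleton_iff] at hc ⊢
        exact congrArg Subtype.val hc
      have := conj_mem_centralizerPPrimeCore p hc' hz
      simpa using this
    have key := le_pPrimeCore_of_solvable hs ⟨a, hab⟩ hord _ hD1 hD2 hD3
    have hxD : (⟨x, hx2⟩ : ↥(Subgroup.centralizer ({b} : Set G))) ∈
        (Cfsg.centralizerPPrimeCore p a).subgroupOf (Subgroup.centralizer ({b} : Set G)) := by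
      rw [Subgroup.mem_subgroupOf]; exact hx1
    exact ⟨⟨x, hx2⟩, key hxD, rfl⟩
  · intro a ha ha1
    have hs := hsolv a ha ha1
    exact Group.isSolvable_of_isSolvable_injective
      (Subgroup.inclusion_injective (centralizerPPrimeCore_le_centralizer p a))

end Cfsg.Agent.S1279
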