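import Mathlib
import Cfsg.Statements.S1281
import Cfsg.Agent.S0022
import Cfsg.Agent.S0030
import Cfsg.Agent.H60.Cores
import Cfsg.Agent.H58.Sig2

set_option autoImplicit false
open Cfsg

namespace Cfsg.Agent.S1281

open Cfsg.Agent.H58 in
/-- Let θ be a solvable A-signalizer functor on the finite group G (A a noncyclic elementary abelian p-subgroup) and N a normal subgroup of order prime to p. Then for all non-identity a, b ∈ A, the image of θ a in G / N meets the centralizer of the image of b inside the image of θ b. -/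
theorem result {G : Type*} [Group G] [Finite G] (p : ℕ) [Fact p.Prime] (A : Subgroup G) (hA : Cfsg.IsElementaryAbelian p A) (hA2 : p ^ 2 ≤ Nat.card ↥A) (θ : G → Subgroup G) (hθ : Cfsg.IsSolvableSignalizerFunctor p A θ) (N : Subgroup G) [N.Normal] (hN : ¬ p ∣ Nat.card ↥N) (a b : G) (ha : a ∈ A) (ha1 : a ≠ 1) (hb : b ∈ A) (hb1 : b ≠ 1) : (θ a).map (QuotientGroup.mk' N) ⊓ Subgroup.centralizer {QuotientGroup.mk' N b} ≤ (θ b).map (QuotientGroup.mk' N) := by
  have hNn : N.Normal := inferInstance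
  have hp : p.Prime := Fact.out
  obtain ⟨⟨hθC, hθp, hθA, hθbal⟩, hθs⟩ := hθ
  rintro _ ⟨⟨u, hu, rfl⟩, hcent⟩
  have hcomm : QuotientGroup.mk' N u * QuotientGroup.mk' N b =
      QuotientGroup.mk' N b * QuotientGroup.mk' N u :=
    Subgroup.mem_centralizer_singleton_iff.mp hcent
  have hbp : b ^ p = 1 := hA.2 b hb
  have hzA : Subgroup.zpowers b ≤ A := Subgroup.zpowers_le.mpr hb
  have hKp : ¬ p ∣ Nat.card ↥(θ a ⊔ N) := by
    have h1 : (Nat.card ↥(θ a)).Coprime p :=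
      (Nat.Prime.coprime_iff_not_dvd hp).mpr (hθp a ha ha1) |>.symm
    have h2 : (Nat.card ↥N).Coprime p := (Nat.Prime.coprime_iff_not_dvd hp).mpr hN |>.symm
    have h3 := Cfsg.Agent.H60.coprime_card_sup h1 h2
    exact (Nat.Prime.coprime_iff_not_dvd hp).mp h3.symm
  have hdec : ∀ k ∈ θ a ⊔ N, ∃ x ∈ θ a, ∃ y ∈ N, k = x * y := by
    intro k hk
    obtain ⟨x, hx, y, hy, rfl⟩ := Subgroup.mem_sup_of_normal_right.mp hk
    exact ⟨x, hx, y, hy, rfl⟩
  have hinvθ : ∀ c ∈ A, ∀ x ∈ θ a, c * x * c⁻¹ ∈ θ a := hθA a ha ha1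
  have hinvN : ∀ c ∈ A, ∀ x ∈ N, c * x * c⁻¹ ∈ N := fun c _ x hx => hNn.conj_mem x hx c
  have hinvK : ∀ c ∈ A, ∀ k ∈ θ a ⊔ N, c * k * c⁻¹ ∈ θ a ⊔ N := by
    intro c hc k hk
    obtain ⟨x, hx, y, hy, rfl⟩ := hdec k hk
    have : c * (x * y) * c⁻¹ = (c * x * c⁻¹) * (c * y * c⁻¹) := by group
    rw [this]
    exact Subgroup.mul_mem _ (Subgroup.mem_sup_left (hinvθ c hc x hx))
      (Subgroup.mem_sup_right (hinvN c hc y hy))
  have hfix : ∀ c ∈ Subgroup.zpowers b, c * u * c⁻¹ * u⁻¹ ∈ N := by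
    intro c hc
    obtain ⟨i, rfl⟩ := Subgroup.mem_zpowers_iff.mp hc
    rw [← QuotientGroup.eq_one_iff, ← QuotientGroup.mk'_apply]
    have h1 : Commute (QuotientGroup.mk' N b) (QuotientGroup.mk' N u) := hcomm.symm
    have h2 : Commute (QuotientGroup.mk' N (b ^ i)) (QuotientGroup.mk' N u) := by
      rw [map_zpow]; exact h1.zpow_left i
    rw [map_mul, map_mul, map_mul, map_inv, map_inv, h2.eq]
    group
  obtain ⟨c, hc, hcu⟩ := Cfsg.Agent.S0022.result (Subgroup.zpowers b) (θ a ⊔ N)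
    (hzA.trans (le_normalizer_of_conj hinvK)) (coprime_zpowers hb1 hbp _ hKp)
    (Or.inl (isSolvable_zpowers b)) N le_sup_right
    (le_normalizer_of_conj (fun k _ x hx => hNn.conj_mem x hx k))
    (hzA.trans (le_normalizer_of_conj hinvN)) u (Subgroup.mem_sup_left hu) hfix
  obtain ⟨x, hx, y, hy, hcxy⟩ := Cfsg.Agent.S0030.result (Subgroup.zpowers b) (θ a ⊔ N)
    (hzA.trans (le_normalizer_of_conj hinvK)) (coprime_zpowers hb1 hbp _ hKp)
    (Or.inl (isSolvable_zpowers b)) (θ a) N le_sup_left le_sup_right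
    (hzA.trans (le_normalizer_of_conj hinvθ)) (hzA.trans (le_normalizer_of_conj hinvN)) hdec c hc
  refine ⟨x, hθbal a ha ha1 b hb hb1 ⟨hx.1, mem_centralizer_zpowers_iff.mp hx.2⟩, ?_⟩
  have h1 : QuotientGroup.mk' N u = QuotientGroup.mk' N c := by
    rw [QuotientGroup.mk'_apply, QuotientGroup.mk'_apply, QuotientGroup.eq]; exact hcu
  have h2 : QuotientGroup.mk' N y = 1 := by
    rw [QuotientGroup.mk'_apply, QuotientGroup.eq_one_iff]; exact hy.1
  rw [h1, hcxy, map_mul, h2, mul_one]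

end Cfsg.Agent.S1281
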