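import Mathlib
import Cfsg.Statements.S1284
import Cfsg.Agent.H58.Sig5

set_option autoImplicit false
open Cfsg

namespace Cfsg.Agent.S1284

open Cfsg.Agent.H58 Cfsg.Agent.H27 in
/-- Let θ be a solvable A-signalizer functor on the finite group G, A elementary abelian of rank at least 3, q a prime dividing some |θ a|, and Q maximal among the q-subgroups in the family of θ. Then (a) for every member H of the family, some c in the intersection of the θ a (a ∈ A non-identity) makes c Q c⁻¹ ∩ H a Sylow q-subgroup of H; and (b) for every nontrivial subgroup B ≤ A, C_Q(B) is a Sylow q-subgroup of the intersection of the θ b over the non-identity b ∈ B. -/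
theorem result {G : Type*} [Group G] [Finite G] (p : ℕ) [Fact p.Prime] (A : Subgroup G) (hA : Cfsg.IsElementaryAbelian p A) (hA3 : p ^ 3 ≤ Nat.card ↥A) (θ : G → Subgroup G) (hθ : Cfsg.IsSolvableSignalizerFunctor p A θ) (q : ℕ) [Fact q.Prime] (hq : ∃ a ∈ A, a ≠ 1 ∧ q ∣ Nat.card ↥(θ a)) (Q : Subgroup G) (hQW : Q ∈ Cfsg.signalizerFamily p A θ) (hQq : IsPGroup q ↥Q) (hQmax : ∀ R ∈ Cfsg.signalizerFamily p A θ, IsPGroup q ↥R → Q ≤ R → R = Q) : (∀ H : Subgroup G, H ∈ Cfsg.signalizerFamily p A θ → ∃ c ∈ Cfsg.signalizerInf A θ, ∃ S : Sylow q ↥H, (S : Subgroup ↥H).map H.subtype = Q.map (MulAut.conj c).toMonoidHom ⊓ H) ∧ (∀ B : Subgroup G, B ≤ A → B ≠ ⊥ → ∃ S : Sylow q ↥(Cfsg.signalizerInf B θ), (S : Subgroup ↥(Cfsg.signalizerInf B θ)).map (Cfsg.signalizerInf B θ).subtype = Q ⊓ Subgroup.centralizer (B : Set G)) := by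
  obtain ⟨a₀, ha₀, ha₀1, hqa₀⟩ := hq
  have hqp : q ≠ p := by
    rintro rfl
    exact hθ.1.2.1 a₀ ha₀ ha₀1 hqa₀
  have hQ : IsMaxQ p A θ q Q := ⟨hQW, hQq, hQmax⟩
  -- invariant Sylow subgroups of members of the family
  have key : ∀ H : Subgroup G, H ∈ Cfsg.signalizerFamily p A θ →
      ∃ S : Sylow q ↥H, ∃ Q' : Subgroup G, IsMaxQ p A θ q Q' ∧
        (S : Subgroup ↥H).map H.subtype ≤ Q' := by
    intro H hH
    have hHs : Group.IsSolvable ↥H := hH.1
    obtain ⟨S, hS⟩ := Cfsg.Agent.S0023.result A H (le_normalizer_of_conj hH.2.2.1)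
      (coprime_card_of_elementary hA hH.2.1) (Or.inr hHs) q
    have hSfam : (S : Subgroup ↥H).map H.subtype ∈ Cfsg.signalizerFamily p A θ :=
      family_of_le hH (Subgroup.map_subtype_le _)
        (fun b hb v hv => (Subgroup.mem_normalizer_iff.mp (hS hb) v).mp hv)
    obtain ⟨Q', hQ', hle⟩ := exists_isMaxQ_ge hSfam (S.isPGroup'.map _)
    exact ⟨S, Q', hQ', hle⟩
  refine ⟨?_, ?_⟩
  · intro H hH
    obtain ⟨S, Q', hQ', hle⟩ := key H hH
    obtain ⟨c, hc, e⟩ := transitivity p A hA hA3 θ hθ q hqp hQ hQ'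
    refine ⟨c, hc, S, ?_⟩
    rw [e]
    exact sylow_map_eq_inf S hQ'.2.1 hle
  · intro B hBA hB
    have hWfam := sigInf_mem_family hθ hBA hB
    obtain ⟨S, Q', hQ', hle⟩ := key _ hWfam
    obtain ⟨c, hc, e⟩ := transitivity p A hA hA3 θ hθ q hqp hQ' hQ
    have hcB : c ∈ Cfsg.signalizerInf B θ := by
      rw [mem_sigInf] at hc ⊢
      exact fun b hb hb1 => hc b (hBA hb) hb1
    have hWC := sigInf_le_centralizer hθ.1 hBA
    have hle2 : Q ⊓ Subgroup.centralizer (B : Set G) ≤ Cfsg.signalizerInf B θ := by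
      intro x hx
      rw [mem_sigInf]
      intro b hb hb1
      refine hQW.2.2.2 b (hBA hb) hb1 (Subgroup.mem_inf.mpr ⟨hx.1, ?_⟩)
      exact Subgroup.centralizer_le (by
        intro y hy
        rw [Set.mem_singleton_iff] at hy
        rw [hy]; exact hb) hx.2
    refine ⟨MulAut.conj (⟨c, hcB⟩ : ↥(Cfsg.signalizerInf B θ)) • S, ?_⟩
    have h1 : ((MulAut.conj (⟨c, hcB⟩ : ↥(Cfsg.signalizerInf B θ)) • S : Sylow q _) :
        Subgroup ↥(Cfsg.signalizerInf B θ)).map (Cfsg.signalizerInf B θ).subtype ≤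
        Q ⊓ Subgroup.centralizer (B : Set G) := by
      intro x hx
      have hxW : x ∈ Cfsg.signalizerInf B θ := Subgroup.map_subtype_le _ hx
      refine Subgroup.mem_inf.mpr ⟨?_, hWC hxW⟩
      rw [← e, mem_map_conj_iff]
      exact hle ((mem_map_conj_smul_sylow S _ ⟨c, hcB⟩ rfl x).mp hx)
    rw [sylow_map_eq_inf _ (hQq.to_le inf_le_left) h1]
    exact inf_eq_left.mpr hle2

end Cfsg.Agent.S1284
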