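import Mathlib
import Cfsg.Statements.S1285
import Cfsg.Agent.H58.Sig5

set_option autoImplicit false
open Cfsg

namespace Cfsg.Agent.S1285

open Cfsg.Agent.H58 Cfsg.Agent.H27 in
/-- Let θ be a solvable A-signalizer functor on the finite group G with A elementary abelian of rank at least 3, and suppose that for some prime q every θ a (a ∈ A non-identity) is a q-group. Then θ is complete. -/
theorem result {G : Type*} [Group G] [Finite G] (p : ℕ) [Fact p.Prime] (A : Subgroup G) (hA : Cfsg.IsElementaryAbelian p A) (hA3 : p ^ 3 ≤ Nat.card ↥A) (θ : G → Subgroup G) (hθ : Cfsg.IsSolvableSignalizerFunctor p A θ) (q : ℕ) [Fact q.Prime] (hq : ∀ a ∈ A, a ≠ 1 → IsPGroup q ↥(θ a)) : Cfsg.IsCompleteSignalizerFunctor p A θ := by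
  have hp : p.Prime := Fact.out
  refine ⟨hθ.1, ?_⟩
  by_cases hq' : ∃ a ∈ A, a ≠ 1 ∧ q ∣ Nat.card ↥(θ a)
  · obtain ⟨a₀, ha₀, ha₀1, hqa₀⟩ := hq'
    have hqp : q ≠ p := by
      rintro rfl
      exact hθ.1.2.1 a₀ ha₀ ha₀1 hqa₀
    obtain ⟨Q, hQ, -⟩ := exists_isMaxQ_ge (bot_mem_family (p := p) (A := A) (θ := θ))
      (IsPGroup.of_bot (p := q) (G := G))
    refine ⟨Q, hQ.1.2.2.1, hQ.1.2.1, ?_⟩
    intro a ha ha1
    apply le_antisymm (hQ.1.2.2.2 a ha ha1)
    have hfam : θ a ∈ Cfsg.signalizerFamily p A θ :=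
      family_of_le_theta hθ ha ha1 le_rfl (hθ.1.2.2.1 a ha ha1)
    obtain ⟨Q', hQ', hle⟩ := exists_isMaxQ_ge hfam (hq a ha ha1)
    obtain ⟨c, hc, e⟩ := transitivity p A hA hA3 θ hθ q hqp hQ' hQ
    have hca : c ∈ θ a := mem_sigInf.mp hc a ha ha1
    intro x hx
    refine Subgroup.mem_inf.mpr ⟨?_, hθ.1.1 a ha ha1 hx⟩
    rw [← e, mem_map_conj_iff]
    exact hle ((θ a).mul_mem ((θ a).mul_mem ((θ a).inv_mem hca) hx) hca)
  · push Not at hq'
    have hbot : ∀ a ∈ A, a ≠ 1 → θ a = ⊥ := by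
      intro a ha ha1
      obtain ⟨n, hn⟩ := IsPGroup.iff_card.mp (hq a ha ha1)
      have h1 := hq' a ha ha1
      rcases Nat.eq_zero_or_pos n with h0 | hpos
      · rw [h0, pow_zero] at hn
        exact Subgroup.card_eq_one.mp hn
      · exact absurd (hn ▸ dvd_pow_self q hpos.ne') h1
    refine ⟨⊥, ?_, ?_, ?_⟩
    · intro b _ u hu
      rw [Subgroup.mem_bot] at hu ⊢
      rw [hu]; group
    · rw [Subgroup.card_bot]
      exact hp.one_lt.ne' ∘ Nat.dvd_one.mp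
    · intro a ha ha1
      rw [hbot a ha ha1]
      exact bot_inf_eq _

end Cfsg.Agent.S1285
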