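import Mathlib
import Cfsg.Statements.S1286
import Cfsg.Agent.H58.Std
import Cfsg.Agent.H58.Sig2

set_option autoImplicit false
open Cfsg

namespace Cfsg.Agent.S1286

/-- The involution `(3 4)`. -/
def pa : Equiv.Perm (Fin 5) := Equiv.swap 3 4
/-- The involution `(0 1)`. -/
def pb : Equiv.Perm (Fin 5) := Equiv.swap 0 1
/-- The 3-cycle on `0, 1, 2`. -/
def ps : Equiv.Perm (Fin 5) := Equiv.swap 0 1 * Equiv.swap 1 2
/-- The 3-cycle on `2, 3, 4`. -/
def pt : Equiv.Perm (Fin 5) := Equiv.swap 2 3 * Equiv.swap 3 4

/-- The functor of the example. -/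
noncomputable def pθ (x : Equiv.Perm (Fin 5)) : Subgroup (Equiv.Perm (Fin 5)) := by
  classical
  exact if x = pa then Subgroup.zpowers ps else if x = pb then Subgroup.zpowers pt else ⊥

theorem pθ_a : pθ pa = Subgroup.zpowers ps := by
  unfold pθ; simp

theorem pθ_b : pθ pb = Subgroup.zpowers pt := by
  have h : pb ≠ pa := by decide
  unfold pθ; simp [h]

theorem pθ_ab : pθ (pa * pb) = ⊥ := by
  have h : pa * pb ≠ pa := by decide
  have h' : pa * pb ≠ pb := by decide
  unfold pθ; simp [h, h']

/-- Elements of a cyclic group of order 3. -/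
theorem mem_zpowers_cube {G : Type*} [Group G] {s : G} (hs : s ^ 3 = 1) {z : G}
    (hz : z ∈ Subgroup.zpowers s) : z = 1 ∨ z = s ∨ z = s⁻¹ := by
  obtain ⟨k, rfl⟩ := Subgroup.mem_zpowers_iff.mp hz
  have h0 := Int.emod_nonneg k (by norm_num : (3 : ℤ) ≠ 0)
  have h1 := Int.emod_lt_of_pos k (by norm_num : (0 : ℤ) < 3)
  have h2 : k = 3 * (k / 3) + k % 3 := by omega
  have h3 : s ^ k = s ^ (k % 3) := by
    conv_lhs => rw [h2]
    rw [zpow_add, zpow_mul, zpow_ofNat, hs, one_zpow, one_mul]
  rw [h3]
  have h4 : k % 3 = 0 ∨ k % 3 = 1 ∨ k % 3 = 2 := by omega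
  rcases h4 with h | h | h
  · left; rw [h, zpow_zero]
  · right; left; rw [h, zpow_one]
  · right; right; rw [h]
    have : s ^ (2 : ℤ) * s = 1 := by
      rw [zpow_ofNat, ← pow_succ]; exact hs
    exact eq_inv_of_mul_eq_one_left this

/-- Invariance of a cyclic subgroup under conjugation. -/
theorem conj_mem_zpowers {G : Type*} [Group G] {s y : G} (h : y * s * y⁻¹ ∈ Subgroup.zpowers s)
    {z : G} (hz : z ∈ Subgroup.zpowers s) : y * z * y⁻¹ ∈ Subgroup.zpowers s := by
  obtain ⟨k, rfl⟩ := Subgroup.mem_zpowers_iff.mp hz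
  rw [← conj_zpow]
  exact Subgroup.zpow_mem _ h k

theorem card_zpowers_three {G : Type*} [Group G] {s : G} (hs : s ^ 3 = 1) (hs1 : s ≠ 1) :
    Nat.card ↥(Subgroup.zpowers s) = 3 := by
  rw [Nat.card_zpowers]
  haveI : Fact (Nat.Prime 3) := ⟨by norm_num⟩
  exact orderOf_eq_prime hs hs1

open Cfsg.Agent.H58 in
/-- There exist a finite group X, an elementary abelian subgroup A of order 4 and a solvable A-signalizer functor θ on X for the prime 2 which is not complete. -/
theorem result : ∃ (X : Type) (_ : Group X) (_ : Finite X) (A : Subgroup X) (θ : X → Subgroup X), Cfsg.IsElementaryAbelian 2 A ∧ Nat.card ↥A = 4 ∧ Cfsg.IsSolvableSignalizerFunctor 2 A θ ∧ ¬ Cfsg.IsCompleteSignalizerFunctor 2 A θ := by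
  have ha2 : pa ^ 2 = 1 := by decide
  have hb2 : pb ^ 2 = 1 := by decide
  have hab : pa * pb = pb * pa := by decide
  have hs3 : ps ^ 3 = 1 := by decide
  have ht3 : pt ^ 3 = 1 := by decide
  have hs1 : ps ≠ 1 := by decide
  have ht1 : pt ≠ 1 := by decide
  obtain ⟨hAc, hAe, hAl⟩ := four_group ha2 hb2 hab
  have haA : pa ∈ Subgroup.closure ({pa, pb} : Set (Equiv.Perm (Fin 5))) :=
    Subgroup.subset_closure (by simp)
  have hbA : pb ∈ Subgroup.closure ({pa, pb} : Set (Equiv.Perm (Fin 5))) :=
    Subgroup.subset_closure (by simp)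
  have hsig : Cfsg.IsSignalizerFunctor 2 (Subgroup.closure ({pa, pb} : Set (Equiv.Perm (Fin 5))))
      pθ := by
    refine ⟨?_, ?_, ?_, ?_⟩
    · intro x hx hx1
      rcases hAl x hx with rfl | rfl | rfl | rfl
      · exact absurd rfl hx1
      · rw [pθ_a, Subgroup.zpowers_le, Subgroup.mem_centralizer_singleton_iff]; decide
      · rw [pθ_b, Subgroup.zpowers_le, Subgroup.mem_centralizer_singleton_iff]; decide
      · rw [pθ_ab]; exact bot_le
    · intro x hx hx1
      rcases hAl x hx with rfl | rfl | rfl | rfl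
      · exact absurd rfl hx1
      · rw [pθ_a, card_zpowers_three hs3 hs1]; norm_num
      · rw [pθ_b, card_zpowers_three ht3 ht1]; norm_num
      · rw [pθ_ab, Subgroup.card_bot]; norm_num
    · intro x hx hx1 y hy z hz
      rcases hAl x hx with rfl | rfl | rfl | rfl
      · exact absurd rfl hx1
      · rw [pθ_a] at hz ⊢
        refine conj_mem_zpowers ?_ hz
        rcases hAl y hy with rfl | rfl | rfl | rfl
        · simp
        · have : pa * ps * pa⁻¹ = ps := by decide
          rw [this]; exact Subgroup.mem_zpowers _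
        · have : pb * ps * pb⁻¹ = ps⁻¹ := by decide
          rw [this]; exact Subgroup.inv_mem _ (Subgroup.mem_zpowers _)
        · have : pa * pb * ps * (pa * pb)⁻¹ = ps⁻¹ := by decide
          rw [this]; exact Subgroup.inv_mem _ (Subgroup.mem_zpowers _)
      · rw [pθ_b] at hz ⊢
        refine conj_mem_zpowers ?_ hz
        rcases hAl y hy with rfl | rfl | rfl | rfl
        · simp
        · have : pa * pt * pa⁻¹ = pt⁻¹ := by decide
          rw [this]; exact Subgroup.inv_mem _ (Subgroup.mem_zpowers _)
        · have : pb * pt * pb⁻¹ = pt := by decide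
          rw [this]; exact Subgroup.mem_zpowers _
        · have : pa * pb * pt * (pa * pb)⁻¹ = pt⁻¹ := by decide
          rw [this]; exact Subgroup.inv_mem _ (Subgroup.mem_zpowers _)
      · rw [pθ_ab] at hz ⊢
        rw [Subgroup.mem_bot] at hz ⊢
        rw [hz]; group
    · intro x hx hx1 y hy hy1 z hz
      have hz1 := (Subgroup.mem_inf.mp hz).1
      have hz2 := Subgroup.mem_centralizer_singleton_iff.mp (Subgroup.mem_inf.mp hz).2
      rcases hAl x hx with rfl | rfl | rfl | rfl
      · exact absurd rfl hx1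
      · rw [pθ_a] at hz1
        rcases hAl y hy with rfl | rfl | rfl | rfl
        · exact absurd rfl hy1
        · rw [pθ_a]; exact hz1
        · rcases mem_zpowers_cube hs3 hz1 with rfl | rfl | rfl
          · exact Subgroup.one_mem _
          · exact absurd hz2 (by decide)
          · exact absurd hz2 (by decide)
        · rcases mem_zpowers_cube hs3 hz1 with rfl | rfl | rfl
          · exact Subgroup.one_mem _
          · exact absurd hz2 (by decide)
          · exact absurd hz2 (by decide)
      · rw [pθ_b] at hz1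
        rcases hAl y hy with rfl | rfl | rfl | rfl
        · exact absurd rfl hy1
        · rcases mem_zpowers_cube ht3 hz1 with rfl | rfl | rfl
          · exact Subgroup.one_mem _
          · exact absurd hz2 (by decide)
          · exact absurd hz2 (by decide)
        · rw [pθ_b]; exact hz1
        · rcases mem_zpowers_cube ht3 hz1 with rfl | rfl | rfl
          · exact Subgroup.one_mem _
          · exact absurd hz2 (by decide)
          · exact absurd hz2 (by decide)
      · rw [pθ_ab, Subgroup.mem_bot] at hz1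
        rw [hz1]; exact Subgroup.one_mem _
  refine ⟨Equiv.Perm (Fin 5), inferInstance, inferInstance,
    Subgroup.closure ({pa, pb} : Set (Equiv.Perm (Fin 5))), pθ, ⟨hAc, hAe⟩, ?_, ⟨hsig, ?_⟩, ?_⟩
  · have hset : ((Subgroup.closure ({pa, pb} : Set (Equiv.Perm (Fin 5))) : Subgroup _) :
        Set (Equiv.Perm (Fin 5))) = ↑({1, pa, pb, pa * pb} : Finset (Equiv.Perm (Fin 5))) := by
      ext x
      simp only [SetLike.mem_coe, Finset.coe_insert, Finset.coe_singleton, Set.mem_insert_iff,
        Set.mem_singleton_iff]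
      constructor
      · exact hAl x
      · rintro (rfl | rfl | rfl | rfl)
        · exact Subgroup.one_mem _
        · exact haA
        · exact hbA
        · exact Subgroup.mul_mem _ haA hbA
    have h1 : Nat.card ↥(Subgroup.closure ({pa, pb} : Set (Equiv.Perm (Fin 5)))) =
        Nat.card ↥((Subgroup.closure ({pa, pb} : Set (Equiv.Perm (Fin 5))) : Subgroup _) :
        Set (Equiv.Perm (Fin 5))) := rfl
    rw [h1, hset, Nat.card_coe_set_eq, Set.ncard_coe_finset]
    decide
  · intro x hx hx1
    rcases hAl x hx with rfl | rfl | rfl | rfl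
    · exact absurd rfl hx1
    · rw [pθ_a]; exact isSolvable_zpowers _
    · rw [pθ_b]; exact isSolvable_zpowers _
    · rw [pθ_ab]; infer_instance
  · rintro ⟨-, X', -, hodd, hX'⟩
    have hs : ps ∈ X' := by
      have h := hX' pa haA (by decide)
      rw [pθ_a] at h
      have : ps ∈ X' ⊓ Subgroup.centralizer {pa} := by rw [h]; exact Subgroup.mem_zpowers _
      exact (Subgroup.mem_inf.mp this).1
    have ht : pt ∈ X' := by
      have h := hX' pb hbA (by decide)
      rw [pθ_b] at h
      have : pt ∈ X' ⊓ Subgroup.centralizer {pb} := by rw [h]; exact Subgroup.mem_zpowers _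
      exact (Subgroup.mem_inf.mp this).1
    have hw : ps * pt * ps * pt⁻¹ ∈ X' :=
      X'.mul_mem (X'.mul_mem (X'.mul_mem hs ht) hs) (X'.inv_mem ht)
    have ho : orderOf (ps * pt * ps * pt⁻¹) = 2 := by
      haveI : Fact (Nat.Prime 2) := ⟨by norm_num⟩
      exact orderOf_eq_prime (by decide) (by decide)
    have := Subgroup.orderOf_dvd_natCard X' hw
    rw [ho] at this
    exact hodd this

end Cfsg.Agent.S1286
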