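import Mathlib
import Cfsg.Statements.S1287
import Cfsg.Agent.H58.Prod
import Cfsg.Agent.H58.Fact
import Cfsg.Agent.H58.SylInv
import Cfsg.Agent.H58.Sig4

set_option autoImplicit false
open scoped Pointwise
open Cfsg

namespace Cfsg.Agent.S1287

open Cfsg.Agent.H58

/-- Valuations of a product identity. -/
theorem factorization_mul_eq {a b c d : ℕ} (ha : 0 < a) (hb : 0 < b) (hc : 0 < c) (hd : 0 < d)
    (h : a * b = c * d) (q : ℕ) :
    a.factorization q + b.factorization q = c.factorization q + d.factorization q := by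
  have h1 := congrArg (fun n => n.factorization q) h
  simp only [Nat.factorization_mul ha.ne' hb.ne', Nat.factorization_mul hc.ne' hd.ne',
    Finsupp.add_apply] at h1
  exact h1

/-- Invariance of an intersection. -/
theorem le_normalizer_inf {H : Type*} [Group H] {A U V : Subgroup H}
    (hU : A ≤ Subgroup.normalizer (U : Set H)) (hV : A ≤ Subgroup.normalizer (V : Set H)) :
    A ≤ Subgroup.normalizer ((U ⊓ V : Subgroup H) : Set H) := by
  intro b hb
  rw [Subgroup.mem_normalizer_iff]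
  intro g
  rw [Subgroup.mem_inf, Subgroup.mem_inf, ← Subgroup.mem_normalizer_iff.mp (hU hb) g,
    ← Subgroup.mem_normalizer_iff.mp (hV hb) g]

/-- The inequality of `q`-parts. -/
theorem vq_le {H : Type*} [Group H] [Finite H] (p : ℕ) [Fact p.Prime] (A K X Y : Subgroup H)
    (hA : Cfsg.IsElementaryAbelian p A) (hA2 : p ^ 2 ≤ Nat.card ↥A) (hK : ¬ p ∣ Nat.card ↥K)
    (hAK : A ≤ Subgroup.normalizer (K : Set H)) (hX : X ≤ K) (hY : Y ≤ K)
    (hAX : A ≤ Subgroup.normalizer (X : Set H)) (hAY : A ≤ Subgroup.normalizer (Y : Set H))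
    (hCX : K ⊓ Subgroup.centralizer (A : Set H) ≤ Subgroup.normalizer (X : Set H))
    (hfac' : ∀ a ∈ A, a ≠ 1 →
      Nat.card ↥(K ⊓ Subgroup.centralizer ({a} : Set H)) *
        Nat.card ↥((X ⊓ Subgroup.centralizer ({a} : Set H)) ⊓
          (Y ⊓ Subgroup.centralizer ({a} : Set H)) : Subgroup H) =
      Nat.card ↥(X ⊓ Subgroup.centralizer ({a} : Set H)) *
        Nat.card ↥(Y ⊓ Subgroup.centralizer ({a} : Set H)))
    (q : ℕ) [Fact q.Prime] :
    (Nat.card ↥K).factorization q + (Nat.card ↥(X ⊓ Y)).factorization q ≤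
      (Nat.card ↥X).factorization q + (Nat.card ↥Y).factorization q := by
  have hq : q.Prime := Fact.out
  have hAs : Group.IsSolvable ↥A :=
    Group.isSolvable_of_comm (fun a b => (isMulCommutative_iff.mp hA.1) a b)
  have hcomm : ∀ a ∈ A, ∀ b ∈ A, a * b = b * a := fun a ha b hb =>
    congrArg Subtype.val ((isMulCommutative_iff.mp hA.1) ⟨a, ha⟩ ⟨b, hb⟩)
  have hcop := coprime_card_of_elementary hA hK
  have hcopX : (Nat.card ↥A).Coprime (Nat.card ↥X) :=
    Nat.Coprime.coprime_dvd_right (Subgroup.card_dvd_of_le hX) hcop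
  have hcopY : (Nat.card ↥A).Coprime (Nat.card ↥Y) :=
    Nat.Coprime.coprime_dvd_right (Subgroup.card_dvd_of_le hY) hcop
  have hcopXY : (Nat.card ↥A).Coprime (Nat.card ↥(X ⊓ Y)) :=
    Nat.Coprime.coprime_dvd_right (Subgroup.card_dvd_of_le inf_le_left) hcopX
  obtain ⟨Q, hQK, hQq, hAQ, cQ, cQY, cQXY⟩ :=
    exists_invariant_sylow_chain (q := q) A K X Y hAK hcop hAs hY hAX hAY
  have cQX : Nat.card ↥(Q ⊓ X) = q ^ (Nat.card ↥X).factorization q :=
    card_inf_of_invariant_sylow A K X Q hAK hcop hAs hX hAX hCX hQK hQq hAQ cQ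
  have hAQX := le_normalizer_inf hAQ hAX
  have hAQY := le_normalizer_inf hAQ hAY
  have hAXY := le_normalizer_inf hAX hAY
  have hAQXY := le_normalizer_inf hAQ hAXY
  have hAC : ∀ a ∈ A, A ≤ Subgroup.normalizer ((Subgroup.centralizer ({a} : Set H) : Subgroup H) : Set H) := by
    intro a ha b hb
    exact Subgroup.le_normalizer (Subgroup.mem_centralizer_singleton_iff.mpr (hcomm b hb a ha))
  have hCAa : ∀ a ∈ A, Subgroup.centralizer (A : Set H) ≤ Subgroup.centralizer ({a} : Set H) := by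
    intro a ha
    apply Subgroup.centralizer_le
    intro y hy
    rw [Set.mem_singleton_iff] at hy
    rw [hy]; exact ha
  have hnormC : ∀ a ∈ A, ∀ U : Subgroup H, U ⊓ Subgroup.centralizer (A : Set H) ≤
      Subgroup.normalizer ((U ⊓ Subgroup.centralizer ({a} : Set H) : Subgroup H) : Set H) := by
    intro a ha U c hc
    exact Subgroup.le_normalizer (Subgroup.mem_inf.mpr ⟨hc.1, hCAa a ha hc.2⟩)
  -- the key factorization in `Q`
  have hfacQ : ∀ a ∈ A, a ≠ 1 → ∀ k ∈ Q ⊓ Subgroup.centralizer ({a} : Set H),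
      ∃ x ∈ Q ⊓ X, ∃ y ∈ Q ⊓ Y, k = x * y := by
    intro a ha ha1 k hk
    have hACa := hAC a ha
    have c1 : Nat.card ↥(Q ⊓ (K ⊓ Subgroup.centralizer ({a} : Set H))) =
        q ^ (Nat.card ↥(K ⊓ Subgroup.centralizer ({a} : Set H))).factorization q :=
      card_inf_of_invariant_sylow A K _ Q hAK hcop hAs inf_le_left (le_normalizer_inf hAK hACa)
        (hnormC a ha K) hQK hQq hAQ cQ
    have c2 : Nat.card ↥((Q ⊓ X) ⊓ (X ⊓ Subgroup.centralizer ({a} : Set H))) =
        q ^ (Nat.card ↥(X ⊓ Subgroup.centralizer ({a} : Set H))).factorization q :=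
      card_inf_of_invariant_sylow A X _ (Q ⊓ X) hAX hcopX hAs inf_le_left
        (le_normalizer_inf hAX hACa) (hnormC a ha X) inf_le_right (hQq.to_le inf_le_left) hAQX cQX
    have c3 : Nat.card ↥((Q ⊓ Y) ⊓ (Y ⊓ Subgroup.centralizer ({a} : Set H))) =
        q ^ (Nat.card ↥(Y ⊓ Subgroup.centralizer ({a} : Set H))).factorization q :=
      card_inf_of_invariant_sylow A Y _ (Q ⊓ Y) hAY hcopY hAs inf_le_left
        (le_normalizer_inf hAY hACa) (hnormC a ha Y) inf_le_right (hQq.to_le inf_le_left) hAQY cQY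
    have c4 : Nat.card ↥((Q ⊓ (X ⊓ Y)) ⊓ ((X ⊓ Y) ⊓ Subgroup.centralizer ({a} : Set H))) =
        q ^ (Nat.card ↥((X ⊓ Y) ⊓ Subgroup.centralizer ({a} : Set H))).factorization q :=
      card_inf_of_invariant_sylow A (X ⊓ Y) _ (Q ⊓ (X ⊓ Y)) hAXY hcopXY hAs inf_le_left
        (le_normalizer_inf hAXY hACa) (hnormC a ha (X ⊓ Y)) inf_le_right (hQq.to_le inf_le_left)
        hAQXY cQXY
    have e1 : Q ⊓ Subgroup.centralizer ({a} : Set H) =
        Q ⊓ (K ⊓ Subgroup.centralizer ({a} : Set H)) := by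
      ext z
      simp only [Subgroup.mem_inf]
      exact ⟨fun h => ⟨h.1, hQK h.1, h.2⟩, fun h => ⟨h.1, h.2.2⟩⟩
    have e2 : (Q ⊓ X) ⊓ Subgroup.centralizer ({a} : Set H) =
        (Q ⊓ X) ⊓ (X ⊓ Subgroup.centralizer ({a} : Set H)) := by
      ext z
      simp only [Subgroup.mem_inf]
      tauto
    have e3 : (Q ⊓ Y) ⊓ Subgroup.centralizer ({a} : Set H) =
        (Q ⊓ Y) ⊓ (Y ⊓ Subgroup.centralizer ({a} : Set H)) := by
      ext z
      simp only [Subgroup.mem_inf]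
      tauto
    have e4 : ((Q ⊓ X) ⊓ Subgroup.centralizer ({a} : Set H)) ⊓
        ((Q ⊓ Y) ⊓ Subgroup.centralizer ({a} : Set H)) =
        (Q ⊓ (X ⊓ Y)) ⊓ ((X ⊓ Y) ⊓ Subgroup.centralizer ({a} : Set H)) := by
      ext z
      simp only [Subgroup.mem_inf]
      tauto
    have e5 : (X ⊓ Subgroup.centralizer ({a} : Set H)) ⊓ (Y ⊓ Subgroup.centralizer ({a} : Set H)) =
        (X ⊓ Y) ⊓ Subgroup.centralizer ({a} : Set H) := by
      ext z
      simp only [Subgroup.mem_inf]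
      tauto
    have hv := hfac' a ha ha1
    rw [e5] at hv
    have hv' := factorization_mul_eq Nat.card_pos Nat.card_pos Nat.card_pos Nat.card_pos hv q
    have hcard : Nat.card ↥(Q ⊓ Subgroup.centralizer ({a} : Set H)) *
        Nat.card ↥(((Q ⊓ X) ⊓ Subgroup.centralizer ({a} : Set H)) ⊓
          ((Q ⊓ Y) ⊓ Subgroup.centralizer ({a} : Set H)) : Subgroup H) ≤
        Nat.card ↥((Q ⊓ X) ⊓ Subgroup.centralizer ({a} : Set H)) *
          Nat.card ↥((Q ⊓ Y) ⊓ Subgroup.centralizer ({a} : Set H)) := by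
      rw [e4, c4, e1, c1, e2, c2, e3, c3, ← pow_add, ← pow_add, hv']
    obtain ⟨x, hx, y, hy, hkxy⟩ := exists_mul_of_card_le (Q ⊓ Subgroup.centralizer ({a} : Set H))
      ((Q ⊓ X) ⊓ Subgroup.centralizer ({a} : Set H)) ((Q ⊓ Y) ⊓ Subgroup.centralizer ({a} : Set H))
      (inf_le_inf_right _ inf_le_left) (inf_le_inf_right _ inf_le_left) hcard k hk
    exact ⟨x, (Subgroup.mem_inf.mp hx).1, y, (Subgroup.mem_inf.mp hy).1, hkxy⟩
  have hQp : ¬ p ∣ Nat.card ↥Q := fun h => hK (h.trans (Subgroup.card_dvd_of_le hQK))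
  have hQfac := factor_pgroup p A hA hA2 q Q (Q ⊓ Y) hQq hQp hAQ _ (Q ⊓ X) inf_le_left hAQX hfacQ rfl
  have h1 := card_mul_card_inf_le_of_factor Q (Q ⊓ X) (Q ⊓ Y) hQfac
  have e6 : (Q ⊓ X) ⊓ (Q ⊓ Y) = Q ⊓ (X ⊓ Y) := by
    ext z
    simp only [Subgroup.mem_inf]
    tauto
  rw [e6, cQ, cQXY, cQX, cQY, ← pow_add, ← pow_add] at h1
  exact (Nat.pow_le_pow_iff_right hq.one_lt).mp h1

/-- Let A be a noncyclic elementary abelian p-subgroup of a finite group H normalizing a subgroup K of order prime to p, and X, Y ≤ K subgroups normalized by A with C_K(a) = C_X(a) C_Y(a) (as sets) for every non-identity a ∈ A, where X is also normalized by C_K(A). Then K = XY as sets. -/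
theorem result {H : Type*} [Group H] [Finite H] (p : ℕ) [Fact p.Prime] (A K X Y : Subgroup H) (hA : Cfsg.IsElementaryAbelian p A) (hA2 : p ^ 2 ≤ Nat.card ↥A) (hK : ¬ p ∣ Nat.card ↥K) (hAK : A ≤ Subgroup.normalizer (K : Set H)) (hX : X ≤ K) (hY : Y ≤ K) (hAX : A ≤ Subgroup.normalizer (X : Set H)) (hAY : A ≤ Subgroup.normalizer (Y : Set H)) (hCX : K ⊓ Subgroup.centralizer (A : Set H) ≤ Subgroup.normalizer (X : Set H)) (hfac : ∀ a ∈ A, a ≠ 1 → ((K ⊓ Subgroup.centralizer {a} : Subgroup H) : Set H) = ((X ⊓ Subgroup.centralizer {a} : Subgroup H) : Set H) * ((Y ⊓ Subgroup.centralizer {a} : Subgroup H) : Set H)) : (K : Set H) = (X : Set H) * (Y : Set H) := by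
  have hfac' : ∀ a ∈ A, a ≠ 1 →
      Nat.card ↥(K ⊓ Subgroup.centralizer ({a} : Set H)) *
        Nat.card ↥((X ⊓ Subgroup.centralizer ({a} : Set H)) ⊓
          (Y ⊓ Subgroup.centralizer ({a} : Set H)) : Subgroup H) =
      Nat.card ↥(X ⊓ Subgroup.centralizer ({a} : Set H)) *
        Nat.card ↥(Y ⊓ Subgroup.centralizer ({a} : Set H)) := by
    intro a ha ha1
    rw [← card_mulSet_mul_card_inf (X ⊓ Subgroup.centralizer ({a} : Set H))
      (Y ⊓ Subgroup.centralizer ({a} : Set H)), ← hfac a ha ha1]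
    rfl
  have hle : Nat.card ↥K * Nat.card ↥(X ⊓ Y) ≤ Nat.card ↥X * Nat.card ↥Y := by
    have hK0 : Nat.card ↥K ≠ 0 := Nat.card_pos.ne'
    have hXY0 : Nat.card ↥(X ⊓ Y) ≠ 0 := Nat.card_pos.ne'
    have hX0 : Nat.card ↥X ≠ 0 := Nat.card_pos.ne'
    have hY0 : Nat.card ↥Y ≠ 0 := Nat.card_pos.ne'
    apply Nat.le_of_dvd (Nat.mul_pos Nat.card_pos Nat.card_pos)
    rw [← Nat.factorization_le_iff_dvd (mul_ne_zero hK0 hXY0) (mul_ne_zero hX0 hY0)]
    intro q
    by_cases hq : q.Prime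
    · haveI : Fact q.Prime := ⟨hq⟩
      rw [Nat.factorization_mul hK0 hXY0, Nat.factorization_mul hX0 hY0]
      simp only [Finsupp.add_apply]
      exact vq_le p A K X Y hA hA2 hK hAK hX hY hAX hAY hCX hfac' q
    · rw [Nat.factorization_eq_zero_of_not_prime _ hq]
      exact Nat.zero_le _
  have hall := exists_mul_of_card_le K X Y hX hY hle
  ext k
  constructor
  · intro hk
    obtain ⟨x, hx, y, hy, rfl⟩ := hall k hk
    exact Set.mul_mem_mul hx hy
  · rintro ⟨x, hx, y, hy, rfl⟩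
    exact K.mul_mem (hX hx) (hY hy)

end Cfsg.Agent.S1287
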