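import Mathlib
import Cfsg.Statements.S1288
import Cfsg.Agent.H58.Char
import Cfsg.Agent.H60.Cores
import Cfsg.Agent.H29.Transport
import Cfsg.Agent.S1324

set_option autoImplicit false
open Cfsg

namespace Cfsg.Agent.S1288

open Cfsg.Agent.H58 in
open scoped commutatorElement in
/-- Let A be a noncyclic elementary abelian p-subgroup of a finite group H normalizing a solvable subgroup K of order prime to p, q a prime dividing |K|, and U ≤ K a subgroup of order prime to q such that ⁅U, C_K(B)⁆ has order prime to q for every subgroup B of index p in A. Then U ≤ O_{q'}(K). -/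
theorem result {H : Type*} [Group H] [Finite H] (p : ℕ) [Fact p.Prime] (A K : Subgroup H) (hA : Cfsg.IsElementaryAbelian p A) (hA2 : p ^ 2 ≤ Nat.card ↥A) (hK : ¬ p ∣ Nat.card ↥K) (hKs : Group.IsSolvable ↥K) (hAK : A ≤ Subgroup.normalizer (K : Set H)) (q : ℕ) [Fact q.Prime] (hqK : q ∣ Nat.card ↥K) (U : Subgroup H) (hU : U ≤ K) (hUq : ¬ q ∣ Nat.card ↥U) (hcomm : ∀ B : Subgroup H, B ≤ A → B.relIndex A = p → ¬ q ∣ Nat.card ↥⁅U, K ⊓ Subgroup.centralizer (B : Set H)⁆) : U ≤ (Cfsg.pPrimeCore q ↥K).map K.subtype := by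
  have hq : q.Prime := Fact.out
  have hsq : Group.IsSolvable (↥K ⧸ Cfsg.pPrimeCore q ↥K) :=
    Group.isSolvable_of_surjective (QuotientGroup.mk'_surjective (Cfsg.pPrimeCore q ↥K))
  have hVq : IsPGroup q ↥(Cfsg.pCore q (↥K ⧸ Cfsg.pPrimeCore q ↥K)) :=
    Cfsg.Agent.H60.isPGroup_pCore q
  have hCV := Cfsg.Agent.H60.centralizer_pCore_le (p := q) hsq
    (Cfsg.Agent.H60.pPrimeCore_quotient_eq_bot q)
  have hVn : (Cfsg.pCore q (↥K ⧸ Cfsg.pPrimeCore q ↥K)).Normal := inferInstance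
  -- `R = O_{q',q}(K)`, seen in `H`
  have hRmem : ∀ k : ↥K, k ∈ Cfsg.pPrimePCore q ↥K ↔
      QuotientGroup.mk' (Cfsg.pPrimeCore q ↥K) k ∈ Cfsg.pCore q (↥K ⧸ Cfsg.pPrimeCore q ↥K) :=
    fun k => Iff.rfl
  have hRK : (Cfsg.pPrimePCore q ↥K).map K.subtype ≤ K := Subgroup.map_subtype_le _
  have hAR : A ≤ Subgroup.normalizer (((Cfsg.pPrimePCore q ↥K).map K.subtype : Subgroup H) : Set H) :=
    hAK.trans (char_map_le_normalizer K _ (Cfsg.Agent.H29.pPrimePCore_characteristic q ↥K))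
  have hRp : ¬ p ∣ Nat.card ↥((Cfsg.pPrimePCore q ↥K).map K.subtype) :=
    fun h => hK (h.trans (Subgroup.card_dvd_of_le hRK))
  have hgen := Cfsg.Agent.S1324.result p A _ hA hA2 hRp hAR
  have coprime_of_not_dvd : ∀ m : ℕ, ¬ q ∣ m → m.Coprime q := fun m hm =>
    (Nat.Coprime.symm ((Nat.Prime.coprime_iff_not_dvd hq).mpr hm))
  -- the key commutation
  have key : ∀ u : ↥K, (u : H) ∈ U → ∀ x : ↥K, x ∈ Cfsg.pPrimePCore q ↥K →
      QuotientGroup.mk' (Cfsg.pPrimeCore q ↥K) x * QuotientGroup.mk' (Cfsg.pPrimeCore q ↥K) u =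
      QuotientGroup.mk' (Cfsg.pPrimeCore q ↥K) u * QuotientGroup.mk' (Cfsg.pPrimeCore q ↥K) x := by
    intro u hu
    have hle : (Cfsg.pPrimePCore q ↥K).map K.subtype ≤
        ((Subgroup.centralizer
          ({QuotientGroup.mk' (Cfsg.pPrimeCore q ↥K) u} : Set (↥K ⧸ Cfsg.pPrimeCore q ↥K))).comap
          (QuotientGroup.mk' (Cfsg.pPrimeCore q ↥K))).map K.subtype := by
      rw [hgen]
      apply iSup_le
      rintro ⟨B, hBA, hBp⟩ x hx
      have hxR := (Subgroup.mem_inf.mp hx).1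
      have hxB := (Subgroup.mem_inf.mp hx).2
      obtain ⟨B', hB'A, hB'p, hB'C⟩ := exists_hyperplane_centralizer_le hA hA2 hBp
      have hxK : x ∈ K := hRK hxR
      have hxR' : (⟨x, hxK⟩ : ↥K) ∈ Cfsg.pPrimePCore q ↥K := by
        obtain ⟨r, hr, hrx⟩ := hxR
        have : r = ⟨x, hxK⟩ := Subtype.ext hrx
        rw [← this]; exact hr
      refine ⟨⟨x, hxK⟩, ?_, rfl⟩
      rw [SetLike.mem_coe, Subgroup.mem_comap, Subgroup.mem_centralizer_singleton_iff]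
      -- the commutator
      have hc1 : ⁅(u : H), x⁆ ∈ ⁅U, K ⊓ Subgroup.centralizer (B' : Set H)⁆ :=
        Subgroup.commutator_mem_commutator hu (Subgroup.mem_inf.mpr ⟨hxK, hB'C hxB⟩)
      have hc2 : orderOf ⁅(u : H), x⁆ ∣ Nat.card ↥⁅U, K ⊓ Subgroup.centralizer (B' : Set H)⁆ :=
        Subgroup.orderOf_dvd_natCard _ hc1
      have hc3 : ⁅u, (⟨x, hxK⟩ : ↥K)⁆ ∈ Cfsg.pPrimePCore q ↥K := by
        have hn : (Cfsg.pPrimePCore q ↥K).Normal := by
          haveI := Cfsg.Agent.H29.pPrimePCore_characteristic q ↥K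
          infer_instance
        rw [commutatorElement_def]
        exact Subgroup.mul_mem _ (hn.conj_mem _ hxR' u) (Subgroup.inv_mem _ hxR')
      have hc4 : QuotientGroup.mk' (Cfsg.pPrimeCore q ↥K) ⁅u, (⟨x, hxK⟩ : ↥K)⁆ ∈
          Cfsg.pCore q (↥K ⧸ Cfsg.pPrimeCore q ↥K) := (hRmem _).mp hc3
      obtain ⟨k, hk⟩ := hVq ⟨_, hc4⟩
      have hk' : (QuotientGroup.mk' (Cfsg.pPrimeCore q ↥K) ⁅u, (⟨x, hxK⟩ : ↥K)⁆) ^ q ^ k = 1 := by
        have := congrArg Subtype.val hk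
        simpa using this
      have hc5 : orderOf (QuotientGroup.mk' (Cfsg.pPrimeCore q ↥K) ⁅u, (⟨x, hxK⟩ : ↥K)⁆) ∣
          Nat.card ↥⁅U, K ⊓ Subgroup.centralizer (B' : Set H)⁆ := by
        refine (orderOf_map_dvd _ _).trans ?_
        have : orderOf ⁅u, (⟨x, hxK⟩ : ↥K)⁆ = orderOf ⁅(u : H), x⁆ := by
          rw [← Subgroup.orderOf_coe]
          rfl
        rw [this]; exact hc2
      have hc6 := eq_one_of_pow_of_coprime hk' hc5 (coprime_of_not_dvd _ (hcomm B' hB'A hB'p))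
      rw [commutatorElement_def, map_mul, map_mul, map_mul, map_inv, map_inv] at hc6
      have : QuotientGroup.mk' (Cfsg.pPrimeCore q ↥K) u *
          QuotientGroup.mk' (Cfsg.pPrimeCore q ↥K) ⟨x, hxK⟩ =
          (QuotientGroup.mk' (Cfsg.pPrimeCore q ↥K) u *
            QuotientGroup.mk' (Cfsg.pPrimeCore q ↥K) ⟨x, hxK⟩ *
            (QuotientGroup.mk' (Cfsg.pPrimeCore q ↥K) u)⁻¹ *
            (QuotientGroup.mk' (Cfsg.pPrimeCore q ↥K) ⟨x, hxK⟩)⁻¹) *
          (QuotientGroup.mk' (Cfsg.pPrimeCore q ↥K) ⟨x, hxK⟩ *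
            QuotientGroup.mk' (Cfsg.pPrimeCore q ↥K) u) := by group
      rw [this, hc6, one_mul]
    intro x hx
    have h1 := hle (Subgroup.mem_map_of_mem K.subtype hx)
    obtain ⟨y, hy, hyx⟩ := h1
    have hyx' : y = x := Subtype.ext hyx
    rw [hyx', SetLike.mem_coe, Subgroup.mem_comap, Subgroup.mem_centralizer_singleton_iff] at hy
    exact hy
  intro u hu
  have huK : u ∈ K := hU hu
  refine ⟨⟨u, huK⟩, ?_, rfl⟩
  have h1 : QuotientGroup.mk' (Cfsg.pPrimeCore q ↥K) ⟨u, huK⟩ ∈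
      Subgroup.centralizer ((Cfsg.pCore q (↥K ⧸ Cfsg.pPrimeCore q ↥K) : Subgroup _) : Set _) := by
    rw [Subgroup.mem_centralizer_iff]
    intro v hv
    obtain ⟨x, rfl⟩ := QuotientGroup.mk'_surjective (Cfsg.pPrimeCore q ↥K) v
    exact key ⟨u, huK⟩ hu x ((hRmem x).mpr hv)
  have h2 := hCV h1
  obtain ⟨k, hk⟩ := hVq ⟨_, h2⟩
  have hk' : (QuotientGroup.mk' (Cfsg.pPrimeCore q ↥K) (⟨u, huK⟩ : ↥K)) ^ q ^ k = 1 := by
    have := congrArg Subtype.val hk
    simpa using this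
  have h3 : orderOf (QuotientGroup.mk' (Cfsg.pPrimeCore q ↥K) (⟨u, huK⟩ : ↥K)) ∣ Nat.card ↥U := by
    refine (orderOf_map_dvd _ _).trans ?_
    have : orderOf (⟨u, huK⟩ : ↥K) = orderOf u := by
      rw [← Subgroup.orderOf_coe]
    rw [this]; exact Subgroup.orderOf_dvd_natCard _ hu
  have h4 := eq_one_of_pow_of_coprime hk' h3 (coprime_of_not_dvd _ hUq)
  exact (QuotientGroup.eq_one_iff _).mp h4

end Cfsg.Agent.S1288
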