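import Cfsg.Statements.S1289
import Cfsg.Agent.H27.PComp

set_option autoImplicit false
open Cfsg

namespace Cfsg.Agent.S1289

/-- A p-component K of the finite group X is subnormal, perfect, of order divisible by p, and minimal among the subnormal perfect subgroups of X of order divisible by p. -/
theorem result {X : Type*} [Group X] [Finite X] (p : ℕ) [Fact p.Prime] (K : Subgroup X) (hK : Cfsg.IsPComponent p K) : K.IsSubnormal ∧ ⁅K, K⁆ = K ∧ p ∣ Nat.card ↥K ∧ ∀ H : Subgroup X, H ≤ K → H.IsSubnormal → ⁅H, H⁆ = H → p ∣ Nat.card ↥H → H = K := by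
  refine ⟨hK.1, Cfsg.Agent.H27.pComponent_perfect hK, Cfsg.Agent.H27.pComponent_dvd_card hK, ?_⟩
  intro H hHK hH hperf hpH
  apply hK.2.2 H hH hHK
  have hq : IsQuasisimple ↥(K.map (QuotientGroup.mk' (Cfsg.pPrimeCore p X))) := hK.2.1.2
  have hle : H.map (QuotientGroup.mk' (Cfsg.pPrimeCore p X)) ≤
      K.map (QuotientGroup.mk' (Cfsg.pPrimeCore p X)) := Subgroup.map_mono hHK
  have hsub : ((H.map (QuotientGroup.mk' (Cfsg.pPrimeCore p X))).subgroupOf
      (K.map (QuotientGroup.mk' (Cfsg.pPrimeCore p X)))).IsSubnormal :=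
    (hH.map (QuotientGroup.mk'_surjective _)).subgroupOf
  rcases Cfsg.Agent.H27.quasisimple_subnormal hq _ hsub with h | h
  · apply le_antisymm hle
    intro z hz
    have hz' : (⟨z, hz⟩ : K.map (QuotientGroup.mk' (Cfsg.pPrimeCore p X))) ∈
        (H.map (QuotientGroup.mk' (Cfsg.pPrimeCore p X))).subgroupOf
          (K.map (QuotientGroup.mk' (Cfsg.pPrimeCore p X))) := by
      rw [h]; exact Subgroup.mem_top _
    exact hz'
  · exfalso
    have hcomm : ⁅H.map (QuotientGroup.mk' (Cfsg.pPrimeCore p X)),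
        H.map (QuotientGroup.mk' (Cfsg.pPrimeCore p X))⁆ = ⊥ := by
      apply Cfsg.Agent.H27.comm_eq_bot_of_forall
      intro a ha b hb
      have ha' : (⟨a, hle ha⟩ : K.map (QuotientGroup.mk' (Cfsg.pPrimeCore p X))) ∈
          Subgroup.center (K.map (QuotientGroup.mk' (Cfsg.pPrimeCore p X))) := h ha
      have h3 := Subgroup.mem_center_iff.mp ha' ⟨b, hle hb⟩
      exact (congrArg Subtype.val h3).symm
    have hperf' : ⁅H.map (QuotientGroup.mk' (Cfsg.pPrimeCore p X)),
        H.map (QuotientGroup.mk' (Cfsg.pPrimeCore p X))⁆ =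
        H.map (QuotientGroup.mk' (Cfsg.pPrimeCore p X)) := by
      rw [← Subgroup.map_commutator, hperf]
    have hbot : H.map (QuotientGroup.mk' (Cfsg.pPrimeCore p X)) = ⊥ := by
      rw [← hperf', hcomm]
    have hHO : H ≤ Cfsg.pPrimeCore p X := by
      intro x hx
      have h4 : QuotientGroup.mk' (Cfsg.pPrimeCore p X) x ∈
          H.map (QuotientGroup.mk' (Cfsg.pPrimeCore p X)) := Subgroup.mem_map_of_mem _ hx
      rw [hbot, Subgroup.mem_bot, QuotientGroup.mk'_apply, QuotientGroup.eq_one_iff] at h4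
      exact h4
    have hcop : (Nat.card H).Coprime p :=
      Nat.Coprime.coprime_dvd_left (Subgroup.card_dvd_of_le hHO)
        (Cfsg.Agent.H60.card_pPrimeCore_coprime p)
    exact (Fact.out : p.Prime).one_lt.ne' (Nat.Coprime.eq_one_of_dvd hcop.symm hpH)

end Cfsg.Agent.S1289
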