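import Cfsg.Statements.S1300

set_option autoImplicit false
open Cfsg

namespace Cfsg.Agent.S1300

theorem cpc_le_centralizer {G : Type*} [Group G] (p : ℕ) (x : G) :
    Cfsg.centralizerPPrimeCore p x ≤ Subgroup.centralizer {x} := by
  unfold Cfsg.centralizerPPrimeCore
  intro g hg
  rw [Subgroup.mem_map] at hg
  obtain ⟨y, _, rfl⟩ := hg
  exact y.2

theorem delta_zpowers {G : Type*} [Group G] (x : G) (A : Subgroup G)
    (hx : x ∈ A) (hx1 : x ≠ 1) (hA : ∀ a ∈ A, a = 1 ∨ a = x) :
    Cfsg.signalizerDelta 2 A = Cfsg.centralizerPPrimeCore 2 x := by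
  unfold Cfsg.signalizerDelta
  apply le_antisymm
  · exact iInf_le_of_le ⟨x, hx, hx1⟩ le_rfl
  · apply le_iInf
    rintro ⟨a, ha, ha1⟩
    rcases hA a ha with h | h
    · exact absurd h ha1
    · subst h; exact le_rfl

/-- For a finite group G, balance in the sense of commuting involutions is the same as 1-balance for the prime 2. -/
theorem result {G : Type*} [Group G] [Finite G] : Cfsg.IsBalanced G ↔ Cfsg.IsKBalanced 2 1 G := by
  constructor
  · intro h A hA hcard b hb hcomm
    -- A has order 2, so A = {1, x} with x an involution
    rw [pow_one] at hcard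
    have hne : ∃ x ∈ A, x ≠ 1 := by
      by_contra hcon
      push Not at hcon
      have : A = ⊥ := by
        rw [eq_bot_iff]; intro a ha; simpa using hcon a ha
      rw [this] at hcard
      simp at hcard
    obtain ⟨x, hxA, hx1⟩ := hne
    have hx2 : x ^ 2 = 1 := hA.2 x hxA
    have hord : orderOf x = 2 := orderOf_eq_prime hx2 hx1
    have hall : ∀ a ∈ A, a = 1 ∨ a = x := by
      intro a ha
      by_contra hcon
      push Not at hcon
      -- three distinct elements 1, x, a of A
      have h3 : 3 ≤ Nat.card A := by
        have hinj : Function.Injective (fun i : Fin 3 => (![⟨1, A.one_mem⟩, ⟨x, hxA⟩, ⟨a, ha⟩] i : A)) := by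
          intro i j hij
          fin_cases i <;> fin_cases j <;> simp_all [Subtype.ext_iff]
        have := Nat.card_le_card_of_injective _ hinj
        simpa using this
      omega
    rw [delta_zpowers x A hxA hx1 hall]
    have hxb : x * b = b * x := hcomm x hxA
    rw [h x b hord hb hxb]
    exact inf_le_left
  · intro h x y hx hy hxy
    have key : ∀ x y : G, orderOf x = 2 → orderOf y = 2 → x * y = y * x →
        Cfsg.centralizerPPrimeCore 2 x ⊓ Subgroup.centralizer {y} ≤
          Cfsg.centralizerPPrimeCore 2 y ⊓ Subgroup.centralizer {x} := by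
      intro x y hx hy hxy
      have hx1 : x ≠ 1 := by
        rintro rfl; simp at hx
      have hx2 : x ^ 2 = 1 := by rw [← hx]; exact pow_orderOf_eq_one x
      -- A = zpowers x
      have hmem : ∀ a ∈ Subgroup.zpowers x, a = 1 ∨ a = x := by
        intro a ha
        rw [Subgroup.mem_zpowers_iff] at ha
        obtain ⟨k, rfl⟩ := ha
        rcases Int.emod_two_eq_zero_or_one k with hk | hk
        · left
          have : k = 2 * (k / 2) := by omega
          rw [this, zpow_mul, zpow_ofNat, hx2, one_zpow]
        · right
          have : k = 2 * (k / 2) + 1 := by omega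
          rw [this, zpow_add, zpow_mul, zpow_ofNat, hx2, one_zpow, one_mul, zpow_one]
      have hEA : Cfsg.IsElementaryAbelian 2 (Subgroup.zpowers x) := by
        refine ⟨inferInstance, ?_⟩
        intro a ha
        rcases hmem a ha with rfl | rfl
        · simp
        · exact hx2
      have hcard : Nat.card (Subgroup.zpowers x) = 2 ^ 1 := by
        rw [Nat.card_zpowers, hx, pow_one]
      have hcomm : ∀ a ∈ Subgroup.zpowers x, a * y = y * a := by
        intro a ha
        rcases hmem a ha with rfl | rfl
        · simp
        · exact hxy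
      have := h (Subgroup.zpowers x) hEA hcard y hy hcomm
      rw [delta_zpowers x (Subgroup.zpowers x) (Subgroup.mem_zpowers x) hx1 hmem] at this
      exact le_inf this (inf_le_left.trans (cpc_le_centralizer 2 x))
    exact le_antisymm (key x y hx hy hxy) (key y x hy hx hxy.symm)

end Cfsg.Agent.S1300
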