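import Mathlib
import Cfsg.Statements.S1303
import Cfsg.Agent.H65.SL23

set_option autoImplicit false
open Cfsg

namespace Cfsg.Agent.S1303

open Cfsg.Agent.H65

/-- The group X = SL(2, 3): it is 2-constrained, O_{2'}(X) = 1, its centre A = Z(X) contains every involution of X = C_X(A), and X has a subgroup of order 3 (normalized by A) not contained in O_{2'}(X). -/
theorem result : Cfsg.IsPConstrained 2 (Matrix.SpecialLinearGroup (Fin 2) (ZMod 3)) ∧ Cfsg.pPrimeCore 2 (Matrix.SpecialLinearGroup (Fin 2) (ZMod 3)) = ⊥ ∧ (∀ t : Matrix.SpecialLinearGroup (Fin 2) (ZMod 3), orderOf t = 2 → t ∈ Subgroup.center (Matrix.SpecialLinearGroup (Fin 2) (ZMod 3))) ∧ ∃ Q : Subgroup (Matrix.SpecialLinearGroup (Fin 2) (ZMod 3)), Nat.card ↥Q = 3 ∧ ¬ (Q ≤ Cfsg.pPrimeCore 2 (Matrix.SpecialLinearGroup (Fin 2) (ZMod 3))) := by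
  have hcore : Cfsg.pPrimeCore 2 (Matrix.SpecialLinearGroup (Fin 2) (ZMod 3)) = ⊥ := by
    unfold Cfsg.pPrimeCore
    rw [sSup_eq_bot]
    rintro N ⟨hNn, hNc⟩
    rcases SL23.normal_class N hNn with h | h | h | h
    · exact h
    · exfalso
      rw [h, Subgroup.card_top, SL23.card_G3] at hNc
      norm_num at hNc
    · exfalso
      rw [h, SL23.card_center] at hNc
      norm_num at hNc
    · exfalso
      rw [h, SL23.card_Q] at hNc
      norm_num at hNc
  have hQ2 : IsPGroup 2 SL23.Q := IsPGroup.of_card (n := 3) (SL23.card_Q.trans (by norm_num))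
  have hQle : SL23.Q ≤ Cfsg.pPrimePCore 2 (Matrix.SpecialLinearGroup (Fin 2) (ZMod 3)) := by
    intro g hg
    unfold Cfsg.pPrimePCore
    rw [Subgroup.mem_comap]
    have hmap : (SL23.Q.map (QuotientGroup.mk' (Cfsg.pPrimeCore 2 (Matrix.SpecialLinearGroup (Fin 2) (ZMod 3))))) ≤
        Cfsg.pCore 2 (Matrix.SpecialLinearGroup (Fin 2) (ZMod 3) ⧸ Cfsg.pPrimeCore 2 (Matrix.SpecialLinearGroup (Fin 2) (ZMod 3))) := by
      apply le_sSup
      exact ⟨Subgroup.Normal.map inferInstance _ (QuotientGroup.mk'_surjective _), hQ2.map _⟩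
    exact hmap (Subgroup.mem_map_of_mem _ hg)
  refine ⟨?_, hcore, ?_, ?_⟩
  · intro P
    have h1 : SL23.Q ≤ (P : Subgroup _).map (Cfsg.pPrimePCore 2 (Matrix.SpecialLinearGroup (Fin 2) (ZMod 3))).subtype := by
      have hsub : IsPGroup 2 (SL23.Q.subgroupOf (Cfsg.pPrimePCore 2 (Matrix.SpecialLinearGroup (Fin 2) (ZMod 3)))) :=
        hQ2.comap_subtype
      have hle := hsub.le_sylow_of_normal P
      intro g hg
      exact ⟨⟨g, hQle hg⟩, hle (Subgroup.mem_subgroupOf.2 hg), rfl⟩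
    intro g hg
    apply hQle
    apply SL23.centralizer_Q_elems g
    intro h hh
    exact Subgroup.mem_centralizer_iff.1 hg h (h1 hh)
  · intro t ht
    have htt : t * t = 1 := by
      have h := pow_orderOf_eq_one t
      rw [ht, pow_two] at h
      exact h
    rw [SL23.mem_center_iff']
    exact SL23.sq_one t htt
  · have hq1 : SL23.qt ≠ 1 := SL23.basic_rel.2.2.2.2.2.2.2.2.1
    refine ⟨Subgroup.zpowers SL23.qt, ?_, ?_⟩
    · rw [Nat.card_zpowers]
      have : Fact (Nat.Prime 3) := ⟨Nat.prime_three⟩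
      exact orderOf_eq_prime (by rw [pow_three']; exact SL23.basic_rel.2.2.2.2.2.2.2.1) hq1
    · rw [hcore]
      intro h
      have := h (Subgroup.mem_zpowers SL23.qt)
      rw [Subgroup.mem_bot] at this
      exact hq1 this

end Cfsg.Agent.S1303
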