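import Cfsg.Statements.S1304
import Mathlib.Tactic.Group

set_option autoImplicit false
open Cfsg

namespace Cfsg.Agent.S1304

open scoped commutatorElement in
/-- Let X be a perfect group and α an automorphism of X with α(x) x⁻¹ central for every x. Then α is the identity. -/
theorem result {X : Type*} [Group X] (hperf : commutator X = ⊤) (α : X ≃* X) (h : ∀ x : X, α x * x⁻¹ ∈ Subgroup.center X) : ∀ x : X, α x = x := by
  have hcomm : ∀ a b : X, α ⁅a, b⁆ = ⁅a, b⁆ := by
    intro a b
    have ha := h a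
    have hb := h b
    rw [Subgroup.mem_center_iff] at ha hb
    have ea : α a = (α a * a⁻¹) * a := by group
    have eb : α b = (α b * b⁻¹) * b := by group
    generalize α a * a⁻¹ = z at ha ea
    generalize α b * b⁻¹ = w at hb eb
    rw [commutatorElement_def, map_mul, map_mul, map_mul, map_inv, map_inv, ea, eb]
    have e1 : z * a = a * z := (ha a).symm
    have e2 : w * b = b * w := (hb b).symm
    have e3 : z * b = b * z := (ha b).symm
    have e4 : w * a = a * w := (hb a).symm
    have e5 : z * w = w * z := (ha w).symm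
    calc z * a * (w * b) * (z * a)⁻¹ * (w * b)⁻¹
        = a * z * (b * w) * (a * z)⁻¹ * (b * w)⁻¹ := by rw [e1, e2]
      _ = a * (z * b) * w * z⁻¹ * a⁻¹ * w⁻¹ * b⁻¹ := by group
      _ = a * (b * z) * w * z⁻¹ * a⁻¹ * w⁻¹ * b⁻¹ := by rw [e3]
      _ = a * b * (z * w) * z⁻¹ * a⁻¹ * w⁻¹ * b⁻¹ := by group
      _ = a * b * (w * z) * z⁻¹ * a⁻¹ * w⁻¹ * b⁻¹ := by rw [e5]
      _ = a * b * (w * a⁻¹) * w⁻¹ * b⁻¹ := by group
      _ = a * b * (a⁻¹ * w) * w⁻¹ * b⁻¹ := by
          have : w * a⁻¹ = a⁻¹ * w := (hb a⁻¹).symm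
          rw [this]
      _ = a * b * a⁻¹ * b⁻¹ := by group
  have hle : commutator X ≤ (MonoidHom.eqLocus (α : X →* X) (MonoidHom.id X)) := by
    rw [commutator_eq_closure, Subgroup.closure_le]
    rintro g ⟨a, b, rfl⟩
    exact hcomm a b
  intro x
  have : x ∈ commutator X := by rw [hperf]; trivial
  exact hle this

end Cfsg.Agent.S1304
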