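import Cfsg.Statements.S1306
import Cfsg.Agent.H28.Standard

namespace Cfsg.Agent.S1306

theorem result {G : Type*} [Group G] [Finite G] (x : G) (hx : orderOf x = 2) (L : Subgroup G) (hLx : L ≤ Subgroup.centralizer ({x} : Set G)) (hL : Cfsg.IsComponent (L.subgroupOf (Subgroup.centralizer ({x} : Set G)))) (hne : ∀ y : G, orderOf y = 2 → y ∈ Subgroup.centralizer (L : Set G) → L ≤ Subgroup.centralizer ({y} : Set G) ∧ Cfsg.IsComponent (L.subgroupOf (Subgroup.centralizer ({y} : Set G)))) (hnc : ∀ g : G, L.map (MulAut.conj g).toMonoidHom ≠ L → ⁅L, L.map (MulAut.conj g).toMonoidHom⁆ ≠ ⊥) : Cfsg.IsStandardSubgroup L := by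
  exact Cfsg.Agent.H28.isStandardSubgroup_of_component x hx L hLx hL hne hnc

end Cfsg.Agent.S1306
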