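import Cfsg.Statements.S1314
import Mathlib.Tactic.Group

set_option autoImplicit false
open Cfsg

namespace Cfsg.Agent.S1314

open scoped commutatorElement Pointwise

theorem mem_sup_of_commute {G : Type*} [Group G] (H K : Subgroup G)
    (hc : ∀ a ∈ H, ∀ b ∈ K, a * b = b * a) {x : G} (hx : x ∈ H ⊔ K) :
    ∃ a ∈ H, ∃ b ∈ K, a * b = x := by
  have hLE : H ≤ Subgroup.normalizer (K : Set G) := by
    intro a ha
    rw [Subgroup.mem_normalizer_iff]
    intro b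
    constructor
    · intro hb
      have := hc a ha b hb
      rw [this, mul_inv_cancel_right]; exact hb
    · intro hb
      have h1 := hc a ha _ hb
      have h2 : a * b * a⁻¹ * a = a * b := by group
      have h3 : a * (a * b * a⁻¹) = a * b := by rw [h1]; exact h2
      have h4 := mul_left_cancel h3
      rw [h4] at hb; exact hb
  have hset := Subgroup.coe_mul_of_left_le_normalizer_right H K hLE
  have hx' : x ∈ ((H ⊔ K : Subgroup G) : Set G) := hx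
  rw [hset, Set.mem_mul] at hx'
  obtain ⟨a, ha, b, hb, rfl⟩ := hx'
  exact ⟨a, ha, b, hb, rfl⟩

/-- Let x be an involution of a group G and L a perfect subgroup with ⁅L, x L x⁻¹⁆ = 1. Then l ↦ l (x l x⁻¹) is a group homomorphism π from L to G whose kernel is central in L and whose image lies in C_G(x); and the commutator subgroup of C_{L ⊔ xLx⁻¹}(x) equals the image of π. -/
theorem result {G : Type*} [Group G] [Finite G] (x : G) (hx : orderOf x = 2) (L : Subgroup G) (hperf : ⁅L, L⁆ = L) (hcomm : ⁅L, L.map (MulAut.conj x).toMonoidHom⁆ = ⊥) : ∃ π : ↥L →* G, (∀ l : ↥L, π l = (l : G) * (x * (l : G) * x⁻¹)) ∧ π.ker ≤ Subgroup.center ↥L ∧ π.range ≤ Subgroup.centralizer ({x} : Set G) ∧ ⁅(L ⊔ L.map (MulAut.conj x).toMonoidHom) ⊓ Subgroup.centralizer ({x} : Set G), (L ⊔ L.map (MulAut.conj x).toMonoidHom) ⊓ Subgroup.centralizer ({x} : Set G)⁆ = π.range := by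
  have hx2 : x * x = 1 := by
    have := pow_orderOf_eq_one x
    rwa [hx, pow_two] at this
  have hxinv : x⁻¹ = x := inv_eq_of_mul_eq_one_left hx2
  set L' : Subgroup G := L.map (MulAut.conj x).toMonoidHom with hL'
  -- elements of L and L' commute
  have hc : ∀ a ∈ L, ∀ b ∈ L', a * b = b * a := by
    rw [Subgroup.commutator_eq_bot_iff_le_centralizer] at hcomm
    intro a ha b hb
    have := hcomm ha
    rw [Subgroup.mem_centralizer_iff] at this
    exact (this b hb).symm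
  have hmemL' : ∀ a ∈ L, x * a * x⁻¹ ∈ L' := by
    intro a ha
    exact ⟨a, ha, by simp [MulAut.conj_apply]⟩
  have hc' : ∀ a ∈ L, ∀ b ∈ L, a * (x * b * x⁻¹) = (x * b * x⁻¹) * a :=
    fun a ha b hb => hc a ha _ (hmemL' b hb)
  let π : ↥L →* G :=
    { toFun := fun l => (l : G) * (x * (l : G) * x⁻¹)
      map_one' := by simp
      map_mul' := by
        intro a b
        have h := hc' b b.2 a a.2
        simp only [Subgroup.coe_mul]
        calc (a : G) * b * (x * (a * b) * x⁻¹)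
            = a * (b * (x * a * x⁻¹)) * (x * b * x⁻¹) := by group
          _ = a * ((x * a * x⁻¹) * b) * (x * b * x⁻¹) := by rw [h]
          _ = a * (x * a * x⁻¹) * (b * (x * b * x⁻¹)) := by group }
  have hπ : ∀ l : ↥L, π l = (l : G) * (x * (l : G) * x⁻¹) := fun l => rfl
  -- range π ≤ centralizer {x}
  have hrange : π.range ≤ Subgroup.centralizer ({x} : Set G) := by
    rintro _ ⟨l, rfl⟩
    rw [Subgroup.mem_centralizer_iff]
    intro y hy
    rw [Set.mem_singleton_iff] at hy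
    subst hy
    rw [hπ]
    have h := hc' l l.2 l l.2
    calc y * ((l : G) * (y * l * y⁻¹))
        = (y * l * y⁻¹) * ((y * y) * l * y⁻¹) := by group
      _ = (y * l * y⁻¹) * (l * y) := by rw [hx2, one_mul, hxinv]
      _ = (y * l * y⁻¹) * l * y := by group
      _ = l * (y * l * y⁻¹) * y := by rw [← h]
  have hrangeLL : π.range ≤ L ⊔ L' := by
    rintro _ ⟨l, rfl⟩
    rw [hπ]
    exact Subgroup.mul_mem_sup l.2 (hmemL' l l.2)
  -- elements of L ⊓ L' are central in L ⊔ L'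
  have hZ : ∀ z ∈ L, z ∈ L' → ∀ g ∈ L ⊔ L', z * g = g * z := by
    intro z hz hz' g hg
    obtain ⟨a, ha, b, hb, rfl⟩ := mem_sup_of_commute L L' hc hg
    calc z * (a * b) = (z * a) * b := by group
      _ = (a * z) * b := by rw [hc a ha z hz']
      _ = a * (z * b) := by group
      _ = a * (b * z) := by rw [hc z hz b hb]
      _ = a * b * z := by group
  refine ⟨π, hπ, ?_, hrange, ?_⟩
  · -- kernel is central
    intro l hl
    rw [MonoidHom.mem_ker, hπ] at hl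
    rw [Subgroup.mem_center_iff]
    intro m
    have hlL' : (l : G) ∈ L' := by
      have h1 : (l : G) = (x * (l : G) * x⁻¹)⁻¹ := eq_inv_of_mul_eq_one_left hl
      rw [h1]
      exact L'.inv_mem (hmemL' l l.2)
    apply Subtype.ext
    simp only [Subgroup.coe_mul]
    exact hc m m.2 l hlL'
  · -- commutator subgroup of the centralizer
    set C : Subgroup G := (L ⊔ L') ⊓ Subgroup.centralizer ({x} : Set G) with hC
    apply le_antisymm
    · rw [Subgroup.commutator_le]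
      -- every element of C is z * π b with z central
      have hdecomp : ∀ c ∈ C, ∃ z ∈ L, z ∈ L' ∧ ∃ b : ↥L, c = z * π b := by
        intro c hcC
        obtain ⟨a, ha, b', hb', rfl⟩ := mem_sup_of_commute L L' hc hcC.1
        obtain ⟨b, hb, rfl⟩ := hb'
        simp only [MulEquiv.coe_toMonoidHom, MulAut.conj_apply] at hcC ⊢
        have hcx : a * (x * b * x⁻¹) ∈ Subgroup.centralizer ({x} : Set G) := hcC.2
        have hb : b ∈ L := hb
        rw [Subgroup.mem_centralizer_iff] at hcx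
        have hcx' := hcx x rfl
        -- x * (a * (x b x⁻¹)) = (a * (x b x⁻¹)) * x
        have hz : b⁻¹ * a = x * (a * b⁻¹) * x⁻¹ := by
          have e1 : a * (x * b * x⁻¹) = b * (x * a * x⁻¹) := by
            have : a * (x * b * x⁻¹) = x * (a * (x * b * x⁻¹)) * x⁻¹ := by
              rw [hcx']; group
            rw [this]
            calc x * (a * (x * b * x⁻¹)) * x⁻¹ = (x * a * x⁻¹) * ((x * x) * b * (x⁻¹ * x⁻¹)) := by group
              _ = (x * a * x⁻¹) * b := by rw [hxinv, hx2]; group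
              _ = b * (x * a * x⁻¹) := (hc' b hb a ha).symm
          calc b⁻¹ * a = b⁻¹ * (a * (x * b * x⁻¹)) * (x * b * x⁻¹)⁻¹ := by group
            _ = b⁻¹ * (b * (x * a * x⁻¹)) * (x * b * x⁻¹)⁻¹ := by rw [e1]
            _ = x * (a * b⁻¹) * x⁻¹ := by group
        refine ⟨b⁻¹ * a, L.mul_mem (L.inv_mem hb) ha, ?_, ⟨b, hb⟩, ?_⟩
        · rw [hz]; exact hmemL' _ (L.mul_mem ha (L.inv_mem hb))
        · rw [hπ]
          have hzb : (b⁻¹ * a) * b = b * (b⁻¹ * a) := by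
            have hzL' : b⁻¹ * a ∈ L' := by
              rw [hz]; exact hmemL' _ (L.mul_mem ha (L.inv_mem hb))
            exact (hc b hb _ hzL').symm
          calc a * (x * b * x⁻¹) = b * (b⁻¹ * a) * (x * b * x⁻¹) := by group
            _ = (b⁻¹ * a) * b * (x * b * x⁻¹) := by rw [hzb]
            _ = b⁻¹ * a * (b * (x * b * x⁻¹)) := by group
      intro g₁ hg₁ g₂ hg₂
      obtain ⟨z₁, hz₁, hz₁', b₁, rfl⟩ := hdecomp g₁ hg₁
      obtain ⟨z₂, hz₂, hz₂', b₂, rfl⟩ := hdecomp g₂ hg₂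
      have hp₁ : π b₁ ∈ L ⊔ L' := hrangeLL ⟨b₁, rfl⟩
      have hp₂ : π b₂ ∈ L ⊔ L' := hrangeLL ⟨b₂, rfl⟩
      have hz₂LL : z₂ ∈ L ⊔ L' := Subgroup.mem_sup_left hz₂
      have e1 := hZ z₁ hz₁ hz₁' (π b₂) hp₂
      have e2 := hZ z₂ hz₂ hz₂' (π b₁) hp₁
      have e3 := hZ z₁ hz₁ hz₁' z₂ hz₂LL
      have e4 := hZ z₁ hz₁ hz₁' (π b₁) hp₁
      have e5 := hZ z₂ hz₂ hz₂' (π b₂) hp₂
      have : ⁅z₁ * π b₁, z₂ * π b₂⁆ = π ⁅b₁, b₂⁆ := by
        rw [map_commutatorElement, commutatorElement_def, commutatorElement_def]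
        generalize π b₁ = p₁ at *
        generalize π b₂ = p₂ at *
        calc z₁ * p₁ * (z₂ * p₂) * (z₁ * p₁)⁻¹ * (z₂ * p₂)⁻¹
            = z₁ * (p₁ * z₂) * p₂ * p₁⁻¹ * z₁⁻¹ * p₂⁻¹ * z₂⁻¹ := by group
          _ = z₁ * (z₂ * p₁) * p₂ * p₁⁻¹ * z₁⁻¹ * p₂⁻¹ * z₂⁻¹ := by rw [e2]
          _ = (z₁ * z₂) * p₁ * p₂ * p₁⁻¹ * z₁⁻¹ * p₂⁻¹ * z₂⁻¹ := by group
          _ = (z₂ * z₁) * p₁ * p₂ * p₁⁻¹ * z₁⁻¹ * p₂⁻¹ * z₂⁻¹ := by rw [e3]
          _ = z₂ * (z₁ * p₁) * p₂ * p₁⁻¹ * z₁⁻¹ * p₂⁻¹ * z₂⁻¹ := by group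
          _ = z₂ * (p₁ * z₁) * p₂ * p₁⁻¹ * z₁⁻¹ * p₂⁻¹ * z₂⁻¹ := by rw [e4]
          _ = z₂ * p₁ * (z₁ * p₂) * p₁⁻¹ * z₁⁻¹ * p₂⁻¹ * z₂⁻¹ := by group
          _ = z₂ * p₁ * (p₂ * z₁) * p₁⁻¹ * z₁⁻¹ * p₂⁻¹ * z₂⁻¹ := by rw [e1]
          _ = z₂ * p₁ * p₂ * (z₁ * p₁⁻¹) * z₁⁻¹ * p₂⁻¹ * z₂⁻¹ := by group
          _ = z₂ * p₁ * p₂ * (p₁⁻¹ * z₁) * z₁⁻¹ * p₂⁻¹ * z₂⁻¹ := by
              have : z₁ * p₁⁻¹ = p₁⁻¹ * z₁ := by
                calc z₁ * p₁⁻¹ = p₁⁻¹ * (p₁ * z₁) * p₁⁻¹ := by group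
                  _ = p₁⁻¹ * (z₁ * p₁) * p₁⁻¹ := by rw [e4]
                  _ = p₁⁻¹ * z₁ := by group
              rw [this]
          _ = (z₂ * p₁) * p₂ * p₁⁻¹ * p₂⁻¹ * z₂⁻¹ := by group
          _ = (p₁ * z₂) * p₂ * p₁⁻¹ * p₂⁻¹ * z₂⁻¹ := by rw [e2]
          _ = p₁ * (z₂ * p₂) * p₁⁻¹ * p₂⁻¹ * z₂⁻¹ := by group
          _ = p₁ * (p₂ * z₂) * p₁⁻¹ * p₂⁻¹ * z₂⁻¹ := by rw [e5]
          _ = p₁ * p₂ * (z₂ * p₁⁻¹) * p₂⁻¹ * z₂⁻¹ := by group
          _ = p₁ * p₂ * (p₁⁻¹ * z₂) * p₂⁻¹ * z₂⁻¹ := by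
              have : z₂ * p₁⁻¹ = p₁⁻¹ * z₂ := by
                calc z₂ * p₁⁻¹ = p₁⁻¹ * (p₁ * z₂) * p₁⁻¹ := by group
                  _ = p₁⁻¹ * (z₂ * p₁) * p₁⁻¹ := by rw [e2]
                  _ = p₁⁻¹ * z₂ := by group
              rw [this]
          _ = p₁ * p₂ * p₁⁻¹ * (z₂ * p₂⁻¹) * z₂⁻¹ := by group
          _ = p₁ * p₂ * p₁⁻¹ * (p₂⁻¹ * z₂) * z₂⁻¹ := by
              have : z₂ * p₂⁻¹ = p₂⁻¹ * z₂ := by
                calc z₂ * p₂⁻¹ = p₂⁻¹ * (p₂ * z₂) * p₂⁻¹ := by group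
                  _ = p₂⁻¹ * (z₂ * p₂) * p₂⁻¹ := by rw [e5]
                  _ = p₂⁻¹ * z₂ := by group
              rw [this]
          _ = p₁ * p₂ * p₁⁻¹ * p₂⁻¹ := by group
      rw [this]
      exact ⟨_, rfl⟩
    · -- range π = π(⁅L,L⁆) ≤ ⁅C, C⁆
      have hperf' : ⁅(⊤ : Subgroup ↥L), (⊤ : Subgroup ↥L)⁆ = ⊤ := by
        apply Subgroup.map_injective L.subtype_injective
        rw [Subgroup.map_commutator]
        simp only [← MonoidHom.range_eq_map, Subgroup.range_subtype]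
        exact hperf
      have hrC : π.range ≤ C := le_inf hrangeLL hrange
      calc π.range = (⊤ : Subgroup ↥L).map π := MonoidHom.range_eq_map π
        _ = (⁅(⊤ : Subgroup ↥L), (⊤ : Subgroup ↥L)⁆).map π := by rw [hperf']
        _ = ⁅(⊤ : Subgroup ↥L).map π, (⊤ : Subgroup ↥L).map π⁆ := Subgroup.map_commutator _ _ π
        _ = ⁅π.range, π.range⁆ := by rw [← MonoidHom.range_eq_map]
        _ ≤ ⁅C, C⁆ := Subgroup.commutator_mono hrC hrC

end Cfsg.Agent.S1314
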