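import Cfsg.Statements.S1316
import Cfsg.Agent.H28.FStar2

namespace Cfsg.Agent.S1316

theorem result {X : Type*} [Group X] [Finite X] : (⨅ n : ℕ, (derivedSeries ↥(Cfsg.generalizedFittingSubgroup X) n).map (Cfsg.generalizedFittingSubgroup X).subtype) = Cfsg.layer X := by
  exact Cfsg.Agent.H28.iInf_map_derivedSeries_eq_layer

end Cfsg.Agent.S1316
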