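import Cfsg.Statements.S1318
import Cfsg.Agent.H28.FStar3

namespace Cfsg.Agent.S1318

theorem result {X : Type*} [Group X] [Finite X] (S : Subgroup X) (hS : S ≤ Cfsg.generalizedFittingSubgroup X) (hsn : (S.subgroupOf (Cfsg.generalizedFittingSubgroup X)).IsSubnormal) : (Cfsg.fittingSubgroup ↥S).map S.subtype = Cfsg.fittingSubgroup X ⊓ S ∧ Cfsg.fittingSubgroup ↥S ⊔ Cfsg.layer ↥S = ⊤ := by
  have hS' : S.IsSubnormal := by
    have h := hsn.trans' (Subgroup.Normal.isSubnormal (Cfsg.Agent.H28.genFitting_normal (G := X)))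
    rwa [Subgroup.map_subgroupOf_eq_of_le hS] at h
  exact ⟨Cfsg.Agent.H28.fitting_map_subtype_eq hS',
    Cfsg.Agent.H28.fitting_sup_layer_eq_top_of_le_genFitting hS' hS⟩

end Cfsg.Agent.S1318
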