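import Cfsg.Statements.S1319
import Cfsg.Agent.H28.FStar

namespace Cfsg.Agent.S1319

theorem result {X : Type*} [Group X] [Finite X] (A : Subgroup X) (hsn : A.IsSubnormal) (hA : Cfsg.layer ↥A = ⊤) : A ≤ Cfsg.layer X ∧ (A.subgroupOf (Cfsg.layer X)).Normal := by
  have h1 : A ≤ Cfsg.layer X := by
    have h := Cfsg.Agent.H28.layer_map_subtype_le hsn
    rw [hA] at h
    intro x hx
    exact h ⟨⟨x, hx⟩, Subgroup.mem_top _, rfl⟩
  exact ⟨h1, (Subgroup.normal_subgroupOf_iff_le_normalizer h1).2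
    (Cfsg.Agent.H28.layer_le_normalizer_subnormal hsn)⟩

end Cfsg.Agent.S1319
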