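import Cfsg.Statements.S1321
import Cfsg.Agent.H28.FStar2

namespace Cfsg.Agent.S1321

theorem result {X : Type*} [Group X] [Finite X] (U : Subgroup X) : Cfsg.layer X = (Cfsg.layer X ⊓ Subgroup.centralizer (U : Set X)) ⊔ ⁅Cfsg.layer X, U⁆ ∧ ⁅Cfsg.layer X, U⁆ ≤ Cfsg.layer X := by
  exact Cfsg.Agent.H28.layer_eq_centralizer_sup_commutator U

end Cfsg.Agent.S1321
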