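import Cfsg.Statements.S1325
import Cfsg.Agent.H28.FStar

namespace Cfsg.Agent.S1325

theorem result {X : Type*} [Group X] [Finite X] (Y : Subgroup X) [Y.Normal] (hF : Cfsg.fittingSubgroup X ≤ Y) (hC : Subgroup.centralizer (Y : Set X) ≤ Y) : Cfsg.generalizedFittingSubgroup X ≤ Y := by
  exact sup_le (Cfsg.Agent.H28.layer_le_of_centralizer_le hC) hF

end Cfsg.Agent.S1325
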