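import Cfsg.Statements.S1326
import Cfsg.Agent.H28.FStar

namespace Cfsg.Agent.S1326

theorem result {X : Type*} [Group X] [Finite X] : Subgroup.centralizer (Cfsg.fittingSubgroup X : Set X) ≤ Cfsg.fittingSubgroup X ↔ Cfsg.layer X = ⊥ := by
  exact Cfsg.Agent.H28.centralizer_fitting_le_iff

end Cfsg.Agent.S1326
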