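import Cfsg.Statements.S1331
import Cfsg.Agent.H28.Coprime

set_option autoImplicit false
open Cfsg

namespace Cfsg.Agent.S1331

/-- Let θ be a solvable A-signalizer functor on the finite group G for the prime p, A elementary abelian of rank at least 3, X a member of the family of θ, and B ≤ A with |B| ≥ p². Then X is generated by the subgroups X ∩ ⋂_{d ∈ D, d ≠ 1} θ d, D ranging over the subgroups of index p in B. -/
theorem result {G : Type*} [Group G] [Finite G] (p : ℕ) [Fact p.Prime] (A : Subgroup G) (hA : Cfsg.IsElementaryAbelian p A) (hA3 : p ^ 3 ≤ Nat.card ↥A) (θ : G → Subgroup G) (hθ : Cfsg.IsSolvableSignalizerFunctor p A θ) (X : Subgroup G) (hX : X ∈ Cfsg.signalizerFamily p A θ) (B : Subgroup G) (hB : B ≤ A) (hB2 : p ^ 2 ≤ Nat.card ↥B) : X = ⨆ D : {D : Subgroup G // D ≤ B ∧ D.relIndex B = p}, X ⊓ Cfsg.signalizerInf (D : Subgroup G) θ := by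
  obtain ⟨-, hXp, hXA, hXθ⟩ := hX
  apply le_antisymm
  · have hBel : Cfsg.IsElementaryAbelian p B := Cfsg.Agent.H28.isElementaryAbelian_of_le p hA hB
    have hBX : B ≤ Subgroup.normalizer (X : Set G) := by
      rw [Subgroup.le_normalizer_iff]
      intro b hb u hu
      exact hXA b (hB hb) u hu
    refine (Cfsg.Agent.H28.le_iSup_hyperplane_centralizers p B X hBel hB2 hXp hBX).trans ?_
    apply iSup_mono
    rintro ⟨D, hDB, hDrel⟩
    apply le_inf inf_le_left
    unfold Cfsg.signalizerInf
    apply le_iInf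
    rintro ⟨d, hdD, hd1⟩
    refine le_trans ?_ (hXθ d (hB (hDB hdD)) hd1)
    apply inf_le_inf_left
    apply Subgroup.centralizer_le
    intro x hx
    rw [Set.mem_singleton_iff] at hx
    subst hx
    exact hdD
  · exact iSup_le fun _ => inf_le_left

end Cfsg.Agent.S1331
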