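import Cfsg.Statements.S1335
import Cfsg.Agent.H28.Basic

set_option autoImplicit false
open Cfsg

namespace Cfsg.Agent.S1335

open Cfsg.Agent.H28

/-- Let H be a subgroup of the finite group G, p a prime, k ≥ 1, P a Sylow p-subgroup of H of p-rank at least k, and suppose N_G(X) ≤ H for every subgroup X ≤ P of p-rank at least k. Then P is a Sylow p-subgroup of G. -/
theorem result {G : Type*} [Group G] [Finite G] {p : ℕ} [Fact p.Prime] (k : ℕ) (hk : 1 ≤ k) (H : Subgroup G) (P : Sylow p ↥H) (hP : ¬ Cfsg.PRankLE p (k - 1) ↥(P : Subgroup ↥H)) (hΓ : (∀ X : Subgroup G, X ≤ (P : Subgroup ↥H).map H.subtype → ¬ Cfsg.PRankLE p (k - 1) ↥X → Subgroup.normalizer (X : Set G) ≤ H)) : ∃ Q : Sylow p G, (Q : Subgroup G) = (P : Subgroup ↥H).map H.subtype := by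
  set P' : Subgroup G := (P : Subgroup ↥H).map H.subtype with hP'
  have hP'p : IsPGroup p ↥P' := P.isPGroup'.map H.subtype
  have hP'H : P' ≤ H := Subgroup.map_subtype_le _
  -- rank transport
  have hrk : ¬ Cfsg.PRankLE p (k - 1) ↥P' := by
    intro h
    apply hP
    exact pRankLE_of_mulEquiv
      ((P : Subgroup ↥H).equivMapOfInjective H.subtype H.subtype_injective).symm h
  have hN : Subgroup.normalizer (P' : Set G) ≤ H := hΓ P' le_rfl hrk
  obtain ⟨Q, hPQ⟩ := hP'p.exists_le_sylow
  refine ⟨Q, ?_⟩
  -- R = N_Q(P') is a p-subgroup of H containing P'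
  set R : Subgroup G := (Q : Subgroup G) ⊓ Subgroup.normalizer (P' : Set G) with hR
  have hRp : IsPGroup p ↥R := Q.isPGroup'.to_le inf_le_left
  have hRH : R ≤ H := inf_le_right.trans hN
  have hP'R : P' ≤ R := le_inf hPQ Subgroup.le_normalizer
  have hRP' : R = P' := by
    have h1 : IsPGroup p ↥(R.subgroupOf H) :=
      hRp.comap_of_injective H.subtype H.subtype_injective
    have h2 : (P : Subgroup ↥H) ≤ R.subgroupOf H := by
      intro x hx
      rw [Subgroup.mem_subgroupOf]
      exact hP'R (Subgroup.mem_map_of_mem _ hx)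
    have h3 := P.is_maximal' h1 h2
    apply le_antisymm _ hP'R
    intro x hx
    have hxH : x ∈ H := hRH hx
    have : (⟨x, hxH⟩ : ↥H) ∈ R.subgroupOf H := by
      rw [Subgroup.mem_subgroupOf]; exact hx
    rw [h3] at this
    exact ⟨⟨x, hxH⟩, this, rfl⟩
  -- normalizer condition inside Q
  have : Group.IsNilpotent ↥(Q : Subgroup G) := Q.isPGroup'.isNilpotent
  have hnc := Group.normalizerCondition_of_isNilpotent (G := ↥(Q : Subgroup G))
  rw [normalizerCondition_iff_only_full_group_self_normalizing] at hnc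
  have hself : Subgroup.normalizer ((P'.subgroupOf (Q : Subgroup G) : Subgroup ↥(Q : Subgroup G)) : Set ↥(Q : Subgroup G)) = P'.subgroupOf (Q : Subgroup G) := by
    apply le_antisymm _ Subgroup.le_normalizer
    intro x hx
    rw [Subgroup.mem_subgroupOf]
    have hxR : (x : G) ∈ R := by
      refine ⟨x.2, ?_⟩
      show (x : G) ∈ Subgroup.normalizer (P' : Set G)
      rw [Subgroup.mem_normalizer_iff]
      intro g
      rw [Subgroup.mem_normalizer_iff] at hx
      constructor
      · intro hg
        have hgQ : g ∈ (Q : Subgroup G) := hPQ hg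
        have := (hx ⟨g, hgQ⟩).mp (by rw [Subgroup.mem_subgroupOf]; exact hg)
        rw [Subgroup.mem_subgroupOf] at this
        simpa using this
      · intro hg
        have hgQ : g ∈ (Q : Subgroup G) := by
          have h1 : (x : G) * g * (x : G)⁻¹ ∈ (Q : Subgroup G) := hPQ hg
          have h2 := (Q : Subgroup G).mul_mem ((Q : Subgroup G).mul_mem ((Q : Subgroup G).inv_mem x.2) h1) x.2
          simpa [mul_assoc] using h2
        have := (hx ⟨g, hgQ⟩).mpr (by rw [Subgroup.mem_subgroupOf]; simpa using hg)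
        rw [Subgroup.mem_subgroupOf] at this
        exact this
    rw [hRP'] at hxR
    exact hxR
  have htop := hnc _ hself
  rw [Subgroup.subgroupOf_eq_top] at htop
  exact le_antisymm htop hPQ

end Cfsg.Agent.S1335
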