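import Cfsg.Statements.S1336
import Mathlib.Tactic.Group

set_option autoImplicit false
open Cfsg

namespace Cfsg.Agent.S1336

/-- Conjugate of a subgroup. -/
def cj {G : Type*} [Group G] (g : G) (B : Subgroup G) : Subgroup G :=
  B.map (MulAut.conj g).toMonoidHom

theorem mem_cj {G : Type*} [Group G] (g x : G) (B : Subgroup G) :
    x ∈ cj g B ↔ g⁻¹ * x * g ∈ B := by
  unfold cj
  constructor
  · rintro ⟨b, hb, rfl⟩
    simp only [MulEquiv.coe_toMonoidHom, MulAut.conj_apply]
    have : g⁻¹ * (g * b * g⁻¹) * g = b := by group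
    rw [this]; exact hb
  · intro h
    refine ⟨g⁻¹ * x * g, h, ?_⟩
    simp only [MulEquiv.coe_toMonoidHom, MulAut.conj_apply]
    group

theorem conj_mem_cj {G : Type*} [Group G] (g x : G) (B : Subgroup G) (hx : x ∈ B) :
    g * x * g⁻¹ ∈ cj g B := by
  rw [mem_cj]
  have : g⁻¹ * (g * x * g⁻¹) * g = x := by group
  rw [this]; exact hx

theorem cj_cj {G : Type*} [Group G] (g h : G) (B : Subgroup G) :
    cj g (cj h B) = cj (g * h) B := by
  ext x
  simp only [mem_cj]
  have : h⁻¹ * (g⁻¹ * x * g) * h = (g * h)⁻¹ * x * (g * h) := by group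
  rw [this]

theorem cj_one {G : Type*} [Group G] (B : Subgroup G) : cj 1 B = B := by
  ext x
  simp [mem_cj]

theorem cj_inv_cj {G : Type*} [Group G] (g : G) (B : Subgroup G) : cj g⁻¹ (cj g B) = B := by
  rw [cj_cj, inv_mul_cancel, cj_one]

theorem cj_cj_inv {G : Type*} [Group G] (g : G) (B : Subgroup G) : cj g (cj g⁻¹ B) = B := by
  rw [cj_cj, mul_inv_cancel, cj_one]

theorem card_cj {G : Type*} [Group G] (g : G) (B : Subgroup G) :
    Nat.card ↥(cj g B) = Nat.card ↥B :=
  (Nat.card_congr (B.equivMapOfInjective (MulAut.conj g).toMonoidHom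
    (MulAut.conj g).injective).toEquiv).symm

theorem elAb_cj {G : Type*} [Group G] (p : ℕ) (g : G) (B : Subgroup G)
    (hB : Cfsg.IsElementaryAbelian p B) : Cfsg.IsElementaryAbelian p (cj g B) := by
  refine ⟨IsMulCommutative.of_comm ?_, ?_⟩
  · rintro ⟨a, ha⟩ ⟨b, hb⟩
    apply Subtype.ext
    rw [mem_cj] at ha hb
    have h := congrArg Subtype.val ((isMulCommutative_iff.mp hB.1) ⟨_, ha⟩ ⟨_, hb⟩)
    simp only [Subgroup.coe_mul] at h
    change a * b = b * a
    calc a * b = g * ((g⁻¹ * a * g) * (g⁻¹ * b * g)) * g⁻¹ := by group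
      _ = g * ((g⁻¹ * b * g) * (g⁻¹ * a * g)) * g⁻¹ := by rw [h]
      _ = b * a := by group
  · intro a ha
    rw [mem_cj] at ha
    have h := hB.2 _ ha
    have e : a = g * (g⁻¹ * a * g) * g⁻¹ := by group
    rw [e, conj_pow, h]
    group

/-- The edge relation of the commuting graph. -/
def R {G : Type*} [Group G] (p : ℕ) (A B : Subgroup G) : Prop :=
  Cfsg.IsElementaryAbelian p A ∧ p ^ 1 ≤ Nat.card ↥A ∧ Cfsg.IsElementaryAbelian p B ∧
    p ^ 1 ≤ Nat.card ↥B ∧ ∀ a ∈ A, ∀ b ∈ B, a * b = b * a

theorem R_symm {G : Type*} [Group G] (p : ℕ) {A B : Subgroup G} (h : R p A B) : R p B A :=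
  ⟨h.2.2.1, h.2.2.2.1, h.1, h.2.1, fun b hb a ha => (h.2.2.2.2 a ha b hb).symm⟩

theorem R_cj {G : Type*} [Group G] (p : ℕ) (g : G) {A B : Subgroup G} (h : R p A B) :
    R p (cj g A) (cj g B) := by
  refine ⟨elAb_cj p g A h.1, by rw [card_cj]; exact h.2.1, elAb_cj p g B h.2.2.1,
    by rw [card_cj]; exact h.2.2.2.1, ?_⟩
  intro a ha b hb
  rw [mem_cj] at ha hb
  have h1 := h.2.2.2.2 _ ha _ hb
  calc a * b = g * ((g⁻¹ * a * g) * (g⁻¹ * b * g)) * g⁻¹ := by group
    _ = g * ((g⁻¹ * b * g) * (g⁻¹ * a * g)) * g⁻¹ := by rw [h1]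
    _ = b * a := by group

theorem RT_symm {G : Type*} [Group G] (p : ℕ) {A B : Subgroup G}
    (h : Relation.ReflTransGen (R p) A B) : Relation.ReflTransGen (R p) B A := by
  induction h with
  | refl => exact Relation.ReflTransGen.refl
  | tail _ hbc ih => exact Relation.ReflTransGen.head (R_symm p hbc) ih

theorem RT_cj {G : Type*} [Group G] (p : ℕ) (g : G) {A B : Subgroup G}
    (h : Relation.ReflTransGen (R p) A B) : Relation.ReflTransGen (R p) (cj g A) (cj g B) :=
  Relation.ReflTransGen.lift (cj g) (fun _ _ hab => R_cj p g hab) _ _ h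

/-- the cyclic subgroup generated by an element of order `p` is elementary abelian of order `p` -/
theorem elAb_zpowers {G : Type*} [Group G] (p : ℕ) (x : G) (hx : orderOf x = p) :
    Cfsg.IsElementaryAbelian p (Subgroup.zpowers x) ∧ Nat.card ↥(Subgroup.zpowers x) = p := by
  refine ⟨⟨inferInstance, ?_⟩, by rw [Nat.card_zpowers, hx]⟩
  intro a ha
  rw [Subgroup.mem_zpowers_iff] at ha
  obtain ⟨k, rfl⟩ := ha
  rw [← zpow_natCast, ← zpow_mul, mul_comm, zpow_mul, zpow_natCast, ← hx, pow_orderOf_eq_one, one_zpow]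

theorem dvd_card_of_elAb {G : Type*} [Group G] [Finite G] (p : ℕ) [hp : Fact p.Prime]
    (A : Subgroup G) (hA : Cfsg.IsElementaryAbelian p A) (hcard : p ^ 1 ≤ Nat.card ↥A) :
    p ∣ Nat.card ↥A := by
  have hAp : IsPGroup p ↥A := by
    intro a
    refine ⟨1, ?_⟩
    apply Subtype.ext
    simpa using hA.2 a a.2
  rcases hAp.card_eq_or_dvd with h | h
  · rw [h, pow_one] at hcard
    have := hp.out.two_le
    omega
  · exact h

/-- Let G be finite and p prime. Then G has a proper subgroup H with p ∣ |H| and p ∤ |H ∩ gHg⁻¹| for every g ∉ H (a strongly p-embedded subgroup) if and only if G is not 1-connected for p. -/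
theorem result {G : Type*} [Group G] [Finite G] (p : ℕ) [Fact p.Prime] : (∃ H : Subgroup G, H ≠ ⊤ ∧ p ∣ Nat.card ↥H ∧ ∀ g : G, g ∉ H → ¬ p ∣ Nat.card ↥(H ⊓ H.map (MulAut.conj g).toMonoidHom)) ↔ ¬ Cfsg.IsKConnected p 1 G := by
  have hp : p.Prime := Fact.out
  constructor
  · rintro ⟨H, hHtop, hpH, hH⟩ hconn
    -- element of order p in H
    obtain ⟨x, hx⟩ := exists_prime_orderOf_dvd_card' (G := ↥H) p hpH
    have hx' : orderOf (x : G) = p := by rw [Subgroup.orderOf_coe]; exact hx
    obtain ⟨g, hg⟩ : ∃ g : G, g ∉ H := by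
      by_contra hcon
      push Not at hcon
      exact hHtop (eq_top_iff.mpr fun y _ => hcon y)
    obtain ⟨hE, hEc⟩ := elAb_zpowers p (x : G) hx'
    have hgx : orderOf (g * (x : G) * g⁻¹) = p := by
      rw [← hx']
      exact orderOf_injective (MulAut.conj g).toMonoidHom (MulAut.conj g).injective (x : G)
    obtain ⟨hE', hEc'⟩ := elAb_zpowers p (g * (x : G) * g⁻¹) hgx
    have hchain := hconn (Subgroup.zpowers (x : G)) (Subgroup.zpowers (g * (x : G) * g⁻¹))
      hE (by rw [hEc, pow_one]) hE' (by rw [hEc', pow_one])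
    -- the component of a subgroup of H stays in H
    have hstay : ∀ B : Subgroup G, Relation.ReflTransGen (R p) (Subgroup.zpowers (x : G)) B →
        B ≤ H := by
      intro B hB
      induction hB with
      | refl => rw [Subgroup.zpowers_le]; exact x.2
      | @tail A B _ hbc ih =>
        intro b hb
        by_contra hbH
        apply hH b hbH
        have hAle : A ≤ H ⊓ H.map (MulAut.conj b).toMonoidHom := by
          intro a ha
          refine ⟨ih ha, ?_⟩
          refine ⟨a, ih ha, ?_⟩
          simp only [MulEquiv.coe_toMonoidHom, MulAut.conj_apply]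
          rw [← hbc.2.2.2.2 a ha b hb]
          group
        exact (dvd_card_of_elAb p A hbc.1 hbc.2.1).trans (Subgroup.card_dvd_of_le hAle)
    have hle := hstay _ hchain
    have hgxH : g * (x : G) * g⁻¹ ∈ H := hle (Subgroup.mem_zpowers _)
    apply hH g hg
    have hZle : Subgroup.zpowers (g * (x : G) * g⁻¹) ≤ H ⊓ H.map (MulAut.conj g).toMonoidHom := by
      rw [Subgroup.zpowers_le]
      refine ⟨hgxH, ⟨(x : G), x.2, ?_⟩⟩
      simp [MulAut.conj_apply]
    have := Subgroup.card_dvd_of_le hZle
    rwa [hEc'] at this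
  · intro hconn
    unfold Cfsg.IsKConnected at hconn
    push Not at hconn
    obtain ⟨E, E', hE, hEc, hE', hEc', hnot⟩ := hconn
    have hnot' : ¬ Relation.ReflTransGen (R p) E E' := hnot
    -- the stabilizer of the component of E
    have hkey : ∀ g : G, Relation.ReflTransGen (R p) E (cj g E) →
        ∀ B : Subgroup G, Relation.ReflTransGen (R p) E B ↔ Relation.ReflTransGen (R p) E (cj g B) := by
      intro g hg B
      constructor
      · intro hB
        exact hg.trans (RT_cj p g hB)
      · intro hB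
        have h1 : Relation.ReflTransGen (R p) (cj g E) (cj g B) := (RT_symm p hg).trans hB
        have h2 := RT_cj p g⁻¹ h1
        rwa [cj_inv_cj, cj_inv_cj] at h2
    let H : Subgroup G :=
      { carrier := {g | Relation.ReflTransGen (R p) E (cj g E)}
        one_mem' := by
          change Relation.ReflTransGen (R p) E (cj 1 E)
          rw [cj_one]
        mul_mem' := by
          intro g h hg hh
          change Relation.ReflTransGen (R p) E (cj (g * h) E)
          rw [← cj_cj]
          exact (hkey g hg _).mp hh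
        inv_mem' := by
          intro g hg
          change Relation.ReflTransGen (R p) E (cj g⁻¹ E)
          have := (hkey g hg (cj g⁻¹ E)).mpr (by rw [cj_cj_inv])
          exact this }
    have hHmem : ∀ g : G, g ∈ H ↔ Relation.ReflTransGen (R p) E (cj g E) := fun g => Iff.rfl
    have hEcomm : ∀ a ∈ E, ∀ b ∈ E, a * b = b * a := fun a ha b hb =>
      congrArg Subtype.val ((isMulCommutative_iff.mp hE.1) ⟨a, ha⟩ ⟨b, hb⟩)
    have hEH : E ≤ H := by
      intro e he
      rw [hHmem]
      have : cj e E = E := by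
        ext y
        rw [mem_cj]
        constructor
        · intro hy
          have := E.mul_mem (E.mul_mem he hy) (E.inv_mem he)
          simpa [mul_assoc] using this
        · intro hy
          exact E.mul_mem (E.mul_mem (E.inv_mem he) hy) he
      rw [this]
    have hpH : p ∣ Nat.card ↥H := (dvd_card_of_elAb p E hE hEc).trans (Subgroup.card_dvd_of_le hEH)
    -- every subgroup of order p of H is in the component of E
    have hall : ∀ y : G, y ∈ H → orderOf y = p →
        Relation.ReflTransGen (R p) E (Subgroup.zpowers y) := by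
      intro y hyH hy
      obtain ⟨hD, hDc⟩ := elAb_zpowers p y hy
      have hDH : Subgroup.zpowers y ≤ H := by rw [Subgroup.zpowers_le]; exact hyH
      have hDp : IsPGroup p ↥((Subgroup.zpowers y).subgroupOf H) := by
        apply IsPGroup.of_card (n := 1)
        rw [Nat.card_congr (Subgroup.subgroupOfEquivOfLe hDH).toEquiv, hDc, pow_one]
      have hEp : IsPGroup p ↥(E.subgroupOf H) := by
        intro a
        refine ⟨1, ?_⟩
        apply Subtype.ext
        apply Subtype.ext
        simpa using hE.2 _ a.2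
      obtain ⟨P, hDP⟩ := hDp.exists_le_sylow
      obtain ⟨P', hEP'⟩ := hEp.exists_le_sylow
      obtain ⟨h, rfl⟩ := MulAction.exists_smul_eq ↥H P P'
      -- a central element of order p of P
      have hyP : (⟨y, hyH⟩ : ↥H) ∈ (P : Subgroup ↥H) := hDP (by
        rw [Subgroup.mem_subgroupOf]; exact Subgroup.mem_zpowers y)
      have : Nontrivial ↥(P : Subgroup ↥H) := by
        refine ⟨⟨⟨⟨y, hyH⟩, hyP⟩, 1, ?_⟩⟩
        intro h1
        have h2 : y = 1 := congrArg (fun t : ↥(P : Subgroup ↥H) => ((t : ↥H) : G)) h1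
        rw [h2, orderOf_one] at hy
        exact hp.one_lt.ne hy
      have := P.isPGroup'.center_nontrivial
      have hpc : p ∣ Nat.card ↥(Subgroup.center ↥(P : Subgroup ↥H)) := by
        have hcp : IsPGroup p ↥(Subgroup.center ↥(P : Subgroup ↥H)) := P.isPGroup'.to_subgroup _
        rcases hcp.card_eq_or_dvd with h1 | h1
        · have h2 : 1 < Nat.card ↥(Subgroup.center ↥(P : Subgroup ↥H)) := Finite.one_lt_card
          omega
        · exact h1
      obtain ⟨z, hz⟩ := exists_prime_orderOf_dvd_card' (G := ↥(Subgroup.center ↥(P : Subgroup ↥H))) p hpc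
      set z₀ : G := (((z : ↥(P : Subgroup ↥H)) : ↥H) : G) with hz₀
      have hz₀ord : orderOf z₀ = p := by
        rw [hz₀, Subgroup.orderOf_coe, Subgroup.orderOf_coe, Subgroup.orderOf_coe]; exact hz
      have hz₀H : z₀ ∈ H := ((z : ↥(P : Subgroup ↥H)) : ↥H).2
      obtain ⟨hZ, hZc⟩ := elAb_zpowers p z₀ hz₀ord
      -- z₀ commutes with every element of P
      have hzcomm : ∀ u : G, ∀ huH : u ∈ H, (⟨u, huH⟩ : ↥H) ∈ (P : Subgroup ↥H) → u * z₀ = z₀ * u := by
        intro u huH huP
        have h1 := Subgroup.mem_center_iff.mp z.2 ⟨⟨u, huH⟩, huP⟩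
        have h2 := congrArg (fun t : ↥(P : Subgroup ↥H) => ((t : ↥H) : G)) h1
        exact h2
      -- zpowers y is adjacent to zpowers z₀
      have hR1 : R p (Subgroup.zpowers y) (Subgroup.zpowers z₀) := by
        refine ⟨hD, by rw [hDc, pow_one], hZ, by rw [hZc, pow_one], ?_⟩
        intro a ha b hb
        rw [Subgroup.mem_zpowers_iff] at ha hb
        obtain ⟨i, rfl⟩ := ha
        obtain ⟨j, rfl⟩ := hb
        have : Commute y z₀ := hzcomm y hyH hyP
        exact (this.zpow_zpow i j).eq
      -- E is adjacent to the conjugate of zpowers z₀ by h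
      have hR2 : R p E (cj (h : G) (Subgroup.zpowers z₀)) := by
        refine ⟨hE, hEc, elAb_cj p _ _ hZ, by rw [card_cj, hZc, pow_one], ?_⟩
        intro e he b hb
        rw [mem_cj, Subgroup.mem_zpowers_iff] at hb
        obtain ⟨j, hj⟩ := hb
        have heH : e ∈ H := hEH he
        have heP : (⟨e, heH⟩ : ↥H) ∈ ((h • P : Sylow p ↥H) : Subgroup ↥H) :=
          hEP' (by rw [Subgroup.mem_subgroupOf]; exact he)
        rw [Sylow.coe_subgroup_smul, Subgroup.mem_pointwise_smul_iff_inv_smul_mem] at heP
        have heP' : (⟨(h : G)⁻¹ * e * (h : G), H.mul_mem (H.mul_mem (H.inv_mem h.2) heH) h.2⟩ : ↥H)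
            ∈ (P : Subgroup ↥H) := by
          convert heP using 1
          apply Subtype.ext
          simp [MulAut.smul_def, MulAut.conj_apply]
        have hc : Commute ((h : G)⁻¹ * e * (h : G)) z₀ := hzcomm _ _ heP'
        have hc' := (hc.zpow_right j).eq
        rw [hj] at hc'
        calc e * b = (h : G) * (((h : G)⁻¹ * e * (h : G)) * ((h : G)⁻¹ * b * (h : G))) * (h : G)⁻¹ := by group
          _ = (h : G) * (((h : G)⁻¹ * b * (h : G)) * ((h : G)⁻¹ * e * (h : G))) * (h : G)⁻¹ := by rw [hc']
          _ = b * e := by group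
      -- conjugate back with h⁻¹ ∈ H
      have h3 : Relation.ReflTransGen (R p) E (cj (h : G) (Subgroup.zpowers z₀)) :=
        Relation.ReflTransGen.single hR2
      have hh : Relation.ReflTransGen (R p) E (cj (h : G) E) := (hHmem _).mp h.2
      have h4 : Relation.ReflTransGen (R p) E (Subgroup.zpowers z₀) := (hkey (h : G) hh _).mpr h3
      exact h4.tail (R_symm p hR1)
    refine ⟨H, ?_, hpH, ?_⟩
    · -- H ≠ ⊤
      intro htop
      apply hnot'
      -- E' contains an element of order p, adjacent to E'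
      have hpE' := dvd_card_of_elAb p E' hE' hEc'
      obtain ⟨w, hw⟩ := exists_prime_orderOf_dvd_card' (G := ↥E') p hpE'
      have hw' : orderOf (w : G) = p := by rw [Subgroup.orderOf_coe]; exact hw
      have h1 := hall (w : G) (by rw [htop]; trivial) hw'
      obtain ⟨hW, hWc⟩ := elAb_zpowers p (w : G) hw'
      have hR : R p (Subgroup.zpowers (w : G)) E' := by
        refine ⟨hW, by rw [hWc, pow_one], hE', hEc', ?_⟩
        intro a ha b hb
        have haE' : a ∈ E' := (Subgroup.zpowers_le.mpr w.2) ha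
        exact congrArg Subtype.val ((isMulCommutative_iff.mp hE'.1) ⟨a, haE'⟩ ⟨b, hb⟩)
      exact h1.tail hR
    · intro g hg hdvd
      apply hg
      rw [hHmem]
      obtain ⟨y, hy⟩ := exists_prime_orderOf_dvd_card'
        (G := ↥(H ⊓ H.map (MulAut.conj g).toMonoidHom)) p hdvd
      have hy' : orderOf (y : G) = p := by rw [Subgroup.orderOf_coe]; exact hy
      have hyH : (y : G) ∈ H := y.2.1
      have hyHg : g⁻¹ * (y : G) * g ∈ H := by
        have := y.2.2
        obtain ⟨u, hu, hu'⟩ := this
        simp only [MulEquiv.coe_toMonoidHom, MulAut.conj_apply] at hu'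
        rw [← hu']
        have : g⁻¹ * (g * u * g⁻¹) * g = u := by group
        rw [this]; exact hu
      have hord2 : orderOf (g⁻¹ * (y : G) * g) = p := by
        rw [← hy']
        have := orderOf_injective (MulAut.conj g⁻¹).toMonoidHom (MulAut.conj g⁻¹).injective (y : G)
        simpa [MulAut.conj_apply] using this
      have h1 := hall (y : G) hyH hy'
      have h2 := hall _ hyHg hord2
      have h3 := RT_cj p g h2
      have h4 : cj g (Subgroup.zpowers (g⁻¹ * (y : G) * g)) = Subgroup.zpowers (y : G) := by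
        unfold cj
        rw [MonoidHom.map_zpowers]
        congr 1
        simp only [MulEquiv.coe_toMonoidHom, MulAut.conj_apply]
        group
      rw [h4] at h3
      exact h1.trans (RT_symm p h3)

end Cfsg.Agent.S1336
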