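-- Statement S1343: L*_{2'}(X) = L_{2'}(X) F with F of odd order normalized by a Sylow 2-subgroup.
import Cfsg.Statements.S1343
import Cfsg.Agent.H29.Cores

set_option autoImplicit false
open Cfsg

namespace Cfsg.Agent.S1343

theorem map_conj_inf_eq {X : Type*} [Group X] (S' N : Subgroup X) [hNn : N.Normal] {s : X}
    (hs : s ∈ S') : (S' ⊓ N).map (MulAut.conj s).toMonoidHom = S' ⊓ N := by
  apply le_antisymm
  · rintro _ ⟨y, hy, rfl⟩
    rw [SetLike.mem_coe] at hy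
    rw [Subgroup.mem_inf] at hy ⊢
    obtain ⟨hyS, hyN⟩ := hy
    refine ⟨?_, ?_⟩
    · simp only [MulEquiv.coe_toMonoidHom, MulAut.conj_apply]
      exact mul_mem (mul_mem hs hyS) (inv_mem hs)
    · simp only [MulEquiv.coe_toMonoidHom, MulAut.conj_apply]
      exact hNn.conj_mem _ hyN s
  · intro x hx
    rw [Subgroup.mem_inf] at hx
    obtain ⟨hxS, hxN⟩ := hx
    refine ⟨s⁻¹ * x * s, ?_, ?_⟩
    · rw [SetLike.mem_coe, Subgroup.mem_inf]
      refine ⟨mul_mem (mul_mem (inv_mem hs) hxS) hs, ?_⟩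
      have := hNn.conj_mem _ hxN s⁻¹
      simpa using this
    · simp only [MulEquiv.coe_toMonoidHom, MulAut.conj_apply]
      group

/-- Let X be finite. Then L*_{2'}(X) = L_{2'}(X) ⊔ F for some subgroup F of odd order normalized by a Sylow 2-subgroup of X. -/
theorem result {X : Type*} [Group X] [Finite X] : ∃ F : Subgroup X, Odd (Nat.card ↥F) ∧ (∃ S : Sylow 2 X, (S : Subgroup X) ≤ Subgroup.normalizer (F : Set X)) ∧ Cfsg.extendedTwoLayer X = Cfsg.pLayer 2 X ⊔ F := by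
  have hL : (pLayer 2 X).Normal := H29.pLayer_normal 2 X
  have hQ : (pPrimePCore 2 X).Normal := H29.pPrimePCore_normal 2 X
  have hNn : (pLayer 2 X ⊔ pPrimePCore 2 X).Normal := inferInstance
  obtain ⟨T⟩ : Nonempty (Sylow 2 ↥(pLayer 2 X ⊔ pPrimePCore 2 X)) := inferInstance
  obtain ⟨S, hS⟩ := Sylow.exists_comap_subtype_eq T
  have hP : (T : Subgroup ↥(pLayer 2 X ⊔ pPrimePCore 2 X)).map (pLayer 2 X ⊔ pPrimePCore 2 X).subtype =
      (S : Subgroup X) ⊓ (pLayer 2 X ⊔ pPrimePCore 2 X) := by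
    rw [← hS]
    exact Subgroup.subgroupOf_map_subtype _ _
  refine ⟨oddCore X ⊔ H29.coreCent ((T : Subgroup ↥(pLayer 2 X ⊔ pPrimePCore 2 X)).map
      (pLayer 2 X ⊔ pPrimePCore 2 X).subtype), ?_, ⟨S, ?_⟩, ?_⟩
  · rw [sup_comm]
    have h1 := H29.card_sup_coprime (H29.coreCent ((T : Subgroup ↥(pLayer 2 X ⊔ pPrimePCore 2 X)).map
      (pLayer 2 X ⊔ pPrimePCore 2 X).subtype)) (oddCore X) (n := 2)
      (Nat.Coprime.symm (Nat.coprime_two_left.mpr (H29.odd_card_coreCent _)))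
      (H29.pPrimeCore_card_coprime 2 X)
    exact Nat.Coprime.odd_of_right h1
  · intro s hs
    rw [Subgroup.mem_normalizer_iff_map_conj_eq]
    have hPs : ((T : Subgroup ↥(pLayer 2 X ⊔ pPrimePCore 2 X)).map
        (pLayer 2 X ⊔ pPrimePCore 2 X).subtype).map (MulAut.conj s).toMonoidHom =
        (T : Subgroup ↥(pLayer 2 X ⊔ pPrimePCore 2 X)).map (pLayer 2 X ⊔ pPrimePCore 2 X).subtype := by
      rw [hP]
      exact map_conj_inf_eq (S : Subgroup X) _ hs
    have h2 : (oddCore X ⊔ H29.coreCent ((T : Subgroup ↥(pLayer 2 X ⊔ pPrimePCore 2 X)).map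
        (pLayer 2 X ⊔ pPrimePCore 2 X).subtype)).map (MulAut.conj s).toMonoidHom =
        oddCore X ⊔ H29.coreCent ((T : Subgroup ↥(pLayer 2 X ⊔ pPrimePCore 2 X)).map
        (pLayer 2 X ⊔ pPrimePCore 2 X).subtype) := by
      rw [Subgroup.map_sup, H29.coreCent_map_equiv, hPs]
      congr 1
      exact Subgroup.Normal.map_conj_eq (H := oddCore X) s
    exact h2
  · rw [H29.extendedTwoLayer_eq_of_sylow T, sup_assoc]

end Cfsg.Agent.S1343
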