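import Cfsg.Statements.S1348
import Cfsg.Agent.H29.SLStd

set_option autoImplicit false
open Cfsg

namespace Cfsg.Agent.S1348

/-- Let F be a finite field of odd order, n ≥ 7 odd, and t ∈ SL(n, F) the diagonal matrix with entries −1, …, −1, 1. Then E(C(t)) is a standard subgroup of SL(n, F). -/
theorem result {F : Type*} [Field F] [Fintype F] [DecidableEq F] (hF : Odd (Fintype.card F)) (n : ℕ) (hn : 7 ≤ n) (hodd : Odd n) (t : Matrix.SpecialLinearGroup (Fin n) F) (ht : (t : Matrix (Fin n) (Fin n) F) = Matrix.diagonal (fun i : Fin n => if (i : ℕ) + 1 = n then (1 : F) else -1)) : Cfsg.IsStandardSubgroup ((Cfsg.layer ↥(Subgroup.centralizer ({t} : Set (Matrix.SpecialLinearGroup (Fin n) F)))).map (Subgroup.centralizer ({t} : Set (Matrix.SpecialLinearGroup (Fin n) F))).subtype) := by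
  obtain ⟨m, rfl⟩ : ∃ m, n = m + 1 := ⟨n - 1, by omega⟩
  have hm6 : 6 ≤ m := by omega
  have hmeven : Even m := by
    rcases Nat.even_or_odd m with h | h
    · exact h
    · exact absurd hodd (Nat.not_odd_iff_even.mpr h.add_one)
  have h2 : (2 : F) ≠ 0 := by
    intro h
    have hc : ringChar F = 2 :=
      CharP.ringChar_of_prime_eq_zero Nat.prime_two (by exact_mod_cast h)
    have h3 := FiniteField.even_card_of_char_two hc
    have h4 := Nat.odd_iff.mp hF
    omega
  have ht' : t.1 = Matrix.diagonal (Cfsg.Agent.H29.tdiag (F := F) (m + 1)) := ht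
  have hqSL : IsQuasisimple (Matrix.SpecialLinearGroup (Fin m) F) :=
    ⟨⟨Cfsg.Agent.H6.commutator_sl_eq_top m (by omega)⟩,
      Cfsg.Agent.H6.psl_isSimpleGroup m (by omega)⟩
  have hq : IsQuasisimple ↥(Cfsg.Agent.H29.embSL (F := F) (m := m)).range :=
    Cfsg.Agent.H27.quasisimple_of_mulEquiv
      (MonoidHom.ofInjective Cfsg.Agent.H29.embSL_injective) hqSL
  have hSC := Cfsg.Agent.H29.range_embSL_le_centralizer h2 ht'
  have hCN := Cfsg.Agent.H29.centralizer_le_normalizer_range_embSL h2 ht'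
  have hcomm : ∀ a ∈ Subgroup.centralizer
      (((Cfsg.Agent.H29.embSL (F := F) (m := m)).range : Subgroup _) : Set _),
      ∀ b ∈ Subgroup.centralizer
      (((Cfsg.Agent.H29.embSL (F := F) (m := m)).range : Subgroup _) : Set _), a * b = b * a :=
    fun a ha b hb => Cfsg.Agent.H29.centralizer_range_embSL_comm h2 ht' ha hb
  have hinv : ∀ u ∈ Subgroup.centralizer
      (((Cfsg.Agent.H29.embSL (F := F) (m := m)).range : Subgroup _) : Set _),
      u * u = 1 → u ≠ 1 → u = t :=
    fun u hu huu hu1 =>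
      Cfsg.Agent.H29.centralizer_range_embSL_invol h2 ht' hmeven (by omega) hu huu hu1
  have ht2 : orderOf t = 2 := by
    have htt : t * t = 1 := by
      apply Subtype.ext
      show t.1 * t.1 = 1
      rw [ht', Cfsg.Agent.H29.diagonal_tdiag_eq_blk, Cfsg.Agent.H29.blk_mul]
      simp [Cfsg.Agent.H29.blk_one]
    have ht1 : t ≠ 1 := by
      intro h
      have h3 : t.1 (Fin.castSucc ⟨0, by omega⟩) (Fin.castSucc ⟨0, by omega⟩) = (1 : F) := by
        rw [h]; exact Matrix.one_apply_eq _
      rw [ht', Matrix.diagonal_apply_eq, Cfsg.Agent.H29.tdiag_castSucc] at h3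
      apply h2
      linear_combination -h3
    exact orderOf_eq_prime (by rw [pow_two]; exact htt) ht1
  rw [Cfsg.Agent.H29.layer_centralizer_eq_of_data _ t hq hSC hCN hcomm]
  exact Cfsg.Agent.H29.isStandardSubgroup_of_data _ t hq hSC hCN ht2 hcomm hinv

end Cfsg.Agent.S1348
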