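import Cfsg.Statements.S1358
-- import your own Cfsg.Agent.* helpers here
import Cfsg.Agent.H73.BG129A
import Cfsg.Agent.H63.BG125Main
import Cfsg.Agent.H58.BG10All2
import Cfsg.Agent.H92.BG123

set_option autoImplicit false
open Cfsg

namespace Cfsg.Agent.S1358

/-- `PRankLE` passes to the source of an injective homomorphism. -/
theorem pRankLE_of_injective_h29 {H K : Type*} [Group H] [Group K] (f : H →* K)
    (hf : Function.Injective f) {p k : ℕ} (h : Cfsg.PRankLE p k K) : Cfsg.PRankLE p k H := by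
  intro A hA hAp
  have h1 : Nat.card ↥(A.map f) = Nat.card ↥A := Subgroup.card_map_of_injective hf
  rw [← h1]
  refine h (A.map f) ⟨⟨fun a b => ?_⟩⟩ ?_
  · obtain ⟨a, ha⟩ := a
    obtain ⟨b, hb⟩ := b
    obtain ⟨a', ha', rfl⟩ := Subgroup.mem_map.mp ha
    obtain ⟨b', hb', rfl⟩ := Subgroup.mem_map.mp hb
    apply Subtype.ext
    show f a' * f b' = f b' * f a'
    rw [← map_mul, ← map_mul]
    exact congrArg f (congrArg Subtype.val (hA.1.1 ⟨a', ha'⟩ ⟨b', hb'⟩))
  · intro a ha
    obtain ⟨a', ha', rfl⟩ := Subgroup.mem_map.mp ha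
    rw [← map_pow, hAp a' ha', map_one]

/-- Let G be a minimal simple group of odd order and M a maximal subgroup with standard factorisation M = K U M_σ. Then for every prime p, every Sylow p-subgroup of U is abelian and has no elementary abelian subgroup of order p ^ 3. -/
theorem result {G : Type*} [Group G] [Finite G] (hG : Cfsg.IsMinSimpleOddOrder G)
    (M : Subgroup G) (hM : IsCoatom M) (K U : Subgroup G) (hKU : Cfsg.IsSigmaDecomposition M K U) :
    ∀ (p : ℕ), p.Prime → ∀ P : Sylow p U, IsMulCommutative (P : Subgroup U) ∧ Cfsg.PRankLE p 2 (P : Subgroup U) := by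
  intro p hp P
  haveI : Fact p.Prime := ⟨hp⟩
  have hUM : U ≤ M := hKU.compl.1
  have hdisj : U ⊓ (K ⊔ sigmaCore M) = ⊥ := hKU.compl.2.2.1
  set P' : Subgroup G := (P : Subgroup U).map U.subtype with hP'
  have hP'p : IsPGroup p ↥P' := P.isPGroup'.map _
  have hP'U : P' ≤ U := Subgroup.map_subtype_le _
  have hP'M : P' ≤ M := hP'U.trans hUM
  by_cases hpσ : p ∈ sigma M
  · -- then `P' ≤ M_σ ∩ U = 1`
    have h1 : P' ≤ sigmaCore M :=
      Cfsg.Agent.H92.BG12.le_sigmaCore_of_mem (Cfsg.Agent.H58.BG10.st1350 hG) hM hpσ hP'p hP'M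
    have h2 : P' = ⊥ := by
      rw [eq_bot_iff, ← hdisj]
      exact le_inf hP'U (h1.trans le_sup_right)
    have h3 : (P : Subgroup U) = ⊥ := by
      rw [eq_bot_iff]
      intro x hx
      have hx' : (x : G) ∈ P' := Subgroup.mem_map_of_mem U.subtype hx
      rw [h2, Subgroup.mem_bot] at hx'
      rw [Subgroup.mem_bot]
      exact Subtype.ext hx'
    have hsub : Subsingleton ↥(P : Subgroup U) := by
      rw [h3]; infer_instance
    refine ⟨⟨⟨fun a b => Subsingleton.elim _ _⟩⟩, ?_⟩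
    intro A _ _
    have : Nat.card ↥A = 1 := Nat.card_eq_one_iff_unique.mpr ⟨inferInstance, ⟨1⟩⟩
    rw [this]
    exact Nat.one_le_pow _ _ hp.pos
  · -- `p ∉ σ(M)`
    have h96 := Cfsg.Agent.H58.BG10.st1403 hG
    have ha : Cfsg.Agent.H57.BG12.St1420a G :=
      Cfsg.Agent.H73.BG12.bg129a hG h96 (Cfsg.Agent.H63.BG11.st1417 hG)
    have hcomm : IsMulCommutative ↥P' := by
      refine ha M hM P' hP'M hP'p.isNilpotent ?_
      intro q hq hqd hqσ
      obtain ⟨n, hn⟩ := IsPGroup.iff_card.mp hP'p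
      rw [hn] at hqd
      have : q = p := (Nat.prime_dvd_prime_iff_eq hq hp).mp (hq.dvd_of_dvd_pow hqd)
      exact hpσ (this ▸ hqσ)
    refine ⟨⟨⟨fun a b => ?_⟩⟩, ?_⟩
    · obtain ⟨a, ha'⟩ := a
      obtain ⟨b, hb'⟩ := b
      have := hcomm.1.1 ⟨(a : G), Subgroup.mem_map_of_mem U.subtype ha'⟩
        ⟨(b : G), Subgroup.mem_map_of_mem U.subtype hb'⟩
      have h4 : (a : G) * (b : G) = (b : G) * (a : G) := congrArg Subtype.val this
      exact Subtype.ext (Subtype.ext h4)
    · have hpα : p ∉ alpha M := fun h =>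
        hpσ (Cfsg.Agent.H58.BG10.alpha_subset_sigma hG h96 hM h)
      have hrM : Cfsg.PRankLE p 2 ↥M := by
        by_contra hcon
        exact hpα ⟨hp, hcon⟩
      refine pRankLE_of_injective_h29
        ((Subgroup.inclusion hUM).comp (P : Subgroup U).subtype) ?_ hrM
      exact (Subgroup.inclusion_injective hUM).comp (Subgroup.subtype_injective _)

end Cfsg.Agent.S1358
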