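import Cfsg.Statements.S1374
import Cfsg.Agent.Lib.Helper30.BG144
import Cfsg.Agent.S1378
import Cfsg.Agent.H47.BG1216E1
import Cfsg.Agent.H57.BG129Main
import Cfsg.Agent.H57.BG129Hall
import Cfsg.Agent.H63.BG125Main
import Cfsg.Agent.H58.BG10All
import Cfsg.Agent.H58.BG10All2

set_option autoImplicit false
open Cfsg

namespace Cfsg.Agent.S1374

/-- Let G be a minimal simple group of odd order, M a maximal subgroup and x a non-identity element of M_σ. Then C_M(x) has order coprime to its index in C_G(x), and C_G(x) has a normal subgroup R complementing C_M(x) such that for every conjugate gMg⁻¹ containing x there is exactly one r ∈ R with rMr⁻¹ = gMg⁻¹. -/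
theorem result {G : Type*} [Group G] [Finite G] (hG : Cfsg.IsMinSimpleOddOrder G)
    (M : Subgroup G) (hM : IsCoatom M) (x : G) (hx : x ∈ Cfsg.sigmaCore M) (hx1 : x ≠ 1) :
    (Nat.card ↥(M ⊓ Subgroup.centralizer ({x} : Set G))).Coprime ((M ⊓ Subgroup.centralizer ({x} : Set G)).relIndex (Subgroup.centralizer ({x} : Set G))) ∧
      ∃ R : Subgroup G, Subgroup.centralizer ({x} : Set G) ≤ Subgroup.normalizer (R : Set G) ∧ Cfsg.IsComplIn (M ⊓ Subgroup.centralizer ({x} : Set G)) R (Subgroup.centralizer ({x} : Set G)) ∧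
        ∀ g : G, x ∈ M.map (MulAut.conj g).toMonoidHom → ∃! r : G, r ∈ R ∧ M.map (MulAut.conj r).toMonoidHom = M.map (MulAut.conj g).toMonoidHom := by
  have h50 := Cfsg.Agent.H58.BG10.st1350 hG
  have h03 := Cfsg.Agent.H58.BG10.st1403 hG
  have h04 := Cfsg.Agent.H58.BG10.st1404 hG
  have h16 := Cfsg.Agent.H63.BG11.st1416 hG
  have h17 := Cfsg.Agent.H63.BG11.st1417 hG
  have h18 := Cfsg.Agent.H57.BG12.st1418_of hG h16 h17
  have h20c := Cfsg.Agent.Lib.Helper30.BG12.bg129c hG h04 h16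
  have h24 := Cfsg.Agent.H76.BG12.bgEmbed h04 h20c
  have hSC := Cfsg.Agent.H57.BG12Hall.sigConj hG h50
  have hE1 := Cfsg.Agent.H47.BG12.embE1 hG h50 h03 h17 h18 h20c hSC
  have hPart : Cfsg.Agent.Lib.Helper30.BG144.StPart G := (Cfsg.Agent.S1378.result hG).2
  exact Cfsg.Agent.Lib.Helper30.BG144.centStruct hG h50 h04 h24 hE1 hPart M hM x hx hx1

end Cfsg.Agent.S1374
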