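import Cfsg.Statements.S1375
import Cfsg.Agent.Lib.Helper30.BG144b
import Cfsg.Agent.S1378
import Cfsg.Agent.H47.BG1216E1
import Cfsg.Agent.H57.BG129Main
import Cfsg.Agent.H57.BG129Hall
import Cfsg.Agent.H63.BG125Main
import Cfsg.Agent.H58.BG10All
import Cfsg.Agent.H58.BG10All2

set_option autoImplicit false
open Cfsg

namespace Cfsg.Agent.S1375

/-- Let G be a minimal simple group of odd order, M a maximal subgroup, x ≠ 1 in M_σ with C_G(x) not contained in M. Then exactly one maximal subgroup N contains C_G(x); for it N_σ = N_F, C_{N_σ}(x) is a normal subgroup of C_G(x) complementing C_M(x), M ∩ N is a complement to N_σ in N, and for every standard factorisation N = K' U' N_σ one has U' ≠ 1 and x ∈ A(N) with x ∉ N_σ. -/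
theorem result {G : Type*} [Group G] [Finite G] (hG : Cfsg.IsMinSimpleOddOrder G)
    (M : Subgroup G) (hM : IsCoatom M) (x : G) (hx : x ∈ Cfsg.sigmaCore M) (hx1 : x ≠ 1) (hxM : ¬ Subgroup.centralizer ({x} : Set G) ≤ M) :
    ∃ N : Subgroup G, (IsCoatom N ∧ Subgroup.centralizer ({x} : Set G) ≤ N) ∧ (∀ L : Subgroup G, IsCoatom L → Subgroup.centralizer ({x} : Set G) ≤ L → L = N) ∧
        Cfsg.sigmaCore N = Cfsg.fittingHallOf N ∧
        Subgroup.centralizer ({x} : Set G) ≤ Subgroup.normalizer ((Cfsg.sigmaCore N ⊓ Subgroup.centralizer ({x} : Set G) : Subgroup G) : Set G) ∧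
        Cfsg.IsComplIn (M ⊓ Subgroup.centralizer ({x} : Set G)) (Cfsg.sigmaCore N ⊓ Subgroup.centralizer ({x} : Set G)) (Subgroup.centralizer ({x} : Set G)) ∧
        Cfsg.IsComplIn (M ⊓ N) (Cfsg.sigmaCore N) N ∧
        ∀ K' U' : Subgroup G, Cfsg.IsSigmaDecomposition N K' U' → U' ≠ ⊥ ∧ x ∈ Cfsg.sigmaA N U' ∧ x ∉ Cfsg.sigmaCore N := by
  have h50 := Cfsg.Agent.H58.BG10.st1350 hG
  have h03 := Cfsg.Agent.H58.BG10.st1403 hG
  have h04 := Cfsg.Agent.H58.BG10.st1404 hG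
  have h09 := Cfsg.Agent.H58.BG10.st1409 hG
  have h16 := Cfsg.Agent.H63.BG11.st1416 hG
  have h17 := Cfsg.Agent.H63.BG11.st1417 hG
  have h18 := Cfsg.Agent.H57.BG12.st1418_of hG h16 h17
  have h20 := Cfsg.Agent.H57.BG12.st1420_of hG h16 h17
  have h20c := Cfsg.Agent.Lib.Helper30.BG12.bg129c hG h04 h16
  have h24 := Cfsg.Agent.H76.BG12.bgEmbed h04 h20c
  have hSC := Cfsg.Agent.H57.BG12Hall.sigConj hG h50
  have hE1 := Cfsg.Agent.H47.BG12.embE1 hG h50 h03 h17 h18 h20c hSC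
  have hPart : Cfsg.Agent.Lib.Helper30.BG144.StPart G := (Cfsg.Agent.S1378.result hG).2
  exact Cfsg.Agent.Lib.Helper30.BG144.centUniq hG h50 h09 h20 h24 hE1 hPart M hM x hx hx1 hxM

end Cfsg.Agent.S1375
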