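import Cfsg.Statements.S1377
import Cfsg.Agent.Lib.Helper30.BG144c
import Cfsg.Agent.S1378
import Cfsg.Agent.H47.BG1216E1
import Cfsg.Agent.H57.BG129Main
import Cfsg.Agent.H57.BG129Hall
import Cfsg.Agent.H63.BG125Main
import Cfsg.Agent.H58.BG10All
import Cfsg.Agent.H58.BG10All2

set_option autoImplicit false
open Cfsg

namespace Cfsg.Agent.S1377

/-- Let G be a minimal simple group of odd order and M a maximal subgroup. For x ≠ 1 in M_σ let R(x) = 1 if C_G(x) ≤ M and otherwise R(x) = C_{N_F}(x) for the unique maximal subgroup N containing C_G(x). Then the union over G-conjugates of the cosets x R(x) has cardinality (#M_σ − 1) times the index of M. -/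
theorem result {G : Type*} [Group G] [Finite G] (hG : Cfsg.IsMinSimpleOddOrder G)
    (M : Subgroup G) (hM : IsCoatom M) :
    Set.ncard (Cfsg.tildeOf M ((Cfsg.sigmaCore M : Set G) \ {1})) = (Nat.card (Cfsg.sigmaCore M) - 1) * M.index := by
  have h50 := Cfsg.Agent.H58.BG10.st1350 hG
  have h03 := Cfsg.Agent.H58.BG10.st1403 hG
  have h04 := Cfsg.Agent.H58.BG10.st1404 hG
  have h09 := Cfsg.Agent.H58.BG10.st1409 hG
  have h16 := Cfsg.Agent.H63.BG11.st1416 hG
  have h17 := Cfsg.Agent.H63.BG11.st1417 hG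
  have h18 := Cfsg.Agent.H57.BG12.st1418_of hG h16 h17
  have h20 := Cfsg.Agent.H57.BG12.st1420_of hG h16 h17
  have h20c := Cfsg.Agent.Lib.Helper30.BG12.bg129c hG h04 h16
  have h24 := Cfsg.Agent.H76.BG12.bgEmbed h04 h20c
  have hSC := Cfsg.Agent.H57.BG12Hall.sigConj hG h50
  have hE1 := Cfsg.Agent.H47.BG12.embE1 hG h50 h03 h17 h18 h20c hSC
  have hPart : Cfsg.Agent.Lib.Helper30.BG144.StPart G := (Cfsg.Agent.S1378.result hG).2
  exact Cfsg.Agent.Lib.Helper30.BG144.tildeCount hG h50 h04 h09 h20 h24 hE1 hPart M hM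

end Cfsg.Agent.S1377
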