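import Cfsg.Statements.S1386
import Cfsg.Agent.H29.Basic

set_option autoImplicit false
open Cfsg

namespace Cfsg.Agent.S1386

/-- Let G be a finite group, W₁, W₂ subgroups forming a self-normalizing cyclic pair, S a subgroup with W₂ ≤ S and W₁ a complement to S' in S, and (W₁, U, W₂') type-P data for S. Then W₂' = W₂ (that is, C_{S'}(W₁) = W₂). -/
theorem result {G : Type*} [Group G] [Finite G] (W₁ W₂ S U W₂' : Subgroup G) (hW : Cfsg.IsSelfNormalizingCyclic W₁ W₂)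
    (hSW : Cfsg.IsComplIn ⁅S, S⁆ W₁ S) (hW₂S : W₂ ≤ S) (hP : Cfsg.IsTypePWith S W₁ U W₂') :
    W₂' = W₂ := by
  obtain ⟨hW₁ne, hW₂ne, hdisj, hcomm, hcyc, hnorm⟩ := hW
  obtain ⟨-, hW₂'ne, hdisj', hcomm', hcyc', hnorm'⟩ := hP.selfNormalizing
  -- nontrivial elements
  obtain ⟨w₁, hw₁1⟩ := (Subgroup.ne_bot_iff_exists_ne_one.mp hW₁ne)
  obtain ⟨w₂, hw₂1⟩ := (Subgroup.ne_bot_iff_exists_ne_one.mp hW₂ne)
  obtain ⟨w₂', hw₂'1⟩ := (Subgroup.ne_bot_iff_exists_ne_one.mp hW₂'ne)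
  have hw₁1' : (w₁ : G) ≠ 1 := fun h => hw₁1 (Subtype.ext h)
  have hw₂1' : (w₂ : G) ≠ 1 := fun h => hw₂1 (Subtype.ext h)
  have hw₂'1' : (w₂' : G) ≠ 1 := fun h => hw₂'1 (Subtype.ext h)
  -- commutativity of the cyclic joins
  have hcommW : ∀ x ∈ W₁ ⊔ W₂, ∀ y ∈ W₁ ⊔ W₂, x * y = y * x := by
    intro x hx y hy
    have := isMulCommutative_iff.mp (IsCyclic.isMulCommutative (α := ↥(W₁ ⊔ W₂))) ⟨x, hx⟩ ⟨y, hy⟩
    exact congrArg Subtype.val this
  have hcommW' : ∀ x ∈ W₁ ⊔ W₂', ∀ y ∈ W₁ ⊔ W₂', x * y = y * x := by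
    intro x hx y hy
    have := isMulCommutative_iff.mp (IsCyclic.isMulCommutative (α := ↥(W₁ ⊔ W₂'))) ⟨x, hx⟩ ⟨y, hy⟩
    exact congrArg Subtype.val this
  -- step 2 : W₂ ≤ W₁ ⊔ W₂'
  have hstep2 : W₂ ≤ W₁ ⊔ W₂' := by
    intro w hw
    obtain ⟨a, ha, b, hb, hab⟩ := hSW.2.2.2 w (hW₂S hw)
    have ha' : a = w * b⁻¹ := by rw [hab]; group
    have hcent : a ∈ Subgroup.centralizer ({(w₁ : G)} : Set G) := by
      rw [Subgroup.mem_centralizer_iff]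
      intro h hh
      rw [Set.mem_singleton_iff] at hh
      subst hh
      have h1 : (w₁ : G) * w = w * w₁ := hcomm _ w₁.2 _ hw
      have h2 : (w₁ : G) * b⁻¹ = b⁻¹ * w₁ :=
        hcommW _ (Subgroup.mem_sup_left w₁.2) _ (Subgroup.mem_sup_left (inv_mem hb))
      rw [ha', ← mul_assoc, h1, mul_assoc, h2, mul_assoc]
    have haW : a ∈ W₂' := by
      rw [← hP.W₂_centralizer w₁ w₁.2 hw₁1']
      exact ⟨ha, hcent⟩
    rw [hab]
    exact mul_mem (Subgroup.mem_sup_right haW) (Subgroup.mem_sup_left hb)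
  -- step 3
  have hx_mem : (w₁ : G) * w₂ ∈ W₁ ⊔ W₂ :=
    mul_mem (Subgroup.mem_sup_left w₁.2) (Subgroup.mem_sup_right w₂.2)
  have hx_not : (w₁ : G) * w₂ ∉ ((W₁ : Set G) ∪ (W₂ : Set G)) := by
    rintro (h | h)
    · have : (w₂ : G) ∈ W₁ := by
        have := mul_mem (inv_mem w₁.2) h
        simpa using this
      have h3 : (w₂ : G) ∈ W₁ ⊓ W₂ := ⟨this, w₂.2⟩
      rw [hdisj, Subgroup.mem_bot] at h3
      exact hw₂1' h3
    · have : (w₁ : G) ∈ W₂ := by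
        have := mul_mem h (inv_mem w₂.2)
        simpa using this
      have h3 : (w₁ : G) ∈ W₁ ⊓ W₂ := ⟨w₁.2, this⟩
      rw [hdisj, Subgroup.mem_bot] at h3
      exact hw₁1' h3
  have hNx : Subgroup.normalizer ({(w₁ : G) * w₂} : Set G) = W₁ ⊔ W₂ := by
    apply hnorm
    · intro z hz
      rw [Set.mem_singleton_iff] at hz
      subst hz
      exact ⟨hx_mem, hx_not⟩
    · exact Set.singleton_nonempty _
  have hx_mem' : (w₁ : G) * w₂ ∈ W₁ ⊔ W₂' :=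
    mul_mem (Subgroup.mem_sup_left w₁.2) (hstep2 w₂.2)
  have hle1 : W₁ ⊔ W₂' ≤ W₁ ⊔ W₂ := by
    intro g hg
    rw [← hNx, Subgroup.normalizer_singleton, Subgroup.mem_centralizer_iff]
    intro h hh
    rw [Set.mem_singleton_iff] at hh
    subst hh
    exact hcommW' _ hx_mem' _ hg
  -- step 4
  have hy_mem : (w₁ : G) * w₂' ∈ W₁ ⊔ W₂' :=
    mul_mem (Subgroup.mem_sup_left w₁.2) (Subgroup.mem_sup_right w₂'.2)
  have hy_not : (w₁ : G) * w₂' ∉ ((W₁ : Set G) ∪ (W₂' : Set G)) := by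
    rintro (h | h)
    · have : (w₂' : G) ∈ W₁ := by
        have := mul_mem (inv_mem w₁.2) h
        simpa using this
      have h3 : (w₂' : G) ∈ W₁ ⊓ W₂' := ⟨this, w₂'.2⟩
      rw [hdisj', Subgroup.mem_bot] at h3
      exact hw₂'1' h3
    · have : (w₁ : G) ∈ W₂' := by
        have := mul_mem h (inv_mem w₂'.2)
        simpa using this
      have h3 : (w₁ : G) ∈ W₁ ⊓ W₂' := ⟨w₁.2, this⟩
      rw [hdisj', Subgroup.mem_bot] at h3
      exact hw₁1' h3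
  have hNy : Subgroup.normalizer ({(w₁ : G) * w₂'} : Set G) = W₁ ⊔ W₂' := by
    apply hnorm'
    · intro z hz
      rw [Set.mem_singleton_iff] at hz
      subst hz
      exact ⟨hy_mem, hy_not⟩
    · exact Set.singleton_nonempty _
  have hle2 : W₁ ⊔ W₂ ≤ W₁ ⊔ W₂' := by
    intro g hg
    rw [← hNy, Subgroup.normalizer_singleton, Subgroup.mem_centralizer_iff]
    intro h hh
    rw [Set.mem_singleton_iff] at hh
    subst hh
    exact hcommW _ (hle1 hy_mem) _ hg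
  have hEq : W₁ ⊔ W₂ = W₁ ⊔ W₂' := le_antisymm hle2 hle1
  -- step 5 : counting
  have hc1 : Nat.card ↥(W₁ ⊔ W₂) = Nat.card W₁ * Nat.card W₂ :=
    H29.card_sup_of_le_normalizer_of_inf_eq_bot W₁ W₂ (H29.le_normalizer_of_commute W₁ W₂ hcomm) hdisj
  have hc2 : Nat.card ↥(W₁ ⊔ W₂') = Nat.card W₁ * Nat.card W₂' :=
    H29.card_sup_of_le_normalizer_of_inf_eq_bot W₁ W₂' (H29.le_normalizer_of_commute W₁ W₂' hcomm') hdisj'
  have hcard : Nat.card W₂' = Nat.card W₂ := by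
    have h3 : Nat.card W₁ * Nat.card W₂' = Nat.card W₁ * Nat.card W₂ := by
      rw [← hc1, ← hc2, hEq]
    exact Nat.eq_of_mul_eq_mul_left Nat.card_pos h3
  -- both are subgroups of the cyclic group W₁ ⊔ W₂
  have hW₂le : W₂ ≤ W₁ ⊔ W₂ := le_sup_right
  have hW₂'le : W₂' ≤ W₁ ⊔ W₂ := hEq ▸ le_sup_right
  have hsub : W₂'.subgroupOf (W₁ ⊔ W₂) = W₂.subgroupOf (W₁ ⊔ W₂) := by
    apply H29.eq_of_card_eq_of_isCyclic
    rw [Nat.card_congr (Subgroup.subgroupOfEquivOfLe hW₂'le).toEquiv,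
      Nat.card_congr (Subgroup.subgroupOfEquivOfLe hW₂le).toEquiv, hcard]
  have := congrArg (Subgroup.map (W₁ ⊔ W₂).subtype) hsub
  rw [Subgroup.subgroupOf_map_subtype, Subgroup.subgroupOf_map_subtype,
    inf_eq_left.mpr hW₂'le, inf_eq_left.mpr hW₂le] at this
  exact this

end Cfsg.Agent.S1386
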