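-- Statement S1387: F(M) = M_F · C_U(M_F) for type-P data.
import Cfsg.Statements.S1387
import Cfsg.Agent.H29.TypeP

set_option autoImplicit false
open Cfsg

namespace Cfsg.Agent.S1387

/-- Let M be a subgroup of a finite group G with type-P data (W₁, U, W₂) and H = M_F. Then the Fitting subgroup F(M) is generated by H and the centralizer of H in U. -/
theorem result {G : Type*} [Group G] [Finite G] (M W₁ U W₂ : Subgroup G) (hP : Cfsg.IsTypePWith M W₁ U W₂) :
    Cfsg.fittingOf M = Cfsg.fittingHallOf M ⊔ (U ⊓ Subgroup.centralizer (Cfsg.fittingHallOf M : Set G)) := by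
  obtain ⟨hHM', hUM', hdisj, hsurj⟩ := hP.U_compl
  have hM'M : ⁅M, M⁆ ≤ M := hP.W₁_compl.1
  have hUM : U ≤ M := hUM'.trans hM'M
  have hcop : (Nat.card U).Coprime (Nat.card (fittingHallOf M)) :=
    H29.card_coprime_card_fittingHallOf M U hUM hdisj
  apply le_antisymm
  · rw [← hP.fitting_eq]
    apply sup_le le_sup_left
    intro c hc
    have hc' := Subgroup.mem_inf.mp hc
    have hcF : c ∈ fittingOf M := by
      rw [← hP.fitting_eq]; exact Subgroup.mem_sup_right hc
    have hcM' : c ∈ ⁅M, M⁆ := hP.fitting_le hcF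
    obtain ⟨h, hh, u, hu, rfl⟩ := hsurj c hcM'
    have hu_ord : (orderOf u).Coprime (Nat.card (fittingHallOf M)) :=
      Nat.Coprime.coprime_dvd_left (Subgroup.orderOf_dvd_natCard U hu) hcop
    have hu_cent : u ∈ Subgroup.centralizer (fittingHallOf M : Set G) :=
      H29.mem_centralizer_of_coprime_of_eq_mul (fittingHallOf M) hu_ord (inv_mem hh) hc'.2
        (by group)
    exact mul_mem (Subgroup.mem_sup_left hh)
      (Subgroup.mem_sup_right (Subgroup.mem_inf.mpr ⟨hu, hu_cent⟩))
  · rw [← hP.fitting_eq]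
    exact sup_le_sup_left (inf_le_inf_right _ hUM) _

end Cfsg.Agent.S1387
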