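-- Statement S1388: [U,U] centralizes M_F, and U does not unless U = 1 (type-P data).
import Cfsg.Statements.S1388
import Cfsg.Agent.H29.TypeP
import Cfsg.Agent.H29.Basic

set_option autoImplicit false
open Cfsg

namespace Cfsg.Agent.S1388

/-- Let M be a subgroup of a finite group G with type-P data (W₁, U, W₂) and H = M_F. Then the derived subgroup of U centralizes H, and if U ≠ 1 then U does not centralize H. -/
theorem result {G : Type*} [Group G] [Finite G] (M W₁ U W₂ : Subgroup G) (hP : Cfsg.IsTypePWith M W₁ U W₂) :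
    ⁅U, U⁆ ≤ Subgroup.centralizer (Cfsg.fittingHallOf M : Set G) ∧ (U ≠ ⊥ → ¬ U ≤ Subgroup.centralizer (Cfsg.fittingHallOf M : Set G)) := by
  obtain ⟨hHM', hUM', hdisj, hsurj⟩ := hP.U_compl
  obtain ⟨hM'M, hW₁M, hdisjW, hsurjW⟩ := hP.W₁_compl
  have hUM : U ≤ M := hUM'.trans hM'M
  have hcop : (Nat.card U).Coprime (Nat.card (fittingHallOf M)) :=
    H29.card_coprime_card_fittingHallOf M U hUM hdisj
  constructor
  · intro x hx
    have hxU : x ∈ U := by
      have h1 : ⁅U, U⁆ ≤ U := Subgroup.commutator_le.mpr (fun g₁ h₁ g₂ h₂ => by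
        rw [commutatorElement_def]
        exact mul_mem (mul_mem (mul_mem h₁ h₂) (inv_mem h₁)) (inv_mem h₂))
      exact h1 hx
    have hxM'' : x ∈ ⁅⁅M, M⁆, ⁅M, M⁆⁆ := Subgroup.commutator_mono hUM' hUM' hx
    have hx2 := hP.derived_two_le hxM''
    rw [sup_comm] at hx2
    have hnorm : M ⊓ Subgroup.centralizer (fittingHallOf M : Set G) ≤
        Subgroup.normalizer (fittingHallOf M : Set G) :=
      inf_le_right.trans (Subgroup.centralizer_le_normalizer _)
    obtain ⟨c, hc, h, hh, hch⟩ := H29.exists_mul_of_mem_sup_of_le_normalizer _ _ hnorm hx2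
    have hc' := (Subgroup.mem_inf.mp hc).2
    have hxhc : x = h * c := by
      rw [← hch]
      exact (Subgroup.mem_centralizer_iff.mp hc' h hh).symm
    have hx_ord : (orderOf x).Coprime (Nat.card (fittingHallOf M)) :=
      Nat.Coprime.coprime_dvd_left (Subgroup.orderOf_dvd_natCard U hxU) hcop
    exact H29.mem_centralizer_of_coprime_of_eq_mul (fittingHallOf M) hx_ord hh hc' hxhc
  · intro hUne hUc
    apply hUne
    -- `U` (inside `M`) is a normal nilpotent Hall subgroup of `M`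
    have hnormal : (U.subgroupOf M).Normal := by
      constructor
      rintro ⟨u, huM⟩ hu ⟨m, hm⟩
      rw [Subgroup.mem_subgroupOf] at hu ⊢
      change m * u * m⁻¹ ∈ U
      change u ∈ U at hu
      obtain ⟨a, ha, w, hw, rfl⟩ := hsurjW m hm
      obtain ⟨h, hh, u₀, hu₀, rfl⟩ := hsurj a ha
      have h1 : w * u * w⁻¹ ∈ U := (Subgroup.mem_normalizer_iff.mp (hP.U_normal hw) u).mp hu
      have h2 : u₀ * (w * u * w⁻¹) * u₀⁻¹ ∈ U := mul_mem (mul_mem hu₀ h1) (inv_mem hu₀)
      have h3 : h * (u₀ * (w * u * w⁻¹) * u₀⁻¹) = (u₀ * (w * u * w⁻¹) * u₀⁻¹) * h :=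
        Subgroup.mem_centralizer_iff.mp (hUc h2) h hh
      have h4 : h * u₀ * w * u * (h * u₀ * w)⁻¹ = u₀ * (w * u * w⁻¹) * u₀⁻¹ := by
        have : h * u₀ * w * u * (h * u₀ * w)⁻¹ = h * (u₀ * (w * u * w⁻¹) * u₀⁻¹) * h⁻¹ := by group
        rw [this, h3]; group
      rw [h4]; exact h2
    have hnil : Group.IsNilpotent ↥(U.subgroupOf M) :=
      (Group.isNilpotent_congr (Subgroup.subgroupOfEquivOfLe hUM)).mpr hP.U_nilpotent
    have hcardU : Nat.card (U.subgroupOf M) = Nat.card U :=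
      Nat.card_congr (Subgroup.subgroupOfEquivOfLe hUM).toEquiv
    have hcardW : Nat.card (W₁.subgroupOf M) = Nat.card W₁ :=
      Nat.card_congr (Subgroup.subgroupOfEquivOfLe hW₁M).toEquiv
    have hM1 : Nat.card M = Nat.card ↥⁅M, M⁆ * Nat.card W₁ := H29.card_of_isComplIn hP.W₁_compl
    have hM2 : Nat.card ↥⁅M, M⁆ = Nat.card (fittingHallOf M) * Nat.card U :=
      H29.card_of_isComplIn hP.U_compl
    have hUpos : 0 < Nat.card U := Nat.card_pos
    have hW₁pos : 0 < Nat.card W₁ := Nat.card_pos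
    have hidx : (U.subgroupOf M).index = Nat.card (fittingHallOf M) * Nat.card W₁ := by
      have h5 := Subgroup.card_mul_index (U.subgroupOf M)
      rw [hcardU, hM1, hM2] at h5
      have h6 : Nat.card U * (U.subgroupOf M).index =
          Nat.card U * (Nat.card (fittingHallOf M) * Nat.card W₁) := by
        rw [h5]; ring
      exact Nat.eq_of_mul_eq_mul_left hUpos h6
    have hrel : W₁.relIndex M = Nat.card ↥⁅M, M⁆ := by
      have h5 := Subgroup.card_mul_index (W₁.subgroupOf M)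
      rw [hcardW, hM1] at h5
      have h6 : Nat.card W₁ * (W₁.subgroupOf M).index = Nat.card W₁ * Nat.card ↥⁅M, M⁆ := by
        rw [h5]; ring
      exact Nat.eq_of_mul_eq_mul_left hW₁pos h6
    have hcopW : (Nat.card U).Coprime (Nat.card W₁) := by
      have h7 := hP.W₁_hall
      rw [hrel, hM2] at h7
      exact (Nat.Coprime.coprime_dvd_right (Dvd.intro_left _ rfl) h7).symm
    have hcop' : (Nat.card (U.subgroupOf M)).Coprime (U.subgroupOf M).index := by
      rw [hcardU, hidx]
      exact Nat.Coprime.mul_right hcop hcopW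
    have hle : U.subgroupOf M ≤ fittingHall ↥M := le_sSup ⟨hnormal, hnil, hcop'⟩
    rw [eq_bot_iff]
    intro u hu
    have h8 : u ∈ fittingHallOf M := ⟨⟨u, hUM hu⟩, hle (Subgroup.mem_subgroupOf.mpr hu), rfl⟩
    have h9 : u ∈ fittingHallOf M ⊓ U := Subgroup.mem_inf.mpr ⟨h8, hu⟩
    rw [hdisj] at h9
    exact h9

end Cfsg.Agent.S1388
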