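import Cfsg.Statements.S1405
import Cfsg.Agent.S1402
import Cfsg.Agent.H58.BG96
import Cfsg.Agent.H63.SigMain
import Cfsg.Agent.H3.BG10B
import Cfsg.Agent.H38.BG10C

set_option autoImplicit false
open Cfsg

namespace Cfsg.Agent.S1405

/-- Let G be a minimal simple group of odd order and M a maximal subgroup, α(M) the set of primes p with M of p-rank at least 3, and M_α = O_{α(M)}(M). Then M_α is a Hall α(M)-subgroup of M and of G, M_α ≤ M_σ, the quotient M/M_α has no elementary abelian subgroup of order p ^ 3 for any prime p, and the image of M' in M/M_α is nilpotent. -/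
theorem result {G : Type*} [Group G] [Finite G] (hG : Cfsg.IsMinSimpleOddOrder G)
    (M : Subgroup G) (hM : IsCoatom M) :
    Cfsg.IsPiHallOf (Cfsg.alpha M) (Cfsg.alphaCore M) M ∧ Cfsg.IsPiHall (Cfsg.alpha M) (Cfsg.alphaCore M) ∧
      Cfsg.alphaCore M ≤ Cfsg.sigmaCore M ∧ Cfsg.RankLE 2 (↥M ⧸ Cfsg.piCore (Cfsg.alpha M) ↥M) ∧
      Group.IsNilpotent ↥((commutator ↥M).map (QuotientGroup.mk' (Cfsg.piCore (Cfsg.alpha M) ↥M))) := by
  have h96 : Cfsg.Agent.H58.BG10.St1403 G := fun K hK hK2 hK3 =>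
    Cfsg.Agent.H58.BG96.bg96 hG
      (fun p _ P A hA hA3 => Cfsg.Agent.S1402.result hG p P A hA hA3) K hK hK2 hK3
  have h101 : Cfsg.Agent.H58.BG10.St1404 G := Cfsg.Agent.H63.Sig.bg101_of_uniq hG h96
  exact Cfsg.Agent.H38.BG10C.bg102 hG h96 (Cfsg.Agent.H3.BG10.sigComm hG h101) M hM

end Cfsg.Agent.S1405
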