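import Mathlib
import Cfsg.Statements.S1406
import Cfsg.Agent.H58.BG10All

set_option autoImplicit false
open Cfsg

namespace Cfsg.Agent.S1406

/-- Let G be a minimal simple group of odd order, M a maximal subgroup, and X a subgroup of M no prime divisor of whose order lies in α(M). If M_α ∩ C_G(X) has an elementary abelian subgroup of order p ^ 2 for some prime p, then C_M(X) is contained in exactly one maximal subgroup of G. -/
theorem result {G : Type*} [Group G] [Finite G] (hG : Cfsg.IsMinSimpleOddOrder G)
    (M : Subgroup G) (hM : IsCoatom M) (X : Subgroup G) (hXM : X ≤ M) (hXα : ∀ p : ℕ, p.Prime → p ∣ Nat.card X → p ∉ Cfsg.alpha M)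
    (hr : ¬ Cfsg.RankLE 1 ↥(Cfsg.alphaCore M ⊓ Subgroup.centralizer (X : Set G))) :
    Cfsg.InUniqueMaximal (M ⊓ Subgroup.centralizer (X : Set G)) := by
  exact Cfsg.Agent.H58.BG10.st1406 hG M hM X hXM hXα hr

end Cfsg.Agent.S1406
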