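import Mathlib
import Cfsg.Statements.S1409
import Cfsg.Agent.S1403
import Cfsg.Agent.H58.BG10G

set_option autoImplicit false
open Cfsg

namespace Cfsg.Agent.S1409

/-- Let G be a minimal simple group of odd order, M a maximal subgroup, p a prime not in σ(M), and X a subgroup of order p with N_G(X) ≤ M. Then M has p-rank exactly 2, p is not an ideal prime for G, and X is contained in some elementary abelian subgroup of G of order p ^ 2. -/
theorem result {G : Type*} [Group G] [Finite G] (hG : Cfsg.IsMinSimpleOddOrder G)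
    (M : Subgroup G) (hM : IsCoatom M) (p : ℕ) [Fact p.Prime] (hp : p ∉ Cfsg.sigma M) (X : Subgroup G) (hX : Nat.card X = p)
    (hNX : Subgroup.normalizer (X : Set G) ≤ M) :
    (Cfsg.PRankLE p 2 M ∧ ¬ Cfsg.PRankLE p 1 M) ∧ ¬ Cfsg.IsIdealPrime p G ∧
      ∃ A : Subgroup G, Cfsg.IsElementaryAbelian p A ∧ Nat.card A = p ^ 2 ∧ X ≤ A := by
  have h96 : Cfsg.Agent.H58.BG10.St1403 G := fun K hK hK2 hK3 => Cfsg.Agent.S1403.result hG K hK hK2 hK3
  exact Cfsg.Agent.H58.BG10.bg106 hG h96 (Cfsg.Agent.H58.BG10.bg105 hG h96) M hM p hp X hX hNX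

end Cfsg.Agent.S1409
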