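import Cfsg.Statements.S1424
import Cfsg.Agent.H76.BG1213
import Cfsg.Agent.H58.BG10All2
import Cfsg.Agent.Lib.Helper30.BG129C
import Cfsg.Agent.H63.BG125Main

set_option autoImplicit false
open Cfsg

namespace Cfsg.Agent.S1424

/-- Let G be a minimal simple group of odd order, M a maximal subgroup, q ∈ σ(M), X a nontrivial q-subgroup of M, M* a maximal subgroup different from M with N_G(X) ≤ M*, and S a Sylow q-subgroup of M ∩ M* containing X. Then M* is not conjugate to M in G, N_G(S) ≤ M, and q does not divide the index of S in M*. -/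
theorem result {G : Type*} [Group G] [Finite G] (hG : Cfsg.IsMinSimpleOddOrder G)
    (M : Subgroup G) (hM : IsCoatom M) (q : ℕ) [Fact q.Prime] (hq : q ∈ Cfsg.sigma M) (X : Subgroup G) (hXq : IsPGroup q X) (hX1 : X ≠ ⊥) (hXM : X ≤ M)
    (Mstar : Subgroup G) (hMs : IsCoatom Mstar) (hne : Mstar ≠ M) (hNX : Subgroup.normalizer (X : Set G) ≤ Mstar)
    (S : Sylow q ↥(M ⊓ Mstar)) (hXS : X ≤ (S : Subgroup ↥(M ⊓ Mstar)).map (M ⊓ Mstar).subtype) :
    (∀ g : G, Mstar ≠ M.map (MulAut.conj g).toMonoidHom) ∧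
      Subgroup.normalizer (((S : Subgroup ↥(M ⊓ Mstar)).map (M ⊓ Mstar).subtype : Subgroup G) : Set G) ≤ M ∧
      ¬ q ∣ ((S : Subgroup ↥(M ⊓ Mstar)).map (M ⊓ Mstar).subtype).relIndex Mstar := by
  exact Cfsg.Agent.H76.BG12.bgEmbed (Cfsg.Agent.H58.BG10.st1404 hG)
    (Cfsg.Agent.Lib.Helper30.BG12.bg129c hG (Cfsg.Agent.H58.BG10.st1404 hG)
      (Cfsg.Agent.H63.BG11.st1416 hG))
    M hM q hq X hXq hX1 hXM Mstar hMs hne hNX S hXS

end Cfsg.Agent.S1424
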