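import Cfsg.Statements.S1425
import Cfsg.Agent.H47.BG1216Main
import Cfsg.Agent.H47.BG1216E1
import Cfsg.Agent.H31.BG1216Frat
import Cfsg.Agent.H31.BG1216D1
import Cfsg.Agent.H31.BG1216SigDisj
import Cfsg.Agent.H7.BG1216HallA
import Cfsg.Agent.H57.BG129Main
import Cfsg.Agent.H63.BG125Main
import Cfsg.Agent.H58.BG10All
import Cfsg.Agent.H58.BG10All2
-- import your own Cfsg.Agent.* helpers here

set_option autoImplicit false
open Cfsg

namespace Cfsg.Agent.S1425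

/-- Let G be a minimal simple group of odd order, M a maximal subgroup and Y a nontrivial subgroup of G all of whose prime divisors lie in σ(M). Then gYg⁻¹ ≤ M_σ for some g ∈ G. -/
theorem result {G : Type*} [Group G] [Finite G] (hG : Cfsg.IsMinSimpleOddOrder G)
    (M : Subgroup G) (hM : IsCoatom M) (Y : Subgroup G) (hY1 : Y ≠ ⊥) (hY : ∀ p : ℕ, p.Prime → p ∣ Nat.card Y → p ∈ Cfsg.sigma M) :
    ∃ g : G, Y.map (MulAut.conj g).toMonoidHom ≤ Cfsg.sigmaCore M := by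
  have h50 := Cfsg.Agent.H58.BG10.st1350 hG
  have h03 := Cfsg.Agent.H58.BG10.st1403 hG
  have h04 := Cfsg.Agent.H58.BG10.st1404 hG
  have h05 := Cfsg.Agent.H58.BG10.st1405 hG
  have hT := Cfsg.Agent.H58.BG10.stSigComm hG
  have h16 := Cfsg.Agent.H63.BG11.st1416 hG
  have h17 := Cfsg.Agent.H63.BG11.st1417 hG
  have h18 := Cfsg.Agent.H57.BG12.st1418_of hG h16 h17
  have h20c := Cfsg.Agent.Lib.Helper30.BG12.bg129c hG h04 h16
  have h24 := Cfsg.Agent.H76.BG12.bgEmbed h04 h20c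
  have hSC := Cfsg.Agent.H57.BG12Hall.sigConj hG h50
  have hF := Cfsg.Agent.H31.BG1216.alphaFrat h05
  have hD1 := Cfsg.Agent.H31.BG1216.embD1 hG hT h50 hF
  have hSD := Cfsg.Agent.H31.BG1216.sigDisj hG h50
  have hHA := Cfsg.Agent.H7.BG1216.hallAlpha hG h05
  have hE1 := Cfsg.Agent.H47.BG12.embE1 hG h50 h03 h17 h18 h20c hSC
  exact Cfsg.Agent.H47.BG12.bg1216main hG h50 h03 h24 hD1 hHA hE1 hSD hSC M hM Y hY1 hY

end Cfsg.Agent.S1425
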