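import Cfsg.Statements.S1433
import Cfsg.Agent.H47.BG144Disj
import Cfsg.Agent.S1378
import Cfsg.Agent.H47.BG1216E1
import Cfsg.Agent.H57.BG129Main
import Cfsg.Agent.H57.BG129Hall
import Cfsg.Agent.H63.BG125Main
import Cfsg.Agent.H58.BG10All
import Cfsg.Agent.H58.BG10All2

set_option autoImplicit false
open Cfsg

namespace Cfsg.Agent.S1433

/-- Let G be a minimal simple group of odd order, M and N maximal subgroups, x ≠ 1 in M_σ and y ≠ 1 in N_σ with x ≠ y, where R(x) = 1 if C_G(x) ≤ M and R(x) = C_{L_F}(x) for the unique maximal L containing C_G(x) otherwise (and likewise R(y) relative to N). Then no element lies in both x R(x) and y R(y). -/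
theorem result {G : Type*} [Group G] [Finite G] (hG : Cfsg.IsMinSimpleOddOrder G)
    (M N : Subgroup G) (hM : IsCoatom M) (hN : IsCoatom N) (x y : G) (hx : x ∈ Cfsg.sigmaCore M) (hy : y ∈ Cfsg.sigmaCore N)
    (hx1 : x ≠ 1) (hy1 : y ≠ 1) (hxy : x ≠ y) :
    ∀ r ∈ Cfsg.supportR M x, ∀ s ∈ Cfsg.supportR N y, x * r ≠ y * s := by
  have h50 := Cfsg.Agent.H58.BG10.st1350 hG
  have h03 := Cfsg.Agent.H58.BG10.st1403 hG
  have h04 := Cfsg.Agent.H58.BG10.st1404 hG
  have h16 := Cfsg.Agent.H63.BG11.st1416 hG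
  have h17 := Cfsg.Agent.H63.BG11.st1417 hG
  have h18 := Cfsg.Agent.H57.BG12.st1418_of hG h16 h17
  have h20c := Cfsg.Agent.Lib.Helper30.BG12.bg129c hG h04 h16
  have h24 := Cfsg.Agent.H76.BG12.bgEmbed h04 h20c
  have hSC := Cfsg.Agent.H57.BG12Hall.sigConj hG h50
  have hE1 := Cfsg.Agent.H47.BG12.embE1 hG h50 h03 h17 h18 h20c hSC
  have hPart : Cfsg.Agent.Lib.Helper30.BG144.StPart G := (Cfsg.Agent.S1378.result hG).2
  exact Cfsg.Agent.H47.BG144D.coset_ne hG h50 h04 h24 hE1 hPart M N hM hN x y hx hy hx1 hy1 hxy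

end Cfsg.Agent.S1433
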