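import Mathlib
import Cfsg.Statements.S1439
import Cfsg.Agent.H58.BG1439
import Cfsg.Agent.H58.BG10All2
import Cfsg.Agent.H63.BG125Main
import Cfsg.Agent.H92.BG12Sig

set_option autoImplicit false
open Cfsg

namespace Cfsg.Agent.S1439

/-- Let G be a minimal simple group of odd order and M a maximal subgroup, and let Y be the largest normal subgroup of F(M) involving no prime of σ(M). Then Y is cyclic, every prime divisor of its order lies in τ₂(M), and F(M) is generated by F(M_σ) and Y (a direct product, the orders being coprime). -/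
theorem result {G : Type*} [Group G] [Finite G] (hG : Cfsg.IsMinSimpleOddOrder G)
    (M : Subgroup G) (hM : IsCoatom M) :
    IsCyclic ↥(Cfsg.piCoreOf {q | q.Prime ∧ q ∉ Cfsg.sigma M} (Cfsg.fittingOf M)) ∧
      (∀ p : ℕ, p.Prime → p ∣ Nat.card ↥(Cfsg.piCoreOf {q | q.Prime ∧ q ∉ Cfsg.sigma M} (Cfsg.fittingOf M)) → p ∈ Cfsg.tau2 M) ∧
      Cfsg.fittingOf M = Cfsg.fittingOf (Cfsg.sigmaCore M) ⊔ Cfsg.piCoreOf {q | q.Prime ∧ q ∉ Cfsg.sigma M} (Cfsg.fittingOf M) := by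
  exact Cfsg.Agent.H58.BG12.st1439_of hG (Cfsg.Agent.H58.BG10.st1403 hG)
    (Cfsg.Agent.H58.BG10.st1350 hG) (Cfsg.Agent.H58.BG10.st1409 hG)
    (Cfsg.Agent.H63.BG11.st1417 hG)
    (Cfsg.Agent.H92.BG12.sigNe hG (Cfsg.Agent.H58.BG10.st1405 hG)
      (Cfsg.Agent.H58.BG10.st1350 hG)) M hM

end Cfsg.Agent.S1439
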