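import Cfsg.Statements.S1441

set_option autoImplicit false
open Cfsg
open scoped commutatorElement

namespace Cfsg.Agent.S1441

/-- If `z` commutes with `a`, `x a x⁻¹ = z a`, and the order of `a` is coprime to an exponent `m`
killing `z`, then `z = 1`. -/
theorem h30_eq_one_of_conj_eq_mul' {G : Type*} [Group G] (x a z : G) (m : ℕ)
    (hza : z * a = a * z) (hconj : x * a * x⁻¹ = z * a) (hz : z ^ m = 1)
    (hcop : (orderOf a).Coprime m) : z = 1 := by
  have hcomm : Commute z a := hza
  have h1 : (x * a * x⁻¹) ^ orderOf a = 1 := by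
    rw [conj_pow, pow_orderOf_eq_one]; simp
  rw [hconj, hcomm.mul_pow, pow_orderOf_eq_one, mul_one] at h1
  have h2 : orderOf z ∣ orderOf a := orderOf_dvd_of_pow_eq_one h1
  have h3 : orderOf z ∣ m := orderOf_dvd_of_pow_eq_one hz
  have h4 : orderOf z = 1 := Nat.eq_one_of_dvd_coprimes hcop h2 h3
  exact orderOf_eq_one_iff.mp h4

/-- An element of `A` of order coprime to `#H` that stabilizes the chain centralizes `H`. -/
theorem h30_stab_chain_centralizes {G : Type*} [Group G] [Finite G] (H A : Subgroup G)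
    (n : ℕ) (c : Fin (n + 1) → Subgroup G) (hc0 : c 0 = H) (hcn : c (Fin.last n) = ⊥)
    (hanti : Antitone c)
    (htriv : ∀ i : Fin n, ⁅c i.castSucc, A⁆ ≤ c i.succ)
    (a : G) (ha : a ∈ A) (hcop : (orderOf a).Coprime (Nat.card H)) :
    a ∈ Subgroup.centralizer (H : Set G) := by
  have key : ∀ i : Fin (n + 1), ∀ x ∈ c i, x * a = a * x := by
    intro i
    induction i using Fin.reverseInduction with
    | last =>
      intro x hx
      rw [hcn, Subgroup.mem_bot] at hx
      subst hx
      simp
    | cast i ih =>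
      intro x hx
      have hz1 : ⁅x, a⁆ ∈ c i.succ := htriv i (Subgroup.commutator_mem_commutator hx ha)
      have hzH : ⁅x, a⁆ ∈ H := by
        have : c i.succ ≤ c 0 := hanti (Fin.zero_le _)
        rw [hc0] at this
        exact this hz1
      have hza : ⁅x, a⁆ * a = a * ⁅x, a⁆ := ih _ hz1
      have hconj : x * a * x⁻¹ = ⁅x, a⁆ * a := by
        simp [commutatorElement_def, mul_assoc]
      have hzpow : ⁅x, a⁆ ^ Nat.card H = 1 := by
        have : (⟨⁅x, a⁆, hzH⟩ : H) ^ Nat.card H = 1 := pow_card_eq_one'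
        exact congrArg Subtype.val this
      have hz : ⁅x, a⁆ = 1 := h30_eq_one_of_conj_eq_mul' x a _ _ hza hconj hzpow hcop
      rw [commutatorElement_eq_one_iff_mul_comm] at hz
      exact hz
  rw [Subgroup.mem_centralizer_iff]
  intro h hh
  have hh' : h ∈ c 0 := by rw [hc0]; exact hh
  exact key 0 h hh'

/-- Let G be a finite group, H a solvable subgroup and A a subgroup normalizing H. Suppose there is a chain H = H₀ ≥ H₁ ≥ ⋯ ≥ H_n = 1 of subgroups normal in H and normalized by A such that A acts trivially on each factor H_{i-1}/H_i (that is, [H_{i-1}, A] ≤ H_i). Then every prime dividing the index of C_A(H) in A divides the order of H. -/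
theorem result {G : Type*} [Group G] [Finite G] (H A : Subgroup G) (hH : Group.IsSolvable H) (hA : (A ≤ Subgroup.normalizer (H : Set G)))
    (n : ℕ) (c : Fin (n + 1) → Subgroup G) (hc0 : c 0 = H) (hcn : c (Fin.last n) = ⊥) (hanti : Antitone c)
    (hcN : ∀ i, H ≤ Subgroup.normalizer ((c i : Subgroup G) : Set G)) (hcA : ∀ i, A ≤ Subgroup.normalizer ((c i : Subgroup G) : Set G))
    (htriv : ∀ i : Fin n, ⁅c i.castSucc, A⁆ ≤ c i.succ) :
    ∀ p : ℕ, p.Prime → p ∣ (A ⊓ Subgroup.centralizer (H : Set G)).relIndex A → p ∣ Nat.card H := by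
  intro p hp hdvd
  by_contra hnd
  have : Fact p.Prime := ⟨hp⟩
  have hpc : p.Coprime (Nat.card H) := (Nat.Prime.coprime_iff_not_dvd hp).mpr hnd
  obtain ⟨P⟩ : Nonempty (Sylow p A) := inferInstance
  have hle : (P : Subgroup A) ≤ (A ⊓ Subgroup.centralizer (H : Set G)).subgroupOf A := by
    intro x hx
    rw [Subgroup.mem_subgroupOf]
    refine Subgroup.mem_inf.mpr ⟨x.2, ?_⟩
    apply h30_stab_chain_centralizes H A n c hc0 hcn hanti htriv x x.2
    have h1 : (orderOf (⟨x, hx⟩ : (P : Subgroup A))).Coprime (Nat.card H) :=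
      P.isPGroup'.orderOf_coprime hpc _
    rw [Subgroup.orderOf_mk] at h1
    rwa [Subgroup.orderOf_coe]
  have h2 : ((A ⊓ Subgroup.centralizer (H : Set G)).subgroupOf A).index ∣ (P : Subgroup A).index :=
    Subgroup.index_dvd_of_le hle
  have h3 : p ∣ (P : Subgroup A).index := dvd_trans hdvd h2
  exact P.not_dvd_index h3

end Cfsg.Agent.S1441
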