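import Mathlib
import Cfsg.Statements.S1545
import Cfsg.Agent.H58.FrobWielandt
import Cfsg.Agent.S0033

set_option autoImplicit false
set_option linter.style.haveILetI false
open Cfsg

namespace Cfsg.Agent.S1545

open Cfsg.Agent.H58.FrobAct Cfsg.Agent.H58.FrobWielandt

/-- A subgroup of prime order `q` acting fixed-point-freely on `U` forces `|U| ≡ 1 mod q`. -/
theorem card_modEq_one {X : Type*} [Group X] [Finite X] (U : Subgroup X) (e : X) (q : ℕ)
    (hq : q.Prime) (he : orderOf e = q)
    (hZ : Subgroup.zpowers e ≤ Subgroup.normalizer (U : Set X))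
    (hfpf : ∀ u ∈ U, e * u = u * e → u = 1) :
    Nat.card U ≡ 1 [MOD q] := by
  haveI : Fact q.Prime := ⟨hq⟩
  have hZp : IsPGroup q (Subgroup.zpowers e) := by
    apply IsPGroup.of_card (n := 1)
    rw [Nat.card_zpowers, he, pow_one]
  letI : MulAction (Subgroup.zpowers e) U :=
    MulAction.compHom U (conjAut U (Subgroup.zpowers e) hZ)
  have h1 := hZp.card_modEq_card_fixedPoints (α := U)
  have h2 : Nat.card (MulAction.fixedPoints (Subgroup.zpowers e) U) = 1 := by
    rw [Nat.card_eq_one_iff_unique]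
    refine ⟨⟨?_⟩, ⟨⟨1, ?_⟩⟩⟩
    · rintro ⟨a, ha⟩ ⟨b, hb⟩
      have key : ∀ c : U, c ∈ MulAction.fixedPoints (Subgroup.zpowers e) U → c = 1 := by
        intro c hc
        have h3 := hc ⟨e, Subgroup.mem_zpowers e⟩
        have h4 : e * (c : X) * e⁻¹ = c := congrArg Subtype.val h3
        have h5 : e * (c : X) = c * e :=
          calc e * (c : X) = e * (c : X) * e⁻¹ * e := by group
            _ = c * e := by rw [h4]
        exact Subtype.ext (hfpf c c.2 h5)
      exact Subtype.ext ((key a ha).trans (key b hb).symm)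
    · intro g
      exact map_one (conjAut U (Subgroup.zpowers e) hZ g)
  rw [h2] at h1
  exact h1

theorem frob_coprime {X : Type*} [Group X] [Finite X] (U E : Subgroup X)
    (hEU : E ≤ Subgroup.normalizer (U : Set X))
    (hfpf : ∀ e ∈ E, e ≠ 1 → ∀ u ∈ U, e * u = u * e → u = 1) :
    (Nat.card U).Coprime (Nat.card E) := by
  by_contra hcon
  obtain ⟨q, hq, hqU, hqE⟩ := Nat.Prime.not_coprime_iff_dvd.mp hcon
  haveI : Fact q.Prime := ⟨hq⟩
  obtain ⟨e, he⟩ := exists_prime_orderOf_dvd_card' q hqE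
  have he' : orderOf (e : X) = q := by rw [Subgroup.orderOf_coe, he]
  have hZ : Subgroup.zpowers (e : X) ≤ Subgroup.normalizer (U : Set X) :=
    le_trans ((Subgroup.zpowers_le).mpr e.2) hEU
  have hne : (e : X) ≠ 1 := by
    intro h
    rw [h, orderOf_one] at he'
    exact hq.one_lt.ne he'
  have h1 := card_modEq_one U (e : X) q hq he' hZ (hfpf e e.2 hne)
  have h2 : Nat.card U % q = 0 := Nat.mod_eq_zero_of_dvd hqU
  have h3 : Nat.card U % q = 1 % q := h1
  have h4 : 1 % q = 1 := Nat.mod_eq_of_lt hq.one_lt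
  omega

theorem frob_kernel_solvable {X : Type*} [Group X] [Finite X] (U E : Subgroup X)
    (hU1 : U ≠ ⊥) (hE1 : E ≠ ⊥)
    (hEU : E ≤ Subgroup.normalizer (U : Set X))
    (hfpf : ∀ e ∈ E, e ≠ 1 → ∀ u ∈ U, e * u = u * e → u = 1) :
    Group.IsSolvable U := by
  have hEc : Nat.card E ≠ 1 := by
    intro h
    exact hE1 (Subgroup.eq_bot_of_card_eq E h)
  obtain ⟨q, hq, hqE⟩ := Nat.exists_prime_and_dvd hEc
  haveI : Fact q.Prime := ⟨hq⟩
  obtain ⟨e, he⟩ := exists_prime_orderOf_dvd_card' q hqE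
  have he' : orderOf (e : X) = q := by rw [Subgroup.orderOf_coe, he]
  have hZ : Subgroup.zpowers (e : X) ≤ Subgroup.normalizer (U : Set X) :=
    le_trans ((Subgroup.zpowers_le).mpr e.2) hEU
  have hne : (e : X) ≠ 1 := by
    intro h
    rw [h, orderOf_one] at he'
    exact hq.one_lt.ne he'
  set g : Subgroup.zpowers (e : X) := ⟨e, Subgroup.mem_zpowers _⟩ with hg
  set φ : MulAut U := conjAut U (Subgroup.zpowers (e : X)) hZ g with hφ
  have hfix : MonoidHom.FixedPointFree ((φ : U ≃* U) : U →* U) := by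
    intro c hc
    have h4 : (e : X) * (c : X) * (e : X)⁻¹ = c := congrArg Subtype.val hc
    have h5 : (e : X) * (c : X) = c * e :=
      calc (e : X) * (c : X) = (e : X) * (c : X) * (e : X)⁻¹ * e := by group
        _ = c * e := by rw [h4]
    exact Subtype.ext (hfpf e e.2 hne c c.2 h5)
  have hord : orderOf φ = q := by
    apply orderOf_eq_prime
    · rw [hφ, ← map_pow]
      have : g ^ q = 1 := by
        apply Subtype.ext
        rw [hg]
        simp only [SubmonoidClass.mk_pow, Subgroup.coe_one]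
        rw [← he']
        exact pow_orderOf_eq_one _
      rw [this, map_one]
    · intro h
      rw [hφ, conjAut_eq_one_iff] at h
      obtain ⟨u, hu1⟩ := (Subgroup.ne_bot_iff_exists_ne_one.mp hU1)
      apply hu1
      have h6 := hfpf e e.2 hne u u.2
        ((Subgroup.mem_centralizer_iff.mp h) u u.2).symm
      exact Subtype.ext h6
  haveI : Group.IsNilpotent U := Cfsg.Agent.S0033.result φ hfix q hq hord
  infer_instance

/-- Let X be a finite group with subgroups U, E and H such that U and E generate a subgroup UE = U ⊔ E normalising H, with U normal in UE, U ⊓ E = ⊥, U ≠ ⊥, E ≠ ⊥, every non-identity element of E commuting with no non-identity element of U (UE is a Frobenius group with kernel U acting on H by conjugation), H solvable, H ⊓ (U ⊔ E) = ⊥ and the orders of H and U ⊔ E coprime. Then Nat.card (H ⊓ C(U ⊔ E)) ^ Nat.card E * Nat.card H = Nat.card (H ⊓ C(E)) ^ Nat.card E * Nat.card (H ⊓ C(U)), where C(·) denotes the centraliser. -/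
theorem result {X : Type*} [Group X] [Finite X] (U E H : Subgroup X) (hU1 : U ≠ ⊥) (hE1 : E ≠ ⊥) (hUE : U ⊓ E = ⊥) (hUn : ∀ e ∈ E, ∀ u ∈ U, e * u * e⁻¹ ∈ U) (hfpf : ∀ e ∈ E, e ≠ 1 → ∀ u ∈ U, e * u = u * e → u = 1) (hHn : ∀ x ∈ U ⊔ E, ∀ h ∈ H, x * h * x⁻¹ ∈ H) (hdisj : H ⊓ (U ⊔ E) = ⊥) (hsolv : Group.IsSolvable H) (hcop : Nat.Coprime (Nat.card H) (Nat.card ↥(U ⊔ E))) : Nat.card ↥(H ⊓ Subgroup.centralizer ((U ⊔ E : Subgroup X) : Set X)) ^ Nat.card E * Nat.card H = Nat.card ↥(H ⊓ Subgroup.centralizer (E : Set X)) ^ Nat.card E * Nat.card ↥(H ⊓ Subgroup.centralizer (U : Set X)) := by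
  have hEU : E ≤ Subgroup.normalizer (U : Set X) := fun e he =>
    mem_normalizer_of_conj U e (hUn e he)
  have hdata : FrobData U E H :=
    { hRK := hEU
      hKs := frob_kernel_solvable U E hU1 hE1 hEU hfpf
      hKR := frob_coprime U E hEU hfpf
      hfrob := by
        intro r hr hr1
        rw [eq_bot_iff]
        intro u hu
        rw [Subgroup.mem_bot]
        refine hfpf r hr hr1 u hu.1 ?_
        exact ((Subgroup.mem_centralizer_iff.mp hu.2) r rfl)
      hKH := fun u hu => mem_normalizer_of_conj H u (hHn u (Subgroup.mem_sup_left hu))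
      hRH := fun e he => mem_normalizer_of_conj H e (hHn e (Subgroup.mem_sup_right he))
      hHs := hsolv
      hHK := Nat.Coprime.coprime_dvd_right (Subgroup.card_dvd_of_le le_sup_left) hcop
      hHR := Nat.Coprime.coprime_dvd_right (Subgroup.card_dvd_of_le le_sup_right) hcop }
  exact wielandt_formula (Nat.card H) X U E H rfl hdata

end Cfsg.Agent.S1545
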