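import Mathlib
import Cfsg.Statements.S1446
import Cfsg.Agent.H58.FrobDer
import Cfsg.Agent.S1545

set_option autoImplicit false
set_option linter.style.haveILetI false
open Cfsg

namespace Cfsg.Agent.S1446

open Cfsg.Agent.H58.FrobAct Cfsg.Agent.H58.FrobWielandt Cfsg.Agent.H58.FrobDer

/-- Let X be a finite group with subgroups K, R, M such that: K and R are nontrivial, K ∩ R = 1, R normalizes K, no non-identity element of R centralizes a non-identity element of K, K ⊔ R is solvable of odd order; M is nilpotent and nontrivial, normalized by K and by R, with order coprime to that of K ⊔ R, M ∩ C(K) = 1, and M ∩ C(x) = M ∩ C(R) for all non-identity x ∈ R. Then R has prime order p, #M = #(M ∩ C(R)) ^ p, and if M ∩ C(R) is cyclic then [K, K] centralizes M. -/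
theorem result {X : Type*} [Group X] [Finite X] (K R M : Subgroup X) (hK1 : K ≠ ⊥) (hR1 : R ≠ ⊥) (hKR : K ⊓ R = ⊥)
    (hRK : R ≤ Subgroup.normalizer (K : Set X)) (hfrob : ∀ r ∈ R, r ≠ 1 → K ⊓ Subgroup.centralizer ({r} : Set X) = ⊥)
    (hsolv : Group.IsSolvable ↥(K ⊔ R)) (hodd : Odd (Nat.card ↥(K ⊔ R)))
    (hM1 : M ≠ ⊥) (hMn : Group.IsNilpotent M) (hKM : K ≤ Subgroup.normalizer (M : Set X)) (hRM : R ≤ Subgroup.normalizer (M : Set X))
    (hcop : (Nat.card ↥(K ⊔ R)).Coprime (Nat.card M)) (hCK : M ⊓ Subgroup.centralizer (K : Set X) = ⊥)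
    (hpr : ∀ x ∈ R, x ≠ 1 → M ⊓ Subgroup.centralizer ({x} : Set X) = M ⊓ Subgroup.centralizer (R : Set X)) :
    (Nat.card R).Prime ∧ Nat.card M = Nat.card ↥(M ⊓ Subgroup.centralizer (R : Set X)) ^ Nat.card R ∧
      (IsCyclic ↥(M ⊓ Subgroup.centralizer (R : Set X)) → ⁅K, K⁆ ≤ Subgroup.centralizer (M : Set X)) := by
  have hfpf : ∀ e ∈ R, e ≠ 1 → ∀ u ∈ K, e * u = u * e → u = 1 := by
    intro e he he1 u hu hcomm
    have h1 : u ∈ K ⊓ Subgroup.centralizer ({e} : Set X) := by
      refine Subgroup.mem_inf.mpr ⟨hu, ?_⟩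
      rw [Subgroup.mem_centralizer_iff]
      intro y hy
      rw [Set.mem_singleton_iff] at hy
      rw [hy]; exact hcomm
    rw [hfrob e he he1, Subgroup.mem_bot] at h1
    exact h1
  have hcopKR : (Nat.card K).Coprime (Nat.card R) := Cfsg.Agent.S1545.frob_coprime K R hRK hfpf
  have hKs : Group.IsSolvable K := by
    haveI := hsolv
    exact Group.isSolvable_of_isSolvable_injective
      (f := Subgroup.inclusion (le_sup_left : K ≤ K ⊔ R)) (Subgroup.inclusion_injective _)
  have hMs : Group.IsSolvable M := by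
    haveI := hMn
    infer_instance
  have hMK : (Nat.card M).Coprime (Nat.card K) :=
    (Nat.Coprime.coprime_dvd_left (Subgroup.card_dvd_of_le le_sup_left) hcop).symm
  have hMR : (Nat.card M).Coprime (Nat.card R) :=
    (Nat.Coprime.coprime_dvd_left (Subgroup.card_dvd_of_le le_sup_right) hcop).symm
  have hdata : FrobData K R M := ⟨hRK, hKs, hcopKR, hfrob, hKM, hRM, hMs, hMK, hMR⟩
  -- part (b)
  have hF := wielandt_formula (Nat.card M) X K R M rfl hdata
  unfold Formula at hF
  have hCKR : M ⊓ Subgroup.centralizer ((K ⊔ R : Subgroup X) : Set X) = ⊥ := by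
    rw [eq_bot_iff, ← hCK]
    exact inf_le_inf_left _ (Subgroup.centralizer_le (le_sup_left : K ≤ K ⊔ R))
  rw [hCKR, hCK, Subgroup.card_bot, one_pow, one_mul, mul_one] at hF
  -- part (a)
  have hRc : Nat.card R ≠ 1 := fun h => hR1 (Subgroup.eq_bot_of_card_eq R h)
  obtain ⟨p, hp, hpR⟩ := Nat.exists_prime_and_dvd hRc
  haveI : Fact p.Prime := ⟨hp⟩
  obtain ⟨x, hx⟩ := exists_prime_orderOf_dvd_card' p hpR
  have hx' : orderOf (x : X) = p := by rw [Subgroup.orderOf_coe, hx]
  have hx1 : (x : X) ≠ 1 := by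
    intro h
    rw [h, orderOf_one] at hx'
    exact hp.one_lt.ne hx'
  obtain ⟨R₀, hR₀⟩ : ∃ R₀ : Subgroup X, R₀ = Subgroup.zpowers (x : X) := ⟨_, rfl⟩
  have hR₀R : R₀ ≤ R := by rw [hR₀]; exact Subgroup.zpowers_le.mpr x.2
  have hcard₀ : Nat.card R₀ = p := by rw [hR₀, Nat.card_zpowers, hx']
  have hdata₀ : FrobData K R₀ M :=
    ⟨hR₀R.trans hRK, hKs, Nat.Coprime.coprime_dvd_right (Subgroup.card_dvd_of_le hR₀R) hcopKR,
      fun r hr hr1 => hfrob r (hR₀R hr) hr1, hKM, hR₀R.trans hRM, hMs, hMK,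
      Nat.Coprime.coprime_dvd_right (Subgroup.card_dvd_of_le hR₀R) hMR⟩
  have hF₀ := wielandt_formula (Nat.card M) X K R₀ M rfl hdata₀
  unfold Formula at hF₀
  have hCKR₀ : M ⊓ Subgroup.centralizer ((K ⊔ R₀ : Subgroup X) : Set X) = ⊥ := by
    rw [eq_bot_iff, ← hCK]
    exact inf_le_inf_left _ (Subgroup.centralizer_le (le_sup_left : K ≤ K ⊔ R₀))
  have hcz : Subgroup.centralizer ((R₀ : Subgroup X) : Set X) =
      Subgroup.centralizer ({(x : X)} : Set X) := by
    rw [hR₀]
    apply le_antisymm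
    · apply Subgroup.centralizer_le
      intro y hy
      rw [Set.mem_singleton_iff] at hy
      rw [hy]; exact Subgroup.mem_zpowers _
    · intro m hm
      rw [Subgroup.mem_centralizer_iff]
      intro g hg
      have h1 : Subgroup.zpowers (x : X) ≤ Subgroup.centralizer ({m} : Set X) := by
        rw [Subgroup.zpowers_le, Subgroup.mem_centralizer_iff]
        intro y hy
        rw [Set.mem_singleton_iff] at hy
        rw [hy]
        exact ((Subgroup.mem_centralizer_iff.mp hm) x rfl).symm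
      exact ((Subgroup.mem_centralizer_iff.mp (h1 hg)) m rfl).symm
  have hCR₀ : M ⊓ Subgroup.centralizer (R₀ : Set X) = M ⊓ Subgroup.centralizer (R : Set X) := by
    rw [hcz]; exact hpr x x.2 hx1
  rw [hCKR₀, hCK, Subgroup.card_bot, one_pow, one_mul, mul_one, hCR₀, hcard₀] at hF₀
  have hc2 : 2 ≤ Nat.card ↥(M ⊓ Subgroup.centralizer (R : Set X)) := by
    by_contra hlt
    have hpos : 0 < Nat.card ↥(M ⊓ Subgroup.centralizer (R : Set X)) := Nat.card_pos
    have h1 : Nat.card ↥(M ⊓ Subgroup.centralizer (R : Set X)) = 1 := by omega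
    rw [h1, one_pow] at hF
    exact hM1 (Subgroup.card_eq_one.mp hF)
  have hRp : Nat.card R = p := Nat.pow_right_injective hc2 (hF.symm.trans hF₀)
  have hRprime : (Nat.card R).Prime := by rw [hRp]; exact hp
  exact ⟨hRprime, hF, fun hcyc => derived_centralizes (Nat.card M) X K R M rfl hdata hRprime hcyc⟩

end Cfsg.Agent.S1446
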