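import Cfsg.Statements.S1449
import Cfsg.Agent.H3.RankTwoCore

set_option autoImplicit false
open Cfsg

namespace Cfsg.Agent.S1449

open Cfsg.Agent.H3
open scoped commutatorElement

/-- For odd p, if a solvable group A of odd order acts faithfully on a p-group R of rank at most 2, then A' is a p-group. -/
theorem result {G : Type*} [Group G] [Finite G] (p : ℕ) [Fact p.Prime] (hp : p ≠ 2) (R A : Subgroup G) (hR : IsPGroup p R) (hr : Cfsg.PRankLE p 2 R)
    (hA : (A ≤ Subgroup.normalizer (R : Set G))) (hAs : Group.IsSolvable A) (hAodd : Odd (Nat.card A)) (hfaith : A ⊓ Subgroup.centralizer (R : Set G) = ⊥) :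
    IsPGroup p ↥⁅A, A⁆ := by
  have hpp : p.Prime := Fact.out
  haveI := hAs
  obtain ⟨D, hDR, hDnorm, hDexp, hDcard, hDcen, hDrk, hDfaith⟩ := rank_two_core hp R hR hr
  have hAD : ∀ a ∈ A, ∀ x ∈ D, a * x * a⁻¹ ∈ D := fun a ha x hx => hDnorm a (hA ha) x hx
  let c := conjHom A D hAD
  let ρ : ↥A →* MulAut (Abelianization ↥D) := (abAutHom ↥D).comp c
  have hDexp' : ∀ d : ↥D, d ^ p = 1 := fun d =>
    Subtype.ext (by rw [Subgroup.coe_pow]; exact hDexp d d.2)
  have hVexp : ∀ v : Abelianization ↥D, v ^ p = 1 := by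
    intro v
    obtain ⟨d, hd⟩ : ∃ d : ↥D, Abelianization.of d = v := by
      obtain ⟨d, hd⟩ := QuotientGroup.mk_surjective v
      exact ⟨d, hd⟩
    rw [← hd, ← map_pow, hDexp' d, map_one]
  have hDp : IsPGroup p ↥D := hR.to_le hDR
  have hVcard : Nat.card (Abelianization ↥D) ≤ p ^ 2 := by
    have hmul := Subgroup.card_eq_card_quotient_mul_card_subgroup (commutator ↥D)
    by_cases hbot : commutator ↥D = ⊥
    · have hDab : ∀ a ∈ D, ∀ b ∈ D, a * b = b * a := by
        intro a ha b hb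
        have h1 : (⁅(⟨a, ha⟩ : D), ⟨b, hb⟩⁆ : D) ∈ commutator ↥D := by
          rw [commutator_def]
          exact Subgroup.commutator_mem_commutator (Subgroup.mem_top _) (Subgroup.mem_top _)
        rw [hbot, Subgroup.mem_bot, commutatorElement_eq_one_iff_mul_comm] at h1
        exact congrArg Subtype.val h1
      have h2 := hDrk D le_rfl hDab
      calc Nat.card (Abelianization ↥D) ≤ Nat.card ↥D := by
            rw [hmul]; exact Nat.le_mul_of_pos_right _ Nat.card_pos
        _ ≤ p ^ 2 := h2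
    · have hcp : IsPGroup p (commutator ↥D) := hDp.to_subgroup _
      obtain ⟨k, hk⟩ := IsPGroup.iff_card.mp hcp
      have hk1 : 1 ≤ k := by
        by_contra h0
        have hk0 : k = 0 := by omega
        rw [hk0, pow_zero] at hk
        exact hbot (Subgroup.card_eq_one.mp hk)
      have h4 : Nat.card (Abelianization ↥D) * p ≤ p ^ 3 := by
        calc Nat.card (Abelianization ↥D) * p
            ≤ Nat.card (Abelianization ↥D) * Nat.card (commutator ↥D) := by
              rw [hk]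
              exact Nat.mul_le_mul_left _ (by
                calc p = p ^ 1 := (pow_one p).symm
                  _ ≤ p ^ k := Nat.pow_le_pow_right hpp.pos hk1)
          _ = Nat.card ↥D := hmul.symm
          _ ≤ p ^ 3 := hDcard
      have h3 : p ^ 3 = p ^ 2 * p := by ring
      rw [h3] at h4
      exact Nat.le_of_mul_le_mul_right h4 hpp.pos
  have hmain := hom_commutator_pow hAodd hVexp hVcard ρ
  have hcenD : commutator ↥D ≤ Subgroup.center ↥D := by
    rw [commutator_def, Subgroup.commutator_le]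
    intro a _ b _
    rw [Subgroup.mem_center_iff]
    intro d
    apply Subtype.ext
    show D.subtype (d * ⁅a, b⁆) = D.subtype (⁅a, b⁆ * d)
    rw [map_mul, map_mul, map_commutatorElement]
    exact (hDcen a a.2 b b.2 d d.2).symm
  have hcommA : ⁅A, A⁆ ≤ A := by
    rw [Subgroup.commutator_le]
    intro a ha b hb
    exact A.mul_mem (A.mul_mem (A.mul_mem ha hb) (A.inv_mem ha)) (A.inv_mem hb)
  rintro ⟨x, hx⟩
  have hxA : x ∈ A := hcommA hx
  have hx' : (⟨x, hxA⟩ : A) ∈ commutator ↥A := by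
    have h1 : Subgroup.map A.subtype (commutator ↥A) = ⁅A, A⁆ := by
      rw [commutator_def, Subgroup.map_commutator, ← MonoidHom.range_eq_map,
        Subgroup.range_subtype]
    rw [← h1] at hx
    obtain ⟨y, hy, hyx⟩ := hx
    have : y = ⟨x, hxA⟩ := Subtype.ext hyx
    rwa [this] at hy
  set x' : A := ⟨x, hxA⟩ with hx'def
  have hn0 : orderOf x' ≠ 0 := (orderOf_pos x').ne'
  obtain ⟨e, m, hnd, hnm⟩ := Nat.exists_eq_pow_mul_and_not_dvd hn0 p hpp.ne_one
  have hcop : m.Coprime p := ((Nat.Prime.coprime_iff_not_dvd hpp).mpr hnd).symm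
  set x₀ : A := x' ^ (p ^ e) with hx₀
  have hx₀m : x₀ ^ m = 1 := by
    rw [hx₀, ← pow_mul, ← hnm, pow_orderOf_eq_one]
  have hρ1 : ρ x₀ = 1 := by
    have h1 : (ρ x₀) ^ p = 1 := by
      rw [hx₀, map_pow, ← pow_mul, mul_comm, pow_mul, hmain x' hx', one_pow]
    have h2 : (ρ x₀) ^ m = 1 := by rw [← map_pow, hx₀m, map_one]
    have h3 : orderOf (ρ x₀) ∣ Nat.gcd m p :=
      Nat.dvd_gcd (orderOf_dvd_of_pow_eq_one h2) (orderOf_dvd_of_pow_eq_one h1)
    rw [hcop, Nat.dvd_one, orderOf_eq_one_iff] at h3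
    exact h3
  have hφm : (c x₀) ^ m = 1 := by rw [← map_pow, hx₀m, map_one]
  have hφ1 : c x₀ = 1 :=
    aut_eq_one_of_abelianization hcenD hDexp' (c x₀) m hφm hcop hρ1
  have hcenx : ∀ d ∈ D, (x₀ : G) * d * (x₀ : G)⁻¹ = d := by
    intro d hd
    have h1 := congrArg (fun ψ : MulAut ↥D => ((ψ ⟨d, hd⟩ : D) : G)) hφ1
    exact h1
  have hordx : (orderOf (x₀ : G)).Coprime p := by
    rw [Subgroup.orderOf_coe]
    exact Nat.Coprime.coprime_dvd_left (orderOf_dvd_of_pow_eq_one hx₀m) hcop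
  have hcenR := hDfaith (x₀ : G) (hA x₀.2) hordx hcenx
  have hmem : (x₀ : G) ∈ A ⊓ Subgroup.centralizer (R : Set G) := by
    refine Subgroup.mem_inf.mpr ⟨x₀.2, ?_⟩
    rw [Subgroup.mem_centralizer_iff]
    intro r hr
    have h1 := hcenR r hr
    rw [mul_inv_eq_iff_eq_mul] at h1
    exact h1.symm
  rw [hfaith, Subgroup.mem_bot] at hmem
  refine ⟨e, ?_⟩
  apply Subtype.ext
  rw [Subgroup.coe_pow, Subgroup.coe_one]
  have h5 : (x₀ : G) = x ^ (p ^ e) := by
    rw [hx₀, Subgroup.coe_pow]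
  rw [← h5, hmem]

end Cfsg.Agent.S1449
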