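import Cfsg.Statements.S1454
import Cfsg.Agent.H3.NarrowAux
import Cfsg.Agent.H3.NarrowSect
import Cfsg.Agent.S0640
import Cfsg.Agent.S1448
import Cfsg.Agent.H14.Cores

set_option autoImplicit false
open Cfsg

namespace Cfsg.Agent.S1454

open scoped commutatorElement

/-- Let G be a finite group, p an odd prime, R a narrow p-subgroup and A a solvable subgroup of odd order normalizing R with A ∩ C_G(R) = 1. Then [A, A] ≤ O_p(A) and the index of O_p(A) in A is coprime to p; if R has an elementary abelian subgroup of order p ^ 3 then the order of every element of A of order coprime to p divides p − 1; and if the order of A is a prime not dividing p(p − 1), then 2·#A divides p + 1, and if in addition [R, A] = R and R is non-abelian then #R = p ^ 3. -/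
theorem result {G : Type*} [Group G] [Finite G] (p : ℕ) [Fact p.Prime] (hp : p ≠ 2) (R A : Subgroup G) (hR : IsPGroup p R) (hRn : Cfsg.IsNarrow p R)
    (hA : (A ≤ Subgroup.normalizer (R : Set G))) (hAs : Group.IsSolvable A) (hAodd : Odd (Nat.card A)) (hfaith : A ⊓ Subgroup.centralizer (R : Set G) = ⊥) :
    (commutator ↥A ≤ Cfsg.pCore p ↥A ∧ ((Cfsg.pCore p ↥A).index).Coprime p) ∧
      (¬ Cfsg.PRankLE p 2 R → ∀ a ∈ A, (orderOf a).Coprime p → orderOf a ∣ p - 1) ∧
      ((Nat.card A).Prime → ¬ Nat.card A ∣ p * (p - 1) →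
        2 * Nat.card A ∣ p + 1 ∧ (⁅R, A⁆ = R → ¬ IsMulCommutative R → Nat.card R = p ^ 3)) := by
  have hpp : p.Prime := Fact.out
  set N := Subgroup.normalizer (R : Set G) with hN
  have hnorm : ∀ a ∈ A, ∀ x ∈ R, a * x * a⁻¹ ∈ R :=
    fun a ha x hx => (Subgroup.mem_normalizer_iff.mp (hA ha) x).mp hx
  have hfaith' : ∀ a ∈ A, (∀ x ∈ R, a * x * a⁻¹ = x) → a = 1 := by
    intro a ha hc
    have h1 : a ∈ A ⊓ Subgroup.centralizer (R : Set G) := by
      refine Subgroup.mem_inf.mpr ⟨ha, ?_⟩
      rw [Subgroup.mem_centralizer_iff]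
      intro x hx
      have := hc x hx
      rw [mul_inv_eq_iff_eq_mul] at this
      exact this.symm
    rw [hfaith, Subgroup.mem_bot] at h1
    exact h1
  have hcommA : ⁅A, A⁆ ≤ A := by
    rw [Subgroup.commutator_le]
    intro a ha b hb
    exact A.mul_mem (A.mul_mem (A.mul_mem ha hb) (A.inv_mem ha)) (A.inv_mem hb)
  have hK : ∀ y ∈ ⁅A, A⁆, (orderOf y).Coprime p → y = 1 := by
    intro y hy hcop
    apply hfaith' y (hcommA hy)
    by_cases hrk : Cfsg.PRankLE p 2 ↥R
    · exact Cfsg.Agent.H3.commutator_centralizes_of_rank_two p hp R A hR hrk hA hAs hAodd y hy hcop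
    · exact (Cfsg.Agent.H3.narrow_core hp R hR hRn hrk).1 y (Subgroup.commutator_mono hA hA hy) hcop
  have hcp : IsPGroup p (commutator ↥A) := by
    intro x
    have hxG : ((x : ↥A) : G) ∈ ⁅A, A⁆ := by
      have h1 : Subgroup.map A.subtype (commutator ↥A) = ⁅A, A⁆ := by
        rw [commutator_def, Subgroup.map_commutator, ← MonoidHom.range_eq_map,
          Subgroup.range_subtype]
      rw [← h1]; exact ⟨x, x.2, rfl⟩
    set y : G := ((x : ↥A) : G) with hy
    obtain ⟨j, m, hnd, hnm⟩ :=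
      Nat.exists_eq_pow_mul_and_not_dvd (orderOf_pos y).ne' p hpp.ne_one
    have hcop : m.Coprime p := ((Nat.Prime.coprime_iff_not_dvd hpp).mpr hnd).symm
    have hym : (y ^ (p ^ j)) ^ m = 1 := by rw [← pow_mul, ← hnm, pow_orderOf_eq_one]
    have h2 := hK (y ^ (p ^ j)) (Subgroup.pow_mem _ hxG _)
      (Nat.Coprime.coprime_dvd_left (orderOf_dvd_of_pow_eq_one hym) hcop)
    refine ⟨j, Subtype.ext (Subtype.ext ?_)⟩
    rw [Subgroup.coe_pow, Subgroup.coe_pow]
    exact h2
  have hcle : commutator ↥A ≤ Cfsg.pCore p ↥A := Cfsg.Agent.H14.le_pCore inferInstance hcp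
  refine ⟨⟨hcle, ?_⟩, ?_, ?_⟩
  · obtain ⟨S, hS⟩ := IsPGroup.exists_le_sylow (Cfsg.Agent.H14.pCore_isPGroup p ↥A)
    have hSn : (S : Subgroup ↥A).Normal := by
      refine ⟨fun y hy g => ?_⟩
      have hyg : g * y * g⁻¹ = ⁅g, y⁆ * y := by
        rw [commutatorElement_def]; group
      rw [hyg]
      refine Subgroup.mul_mem _ (hS (hcle ?_)) hy
      rw [commutator_def]
      exact Subgroup.commutator_mem_commutator (Subgroup.mem_top g) (Subgroup.mem_top y)
    have hSle : (S : Subgroup ↥A) ≤ Cfsg.pCore p ↥A := Cfsg.Agent.H14.le_pCore hSn S.isPGroup'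
    have hSeq : Cfsg.pCore p ↥A = S := le_antisymm hS hSle
    rw [hSeq]
    exact ((Nat.Prime.coprime_iff_not_dvd hpp).mpr S.not_dvd_index).symm
  · intro hrk a ha hcop
    have h1 := (Cfsg.Agent.H3.narrow_core hp R hR hRn hrk).2 a (hA ha) hcop
    have h2 := hfaith' (a ^ (p - 1)) (A.pow_mem ha _) h1
    exact orderOf_dvd_of_pow_eq_one h2
  · intro hAprime hnd
    have hqp : Nat.card A ≠ p := by
      intro h; apply hnd; rw [h]; exact dvd_mul_right p (p - 1)
    have hqp1 : ¬ Nat.card A ∣ p - 1 := fun h => hnd (dvd_mul_of_dvd_right h p)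
    have hcopA : (Nat.card A).Coprime p := (Nat.coprime_primes hAprime hpp).mpr hqp
    haveI : Fact (Nat.card A).Prime := ⟨hAprime⟩
    have hrk : Cfsg.PRankLE p 2 ↥R := by
      by_contra hrk
      obtain ⟨a', ha'⟩ := exists_prime_orderOf_dvd_card' (G := ↥A) (Nat.card A) (dvd_refl _)
      have hord : orderOf (a' : G) = Nat.card A := by rw [Subgroup.orderOf_coe]; exact ha'
      have hcop : (orderOf (a' : G)).Coprime p := by rw [hord]; exact hcopA
      have h1 := (Cfsg.Agent.H3.narrow_core hp R hR hRn hrk).2 (a' : G) (hA a'.2) hcop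
      have h2 := hfaith' _ (A.pow_mem a'.2 _) h1
      have h3 : Nat.card A ∣ p - 1 := by rw [← hord]; exact orderOf_dvd_of_pow_eq_one h2
      exact hqp1 h3
    have hqdvd : Nat.card A ∣ p ^ 2 - 1 := by
      let c := Cfsg.Agent.H3.conjHom A R hnorm
      have hinj : Function.Injective c := by
        rw [← MonoidHom.ker_eq_bot_iff, eq_bot_iff]
        intro a ha
        rw [MonoidHom.mem_ker] at ha
        rw [Subgroup.mem_bot]
        apply Subtype.ext
        apply hfaith' (a : G) a.2
        intro x hx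
        have h1 := congrArg (fun ψ : MulAut ↥R => ((ψ ⟨x, hx⟩ : ↥R) : G)) ha
        exact h1
      have h1 : Nat.card A ∣ Nat.card (MulAut ↥R) := by
        have h2 : Nat.card c.range = Nat.card A :=
          (Nat.card_congr (MonoidHom.ofInjective hinj).toEquiv).symm
        rw [← h2]; exact Subgroup.card_subgroup_dvd_card c.range
      exact (Cfsg.Agent.S0640.result hp hR hrk (Nat.card A) hAprime hqp h1).1
    refine ⟨?_, ?_⟩
    · have h1 : p ^ 2 - 1 = (p + 1) * (p - 1) := by
        have := Nat.sq_sub_sq p 1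
        simpa using this
      rw [h1] at hqdvd
      have h2 : Nat.card A ∣ p + 1 := by
        rcases (Nat.Prime.dvd_mul hAprime).mp hqdvd with h | h
        · exact h
        · exact absurd h hqp1
      have h3 : 2 ∣ p + 1 := by
        rcases hpp.eq_two_or_odd' with h | h
        · exact absurd h hp
        · exact even_iff_two_dvd.mp (Odd.add_one h)
      exact Nat.Coprime.mul_dvd_of_dvd_of_dvd (Nat.coprime_two_left.mpr hAodd) h3 h2
    · intro hRA hnc
      have hR1 : R ≠ ⊥ := by
        intro h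
        apply hnc
        refine ⟨⟨fun a b => ?_⟩⟩
        have hbot : ∀ x ∈ R, x = 1 := by
          intro x hx
          have h3 : x ∈ (⊥ : Subgroup G) := h ▸ hx
          exact Subgroup.mem_bot.mp h3
        have ha : (a : G) = 1 := hbot _ a.2
        have hb : (b : G) = 1 := hbot _ b.2
        apply Subtype.ext
        rw [Subgroup.coe_mul, Subgroup.coe_mul, ha, hb]
      obtain ⟨-, hstruct⟩ := Cfsg.Agent.S1448.result p hp R A hR hR1 hrk hA hcopA hAodd hRA
      rcases hstruct with hab | ⟨R₁, R₂, hsup, hcomm12, hR₁nc, hR₁card, hR₁exp, hR₂cyc, hcl⟩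
      · exact absurd hab hnc
      have hR₁R : R₁ ≤ R := by rw [← hsup]; exact le_sup_left
      have hR₂R : R₂ ≤ R := by rw [← hsup]; exact le_sup_right
      have hR₁exp' : ∀ x ∈ R₁, x ^ p = 1 := by
        intro x hx
        have h1 := Monoid.pow_exponent_eq_one (⟨x, hx⟩ : ↥R₁)
        rw [hR₁exp] at h1
        exact congrArg Subtype.val h1
      have hdec : ∀ x ∈ R, ∃ r₁ ∈ R₁, ∃ r₂ ∈ R₂, x = r₁ * r₂ := by
        intro x hx
        rw [← hsup] at hx
        exact Cfsg.Agent.H3.mem_sup_of_normalizes R₁ R₂ (by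
          intro b hb a ha
          have h2 : b * a * b⁻¹ = a := by rw [← hcomm12 a ha b hb, mul_inv_cancel_right]
          rw [h2]; exact ha) hx
      have hcommle : ⁅R₁, R₁⁆ ≤ R₁ := by
        rw [Subgroup.commutator_le]
        intro a ha b hb
        exact R₁.mul_mem (R₁.mul_mem (R₁.mul_mem ha hb) (R₁.inv_mem ha)) (R₁.inv_mem hb)
      have hOmega : ∀ x ∈ R, x ^ p = 1 → x ∈ R₁ := by
        intro x hx hxp
        obtain ⟨r₁, hr₁, r₂, hr₂, rfl⟩ := hdec x hx
        have hc : Commute r₁ r₂ := hcomm12 r₁ hr₁ r₂ hr₂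
        rw [hc.mul_pow, hR₁exp' r₁ hr₁, one_mul] at hxp
        have h1 : r₂ ∈ Subgroup.closure {x : G | x ∈ R₂ ∧ x ^ p = 1} :=
          Subgroup.subset_closure ⟨hr₂, hxp⟩
        rw [hcl] at h1
        exact R₁.mul_mem hr₁ (hcommle h1)
      have hR₁n : ∀ g ∈ N, ∀ y ∈ R₁, g * y * g⁻¹ ∈ R₁ := by
        intro g hg y hy
        apply hOmega _ ((Subgroup.mem_normalizer_iff.mp hg y).mp (hR₁R hy))
        rw [conj_pow, hR₁exp' y hy]; group
      obtain ⟨g₀', hg₀'⟩ := IsCyclic.exists_generator (α := ↥R₂)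
      have hgen : ∀ x ∈ R, ∃ k : ℤ, ∃ y ∈ R₁, x = y * (g₀' : G) ^ k := by
        intro x hx
        obtain ⟨r₁, hr₁, r₂, hr₂, rfl⟩ := hdec x hx
        obtain ⟨k, hk⟩ := Subgroup.mem_zpowers_iff.mp (hg₀' ⟨r₂, hr₂⟩)
        refine ⟨k, r₁, hr₁, ?_⟩
        have h1 := congrArg Subtype.val hk
        rw [Subgroup.coe_zpow] at h1
        rw [h1]
      have hsect : ∀ a ∈ A, ∀ x ∈ R, ⁅a, x⁆ ∈ R₁ := by
        intro a ha
        apply Cfsg.Agent.H3.section_cyclic N R R₁ Subgroup.le_normalizer hR₁R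
          (fun g hg x hx => (Subgroup.mem_normalizer_iff.mp hg x).mp hx) hR₁n hR (g₀' : G)
          (hR₂R g₀'.2) hgen a (hA ha)
        intro m
        have h1 : orderOf a ∣ Nat.card A := by
          rw [← Subgroup.orderOf_mk a ha]; exact orderOf_dvd_natCard _
        apply Nat.Coprime.coprime_dvd_left h1
        rcases Nat.eq_zero_or_pos m with h0 | hpos
        · rw [h0, pow_zero, Nat.totient_one]; exact Nat.coprime_one_right _
        · rw [Nat.totient_prime_pow hpp hpos]
          exact Nat.Coprime.mul_right (Nat.Coprime.pow_right _ hcopA)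
            ((Nat.Prime.coprime_iff_not_dvd hAprime).mpr hqp1)
      have hRle : R ≤ R₁ := by
        calc R = ⁅R, A⁆ := hRA.symm
          _ ≤ R₁ := by
            rw [Subgroup.commutator_le]
            intro x hx a ha
            have h1 := hsect a ha x hx
            have h2 : ⁅x, a⁆ = ⁅a, x⁆⁻¹ := (commutatorElement_inv a x).symm
            rw [h2]; exact R₁.inv_mem h1
      have hReq : R = R₁ := le_antisymm hRle hR₁R
      rw [hReq]; exact hR₁card

end Cfsg.Agent.S1454
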