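import Cfsg.Statements.S1460
import Cfsg.Agent.H31.SZ

set_option autoImplicit false
open Cfsg

namespace Cfsg.Agent.S1460

open Cfsg.Agent.H31

/-- If `s ∈ N` has order dividing `m`, prime to `|K|`, and `s ≡ k` modulo `N'` for some `k ∈ K`,
then `s ∈ N'`. -/
theorem comm_aux {G : Type*} [Group G] [Finite G] (K N : Subgroup G) (m : ℕ)
    (hKcop : (Nat.card K).Coprime m) (s : G) (hsN : s ∈ N) (hsm : s ^ m = 1) (w' : N)
    (hw' : w' ∈ commutator N) (hk : (w' : G)⁻¹ * s ∈ K) : s ∈ ⁅N, N⁆ := by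
  rw [← Subgroup.map_subtype_commutator]
  have hw'' : Abelianization.of w' = 1 := by
    rw [← Abelianization.ker_of, MonoidHom.mem_ker] at hw'
    exact hw'
  suffices hsuff : Abelianization.of (⟨s, hsN⟩ : N) = 1 by
    refine ⟨⟨s, hsN⟩, ?_, rfl⟩
    have h8 : (⟨s, hsN⟩ : N) ∈ (Abelianization.of).ker := MonoidHom.mem_ker.mpr hsuff
    rw [Abelianization.ker_of] at h8
    exact h8
  have hρ : Abelianization.of (⟨s, hsN⟩ : N) = Abelianization.of (w'⁻¹ * ⟨s, hsN⟩) := by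
    rw [map_mul, map_inv, hw'', inv_one, one_mul]
  have hs'a : (⟨s, hsN⟩ : N) ^ m = 1 := Subtype.ext hsm
  have ho1 : orderOf (Abelianization.of (⟨s, hsN⟩ : N)) ∣ m := by
    apply orderOf_dvd_of_pow_eq_one
    rw [← map_pow, hs'a, map_one]
  have ho2 : orderOf (Abelianization.of (⟨s, hsN⟩ : N)) ∣ Nat.card K := by
    rw [hρ]
    have h4 : orderOf (Abelianization.of (w'⁻¹ * (⟨s, hsN⟩ : N))) ∣ orderOf (w'⁻¹ * (⟨s, hsN⟩ : N)) :=
      orderOf_map_dvd _ _
    have h5 : orderOf (w'⁻¹ * (⟨s, hsN⟩ : N)) = orderOf (((w'⁻¹ * ⟨s, hsN⟩ : N)) : G) :=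
      (Subgroup.orderOf_coe _).symm
    have h6 : orderOf (((w'⁻¹ * ⟨s, hsN⟩ : N)) : G) ∣ Nat.card K :=
      Subgroup.orderOf_dvd_natCard K hk
    rw [h5] at h4
    exact h4.trans h6
  have ho3 : orderOf (Abelianization.of (⟨s, hsN⟩ : N)) ∣ Nat.gcd (Nat.card K) m :=
    Nat.dvd_gcd ho2 ho1
  rw [Nat.Coprime.gcd_eq_one hKcop] at ho3
  exact orderOf_eq_one_iff.mp (Nat.dvd_one.mp ho3)

section

variable {G : Type*} [Group G] [Finite G] [Group.IsSolvable G] (K U H : Subgroup G) [hKn : K.Normal]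
  (hKU : K ⊔ U = ⊤) (hH : H ≤ U) (hcop : (Nat.card H).Coprime (Nat.card K))

include hKU hH hcop in
theorem partc (g : G) (hg : H.map (MulAut.conj g).toMonoidHom ≤ U) :
    ∃ u ∈ U, ∃ c ∈ K ⊓ Subgroup.centralizer (H : Set G), g = u * c := by
  -- decompose g = u₀ * k
  have hx : g ∈ (↑(U ⊔ K) : Set G) := by
    rw [sup_comm, hKU]; exact Subgroup.mem_top g
  rw [Subgroup.mul_normal] at hx
  obtain ⟨u₀, hu₀, k, hk, rfl⟩ := Set.mem_mul.mp hx
  have hkH : ∀ h ∈ H, k * h * k⁻¹ ∈ U := by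
    intro h hh
    have h1 : u₀ * k * h * (u₀ * k)⁻¹ ∈ U := hg ⟨h, hh, rfl⟩
    have h2 : k * h * k⁻¹ = u₀⁻¹ * (u₀ * k * h * (u₀ * k)⁻¹) * u₀ := by group
    rw [h2]
    exact U.mul_mem (U.mul_mem (U.inv_mem hu₀) h1) hu₀
  -- Schur–Zassenhaus in `U`
  have hsol : Group.IsSolvable ↥(K.subgroupOf U) := inferInstance
  have hcardN : Nat.card (K.subgroupOf U) ∣ Nat.card K :=
    Subgroup.card_comap_dvd_of_injective K U.subtype U.subtype_injective
  have hcardH₁ : Nat.card (H.subgroupOf U) = Nat.card H :=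
    Nat.card_congr (Subgroup.subgroupOfEquivOfLe hH).toEquiv
  have hle2 : H.map (MulAut.conj k).toMonoidHom ≤ U := by
    rintro _ ⟨h, hh, rfl⟩
    exact hkH h hh
  have hcardH₂ : Nat.card ((H.map (MulAut.conj k).toMonoidHom).subgroupOf U) = Nat.card H := by
    rw [Nat.card_congr (Subgroup.subgroupOfEquivOfLe hle2).toEquiv,
      Subgroup.card_map_of_injective (MulAut.conj k).injective]
  obtain ⟨n, hn, hneq⟩ := sz_conj (K.subgroupOf U) (H.subgroupOf U)
    ((H.map (MulAut.conj k).toMonoidHom).subgroupOf U) hsol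
    (by rw [hcardH₁]; exact Nat.Coprime.coprime_dvd_left hcardN hcop.symm)
    (by rw [hcardH₂, hcardH₁])
    (by
      intro x hx
      rw [Subgroup.mem_subgroupOf] at hx
      obtain ⟨h, hh, hhx⟩ := hx
      have hhx' : k * h * k⁻¹ = (x : G) := hhx
      have hhU : h ∈ U := hH hh
      have h1 : k * h * k⁻¹ * h⁻¹ ∈ K := by
        have : k * h * k⁻¹ * h⁻¹ = k * (h * k⁻¹ * h⁻¹) := by group
        rw [this]; exact K.mul_mem hk (hKn.conj_mem _ (K.inv_mem hk) h)
      have h2 : k * h * k⁻¹ * h⁻¹ ∈ U := by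
        rw [hhx']; exact U.mul_mem x.2 (U.inv_mem hhU)
      have h3 : x = (⟨k * h * k⁻¹ * h⁻¹, h2⟩ : U) * ⟨h, hhU⟩ := by
        apply Subtype.ext
        show (x : G) = k * h * k⁻¹ * h⁻¹ * h
        rw [← hhx']; group
      rw [h3]
      exact Subgroup.mul_mem _ (Subgroup.mem_sup_left (Subgroup.mem_subgroupOf.mpr h1))
        (Subgroup.mem_sup_right (Subgroup.mem_subgroupOf.mpr hh)))
  -- `d = n`, `c = d⁻¹ k`
  have hnK : (n : G) ∈ K := Subgroup.mem_subgroupOf.mp hn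
  have hconj : ∀ h ∈ H, ((n : G)⁻¹ * k)⁻¹ * h * ((n : G)⁻¹ * k) ∈ H := by
    intro h hh
    have h1 : (⟨(n : G) * h * (n : G)⁻¹, U.mul_mem (U.mul_mem n.2 (hH hh)) (U.inv_mem n.2)⟩ : U) ∈
        (H.subgroupOf U).map (MulAut.conj n).toMonoidHom :=
      ⟨⟨h, hH hh⟩, Subgroup.mem_subgroupOf.mpr hh, rfl⟩
    rw [← hneq, Subgroup.mem_subgroupOf] at h1
    obtain ⟨h', hh', hh'eq⟩ := h1
    have hh'eq' : k * h' * k⁻¹ = (n : G) * h * (n : G)⁻¹ := hh'eq
    have : ((n : G)⁻¹ * k)⁻¹ * h * ((n : G)⁻¹ * k) = k⁻¹ * ((n : G) * h * (n : G)⁻¹) * k := by group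
    rw [this, ← hh'eq']
    have : k⁻¹ * (k * h' * k⁻¹) * k = h' := by group
    rw [this]; exact hh'
  have hcK : (n : G)⁻¹ * k ∈ K := K.mul_mem (K.inv_mem hnK) hk
  have hcC : (n : G)⁻¹ * k ∈ Subgroup.centralizer (H : Set G) := by
    rw [Subgroup.mem_centralizer_iff]
    intro h hh
    have h1 := hconj h hh
    have h2 : ((n : G)⁻¹ * k)⁻¹ * h * ((n : G)⁻¹ * k) * h⁻¹ = 1 := by
      apply eq_one_of_mem_of_coprime K H hcop.symm
      · have : ((n : G)⁻¹ * k)⁻¹ * h * ((n : G)⁻¹ * k) * h⁻¹ =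
            ((n : G)⁻¹ * k)⁻¹ * (h * ((n : G)⁻¹ * k) * h⁻¹) := by group
        rw [this]
        exact K.mul_mem (K.inv_mem hcK) (hKn.conj_mem _ hcK h)
      · exact H.mul_mem h1 (H.inv_mem hh)
    have h3 : h * ((n : G)⁻¹ * k) =
        ((n : G)⁻¹ * k) * (((n : G)⁻¹ * k)⁻¹ * h * ((n : G)⁻¹ * k) * h⁻¹) * h := by group
    rw [h3, h2, mul_one]
  refine ⟨u₀ * n, U.mul_mem hu₀ n.2, (n : G)⁻¹ * k, ⟨hcK, hcC⟩, ?_⟩
  group

end

/-- Let G be a finite solvable group, K a normal subgroup and U a subgroup with G = KU, and H ≤ U a subgroup whose order is coprime to that of K. Then H ∩ G' = H ∩ U'; N_G(H) is generated by K ∩ C_G(H) and U ∩ N_G(H); and if gHg⁻¹ ≤ U for some g ∈ G then g = u c with u ∈ U and c ∈ K ∩ C_G(H). -/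
theorem result {G : Type*} [Group G] [Finite G] [Group.IsSolvable G] (K U H : Subgroup G) [K.Normal] (hKU : K ⊔ U = ⊤) (hH : H ≤ U) (hcop : (Nat.card H).Coprime (Nat.card K)) :
    H ⊓ commutator G = H ⊓ ⁅U, U⁆ ∧
      Subgroup.normalizer (H : Set G) = (K ⊓ Subgroup.centralizer (H : Set G)) ⊔ (U ⊓ Subgroup.normalizer (H : Set G)) ∧
      ∀ g : G, H.map (MulAut.conj g).toMonoidHom ≤ U → ∃ u ∈ U, ∃ c ∈ K ⊓ Subgroup.centralizer (H : Set G), g = u * c := by
  have hc := partc K U H hKU hH hcop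
  refine ⟨?_, ?_, hc⟩
  · apply le_antisymm
    · rintro h ⟨hhH, hhG⟩
      refine ⟨hhH, ?_⟩
      have hmapU : U.map (QuotientGroup.mk' K) = ⊤ := by
        rw [eq_top_iff]
        intro y _
        obtain ⟨x, rfl⟩ := QuotientGroup.mk'_surjective K y
        have hx : x ∈ (↑(U ⊔ K) : Set G) := by
          rw [sup_comm, hKU]; exact Subgroup.mem_top x
        rw [Subgroup.mul_normal] at hx
        obtain ⟨u, hu, k, hk, rfl⟩ := Set.mem_mul.mp hx
        refine ⟨u, hu, ?_⟩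
        have hk1 : (QuotientGroup.mk' K) k = 1 := (QuotientGroup.eq_one_iff k).mpr hk
        rw [map_mul, hk1, mul_one]
      have h1 : (QuotientGroup.mk' K) h ∈ (⁅U, U⁆).map (QuotientGroup.mk' K) := by
        rw [Subgroup.map_commutator, hmapU]
        have h2 : h ∈ commutator G := hhG
        rw [commutator_def] at h2
        have h3 := Subgroup.mem_map_of_mem (QuotientGroup.mk' K) h2
        rw [Subgroup.map_commutator] at h3
        exact Subgroup.commutator_mono le_top le_top h3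
      obtain ⟨w, hw, hws⟩ := h1
      have hk : w⁻¹ * h ∈ K := QuotientGroup.eq.mp hws
      rw [← Subgroup.map_subtype_commutator] at hw
      obtain ⟨w', hw', rfl⟩ := hw
      have hhm : h ^ Nat.card H = 1 := by
        have := Subgroup.orderOf_dvd_natCard H hhH
        exact orderOf_dvd_iff_pow_eq_one.mp this
      exact Cfsg.Agent.S1460.comm_aux K U (Nat.card H) hcop.symm h (hH hhH) hhm w' hw' hk
    · rintro h ⟨hhH, hhU⟩
      refine ⟨hhH, ?_⟩
      have : ⁅U, U⁆ ≤ commutator G := by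
        rw [commutator_def]; exact Subgroup.commutator_mono le_top le_top
      exact this hhU
  · apply le_antisymm
    · intro g hg
      have hgU : H.map (MulAut.conj g).toMonoidHom ≤ U := by
        rintro _ ⟨h, hh, rfl⟩
        exact hH ((Subgroup.mem_normalizer_iff.mp hg h).mp hh)
      obtain ⟨u, hu, c, hcm, rfl⟩ := hc g hgU
      have hcN : c ∈ Subgroup.normalizer (H : Set G) :=
        Subgroup.centralizer_le_normalizer (H : Set G) hcm.2
      have huN : u ∈ Subgroup.normalizer (H : Set G) := by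
        have : u = (u * c) * c⁻¹ := by group
        rw [this]
        exact Subgroup.mul_mem _ hg (Subgroup.inv_mem _ hcN)
      exact Subgroup.mul_mem _ (Subgroup.mem_sup_right ⟨hu, huN⟩) (Subgroup.mem_sup_left hcm)
    · apply sup_le
      · exact inf_le_right.trans (Subgroup.centralizer_le_normalizer (H : Set G))
      · exact inf_le_right

end Cfsg.Agent.S1460
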