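import Cfsg.Statements.S1462
import Cfsg.Agent.H31.PLen
import Cfsg.Agent.H31.Cores
import Cfsg.Agent.H31.SZ
import Cfsg.Agent.H31.CN2
import Cfsg.Agent.H60.Cores
import Cfsg.Agent.Lib.Helper30.Omega

set_option autoImplicit false
open Cfsg

namespace Cfsg.Agent.S1462

universe u

theorem elemAb_sup_zpowers {G : Type*} [Group G] (p : ℕ) (E : Subgroup G)
    (hE : Cfsg.IsElementaryAbelian p E) (s : G) (hs : s ^ p = 1) (hc : ∀ e ∈ E, e * s = s * e) :
    Cfsg.IsElementaryAbelian p (E ⊔ Subgroup.zpowers s) := by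
  have hEc : ∀ x ∈ E, ∀ y ∈ E, x * y = y * x := by
    intro x hx y hy
    exact congrArg Subtype.val (hE.1.is_comm.comm ⟨x, hx⟩ ⟨y, hy⟩)
  have hle : E ⊔ Subgroup.zpowers s ≤ Subgroup.centralizer ((E ⊔ Subgroup.zpowers s : Subgroup G) : Set G) := by
    rw [sup_le_iff]
    constructor
    · rw [← Subgroup.le_centralizer_iff, sup_le_iff]
      constructor
      · intro x hx
        rw [Subgroup.mem_centralizer_iff]
        intro y hy
        exact hEc y hy x hx
      · rw [Subgroup.zpowers_le]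
        rw [Subgroup.mem_centralizer_iff]
        intro y hy
        exact hc y hy
    · rw [← Subgroup.le_centralizer_iff, sup_le_iff]
      constructor
      · intro x hx
        rw [Subgroup.mem_centralizer_iff]
        intro y hy
        obtain ⟨k, rfl⟩ := Subgroup.mem_zpowers_iff.mp hy
        exact ((Commute.zpow_left (show Commute s x from (hc x hx).symm) k)).eq
      · rw [Subgroup.zpowers_le]
        rw [Subgroup.mem_centralizer_iff]
        intro y hy
        obtain ⟨k, rfl⟩ := Subgroup.mem_zpowers_iff.mp hy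
        exact ((Commute.zpow_left (Commute.refl s) k)).eq
  have hcomm : ∀ x ∈ E ⊔ Subgroup.zpowers s, ∀ y ∈ E ⊔ Subgroup.zpowers s, x * y = y * x := by
    intro x hx y hy
    have := hle hy
    rw [Subgroup.mem_centralizer_iff] at this
    exact this x hx
  refine ⟨⟨⟨fun a b => Subtype.ext (hcomm a a.2 b b.2)⟩⟩, ?_⟩
  intro a ha
  have key : E ⊔ Subgroup.zpowers s ≤ (Subgroup.centralizer ((E ⊔ Subgroup.zpowers s : Subgroup G) : Set G)) := hle
  -- induction on the sup
  refine Subgroup.closure_induction (p := fun x _ => x ∈ E ⊔ Subgroup.zpowers s → x ^ p = 1)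
    ?_ ?_ ?_ ?_ (show a ∈ Subgroup.closure ((E : Set G) ∪ (Subgroup.zpowers s : Set G)) by
      rw [Subgroup.closure_union, Subgroup.closure_eq, Subgroup.closure_eq]; exact ha) ha
  · intro x hx _
    rcases hx with hx | hx
    · exact hE.2 x hx
    · obtain ⟨k, rfl⟩ := Subgroup.mem_zpowers_iff.mp hx
      rw [← zpow_natCast, ← zpow_mul, mul_comm, zpow_mul, zpow_natCast, hs, one_zpow]
  · intro _; exact one_pow _
  · intro x y hx hy ihx ihy _
    have hx' : x ∈ E ⊔ Subgroup.zpowers s := by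
      rw [Subgroup.closure_union, Subgroup.closure_eq, Subgroup.closure_eq] at hx; exact hx
    have hy' : y ∈ E ⊔ Subgroup.zpowers s := by
      rw [Subgroup.closure_union, Subgroup.closure_eq, Subgroup.closure_eq] at hy; exact hy
    rw [(show Commute x y from hcomm x hx' y hy').mul_pow, ihx hx', ihy hy', one_mul]
  · intro x hx ihx _
    have hx' : x ∈ E ⊔ Subgroup.zpowers s := by
      rw [Subgroup.closure_union, Subgroup.closure_eq, Subgroup.closure_eq] at hx; exact hx
    rw [inv_pow, ihx hx', inv_one]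

theorem elemAb_map {G G' : Type*} [Group G] [Group G'] (p : ℕ) (E : Subgroup G)
    (hE : Cfsg.IsElementaryAbelian p E) (f : G →* G') : Cfsg.IsElementaryAbelian p (E.map f) := by
  have hEc : ∀ x ∈ E, ∀ y ∈ E, x * y = y * x := by
    intro x hx y hy
    exact congrArg Subtype.val (hE.1.is_comm.comm ⟨x, hx⟩ ⟨y, hy⟩)
  refine ⟨⟨⟨fun a b => Subtype.ext ?_⟩⟩, ?_⟩
  · obtain ⟨x, hx, hxa⟩ := Subgroup.mem_map.mp a.2
    obtain ⟨y, hy, hyb⟩ := Subgroup.mem_map.mp b.2
    show (a : G') * b = b * a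
    rw [← hxa, ← hyb, ← map_mul, ← map_mul, hEc x hx y hy]
  · intro a ha
    obtain ⟨x, hx, rfl⟩ := Subgroup.mem_map.mp ha
    rw [← map_pow, hE.2 x hx, map_one]

theorem aux {G : Type u} [Group G] [Finite G] [Group.IsSolvable G] (p : ℕ) [Fact p.Prime] (hp : p ≠ 2)
    (E L : Subgroup G) (hE : Cfsg.IsElementaryAbelian p E)
    (hEmax : ∀ B : Subgroup G, Cfsg.IsElementaryAbelian p B → E ≤ B → B = E)
    (hL : (Nat.card L).Coprime p) (hEL : E ≤ Subgroup.normalizer (L : Set G))
    (K : Subgroup G) [hKn : K.Normal] (hKc : (Nat.card K).Coprime p)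
    (S : Subgroup G) (hS : IsPGroup p S) (hES : E ≤ S) (hSi : ¬ p ∣ S.index)
    (hNK : Subgroup.normalizer (S : Set G) ⊔ K = ⊤)
    (hO : Cfsg.pPrimeCore p (G ⧸ K) = ⊥) : L ≤ K := by
  classical
  have hpp : p.Prime := Fact.out
  obtain ⟨nS, hnS⟩ := IsPGroup.iff_card.mp hS
  have hSKc : (Nat.card S).Coprime (Nat.card K) := by
    rw [hnS]
    exact Nat.Coprime.pow_left _ hKc.symm
  have hSK1 : ∀ c ∈ S, c ∈ K → c = 1 := fun c h1 h2 =>
    H31.eq_one_of_mem_of_coprime S K hSKc c h1 h2
  set π := QuotientGroup.mk' K with hπ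
  have hπs : Function.Surjective π := QuotientGroup.mk'_surjective K
  have hker : π.ker = K := QuotientGroup.ker_mk' K
  -- the image of S is normal
  have hSbn : (S.map π).Normal := by
    rw [← Subgroup.normalizer_eq_top_iff, eq_top_iff]
    intro x _
    obtain ⟨g, rfl⟩ := hπs x
    have hg : g ∈ Subgroup.normalizer (S : Set G) ⊔ K := hNK ▸ Subgroup.mem_top g
    obtain ⟨n, hn, k, hk, rfl⟩ := Subgroup.mem_sup_of_normal_right.mp hg
    have hk1 : π k = 1 := by rw [← MonoidHom.mem_ker, hker]; exact hk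
    rw [map_mul, hk1, mul_one]
    exact Subgroup.le_normalizer_map π (Subgroup.mem_map_of_mem π hn)
  have hSbi : ¬ p ∣ (S.map π).index := fun h => hSi (h.trans (Subgroup.index_map_dvd S hπs))
  have hSbp : IsPGroup p (S.map π) := hS.map π
  have hLbc : (Nat.card (L.map π)).Coprime p :=
    Nat.Coprime.coprime_dvd_left (Subgroup.card_map_dvd L π) hL
  have hLS : ∀ c ∈ L.map π, c ∈ S.map π → c = 1 := by
    obtain ⟨m, hm⟩ := IsPGroup.iff_card.mp hSbp
    intro c h1 h2
    refine H31.eq_one_of_mem_of_coprime (L.map π) (S.map π) ?_ c h1 h2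
    rw [hm]
    exact Nat.Coprime.pow_right _ hLbc
  -- the image of L centralizes the image of E
  have hLE : L.map π ≤ Subgroup.centralizer ((E.map π : Subgroup (G ⧸ K)) : Set (G ⧸ K)) := by
    rintro _ ⟨l, hl, rfl⟩
    rw [Subgroup.mem_centralizer_iff]
    rintro _ ⟨e, he, rfl⟩
    have h1 : l * e * l⁻¹ * e⁻¹ ∈ L := by
      have := (Subgroup.mem_normalizer_iff.mp (hEL he) l⁻¹).mp (L.inv_mem hl)
      have h2 : l * (e * l⁻¹ * e⁻¹) ∈ L := L.mul_mem hl this
      simpa [mul_assoc] using h2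
    have h2 : π (l * e * l⁻¹ * e⁻¹) ∈ S.map π := by
      have he' : π e ∈ S.map π := Subgroup.mem_map_of_mem π (hES he)
      have := hSbn.conj_mem (π e) he' (π l)
      have h3 := (S.map π).mul_mem this ((S.map π).inv_mem he')
      simpa using h3
    have h3 := hLS _ (Subgroup.mem_map_of_mem π h1) h2
    simp only [map_mul, map_inv] at h3
    calc π e * π l = (π l * π e * (π l)⁻¹ * (π e)⁻¹)⁻¹ * (π l * π e) := by group
      _ = π l * π e := by rw [h3]; simp
  have hfix : ∀ x ∈ (S.map π ⊓ Subgroup.centralizer ((E.map π : Subgroup (G ⧸ K)) : Set (G ⧸ K))),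
      orderOf x = p → L.map π ≤ Subgroup.centralizer ({x} : Set (G ⧸ K)) := by
    intro x hx hxo
    obtain ⟨hx1, hx2⟩ := Subgroup.mem_inf.mp hx
    obtain ⟨s, hs, rfl⟩ := Subgroup.mem_map.mp hx1
    have hsp : s ^ p = 1 := by
      apply hSK1 _ (S.pow_mem hs p)
      rw [← hker, MonoidHom.mem_ker, map_pow, ← hxo, pow_orderOf_eq_one]
    have hsc : ∀ e ∈ E, e * s = s * e := by
      intro e he
      have h1 : e * s * e⁻¹ * s⁻¹ ∈ S :=
        S.mul_mem (S.mul_mem (S.mul_mem (hES he) hs) (S.inv_mem (hES he))) (S.inv_mem hs)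
      have h2 : e * s * e⁻¹ * s⁻¹ ∈ K := by
        rw [← hker, MonoidHom.mem_ker]
        rw [Subgroup.mem_centralizer_iff] at hx2
        have := hx2 (π e) (Subgroup.mem_map_of_mem π he)
        simp only [map_mul, map_inv]
        rw [this]; group
      have h3 := hSK1 _ h1 h2
      calc e * s = (e * s * e⁻¹ * s⁻¹) * (s * e) := by group
        _ = s * e := by rw [h3, one_mul]
    have hB := elemAb_sup_zpowers p E hE s hsp hsc
    have hBE := hEmax _ hB le_sup_left
    have hsE : s ∈ E := hBE ▸ (Subgroup.mem_sup_right (Subgroup.mem_zpowers s))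
    refine hLE.trans (Subgroup.centralizer_le ?_)
    rw [Set.singleton_subset_iff]; exact Subgroup.mem_map_of_mem π hsE
  have hcent := Lib.Helper30.centralizer_of_fixed_order_p p hp (S.map π) (E.map π) (L.map π) hSbp
    (Subgroup.map_mono hES) (elemAb_map p E hE π)
    (by rw [Subgroup.normalizer_eq_top]; exact le_top) hLbc hfix
  have hcore : Cfsg.pCore p (G ⧸ K) ≤ S.map π := by
    intro y hy
    exact H31.mem_of_isEl_of_normalizer hpp (S.map π) y
      (H31.isEl_of_isPGroup (H31.isPGroup_pCore p) hy)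
      (by rw [Subgroup.normalizer_eq_top]; trivial) hSbi
  have hsolv : Group.IsSolvable (G ⧸ K) := solvable_of_surjective hπs
  have hL2 : L.map π ≤ Cfsg.pCore p (G ⧸ K) :=
    (hcent.trans (Subgroup.centralizer_le hcore)).trans (H60.centralizer_pCore_le hsolv hO)
  intro l hl
  have h1 : π l = 1 :=
    hLS _ (Subgroup.mem_map_of_mem π hl) (hcore (hL2 (Subgroup.mem_map_of_mem π hl)))
  rw [← hker]; exact h1

/-- Let G be a finite solvable group, p an odd prime with G = O_{p',p,p'}(G), E an elementary abelian p-subgroup contained in no larger elementary abelian p-subgroup of G, and L a subgroup of order coprime to p normalized by E. Then L ≤ O_{p'}(G). -/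
theorem result {G : Type*} [Group G] [Finite G] [Group.IsSolvable G] (p : ℕ) [Fact p.Prime] (hp : p ≠ 2) (hpl : Cfsg.PLengthLE p 1 G) (E L : Subgroup G) (hE : Cfsg.IsElementaryAbelian p E)
    (hEmax : ∀ B : Subgroup G, Cfsg.IsElementaryAbelian p B → E ≤ B → B = E) (hL : (Nat.card L).Coprime p) (hEL : E ≤ Subgroup.normalizer (L : Set G)) :
    L ≤ Cfsg.pPrimeCore p G := by
  classical
  haveI hKn : (Cfsg.pPrimeCore p G).Normal := inferInstance
  have hpp : p.Prime := Fact.out
  have hEp : IsPGroup p E := by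
    intro x
    refine ⟨1, ?_⟩
    rw [pow_one]
    exact Subtype.ext (by rw [Subgroup.coe_pow]; exact hE.2 x x.2)
  obtain ⟨S, hES⟩ := hEp.exists_le_sylow
  obtain ⟨K', hK'n, hK'c, hK'⟩ := H31.exists_normal_pprime_of_plength_one p hpl S
  have hK'le : K' ≤ Cfsg.pPrimeCore p G := H31.le_pPrimeCore hK'n hK'c
  have hNK : Subgroup.normalizer ((S : Subgroup G) : Set G) ⊔ Cfsg.pPrimeCore p G = ⊤ :=
    top_le_iff.mp (hK' ▸ sup_le_sup_left hK'le _)
  have hKc : (Nat.card (Cfsg.pPrimeCore p G)).Coprime p := H31.card_pPrimeCore_coprime p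
  obtain ⟨nS, hnS⟩ := IsPGroup.iff_card.mp S.2
  have hSK : (Nat.card (S : Subgroup G)).Coprime (Nat.card (Cfsg.pPrimeCore p G)) := by
    rw [hnS]
    exact Nat.Coprime.pow_left _ hKc.symm
  exact aux p hp E L hE hEmax hL hEL (Cfsg.pPrimeCore p G) hKc (S : Subgroup G) S.2 hES
    (S.not_dvd_index) hNK (H60.pPrimeCore_quotient_eq_bot p)

end Cfsg.Agent.S1462
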