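import Cfsg.Statements.S1463
import Cfsg.Agent.H31.GL2Line

set_option autoImplicit false
open Cfsg

namespace Cfsg.Agent.S1463

universe u


/-- Let F be a field of odd characteristic p and H a finite subgroup of odd order of GL(2, F) that leaves no 1-dimensional subspace of F² invariant. Then p does not divide the order of H. -/
theorem result {F : Type*} [Field F] (p : ℕ) [Fact p.Prime] [CharP F p] (hp : p ≠ 2)
    (H : Subgroup (GL (Fin 2) F)) [Finite H] (hodd : Odd (Nat.card H))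
    (hirr : ∀ v : Fin 2 → F, v ≠ 0 → ∃ g ∈ H, (g : Matrix (Fin 2) (Fin 2) F).mulVec v ∉ Submodule.span F {v}) :
    ¬ p ∣ Nat.card H := by
  intro hpH
  classical
  have hpp : p.Prime := Fact.out
  obtain ⟨K₀, hK₀⟩ : ∃ K₀ : Subgroup (GL (Fin 2) F),
      K₀ = H ⊓ (Matrix.GeneralLinearGroup.det : GL (Fin 2) F →* Fˣ).ker := ⟨_, rfl⟩
  have hK₀H : K₀ ≤ H := by rw [hK₀]; exact inf_le_left
  haveI : Finite K₀ :=
    Finite.of_injective (Subgroup.inclusion hK₀H) (Subgroup.inclusion_injective hK₀H)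
  have hmem : ∀ g : GL (Fin 2) F,
      g ∈ K₀ ↔ g ∈ H ∧ (g : Matrix (Fin 2) (Fin 2) F).det = 1 := by
    intro g
    rw [hK₀, Subgroup.mem_inf, MonoidHom.mem_ker]
    constructor
    · rintro ⟨h1, h2⟩
      refine ⟨h1, ?_⟩
      have h3 := congrArg Units.val h2
      simpa using h3
    · rintro ⟨h1, h2⟩
      refine ⟨h1, Units.ext ?_⟩
      simpa using h2
  have hdet : ∀ g ∈ K₀, (g : Matrix (Fin 2) (Fin 2) F).det = 1 := fun g hg => ((hmem g).mp hg).2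
  have hoddK : Odd (Nat.card K₀) := Odd.of_dvd_nat hodd (Subgroup.card_dvd_of_le hK₀H)
  have hsq : ∀ g ∈ K₀, g * g = 1 → g = 1 := by
    intro g hg hgg
    have h1 : orderOf g ∣ 2 := orderOf_dvd_of_pow_eq_one (by rw [sq]; exact hgg)
    have h2 : orderOf g ∣ Nat.card K₀ := Subgroup.orderOf_dvd_natCard K₀ hg
    have h3 : orderOf g ∣ Nat.gcd 2 (Nat.card K₀) := Nat.dvd_gcd h1 h2
    rw [Nat.coprime_two_left.mpr hoddK, Nat.dvd_one] at h3
    exact orderOf_eq_one_iff.mp h3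
  obtain ⟨x, hx⟩ := exists_prime_orderOf_dvd_card' (G := H) p hpH
  have hxp : ((x : GL (Fin 2) F) : Matrix (Fin 2) (Fin 2) F) ^ p = 1 := by
    have h1 : x ^ p = 1 := by rw [← hx]; exact pow_orderOf_eq_one x
    have h2 := congrArg (fun t : H => ((t : GL (Fin 2) F) : Matrix (Fin 2) (Fin 2) F)) h1
    simpa using h2
  have hxdet : ((x : GL (Fin 2) F) : Matrix (Fin 2) (Fin 2) F).det = 1 := by
    have h1 := congrArg Matrix.det hxp
    rw [Matrix.det_pow, Matrix.det_one] at h1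
    have h2 : (((x : GL (Fin 2) F) : Matrix (Fin 2) (Fin 2) F).det - 1) ^ p = 0 := by
      rw [sub_pow_char, h1, one_pow, sub_self]
    exact sub_eq_zero.mp (pow_eq_zero_iff hpp.ne_zero |>.mp h2)
  have hxK : (x : GL (Fin 2) F) ∈ K₀ := (hmem _).mpr ⟨x.2, hxdet⟩
  have hpK : p ∣ Nat.card K₀ := by
    have h1 : orderOf (⟨(x : GL (Fin 2) F), hxK⟩ : K₀) = p := by
      rw [Subgroup.orderOf_mk, Subgroup.orderOf_coe]; exact hx
    rw [← h1]; exact orderOf_dvd_natCard _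
  obtain ⟨v₀, ⟨y, hy1, hyv⟩, hall⟩ :=
    (H31.glLineData p K₀ hdet hsq).exists_invariant_line hoddK hpK
  obtain ⟨g, hgH, hg⟩ := hirr v₀.1 v₀.2
  apply hg
  have hyK := y.2
  have hcK : g * (y : GL (Fin 2) F) * g⁻¹ ∈ K₀ := by
    rw [hmem]
    refine ⟨H.mul_mem (H.mul_mem hgH (hK₀H hyK)) (H.inv_mem hgH), ?_⟩
    rw [Units.val_mul, Units.val_mul, Matrix.det_mul, Matrix.det_mul, hdet _ hyK, mul_one,
      ← Matrix.det_mul, ← Units.val_mul, mul_inv_cancel, Units.val_one, Matrix.det_one]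
  have hc1 : (⟨g * (y : GL (Fin 2) F) * g⁻¹, hcK⟩ : K₀) ≠ 1 := by
    intro h
    apply hy1
    have h2 : g * (y : GL (Fin 2) F) * g⁻¹ = 1 := congrArg Subtype.val h
    apply Subtype.ext
    have h3 : (y : GL (Fin 2) F) = g⁻¹ * (g * (y : GL (Fin 2) F) * g⁻¹) * g := by group
    rw [h3, h2]; simp
  have hw0 : (g : Matrix (Fin 2) (Fin 2) F).mulVec v₀.1 ≠ 0 := H31.gl_mulVec_ne_zero g v₀.2
  have hfix : (H31.glLineData p K₀ hdet hsq).act ⟨g * (y : GL (Fin 2) F) * g⁻¹, hcK⟩ ⟨_, hw0⟩ =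
      ⟨_, hw0⟩ := by
    apply Subtype.ext
    show ((g * (y : GL (Fin 2) F) * g⁻¹ : GL (Fin 2) F) : Matrix (Fin 2) (Fin 2) F).mulVec
      ((g : Matrix (Fin 2) (Fin 2) F).mulVec v₀.1) = (g : Matrix (Fin 2) (Fin 2) F).mulVec v₀.1
    have hyv' : ((y : GL (Fin 2) F) : Matrix (Fin 2) (Fin 2) F).mulVec v₀.1 = v₀.1 :=
      congrArg Subtype.val hyv
    rw [Units.val_mul, Units.val_mul, ← Matrix.mulVec_mulVec, ← Matrix.mulVec_mulVec,
      H31.gl_mulVec_inv, hyv']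
  have hpar := (H31.glLineData p K₀ hdet hsq).A2 _ ⟨_, hw0⟩ v₀ hc1 hfix (hall _)
  have hpar' : H31.om v₀.1 ((g : Matrix (Fin 2) (Fin 2) F).mulVec v₀.1) = 0 := hpar
  have hpar'' : H31.om ((g : Matrix (Fin 2) (Fin 2) F).mulVec v₀.1) v₀.1 = 0 := by
    rw [H31.om_symm, hpar', neg_zero]
  obtain ⟨c, hc⟩ := H31.exists_smul_of_om v₀.2 hpar''
  rw [hc]
  exact Submodule.smul_mem _ _ (Submodule.mem_span_singleton_self _)

end Cfsg.Agent.S1463
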