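import Mathlib
import Cfsg.Statements.S1464
import Cfsg.Agent.H58.QStab

set_option autoImplicit false
open Cfsg

namespace Cfsg.Agent.S1464

/-- Let p be an odd prime and G a solvable group of odd order, P a p-subgroup with O_{p'}(G)P normal in G, and A a p-subgroup of N_G(P) with [[P, A], A] = 1. Then the image of A in the quotient N_G(P)/C_G(P) is contained in the p-core of that quotient. -/
theorem result {G : Type*} [Group G] [Finite G] [Group.IsSolvable G] (hodd : Odd (Nat.card G)) (p : ℕ) [Fact p.Prime] (hp : p ≠ 2) (P A : Subgroup G) (hP : IsPGroup p P) (hPn : (Cfsg.pPrimeCore p G ⊔ P).Normal)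
    (hA : IsPGroup p A) (hAN : A ≤ Subgroup.normalizer (P : Set G)) (hquad : ⁅⁅P, A⁆, A⁆ = ⊥) :
    (A.subgroupOf (Subgroup.normalizer (P : Set G))).map
        (QuotientGroup.mk' ((Subgroup.centralizer (P : Set G)).subgroupOf (Subgroup.normalizer (P : Set G))))
      ≤ Cfsg.pCore p _ := by
  have hab : Cfsg.Agent.H24.Ab2 ↥(Subgroup.normalizer (P : Set G)) :=
    (Cfsg.Agent.H58.ab2_of_odd hodd).subgroup _
  have hPN : (P.subgroupOf (Subgroup.normalizer (P : Set G))).Normal := inferInstance
  have hPp : IsPGroup p (P.subgroupOf (Subgroup.normalizer (P : Set G))) :=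
    hP.comap_subtype
  rintro y ⟨x, hx, rfl⟩
  have hq : ⁅⁅P.subgroupOf (Subgroup.normalizer (P : Set G)), Subgroup.zpowers x⁆,
      Subgroup.zpowers x⁆ = ⊥ := by
    apply (Subgroup.map_eq_bot_iff_of_injective _
      (Subgroup.subtype_injective (Subgroup.normalizer (P : Set G)))).mp
    rw [Subgroup.map_commutator, Subgroup.map_commutator, eq_bot_iff, ← hquad]
    have h1 : (P.subgroupOf (Subgroup.normalizer (P : Set G))).map
        (Subgroup.normalizer (P : Set G)).subtype ≤ P := by
      rw [Subgroup.subgroupOf_map_subtype]; exact inf_le_left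
    have h2 : (Subgroup.zpowers x).map (Subgroup.normalizer (P : Set G)).subtype ≤ A := by
      rw [MonoidHom.map_zpowers, Subgroup.zpowers_le]; exact hx
    exact Subgroup.commutator_mono (Subgroup.commutator_mono h1 h2) h2
  obtain ⟨M, hMn, hxM, hMp⟩ := Cfsg.Agent.H58.exists_normal_quad hp hab _
    (P.subgroupOf (Subgroup.normalizer (P : Set G))) hPN hPp rfl x hq
  have hpg : IsPGroup p (M.map (QuotientGroup.mk' ((Subgroup.centralizer (P : Set G)).subgroupOf
      (Subgroup.normalizer (P : Set G))))) := by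
    rintro ⟨z, g, hg, rfl⟩
    obtain ⟨k, hk⟩ := hMp g hg
    refine ⟨k, Subtype.ext ?_⟩
    rw [Subgroup.coe_pow, Subgroup.coe_one, ← map_pow]
    refine (QuotientGroup.eq_one_iff _).mpr ?_
    rw [Subgroup.mem_subgroupOf, Subgroup.mem_centralizer_iff]
    intro y hy
    have hyN : y ∈ Subgroup.normalizer (P : Set G) := Subgroup.le_normalizer hy
    have := Subgroup.mem_centralizer_iff.mp hk ⟨y, hyN⟩
      (by rw [SetLike.mem_coe, Subgroup.mem_subgroupOf]; exact hy)
    exact congrArg Subtype.val this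
  exact (le_sSup ⟨hMn.map _ (QuotientGroup.mk'_surjective _), hpg⟩ :
    M.map (QuotientGroup.mk' ((Subgroup.centralizer (P : Set G)).subgroupOf
      (Subgroup.normalizer (P : Set G)))) ≤ Cfsg.pCore p _) ⟨x, hxM, rfl⟩

end Cfsg.Agent.S1464
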