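import Cfsg.Statements.S1546

set_option autoImplicit false
open Cfsg

namespace Cfsg.Agent.S1546

theorem geom_modEq (p q m : ℕ) (h : p ≡ 1 [MOD m]) :
    ∑ i ∈ Finset.range q, p ^ i ≡ q [MOD m] := by
  induction q with
  | zero => simp [Nat.ModEq]
  | succ n ih =>
    rw [Finset.sum_range_succ]
    have h1 : p ^ n ≡ 1 [MOD m] := by simpa using h.pow n
    exact ih.add h1

theorem prime_dvd_mod (p q : ℕ) (hp : p.Prime) (hq : q.Prime) (hq2 : q ≠ 2)
    (hpq : p % q ≠ 1) (r : ℕ) (hr : r.Prime) (hdvd : r ∣ ∑ i ∈ Finset.range q, p ^ i) :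
    r % q = 1 := by
  haveI : Fact r.Prime := ⟨hr⟩
  have hq3 : 3 ≤ q := by
    have := hq.two_le
    omega
  have hN0 : ((∑ i ∈ Finset.range q, p ^ i : ℕ) : ZMod r) = 0 := by
    rw [ZMod.natCast_eq_zero_iff]
    exact hdvd
  have hN0' : (∑ i ∈ Finset.range q, (p : ZMod r) ^ i) = 0 := by
    rw [← hN0]
    push_cast
    rfl
  have hpow : (p : ZMod r) ^ q = 1 := by
    have := geom_sum_mul (p : ZMod r) q
    rw [hN0', zero_mul] at this
    exact (sub_eq_zero.mp this.symm)
  have hp0 : (p : ZMod r) ≠ 0 := by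
    intro h0
    rw [h0, zero_pow (by omega)] at hpow
    exact zero_ne_one hpow
  have hord : orderOf (p : ZMod r) ∣ q := orderOf_dvd_of_pow_eq_one hpow
  rcases (Nat.dvd_prime hq).mp hord with h1 | h1
  · -- order 1
    exfalso
    rw [orderOf_eq_one_iff] at h1
    rw [h1] at hN0'
    simp at hN0'
    rw [ZMod.natCast_eq_zero_iff] at hN0'
    have hrq : r = q := (Nat.prime_dvd_prime_iff_eq hr hq).mp hN0'
    subst hrq
    apply hpq
    have : ((p : ℕ) : ZMod r) = ((1 : ℕ) : ZMod r) := by simpa using h1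
    rw [ZMod.natCast_eq_natCast_iff'] at this
    rw [this]
    exact Nat.mod_eq_of_lt (by omega)
  · have h2 : orderOf (p : ZMod r) ∣ r - 1 := ZMod.orderOf_dvd_card_sub_one hp0
    rw [h1] at h2
    obtain ⟨k, hk⟩ := h2
    have hr2 := hr.two_le
    have : r = 1 + q * k := by omega
    rw [this, Nat.add_mul_mod_self_left]
    exact Nat.mod_eq_of_lt (by omega)

theorem result (p q : ℕ) (hp : p.Prime) (hq : q.Prime) (hp2 : p ≠ 2) (hq2 : q ≠ 2) : Odd ((p ^ q - 1) / (p - 1)) ∧ (p % q = 1 → q ∣ (p ^ q - 1) / (p - 1)) ∧ (p % q ≠ 1 → Nat.Coprime ((p ^ q - 1) / (p - 1)) (p - 1) ∧ ∀ x : ℕ, x ∣ (p ^ q - 1) / (p - 1) → x % q = 1) := by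
  have hp2' := hp.two_le
  have hq2' := hq.two_le
  have hq3 : 3 ≤ q := by omega
  rw [← Nat.geomSum_eq hp2' q]
  have hpodd : p % 2 = 1 := by
    rcases hp.eq_two_or_odd with h | h
    · exact absurd h hp2
    · exact h
  have hqodd : q % 2 = 1 := by
    rcases hq.eq_two_or_odd with h | h
    · exact absurd h hq2
    · exact h
  have hodd : Odd (∑ i ∈ Finset.range q, p ^ i) := by
    rw [Nat.odd_iff]
    have h := geom_modEq p q 2 (by exact hpodd)
    rw [Nat.ModEq] at h
    rw [h, hqodd]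
  refine ⟨hodd, ?_, ?_⟩
  · intro h1
    have h := geom_modEq p q q (by rw [Nat.ModEq, h1]; exact (Nat.mod_eq_of_lt (by omega)).symm)
    rw [Nat.ModEq, Nat.mod_self] at h
    exact Nat.dvd_of_mod_eq_zero h
  · intro hne
    refine ⟨?_, ?_⟩
    · apply Nat.coprime_of_dvd
      intro r hr hrN hrp
      -- p ≡ 1 mod r
      have hp1 : p ≡ 1 [MOD r] := by
        have : (1 : ℕ) ≡ p [MOD r] := (Nat.modEq_iff_dvd' (by omega)).mpr hrp
        exact this.symm
      have h := geom_modEq p q r hp1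
      have hrq : r ∣ q := by
        have h0 : (∑ i ∈ Finset.range q, p ^ i) % r = 0 := Nat.mod_eq_zero_of_dvd hrN
        rw [Nat.ModEq, h0] at h
        exact Nat.dvd_of_mod_eq_zero h.symm
      have hrq' : r = q := (Nat.prime_dvd_prime_iff_eq hr hq).mp hrq
      subst hrq'
      apply hne
      obtain ⟨k, hk⟩ := hrp
      have : p = 1 + r * k := by omega
      rw [this, Nat.add_mul_mod_self_left]
      exact Nat.mod_eq_of_lt (by omega)
    · intro x
      induction x using Nat.recOnMul with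
      | zero =>
        intro h0
        rw [zero_dvd_iff] at h0
        rw [h0] at hodd
        exact absurd hodd (by decide)
      | one => intro _; exact Nat.mod_eq_of_lt (by omega)
      | prime r hr => intro hdvd; exact prime_dvd_mod p q hp hq hq2 hne r hr hdvd
      | mul a b iha ihb =>
        intro hab
        have ha := iha (Dvd.dvd.trans (Dvd.intro b rfl) hab)
        have hb := ihb (Dvd.dvd.trans (Dvd.intro_left a rfl) hab)
        rw [Nat.mul_mod, ha, hb]
        exact Nat.mod_eq_of_lt (by omega)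

end Cfsg.Agent.S1546
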