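import Cfsg.Statements.S1470
import Cfsg.Agent.S1546

set_option autoImplicit false
open Cfsg

namespace Cfsg.Agent.S1470

open Polynomial

theorem eval_charpolyRev' {n : Type*} [Fintype n] [DecidableEq n] {R : Type*} [CommRing R]
    (M : Matrix n n R) (t : R) :
    Polynomial.eval t M.charpolyRev = Matrix.det (1 - t • M) := by
  rw [Matrix.charpolyRev, ← Polynomial.coe_evalRingHom, RingHom.map_det]
  congr 1
  ext i j
  rcases eq_or_ne i j with hij | hij <;> simp [hij] <;> ring

/-- `q` does not divide `p - 1` under the coprimality hypothesis. -/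
theorem coprime_q (p q : ℕ) [hp' : Fact p.Prime] [hq' : Fact q.Prime] (hp : p ≠ 2) (hq : q ≠ 2)
    (hA : Nat.Coprime ((p ^ q - 1) / (p - 1)) (p - 1)) : Nat.Coprime q (p - 1) := by
  rw [Nat.Prime.coprime_iff_not_dvd hq'.out]
  intro hdvd
  have hp1 : 1 ≤ p := hp'.out.one_lt.le
  have hq3 : 1 < q := hq'.out.one_lt
  have hmod : p % q = 1 := by
    obtain ⟨c, hc⟩ := hdvd
    have : p = 1 + q * c := by omega
    rw [this, Nat.add_mul_mod_self_left, Nat.mod_eq_of_lt hq3]
  have h1 := (Cfsg.Agent.S1546.result p q hp'.out hq'.out hp hq).2.1 hmod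
  have h2 : q ∣ Nat.gcd ((p ^ q - 1) / (p - 1)) (p - 1) := Nat.dvd_gcd h1 hdvd
  rw [hA] at h2
  exact hq'.out.one_lt.ne' (Nat.dvd_one.mp h2)

/-- Let p and q be odd primes with (p^q − 1)/(p − 1) coprime to p − 1, and let E be the set of elements a of the field with p ^ q elements whose norm to the prime field is 1 and for which 2 − a also has norm 1. If a⁻¹ ∈ E for every a ∈ E and E has at least two elements, then p ≤ q. -/
theorem result (p q : ℕ) [Fact p.Prime] [Fact q.Prime] (hp : p ≠ 2) (hq : q ≠ 2) (hA : Nat.Coprime ((p ^ q - 1) / (p - 1)) (p - 1))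
    (hinv : ∀ a ∈ {a : GaloisField p q | Algebra.norm (ZMod p) a = 1 ∧ Algebra.norm (ZMod p) (2 - a) = 1}, a⁻¹ ∈ {a : GaloisField p q | Algebra.norm (ZMod p) a = 1 ∧ Algebra.norm (ZMod p) (2 - a) = 1})
    (h2 : 2 ≤ Set.ncard {a : GaloisField p q | Algebra.norm (ZMod p) a = 1 ∧ Algebra.norm (ZMod p) (2 - a) = 1}) :
    p ≤ q := by
  classical
  have hpP : p.Prime := Fact.out
  have hqP : q.Prime := Fact.out
  have hq0 : q ≠ 0 := hqP.ne_zero
  have hcop := coprime_q p q hp hq hA
  set E : Set (GaloisField p q) := {a : GaloisField p q | Algebra.norm (ZMod p) a = 1 ∧ Algebra.norm (ZMod p) (2 - a) = 1} with hE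
  have hfr : Module.finrank (ZMod p) (GaloisField p q) = q := GaloisField.finrank p hq0
  -- an element a ≠ 1 of E
  obtain ⟨a, haE, ha1⟩ : ∃ a ∈ E, a ≠ 1 := Set.exists_ne_of_one_lt_ncard (by omega) 1
  -- a is not in the prime field
  have hnot : ∀ c : ZMod p, a ≠ algebraMap (ZMod p) (GaloisField p q) c := by
    intro c hc
    have h1 : Algebra.norm (ZMod p) a = 1 := haE.1
    rw [hc, Algebra.norm_algebraMap, hfr] at h1
    have hc0 : c ≠ 0 := by
      rintro rfl
      rw [zero_pow hq0] at h1
      exact zero_ne_one h1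
    have h3 : c ^ (p - 1) = 1 := ZMod.pow_card_sub_one_eq_one hc0
    have h4 : c ^ Nat.gcd q (p - 1) = 1 := pow_gcd_eq_one.mpr ⟨h1, h3⟩
    rw [hcop, pow_one] at h4
    rw [h4, map_one] at hc
    exact ha1 hc
  set d : GaloisField p q := 1 - a with hd
  have hd0 : d ≠ 0 := by
    rw [hd]; intro h; apply ha1; rw [sub_eq_zero] at h; exact h.symm
  have hne : ∀ k : ℕ, (1 : GaloisField p q) + (k : GaloisField p q) * d ≠ 0 := by
    intro k hk
    have hk0 : (k : ZMod p) ≠ 0 := by
      intro h
      have : (k : GaloisField p q) = 0 := by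
        rw [← map_natCast (algebraMap (ZMod p) (GaloisField p q)), h, map_zero]
      rw [this, zero_mul, add_zero] at hk
      exact one_ne_zero hk
    apply hnot (1 + (k : ZMod p)⁻¹)
    have hkF : (k : GaloisField p q) ≠ 0 := by
      rw [← map_natCast (algebraMap (ZMod p) (GaloisField p q))]
      exact (_root_.map_ne_zero _).mpr hk0
    have hd' : d = -(k : GaloisField p q)⁻¹ := by
      have : (k : GaloisField p q) * d = -1 := by linear_combination hk
      field_simp
      linear_combination this
    have ha' : a = 1 + (k : GaloisField p q)⁻¹ := by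
      have : a = 1 - d := by rw [hd]; ring
      rw [this, hd']; ring
    rw [ha', map_add, map_one, map_inv₀, map_natCast]
  -- the orbit of a under x ↦ (2 - x)⁻¹
  have horb : ∀ k : ℕ, (1 - d / (1 + (k : GaloisField p q) * d)) ∈ E := by
    intro k
    induction k with
    | zero =>
      have : (1 - d / (1 + ((0 : ℕ) : GaloisField p q) * d)) = a := by
        rw [hd]; simp
      rw [this]; exact haE
    | succ k ih =>
      have hs : (1 : GaloisField p q) + ((k + 1 : ℕ) : GaloisField p q) * d = (1 + (k : GaloisField p q) * d) + d := by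
        push_cast; ring
      have hs0 := hne k
      have hs1 := hne (k + 1)
      rw [hs] at hs1 ⊢
      set s : GaloisField p q := 1 + (k : GaloisField p q) * d with hsdef
      have h2x : (2 - (1 - d / s)) ∈ E := by
        refine ⟨ih.2, ?_⟩
        have : (2 - (2 - (1 - d / s))) = (1 - d / s) := by ring
        rw [this]; exact ih.1
      have h3 := hinv _ h2x
      have h4 : (2 - (1 - d / s))⁻¹ = (1 - d / (s + d)) := by
        have h5 : (2 - (1 - d / s)) = (s + d) / s := by
          field_simp
          ring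
        rw [h5, inv_div, eq_sub_iff_add_eq, ← add_div, div_self hs1]
      rw [h4] at h3
      exact h3
  have hnorm : ∀ k : ℕ, Algebra.norm (ZMod p) ((1 : GaloisField p q) + (k : GaloisField p q) * d) = 1 := by
    intro k
    induction k with
    | zero => simp
    | succ k ih =>
      have hs : (1 : GaloisField p q) + ((k + 1 : ℕ) : GaloisField p q) * d = (1 + (k : GaloisField p q) * d) + d := by
        push_cast; ring
      have h1 := (horb (k + 1)).1
      have hs1 := hne (k + 1)
      rw [hs] at hs1 h1 ⊢
      have h3 : (1 - d / ((1 + (k : GaloisField p q) * d) + d)) * ((1 + (k : GaloisField p q) * d) + d) =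
          (1 + (k : GaloisField p q) * d) := by
        rw [sub_mul, one_mul, div_mul_cancel₀ _ hs1]; ring
      have h4 := congrArg (Algebra.norm (ZMod p)) h3
      rw [map_mul, h1, one_mul, ih] at h4
      exact h4
  -- the polynomial argument
  let b : Module.Basis (Fin q) (ZMod p) (GaloisField p q) := Module.finBasisOfFinrankEq _ _ hfr
  set M : Matrix (Fin q) (Fin q) (ZMod p) := Algebra.leftMulMatrix b d with hM
  have hdet : M.det ≠ 0 := by
    rw [hM, ← Algebra.norm_eq_matrix_det b d]
    exact Algebra.norm_ne_zero_iff.mpr hd0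
  set Q : (ZMod p)[X] := M.charpolyRev - 1 with hQ
  have hroot : ∀ t : ZMod p, Q.IsRoot t := by
    intro t
    rw [Polynomial.IsRoot.def, hQ, Polynomial.eval_sub, Polynomial.eval_one, eval_charpolyRev', sub_eq_zero]
    have h1 : (1 : Matrix (Fin q) (Fin q) (ZMod p)) - t • M =
        Algebra.leftMulMatrix b (1 - algebraMap (ZMod p) (GaloisField p q) t * d) := by
      rw [map_sub, map_one, map_mul, AlgHom.commutes, hM, Algebra.algebraMap_eq_smul_one, smul_mul_assoc, one_mul]
    rw [h1, ← Algebra.norm_eq_matrix_det b]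
    have h2 := hnorm (-t).val
    have h3 : (((-t).val : ℕ) : GaloisField p q) = - algebraMap (ZMod p) (GaloisField p q) t := by
      rw [← map_natCast (algebraMap (ZMod p) (GaloisField p q)), ZMod.natCast_zmod_val, map_neg]
    rw [h3] at h2
    have h4 : (1 : GaloisField p q) + -(algebraMap (ZMod p) (GaloisField p q)) t * d =
        1 - algebraMap (ZMod p) (GaloisField p q) t * d := by ring
    rw [h4] at h2
    exact h2
  have hcoeff : Q.coeff q ≠ 0 := by
    rw [hQ, Polynomial.coeff_sub, ← Matrix.reverse_charpoly, Polynomial.coeff_reverse,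
      Matrix.charpoly_natDegree_eq_dim, Fintype.card_fin, Polynomial.revAt_le le_rfl, Nat.sub_self,
      Polynomial.coeff_one, if_neg hq0, sub_zero]
    intro h0
    apply hdet
    rw [Matrix.det_eq_sign_charpoly_coeff, h0, mul_zero]
  have hQ0 : Q ≠ 0 := by
    intro h
    rw [h] at hcoeff
    simp at hcoeff
  have hdeg : Q.natDegree ≤ q := by
    rw [hQ]
    refine (Polynomial.natDegree_sub_le _ _).trans ?_
    rw [Polynomial.natDegree_one, max_eq_left (Nat.zero_le _), ← Matrix.reverse_charpoly]
    refine (Polynomial.reverse_natDegree_le _).trans ?_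
    rw [Matrix.charpoly_natDegree_eq_dim, Fintype.card_fin]
  have hcard : (Finset.univ : Finset (ZMod p)).card ≤ Q.natDegree := by
    apply Polynomial.card_le_degree_of_subset_roots
    intro t _
    exact (Polynomial.mem_roots hQ0).mpr (hroot t)
  rw [Finset.card_univ, ZMod.card] at hcard
  exact hcard.trans hdeg

end Cfsg.Agent.S1470
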