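import Cfsg.Statements.S1471
import Cfsg.Agent.H97.NormPair

set_option autoImplicit false
open Cfsg

namespace Cfsg.Agent.S1471

/-- Let p and q be odd primes with (p^q − 1)/(p − 1) coprime to p − 1. Then there are at least two elements a of the field with p ^ q elements such that both a and 2 − a have norm 1 to the prime field. -/
theorem result (p q : ℕ) [Fact p.Prime] [Fact q.Prime] (hp : p ≠ 2) (hq : q ≠ 2) (hA : Nat.Coprime ((p ^ q - 1) / (p - 1)) (p - 1)) :
    2 ≤ Set.ncard {a : GaloisField p q | Algebra.norm (ZMod p) a = 1 ∧ Algebra.norm (ZMod p) (2 - a) = 1} := by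
  classical
  have hqp : q.Prime := Fact.out
  by_cases h3 : q = 3
  · subst h3
    obtain ⟨b, hb0, hb1, hb2⟩ := H97.exists_norm_three p
    have hbne : b ≠ 0 := by
      rintro rfl
      exact hb0 (Algebra.norm_zero)
    have h1 : (1 : GaloisField p 3) ∈ {a : GaloisField p 3 | Algebra.norm (ZMod p) a = 1 ∧
        Algebra.norm (ZMod p) (2 - a) = 1} := by
      refine ⟨map_one _, ?_⟩
      have : (2 : GaloisField p 3) - 1 = 1 := by ring
      rw [this, map_one]
    have ha : (1 + b⁻¹) ∈ {a : GaloisField p 3 | Algebra.norm (ZMod p) a = 1 ∧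
        Algebra.norm (ZMod p) (2 - a) = 1} := by
      constructor
      · have : 1 + b⁻¹ = (b + 1) * b⁻¹ := by field_simp
        rw [this, map_mul, hb1, ← map_mul, mul_inv_cancel₀ hbne, map_one]
      · have : 2 - (1 + b⁻¹) = (b - 1) * b⁻¹ := by field_simp; ring
        rw [this, map_mul, hb2, ← map_mul, mul_inv_cancel₀ hbne, map_one]
    have hne : (1 : GaloisField p 3) ≠ 1 + b⁻¹ := by simp [hbne]
    have hsub : ({1, 1 + b⁻¹} : Set (GaloisField p 3)) ⊆ {a : GaloisField p 3 |
        Algebra.norm (ZMod p) a = 1 ∧ Algebra.norm (ZMod p) (2 - a) = 1} := by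
      rintro x (rfl | rfl)
      · exact h1
      · exact ha
    calc 2 = ({1, 1 + b⁻¹} : Set (GaloisField p 3)).ncard := (Set.ncard_pair hne).symm
      _ ≤ _ := Set.ncard_le_ncard hsub (Set.toFinite _)
  · have hq5 : 5 ≤ q := by
      have h2 := hqp.two_le
      by_contra hlt
      have h4 : q = 4 := by omega
      rw [h4] at hqp
      exact absurd hqp (by decide)
    have hodd : Odd q := hqp.odd_of_ne_two hq
    haveI : Fintype (GaloisField p q) := Fintype.ofFinite _
    have key := H97.two_le_card_of_five_le (p := p) (q := q) hp hq5 hodd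
    have hset : {a : GaloisField p q | Algebra.norm (ZMod p) a = 1 ∧
        Algebra.norm (ZMod p) (2 - a) = 1} = ((Finset.univ.filter (fun a : GaloisField p q =>
        Algebra.norm (ZMod p) a = 1 ∧ Algebra.norm (ZMod p) (2 - a) = 1) : Finset (GaloisField p q)) : Set (GaloisField p q)) := by
      ext a; simp
    rw [hset, Set.ncard_coe_finset]
    exact key

end Cfsg.Agent.S1471
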