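import Cfsg.Statements.S1477
import Cfsg.Agent.H31.CN2

set_option autoImplicit false
open Cfsg

namespace Cfsg.Agent.S1477

open Cfsg.Agent.H31

section

variable {G : Type*} [Group G] [Finite G] (hCN : IsCNGroup G) (H : Subgroup G)
  (hH : Group.IsNilpotent H)
  (hmax : ∀ L : Subgroup G, Group.IsNilpotent L → H ≤ L → L = H)

include hCN hmax in
/-- The centralizer of a non-identity central element of `H` is `H`. -/
theorem cent_eq (k : G) (hk1 : k ≠ 1) (hkc : ∀ h ∈ H, h * k = k * h) :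
    Subgroup.centralizer ({k} : Set G) = H := by
  apply hmax _ (hCN k hk1)
  intro h hh
  rw [Subgroup.mem_centralizer_iff]; intro g hg; rw [Set.mem_singleton_iff] at hg; subst hg
  exact (hkc h hh).symm

include hCN hH hmax in
theorem exists_k {q : ℕ} [hq : Fact q.Prime] (hdvd : q ∣ Nat.card H) (Q : Sylow q H) :
    ∃ k : G, k ∈ (Q : Subgroup H).map H.subtype ∧ k ∈ H ∧ k ≠ 1 ∧ IsEl q k ∧
      (∀ h ∈ H, h * k = k * h) ∧ Subgroup.centralizer ({k} : Set G) = H := by
  haveI := hH
  obtain ⟨k, hkQ, hk1, hkc⟩ := exists_central_in_sylow hdvd Q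
  have hk1' : (k : G) ≠ 1 := fun h => hk1 (Subtype.ext h)
  have hkc' : ∀ h ∈ H, h * (k : G) = k * h := fun h hh => congrArg Subtype.val (hkc ⟨h, hh⟩)
  refine ⟨k, ⟨k, hkQ, rfl⟩, k.2, hk1', ?_, hkc', cent_eq hCN H hmax k hk1' hkc'⟩
  exact (isEl_of_isPGroup Q.2 hkQ).map H.subtype

include hCN hH hmax in
theorem pgroup_le {p : ℕ} [hp : Fact p.Prime] (hdvd : p ∣ Nat.card H) (P₀ : Sylow p H)
    (S : Subgroup G) (hS : IsPGroup p S) (hPS : (P₀ : Subgroup H).map H.subtype ≤ S) :
    S ≤ H := by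
  haveI := hH
  obtain ⟨z, hzP, hzH, hz1, hzp, hzc, hzC⟩ := exists_k hCN H hH hmax hdvd P₀
  by_cases hex : ∃ q : ℕ, q.Prime ∧ q ≠ p ∧ q ∣ Nat.card H
  · obtain ⟨q, hq, hqp, hqdvd⟩ := hex
    haveI : Fact q.Prime := ⟨hq⟩
    obtain ⟨k, -, hkH, hk1, hkq, hkc, hkC⟩ := exists_k hCN H hH hmax hqdvd (default : Sylow q H)
    have hzS : z ∈ S := hPS hzP
    have hS1 : S ≠ ⊥ := fun h => hz1 (by rw [h] at hzS; exact Subgroup.mem_bot.mp hzS)
    haveI : Nontrivial S := (Subgroup.nontrivial_iff_ne_bot _).mpr hS1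
    haveI hnt : Nontrivial (Subgroup.center S) := IsPGroup.center_nontrivial hS
    obtain ⟨c, hc⟩ := exists_ne (1 : Subgroup.center S)
    have hz'1 : ((c : S) : G) ≠ 1 := fun h => hc (Subtype.ext (Subtype.ext h))
    have hz'c : ∀ s ∈ S, s * ((c : S) : G) = ((c : S) : G) * s := fun s hs =>
      congrArg Subtype.val (Subgroup.mem_center_iff.mp c.2 ⟨s, hs⟩)
    have hz'H : ((c : S) : G) ∈ H := by
      rw [← hzC, Subgroup.mem_centralizer_iff]; intro g hg; rw [Set.mem_singleton_iff] at hg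
      subst hg
      exact hz'c g hzS
    haveI := hCN _ hz'1
    have hkmem : k ∈ Subgroup.centralizer ({((c : S) : G)} : Set G) := by
      rw [Subgroup.mem_centralizer_iff]; intro g hg; rw [Set.mem_singleton_iff] at hg; subst hg
      exact hkc _ hz'H
    intro s hs
    have hsmem : s ∈ Subgroup.centralizer ({((c : S) : G)} : Set G) := by
      rw [Subgroup.mem_centralizer_iff]; intro g hg; rw [Set.mem_singleton_iff] at hg; subst hg
      exact (hz'c s hs).symm
    have hcomm := comm_of_nilpotent hp.out hq hqp.symm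
      (⟨s, hsmem⟩ : Subgroup.centralizer ({((c : S) : G)} : Set G)) ⟨k, hkmem⟩
      ((isEl_of_isPGroup hS hs).subtype_mk _) (hkq.subtype_mk _)
    have hcomm' : s * k = k * s := congrArg Subtype.val hcomm
    rw [← hkC, Subgroup.mem_centralizer_iff]; intro g hg; rw [Set.mem_singleton_iff] at hg
    subst hg
    exact hcomm'.symm
  · have hHp : IsPGroup p H := by
      apply IsPGroup.of_card (n := (Nat.card H).primeFactorsList.length)
      apply Nat.eq_prime_pow_of_unique_prime_dvd Nat.card_pos.ne'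
      intro d hd hdd
      by_contra hne
      exact hex ⟨d, hd, hne, hdd⟩
    have htop : (P₀ : Subgroup H) = ⊤ := (P₀.is_maximal' (hHp.to_subgroup ⊤) le_top).symm
    have hHS : H ≤ S := by
      intro h hh
      apply hPS
      exact ⟨⟨h, hh⟩, by rw [htop]; exact Subgroup.mem_top _, rfl⟩
    have := hmax S hS.isNilpotent hHS
    rw [this]

include hCN hH hmax in
theorem part1 : (Nat.card H).Coprime H.index := by
  by_contra hnc
  obtain ⟨p, hp, hpH, hpI⟩ := Nat.Prime.not_coprime_iff_dvd.mp hnc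
  haveI : Fact p.Prime := ⟨hp⟩
  let P₀ : Sylow p H := default
  obtain ⟨S, hS⟩ := (P₀.2.map H.subtype).exists_le_sylow
  have hSH : (S : Subgroup G) ≤ H := pgroup_le hCN H hH hmax hpH P₀ S S.2 hS
  exact S.not_dvd_index (hpI.trans (Subgroup.index_dvd_of_le hSH))

include hCN hH hmax in
theorem part2 (hnpp : ¬ IsPrimePow (Nat.card H)) (hne1 : Nat.card H ≠ 1) (g : G)
    (hg : H.map (MulAut.conj g).toMonoidHom ≠ H) :
    H ⊓ H.map (MulAut.conj g).toMonoidHom = ⊥ := by
  haveI := hH
  rw [Subgroup.eq_bot_iff_forall]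
  intro x hx
  by_contra hx1
  obtain ⟨p, m, hp, hxm1, hxmp, hpo⟩ := exists_prime_order_pow x hx1
  have hx'H : x ^ m ∈ H := H.pow_mem hx.1 m
  have hx'Hg : x ^ m ∈ H.map (MulAut.conj g).toMonoidHom := Subgroup.pow_mem _ hx.2 m
  haveI : Fact p.Prime := ⟨hp⟩
  have hpH : p ∣ Nat.card H := hpo.trans (Subgroup.orderOf_dvd_natCard H hx.1)
  obtain ⟨q, hq, hqp, hqH⟩ : ∃ q : ℕ, q.Prime ∧ q ≠ p ∧ q ∣ Nat.card H := by
    by_contra hex
    apply hnpp
    have hc : Nat.card H = p ^ (Nat.card H).primeFactorsList.length := by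
      apply Nat.eq_prime_pow_of_unique_prime_dvd Nat.card_pos.ne'
      intro d hd hdd
      by_contra hne
      exact hex ⟨d, hd, hne, hdd⟩
    rw [hc]
    apply IsPrimePow.pow hp.isPrimePow
    intro h0; rw [h0, pow_zero] at hc; exact hne1 hc
  haveI : Fact q.Prime := ⟨hq⟩
  obtain ⟨z, -, hzH, hz1, hzp, hzc, hzC⟩ := exists_k hCN H hH hmax hpH (default : Sylow p H)
  obtain ⟨k, -, hkH, hk1, hkq, hkc, hkC⟩ := exists_k hCN H hH hmax hqH (default : Sylow q H)
  obtain ⟨x₀, hx₀H, hx₀⟩ := hx'Hg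
  have hx₀' : g * x₀ * g⁻¹ = x ^ m := hx₀
  have hz'p : IsEl p (g * z * g⁻¹) := hzp.conj g
  have hk'q : IsEl q (g * k * g⁻¹) := hkq.conj g
  have hzx : z * x ^ m = x ^ m * z := (hzc _ hx'H).symm
  have hkx : k * x ^ m = x ^ m * k := (hkc _ hx'H).symm
  have hconjx : ∀ c : G, (∀ h ∈ H, h * c = c * h) → (g * c * g⁻¹) * x ^ m = x ^ m * (g * c * g⁻¹) := by
    intro c hc
    rw [← hx₀']
    have := hc x₀ hx₀H
    calc g * c * g⁻¹ * (g * x₀ * g⁻¹) = g * (c * x₀) * g⁻¹ := by group
      _ = g * (x₀ * c) * g⁻¹ := by rw [this]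
      _ = g * x₀ * g⁻¹ * (g * c * g⁻¹) := by group
  have hz'x := hconjx z hzc
  have hk'x := hconjx k hkc
  haveI := hCN (x ^ m) hxm1
  have mem : ∀ y : G, y * x ^ m = x ^ m * y → y ∈ Subgroup.centralizer ({x ^ m} : Set G) := by
    intro y hy
    rw [Subgroup.mem_centralizer_iff]; intro w hw; rw [Set.mem_singleton_iff] at hw; subst hw
    exact hy.symm
  have h1 : z * (g * k * g⁻¹) = (g * k * g⁻¹) * z := congrArg Subtype.val
    (comm_of_nilpotent hp hq hqp.symm (⟨z, mem z hzx⟩ : Subgroup.centralizer ({x ^ m} : Set G))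
      ⟨_, mem _ hk'x⟩ (hzp.subtype_mk _) (hk'q.subtype_mk _))
  have h2 : (g * z * g⁻¹) * k = k * (g * z * g⁻¹) := congrArg Subtype.val
    (comm_of_nilpotent hp hq hqp.symm (⟨_, mem _ hz'x⟩ : Subgroup.centralizer ({x ^ m} : Set G))
      ⟨k, mem k hkx⟩ (hz'p.subtype_mk _) (hkq.subtype_mk _))
  have hk'H : g * k * g⁻¹ ∈ H := by
    rw [← hzC, Subgroup.mem_centralizer_iff]; intro w hw; rw [Set.mem_singleton_iff] at hw
    subst hw
    exact h1
  have hz'H : g * z * g⁻¹ ∈ H := by
    rw [← hkC, Subgroup.mem_centralizer_iff]; intro w hw; rw [Set.mem_singleton_iff] at hw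
    subst hw
    exact h2.symm
  have conjC : ∀ c : G, Subgroup.centralizer ({c} : Set G) = H → ∀ y : G,
      y * (g * c * g⁻¹) = (g * c * g⁻¹) * y → y ∈ H.map (MulAut.conj g).toMonoidHom := by
    intro c hc y hy
    have hmem : g⁻¹ * y * g ∈ H := by
      rw [← hc, Subgroup.mem_centralizer_iff]; intro w hw; rw [Set.mem_singleton_iff] at hw
      subst hw
      calc w * (g⁻¹ * y * g) = g⁻¹ * ((g * w * g⁻¹) * y) * g := by group
        _ = g⁻¹ * (y * (g * w * g⁻¹)) * g := by rw [hy]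
        _ = g⁻¹ * y * g * w := by group
    refine ⟨g⁻¹ * y * g, hmem, ?_⟩
    show g * (g⁻¹ * y * g) * g⁻¹ = y
    group
  have hle : H ≤ H.map (MulAut.conj g).toMonoidHom := by
    have htop : (H.map (MulAut.conj g).toMonoidHom).subgroupOf H = ⊤ := by
      apply eq_top_of_forall_isEl
      intro r hr h hhr
      rw [Subgroup.mem_subgroupOf]
      by_cases hrq : r = q
      · subst hrq
        have := comm_of_nilpotent hr hp hqp h ⟨_, hz'H⟩ hhr (hz'p.subtype_mk _)
        exact conjC z hzC h (congrArg Subtype.val this)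
      · have := comm_of_nilpotent hr hq hrq h ⟨_, hk'H⟩ hhr (hk'q.subtype_mk _)
        exact conjC k hkC h (congrArg Subtype.val this)
    intro h hh
    have : (⟨h, hh⟩ : H) ∈ (H.map (MulAut.conj g).toMonoidHom).subgroupOf H := by
      rw [htop]; exact Subgroup.mem_top _
    exact Subgroup.mem_subgroupOf.mp this
  have hnil : Group.IsNilpotent (H.map (MulAut.conj g).toMonoidHom) :=
    Group.nilpotent_of_surjective ((MulAut.conj g).toMonoidHom.subgroupMap H)
      ((MulAut.conj g).toMonoidHom.subgroupMap_surjective H)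
  exact hg (hmax _ hnil hle)

include hCN hH hmax in
theorem part3 (hcop : (Nat.card H).Coprime H.index)
    (hTI : ∀ g : G, H.map (MulAut.conj g).toMonoidHom ≠ H →
      H ⊓ H.map (MulAut.conj g).toMonoidHom = ⊥) (x : G) (hxH : x ∈ H) (hx1 : x ≠ 1) :
    Subgroup.centralizer ({x} : Set G) ≤ H := by
  haveI := hH
  obtain ⟨p, m, hp, hxm1, hxmp, hpo⟩ := exists_prime_order_pow x hx1
  have hx'H : x ^ m ∈ H := H.pow_mem hxH m
  haveI : Fact p.Prime := ⟨hp⟩
  have hpH : p ∣ Nat.card H := hpo.trans (Subgroup.orderOf_dvd_natCard H hxH)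
  have hpI : ¬ p ∣ H.index := fun h => by
    have h1 := Nat.dvd_gcd hpH h
    rw [hcop] at h1
    exact hp.one_lt.ne' (Nat.dvd_one.mp h1)
  obtain ⟨z, -, hzH, hz1, hzp, hzc, hzC⟩ := exists_k hCN H hH hmax hpH (default : Sylow p H)
  haveI := hCN (x ^ m) hxm1
  have hzmem : z ∈ Subgroup.centralizer ({x ^ m} : Set G) := by
    rw [Subgroup.mem_centralizer_iff]; intro w hw; rw [Set.mem_singleton_iff] at hw; subst hw
    exact hzc _ hx'H
  have hle : Subgroup.centralizer ({x} : Set G) ≤ Subgroup.centralizer ({x ^ m} : Set G) := by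
    intro y hy
    rw [Subgroup.mem_centralizer_iff] at hy ⊢
    intro w hw; rw [Set.mem_singleton_iff] at hw; subst hw
    have h1 : Commute x y := hy x rfl
    exact h1.pow_left m
  refine le_trans hle ?_
  have htop : H.subgroupOf (Subgroup.centralizer ({x ^ m} : Set G)) = ⊤ := by
    apply eq_top_of_forall_isEl
    intro r hr y hyr
    rw [Subgroup.mem_subgroupOf]
    by_cases hrp : r = p
    · subst hrp
      have hyx : (y : G) * x ^ m = x ^ m * y := (Subgroup.mem_centralizer_iff.mp y.2 _ rfl).symm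
      have hconj : H.map (MulAut.conj (y : G)).toMonoidHom = H := by
        by_contra hne
        have h1 := hTI y hne
        have h2 : x ^ m ∈ H ⊓ H.map (MulAut.conj (y : G)).toMonoidHom :=
          ⟨hx'H, ⟨x ^ m, hx'H, by
            show (y : G) * x ^ m * (y : G)⁻¹ = x ^ m
            rw [hyx]; group⟩⟩
        rw [h1] at h2
        exact hxm1 (Subgroup.mem_bot.mp h2)
      have hyN : (y : G) ∈ Subgroup.normalizer (H : Set G) := by
        rw [Subgroup.mem_normalizer_iff]
        intro h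
        constructor
        · intro hh; rw [← hconj]; exact ⟨h, hh, rfl⟩
        · intro hh
          rw [← hconj] at hh
          obtain ⟨h', hh', he⟩ := hh
          have he' : (y : G) * h' * (y : G)⁻¹ = (y : G) * h * (y : G)⁻¹ := he
          have : h' = h := by simpa using he'
          rw [← this]; exact hh'
      exact mem_of_isEl_of_normalizer hr H y hyr.coe hyN hpI
    · have := comm_of_nilpotent hr hp hrp y ⟨z, hzmem⟩ hyr (hzp.subtype_mk _)
      have h' : (y : G) * z = z * y := congrArg Subtype.val this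
      rw [← hzC, Subgroup.mem_centralizer_iff]; intro w hw; rw [Set.mem_singleton_iff] at hw
      subst hw
      exact h'.symm
  intro y hy
  have : (⟨y, hy⟩ : Subgroup.centralizer ({x ^ m} : Set G)) ∈ H.subgroupOf _ := by
    rw [htop]; exact Subgroup.mem_top _
  exact Subgroup.mem_subgroupOf.mp this

end

/-- Let G be a finite group in which every non-identity element has nilpotent centralizer, and H a nilpotent subgroup not properly contained in any nilpotent subgroup. Then the order of H is coprime to its index; if the order of H is not a prime power then H ∩ gHg⁻¹ = 1 whenever gHg⁻¹ ≠ H; and if H ∩ gHg⁻¹ = 1 whenever gHg⁻¹ ≠ H, then C_G(x) ≤ H for every non-identity x ∈ H. -/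
theorem result {G : Type*} [Group G] [Finite G] (hCN : Cfsg.IsCNGroup G) (H : Subgroup G) (hH : Group.IsNilpotent H)
    (hmax : ∀ L : Subgroup G, Group.IsNilpotent L → H ≤ L → L = H) :
    (Nat.card H).Coprime H.index ∧
      (¬ IsPrimePow (Nat.card H) → Nat.card H ≠ 1 → ∀ g : G, H.map (MulAut.conj g).toMonoidHom ≠ H → H ⊓ H.map (MulAut.conj g).toMonoidHom = ⊥) ∧
      ((∀ g : G, H.map (MulAut.conj g).toMonoidHom ≠ H → H ⊓ H.map (MulAut.conj g).toMonoidHom = ⊥) → ∀ x ∈ H, x ≠ 1 → Subgroup.centralizer ({x} : Set G) ≤ H) := by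
  have h1 := part1 hCN H hH hmax
  exact ⟨h1, part2 hCN H hH hmax, fun hTI x hx hx1 => part3 hCN H hH hmax h1 hTI x hx hx1⟩

end Cfsg.Agent.S1477
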