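import Cfsg.Statements.S1480
import Cfsg.Agent.Lib.Helper30.TransApp

set_option autoImplicit false
open Cfsg

namespace Cfsg.Agent.S1480

/-- Let G be a finite group and p a prime such that the normalizer of every nontrivial p-subgroup of G is p-constrained; if p = 2 assume also that the Sylow 2-subgroups of G have nilpotency class at most 2. Let E be an abelian p-subgroup containing an elementary abelian subgroup of order p ^ 3 and containing every element of p-power order of C_G(E). Then for every prime q ≠ p, any two maximal E-invariant q-subgroups of G are conjugate by an element of O_{p'}(C_G(E)). -/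
theorem result {G : Type*} [Group G] [Finite G] (p : ℕ) [Fact p.Prime]
    (hloc : ∀ T : Subgroup G, IsPGroup p T → T ≠ ⊥ → Cfsg.IsPConstrained p ↥(Subgroup.normalizer (T : Set G)))
    (h2 : p = 2 → ∀ S : Sylow p G, Group.IsNilpotent (S : Subgroup G) ∧ Group.nilpotencyClass (S : Subgroup G) ≤ 2)
    (E : Subgroup G) (hEp : IsPGroup p E) (hEc : IsMulCommutative E) (hE3 : ¬ Cfsg.PRankLE p 2 E)
    (hEfull : ∀ x ∈ Subgroup.centralizer (E : Set G), IsPGroup p (Subgroup.zpowers x) → x ∈ E)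
    (q : ℕ) [Fact q.Prime] (hqp : q ≠ p) :
    ∀ Q₁ ∈ Cfsg.maxInvSubgroups ⊤ E {q}, ∀ Q₂ ∈ Cfsg.maxInvSubgroups ⊤ E {q},
        ∃ k ∈ Cfsg.piCoreOf (Cfsg.primesNotDvd p) (Subgroup.centralizer (E : Set G)), Q₂ = Q₁.map (MulAut.conj k).toMonoidHom := by
  classical
  have hpp : p.Prime := Fact.out
  have hEcomm : ∀ a ∈ E, ∀ b ∈ E, a * b = b * a := fun a ha b hb =>
    congrArg Subtype.val (hEc.is_comm.comm ⟨a, ha⟩ ⟨b, hb⟩)
  -- an elementary abelian subgroup of order at least `p ^ 3`
  obtain ⟨F, hFE, hFexp, hFcard⟩ : ∃ F : Subgroup G, F ≤ E ∧ (∀ a ∈ F, a ^ p = 1) ∧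
      p ^ 3 ≤ Nat.card F := by
    unfold Cfsg.PRankLE at hE3
    push Not at hE3
    obtain ⟨A, hAc, hAexp, hAcard⟩ := hE3
    refine ⟨A.map E.subtype, Subgroup.map_subtype_le A, ?_, ?_⟩
    · rintro _ ⟨a, ha, rfl⟩
      have h1 := congrArg Subtype.val (hAexp a ha)
      rw [Subgroup.coe_pow] at h1
      exact h1
    · rw [Subgroup.card_map_of_injective (Subgroup.subtype_injective _)]
      obtain ⟨k, hk⟩ := IsPGroup.iff_card.mp (hEp.to_subgroup A)
      rw [hk] at hAcard ⊢
      have h2 : 2 < k := (Nat.pow_lt_pow_iff_right hpp.one_lt).mp hAcard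
      exact Nat.pow_le_pow_right hpp.pos h2
  have hΩ : ∀ x ∈ Subgroup.centralizer (E : Set G), x ^ p = 1 → x ∈ E := fun x hx hxp =>
    hEfull x hx (Cfsg.Agent.Lib.Helper30.isPGroup_zpowers_of_pow_eq_one hxp)
  -- the class condition for `p = 2`
  have hcl := fun hp2 : p = 2 => And.intro hEfull
    (Cfsg.Agent.Lib.Helper30.class_two_of_sylow (h2 hp2))
  -- the local subgroups `θ a`
  have hθ : ∀ a ∈ F, a ≠ 1 → (Nat.card (Cfsg.Agent.Lib.Helper30.thetaOf p a)).Coprime p ∧
      E ≤ Subgroup.normalizer ((Cfsg.Agent.Lib.Helper30.thetaOf p a : Subgroup G) : Set G) ∧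
      ∀ T : Subgroup G, IsPGroup q T → E ≤ Subgroup.normalizer (T : Set G) →
        T ≤ Subgroup.centralizer ({a} : Set G) → T ≤ Cfsg.Agent.Lib.Helper30.thetaOf p a := by
    intro a ha ha1
    have haE : a ∈ E := hFE ha
    have hZp : IsPGroup p (Subgroup.zpowers a) := hEp.to_le (Subgroup.zpowers_le.mpr haE)
    have hZ1 : Subgroup.zpowers a ≠ ⊥ := by
      intro h
      apply ha1
      have := Subgroup.mem_zpowers a
      rw [h, Subgroup.mem_bot] at this
      exact this
    exact Cfsg.Agent.Lib.Helper30.thetaOf_spec hqp hEp hEcomm haE (hloc _ hZp hZ1) hΩ hcl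
  -- `p'`-subgroups of `C_G(E)` lie in `O_{p'}(C_G(E))`
  have hK₀ : ∀ Y : Subgroup G, (Nat.card Y).Coprime p → Y ≤ Subgroup.centralizer (E : Set G) →
      Y ≤ Cfsg.piCoreOf (Cfsg.primesNotDvd p) (Subgroup.centralizer (E : Set G)) := by
    intro Y hYcop hYC
    obtain ⟨P⟩ : Nonempty (Sylow p ↥(Subgroup.centralizer (E : Set G))) := inferInstance
    have hPcent : ∀ g ∈ P, ∀ c : ↥(Subgroup.centralizer (E : Set G)), g * c = c * g := by
      intro g hg c
      have h1 : IsPGroup p (Subgroup.zpowers g) := P.isPGroup'.to_le (Subgroup.zpowers_le.mpr hg)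
      have h2 := h1.map (Subgroup.centralizer (E : Set G)).subtype
      rw [MonoidHom.map_zpowers] at h2
      have h3 : (g : G) ∈ E := hEfull (g : G) g.2 h2
      exact Subtype.ext (Subgroup.mem_centralizer_iff.mp c.2 (g : G) h3)
    have hP : Subgroup.normalizer (P : Set ↥(Subgroup.centralizer (E : Set G))) ≤
        Subgroup.centralizer (P : Set ↥(Subgroup.centralizer (E : Set G))) := by
      intro c _
      rw [Subgroup.mem_centralizer_iff]
      intro g hg
      exact hPcent g hg c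
    have hY' : (Nat.card (Y.subgroupOf (Subgroup.centralizer (E : Set G)))).Coprime p := by
      have e1 : Nat.card (Y.subgroupOf (Subgroup.centralizer (E : Set G))) = Nat.card Y :=
        Nat.card_congr (Subgroup.subgroupOfEquivOfLe hYC).toEquiv
      rw [e1]; exact hYcop
    have h1 := Cfsg.Agent.Lib.Helper30.le_piCore_of_central_sylow P hP
      (Y.subgroupOf (Subgroup.centralizer (E : Set G))) hY'
    intro y hy
    exact ⟨⟨y, hYC hy⟩, h1 (Subgroup.mem_subgroupOf.mpr hy), rfl⟩
  intro Q₁ h₁ Q₂ h₂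
  exact Cfsg.Agent.Lib.Helper30.trans_of_local hqp hEp hEcomm hFE hFexp hFcard hK₀
    (Cfsg.Agent.Lib.Helper30.piCoreOf_centralizer_le E _)
    (Cfsg.Agent.Lib.Helper30.thetaOf p) hθ Q₁ Q₂ h₁ h₂

end Cfsg.Agent.S1480
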