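import Cfsg.Statements.S1481
import Cfsg.Agent.H37.MaxLocal

set_option autoImplicit false
open Cfsg

namespace Cfsg.Agent.S1481

/-- Let G be a finite group and H a local subgroup (the normalizer of a nontrivial subgroup of prime-power order) not properly contained in any local subgroup; let F = F(H), suppose at least two primes divide #F, put X = H ∩ C_G(F), let M ≤ F with F ∩ C_G(M) ≤ M, and let R be a solvable subgroup normalized by M and by X. Then for every prime q not dividing #F there is exactly one maximal M-invariant q-subgroup of R, and it is a Sylow q-subgroup of the largest normal subgroup of R of order coprime to #F. -/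
theorem result {G : Type*} [Group G] [Finite G] (H : Subgroup G) (hH : Cfsg.IsLocalSubgroup H) (hHmax : ∀ L : Subgroup G, Cfsg.IsLocalSubgroup L → H ≤ L → L = H)
    (hF2 : 2 ≤ (Nat.card (Cfsg.fittingOf H)).primeFactors.card)
    (M : Subgroup G) (hM : M ≤ Cfsg.fittingOf H) (hCM : Cfsg.fittingOf H ⊓ Subgroup.centralizer (M : Set G) ≤ M)
    (R : Subgroup G) (hR : Group.IsSolvable R) (hMR : M ≤ Subgroup.normalizer (R : Set G))
    (hXR : H ⊓ Subgroup.centralizer (Cfsg.fittingOf H : Set G) ≤ Subgroup.normalizer (R : Set G))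
    (q : ℕ) [Fact q.Prime] (hq : ¬ q ∣ Nat.card (Cfsg.fittingOf H)) :
    ∃! Q : Subgroup G, Q ∈ Cfsg.maxInvSubgroups R M {q} ∧
      (∀ Q' : Subgroup G, Q' ∈ Cfsg.maxInvSubgroups R M {q} →
        Q' ≤ Cfsg.piCoreOf (Cfsg.primesNotDvd (Nat.card (Cfsg.fittingOf H))) R ∧
        ¬ q ∣ Q'.relIndex (Cfsg.piCoreOf (Cfsg.primesNotDvd (Nat.card (Cfsg.fittingOf H))) R)) := by
  exact Cfsg.Agent.H37.MaxLocal.unique_max_invariant H hHmax hF2 M hM hCM R hR hMR hXR q hq

end Cfsg.Agent.S1481
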