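import Cfsg.Statements.S1483
import Cfsg.Agent.S1477

set_option autoImplicit false
open Cfsg

namespace Cfsg.Agent.S1483

open Cfsg.Agent.H31

section

variable {G : Type*} [Group G] [Finite G] (hCN : IsCNGroup G)

include hCN in
theorem conj_of_dvd (H₁ H₂ : Subgroup G)
    (h₁ : Group.IsNilpotent ↥H₁) (hm₁ : ∀ L : Subgroup G, Group.IsNilpotent L → H₁ ≤ L → L = H₁)
    (h₂ : Group.IsNilpotent ↥H₂) (hm₂ : ∀ L : Subgroup G, Group.IsNilpotent L → H₂ ≤ L → L = H₂)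
    (q : ℕ) (hq : q.Prime) (hq₁ : q ∣ Nat.card H₁) (hq₂ : q ∣ Nat.card H₂) :
    ∃ g : G, H₂ = H₁.map (MulAut.conj g).toMonoidHom := by
  haveI : Fact q.Prime := ⟨hq⟩
  haveI := h₁
  haveI := h₂
  let Q₁ : Sylow q H₁ := default
  let Q₂ : Sylow q H₂ := default
  obtain ⟨S₁, hS₁⟩ := (Q₁.2.map H₁.subtype).exists_le_sylow
  obtain ⟨S₂, hS₂⟩ := (Q₂.2.map H₂.subtype).exists_le_sylow
  have hS₁H : (S₁ : Subgroup G) ≤ H₁ := S1477.pgroup_le hCN H₁ h₁ hm₁ hq₁ Q₁ S₁ S₁.2 hS₁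
  have hS₂H : (S₂ : Subgroup G) ≤ H₂ := S1477.pgroup_le hCN H₂ h₂ hm₂ hq₂ Q₂ S₂ S₂.2 hS₂
  obtain ⟨g, hg⟩ := MulAction.exists_smul_eq G S₁ S₂
  obtain ⟨k, hkQ, hkH, hk1, hkq, hkc, hkC⟩ := S1477.exists_k hCN H₁ h₁ hm₁ hq₁ Q₁
  have hkS : k ∈ (S₁ : Subgroup G) := hS₁ hkQ
  have hS₂mem : ∀ y : G, y ∈ (S₂ : Subgroup G) ↔ g⁻¹ * y * g ∈ (S₁ : Subgroup G) := by
    intro y
    have : y ∈ ((g • S₁ : Sylow q G) : Subgroup G) ↔ g⁻¹ * y * g ∈ (S₁ : Subgroup G) := by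
      rw [Sylow.coe_subgroup_smul, Subgroup.mem_pointwise_smul_iff_inv_smul_mem, MulAut.smul_def,
        MulAut.conj_inv_apply]
    rw [hg] at this
    exact this
  have hcS₂ : g * k * g⁻¹ ∈ (S₂ : Subgroup G) := (hS₂mem _).mpr (by
    have : g⁻¹ * (g * k * g⁻¹) * g = k := by group
    rw [this]; exact hkS)
  have hcH₂ : g * k * g⁻¹ ∈ H₂ := hS₂H hcS₂
  have hc1 : g * k * g⁻¹ ≠ 1 := by
    intro h; apply hk1
    have : k = g⁻¹ * (g * k * g⁻¹) * g := by group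
    rw [this, h]; group
  have hcq : IsEl q (g * k * g⁻¹) := hkq.conj g
  have hcc : ∀ h ∈ H₂, h * (g * k * g⁻¹) = (g * k * g⁻¹) * h := by
    have htop : Subgroup.centralizer ({(⟨g * k * g⁻¹, hcH₂⟩ : H₂)} : Set H₂) = ⊤ := by
      apply eq_top_of_forall_isEl
      intro t ht y hy
      rw [Subgroup.mem_centralizer_iff]
      intro w hw; rw [Set.mem_singleton_iff] at hw; subst hw
      by_cases htq : t = q
      · subst htq
        have hyQ : y ∈ Q₂ := mem_sylow_of_isEl Q₂ y hy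
        have hyS : (y : G) ∈ (S₂ : Subgroup G) := hS₂ ⟨y, hyQ, rfl⟩
        have h1 := (hS₂mem y).mp hyS
        have h2 := hkc _ (hS₁H h1)
        apply Subtype.ext
        show g * k * g⁻¹ * (y : G) = (y : G) * (g * k * g⁻¹)
        calc g * k * g⁻¹ * (y : G) = g * (k * (g⁻¹ * y * g)) * g⁻¹ := by group
          _ = g * (g⁻¹ * y * g * k) * g⁻¹ := by rw [h2]
          _ = y * (g * k * g⁻¹) := by group
      · exact (comm_of_nilpotent ht hq htq y ⟨g * k * g⁻¹, hcH₂⟩ hy (hcq.subtype_mk _)).symm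
    intro h hh
    have hx : (⟨h, hh⟩ : H₂) ∈ Subgroup.centralizer ({(⟨g * k * g⁻¹, hcH₂⟩ : H₂)} : Set H₂) := by
      rw [htop]; exact Subgroup.mem_top _
    have := Subgroup.mem_centralizer_iff.mp hx _ rfl
    exact (congrArg Subtype.val this).symm
  have hcC := S1477.cent_eq hCN H₂ hm₂ (g * k * g⁻¹) hc1 hcc
  refine ⟨g, ?_⟩
  rw [← hcC]
  ext y
  constructor
  · intro hy
    have hy' : (g * k * g⁻¹) * y = y * (g * k * g⁻¹) := Subgroup.mem_centralizer_iff.mp hy _ rfl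
    have hmem : g⁻¹ * y * g ∈ H₁ := by
      rw [← hkC, Subgroup.mem_centralizer_iff]; intro w hw; rw [Set.mem_singleton_iff] at hw
      subst hw
      calc w * (g⁻¹ * y * g) = g⁻¹ * ((g * w * g⁻¹) * y) * g := by group
        _ = g⁻¹ * (y * (g * w * g⁻¹)) * g := by rw [hy']
        _ = g⁻¹ * y * g * w := by group
    refine ⟨g⁻¹ * y * g, hmem, ?_⟩
    show g * (g⁻¹ * y * g) * g⁻¹ = y
    group
  · rintro ⟨h, hh, rfl⟩
    rw [Subgroup.mem_centralizer_iff]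
    intro w hw; rw [Set.mem_singleton_iff] at hw; subst hw
    show g * k * g⁻¹ * (g * h * g⁻¹) = g * h * g⁻¹ * (g * k * g⁻¹)
    have := hkc h hh
    calc g * k * g⁻¹ * (g * h * g⁻¹) = g * (k * h) * g⁻¹ := by group
      _ = g * (h * k) * g⁻¹ := by rw [this]
      _ = g * h * g⁻¹ * (g * k * g⁻¹) := by group

omit [Finite G] in
theorem exists_max_nilpotent [Finite G] (K : Subgroup G) (hK : Group.IsNilpotent K) :
    ∃ H : Subgroup G, K ≤ H ∧ Group.IsNilpotent H ∧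
      ∀ L : Subgroup G, Group.IsNilpotent L → H ≤ L → L = H := by
  obtain ⟨H, hKH, hmax⟩ :=
    (Set.toFinite {L : Subgroup G | Group.IsNilpotent L}).exists_le_maximal (a := K) hK
  exact ⟨H, hKH, hmax.1, fun L hL hHL => le_antisymm (hmax.2 hL hHL) hHL⟩

include hCN in
theorem part2 (p q r : ℕ) (hp : p.Prime) (hq : q.Prime) (hr : r.Prime) (x y y' z : G)
    (hx : x ≠ 1) (hy : y ≠ 1) (hy' : y' ≠ 1) (hz : z ≠ 1)
    (hxp : IsPGroup p (Subgroup.zpowers x)) (hyq : IsPGroup q (Subgroup.zpowers y))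
    (hy'q : IsPGroup q (Subgroup.zpowers y')) (hzr : IsPGroup r (Subgroup.zpowers z))
    (hxy : x * y = y * x) (hyz : y' * z = z * y') :
    ∃ x' z' : G, x' ≠ 1 ∧ z' ≠ 1 ∧ IsPGroup p (Subgroup.zpowers x') ∧
      IsPGroup r (Subgroup.zpowers z') ∧ x' * z' = z' * x' := by
  by_cases hpr : p = r
  · subst hpr
    exact ⟨z, z, hz, hz, hzr, hzr, rfl⟩
  have el : ∀ (t : ℕ) (a : G), IsPGroup t (Subgroup.zpowers a) → IsEl t a := by
    intro t a h
    obtain ⟨k, hk⟩ := h ⟨a, Subgroup.mem_zpowers a⟩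
    exact ⟨k, congrArg Subtype.val hk⟩
  obtain ⟨H₁, hK₁, hn₁, hm₁⟩ :=
    exists_max_nilpotent (Subgroup.centralizer ({y} : Set G)) (hCN y hy)
  obtain ⟨H₂, hK₂, hn₂, hm₂⟩ :=
    exists_max_nilpotent (Subgroup.centralizer ({y'} : Set G)) (hCN y' hy')
  have hxH₁ : x ∈ H₁ := hK₁ (by
    rw [Subgroup.mem_centralizer_iff]; intro w hw; rw [Set.mem_singleton_iff] at hw; subst hw
    exact hxy.symm)
  have hyH₁ : y ∈ H₁ := hK₁ (by
    rw [Subgroup.mem_centralizer_iff]; intro w hw; rw [Set.mem_singleton_iff] at hw; subst hw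
    rfl)
  have hy'H₂ : y' ∈ H₂ := hK₂ (by
    rw [Subgroup.mem_centralizer_iff]; intro w hw; rw [Set.mem_singleton_iff] at hw; subst hw
    rfl)
  have hzH₂ : z ∈ H₂ := hK₂ (by
    rw [Subgroup.mem_centralizer_iff]; intro w hw; rw [Set.mem_singleton_iff] at hw; subst hw
    exact hyz)
  have hqdvd : ∀ (H : Subgroup G) (a : G), a ∈ H → a ≠ 1 → IsEl q a → q ∣ Nat.card H := by
    intro H a ha ha1 hael
    obtain ⟨k, hk⟩ := hael
    have h1 : orderOf a ∣ q ^ k := orderOf_dvd_of_pow_eq_one hk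
    obtain ⟨j, hj, hoj⟩ := (Nat.dvd_prime_pow hq).mp h1
    have hj0 : j ≠ 0 := by
      rintro rfl; rw [pow_zero] at hoj; exact ha1 (orderOf_eq_one_iff.mp hoj)
    have h2 : q ∣ orderOf a := hoj ▸ dvd_pow_self q hj0
    exact h2.trans (Subgroup.orderOf_dvd_natCard H ha)
  obtain ⟨g, hg⟩ := conj_of_dvd hCN H₁ H₂ hn₁ hm₁ hn₂ hm₂ q hq
    (hqdvd H₁ y hyH₁ hy (el q y hyq)) (hqdvd H₂ y' hy'H₂ hy' (el q y' hy'q))
  have hgx : g * x * g⁻¹ ∈ H₂ := by rw [hg]; exact ⟨x, hxH₁, rfl⟩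
  haveI := hn₂
  have hcomm := comm_of_nilpotent hp hr hpr (⟨g * x * g⁻¹, hgx⟩ : H₂) ⟨z, hzH₂⟩
    (((el p x hxp).conj g).subtype_mk _) ((el r z hzr).subtype_mk _)
  refine ⟨g * x * g⁻¹, z, ?_, hz, isPGroup_zpowers_of_isEl ((el p x hxp).conj g), hzr,
    congrArg Subtype.val hcomm⟩
  intro h
  apply hx
  have : x = g⁻¹ * (g * x * g⁻¹) * g := by group
  rw [this, h]; group

end

/-- Let G be a minimal simple group of odd order in which every non-identity element has nilpotent centralizer. Then any two nilpotent subgroups each contained in no larger nilpotent subgroup are either conjugate or of coprime orders; and for primes p, q, r: if some elements x, y ≠ 1 of p-power and q-power order commute, and some elements y', z ≠ 1 of q-power and r-power order commute, then some elements of p-power and r-power order, both ≠ 1, commute. -/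
theorem result {G : Type*} [Group G] [Finite G] (hG : Cfsg.IsMinSimpleOddOrder G) (hCN : Cfsg.IsCNGroup G) :
    (∀ H₁ H₂ : Subgroup G, (Group.IsNilpotent ↥H₁ ∧ ∀ L : Subgroup G, Group.IsNilpotent L → H₁ ≤ L → L = H₁) → (Group.IsNilpotent ↥H₂ ∧ ∀ L : Subgroup G, Group.IsNilpotent L → H₂ ≤ L → L = H₂) → (∃ g : G, H₂ = H₁.map (MulAut.conj g).toMonoidHom) ∨ (Nat.card H₁).Coprime (Nat.card H₂)) ∧
      ∀ (p q r : ℕ), p.Prime → q.Prime → r.Prime → ∀ (x y y' z : G), x ≠ 1 → y ≠ 1 → y' ≠ 1 → z ≠ 1 →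
        IsPGroup p (Subgroup.zpowers x) → IsPGroup q (Subgroup.zpowers y) → IsPGroup q (Subgroup.zpowers y') → IsPGroup r (Subgroup.zpowers z) →
        x * y = y * x → y' * z = z * y' →
        ∃ x' z' : G, x' ≠ 1 ∧ z' ≠ 1 ∧ IsPGroup p (Subgroup.zpowers x') ∧ IsPGroup r (Subgroup.zpowers z') ∧ x' * z' = z' * x' := by
  refine ⟨?_, ?_⟩
  · rintro H₁ H₂ ⟨h₁, hm₁⟩ ⟨h₂, hm₂⟩
    by_cases hcop : (Nat.card H₁).Coprime (Nat.card H₂)
    · exact Or.inr hcop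
    · obtain ⟨q, hq, hq₁, hq₂⟩ := Nat.Prime.not_coprime_iff_dvd.mp hcop
      exact Or.inl (conj_of_dvd hCN H₁ H₂ h₁ hm₁ h₂ hm₂ q hq hq₁ hq₂)
  · intro p q r hp hq hr x y y' z hx hy hy' hz hxp hyq hy'q hzr hxy hyz
    exact part2 hCN p q r hp hq hr x y y' z hx hy hy' hz hxp hyq hy'q hzr hxy hyz

end Cfsg.Agent.S1483
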