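import Cfsg.Statements.S1487
import Cfsg.Agent.H31.Char

set_option autoImplicit false
open Cfsg

namespace Cfsg.Agent.S1487

open Cfsg.Agent.H31

theorem eq_of_re_eq_of_norm_le (z : ℂ) (n : ℝ) (h1 : z.re = n) (h2 : ‖z‖ ≤ n) : z = (n : ℂ) := by
  have hn : 0 ≤ n := le_trans (norm_nonneg z) h2
  have h3 : ‖z‖ ^ 2 = z.re ^ 2 + z.im ^ 2 := by
    rw [Complex.sq_norm, Complex.normSq_apply]; ring
  have h4 : ‖z‖ ^ 2 ≤ n ^ 2 := pow_le_pow_left₀ (norm_nonneg z) h2 2
  have h5 : z.im ^ 2 ≤ 0 := by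
    rw [h3, h1] at h4; linarith
  have h6 : z.im = 0 := by
    have := sq_nonneg z.im
    exact pow_eq_zero_iff (two_ne_zero) |>.mp (le_antisymm h5 this)
  apply Complex.ext
  · simp [h1]
  · simp [h6]

/-- Let A ≤ H be normal subgroups of the finite group G and θ an irreducible character of H. Then θ takes the value θ 1 on all of A if and only if the function induced from θ to G takes its value at 1 on all of A. -/
theorem result {G : Type*} [Group G] [Fintype G] (A H : Subgroup G) [A.Normal] [H.Normal] (hAH : A ≤ H) (θ : H → ℂ) (hθ : Cfsg.IsIrrCharacter H θ) : (∀ a : H, (a : G) ∈ A → θ a = θ 1) ↔ (∀ a : G, a ∈ A → Cfsg.indFun H θ a = Cfsg.indFun H θ 1) := by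
  classical
  have hA : A.Normal := inferInstance
  have hconj : ∀ (a : G), a ∈ A → ∀ x : G, x⁻¹ * a * x ∈ A := by
    intro a ha x
    have := hA.conj_mem a ha x⁻¹
    simpa using this
  have hone : ∀ x : G, Cfsg.extendByZero H θ (x⁻¹ * 1 * x) = θ 1 := by
    intro x
    have h1 : x⁻¹ * 1 * x = (1 : G) := by group
    rw [h1, extendByZero_mem H θ 1 H.one_mem]
    rfl
  constructor
  · intro h a ha
    unfold Cfsg.indFun
    congr 1
    apply Finset.sum_congr rfl
    intro x _
    rw [hone x, extendByZero_mem H θ _ (hAH (hconj a ha x))]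
    exact h ⟨_, hAH (hconj a ha x)⟩ (hconj a ha x)
  · intro h a ha
    obtain ⟨n, ρ, hρ, rfl⟩ := hθ
    have hdeg : ρ.character 1 = (n : ℂ) := by
      rw [Representation.char_one]; simp
    have hfin : Module.finrank ℂ (Fin n → ℂ) = n := by simp
    have hle : ∀ b : H, ‖ρ.character b‖ ≤ (n : ℝ) := by
      intro b
      have := Cfsg.Agent.H4.character_norm_le ρ b
      rwa [hfin] at this
    have h1 := h a ha
    unfold Cfsg.indFun at h1
    have hH0 : (Nat.card H : ℂ)⁻¹ ≠ 0 := inv_ne_zero (by exact_mod_cast Nat.card_pos.ne')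
    have h2 := mul_left_cancel₀ hH0 h1
    rw [Finset.sum_congr rfl (fun x _ => hone x)] at h2
    have h3 : ∀ x : G, Cfsg.extendByZero H ρ.character (x⁻¹ * (a : G) * x) =
        ρ.character ⟨x⁻¹ * (a : G) * x, hAH (hconj a ha x)⟩ := by
      intro x
      rw [extendByZero_mem H _ _ (hAH (hconj a ha x))]
    rw [Finset.sum_congr rfl (fun x _ => h3 x), hdeg] at h2
    -- take real parts
    have h4 : ∑ x : G, ((n : ℝ) - (ρ.character ⟨x⁻¹ * (a : G) * x, hAH (hconj a ha x)⟩).re) = 0 := by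
      have := congrArg Complex.re h2
      rw [Complex.re_sum, Complex.re_sum] at this
      rw [Finset.sum_sub_distrib, this]
      simp
    have h5 : ∀ x ∈ (Finset.univ : Finset G),
        0 ≤ (n : ℝ) - (ρ.character ⟨x⁻¹ * (a : G) * x, hAH (hconj a ha x)⟩).re := by
      intro x _
      have := hle ⟨x⁻¹ * (a : G) * x, hAH (hconj a ha x)⟩
      have h' := Complex.re_le_norm (ρ.character ⟨x⁻¹ * (a : G) * x, hAH (hconj a ha x)⟩)
      linarith
    have h6 := (Finset.sum_eq_zero_iff_of_nonneg h5).mp h4 1 (Finset.mem_univ _)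
    have h7 : (⟨(1 : G)⁻¹ * (a : G) * 1, hAH (hconj a ha 1)⟩ : H) = a := by
      apply Subtype.ext; simp
    rw [h7] at h6
    have h8 : (ρ.character a).re = (n : ℝ) := by linarith
    rw [hdeg, eq_of_re_eq_of_norm_le _ _ h8 (hle a)]
    simp

end Cfsg.Agent.S1487
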