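import Cfsg.Statements.S1488
import Cfsg.Agent.H31.IndFun

set_option autoImplicit false
open Cfsg

namespace Cfsg.Agent.S1488

open Cfsg.Agent.H31

/-- Let A be a normal subgroup of the finite group G contained in the subgroup H, let θ be a function on H and θ₁ a function on the image of H in G ⧸ A whose composite with the projection is θ. Then the function induced from θ₁ to G ⧸ A, composed with the projection G → G ⧸ A, equals the function induced from θ to G. -/
theorem result {G : Type*} [Group G] [Fintype G] (A H : Subgroup G) [A.Normal] (hAH : A ≤ H) [Fintype (G ⧸ A)] [Fintype ↥(H.map (QuotientGroup.mk' A))] (θ : H → ℂ) (θ₁ : ↥(H.map (QuotientGroup.mk' A)) → ℂ) (hθ : ∀ x : H, θ₁ ⟨QuotientGroup.mk' A x, Subgroup.mem_map_of_mem _ x.2⟩ = θ x) (g : G) : Cfsg.indFun (H.map (QuotientGroup.mk' A)) θ₁ (QuotientGroup.mk' A g) = Cfsg.indFun H θ g := by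
  classical
  unfold Cfsg.indFun
  have key1 : ∀ y : G, Cfsg.extendByZero H θ y =
      Cfsg.extendByZero (H.map (QuotientGroup.mk' A)) θ₁ (QuotientGroup.mk' A y) := by
    intro y
    by_cases hy : y ∈ H
    · rw [extendByZero_mem H θ y hy, extendByZero_mem _ θ₁ _ (Subgroup.mem_map_of_mem _ hy)]
      exact (hθ ⟨y, hy⟩).symm
    · rw [extendByZero_not_mem H θ y hy, extendByZero_not_mem]
      rintro ⟨h, hh, hhy⟩
      apply hy
      have h1 : h⁻¹ * y ∈ A := QuotientGroup.eq.mp hhy
      have := H.mul_mem hh (hAH h1)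
      simpa using this
  have key2 : ∑ x : G, Cfsg.extendByZero H θ (x⁻¹ * g * x) =
      (Nat.card A : ℂ) * ∑ q : G ⧸ A,
        Cfsg.extendByZero (H.map (QuotientGroup.mk' A)) θ₁ (q⁻¹ * QuotientGroup.mk' A g * q) := by
    rw [← sum_comp_mk A (fun q => Cfsg.extendByZero (H.map (QuotientGroup.mk' A)) θ₁ (q⁻¹ * QuotientGroup.mk' A g * q))]
    apply Finset.sum_congr rfl
    intro x _
    rw [key1]
    rfl
  have hcard : Nat.card H = Nat.card A * Nat.card ↥(H.map (QuotientGroup.mk' A)) := by
    have hidx : (H.map (QuotientGroup.mk' A)).index = H.index := by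
      have h1 : (H.map (QuotientGroup.mk' A)).comap (QuotientGroup.mk' A) = H := by
        rw [Subgroup.comap_map_eq, QuotientGroup.ker_mk']
        exact sup_eq_left.mpr hAH
      have h2 := Subgroup.index_comap_of_surjective (H.map (QuotientGroup.mk' A)) (QuotientGroup.mk'_surjective A)
      rw [h1] at h2
      exact h2.symm
    have e1 := Subgroup.card_mul_index H
    have e2 := Subgroup.card_mul_index (H.map (QuotientGroup.mk' A))
    have e3 := Subgroup.card_eq_card_quotient_mul_card_subgroup A
    rw [hidx] at e2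
    have hne : H.index ≠ 0 := Subgroup.index_ne_zero_of_finite
    have : Nat.card H * H.index = (Nat.card A * Nat.card ↥(H.map (QuotientGroup.mk' A))) * H.index := by
      rw [e1, e3, ← e2]; ring
    exact Nat.eq_of_mul_eq_mul_right (Nat.pos_of_ne_zero hne) this
  rw [key2, hcard]
  have hA0 : (Nat.card A : ℂ) ≠ 0 := by
    exact_mod_cast Nat.card_pos.ne'
  push_cast
  field_simp

end Cfsg.Agent.S1488
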