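import Cfsg.Statements.S1489
import Cfsg.Agent.Lib.CliffordCorr

set_option autoImplicit false
open Cfsg

namespace Cfsg.Agent.S1489

open Cfsg.Agent.H4 Cfsg.Agent.Clifford

theorem conv {G : Type*} [Group G] [Fintype G] (H T : Subgroup G) [Fintype T] [Fintype H]
    (θ : H → ℂ) (hHT : H ≤ T) (ψ : T → ℂ) (hψ : Cfsg.IsIrrCharacter T ψ)
    (hne : Cfsg.classInner (Cfsg.indFun (H.subgroupOf T)
      (fun x => θ ⟨(x : T), Subgroup.mem_subgroupOf.mp x.2⟩)) ψ ≠ 0) :
    classInner (fun n : H => ψ ⟨n, hHT n.2⟩) θ ≠ 0 := by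
  classical
  letI : Fintype (H.subgroupOf T) := Fintype.ofFinite _
  rw [frobenius_reciprocity (H.subgroupOf T) _ ψ
    (isClassFunction_of_isCharacter (isCharacter_of_isIrrCharacter hψ))] at hne
  have h2 : classInner (fun x : H.subgroupOf T => θ ⟨(x : T), Subgroup.mem_subgroupOf.mp x.2⟩)
      (fun h : H.subgroupOf T => ψ h) = classInner θ (fun n : H => ψ ⟨n, hHT n.2⟩) := by
    rw [← classInner_comp_equiv (Subgroup.subgroupOfEquivOfLe hHT) θ (fun n : H => ψ ⟨n, hHT n.2⟩)]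
    rfl
  rw [h2] at hne
  intro h0
  apply hne
  rw [← classInner_conj_symm, h0, map_zero]

/-- Let H be a normal subgroup of the finite group G, θ an irreducible character of H, and T the inertia group of θ (the elements g with θ(g h g⁻¹) = θ(h) for all h ∈ H). If ψ and ψ' are irreducible characters of T having nonzero inner product with the function induced from θ to T, then the function induced from ψ to G is an irreducible character of G, and it equals the one induced from ψ' only if ψ = ψ'. -/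
theorem result {G : Type*} [Group G] [Fintype G] (H T : Subgroup G) [hN : H.Normal] [Fintype T] (θ : H → ℂ) (hθ : Cfsg.IsIrrCharacter H θ) (hT : ∀ g : G, g ∈ T ↔ ∀ h : H, θ ⟨g * h * g⁻¹, hN.conj_mem h h.2 g⟩ = θ h) (hHT : H ≤ T) (ψ ψ' : T → ℂ) (hψ : Cfsg.IsIrrCharacter T ψ) (hψ' : Cfsg.IsIrrCharacter T ψ') (hc : Cfsg.classInner (Cfsg.indFun (H.subgroupOf T) (fun x => θ ⟨(x : T), Subgroup.mem_subgroupOf.mp x.2⟩)) ψ ≠ 0) (hc' : Cfsg.classInner (Cfsg.indFun (H.subgroupOf T) (fun x => θ ⟨(x : T), Subgroup.mem_subgroupOf.mp x.2⟩)) ψ' ≠ 0) : Cfsg.IsIrrCharacter G (Cfsg.indFun T ψ) ∧ (Cfsg.indFun T ψ = Cfsg.indFun T ψ' → ψ = ψ') := by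
  classical
  letI : Fintype H := Fintype.ofFinite H
  have hTeq := Cfsg.Agent.Clifford.eq_inertia_of_forall H T hT
  exact ⟨(clifford_corr_irr hθ hHT hTeq hψ (conv H T θ hHT ψ hψ hc)).1, fun heq =>
    clifford_corr_inj hθ hHT hTeq hψ hψ' (conv H T θ hHT ψ hψ hc) (conv H T θ hHT ψ' hψ' hc') heq⟩

end Cfsg.Agent.S1489
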