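import Cfsg.Statements.S1490
import Cfsg.Agent.H5.AbelianInertia

set_option autoImplicit false
open Cfsg

namespace Cfsg.Agent.S1490

open Cfsg.Agent.H4 Cfsg.Agent.H5 Cfsg.Agent.Clifford

/-- Let H be a normal subgroup of the finite group G, θ an irreducible character of H with inertia group T, and suppose the commutator of any two elements of T lies in H (T/H abelian). Then there are a positive integer e and a finite set C of irreducible characters of G with e ^ 2 * |C| * |H| = |T|, such that the function induced from θ is e times the sum of the members of C and every member of C has degree [G:T] * e * θ(1). -/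
theorem result {G : Type*} [Group G] [Fintype G] (H T : Subgroup G) [hN : H.Normal] (θ : H → ℂ) (hθ : Cfsg.IsIrrCharacter H θ) (hT : ∀ g : G, g ∈ T ↔ ∀ h : H, θ ⟨g * h * g⁻¹, hN.conj_mem h h.2 g⟩ = θ h) (hab : ∀ x ∈ T, ∀ y ∈ T, x * y * x⁻¹ * y⁻¹ ∈ H) : ∃ (e : ℕ) (C : Finset (G → ℂ)), 0 < e ∧ (∀ χ ∈ C, Cfsg.IsIrrCharacter G χ) ∧ e ^ 2 * C.card * Nat.card H = Nat.card T ∧ Cfsg.indFun H θ = (e : ℂ) • ∑ χ ∈ C, χ ∧ ∀ χ ∈ C, χ 1 = (T.index : ℂ) * e * θ 1 := by
  classical
  haveI : Fintype H := Fintype.ofFinite H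
  haveI : Fintype T := Fintype.ofFinite T
  have hTeq : T = Cfsg.Agent.Clifford.inertia H θ := Cfsg.Agent.Clifford.eq_inertia_of_forall H T hT
  have hθcf : IsClassFunction H θ := isClassFunction_of_isCharacter (isCharacter_of_isIrrCharacter hθ)
  have hHT : H ≤ T := by
    rw [hTeq]
    exact Cfsg.Agent.Clifford.le_inertia H hθcf
  haveI : (H.subgroupOf T).Normal := Subgroup.normal_subgroupOf
  haveI : Fintype (H.subgroupOf T) := Fintype.ofFinite _
  set θ' : H.subgroupOf T → ℂ := fun x => θ ⟨(x : T), Subgroup.mem_subgroupOf.mp x.2⟩ with hθ'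
  have hθ'irr : IsIrrCharacter (H.subgroupOf T) θ' :=
    isIrrCharacter_comp_equiv (Subgroup.subgroupOfEquivOfLe hHT) hθ
  have hinv : ∀ t : T, conjChar (H.subgroupOf T) θ' t = θ' := by
    intro t
    funext x
    have := (hT (t : G)).mp t.2 ⟨((x : T) : G), Subgroup.mem_subgroupOf.mp x.2⟩
    exact this
  have hab' : ∀ x y : T, x * y * x⁻¹ * y⁻¹ ∈ H.subgroupOf T := by
    intro x y
    rw [Subgroup.mem_subgroupOf]
    have := hab x x.2 y y.2
    simpa using this
  obtain ⟨e, C', he, hC', hind, hcard⟩ :=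
    abelian_over_invariant (H.subgroupOf T) hθ'irr hinv hab'
  have hres : ∀ ψ ∈ C', (fun n : H => ψ ⟨n, hHT n.2⟩) = (e : ℂ) • θ := by
    intro ψ hψ
    funext n
    have := congrFun (hC' ψ hψ).2 ⟨⟨n, hHT n.2⟩, Subgroup.mem_subgroupOf.mpr n.2⟩
    exact this
  have hover : ∀ ψ ∈ C', classInner (fun n : H => ψ ⟨n, hHT n.2⟩) θ ≠ 0 := by
    intro ψ hψ
    rw [hres ψ hψ, classInner_smul_left, irr_inner_self ⟨θ, hθ⟩, mul_one]
    exact_mod_cast he.ne'
  have hinj : Set.InjOn (fun ψ : T → ℂ => indFun T ψ) (C' : Set (T → ℂ)) := by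
    intro ψ₁ h₁ ψ₂ h₂ heq
    exact clifford_corr_inj hθ hHT hTeq (hC' ψ₁ h₁).1 (hC' ψ₂ h₂).1 (hover ψ₁ h₁)
      (hover ψ₂ h₂) heq
  refine ⟨e, C'.image (fun ψ => indFun T ψ), he, ?_, ?_, ?_, ?_⟩
  · intro χ hχ
    obtain ⟨ψ, hψ, rfl⟩ := Finset.mem_image.mp hχ
    exact (clifford_corr_irr hθ hHT hTeq (hC' ψ hψ).1 (hover ψ hψ)).1
  · rw [Finset.card_image_of_injOn hinj]
    have e1 : Nat.card (H.subgroupOf T) = Nat.card H :=
      Nat.card_congr (Subgroup.subgroupOfEquivOfLe hHT).toEquiv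
    rw [← e1]
    exact hcard
  · rw [Finset.sum_image hinj, ← indFun_trans H T hHT θ]
    change indFun T (indFun (H.subgroupOf T) θ') = _
    rw [hind, indFun_smul_sum]
  · intro χ hχ
    obtain ⟨ψ, hψ, rfl⟩ := Finset.mem_image.mp hχ
    rw [indFun_one_eq]
    have h1 := congrFun (hres ψ hψ) 1
    simp only [Pi.smul_apply, smul_eq_mul] at h1
    have h2 : ψ 1 = (e : ℂ) * θ 1 := h1
    rw [h2]
    ring

end Cfsg.Agent.S1490
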