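import Cfsg.Statements.S1491
import Cfsg.Agent.S1490
import Cfsg.Agent.H82.CoprimeExt
import Cfsg.Agent.H82.IndDeg
import Cfsg.Agent.Lib.CliffordCorr

set_option autoImplicit false
set_option linter.style.haveILetI false
open Cfsg

namespace Cfsg.Agent.S1491

open Cfsg.Agent.H4 Cfsg.Agent.H82 Cfsg.Agent.Clifford
open scoped ComplexConjugate

/-- Let H be a normal subgroup of the finite group G and θ an irreducible character of H with inertia group T, where T/H is abelian (commutators of T lie in H) and the index of H in T is coprime to the order of H. Then the function induced from θ is the sum of a set of exactly [T:H] irreducible characters of G, each of degree [G:T] * θ(1). -/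
theorem result {G : Type*} [Group G] [Fintype G] (H T : Subgroup G) [hN : H.Normal] (θ : H → ℂ) (hθ : Cfsg.IsIrrCharacter H θ) (hT : ∀ g : G, g ∈ T ↔ ∀ h : H, θ ⟨g * h * g⁻¹, hN.conj_mem h h.2 g⟩ = θ h) (hab : ∀ x ∈ T, ∀ y ∈ T, x * y * x⁻¹ * y⁻¹ ∈ H) (hcop : Nat.Coprime (Nat.card H) (H.relIndex T)) : ∃ C : Finset (G → ℂ), (∀ χ ∈ C, Cfsg.IsIrrCharacter G χ) ∧ C.card = H.relIndex T ∧ Cfsg.indFun H θ = ∑ χ ∈ C, χ ∧ ∀ χ ∈ C, χ 1 = (T.index : ℂ) * θ 1 := by
  classical
  haveI : Fintype H := Fintype.ofFinite H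
  haveI : Fintype T := Fintype.ofFinite T
  have hTeq : T = Cfsg.Agent.Clifford.inertia H θ := Cfsg.Agent.Clifford.eq_inertia_of_forall H T hT
  have hθc : IsCharacter H θ := isCharacter_of_isIrrCharacter hθ
  have hHT : H ≤ T := by
    rw [hTeq]
    exact Cfsg.Agent.Clifford.le_inertia H (isClassFunction_of_isCharacter hθc)
  -- extend θ to T
  let M' : Subgroup T := H.subgroupOf T
  haveI hM'n : M'.Normal := Subgroup.normal_subgroupOf
  let e : M' ≃* H := Subgroup.subgroupOfEquivOfLe hHT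
  set ψ : M' → ℂ := fun y => θ (e y) with hψ
  have hψirr : IsIrrCharacter M' ψ := isIrrCharacter_comp_equiv e hθ
  have hdeg : charDegree ψ = charDegree θ :=
    charDegree_eq_of_one_eq (by show θ (e 1) = θ 1; rw [map_one])
  have hord : detOrder ψ = detOrder θ := detOrder_comp_equiv e hθc
  have hidx : M'.index = H.relIndex T := rfl
  have hab' : ∀ a b : T, a * b * a⁻¹ * b⁻¹ ∈ M' := by
    intro a b
    show ((a * b * a⁻¹ * b⁻¹ : T) : G) ∈ H
    exact hab a a.2 b b.2
  have hinv' : ∀ (t : T) (y : M'), ψ ⟨t * y * t⁻¹, hM'n.conj_mem (y : T) y.2 t⟩ = ψ y := by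
    intro t y
    exact (hT (t : G)).mp t.2 (e y)
  have hcd : Nat.Coprime (charDegree ψ) (H.relIndex T) := by
    rw [hdeg]
    exact Nat.Coprime.coprime_dvd_left (charDegree_dvd_card ⟨θ, hθ⟩) hcop
  have hco : Nat.Coprime (detOrder ψ) (H.relIndex T) := by
    rw [hord]
    exact Nat.Coprime.coprime_dvd_left (detOrder_dvd_card θ) hcop
  obtain ⟨θ', hθ', hext, -⟩ := exists_ext_of_abelian_coprime (H.relIndex T) T M' ψ hidx hab'
    hψirr hinv' hcd hco
  have hres : (fun n : H => θ' ⟨n, hHT n.2⟩) = θ := by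
    funext n
    exact hext ⟨⟨(n : G), hHT n.2⟩, n.2⟩
  have h1 : classInner (fun n : H => θ' ⟨n, hHT n.2⟩) θ ≠ 0 := by
    rw [hres, classInner_irr_irr hθ hθ, if_pos rfl]
    exact one_ne_zero
  obtain ⟨hχ₀, hmult⟩ := Cfsg.Agent.Clifford.clifford_corr_irr hθ hHT hTeq hθ' h1
  set χ₀ := indFun T θ' with hχ₀def
  have hχ₀c := isCharacter_of_isIrrCharacter hχ₀
  rw [hres, classInner_irr_irr hθ hθ, if_pos rfl] at hmult
  -- the decomposition from S1490
  obtain ⟨e', C, he', hC, hcard, hind, hdegC⟩ := Cfsg.Agent.S1490.result H T θ hθ hT hab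
  have hin : classInner (indFun H θ) χ₀ = 1 := by
    rw [frobenius_reciprocity H θ χ₀ (isClassFunction_of_isCharacter hχ₀c),
      ← classInner_conj_symm, hmult, map_one]
  rw [hind, classInner_smul_left, classInner_sum_left] at hin
  have hsum : ∑ χ ∈ C, classInner χ χ₀ = if χ₀ ∈ C then 1 else 0 := by
    rw [Finset.sum_congr rfl (fun χ hχ => classInner_irr_irr (hC χ hχ) hχ₀)]
    rw [Finset.sum_ite_eq' C χ₀ (fun _ => (1 : ℂ))]
  rw [hsum] at hin
  have hmem : χ₀ ∈ C := by
    by_contra hne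
    rw [if_neg hne, mul_zero] at hin
    exact zero_ne_one hin
  rw [if_pos hmem, mul_one] at hin
  have he1 : e' = 1 := by exact_mod_cast hin
  subst he1
  refine ⟨C, hC, ?_, ?_, ?_⟩
  · have h2 := Subgroup.card_mul_index M'
    have h3 : Nat.card M' = Nat.card H := Nat.card_congr e.toEquiv
    rw [h3, hidx] at h2
    rw [one_pow, one_mul, ← h2, mul_comm] at hcard
    exact Nat.eq_of_mul_eq_mul_left Nat.card_pos hcard
  · rw [hind, Nat.cast_one, one_smul]
  · intro χ hχ
    rw [hdegC χ hχ, Nat.cast_one, mul_one]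

end Cfsg.Agent.S1491
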