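import Cfsg.Statements.S1493
import Cfsg.Agent.H79.GaloisChar

set_option autoImplicit false
open Cfsg

namespace Cfsg.Agent.S1493

/-- Let G be a finite group of order a * b with a and b coprime, let k be coprime to a, and let χ be a character of G. Then there is a character χ' of G such that χ'(g) = χ(g ^ k) whenever the order of g divides a and χ'(g) = χ(g) whenever the order of g is coprime to a; moreover χ' is irreducible if χ is. -/
theorem result {G : Type*} [Group G] [Finite G] (a b k : ℕ) (hab : Nat.card G = a * b) (hcop : Nat.Coprime a b) (hk : Nat.Coprime k a) (χ : G → ℂ) (hχ : Cfsg.IsCharacter G χ) : ∃ χ' : G → ℂ, Cfsg.IsCharacter G χ' ∧ (Cfsg.IsIrrCharacter G χ → Cfsg.IsIrrCharacter G χ') ∧ (∀ g : G, orderOf g ∣ a → χ' g = χ (g ^ k)) ∧ (∀ g : G, Nat.Coprime (orderOf g) a → χ' g = χ g) := by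
  obtain ⟨k', hk'a, hk'b⟩ := Nat.chineseRemainder hcop k 1
  have hca : Nat.Coprime k' a := by
    have h := hk'a.gcd_eq
    unfold Nat.Coprime
    rw [h]
    exact hk
  have hcb : Nat.Coprime k' b := by
    have h := hk'b.gcd_eq
    unfold Nat.Coprime
    rw [h]
    exact Nat.gcd_one_left b
  have hcG : Nat.Coprime k' (Nat.card G) := by
    rw [hab]
    exact Nat.Coprime.mul_right hca hcb
  refine ⟨fun g => χ (g ^ k'), Cfsg.Agent.H79.isCharacter_comp_pow k' hcG hχ,
    fun h => Cfsg.Agent.H79.isIrrCharacter_comp_pow k' hcG h, ?_, ?_⟩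
  · intro g hg
    change χ (g ^ k') = χ (g ^ k)
    congr 1
    rw [pow_eq_pow_iff_modEq]
    exact hk'a.of_dvd hg
  · intro g hg
    change χ (g ^ k') = χ g
    congr 1
    have hdvd : orderOf g ∣ b := by
      have h1 : orderOf g ∣ a * b := hab ▸ orderOf_dvd_natCard g
      exact hg.dvd_of_dvd_mul_left h1
    conv_rhs => rw [← pow_one g]
    rw [pow_eq_pow_iff_modEq]
    exact hk'b.of_dvd hdvd
end Cfsg.Agent.S1493
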