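import Cfsg.Statements.S1494
import Cfsg.Agent.H4.Chars
import Cfsg.Agent.H32.LinAb

set_option autoImplicit false
open Cfsg

namespace Cfsg.Agent.S1494

/-- A linear-character version: if `ψ` is multiplicative with `ψ 1 = 1` on a finite group, then
`ψ (x * y) - ψ y` is `(1 - ε)` times an algebraic integer, where `x` has order `p`. -/
theorem linear_case {A : Type*} [Group A] [Finite A] (ψ : A → ℂ) (h1 : ψ 1 = 1)
    (hmul : ∀ a b : A, ψ (a * b) = ψ a * ψ b) (p : ℕ) (hp : p.Prime) (x y : A)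
    (hx : x ^ p = 1) :
    ∃ ω : ℂ, IsIntegral ℤ ω ∧
      ψ (x * y) - ψ y = (1 - Complex.exp (2 * Real.pi * Complex.I / p)) * ω := by
  have hprim : IsPrimitiveRoot (Complex.exp (2 * Real.pi * Complex.I / p)) p :=
    Complex.isPrimitiveRoot_exp p hp.ne_zero
  set ε := Complex.exp (2 * Real.pi * Complex.I / p) with hε
  have hpow : ∀ (a : A) (n : ℕ), ψ (a ^ n) = ψ a ^ n := by
    intro a n
    induction n with
    | zero => simp [h1]
    | succ n ih => rw [pow_succ, hmul, ih, pow_succ]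
  have hxp : ψ x ^ p = 1 := by rw [← hpow, hx, h1]
  haveI : NeZero p := ⟨hp.ne_zero⟩
  obtain ⟨j, -, hj⟩ := hprim.eq_pow_of_pow_eq_one hxp
  have hεint : IsIntegral ℤ ε := by
    apply IsIntegral.of_pow hp.pos
    rw [hprim.pow_eq_one]
    exact isIntegral_one
  have hyint : IsIntegral ℤ (ψ y) := by
    apply IsIntegral.of_pow (orderOf_pos y)
    rw [← hpow, pow_orderOf_eq_one, h1]
    exact isIntegral_one
  refine ⟨-(∑ i ∈ Finset.range j, ε ^ i) * ψ y, ?_, ?_⟩
  · apply IsIntegral.mul _ hyint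
    apply IsIntegral.neg
    apply IsIntegral.sum
    intro i _
    exact hεint.pow i
  · rw [hmul, ← hj]
    have hgeom : (∑ i ∈ Finset.range j, ε ^ i) * (ε - 1) = ε ^ j - 1 := geom_sum_mul ε j
    linear_combination (-ψ y) * hgeom

/-- The statement for genuine characters. -/
theorem char_case {G : Type*} [Group G] [Finite G] (χ : G → ℂ) (hχ : Cfsg.IsCharacter G χ)
    (p : ℕ) (hp : p.Prime) (x y : G) (hx : orderOf x = p) (hxy : x * y = y * x) :
    ∃ ω : ℂ, IsIntegral ℤ ω ∧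
      χ (x * y) - χ y = (1 - Complex.exp (2 * Real.pi * Complex.I / p)) * ω := by
  classical
  set H : Subgroup G := Subgroup.closure {x, y} with hH
  have hcomm : ∀ a b : H, a * b = b * a := by
    have hc : ∀ a ∈ ({x, y} : Set G), ∀ b ∈ ({x, y} : Set G), a * b = b * a := by
      intro a ha b hb
      simp only [Set.mem_insert_iff, Set.mem_singleton_iff] at ha hb
      rcases ha with rfl | rfl <;> rcases hb with rfl | rfl
      · rfl
      · exact hxy
      · exact hxy.symm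
      · rfl
    have hcm := Subgroup.isMulCommutative_closure hc
    intro a b
    exact hcm.is_comm.comm a b
  have hxH : x ∈ H := Subgroup.subset_closure (by simp)
  have hyH : y ∈ H := Subgroup.subset_closure (by simp)
  have hres := Cfsg.Agent.H4.isCharacter_restrict H hχ
  obtain ⟨m, hm⟩ := Cfsg.Agent.H4.isCharacter_iff.mp hres
  letI := Cfsg.Agent.H4.fintypeIrr H
  rw [Cfsg.Agent.H4.finsum_irr_eq_sum] at hm
  have hlin : ∀ ψ : IrrCharacter H, ∃ ω : ℂ, IsIntegral ℤ ω ∧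
      (ψ : H → ℂ) (⟨x, hxH⟩ * ⟨y, hyH⟩) - (ψ : H → ℂ) ⟨y, hyH⟩ =
        (1 - Complex.exp (2 * Real.pi * Complex.I / p)) * ω := by
    intro ψ
    obtain ⟨h1, hmul⟩ := Cfsg.Agent.H32.irr_linear_of_comm hcomm ψ.2
    apply linear_case (ψ : H → ℂ) h1 hmul p hp
    apply Subtype.ext
    simp only [SubgroupClass.coe_pow, OneMemClass.coe_one]
    rw [← hx, pow_orderOf_eq_one]
  choose ω hωint hω using hlin
  refine ⟨∑ ψ : IrrCharacter H, (m ψ : ℂ) * ω ψ, ?_, ?_⟩
  · apply IsIntegral.sum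
    intro ψ _
    apply IsIntegral.mul _ (hωint ψ)
    have h := isIntegral_algebraMap (R := ℤ) (A := ℂ) (x := (m ψ : ℤ))
    simpa using h
  · have e1 : χ (x * y) = ∑ ψ : IrrCharacter H, (m ψ : ℂ) * (ψ : H → ℂ) (⟨x, hxH⟩ * ⟨y, hyH⟩) := by
      have := congrFun hm (⟨x, hxH⟩ * ⟨y, hyH⟩)
      simp only [Finset.sum_apply, Pi.smul_apply, smul_eq_mul] at this
      rw [← this]
      rfl
    have e2 : χ y = ∑ ψ : IrrCharacter H, (m ψ : ℂ) * (ψ : H → ℂ) ⟨y, hyH⟩ := by
      have := congrFun hm ⟨y, hyH⟩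
      simp only [Finset.sum_apply, Pi.smul_apply, smul_eq_mul] at this
      rw [← this]
    rw [e1, e2, ← Finset.sum_sub_distrib, Finset.mul_sum]
    apply Finset.sum_congr rfl
    intro ψ _
    rw [← mul_sub, hω ψ]
    ring

/-- Let χ be a generalized character of the finite group G, p a prime, x an element of order p and y an element commuting with x. Then χ(x * y) − χ(y) = (1 − ε) * ω for some algebraic integer ω, where ε = exp(2πi/p). -/
theorem result {G : Type*} [Group G] [Finite G] (χ : G → ℂ) (hχ : Cfsg.IsGeneralizedCharacter G χ) (p : ℕ) (hp : p.Prime) (x y : G) (hx : orderOf x = p) (hxy : x * y = y * x) : ∃ ω : ℂ, IsIntegral ℤ ω ∧ χ (x * y) - χ y = (1 - Complex.exp (2 * Real.pi * Complex.I / p)) * ω := by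
  obtain ⟨χ₁, χ₂, h₁, h₂, rfl⟩ := hχ
  obtain ⟨ω₁, hi₁, hω₁⟩ := char_case χ₁ h₁ p hp x y hx hxy
  obtain ⟨ω₂, hi₂, hω₂⟩ := char_case χ₂ h₂ p hp x y hx hxy
  refine ⟨ω₁ - ω₂, hi₁.sub hi₂, ?_⟩
  simp only [Pi.sub_apply]
  linear_combination hω₁ - hω₂

end Cfsg.Agent.S1494
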