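import Mathlib
import Cfsg.Statements.S1495

set_option autoImplicit false
open Cfsg

namespace Cfsg.Agent.S1495

/-- Let p be a prime, ε = exp(2πi/p), and n an integer such that n = (1 − ε) * ω for some algebraic integer ω. Then p divides n. -/
theorem result (p : ℕ) (hp : p.Prime) (n : ℤ) (ω : ℂ) (hω : IsIntegral ℤ ω) (h : (n : ℂ) = (1 - Complex.exp (2 * Real.pi * Complex.I / p)) * ω) : (p : ℤ) ∣ n := by
  by_contra hnd
  have : Fact p.Prime := ⟨hp⟩
  have : NeZero p := ⟨hp.ne_zero⟩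
  have hcop : IsCoprime (n : ℤ) (p : ℤ) :=
    ((Nat.prime_iff_prime_int.mp hp).coprime_iff_not_dvd.mpr hnd).symm
  obtain ⟨a, b, hab⟩ := hcop
  set ε := Complex.exp (2 * Real.pi * Complex.I / p) with hεdef
  have hε : IsPrimitiveRoot ε p := Complex.isPrimitiveRoot_exp p hp.ne_zero
  have hεint : IsIntegral ℤ ε := hε.isIntegral hp.pos
  set ζ : integralClosure ℤ ℂ := ⟨ε, hεint⟩ with hζdef
  have hζ : IsPrimitiveRoot ζ p := by
    have : IsPrimitiveRoot ((algebraMap (integralClosure ℤ ℂ) ℂ) ζ) p := hε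
    exact IsPrimitiveRoot.of_map_of_injective (f := algebraMap (integralClosure ℤ ℂ) ℂ)
      this Subtype.val_injective
  have h1 : ζ - 1 ∣ ((p : ℕ) : integralClosure ℤ ℂ) := hζ.sub_one_dvd_natCast hp.one_lt
  have h2 : ζ - 1 ∣ ((n : ℤ) : integralClosure ℤ ℂ) := by
    refine ⟨-⟨ω, hω⟩, ?_⟩
    apply Subtype.ext
    simp only [hζdef]
    push_cast
    rw [h]
    ring
  have h3 : ζ - 1 ∣ 1 := by
    have e1 : (1 : integralClosure ℤ ℂ) = (a : integralClosure ℤ ℂ) * (n : integralClosure ℤ ℂ)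
        + (b : integralClosure ℤ ℂ) * ((p : ℕ) : integralClosure ℤ ℂ) := by
      have := congrArg (Int.cast : ℤ → integralClosure ℤ ℂ) hab.symm
      push_cast at this
      exact this
    have e2 : ζ - 1 ∣ (a : integralClosure ℤ ℂ) * (n : integralClosure ℤ ℂ)
        + (b : integralClosure ℤ ℂ) * ((p : ℕ) : integralClosure ℤ ℂ) :=
      dvd_add (dvd_mul_of_dvd_right h2 _) (dvd_mul_of_dvd_right h1 _)
    rwa [← e1] at e2
  have hunit : IsUnit (ζ - 1) := isUnit_of_dvd_one h3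
  have hpunit : IsUnit ((p : ℕ) : integralClosure ℤ ℂ) := by
    have hcyc := Polynomial.cyclotomic_eq_prod_X_sub_primitiveRoots hζ
    have hev : ((p : ℕ) : integralClosure ℤ ℂ) =
        ∏ μ ∈ primitiveRoots p (integralClosure ℤ ℂ), (1 - μ) := by
      have := congrArg (Polynomial.eval 1) hcyc
      rw [Polynomial.eval_one_cyclotomic_prime, Polynomial.eval_prod] at this
      simpa using this
    rw [hev]
    have : ∀ μ ∈ primitiveRoots p (integralClosure ℤ ℂ), IsUnit (1 - μ) := by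
      intro μ hμ
      have hμ' : IsPrimitiveRoot μ p := (mem_primitiveRoots hp.pos).mp hμ
      obtain ⟨k, hk, rfl⟩ := hζ.eq_pow_of_pow_eq_one hμ'.pow_eq_one
      have hkc : k.Coprime p := (hζ.pow_iff_coprime hp.pos k).mp hμ'
      have hass := hζ.associated_sub_one_pow_sub_one_of_coprime hkc
      have hu : IsUnit (ζ ^ k - 1) := hass.isUnit hunit
      rw [← neg_sub]
      exact hu.neg
    exact (IsUnit.prod_iff).mpr this
  obtain ⟨v, hv⟩ := hpunit.exists_right_inv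
  have hv' : (p : ℂ) * (v : ℂ) = 1 := by
    have := congrArg Subtype.val hv
    simpa using this
  have hvint : IsIntegral ℤ ((p : ℂ)⁻¹) := by
    have : (v : ℂ) = (p : ℂ)⁻¹ := eq_inv_of_mul_eq_one_right hv'
    rw [← this]; exact v.2
  have hq : IsIntegral ℤ ((p : ℚ)⁻¹) := by
    have e : (algebraMap ℚ ℂ) ((p : ℚ)⁻¹) = (p : ℂ)⁻¹ := by simp
    rw [← e] at hvint
    exact (isIntegral_algebraMap_iff (algebraMap ℚ ℂ).injective).mp hvint
  obtain ⟨m, hm⟩ := IsIntegrallyClosed.isIntegral_iff.mp hq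
  have hm' : (m : ℚ) * (p : ℚ) = 1 := by
    have hp0 : (p : ℚ) ≠ 0 := by exact_mod_cast hp.ne_zero
    have : (m : ℚ) = (p : ℚ)⁻¹ := by simpa using hm
    rw [this]; exact inv_mul_cancel₀ hp0
  have hm'' : m * (p : ℤ) = 1 := by exact_mod_cast hm'
  have : (p : ℤ) ∣ 1 := ⟨m, by rw [mul_comm]; exact hm''.symm⟩
  have hp1 : (p : ℤ) = 1 ∨ (p : ℤ) = -1 := Int.isUnit_iff.mp (isUnit_of_dvd_one this)
  have hp2 : (2 : ℤ) ≤ p := by exact_mod_cast hp.two_le
  omega

end Cfsg.Agent.S1495
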