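import Cfsg.Statements.S1497

set_option autoImplicit false
open Cfsg

namespace Cfsg.Agent.S1497

/-- Let A be a nonempty subset of the finite group G not containing 1 and L a subgroup. Then A is a TI-subset whose normaliser is L if and only if the Dade hypothesis holds for A, L and the constant choice H(a) = ⊥. -/
theorem result {G : Type*} [Group G] [Finite G] (A : Set G) (hA : A.Nonempty) (h1 : (1 : G) ∉ A) (L : Subgroup G) : (Cfsg.IsTISubset A ∧ Subgroup.normalizer A = L) ↔ Cfsg.DadeHypothesis A L (fun _ => ⊥) := by
  constructor
  · rintro ⟨hTI, hN⟩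
    have hAL : A ⊆ (L : Set G) := by
      intro a ha
      by_contra hna
      have : a ∉ Subgroup.normalizer A := by rw [hN]; exact hna
      have := hTI a this a ha (by simpa using ha)
      exact h1 (this ▸ ha)
    have hcent : ∀ a ∈ A, Subgroup.centralizer ({a} : Set G) ≤ L := by
      intro a ha c hc
      by_contra hna
      have hcn : c ∉ Subgroup.normalizer A := by rw [hN]; exact hna
      have hca : c * a * c⁻¹ = a := by
        have := Subgroup.mem_centralizer_iff.mp hc a (Set.mem_singleton a)
        rw [← this]; group
      have := hTI c hcn a ha (by rw [hca]; exact ha)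
      exact h1 (this ▸ ha)
    refine ⟨h1, hAL, ?_, ?_, ?_, ?_, ?_, ?_, ?_⟩
    · intro x hx a ha
      have hx' : x ∈ Subgroup.normalizer A := by rw [hN]; exact hx
      exact (Subgroup.mem_set_normalizer_iff.mp hx' a).mp ha
    · intro a ha g hg
      refine ⟨g, ?_, rfl⟩
      by_contra hna
      have hgn : g ∉ Subgroup.normalizer A := by rw [hN]; exact hna
      have := hTI g hgn a ha hg
      exact h1 (this ▸ ha)
    · intro a ha
      exact bot_le
    · intro a ha c hc u hu
      have : u = 1 := by simpa using hu
      subst this
      simp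
    · intro a ha
      simp
    · intro a ha
      simp only [bot_sup_eq]
      exact inf_eq_right.mpr (hcent a ha)
    · intro a ha b hb
      simp
  · intro hD
    have hsub : ∀ g : G, (∃ a ∈ A, g * a * g⁻¹ ∈ A) → g ∈ L := by
      rintro g ⟨a, ha, hga⟩
      obtain ⟨x, hx, hxa⟩ := hD.fusion a ha g hga
      have hc : x⁻¹ * g ∈ Subgroup.centralizer ({a} : Set G) := by
        rw [Subgroup.mem_centralizer_iff]
        intro y hy
        rw [Set.mem_singleton_iff] at hy
        subst hy
        have : x⁻¹ * (x * y * x⁻¹) * x = x⁻¹ * (g * y * g⁻¹) * x := by rw [hxa]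
        have h2 : y = x⁻¹ * g * y * g⁻¹ * x := by
          calc y = x⁻¹ * (x * y * x⁻¹) * x := by group
            _ = x⁻¹ * (g * y * g⁻¹) * x := this
            _ = x⁻¹ * g * y * g⁻¹ * x := by group
        calc y * (x⁻¹ * g) = (x⁻¹ * g * y * g⁻¹ * x) * (x⁻¹ * g) := by rw [← h2]
          _ = x⁻¹ * g * y := by group
      have hcL : x⁻¹ * g ∈ L := by
        have := hD.sup_eq a ha
        simp only [bot_sup_eq] at this
        have h3 : Subgroup.centralizer ({a} : Set G) ≤ L := by
          rw [← this]; exact inf_le_left
        exact h3 hc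
      have : g = x * (x⁻¹ * g) := by group
      rw [this]
      exact L.mul_mem hx hcL
    have hN : Subgroup.normalizer A = L := by
      apply le_antisymm
      · intro g hg
        obtain ⟨a, ha⟩ := hA
        exact hsub g ⟨a, ha, (Subgroup.mem_set_normalizer_iff.mp hg a).mp ha⟩
      · intro x hx
        rw [Subgroup.mem_set_normalizer_iff]
        intro a
        constructor
        · intro ha
          exact hD.conj_mem x hx a ha
        · intro ha
          have := hD.conj_mem x⁻¹ (L.inv_mem hx) _ ha
          have h2 : x⁻¹ * (x * a * x⁻¹) * x⁻¹⁻¹ = a := by group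
          rwa [h2] at this
    refine ⟨?_, hN⟩
    intro g hg x hx hgx
    exfalso
    apply hg
    rw [hN]
    exact hsub g ⟨x, hx, hgx⟩

end Cfsg.Agent.S1497
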