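-- Statement S1502: existence of the cyclic TI family (Peterfalvi (3.2)).
-- Team project led by helper81; pieces by helpers 28, 8, 18, 89, 65, 84, 32.
import Cfsg.Statements.S1502
import Cfsg.Agent.H81.CycMain
import Cfsg.Agent.H28.CycVec3
import Cfsg.Agent.H8.CycDot
import Cfsg.Agent.H8.CycPair
import Cfsg.Agent.H18.CycNoTrans
import Cfsg.Agent.H18.CycCol4
import Cfsg.Agent.H89.CycSun
import Cfsg.Agent.H89.CycAsm
import Cfsg.Agent.H84.CycGram
import Cfsg.Agent.H65.CycCard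
import Cfsg.Agent.H65.CycFam
import Cfsg.Agent.H32.CycEqOn

set_option autoImplicit false
open Cfsg

namespace Cfsg.Agent.S1502

/-- Let W₁, W₂ be nontrivial subgroups of the finite group G generating a cyclic subgroup W = W₁ ⊔ W₂ of odd order that is the normaliser of every nonempty set of its elements outside W₁ ∪ W₂. Then there is a family attaching to each linear character ω of W an irreducible character of G up to sign, orthonormal, sending the trivial character to the principal character, with χ ω = ω on W outside W₁ ∪ W₂, and such that inducing (1 − φ)(1 − ψ) to G gives 1 − χ φ − χ ψ + χ (φψ) whenever φ ≠ 1 is trivial on W₂ and ψ ≠ 1 is trivial on W₁. -/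
theorem result {G : Type*} [Group G] [Fintype G] (W₁ W₂ : Subgroup G) (hW : Cfsg.IsSelfNormalizingCyclic W₁ W₂) (hodd : Odd (Nat.card ↥(W₁ ⊔ W₂))) : ∃ χ : (↥(W₁ ⊔ W₂) →* ℂˣ) → (G → ℂ), Cfsg.IsCyclicTIFamily W₁ W₂ χ :=
  Cfsg.Agent.H81.Cyc.main_of_pieces Cfsg.Agent.H28.Cyc.vec3 Cfsg.Agent.H8.Cyc.dot
    (Cfsg.Agent.H89.Cyc.sun Cfsg.Agent.H18.Cyc.noTrans) Cfsg.Agent.H8.Cyc.pair
    Cfsg.Agent.H18.Cyc.col4 Cfsg.Agent.H89.Cyc.asm Cfsg.Agent.H84.Cyc.gram
    Cfsg.Agent.H65.Cyc.card Cfsg.Agent.H65.Cyc.fam Cfsg.Agent.H32.Cyc.eqOn W₁ W₂ hW hodd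

end Cfsg.Agent.S1502
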