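import Cfsg.Statements.S1503
import Cfsg.Agent.H32.Dual

set_option autoImplicit false
open Cfsg

namespace Cfsg.Agent.S1503

open Cfsg.Agent.H4 Cfsg.Agent.H32

/-- Let W₁, W₂ ≤ G with W = W₁ ⊔ W₂ and let χ an orthonormal family of irreducible characters of G up to sign, indexed by the linear characters ω of W, with χ_1 = 1, χ_ω = ω on W outside W₁ ∪ W₂, and the induction identity for (1 − φ)(1 − ψ). If θ is an irreducible character of G orthogonal to χ ω for every linear character ω of W, then θ vanishes at every element of W lying outside W₁ ∪ W₂. -/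
theorem result {G : Type*} [Group G] [Fintype G] (W₁ W₂ : Subgroup G) (hW : Cfsg.IsSelfNormalizingCyclic W₁ W₂) (χ : (↥(W₁ ⊔ W₂) →* ℂˣ) → (G → ℂ)) (hχ : Cfsg.IsCyclicTIFamily W₁ W₂ χ) (θ : G → ℂ) (hθ : Cfsg.IsIrrCharacter G θ) (horth : ∀ ω, Cfsg.classInner θ (χ ω) = 0) (w : ↥(W₁ ⊔ W₂)) (hw₁ : (w : G) ∉ W₁) (hw₂ : (w : G) ∉ W₂) : θ w = 0 := by
  classical
  have : Fintype ↥(W₁ ⊔ W₂) := Fintype.ofFinite _
  have : Fintype (↥(W₁ ⊔ W₂) →* ℂˣ) := Fintype.ofFinite _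
  have hcomm : ∀ a b : ↥(W₁ ⊔ W₂), a * b = b * a := by
    intro a b
    exact Subtype.ext (snc_comm W₁ W₂ hW a.2 b.2)
  have hθc : IsClassFunction G θ :=
    isClassFunction_of_isCharacter (isCharacter_of_isIrrCharacter hθ)
  have hcard : (Nat.card ↥(W₁ ⊔ W₂) : ℂ) ≠ 0 := by
    have : 0 < Nat.card ↥(W₁ ⊔ W₂) := Nat.card_pos
    exact_mod_cast this.ne'
  have horth' : ∀ ω, classInner (χ ω) θ = 0 := by
    intro ω
    rw [← classInner_conj_symm, horth ω, map_zero]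
  -- the key orthogonality on `W`
  have key : ∀ φ ψ : ↥(W₁ ⊔ W₂) →* ℂˣ, (∀ w : ↥(W₁ ⊔ W₂), (w : G) ∈ W₂ → φ w = 1) →
      (∀ w : ↥(W₁ ⊔ W₂), (w : G) ∈ W₁ → ψ w = 1) →
      ∑ x : ↥(W₁ ⊔ W₂), (1 - (φ x : ℂ) - (ψ x : ℂ) + (φ x : ℂ) * (ψ x : ℂ)) *
        (starRingEnd ℂ) (θ x) = 0 := by
    intro φ ψ hφ₂ hψ₁
    by_cases hφ : φ = 1
    · subst hφ
      simp
    by_cases hψ : ψ = 1
    · subst hψ
      simp
    have hind := hχ.induced_eq φ ψ hφ hψ hφ₂ hψ₁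
    have h0 : classInner (indFun (W₁ ⊔ W₂)
        (fun w => 1 - (φ w : ℂ) - (ψ w : ℂ) + (φ w : ℂ) * (ψ w : ℂ))) θ = 0 := by
      rw [hind]
      have e : (fun g => 1 - χ φ g - χ ψ g + χ (φ * ψ) g) = χ 1 - χ φ - χ ψ + χ (φ * ψ) := by
        ext g
        simp [hχ.map_one]
      rw [e, classInner_add_left, classInner_sub_left, classInner_sub_left, horth', horth',
        horth', horth']
      ring
    rw [frobenius_reciprocity _ _ _ hθc] at h0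
    unfold classInner at h0
    rcases mul_eq_zero.mp h0 with h | h
    · exact absurd (inv_eq_zero.mp h) hcard
    · exact h
  set H₁ : Subgroup ↥(W₁ ⊔ W₂) := W₁.subgroupOf (W₁ ⊔ W₂) with hH₁
  set H₂ : Subgroup ↥(W₁ ⊔ W₂) := W₂.subgroupOf (W₁ ⊔ W₂) with hH₂
  set SA := Finset.univ.filter (fun φ : ↥(W₁ ⊔ W₂) →* ℂˣ => ∀ y ∈ H₂, φ y = 1) with hSA
  set SB := Finset.univ.filter (fun ψ : ↥(W₁ ⊔ W₂) →* ℂˣ => ∀ y ∈ H₁, ψ y = 1) with hSB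
  have hwH₁ : w ∉ H₁ := fun h => hw₁ (Subgroup.mem_subgroupOf.mp h)
  have hwH₂ : w ∉ H₂ := fun h => hw₂ (Subgroup.mem_subgroupOf.mp h)
  have hsum : ∑ φ ∈ SA, ∑ ψ ∈ SB, (starRingEnd ℂ) (φ w : ℂ) * (starRingEnd ℂ) (ψ w : ℂ) *
      ∑ x : ↥(W₁ ⊔ W₂), (1 - (φ x : ℂ) - (ψ x : ℂ) + (φ x : ℂ) * (ψ x : ℂ)) *
        (starRingEnd ℂ) (θ x) = 0 := by
    apply Finset.sum_eq_zero
    intro φ hφ
    apply Finset.sum_eq_zero
    intro ψ hψ
    rw [hSA, Finset.mem_filter] at hφ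
    rw [hSB, Finset.mem_filter] at hψ
    rw [key φ ψ (fun y hy => hφ.2 y (Subgroup.mem_subgroupOf.mpr hy))
      (fun y hy => hψ.2 y (Subgroup.mem_subgroupOf.mpr hy)), mul_zero]
  have hLHS : ∑ φ ∈ SA, ∑ ψ ∈ SB, (starRingEnd ℂ) (φ w : ℂ) * (starRingEnd ℂ) (ψ w : ℂ) *
      ∑ x : ↥(W₁ ⊔ W₂), (1 - (φ x : ℂ) - (ψ x : ℂ) + (φ x : ℂ) * (ψ x : ℂ)) *
        (starRingEnd ℂ) (θ x) =
      ∑ x : ↥(W₁ ⊔ W₂), (∑ φ ∈ SA, (starRingEnd ℂ) (φ w : ℂ) * (1 - (φ x : ℂ))) *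
        (∑ ψ ∈ SB, (starRingEnd ℂ) (ψ w : ℂ) * (1 - (ψ x : ℂ))) * (starRingEnd ℂ) (θ x) := by
    calc ∑ φ ∈ SA, ∑ ψ ∈ SB, (starRingEnd ℂ) (φ w : ℂ) * (starRingEnd ℂ) (ψ w : ℂ) *
          ∑ x : ↥(W₁ ⊔ W₂), (1 - (φ x : ℂ) - (ψ x : ℂ) + (φ x : ℂ) * (ψ x : ℂ)) *
            (starRingEnd ℂ) (θ x)
        = ∑ φ ∈ SA, ∑ ψ ∈ SB, ∑ x : ↥(W₁ ⊔ W₂),
            ((starRingEnd ℂ) (φ w : ℂ) * (1 - (φ x : ℂ))) *
            ((starRingEnd ℂ) (ψ w : ℂ) * (1 - (ψ x : ℂ))) * (starRingEnd ℂ) (θ x) := by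
          apply Finset.sum_congr rfl
          intro φ _
          apply Finset.sum_congr rfl
          intro ψ _
          rw [Finset.mul_sum]
          apply Finset.sum_congr rfl
          intro x _
          ring
      _ = ∑ φ ∈ SA, ∑ x : ↥(W₁ ⊔ W₂), ∑ ψ ∈ SB,
            ((starRingEnd ℂ) (φ w : ℂ) * (1 - (φ x : ℂ))) *
            ((starRingEnd ℂ) (ψ w : ℂ) * (1 - (ψ x : ℂ))) * (starRingEnd ℂ) (θ x) := by
          apply Finset.sum_congr rfl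
          intro φ _
          exact Finset.sum_comm
      _ = ∑ x : ↥(W₁ ⊔ W₂), ∑ φ ∈ SA, ∑ ψ ∈ SB,
            ((starRingEnd ℂ) (φ w : ℂ) * (1 - (φ x : ℂ))) *
            ((starRingEnd ℂ) (ψ w : ℂ) * (1 - (ψ x : ℂ))) * (starRingEnd ℂ) (θ x) :=
          Finset.sum_comm
      _ = _ := by
          apply Finset.sum_congr rfl
          intro x _
          rw [Finset.sum_mul_sum, Finset.sum_mul]
          apply Finset.sum_congr rfl
          intro φ _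
          rw [Finset.sum_mul]
  rw [hLHS] at hsum
  have hP : ∀ x : ↥(W₁ ⊔ W₂), ∑ φ ∈ SA, (starRingEnd ℂ) (φ w : ℂ) * (1 - (φ x : ℂ)) =
      if w⁻¹ * x ∈ H₂ then -(SA.card : ℂ) else 0 := by
    intro x
    exact sum_dual_conj_one_sub hcomm H₂ hwH₂ x
  have hQ : ∀ x : ↥(W₁ ⊔ W₂), ∑ ψ ∈ SB, (starRingEnd ℂ) (ψ w : ℂ) * (1 - (ψ x : ℂ)) =
      if w⁻¹ * x ∈ H₁ then -(SB.card : ℂ) else 0 := by
    intro x
    exact sum_dual_conj_one_sub hcomm H₁ hwH₁ x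
  rw [Finset.sum_congr rfl (fun x _ => by rw [hP x, hQ x])] at hsum
  rw [Finset.sum_eq_single w] at hsum
  · have h1 : w⁻¹ * w ∈ H₁ := by rw [inv_mul_cancel]; exact H₁.one_mem
    have h2 : w⁻¹ * w ∈ H₂ := by rw [inv_mul_cancel]; exact H₂.one_mem
    rw [if_pos h1, if_pos h2] at hsum
    have hA : (SA.card : ℂ) ≠ 0 := by
      have : (1 : ↥(W₁ ⊔ W₂) →* ℂˣ) ∈ SA := by
        rw [hSA, Finset.mem_filter]
        exact ⟨Finset.mem_univ _, fun _ _ => rfl⟩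
      have hpos : 0 < SA.card := Finset.card_pos.mpr ⟨1, this⟩
      exact_mod_cast hpos.ne'
    have hB : (SB.card : ℂ) ≠ 0 := by
      have : (1 : ↥(W₁ ⊔ W₂) →* ℂˣ) ∈ SB := by
        rw [hSB, Finset.mem_filter]
        exact ⟨Finset.mem_univ _, fun _ _ => rfl⟩
      have hpos : 0 < SB.card := Finset.card_pos.mpr ⟨1, this⟩
      exact_mod_cast hpos.ne'
    have h3 : (starRingEnd ℂ) (θ w) = 0 := by
      have h4 : -(SA.card : ℂ) * -(SB.card : ℂ) ≠ 0 :=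
        mul_ne_zero (neg_ne_zero.mpr hA) (neg_ne_zero.mpr hB)
      rcases mul_eq_zero.mp hsum with h | h
      · exact absurd h h4
      · exact h
    simpa using h3
  · intro x _ hx
    by_cases h2 : w⁻¹ * x ∈ H₂
    · by_cases h1 : w⁻¹ * x ∈ H₁
      · exfalso
        apply hx
        have hinf := hW.2.2.1
        have hmem : ((w⁻¹ * x : ↥(W₁ ⊔ W₂)) : G) ∈ W₁ ⊓ W₂ :=
          ⟨Subgroup.mem_subgroupOf.mp h1, Subgroup.mem_subgroupOf.mp h2⟩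
        rw [hinf, Subgroup.mem_bot] at hmem
        have h5 : w⁻¹ * x = 1 := Subtype.ext hmem
        exact (inv_mul_eq_one.mp h5).symm
      · rw [if_neg h1, mul_zero, zero_mul]
    · rw [if_neg h2, zero_mul, zero_mul]
  · intro h
    exact absurd (Finset.mem_univ w) h

end Cfsg.Agent.S1503
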