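import Cfsg.Statements.S1504
import Cfsg.Agent.H32.LinChar

set_option autoImplicit false
open Cfsg

namespace Cfsg.Agent.S1504

/-- Let W₁, W₂ be subgroups of a finite group with W₁ ⊓ W₂ = ⊥ whose elements commute, and W = W₁ ⊔ W₂. For linear characters φ, ψ of W with φ trivial on W₂ and ψ trivial on W₁, the function (1 − φ)(1 − ψ) vanishes on W₁ ∪ W₂; and the family of these functions, indexed by pairs (φ, ψ) with φ ≠ 1 ≠ ψ, is linearly independent over ℂ. -/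
theorem result {G : Type*} [Group G] [Finite G] (W₁ W₂ : Subgroup G) (hdisj : W₁ ⊓ W₂ = ⊥) (hcomm : ∀ a ∈ W₁, ∀ b ∈ W₂, a * b = b * a) : (∀ φ ψ : ↥(W₁ ⊔ W₂) →* ℂˣ, (∀ w : ↥(W₁ ⊔ W₂), (w : G) ∈ W₂ → φ w = 1) → (∀ w : ↥(W₁ ⊔ W₂), (w : G) ∈ W₁ → ψ w = 1) → ∀ w : ↥(W₁ ⊔ W₂), ((w : G) ∈ W₁ ∨ (w : G) ∈ W₂) → (1 - (φ w : ℂ) - (ψ w : ℂ) + (φ w : ℂ) * (ψ w : ℂ)) = 0) ∧ LinearIndependent ℂ (fun p : {p : (↥(W₁ ⊔ W₂) →* ℂˣ) × (↥(W₁ ⊔ W₂) →* ℂˣ) // p.1 ≠ 1 ∧ p.2 ≠ 1 ∧ (∀ w : ↥(W₁ ⊔ W₂), (w : G) ∈ W₂ → p.1 w = 1) ∧ (∀ w : ↥(W₁ ⊔ W₂), (w : G) ∈ W₁ → p.2 w = 1)} => fun w : ↥(W₁ ⊔ W₂) => 1 - (p.1.1 w : ℂ) - (p.1.2 w : ℂ) + (p.1.1 w : ℂ) * (p.1.2 w : ℂ)) := by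
  refine ⟨?_, Cfsg.Agent.H32.linearIndependent_one_sub_mul W₁ W₂⟩
  intro φ ψ hφ hψ w hw
  rcases hw with hw | hw
  · rw [hψ w hw]; simp
  · rw [hφ w hw]; simp

end Cfsg.Agent.S1504
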