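import Cfsg.Statements.S1507
import Cfsg.Agent.H32.SNC2

set_option autoImplicit false
open Cfsg

namespace Cfsg.Agent.S1507

open Cfsg.Agent.H4 Cfsg.Agent.H32

open Classical in
/-- Let W₁, W₂ ≤ G form a self-normalising cyclic subgroup W = W₁ ⊔ W₂ of odd order with Nat.card W₁ < Nat.card W₂, and χ an orthonormal family of irreducible characters of G up to sign, indexed by the linear characters ω of W, with χ_1 = 1, χ_ω = ω on W outside W₁ ∪ W₂, and the induction identity for (1 − φ)(1 − ψ). Let θ be a class function of G vanishing on W outside W₁ ∪ W₂, and suppose fewer than 2 · Nat.card W₁ linear characters ω of W have ⟨θ, χ ω⟩ ≠ 0. Then one of: all ⟨θ, χ ω⟩ vanish; or there are ψ₀ and a with ⟨θ, χ ω⟩ = a when ω ψ₀⁻¹ is trivial on W₂ and 0 otherwise; or there are φ₀ and a with ⟨θ, χ ω⟩ = a when ω φ₀⁻¹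 is trivial on W₁ and 0 otherwise. -/
theorem result {G : Type*} [Group G] [Fintype G] (W₁ W₂ : Subgroup G) (hW : Cfsg.IsSelfNormalizingCyclic W₁ W₂) (hodd : Odd (Nat.card ↥(W₁ ⊔ W₂))) (χ : (↥(W₁ ⊔ W₂) →* ℂˣ) → (G → ℂ)) (hχ : Cfsg.IsCyclicTIFamily W₁ W₂ χ) (hlt : Nat.card W₁ < Nat.card W₂) (θ : G → ℂ) (hθ : Cfsg.IsClassFunction G θ) (hθV : ∀ w : ↥(W₁ ⊔ W₂), (w : G) ∉ W₁ → (w : G) ∉ W₂ → θ w = 0) (hfew : Nat.card {ω : ↥(W₁ ⊔ W₂) →* ℂˣ // Cfsg.classInner θ (χ ω) ≠ 0} < 2 * Nat.card W₁) : (∀ ω, Cfsg.classInner θ (χ ω) = 0) ∨ (∃ (ψ₀ : ↥(W₁ ⊔ W₂) →* ℂˣ) (a : ℂ), ∀ ω, Cfsg.classInner θ (χ ω) = if (∀ w : ↥(W₁ ⊔ W₂), (w : G) ∈ W₂ → (ω * ψ₀⁻¹) w = 1) then a else 0) ∨ (∃ (φ₀ : ↥(W₁ ⊔ W₂) →* ℂˣ) (a : ℂ), ∀ ω, Cfsg.classInner θ (χ ω) = if (∀ w : ↥(W₁ ⊔ W₂), (w : G) ∈ W₁ → (ω * φ₀⁻¹) w = 1) then a else 0) := by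
  classical
  have hfinW : Finite (↥(W₁ ⊔ W₂) →* ℂˣ) := inferInstance
  have hA : Fintype {φ : ↥(W₁ ⊔ W₂) →* ℂˣ // ∀ w : ↥(W₁ ⊔ W₂), (w : G) ∈ W₂ → φ w = 1} :=
    Fintype.ofFinite _
  have hB : Fintype {ψ : ↥(W₁ ⊔ W₂) →* ℂˣ // ∀ w : ↥(W₁ ⊔ W₂), (w : G) ∈ W₁ → ψ w = 1} :=
    Fintype.ofFinite _
  have hcA : Fintype.card
      {φ : ↥(W₁ ⊔ W₂) →* ℂˣ // ∀ w : ↥(W₁ ⊔ W₂), (w : G) ∈ W₂ → φ w = 1} = Nat.card W₁ := by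
    rw [← Nat.card_eq_fintype_card]
    exact snc_card_left W₁ W₂ hW
  have hcB : Fintype.card
      {ψ : ↥(W₁ ⊔ W₂) →* ℂˣ // ∀ w : ↥(W₁ ⊔ W₂), (w : G) ∈ W₁ → ψ w = 1} = Nat.card W₂ := by
    rw [← Nat.card_eq_fintype_card]
    exact snc_card_right W₁ W₂ hW
  -- parity and size
  have hodd₁ : Odd (Nat.card W₁) :=
    Odd.of_dvd_nat hodd (Subgroup.card_dvd_of_le (le_sup_left : W₁ ≤ W₁ ⊔ W₂))
  have hodd₂ : Odd (Nat.card W₂) :=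
    Odd.of_dvd_nat hodd (Subgroup.card_dvd_of_le (le_sup_right : W₂ ≤ W₁ ⊔ W₂))
  have hne1 : Nat.card W₁ ≠ 1 := fun h => hW.1 (Subgroup.card_eq_one.mp h)
  have hpos1 : 0 < Nat.card W₁ := Nat.card_pos
  have hm3 : 3 ≤ Nat.card W₁ := by
    obtain ⟨k, hk⟩ := hodd₁
    omega
  have hn : Nat.card W₁ + 2 ≤ Nat.card W₂ := by
    obtain ⟨k, hk⟩ := hodd₁
    obtain ⟨l, hl⟩ := hodd₂
    omega
  -- the matrix
  have hFG : ∀ (φ : {φ : ↥(W₁ ⊔ W₂) →* ℂˣ // ∀ w : ↥(W₁ ⊔ W₂), (w : G) ∈ W₂ → φ w = 1})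
      (ψ : {ψ : ↥(W₁ ⊔ W₂) →* ℂˣ // ∀ w : ↥(W₁ ⊔ W₂), (w : G) ∈ W₁ → ψ w = 1}),
      (classInner θ (χ φ.1) - classInner θ (χ 1)) + classInner θ (χ ψ.1) =
        classInner θ (χ (φ.1 * ψ.1)) := by
    intro φ ψ
    have := cyclicTI_inner_eq W₁ W₂ χ hχ θ hθ hθV φ.1 ψ.1 φ.2 ψ.2
    rw [this]
    ring
  have hcount : (Finset.univ.filter
      (fun p : {φ : ↥(W₁ ⊔ W₂) →* ℂˣ // ∀ w : ↥(W₁ ⊔ W₂), (w : G) ∈ W₂ → φ w = 1} ×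
        {ψ : ↥(W₁ ⊔ W₂) →* ℂˣ // ∀ w : ↥(W₁ ⊔ W₂), (w : G) ∈ W₁ → ψ w = 1} =>
        (classInner θ (χ p.1.1) - classInner θ (χ 1)) + classInner θ (χ p.2.1) ≠ 0)).card <
      2 * Fintype.card
        {φ : ↥(W₁ ⊔ W₂) →* ℂˣ // ∀ w : ↥(W₁ ⊔ W₂), (w : G) ∈ W₂ → φ w = 1} := by
    rw [hcA]
    refine lt_of_le_of_lt ?_ hfew
    rw [← Nat.subtype_card (p := fun p : {φ : ↥(W₁ ⊔ W₂) →* ℂˣ //
        ∀ w : ↥(W₁ ⊔ W₂), (w : G) ∈ W₂ → φ w = 1} ×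
        {ψ : ↥(W₁ ⊔ W₂) →* ℂˣ // ∀ w : ↥(W₁ ⊔ W₂), (w : G) ∈ W₁ → ψ w = 1} =>
        (classInner θ (χ p.1.1) - classInner θ (χ 1)) + classInner θ (χ p.2.1) ≠ 0) _
        (fun x => by simp)]
    apply Nat.card_le_card_of_injective
      (fun p => (⟨p.1.1.1 * p.1.2.1, by rw [← hFG]; exact p.2⟩ :
        {ω : ↥(W₁ ⊔ W₂) →* ℂˣ // Cfsg.classInner θ (χ ω) ≠ 0}))
    intro p q hpq
    have h1 : p.1.1.1 * p.1.2.1 = q.1.1.1 * q.1.2.1 := congrArg Subtype.val hpq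
    have h2 := snc_mul_eq_mul W₁ W₂ _ _ _ _ p.1.1.2 q.1.1.2 p.1.2.2 q.1.2.2 h1
    apply Subtype.ext
    exact Prod.ext (Subtype.ext h2.1) (Subtype.ext h2.2)
  have hfin : Finite G := inferInstance
  rcases matrix_trichotomy
      (fun φ : {φ : ↥(W₁ ⊔ W₂) →* ℂˣ // ∀ w : ↥(W₁ ⊔ W₂), (w : G) ∈ W₂ → φ w = 1} =>
        classInner θ (χ φ.1) - classInner θ (χ 1))
      (fun ψ : {ψ : ↥(W₁ ⊔ W₂) →* ℂˣ // ∀ w : ↥(W₁ ⊔ W₂), (w : G) ∈ W₁ → ψ w = 1} =>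
        classInner θ (χ ψ.1))
      (by rw [hcA]; exact hm3) (by rw [hcA, hcB]; exact hn) hcount with h | ⟨j₀, a₀, h⟩ | ⟨i₀, a₀, h⟩
  · left
    intro ω
    obtain ⟨φ, ψ, hφ, hψ, rfl⟩ := snc_decomp W₁ W₂ hW ω
    rw [← hFG ⟨φ, hφ⟩ ⟨ψ, hψ⟩]
    exact h ⟨φ, hφ⟩ ⟨ψ, hψ⟩
  · right; left
    refine ⟨j₀.1, a₀, fun ω => ?_⟩
    obtain ⟨φ, ψ, hφ, hψ, rfl⟩ := snc_decomp W₁ W₂ hW ω
    rw [← hFG ⟨φ, hφ⟩ ⟨ψ, hψ⟩]
    have h' := h ⟨φ, hφ⟩ ⟨ψ, hψ⟩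
    simp only at h'
    rw [h']
    have hiff : (⟨ψ, hψ⟩ : {ψ : ↥(W₁ ⊔ W₂) →* ℂˣ //
        ∀ w : ↥(W₁ ⊔ W₂), (w : G) ∈ W₁ → ψ w = 1}) = j₀ ↔
        (∀ w : ↥(W₁ ⊔ W₂), (w : G) ∈ W₂ → (φ * ψ * j₀.1⁻¹) w = 1) := by
      constructor
      · intro hj w hw
        rw [← hj]
        simp only [MonoidHom.mul_apply, MonoidHom.inv_apply, hφ w hw, one_mul]
        exact mul_inv_cancel _
      · intro hj
        apply Subtype.ext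
        apply hom_eq_of_eqOn
        · intro w hw
          show ψ w = j₀.1 w
          rw [hψ w hw, j₀.2 w hw]
        · intro w hw
          show ψ w = j₀.1 w
          have := hj w hw
          simp only [MonoidHom.mul_apply, MonoidHom.inv_apply, hφ w hw, one_mul] at this
          exact mul_inv_eq_one.mp this
    by_cases hc : (⟨ψ, hψ⟩ : {ψ : ↥(W₁ ⊔ W₂) →* ℂˣ //
        ∀ w : ↥(W₁ ⊔ W₂), (w : G) ∈ W₁ → ψ w = 1}) = j₀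
    · rw [if_pos hc, if_pos (hiff.mp hc)]
    · rw [if_neg hc, if_neg (fun hh => hc (hiff.mpr hh))]
  · right; right
    refine ⟨i₀.1, a₀, fun ω => ?_⟩
    obtain ⟨φ, ψ, hφ, hψ, rfl⟩ := snc_decomp W₁ W₂ hW ω
    rw [← hFG ⟨φ, hφ⟩ ⟨ψ, hψ⟩]
    have h' := h ⟨φ, hφ⟩ ⟨ψ, hψ⟩
    simp only at h'
    rw [h']
    have hiff : (⟨φ, hφ⟩ : {φ : ↥(W₁ ⊔ W₂) →* ℂˣ //
        ∀ w : ↥(W₁ ⊔ W₂), (w : G) ∈ W₂ → φ w = 1}) = i₀ ↔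
        (∀ w : ↥(W₁ ⊔ W₂), (w : G) ∈ W₁ → (φ * ψ * i₀.1⁻¹) w = 1) := by
      constructor
      · intro hi w hw
        rw [← hi]
        simp only [MonoidHom.mul_apply, MonoidHom.inv_apply, hψ w hw, mul_one]
        exact mul_inv_cancel _
      · intro hi
        apply Subtype.ext
        apply hom_eq_of_eqOn
        · intro w hw
          show φ w = i₀.1 w
          have := hi w hw
          simp only [MonoidHom.mul_apply, MonoidHom.inv_apply, hψ w hw, mul_one] at this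
          exact mul_inv_eq_one.mp this
        · intro w hw
          show φ w = i₀.1 w
          rw [hφ w hw, i₀.2 w hw]
    by_cases hc : (⟨φ, hφ⟩ : {φ : ↥(W₁ ⊔ W₂) →* ℂˣ //
        ∀ w : ↥(W₁ ⊔ W₂), (w : G) ∈ W₂ → φ w = 1}) = i₀
    · rw [if_pos hc, if_pos (hiff.mp hc)]
    · rw [if_neg hc, if_neg (fun hh => hc (hiff.mpr hh))]

end Cfsg.Agent.S1507
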