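import Cfsg.Statements.S1508
import Cfsg.Agent.H5.GaloisTwist
import Cfsg.Agent.H32.SNC2

set_option autoImplicit false
open Cfsg

namespace Cfsg.Agent.S1508

open Cfsg.Agent.H4 Cfsg.Agent.H5 Cfsg.Agent.H32

section

variable {G : Type*} [Group G] [Fintype G] (W₁ W₂ : Subgroup G)

theorem hom_pow_apply (ω : ↥(W₁ ⊔ W₂) →* ℂˣ) (k : ℕ) (w : ↥(W₁ ⊔ W₂)) :
    (ω ^ k) w = (ω w) ^ k := rfl

theorem hom_pow_card (ω : ↥(W₁ ⊔ W₂) →* ℂˣ) : ω ^ Nat.card G = 1 := by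
  refine MonoidHom.ext fun w => ?_
  change (ω w) ^ Nat.card G = 1
  rw [← map_pow]
  have : w ^ Nat.card G = 1 := by
    apply Subtype.ext
    rw [SubgroupClass.coe_pow, OneMemClass.coe_one]
    exact pow_card_eq_one'
  rw [this, map_one]

theorem hom_pow_injective (k : ℕ) (hk : k.Coprime (Nat.card G)) :
    Function.Injective (fun ω : ↥(W₁ ⊔ W₂) →* ℂˣ => ω ^ k) := by
  intro ω ω' h
  have h' : ω ^ k = ω' ^ k := h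
  refine MonoidHom.ext fun w => ?_
  have hw : (ω w) ^ k = (ω' w) ^ k := DFunLike.congr_fun h' w
  have h1 : (ω w * (ω' w)⁻¹) ^ k = 1 := by
    rw [mul_pow, inv_pow, hw, mul_inv_cancel]
  have h2 : (ω w * (ω' w)⁻¹) ^ Nat.card G = 1 := by
    have e1 : (ω w) ^ Nat.card G = 1 := DFunLike.congr_fun (hom_pow_card W₁ W₂ ω) w
    have e2 : (ω' w) ^ Nat.card G = 1 := DFunLike.congr_fun (hom_pow_card W₁ W₂ ω') w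
    rw [mul_pow, inv_pow, e1, e2, inv_one, mul_one]
  have h3 : orderOf (ω w * (ω' w)⁻¹) ∣ Nat.gcd k (Nat.card G) :=
    Nat.dvd_gcd (orderOf_dvd_of_pow_eq_one h1) (orderOf_dvd_of_pow_eq_one h2)
  rw [Nat.Coprime.gcd_eq_one hk] at h3
  have h4 : ω w * (ω' w)⁻¹ = 1 := orderOf_eq_one_iff.mp (Nat.dvd_one.mp h3)
  exact mul_inv_eq_one.mp h4

theorem hom_pow_ne_one (k : ℕ) (hk : k.Coprime (Nat.card G)) {ω : ↥(W₁ ⊔ W₂) →* ℂˣ}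
    (hω : ω ≠ 1) : ω ^ k ≠ 1 := by
  intro h
  apply hω
  apply hom_pow_injective W₁ W₂ k hk
  have e : (1 : ↥(W₁ ⊔ W₂) →* ℂˣ) ^ k = 1 := MonoidHom.ext fun w => one_pow k
  exact h.trans e.symm

/-- Membership facts: uniqueness of the decomposition `φ ψ`. -/
theorem dec_eq (φ φ' ψ ψ' : ↥(W₁ ⊔ W₂) →* ℂˣ)
    (hφ : ∀ w : ↥(W₁ ⊔ W₂), (w : G) ∈ W₂ → φ w = 1)
    (hφ' : ∀ w : ↥(W₁ ⊔ W₂), (w : G) ∈ W₂ → φ' w = 1)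
    (hψ : ∀ w : ↥(W₁ ⊔ W₂), (w : G) ∈ W₁ → ψ w = 1)
    (hψ' : ∀ w : ↥(W₁ ⊔ W₂), (w : G) ∈ W₁ → ψ' w = 1)
    (h : φ * ψ = φ' * ψ') : φ = φ' ∧ ψ = ψ' :=
  snc_mul_eq_mul W₁ W₂ φ φ' ψ ψ' hφ hφ' hψ hψ' h

theorem triv_one (S : Subgroup G) (w : ↥(W₁ ⊔ W₂)) (_ : (w : G) ∈ S) :
    (1 : ↥(W₁ ⊔ W₂) →* ℂˣ) w = 1 := rfl

/-- `φ = ψ` with `φ` trivial on `W₂` and `ψ` trivial on `W₁` forces both to be trivial. -/
theorem dec_AB (φ ψ : ↥(W₁ ⊔ W₂) →* ℂˣ)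
    (hφ : ∀ w : ↥(W₁ ⊔ W₂), (w : G) ∈ W₂ → φ w = 1)
    (hψ : ∀ w : ↥(W₁ ⊔ W₂), (w : G) ∈ W₁ → ψ w = 1) (h : φ = ψ) : φ = 1 ∧ ψ = 1 := by
  have h1 : φ * 1 = 1 * ψ := (mul_one φ).trans (h.trans (one_mul ψ).symm)
  obtain ⟨a, b⟩ := dec_eq W₁ W₂ φ 1 1 ψ hφ (triv_one W₁ W₂ W₂) (triv_one W₁ W₂ W₁) hψ h1
  exact ⟨a, b.symm⟩

/-- `φ ψ = φ'` forces `ψ = 1`. -/
theorem dec_A (φ φ' ψ : ↥(W₁ ⊔ W₂) →* ℂˣ)
    (hφ : ∀ w : ↥(W₁ ⊔ W₂), (w : G) ∈ W₂ → φ w = 1)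
    (hφ' : ∀ w : ↥(W₁ ⊔ W₂), (w : G) ∈ W₂ → φ' w = 1)
    (hψ : ∀ w : ↥(W₁ ⊔ W₂), (w : G) ∈ W₁ → ψ w = 1) (h : φ * ψ = φ') : φ = φ' ∧ ψ = 1 := by
  have h1 : φ * ψ = φ' * 1 := h.trans (mul_one φ').symm
  exact dec_eq W₁ W₂ φ φ' ψ 1 hφ hφ' hψ (triv_one W₁ W₂ W₁) h1

/-- `φ ψ = ψ'` forces `φ = 1`. -/
theorem dec_B (φ ψ ψ' : ↥(W₁ ⊔ W₂) →* ℂˣ)
    (hφ : ∀ w : ↥(W₁ ⊔ W₂), (w : G) ∈ W₂ → φ w = 1)
    (hψ : ∀ w : ↥(W₁ ⊔ W₂), (w : G) ∈ W₁ → ψ w = 1)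
    (hψ' : ∀ w : ↥(W₁ ⊔ W₂), (w : G) ∈ W₁ → ψ' w = 1) (h : φ * ψ = ψ') : φ = 1 ∧ ψ = ψ' := by
  have h1 : φ * ψ = 1 * ψ' := h.trans (one_mul ψ').symm
  exact dec_eq W₁ W₂ φ 1 ψ ψ' hφ (triv_one W₁ W₂ W₂) hψ hψ' h1

variable (χ : (↥(W₁ ⊔ W₂) →* ℂˣ) → (G → ℂ)) (hχ : Cfsg.IsCyclicTIFamily W₁ W₂ χ)

include hχ in
/-- The Galois twist of the basic induction identity. -/
theorem twist_relation (k : ℕ) (hk : k.Coprime (Nat.card G)) (φ ψ : ↥(W₁ ⊔ W₂) →* ℂˣ)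
    (hφ1 : φ ≠ 1) (hψ1 : ψ ≠ 1) (hφ : ∀ w : ↥(W₁ ⊔ W₂), (w : G) ∈ W₂ → φ w = 1)
    (hψ : ∀ w : ↥(W₁ ⊔ W₂), (w : G) ∈ W₁ → ψ w = 1) :
    tw k (χ φ) + tw k (χ ψ) - tw k (χ (φ * ψ)) =
      χ (φ ^ k) + χ (ψ ^ k) - χ (φ ^ k * ψ ^ k) := by
  have h1 := hχ.induced_eq φ ψ hφ1 hψ1 hφ hψ
  have h2 := hχ.induced_eq (φ ^ k) (ψ ^ k) (hom_pow_ne_one W₁ W₂ k hk hφ1)
    (hom_pow_ne_one W₁ W₂ k hk hψ1)
    (fun w hw => by rw [hom_pow_apply, hφ w hw, one_pow])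
    (fun w hw => by rw [hom_pow_apply, hψ w hw, one_pow])
  have h3 := tw_indFun k hk (W₁ ⊔ W₂)
    (fun w => 1 - (φ w : ℂ) - (ψ w : ℂ) + (φ w : ℂ) * (ψ w : ℂ))
  have h4 : (fun w : ↥(W₁ ⊔ W₂) => (1 : ℂ) - (φ (w ^ k) : ℂ) - (ψ (w ^ k) : ℂ) +
      (φ (w ^ k) : ℂ) * (ψ (w ^ k) : ℂ)) =
      fun w => 1 - ((φ ^ k) w : ℂ) - ((ψ ^ k) w : ℂ) + ((φ ^ k) w : ℂ) * ((ψ ^ k) w : ℂ) := by
    funext w
    rw [hom_pow_apply, hom_pow_apply, map_pow, map_pow]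
  rw [h4, h2, h1] at h3
  funext g
  have := congrFun h3 g
  simp only [tw_apply] at this
  simp only [Pi.add_apply, Pi.sub_apply, tw_apply]
  linear_combination (-1 : ℂ) * this

include hχ in
theorem inner_tw_self (k : ℕ) (hk : k.Coprime (Nat.card G)) (ω : ↥(W₁ ⊔ W₂) →* ℂˣ) :
    classInner (tw k (χ ω)) (tw k (χ ω)) = 1 := by
  rw [classInner_tw k hk, hχ.orthonormal, if_pos rfl]

include hχ in
theorem inner_tw_ne (k : ℕ) (hk : k.Coprime (Nat.card G)) {ω ω' : ↥(W₁ ⊔ W₂) →* ℂˣ}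
    (h : ω ≠ ω') : classInner (tw k (χ ω)) (tw k (χ ω')) = 0 := by
  rw [classInner_tw k hk, hχ.orthonormal, if_neg h]

include hχ in
theorem orth_family (ω ω' : ↥(W₁ ⊔ W₂) →* ℂˣ) (h : ω ≠ ω') :
    classInner (χ ω) (χ ω') = 0 := by
  rw [hχ.orthonormal, if_neg h]

include hχ in
/-- Galois equivariance for characters trivial on `W₂`. -/
theorem equiv_left (k : ℕ) (hk : k.Coprime (Nat.card G)) (φ ψ ψ' : ↥(W₁ ⊔ W₂) →* ℂˣ)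
    (hφ1 : φ ≠ 1) (hψ1 : ψ ≠ 1) (hψ'1 : ψ' ≠ 1) (hne : ψ ≠ ψ')
    (hφ : ∀ w : ↥(W₁ ⊔ W₂), (w : G) ∈ W₂ → φ w = 1)
    (hψ : ∀ w : ↥(W₁ ⊔ W₂), (w : G) ∈ W₁ → ψ w = 1)
    (hψ' : ∀ w : ↥(W₁ ⊔ W₂), (w : G) ∈ W₁ → ψ' w = 1) :
    tw k (χ φ) = χ (φ ^ k) := by
  classical
  have hφk1 := hom_pow_ne_one W₁ W₂ k hk hφ1
  have hψk1 := hom_pow_ne_one W₁ W₂ k hk hψ1
  have hψ'k1 := hom_pow_ne_one W₁ W₂ k hk hψ'1
  have hφk : ∀ w : ↥(W₁ ⊔ W₂), (w : G) ∈ W₂ → (φ ^ k) w = 1 :=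
    fun w hw => by rw [hom_pow_apply, hφ w hw, one_pow]
  have hψk : ∀ w : ↥(W₁ ⊔ W₂), (w : G) ∈ W₁ → (ψ ^ k) w = 1 :=
    fun w hw => by rw [hom_pow_apply, hψ w hw, one_pow]
  have hψ'k : ∀ w : ↥(W₁ ⊔ W₂), (w : G) ∈ W₁ → (ψ' ^ k) w = 1 :=
    fun w hw => by rw [hom_pow_apply, hψ' w hw, one_pow]
  have hnek : ψ ^ k ≠ ψ' ^ k := fun h => hne (hom_pow_injective W₁ W₂ k hk h)
  -- distinctness in the original family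
  have d1 : ψ ≠ φ := fun h => hφ1 (dec_AB W₁ W₂ φ ψ hφ hψ h.symm).1
  have d2 : φ * ψ ≠ φ := fun h => hψ1 (dec_A W₁ W₂ φ φ ψ hφ hφ hψ h).2
  have d1' : ψ' ≠ φ := fun h => hφ1 (dec_AB W₁ W₂ φ ψ' hφ hψ' h.symm).1
  have d2' : φ * ψ' ≠ φ := fun h => hψ'1 (dec_A W₁ W₂ φ φ ψ' hφ hφ hψ' h).2
  apply pin χ (fun ω => hχ.irr_or_neg ω) (orth_family W₁ W₂ χ hχ) (tw k (χ φ))
    (signed_tw k hk (hχ.irr_or_neg φ)) (φ ^ k) (ψ ^ k) (φ ^ k * ψ ^ k) (ψ' ^ k) (φ ^ k * ψ' ^ k)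
  · exact fun h => hφk1 (dec_AB W₁ W₂ (φ ^ k) (ψ ^ k) hφk hψk h).1
  · exact fun h => hψk1 (dec_A W₁ W₂ (φ ^ k) (φ ^ k) (ψ ^ k) hφk hφk hψk h.symm).2
  · exact hnek
  · exact fun h => hφk1 (dec_B W₁ W₂ (φ ^ k) (ψ' ^ k) (ψ ^ k) hφk hψ'k hψk h.symm).1
  · exact fun h => hφk1 (dec_B W₁ W₂ (φ ^ k) (ψ ^ k) (ψ' ^ k) hφk hψk hψ'k h).1
  · exact fun h => hnek (dec_eq W₁ W₂ (φ ^ k) (φ ^ k) (ψ ^ k) (ψ' ^ k) hφk hφk hψk hψ'k h).2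
  · have h := congrArg (fun X => classInner X (tw k (χ φ)))
      (twist_relation W₁ W₂ χ hχ k hk φ ψ hφ1 hψ1 hφ hψ)
    simp only [classInner_sub_left, classInner_add_left] at h
    rw [inner_tw_self W₁ W₂ χ hχ k hk, inner_tw_ne W₁ W₂ χ hχ k hk d1,
      inner_tw_ne W₁ W₂ χ hχ k hk d2] at h
    linear_combination (-1 : ℂ) * h
  · have h := congrArg (fun X => classInner X (tw k (χ φ)))
      (twist_relation W₁ W₂ χ hχ k hk φ ψ' hφ1 hψ'1 hφ hψ')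
    simp only [classInner_sub_left, classInner_add_left] at h
    rw [inner_tw_self W₁ W₂ χ hχ k hk, inner_tw_ne W₁ W₂ χ hχ k hk d1',
      inner_tw_ne W₁ W₂ χ hχ k hk d2'] at h
    linear_combination (-1 : ℂ) * h

include hχ in
/-- Galois equivariance for characters trivial on `W₁`. -/
theorem equiv_right (k : ℕ) (hk : k.Coprime (Nat.card G)) (ψ φ φ' : ↥(W₁ ⊔ W₂) →* ℂˣ)
    (hψ1 : ψ ≠ 1) (hφ1 : φ ≠ 1) (hφ'1 : φ' ≠ 1) (hne : φ ≠ φ')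
    (hψ : ∀ w : ↥(W₁ ⊔ W₂), (w : G) ∈ W₁ → ψ w = 1)
    (hφ : ∀ w : ↥(W₁ ⊔ W₂), (w : G) ∈ W₂ → φ w = 1)
    (hφ' : ∀ w : ↥(W₁ ⊔ W₂), (w : G) ∈ W₂ → φ' w = 1) :
    tw k (χ ψ) = χ (ψ ^ k) := by
  classical
  have hφk1 := hom_pow_ne_one W₁ W₂ k hk hφ1
  have hφ'k1 := hom_pow_ne_one W₁ W₂ k hk hφ'1
  have hψk1 := hom_pow_ne_one W₁ W₂ k hk hψ1
  have hφk : ∀ w : ↥(W₁ ⊔ W₂), (w : G) ∈ W₂ → (φ ^ k) w = 1 :=
    fun w hw => by rw [hom_pow_apply, hφ w hw, one_pow]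
  have hφ'k : ∀ w : ↥(W₁ ⊔ W₂), (w : G) ∈ W₂ → (φ' ^ k) w = 1 :=
    fun w hw => by rw [hom_pow_apply, hφ' w hw, one_pow]
  have hψk : ∀ w : ↥(W₁ ⊔ W₂), (w : G) ∈ W₁ → (ψ ^ k) w = 1 :=
    fun w hw => by rw [hom_pow_apply, hψ w hw, one_pow]
  have hnek : φ ^ k ≠ φ' ^ k := fun h => hne (hom_pow_injective W₁ W₂ k hk h)
  have d1 : φ ≠ ψ := fun h => hφ1 (dec_AB W₁ W₂ φ ψ hφ hψ h).1
  have d2 : φ * ψ ≠ ψ := fun h => hφ1 (dec_B W₁ W₂ φ ψ ψ hφ hψ hψ h).1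
  have d1' : φ' ≠ ψ := fun h => hφ'1 (dec_AB W₁ W₂ φ' ψ hφ' hψ h).1
  have d2' : φ' * ψ ≠ ψ := fun h => hφ'1 (dec_B W₁ W₂ φ' ψ ψ hφ' hψ hψ h).1
  apply pin χ (fun ω => hχ.irr_or_neg ω) (orth_family W₁ W₂ χ hχ) (tw k (χ ψ))
    (signed_tw k hk (hχ.irr_or_neg ψ)) (ψ ^ k) (φ ^ k) (φ ^ k * ψ ^ k) (φ' ^ k) (φ' ^ k * ψ ^ k)
  · exact fun h => hφk1 (dec_AB W₁ W₂ (φ ^ k) (ψ ^ k) hφk hψk h.symm).1
  · exact fun h => hφk1 (dec_B W₁ W₂ (φ ^ k) (ψ ^ k) (ψ ^ k) hφk hψk hψk h.symm).1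
  · exact hnek
  · exact fun h => hψk1 (dec_A W₁ W₂ (φ' ^ k) (φ ^ k) (ψ ^ k) hφ'k hφk hψk h.symm).2
  · exact fun h => hψk1 (dec_A W₁ W₂ (φ ^ k) (φ' ^ k) (ψ ^ k) hφk hφ'k hψk h).2
  · exact fun h => hnek (dec_eq W₁ W₂ (φ ^ k) (φ' ^ k) (ψ ^ k) (ψ ^ k) hφk hφ'k hψk hψk h).1
  · have h := congrArg (fun X => classInner X (tw k (χ ψ)))
      (twist_relation W₁ W₂ χ hχ k hk φ ψ hφ1 hψ1 hφ hψ)
    simp only [classInner_sub_left, classInner_add_left] at h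
    rw [inner_tw_ne W₁ W₂ χ hχ k hk d1, inner_tw_self W₁ W₂ χ hχ k hk,
      inner_tw_ne W₁ W₂ χ hχ k hk d2] at h
    linear_combination (-1 : ℂ) * h
  · have h := congrArg (fun X => classInner X (tw k (χ ψ)))
      (twist_relation W₁ W₂ χ hχ k hk φ' ψ hφ'1 hψ1 hφ' hψ)
    simp only [classInner_sub_left, classInner_add_left] at h
    rw [inner_tw_ne W₁ W₂ χ hχ k hk d1', inner_tw_self W₁ W₂ χ hχ k hk,
      inner_tw_ne W₁ W₂ χ hχ k hk d2'] at h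
    linear_combination (-1 : ℂ) * h

/-- Two distinct non-identity elements in a finite type with at least three elements. -/
theorem exists_two_ne {α : Type*} [Finite α] (a₀ : α) (h : 3 ≤ Nat.card α) :
    ∃ a b : α, a ≠ a₀ ∧ b ≠ a₀ ∧ a ≠ b := by
  classical
  haveI : Fintype α := Fintype.ofFinite α
  rw [Nat.card_eq_fintype_card] at h
  obtain ⟨a, b, c, hab, hac, hbc⟩ := Fintype.two_lt_card_iff.mp h
  by_cases ha : a = a₀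
  · refine ⟨b, c, ?_, ?_, hbc⟩
    · rw [← ha]; exact hab.symm
    · rw [← ha]; exact hac.symm
  · by_cases hb : b = a₀
    · refine ⟨a, c, ha, ?_, hac⟩
      rw [← hb]; exact hbc.symm
    · exact ⟨a, b, ha, hb, hab⟩

end

/-- Let W₁, W₂ ≤ G form a self-normalising cyclic subgroup W = W₁ ⊔ W₂ of odd order and χ an orthonormal family of irreducible characters of G up to sign, indexed by the linear characters ω of W, with χ_1 = 1, χ_ω = ω on W outside W₁ ∪ W₂, and the induction identity for (1 − φ)(1 − ψ). Let ω be a linear character of W and g an element of G whose order is coprime to the order of ω. Then χ ω g is an integer. -/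
theorem result {G : Type*} [Group G] [Fintype G] (W₁ W₂ : Subgroup G) (hW : Cfsg.IsSelfNormalizingCyclic W₁ W₂) (hodd : Odd (Nat.card ↥(W₁ ⊔ W₂))) (χ : (↥(W₁ ⊔ W₂) →* ℂˣ) → (G → ℂ)) (hχ : Cfsg.IsCyclicTIFamily W₁ W₂ χ) (ω : ↥(W₁ ⊔ W₂) →* ℂˣ) (g : G) (hg : Nat.Coprime (orderOf g) (orderOf ω)) : ∃ n : ℤ, χ ω g = n := by
  classical
  have hN : Nat.card G ≠ 0 := Nat.card_pos.ne'
  -- sizes
  have hodd₁ : Odd (Nat.card W₁) :=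
    Odd.of_dvd_nat hodd (Subgroup.card_dvd_of_le (le_sup_left : W₁ ≤ W₁ ⊔ W₂))
  have hodd₂ : Odd (Nat.card W₂) :=
    Odd.of_dvd_nat hodd (Subgroup.card_dvd_of_le (le_sup_right : W₂ ≤ W₁ ⊔ W₂))
  have h3₁ : 3 ≤ Nat.card W₁ := by
    have hne1 : Nat.card W₁ ≠ 1 := fun h => hW.1 (Subgroup.card_eq_one.mp h)
    have hpos1 : 0 < Nat.card W₁ := Nat.card_pos
    obtain ⟨k, hk⟩ := hodd₁
    omega
  have h3₂ : 3 ≤ Nat.card W₂ := by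
    have hne1 : Nat.card W₂ ≠ 1 := fun h => hW.2.1 (Subgroup.card_eq_one.mp h)
    have hpos1 : 0 < Nat.card W₂ := Nat.card_pos
    obtain ⟨k, hk⟩ := hodd₂
    omega
  -- two distinct non-identity characters of each kind
  obtain ⟨φa, φb, hφa1, hφb1, hφab⟩ := exists_two_ne
    (⟨1, fun _ _ => rfl⟩ : {φ : ↥(W₁ ⊔ W₂) →* ℂˣ // ∀ w : ↥(W₁ ⊔ W₂), (w : G) ∈ W₂ → φ w = 1})
    (by rw [snc_card_left W₁ W₂ hW]; exact h3₁)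
  obtain ⟨ψa, ψb, hψa1, hψb1, hψab⟩ := exists_two_ne
    (⟨1, fun _ _ => rfl⟩ : {ψ : ↥(W₁ ⊔ W₂) →* ℂˣ // ∀ w : ↥(W₁ ⊔ W₂), (w : G) ∈ W₁ → ψ w = 1})
    (by rw [snc_card_right W₁ W₂ hW]; exact h3₂)
  have hφa1' : φa.1 ≠ 1 := fun h => hφa1 (Subtype.ext h)
  have hφb1' : φb.1 ≠ 1 := fun h => hφb1 (Subtype.ext h)
  have hφab' : φa.1 ≠ φb.1 := fun h => hφab (Subtype.ext h)
  have hψa1' : ψa.1 ≠ 1 := fun h => hψa1 (Subtype.ext h)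
  have hψb1' : ψb.1 ≠ 1 := fun h => hψb1 (Subtype.ext h)
  have hψab' : ψa.1 ≠ ψb.1 := fun h => hψab (Subtype.ext h)
  -- Galois equivariance of the whole family
  have hall : ∀ (k : ℕ), k.Coprime (Nat.card G) → ∀ ω : ↥(W₁ ⊔ W₂) →* ℂˣ,
      tw k (χ ω) = χ (ω ^ k) := by
    intro k hk ω
    obtain ⟨φ, ψ, hφ, hψ, rfl⟩ := snc_decomp W₁ W₂ hW ω
    have hL : ∀ φ : ↥(W₁ ⊔ W₂) →* ℂˣ, φ ≠ 1 → (∀ w : ↥(W₁ ⊔ W₂), (w : G) ∈ W₂ → φ w = 1) →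
        tw k (χ φ) = χ (φ ^ k) := fun φ hφ1 hφ =>
      equiv_left W₁ W₂ χ hχ k hk φ ψa.1 ψb.1 hφ1 hψa1' hψb1' hψab' hφ ψa.2 ψb.2
    have hR : ∀ ψ : ↥(W₁ ⊔ W₂) →* ℂˣ, ψ ≠ 1 → (∀ w : ↥(W₁ ⊔ W₂), (w : G) ∈ W₁ → ψ w = 1) →
        tw k (χ ψ) = χ (ψ ^ k) := fun ψ hψ1 hψ =>
      equiv_right W₁ W₂ χ hχ k hk ψ φa.1 φb.1 hψ1 hφa1' hφb1' hφab' hψ φa.2 φb.2
    by_cases hφ1 : φ = 1
    · by_cases hψ1 : ψ = 1
      · subst hφ1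
        subst hψ1
        have e1 : (1 : ↥(W₁ ⊔ W₂) →* ℂˣ) * 1 = 1 := one_mul (1 : ↥(W₁ ⊔ W₂) →* ℂˣ)
        have e2 : (1 : ↥(W₁ ⊔ W₂) →* ℂˣ) ^ k = 1 := MonoidHom.ext fun w => one_pow k
        rw [e1, e2, hχ.map_one]
        rfl
      · subst hφ1
        have e1 : (1 : ↥(W₁ ⊔ W₂) →* ℂˣ) * ψ = ψ := one_mul ψ
        rw [e1]
        exact hR ψ hψ1 hψ
    · by_cases hψ1 : ψ = 1
      · subst hψ1
        have e1 : φ * (1 : ↥(W₁ ⊔ W₂) →* ℂˣ) = φ := mul_one φ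
        rw [e1]
        exact hL φ hφ1 hφ
      · have h := twist_relation W₁ W₂ χ hχ k hk φ ψ hφ1 hψ1 hφ hψ
        rw [hL φ hφ1 hφ, hR ψ hψ1 hψ] at h
        have e1 : (φ * ψ) ^ k = φ ^ k * ψ ^ k := mul_pow φ ψ k
        rw [e1]
        exact sub_right_injective h
  -- invariance of the value at `g`
  have hinv : ∀ j : ℕ, j.Coprime (orderOf g) → χ ω (g ^ j) = χ ω g := by
    intro j hj
    have hmn : (orderOf g * orderOf ω) ∣ Nat.card G :=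
      Nat.Coprime.mul_dvd_of_dvd_of_dvd hg (orderOf_dvd_natCard g)
        (orderOf_dvd_of_pow_eq_one (hom_pow_card W₁ W₂ ω))
    obtain ⟨j', hj'1, hj'2⟩ := Nat.chineseRemainder hg j 1
    have hcop' : j'.Coprime (orderOf g * orderOf ω) := by
      apply Nat.Coprime.mul_right
      · have := hj'1.gcd_eq
        unfold Nat.Coprime
        rw [this]
        exact hj
      · have := hj'2.gcd_eq
        unfold Nat.Coprime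
        rw [this]
        exact Nat.gcd_one_left _
    obtain ⟨k, hk, hkj⟩ := exists_coprime_modEq hN hmn j' hcop'
    have hk1 : k ≡ j [MOD orderOf g] := (hkj.of_dvd (Dvd.intro _ rfl)).trans hj'1
    have hk2 : k ≡ 1 [MOD orderOf ω] := (hkj.of_dvd (Dvd.intro_left _ rfl)).trans hj'2
    have e1 : g ^ j = g ^ k := (pow_eq_pow_iff_modEq.mpr hk1).symm
    have e2 : ω ^ k = ω :=
      (pow_mod_orderOf ω k).symm.trans ((congrArg (fun t => ω ^ t) hk2).trans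
        ((pow_mod_orderOf ω 1).trans (pow_one ω)))
    have h3 := congrFun (hall k hk ω) g
    rw [tw_apply, e2] at h3
    rw [e1, h3]
  rcases hχ.irr_or_neg ω with h | h
  · exact character_int_of_pow_invariant (isCharacter_of_isIrrCharacter h) g hinv
  · obtain ⟨n, hn⟩ := character_int_of_pow_invariant (isCharacter_of_isIrrCharacter h) g
      (fun j hj => by
        simp only [Pi.neg_apply]
        rw [hinv j hj])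
    refine ⟨-n, ?_⟩
    simp only [Pi.neg_apply] at hn
    push_cast
    rw [← hn, neg_neg]

end Cfsg.Agent.S1508
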