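import Cfsg.Statements.S1509
import Cfsg.Agent.H32.Signed

set_option autoImplicit false
open Cfsg

namespace Cfsg.Agent.S1509

open Cfsg.Agent.H4 Cfsg.Agent.H32

/-- Let α, β, γ, δ be functions on a finite group X each of which is an irreducible character or the negative of one, and u, v nonzero real numbers. Suppose ⟨α, β⟩ = ⟨γ, δ⟩ = 0, ⟨α − β, uγ − vδ⟩ = 0, α 1 = β 1 and u γ 1 = v δ 1. Then also ⟨α, γ⟩ = ⟨α, δ⟩ = ⟨β, γ⟩ = ⟨β, δ⟩ = 0. -/
theorem result {X : Type*} [Group X] [Fintype X] (α β γ δ : X → ℂ) (hα : Cfsg.IsIrrCharacter X α ∨ Cfsg.IsIrrCharacter X (-α)) (hβ : Cfsg.IsIrrCharacter X β ∨ Cfsg.IsIrrCharacter X (-β)) (hγ : Cfsg.IsIrrCharacter X γ ∨ Cfsg.IsIrrCharacter X (-γ)) (hδ : Cfsg.IsIrrCharacter X δ ∨ Cfsg.IsIrrCharacter X (-δ)) (u v : ℝ) (hu : u ≠ 0) (hv : v ≠ 0) (hab : Cfsg.classInner α β = 0) (hcd : Cfsg.classInner γ δ = 0) (hmix : Cfsg.classInner (α - β) ((u : ℂ) • γ - (v : ℂ) • δ) = 0) (h1 : α 1 = β 1) (h2 : (u : ℂ) * γ 1 = (v : ℂ) * δ 1) : Cfsg.classInner α γ = 0 ∧ Cfsg.classInner α δ = 0 ∧ Cfsg.classInner β γ = 0 ∧ Cfsg.classInner β δ = 0 := by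
  classical
  obtain ⟨ea, A, hea, rfl⟩ := signed_irr hα
  obtain ⟨eb, B, heb, rfl⟩ := signed_irr hβ
  obtain ⟨ec, C, hec, rfl⟩ := signed_irr hγ
  obtain ⟨ed, D, hed, rfl⟩ := signed_irr hδ
  obtain ⟨hA1, hposA⟩ := irrDeg_spec A
  obtain ⟨hB1, hposB⟩ := irrDeg_spec B
  obtain ⟨hC1, hposC⟩ := irrDeg_spec C
  obtain ⟨hD1, hposD⟩ := irrDeg_spec D
  have hea0 : ea ≠ 0 := by rcases hea with rfl | rfl <;> norm_num
  have heb0 : eb ≠ 0 := by rcases heb with rfl | rfl <;> norm_num
  have hec0 : ec ≠ 0 := by rcases hec with rfl | rfl <;> norm_num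
  have hed0 : ed ≠ 0 := by rcases hed with rfl | rfl <;> norm_num
  rw [classInner_signed] at hab hcd
  have hAB : A ≠ B := by
    intro h
    rw [if_pos h] at hab
    have h0 : ea * eb * 1 = 0 := by exact_mod_cast hab
    rcases mul_eq_zero.mp h0 with h | h
    · rcases mul_eq_zero.mp h with h | h
      · exact hea0 h
      · exact heb0 h
    · norm_num at h
  have hCD : C ≠ D := by
    intro h
    rw [if_pos h] at hcd
    have h0 : ec * ed * 1 = 0 := by exact_mod_cast hcd
    rcases mul_eq_zero.mp h0 with h | h
    · rcases mul_eq_zero.mp h with h | h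
      · exact hec0 h
      · exact hed0 h
    · norm_num at h
  have h1R : ea * irrDeg A = eb * irrDeg B := by
    have : (ea : ℂ) * ((irrDeg A : ℝ) : ℂ) = (eb : ℂ) * ((irrDeg B : ℝ) : ℂ) := by
      rw [← hA1, ← hB1]; exact h1
    exact_mod_cast this
  have h2R : u * (ec * irrDeg C) = v * (ed * irrDeg D) := by
    have : (u : ℂ) * ((ec : ℂ) * ((irrDeg C : ℝ) : ℂ)) = (v : ℂ) * ((ed : ℂ) * ((irrDeg D : ℝ) : ℂ)) := by
      rw [← hC1, ← hD1]; exact h2
    exact_mod_cast this
  have hmixR : u * (ea * ec * (if A = C then 1 else 0)) - v * (ea * ed * (if A = D then 1 else 0))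
      - u * (eb * ec * (if B = C then 1 else 0)) + v * (eb * ed * (if B = D then 1 else 0)) = 0 := by
    have gen : ∀ (a b c d : X → ℂ) (u v : ℝ),
        Cfsg.classInner (a - b) ((u : ℂ) • c - (v : ℂ) • d) =
          (u : ℂ) * Cfsg.classInner a c - (v : ℂ) * Cfsg.classInner a d
            - (u : ℂ) * Cfsg.classInner b c + (v : ℂ) * Cfsg.classInner b d := by
      intro a b c d u v
      rw [classInner_sub_left, classInner_sub_right, classInner_sub_right,
        classInner_smul_right, classInner_smul_right, classInner_smul_right,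
        classInner_smul_right, Complex.conj_ofReal, Complex.conj_ofReal]
      ring
    rw [gen, classInner_signed, classInner_signed, classInner_signed, classInner_signed] at hmix
    apply Complex.ofReal_injective
    rw [Complex.ofReal_zero, ← hmix]
    push_cast
    ring
  have key1 : ea = eb ∧ irrDeg A = irrDeg B := by
    rcases hea with rfl | rfl <;> rcases heb with rfl | rfl <;> constructor <;> linarith
  obtain ⟨rfl, hdAB⟩ := key1
  have main : A ≠ C ∧ A ≠ D ∧ B ≠ C ∧ B ≠ D := by
    by_cases hAC : A = C
    · exfalso
      subst hAC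
      have hBA : B ≠ A := hAB.symm
      by_cases hBD : B = D
      · subst hBD
        simp only [if_true, if_neg hCD, if_neg hBA, mul_zero, sub_zero, mul_one] at hmixR
        have h3 : u * ec = v * ed := by
          have : (u * ec) * irrDeg B = (v * ed) * irrDeg B := by
            rw [hdAB] at h2R; linarith
          exact mul_right_cancel₀ hposB.ne' this
        have h4 : ea * (u * ec + v * ed) = 0 := by linarith
        have h5 : u * ec + v * ed = 0 := by
          rcases mul_eq_zero.mp h4 with h | h
          · exact absurd h hea0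
          · exact h
        have h6 : u * ec = 0 := by linarith
        rcases mul_eq_zero.mp h6 with h | h
        · exact hu h
        · exact hec0 h
      · simp only [if_true, if_neg hCD, if_neg hBA, if_neg hBD, mul_zero, sub_zero, mul_one,
          add_zero] at hmixR
        have h6 : u * (ea * ec) = 0 := hmixR
        rcases mul_eq_zero.mp h6 with h | h
        · exact hu h
        · rcases mul_eq_zero.mp h with h | h
          · exact hea0 h
          · exact hec0 h
    · by_cases hAD : A = D
      · exfalso
        subst hAD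
        have hCA : C ≠ A := hCD
        have hBA : B ≠ A := hAB.symm
        by_cases hBC : B = C
        · subst hBC
          simp only [if_true, if_neg hAB, if_neg hBA, mul_zero, sub_zero, mul_one, zero_sub,
            add_zero] at hmixR
          have h3 : u * ec = v * ed := by
            have : (u * ec) * irrDeg B = (v * ed) * irrDeg B := by
              rw [hdAB] at h2R; linarith
            exact mul_right_cancel₀ hposB.ne' this
          have h4 : ea * (u * ec + v * ed) = 0 := by linarith
          have h5 : u * ec + v * ed = 0 := by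
            rcases mul_eq_zero.mp h4 with h | h
            · exact absurd h hea0
            · exact h
          have h6 : u * ec = 0 := by linarith
          rcases mul_eq_zero.mp h6 with h | h
          · exact hu h
          · exact hec0 h
        · simp only [if_true, if_neg hAC, if_neg hBA, if_neg hBC, mul_zero, sub_zero, mul_one,
            add_zero, zero_sub] at hmixR
          have h6 : v * (ea * ed) = 0 := by linarith
          rcases mul_eq_zero.mp h6 with h | h
          · exact hv h
          · rcases mul_eq_zero.mp h with h | h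
            · exact hea0 h
            · exact hed0 h
      · by_cases hBC : B = C
        · exfalso
          subst hBC
          have hBD : B ≠ D := hCD
          simp only [if_true, if_neg hAB, if_neg hAD, if_neg hBD, mul_zero, sub_zero, mul_one,
            add_zero, zero_sub] at hmixR
          have h6 : u * (ea * ec) = 0 := by linarith
          rcases mul_eq_zero.mp h6 with h | h
          · exact hu h
          · rcases mul_eq_zero.mp h with h | h
            · exact hea0 h
            · exact hec0 h
        · by_cases hBD : B = D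
          · exfalso
            subst hBD
            simp only [if_true, if_neg hAC, if_neg hAB, if_neg hBC, mul_zero, sub_zero, mul_one,
              zero_add] at hmixR
            have h6 : v * (ea * ed) = 0 := by linarith
            rcases mul_eq_zero.mp h6 with h | h
            · exact hv h
            · rcases mul_eq_zero.mp h with h | h
              · exact hea0 h
              · exact hed0 h
          · exact ⟨hAC, hAD, hBC, hBD⟩
  obtain ⟨hAC, hAD, hBC, hBD⟩ := main
  refine ⟨?_, ?_, ?_, ?_⟩
  · rw [classInner_signed, if_neg hAC]; simp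
  · rw [classInner_signed, if_neg hAD]; simp
  · rw [classInner_signed, if_neg hBC]; simp
  · rw [classInner_signed, if_neg hBD]; simp

end Cfsg.Agent.S1509
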