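-- Statement S1511: exceptional characters of a type-P-like group (Peterfalvi (4.3)).
-- Team project led by helper81; pieces by helpers 70, 53, 61, 32 (and the S1502 team).
import Cfsg.Statements.S1511
import Cfsg.Agent.S1502
import Cfsg.Agent.H81.TypePMain
import Cfsg.Agent.H70.TypePConj
import Cfsg.Agent.H70.TypePPack
import Cfsg.Agent.H70.TypePLinEq
import Cfsg.Agent.H53.TyPLin
import Cfsg.Agent.H53.TyPK1
import Cfsg.Agent.H61.TyPTIDiff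
import Cfsg.Agent.H61.TyPDeg
import Cfsg.Agent.H32.TyPVals

set_option autoImplicit false
open Cfsg

namespace Cfsg.Agent.S1511

/-- Let L be a finite group with K normal with complement W₁ ≠ 1 a cyclic Hall subgroup, and W₂ ≠ 1 a cyclic subgroup of K equal to C_K(x) for every non-identity x ∈ W₁, with W₁W₂ of odd order. Then there are a map μ from the linear characters of W = W₁ ⊔ W₂ to irreducible characters of L, injective, and a sign δ(ω) ∈ {1, −1} depending only on the values of ω on W₂, such that: for ω, ω' agreeing on W₂, the function induced to L from ω − ω' equals δ(ω) • (μ ω − μ ω'); μ ω x = δ(ω) ω x for x ∈ W outside W₂; every irreducible character of L not of the form μ ω vanishes on W outside W₂; and μ ω 1 − δ(ω) is an integer multiple of Nat.card W₁. -/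
theorem result {L : Type*} [Group L] [Fintype L] (K W₁ W₂ : Subgroup L) [hK : K.Normal] (hKW₁ : K ⊓ W₁ = ⊥) (hKW₁' : K ⊔ W₁ = ⊤) (hW₁ : W₁ ≠ ⊥) (hW₁c : IsCyclic W₁) (hHall : Nat.Coprime (Nat.card W₁) W₁.index) (hW₂ : W₂ ≠ ⊥) (hW₂c : IsCyclic W₂) (hW₂K : W₂ ≤ K) (hC : ∀ x ∈ W₁, x ≠ 1 → K ⊓ Subgroup.centralizer ({x} : Set L) = W₂) (hodd : Odd (Nat.card ↥(W₁ ⊔ W₂))) : ∃ (μ : (↥(W₁ ⊔ W₂) →* ℂˣ) → (L → ℂ)) (δ : (↥(W₁ ⊔ W₂) →* ℂˣ) → ℂ), Function.Injective μ ∧ (∀ ω, Cfsg.IsIrrCharacter L (μ ω)) ∧ (∀ ω, δ ω = 1 ∨ δ ω = -1) ∧ (∀ ω ω' : ↥(W₁ ⊔ W₂) →* ℂˣ, (∀ w : ↥(W₁ ⊔ W₂), (w : L) ∈ W₂ → ω w = ω' w) → δ ω = δ ω' ∧ Cfsg.indFun (W₁ ⊔ W₂) (fun w => (ω w : ℂ) - (ω' w : ℂ)) = δ ω • (μ ω - μ ω')) ∧ (∀ ω, ∀ w : ↥(W₁ ⊔ W₂), (w : L) ∉ W₂ → μ ω w = δ ω * (ω w : ℂ)) ∧ (∀ θ : L → ℂ, Cfsg.IsIrrCharacter L θ → (∀ ω, θ ≠ μ ω) → ∀ w : ↥(W₁ ⊔ W₂),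 (w : L) ∉ W₂ → θ w = 0) ∧ (∀ ω, ∃ n : ℤ, μ ω 1 - δ ω = n * (Nat.card W₁ : ℂ)) :=
  Cfsg.Agent.H81.TyP.main_of_pieces (fun W₁ W₂ hW hodd => Cfsg.Agent.S1502.result W₁ W₂ hW hodd)
    Cfsg.Agent.H65.Cyc.card Cfsg.Agent.H70.TyP.conj Cfsg.Agent.H53.TyP.lin
    Cfsg.Agent.H61.TyP.tiDiff Cfsg.Agent.H70.TyP.linEq Cfsg.Agent.H53.TyP.k1
    Cfsg.Agent.H32.TyP.vals Cfsg.Agent.H61.TyP.deg Cfsg.Agent.H70.TyP.pack K W₁ W₂ hKW₁ hKW₁' hW₁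
    hW₁c hHall hW₂ hW₂c hW₂K hC hodd

end Cfsg.Agent.S1511
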