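import Mathlib
import Cfsg.Statements.S1512
import Cfsg.Agent.H32.Coprime

set_option autoImplicit false
open Cfsg

namespace Cfsg.Agent.S1512

/-- Let K be a normal subgroup of the finite group L and x a non-identity element whose order is coprime to the order of K, such that K ⊓ C_L(y) = W₂ for every non-identity element y of the cyclic group generated by x. Then the number of conjugacy classes of K mapped to themselves by conjugation by x is at most Nat.card W₂. -/
theorem result {L : Type*} [Group L] [Finite L] (K W₂ : Subgroup L) [hK : K.Normal] (x : L) (hx1 : x ≠ 1) (hx : Nat.Coprime (orderOf x) (Nat.card K)) (hC : ∀ y ∈ Subgroup.zpowers x, y ≠ 1 → K ⊓ Subgroup.centralizer ({y} : Set L) = W₂) : Nat.card {C : ConjClasses K // ConjClasses.map (MulEquiv.toMonoidHom ((MulAut.conjNormal x : MulAut K))) C = C} ≤ Nat.card W₂ := by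
  classical
  have hW₂ : K ⊓ Subgroup.centralizer ({x} : Set L) = W₂ := hC x (Subgroup.mem_zpowers x) hx1
  have hxn : x ∈ Subgroup.normalizer (K : Set L) := by
    apply Subgroup.mem_normalizer_fintype
    intro n hn
    exact hK.conj_mem n hn x
  -- every fixed class has a representative centralised by x
  have key : ∀ C : {C : ConjClasses K // ConjClasses.map
      (MulEquiv.toMonoidHom ((MulAut.conjNormal x : MulAut K))) C = C},
      ∃ k : K, (k : L) ∈ W₂ ∧ ConjClasses.mk k = C.1 := by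
    rintro ⟨C, hCfix⟩
    obtain ⟨k₀, rfl⟩ := ConjClasses.exists_rep C
    have h1 : ConjClasses.mk ((MulAut.conjNormal x : MulAut K) k₀) = ConjClasses.mk k₀ := hCfix
    rw [ConjClasses.mk_eq_mk_iff_isConj, isConj_comm, isConj_iff] at h1
    obtain ⟨c, hc⟩ := h1
    have hc' : (c : L) * k₀ * (c : L)⁻¹ = x * k₀ * x⁻¹ := by
      have := congrArg Subtype.val hc
      simpa [MulAut.conjNormal_apply] using this
    -- s₀ = c⁻¹ x commutes with k₀
    have hs₀ : Commute ((c : L)⁻¹ * x) (k₀ : L) := by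
      show (c : L)⁻¹ * x * k₀ = k₀ * ((c : L)⁻¹ * x)
      calc (c : L)⁻¹ * x * k₀ = (c : L)⁻¹ * (x * k₀ * x⁻¹) * x := by group
        _ = (c : L)⁻¹ * ((c : L) * k₀ * (c : L)⁻¹) * x := by rw [hc']
        _ = k₀ * ((c : L)⁻¹ * x) := by group
    obtain ⟨z, hz, c', hc'K, hc'x, hzc⟩ :=
      Cfsg.Agent.H32.exists_conj_mem_centralizer_coset K x hxn hx (c : L)⁻¹ (K.inv_mem c.2)
    -- k₁ = z k₀ z⁻¹
    have hk₁K : z * (k₀ : L) * z⁻¹ ∈ K := K.mul_mem (K.mul_mem hz k₀.2) (K.inv_mem hz)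
    have hcomm1 : Commute (c' * x) (z * (k₀ : L) * z⁻¹) := by
      rw [← hzc]
      show z * ((c : L)⁻¹ * x) * z⁻¹ * (z * (k₀ : L) * z⁻¹) =
        z * (k₀ : L) * z⁻¹ * (z * ((c : L)⁻¹ * x) * z⁻¹)
      calc z * ((c : L)⁻¹ * x) * z⁻¹ * (z * (k₀ : L) * z⁻¹)
          = z * (((c : L)⁻¹ * x) * k₀) * z⁻¹ := by group
        _ = z * (k₀ * ((c : L)⁻¹ * x)) * z⁻¹ := by rw [hs₀.eq]
        _ = z * (k₀ : L) * z⁻¹ * (z * ((c : L)⁻¹ * x) * z⁻¹) := by group
    have hc'pow : c' ^ Nat.card K = 1 :=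
      orderOf_dvd_iff_pow_eq_one.mp (Subgroup.orderOf_dvd_natCard K hc'K)
    have hpow : (c' * x) ^ Nat.card K = x ^ Nat.card K := by
      rw [(show Commute c' x from hc'x).mul_pow, hc'pow, one_mul]
    obtain ⟨j, hj⟩ := exists_pow_eq_self_of_coprime hx.symm
    have hxpow : x = ((c' * x) ^ Nat.card K) ^ j := by rw [hpow, hj]
    have hcomm2 : Commute x (z * (k₀ : L) * z⁻¹) := by
      rw [hxpow]
      exact (hcomm1.pow_left _).pow_left _
    refine ⟨⟨z * (k₀ : L) * z⁻¹, hk₁K⟩, ?_, ?_⟩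
    · rw [← hW₂]
      refine ⟨hk₁K, ?_⟩
      show z * (k₀ : L) * z⁻¹ ∈ Subgroup.centralizer ({x} : Set L)
      rw [Cfsg.Agent.H32.mem_centralizer_singleton]
      exact hcomm2.eq
    · rw [ConjClasses.mk_eq_mk_iff_isConj, isConj_comm, isConj_iff]
      exact ⟨⟨z, hz⟩, Subtype.ext (by simp)⟩
  choose f hf1 hf2 using key
  have hinj : Function.Injective (fun C => (⟨(f C : L), hf1 C⟩ : W₂)) := by
    intro C D hCD
    have h1 : (f C : L) = (f D : L) := by
      have := congrArg (Subtype.val : W₂ → L) hCD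
      exact this
    have h2 : f C = f D := Subtype.ext h1
    apply Subtype.ext
    rw [← hf2 C, ← hf2 D, h2]
  exact Nat.card_le_card_of_injective _ hinj

end Cfsg.Agent.S1512
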