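import Cfsg.Statements.S1513
import Cfsg.Agent.S1491
import Cfsg.Agent.H82.CoprimeCent
import Cfsg.Agent.H4.BrauerPerm
import Cfsg.Agent.Lib.CliffordCorr

set_option autoImplicit false
set_option linter.style.haveILetI false
set_option linter.unusedSectionVars false
open Cfsg

namespace Cfsg.Agent.S1513

open Cfsg.Agent.H4 Cfsg.Agent.H82
open scoped ComplexConjugate Pointwise

local notation "conjCh" => Cfsg.Agent.Clifford.conjChar
local notation "inert" => Cfsg.Agent.Clifford.inertia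

/-- The number of irreducible characters of `K` fixed by `x`. -/
theorem card_fixed {L : Type*} [Group L] [Fintype L] (K : Subgroup L) [hK : K.Normal] (x : L)
    (hcop : Nat.Coprime (orderOf x) (Nat.card K))
    (hab : ∀ a ∈ K ⊓ Subgroup.centralizer ({x} : Set L),
      ∀ b ∈ K ⊓ Subgroup.centralizer ({x} : Set L), a * b = b * a) :
    Nat.card {θ : IrrCharacter K // conjCh K θ.1 x = θ.1} =
      Nat.card ↥(K ⊓ Subgroup.centralizer ({x} : Set L)) := by
  classical
  haveI : Fintype K := Fintype.ofFinite K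
  let β : K → K := fun h => ⟨x * h * x⁻¹, hK.conj_mem (h : L) h.2 x⟩
  let σ : IrrCharacter K → IrrCharacter K := fun θ =>
    ⟨conjCh K θ.1 x, Cfsg.Agent.Clifford.isIrrCharacter_conjChar K θ.2 x⟩
  have hbr := brauer_permutation β σ (fun χ g => rfl)
  have e1 : ∀ h : K, (Nat.card {c : K // c * β h * c⁻¹ = h} : ℂ) =
      ∑ c : K, if c * β h * c⁻¹ = h then (1 : ℂ) else 0 := by
    intro h
    rw [Nat.card_eq_fintype_card, Fintype.card_subtype, Finset.sum_boole]
  have e2 : ∀ c : K, (Nat.card {h : K // c * β h * c⁻¹ = h} : ℂ) =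
      ∑ h : K, if c * β h * c⁻¹ = h then (1 : ℂ) else 0 := by
    intro c
    rw [Nat.card_eq_fintype_card, Fintype.card_subtype, Finset.sum_boole]
  have hswap : ∑ h : K, (Nat.card {c : K // c * β h * c⁻¹ = h} : ℂ) =
      ∑ c : K, (Nat.card {h : K // c * β h * c⁻¹ = h} : ℂ) := by
    rw [Finset.sum_congr rfl (fun h _ => e1 h), Finset.sum_congr rfl (fun c _ => e2 c)]
    exact Finset.sum_comm
  rw [hswap] at hbr
  have hconst : ∀ c : K, (Nat.card {h : K // c * β h * c⁻¹ = h} : ℂ) =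
      (Nat.card ↥(K ⊓ Subgroup.centralizer ({x} : Set L)) : ℂ) := by
    intro c
    rw [card_centralizer_coset K x hcop hab c]
  rw [Finset.sum_congr rfl (fun c _ => hconst c), Finset.sum_const, Finset.card_univ,
    nsmul_eq_mul, ← Nat.card_eq_fintype_card] at hbr
  have hK0 : (Nat.card K : ℂ) ≠ 0 := by
    have : 0 < Nat.card K := Nat.card_pos
    exact_mod_cast this.ne'
  have hfin := mul_left_cancel₀ hK0 hbr
  have hcongr : Nat.card {θ : IrrCharacter K // conjCh K θ.1 x = θ.1} =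
      Nat.card {χ : IrrCharacter K // σ χ = χ} :=
    Nat.card_congr (Equiv.subtypeEquivRight (fun θ =>
      ⟨fun h => Subtype.ext h, fun h => congrArg Subtype.val h⟩))
  rw [hcongr]
  exact_mod_cast hfin

/-- Let L be a finite group with K normal with complement W₁ ≠ 1 a cyclic Hall subgroup, and W₂ ≠ 1 a cyclic subgroup of K equal to C_K(x) for every non-identity x ∈ W₁, with W₁W₂ of odd order. For an irreducible character θ of K: if θ is not fixed under conjugation by some element of W₁, then the function induced from θ to L is an irreducible character of L; and the irreducible characters of K fixed by all of W₁ are exactly Nat.card W₂ in number, each inducing to the sum of Nat.card W₁ pairwise distinct irreducible characters of L. -/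
theorem result {L : Type*} [Group L] [Fintype L] (K W₁ W₂ : Subgroup L) [hK : K.Normal] (hKW₁ : K ⊓ W₁ = ⊥) (hKW₁' : K ⊔ W₁ = ⊤) (hW₁ : W₁ ≠ ⊥) (hW₁c : IsCyclic W₁) (hHall : Nat.Coprime (Nat.card W₁) W₁.index) (hW₂ : W₂ ≠ ⊥) (hW₂c : IsCyclic W₂) (hW₂K : W₂ ≤ K) (hC : ∀ x ∈ W₁, x ≠ 1 → K ⊓ Subgroup.centralizer ({x} : Set L) = W₂) (hodd : Odd (Nat.card ↥(W₁ ⊔ W₂))) : (∀ θ : K → ℂ, Cfsg.IsIrrCharacter K θ → (∃ x ∈ W₁, (fun k : K => θ ⟨x * k * x⁻¹, hK.conj_mem (k : L) k.2 x⟩) ≠ θ) → Cfsg.IsIrrCharacter L (Cfsg.indFun K θ)) ∧ Nat.card {θ : Cfsg.IrrCharacter K // ∀ x ∈ W₁, (fun k : K => (θ : K → ℂ) ⟨x * k * x⁻¹, hK.conj_mem (k : L) k.2 x⟩) = θ} = Nat.card W₂ ∧ (∀ θ : K → ℂ, Cfsg.IsIrrCharacter K θ → (∀ x ∈ W₁, (fun k : K => θ ⟨x * k * x⁻¹, hK.conj_mem (k : L) k.2 x⟩) = θ) → ∃ C : Finset (L → ℂ), C.card = Nat.card W₁ ∧ (∀ μ ∈ C, Cfsg.IsIrrCharacter L μ) ∧ Cfsg.indFun K θ = ∑ μ ∈ C, μ) := by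
  classical
  haveI : Fintype K := Fintype.ofFinite K
  have hcard : Nat.card W₁ * Nat.card K = Nat.card L := by
    have h := Cfsg.Agent.H1.card_sup_of_le_normalizer W₁ K
      (by rw [Subgroup.normalizer_eq_top]; exact le_top) (by rw [inf_comm]; exact hKW₁)
    rw [sup_comm, hKW₁', Subgroup.card_top] at h
    exact h.symm
  have hidxW : W₁.index = Nat.card K := by
    have := W₁.card_mul_index
    rw [← hcard] at this
    exact Nat.eq_of_mul_eq_mul_left Nat.card_pos this
  have hidxK : K.index = Nat.card W₁ := by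
    have := K.card_mul_index
    rw [← hcard, mul_comm] at this
    exact Nat.eq_of_mul_eq_mul_right Nat.card_pos this
  have hcopK : Nat.Coprime (Nat.card W₁) (Nat.card K) := by rw [← hidxW]; exact hHall
  have hcopx : ∀ x ∈ W₁, Nat.Coprime (orderOf x) (Nat.card K) := by
    intro x hx
    have h1 : orderOf x ∣ Nat.card W₁ := by
      have := orderOf_dvd_natCard (⟨x, hx⟩ : W₁)
      rwa [← Subgroup.orderOf_coe] at this
    exact Nat.Coprime.coprime_dvd_left h1 hcopK
  have hW₂ab : ∀ a ∈ W₂, ∀ b ∈ W₂, a * b = b * a := by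
    intro a ha b hb
    letI := hW₂c.commGroup
    have := mul_comm (⟨a, ha⟩ : W₂) ⟨b, hb⟩
    exact congrArg Subtype.val this
  have hW₁ab : ∀ a ∈ W₁, ∀ b ∈ W₁, a * b = b * a := by
    intro a ha b hb
    letI := hW₁c.commGroup
    have := mul_comm (⟨a, ha⟩ : W₁) ⟨b, hb⟩
    exact congrArg Subtype.val this
  have hfix : ∀ x ∈ W₁, x ≠ 1 →
      Nat.card {θ : IrrCharacter K // conjCh K θ.1 x = θ.1} = Nat.card W₂ := by
    intro x hx hx1
    have hCx := hC x hx hx1
    rw [card_fixed K x (hcopx x hx) (by rw [hCx]; exact hW₂ab), hCx]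
  obtain ⟨w, hw⟩ := hW₁c.exists_generator
  have hw1 : (w : L) ≠ 1 := by
    intro h
    apply hW₁
    rw [Subgroup.eq_bot_iff_forall]
    intro x hx
    obtain ⟨j, hj⟩ := Subgroup.mem_zpowers_iff.mp (hw ⟨x, hx⟩)
    have hw' : w = 1 := Subtype.ext h
    rw [hw', one_zpow] at hj
    exact (congrArg Subtype.val hj).symm
  have hall : ∀ θ : K → ℂ, conjCh K θ (w : L) = θ → ∀ x ∈ W₁, conjCh K θ x = θ := by
    intro θ hθw x hx
    have hwI : (w : L) ∈ inert K θ := hθw
    obtain ⟨j, hj⟩ := Subgroup.mem_zpowers_iff.mp (hw ⟨x, hx⟩)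
    have hxj : x = (w : L) ^ j := by
      have := congrArg Subtype.val hj
      simpa using this.symm
    rw [hxj]
    exact (inert K θ).zpow_mem hwI j
  have hdecomp : ∀ g : L, ∃ k ∈ K, ∃ u ∈ W₁, k * u = g := by
    intro g
    have hg : g ∈ (↑(K ⊔ W₁) : Set L) := by rw [hKW₁']; exact Subgroup.mem_top g
    rw [Subgroup.normal_mul] at hg
    exact Set.mem_mul.mp hg
  refine ⟨?_, ?_, ?_⟩
  · intro θ hθ hex
    obtain ⟨x, hx, hne⟩ := hex
    have hθcf := isClassFunction_of_isCharacter (isCharacter_of_isIrrCharacter hθ)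
    have hle : K ≤ inert K θ := Cfsg.Agent.Clifford.le_inertia K hθcf
    have hIK : inert K θ ≤ K := by
      intro g hg
      by_contra hgK
      obtain ⟨k, hk, u, hu, rfl⟩ := hdecomp g
      have hu1 : u ≠ 1 := by
        rintro rfl
        exact hgK (by simpa using hk)
      have huI : u ∈ inert K θ := by
        have : u = k⁻¹ * (k * u) := by group
        rw [this]
        exact (inert K θ).mul_mem ((inert K θ).inv_mem (hle hk)) hg
      have hθu : conjCh K θ u = θ := huI
      let f : {θ' : IrrCharacter K // conjCh K θ'.1 (w : L) = θ'.1} →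
          {θ' : IrrCharacter K // conjCh K θ'.1 u = θ'.1} :=
        fun θ' => ⟨θ'.1, hall θ'.1.1 θ'.2 u hu⟩
      have hfinj : Function.Injective f := by
        intro a b hab
        apply Subtype.ext
        exact congrArg (fun t : {θ' : IrrCharacter K // conjCh K θ'.1 u = θ'.1} => t.1) hab
      haveI : Finite (IrrCharacter K) := finite_irr K
      have hfsurj : Function.Surjective f :=
        (hfinj.bijective_of_nat_card_le (by rw [hfix u hu hu1, hfix w w.2 hw1])).2
      obtain ⟨θ', hθ'⟩ := hfsurj ⟨⟨θ, hθ⟩, hθu⟩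
      have h1 : θ'.1.1 = θ :=
        congrArg (fun t : {θ' : IrrCharacter K // conjCh K θ'.1 u = θ'.1} => t.1.1) hθ'
      have hθw : conjCh K θ (w : L) = θ := by
        rw [← h1]
        exact θ'.2
      exact hne (hall θ hθw x hx)
    have hT : K = inert K θ := le_antisymm hle hIK
    have h1' : classInner (fun n : K => θ ⟨n, (le_refl K) n.2⟩) θ ≠ 0 := by
      have : (fun n : K => θ ⟨n, (le_refl K) n.2⟩) = θ := rfl
      rw [this, Cfsg.Agent.Clifford.classInner_irr_irr hθ hθ, if_pos rfl]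
      exact one_ne_zero
    exact (Cfsg.Agent.Clifford.clifford_corr_irr hθ (le_refl K) hT hθ h1').1
  · rw [← hfix w w.2 hw1]
    apply Nat.card_congr
    exact Equiv.subtypeEquivRight (fun θ => ⟨fun h => h w w.2, fun h x hx => hall θ.1 h x hx⟩)
  · intro θ hθ hinv
    have hθcf := isClassFunction_of_isCharacter (isCharacter_of_isIrrCharacter hθ)
    have hle : K ≤ inert K θ := Cfsg.Agent.Clifford.le_inertia K hθcf
    have hItop : ∀ g : L, g ∈ inert K θ := by
      intro g
      obtain ⟨k, hk, u, hu, rfl⟩ := hdecomp g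
      exact (inert K θ).mul_mem (hle hk) (hinv u hu)
    have hcomm : ∀ x ∈ (⊤ : Subgroup L), ∀ y ∈ (⊤ : Subgroup L), x * y * x⁻¹ * y⁻¹ ∈ K := by
      intro a _ b _
      obtain ⟨k₁, hk₁, u₁, hu₁, rfl⟩ := hdecomp a
      obtain ⟨k₂, hk₂, u₂, hu₂, rfl⟩ := hdecomp b
      rw [← QuotientGroup.eq_one_iff]
      have e1 : ((k₁ : L) : L ⧸ K) = 1 := (QuotientGroup.eq_one_iff k₁).mpr hk₁
      have e2 : ((k₂ : L) : L ⧸ K) = 1 := (QuotientGroup.eq_one_iff k₂).mpr hk₂
      simp only [QuotientGroup.mk_mul, QuotientGroup.mk_inv, e1, e2, one_mul]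
      rw [← QuotientGroup.mk_mul, hW₁ab u₁ hu₁ u₂ hu₂, QuotientGroup.mk_mul]
      group
    obtain ⟨C, hC1, hC2, hC3, -⟩ := Cfsg.Agent.S1491.result K ⊤ θ hθ
      (fun g => ⟨fun _ => (Cfsg.Agent.Clifford.mem_inertia_iff K).mp (hItop g),
        fun _ => Subgroup.mem_top g⟩)
      hcomm (by rw [Subgroup.relIndex_top_right, hidxK]; exact hcopK.symm)
    refine ⟨C, ?_, hC1, hC3⟩
    rw [hC2, Subgroup.relIndex_top_right, hidxK]

end Cfsg.Agent.S1513
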