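import Cfsg.Statements.S1514
import Cfsg.Agent.H32.Virtual
import Cfsg.Agent.S1509

set_option autoImplicit false
open Cfsg

namespace Cfsg.Agent.S1514

open Cfsg.Agent.H4 Cfsg.Agent.H32

/-- Let S be a nonempty set of irreducible characters of the finite group L, closed under complex conjugation and containing no real-valued member, and τ a linear isometry on the integer combinations of S vanishing at 1, with values virtual characters of G vanishing at 1. Then there is a choice R making (S, τ, R) a coherence system. -/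
theorem result {L : Type*} [Group L] [Fintype L] {G : Type*} [Group G] [Fintype G] (S : Set (L → ℂ)) (hS : S.Nonempty) (hirr : ∀ χ ∈ S, Cfsg.IsIrrCharacter L χ) (hconj : ∀ χ ∈ S, Cfsg.conjFun χ ∈ S ∧ Cfsg.conjFun χ ≠ χ) (τ : (L → ℂ) → (G → ℂ)) (hτ : Cfsg.IsLinearIsometryOn (Cfsg.zspanOn S {1}ᶜ) τ) (hτ1 : ∀ α ∈ Cfsg.zspanOn S {1}ᶜ, τ α 1 = 0) : ∃ R : (L → ℂ) → Finset (G → ℂ), Cfsg.IsCoherenceSystem S τ R := by
  classical
  have hmem : ∀ χ ∈ S, χ - conjFun χ ∈ zspanOn S {1}ᶜ := by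
    intro χ hχ
    refine ⟨Submodule.sub_mem _ (Submodule.subset_span hχ)
      (Submodule.subset_span (hconj χ hχ).1), ?_⟩
    intro x hx
    have hx1 : x = 1 := by simpa using hx
    subst hx1
    obtain ⟨n, -, hn⟩ := irr_one_eq_natCast (⟨χ, hirr χ hχ⟩ : IrrCharacter L)
    have hn' : χ 1 = (n : ℂ) := hn
    simp only [Pi.sub_apply, conjFun]
    rw [hn']
    simp
  have hnorm : ∀ χ ∈ S, classInner (χ - conjFun χ) (χ - conjFun χ) = 2 := by
    intro χ hχ
    have hne : (⟨χ, hirr χ hχ⟩ : IrrCharacter L) ≠ ⟨conjFun χ, hirr _ (hconj χ hχ).1⟩ :=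
      fun h => (hconj χ hχ).2 (congrArg Subtype.val h).symm
    have h1 : classInner χ χ = 1 := by
      have := irr_inner (⟨χ, hirr χ hχ⟩ : IrrCharacter L) ⟨χ, hirr χ hχ⟩
      rwa [if_pos rfl] at this
    have h2 : classInner χ (conjFun χ) = 0 := by
      have := irr_inner (⟨χ, hirr χ hχ⟩ : IrrCharacter L) ⟨conjFun χ, hirr _ (hconj χ hχ).1⟩
      rwa [if_neg hne] at this
    have h3 : classInner (conjFun χ) χ = 0 := by
      have := irr_inner (⟨conjFun χ, hirr _ (hconj χ hχ).1⟩ : IrrCharacter L) ⟨χ, hirr χ hχ⟩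
      rwa [if_neg hne.symm] at this
    have h4 : classInner (conjFun χ) (conjFun χ) = 1 := by
      have := irr_inner (⟨conjFun χ, hirr _ (hconj χ hχ).1⟩ : IrrCharacter L)
        ⟨conjFun χ, hirr _ (hconj χ hχ).1⟩
      rwa [if_pos rfl] at this
    rw [classInner_sub_left, classInner_sub_right, classInner_sub_right, h1, h2, h3, h4]
    norm_num
  have key : ∀ χ ∈ S, ∃ μ₁ μ₂ : IrrCharacter G, μ₁ ≠ μ₂ ∧
      τ (χ - conjFun χ) = (μ₁ : G → ℂ) - (μ₂ : G → ℂ) ∧
      (μ₁ : G → ℂ) 1 = (μ₂ : G → ℂ) 1 := by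
    intro χ hχ
    apply genChar_norm_two_vanish (hτ.2.2.2 _ (hmem χ hχ))
    · rw [hτ.2.2.1 _ (hmem χ hχ) _ (hmem χ hχ)]
      exact hnorm χ hχ
    · exact hτ1 _ (hmem χ hχ)
  obtain ⟨χ₀, hχ₀⟩ := hS
  obtain ⟨μ₀, -, -⟩ := key χ₀ hχ₀
  haveI : Nonempty (IrrCharacter G) := ⟨μ₀⟩
  choose! m₁ m₂ hne heq hdeg using key
  have hneq : ∀ χ ∈ S, (m₁ χ : G → ℂ) ≠ -(m₂ χ : G → ℂ) := by
    intro χ hχ h
    have h1 := congrFun h 1
    obtain ⟨d₁, hd₁, e₁⟩ := irr_one_eq_natCast (m₁ χ)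
    obtain ⟨d₂, hd₂, e₂⟩ := irr_one_eq_natCast (m₂ χ)
    rw [Pi.neg_apply, e₁, e₂] at h1
    have : (d₁ : ℤ) = -(d₂ : ℤ) := by exact_mod_cast h1
    omega
  refine ⟨fun χ => {(m₁ χ : G → ℂ), -(m₂ χ : G → ℂ)}, ?_⟩
  refine { nonempty := ⟨χ₀, hχ₀⟩, isCharacter := ?_, conj_mem := ?_, conj_ne := ?_,
           isometry := hτ, map_one := hτ1, orthogonal := ?_, orthonormal := ?_,
           virtual := ?_, sum_eq := ?_, disjoint := ?_ }
  · intro χ hχ
    exact isCharacter_of_isIrrCharacter (hirr χ hχ)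
  · intro χ hχ
    exact (hconj χ hχ).1
  · intro χ hχ
    exact (hconj χ hχ).2
  · intro χ hχ φ hφ hne'
    have := irr_inner (⟨χ, hirr χ hχ⟩ : IrrCharacter L) ⟨φ, hirr φ hφ⟩
    rwa [if_neg (fun h => hne' (congrArg Subtype.val h))] at this
  · intro χ hχ α hα β hβ
    rw [Finset.mem_insert, Finset.mem_singleton] at hα hβ
    have h12 : classInner (m₁ χ : G → ℂ) (m₂ χ : G → ℂ) = 0 := by
      rw [irr_inner, if_neg (hne χ hχ)]
    have h21 : classInner (m₂ χ : G → ℂ) (m₁ χ : G → ℂ) = 0 := by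
      rw [irr_inner, if_neg (hne χ hχ).symm]
    have h11 : classInner (m₁ χ : G → ℂ) (m₁ χ : G → ℂ) = 1 := by
      rw [irr_inner, if_pos rfl]
    have h22 : classInner (m₂ χ : G → ℂ) (m₂ χ : G → ℂ) = 1 := by
      rw [irr_inner, if_pos rfl]
    rcases hα with rfl | rfl <;> rcases hβ with rfl | rfl
    · rw [if_pos rfl, h11]
    · rw [if_neg (hneq χ hχ), classInner_neg_right, h12, neg_zero]
    · rw [if_neg (fun h => hneq χ hχ h.symm), classInner_neg_left, h21, neg_zero]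
    · rw [if_pos rfl, classInner_neg_left, classInner_neg_right, h22, neg_neg]
  · intro χ hχ α hα
    rw [Finset.mem_insert, Finset.mem_singleton] at hα
    rcases hα with rfl | rfl
    · exact isGeneralizedCharacter_of_isCharacter (isCharacter_of_isIrrCharacter (m₁ χ).2)
    · exact isGeneralizedCharacter_neg
        (isGeneralizedCharacter_of_isCharacter (isCharacter_of_isIrrCharacter (m₂ χ).2))
  · intro χ hχ
    rw [Finset.sum_pair (hneq χ hχ), heq χ hχ, sub_eq_add_neg]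
  · intro χ hχ φ hφ h1 h2 α hα β hβ
    rw [Finset.mem_insert, Finset.mem_singleton] at hα hβ
    have hmix : classInner ((m₁ φ : G → ℂ) - (m₂ φ : G → ℂ))
        (((1 : ℝ) : ℂ) • (m₁ χ : G → ℂ) - ((1 : ℝ) : ℂ) • (m₂ χ : G → ℂ)) = 0 := by
      rw [Complex.ofReal_one, one_smul, one_smul, ← heq φ hφ, ← heq χ hχ,
        hτ.2.2.1 _ (hmem φ hφ) _ (hmem χ hχ)]
      rw [classInner_sub_left, classInner_sub_right, classInner_sub_right, h1, h2,
        classInner_conjFun_left, classInner_conjFun_left, conjFun_conjFun, h1, h2]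
      simp
    have res := Cfsg.Agent.S1509.result (m₁ φ : G → ℂ) (m₂ φ : G → ℂ) (m₁ χ : G → ℂ)
      (m₂ χ : G → ℂ) (Or.inl (m₁ φ).2) (Or.inl (m₂ φ).2) (Or.inl (m₁ χ).2) (Or.inl (m₂ χ).2)
      1 1 one_ne_zero one_ne_zero (by rw [irr_inner, if_neg (hne φ hφ)])
      (by rw [irr_inner, if_neg (hne χ hχ)]) hmix (hdeg φ hφ)
      (by rw [Complex.ofReal_one, one_mul, one_mul]; exact hdeg χ hχ)
    obtain ⟨r1, r2, r3, r4⟩ := res
    rcases hα with rfl | rfl <;> rcases hβ with rfl | rfl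
    · exact r1
    · rw [classInner_neg_right, r2, neg_zero]
    · rw [classInner_neg_left, r3, neg_zero]
    · rw [classInner_neg_left, classInner_neg_right, r4, neg_zero, neg_zero]

end Cfsg.Agent.S1514
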