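import Cfsg.Statements.S1515
import Cfsg.Agent.H32.Virtual

set_option autoImplicit false
open Cfsg

namespace Cfsg.Agent.S1515

open Cfsg.Agent.H4 Cfsg.Agent.H32

/-- Let (S, τ, R) be a coherence system from L to G, χ ∈ S, and ψ an integer combination of S with ⟨χ, ψ⟩ = ⟨conj χ, ψ⟩ = 0. Let τ₁ be a linear isometry on the integer combinations of χ − ψ and χ − conj χ, with virtual-character values, agreeing with τ on integer multiples of χ − conj χ. Then the sum over α ∈ R χ of the squared absolute values of ⟨τ₁(χ − ψ), α⟩ is at least ⟨χ, χ⟩; and if ⟨τ₁(χ − ψ), τ₁(χ − ψ)⟩ minus that sum is at least ⟨ψ, ψ⟩, then the sum equals ⟨χ, χ⟩ and every ⟨τ₁(χ − ψ), α⟩ with α ∈ R χ is 0 or 1. -/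
theorem result {L : Type*} [Group L] [Fintype L] {G : Type*} [Group G] [Fintype G] (S : Set (L → ℂ)) (τ : (L → ℂ) → (G → ℂ)) (R : (L → ℂ) → Finset (G → ℂ)) (hS : Cfsg.IsCoherenceSystem S τ R) (χ : L → ℂ) (hχ : χ ∈ S) (ψ : L → ℂ) (hψ : ψ ∈ Cfsg.zspan S) (h1 : Cfsg.classInner χ ψ = 0) (h2 : Cfsg.classInner (Cfsg.conjFun χ) ψ = 0) (τ₁ : (L → ℂ) → (G → ℂ)) (hτ₁ : Cfsg.IsLinearIsometryOn (Cfsg.zspan {χ - ψ, χ - Cfsg.conjFun χ}) τ₁) (hagree : ∀ n : ℤ, τ₁ (n • (χ - Cfsg.conjFun χ)) = τ (n • (χ - Cfsg.conjFun χ))) : (Cfsg.classInner χ χ).re ≤ ∑ α ∈ R χ, ‖Cfsg.classInner (τ₁ (χ - ψ)) α‖ ^ 2 ∧ ((Cfsg.classInner ψ ψ).re ≤ (Cfsg.classInner (τ₁ (χ - ψ)) (τ₁ (χ - ψ))).re - ∑ α ∈ R χ, ‖Cfsg.classInner (τ₁ (χ - ψ)) α‖ ^ 2 → (∑ α ∈ R χ, ‖Cfsg.classInner (τ₁ (χ - ψ)) α‖ ^ 2 = (Cfsg.classInner χ χ).re ∧ ∀ α ∈ R χ, Cfsg.classInner (τ₁ (χ - ψ)) α = 0 ∨ Cfsg.classInner (τ₁ (χ - ψ)) α = 1)) := by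
  classical
  obtain ⟨hadd, hsmul, hinner, hvirt⟩ := hτ₁
  have hm1 : χ - ψ ∈ zspan {χ - ψ, χ - conjFun χ} :=
    Submodule.subset_span (Set.mem_insert _ _)
  have hm2 : χ - conjFun χ ∈ zspan {χ - ψ, χ - conjFun χ} :=
    Submodule.subset_span (Set.mem_insert_of_mem _ (Set.mem_singleton _))
  have hX : IsGeneralizedCharacter G (τ₁ (χ - ψ)) := hvirt _ hm1
  -- τ₁ (χ - conj χ) is the sum of R χ
  have hsum : τ₁ (χ - conjFun χ) = ∑ α ∈ R χ, α := by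
    have := hagree 1
    rw [one_smul] at this
    rw [this, hS.sum_eq χ hχ]
  obtain ⟨N, hN⟩ := classInner_isCharacter_nat (hS.isCharacter χ hχ) (hS.isCharacter χ hχ)
  have e1 : classInner χ (conjFun χ) = 0 :=
    hS.orthogonal χ hχ (conjFun χ) (hS.conj_mem χ hχ) (Ne.symm (hS.conj_ne χ hχ))
  have e2 : classInner ψ χ = 0 := by
    rw [← classInner_conj_symm, h1, map_zero]
  have e3 : classInner ψ (conjFun χ) = 0 := by
    rw [← classInner_conj_symm, h2, map_zero]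
  have hXsum : ∑ α ∈ R χ, classInner (τ₁ (χ - ψ)) α = (N : ℂ) := by
    rw [← classInner_sum_right, ← hsum, hinner _ hm1 _ hm2, classInner_sub_left,
      classInner_sub_right, classInner_sub_right, e1, e2, e3, hN]
    ring
  have hXX : classInner (τ₁ (χ - ψ)) (τ₁ (χ - ψ)) = (N : ℂ) + classInner ψ ψ := by
    rw [hinner _ hm1 _ hm1, classInner_sub_left, classInner_sub_right, classInner_sub_right,
      h1, e2, hN]
    ring
  have hint : ∀ α ∈ R χ, ∃ k : ℤ, classInner (τ₁ (χ - ψ)) α = k := by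
    intro α hα
    exact genChar_inner_int hX (hS.virtual χ hχ α hα)
  choose! a ha using hint
  have hnormsq : ∀ α ∈ R χ, ‖classInner (τ₁ (χ - ψ)) α‖ ^ 2 = ((a α ^ 2 : ℤ) : ℝ) := by
    intro α hα
    rw [ha α hα, Complex.norm_intCast, sq_abs]
    push_cast
    ring
  have hsumInt : ∑ α ∈ R χ, a α = (N : ℤ) := by
    have h3 : ((∑ α ∈ R χ, a α : ℤ) : ℂ) = ((N : ℤ) : ℂ) := by
      rw [Int.cast_sum, Finset.sum_congr rfl (fun α hα => (ha α hα).symm), hXsum]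
      simp
    exact_mod_cast h3
  have hsq : ∑ α ∈ R χ, ‖classInner (τ₁ (χ - ψ)) α‖ ^ 2 = ((∑ α ∈ R χ, a α ^ 2 : ℤ) : ℝ) := by
    rw [Int.cast_sum]
    exact Finset.sum_congr rfl hnormsq
  have hre : (classInner χ χ).re = ((N : ℤ) : ℝ) := by
    rw [hN]
    simp
  have hle : (N : ℤ) ≤ ∑ α ∈ R χ, a α ^ 2 := by
    rw [← hsumInt]
    exact Finset.sum_le_sum (fun α _ => Int.le_self_sq (a α))
  refine ⟨?_, ?_⟩
  · rw [hsq, hre]
    exact_mod_cast hle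
  · intro hhyp
    rw [hXX, hsq] at hhyp
    have h4 : ((∑ α ∈ R χ, a α ^ 2 : ℤ) : ℝ) ≤ ((N : ℤ) : ℝ) := by
      have : ((N : ℂ) + classInner ψ ψ).re = (N : ℝ) + (classInner ψ ψ).re := by simp
      rw [this] at hhyp
      push_cast
      push_cast at hhyp
      linarith
    have h5 : ∑ α ∈ R χ, a α ^ 2 ≤ (N : ℤ) := by exact_mod_cast h4
    have h6 : ∑ α ∈ R χ, (a α ^ 2 - a α) = 0 := by
      rw [Finset.sum_sub_distrib, hsumInt]
      omega
    have h7 : ∀ α ∈ R χ, a α ^ 2 - a α = 0 :=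
      (Finset.sum_eq_zero_iff_of_nonneg
        (fun α _ => sub_nonneg.mpr (Int.le_self_sq (a α)))).mp h6
    refine ⟨?_, ?_⟩
    · rw [hsq, hre]
      have : ∑ α ∈ R χ, a α ^ 2 = (N : ℤ) := le_antisymm h5 hle
      exact_mod_cast this
    · intro α hα
      have h8 := h7 α hα
      have h9 : a α * (a α - 1) = 0 := by ring_nf; ring_nf at h8; linarith
      rcases mul_eq_zero.mp h9 with h | h
      · left
        rw [ha α hα, h]
        simp
      · right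
        rw [ha α hα]
        have : a α = 1 := by omega
        rw [this]
        simp

end Cfsg.Agent.S1515
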