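import Cfsg.Statements.S1518
import Cfsg.Agent.H5.DadeExp
import Cfsg.Agent.H4.RealClasses
import Cfsg.Agent.H4.Exceptional

set_option autoImplicit false
open Cfsg

namespace Cfsg.Agent.S1518

open Cfsg.Agent.H4
open scoped ComplexConjugate

section Aux

variable {G : Type*} [Group G] (A : Set G) (L : Subgroup G) (H : G → Subgroup G)

theorem dade_conj (β : L → ℂ) :
    dadeIsometry A L H (conjFun β) = conjFun (dadeIsometry A L H β) := by
  funext g
  by_cases h : ∃ a : L, (a : G) ∈ A ∧ ∃ x : G, ∃ u ∈ H (a : G), x * g * x⁻¹ = (a : G) * u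
  · simp only [dadeIsometry, conjFun, dif_pos h]
  · simp only [dadeIsometry, conjFun, dif_neg h, map_zero]

theorem dade_neg (β : L → ℂ) : dadeIsometry A L H (-β) = - dadeIsometry A L H β := by
  funext g
  by_cases h : ∃ a : L, (a : G) ∈ A ∧ ∃ x : G, ∃ u ∈ H (a : G), x * g * x⁻¹ = (a : G) * u
  · simp only [dadeIsometry, Pi.neg_apply, dif_pos h]
  · simp only [dadeIsometry, Pi.neg_apply, dif_neg h, neg_zero]

theorem dade_zero : dadeIsometry A L H (0 : L → ℂ) = 0 := by
  funext g
  by_cases h : ∃ a : L, (a : G) ∈ A ∧ ∃ x : G, ∃ u ∈ H (a : G), x * g * x⁻¹ = (a : G) * u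
  · simp only [dadeIsometry, Pi.zero_apply, dif_pos h]
  · simp only [dadeIsometry, Pi.zero_apply, dif_neg h]

end Aux

/-- Under the Dade hypothesis for (A, L, H): if χ is an irreducible character of L vanishing at every non-identity element of L outside A, then the Dade image of χ − conj χ equals μ − conj μ for some irreducible character μ of G. -/
theorem result {G : Type*} [Group G] [Fintype G] (A : Set G) (L : Subgroup G) [Fintype L] (H : G → Subgroup G) (hD : Cfsg.DadeHypothesis A L H) (χ : L → ℂ) (hχ : Cfsg.IsIrrCharacter L χ) (hsupp : ∀ x : L, x ≠ 1 → (x : G) ∉ A → χ x = 0) : ∃ μ : G → ℂ, Cfsg.IsIrrCharacter G μ ∧ Cfsg.dadeIsometry A L H (χ - Cfsg.conjFun χ) = μ - Cfsg.conjFun μ := by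
  classical
  have hχc := isCharacter_of_isIrrCharacter hχ
  have hconj : IsIrrCharacter L (conjFun χ) := isIrrCharacter_conj hχ
  by_cases hreal : conjFun χ = χ
  · refine ⟨fun _ => 1, isIrrCharacter_one, ?_⟩
    rw [hreal, sub_self, dade_zero]
    funext g
    simp [conjFun]
  · set β : L → ℂ := χ - conjFun χ with hβ
    have hβgen : IsGeneralizedCharacter L β :=
      ⟨χ, conjFun χ, hχc, isCharacter_of_isIrrCharacter hconj, rfl⟩
    have hβA : ∀ x : L, (x : G) ∉ A → β x = 0 := by
      intro x hx
      by_cases h1 : x = 1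
      · subst h1
        show χ 1 - conj (χ 1) = 0
        rw [irr_one_conj ⟨χ, hχ⟩, sub_self]
      · show χ x - conj (χ x) = 0
        rw [hsupp x h1 hx]
        simp
    have hβcf : IsClassFunction L β := H5.isClassFunction_of_isGeneralizedCharacter hβgen
    have hτgen := H5.DadeExp.dade_genChar hD β hβgen hβA
    have hnorm : classInner (dadeIsometry A L H β) (dadeIsometry A L H β) = 2 := by
      rw [H32.dade_inner_dade hD hβcf hβA hβcf]
      have h11 := irr_inner_self ⟨χ, hχ⟩
      have h22 := irr_inner_self ⟨conjFun χ, hconj⟩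
      have h12 : classInner χ (conjFun χ) = 0 :=
        irr_inner_ne (χ := ⟨χ, hχ⟩) (ψ := ⟨conjFun χ, hconj⟩)
          (by intro h; exact hreal (congrArg Subtype.val h).symm)
      have h21 : classInner (conjFun χ) χ = 0 :=
        irr_inner_ne (χ := ⟨conjFun χ, hconj⟩) (ψ := ⟨χ, hχ⟩)
          (by intro h; exact hreal (congrArg Subtype.val h))
      simp only at h11 h22
      rw [hβ, classInner_sub_left, classInner_sub_right, classInner_sub_right, h11, h22, h12, h21]
      norm_num
    have hone : dadeIsometry A L H β 1 = 0 := by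
      apply H32.dadeIsometry_apply_not
      rintro ⟨a, ha, u, hu, x, hx⟩
      have h1 : a * u = 1 := by rw [← hx]; group
      have hau : a = u⁻¹ := eq_inv_of_mul_eq_one_left h1
      have haH : a ∈ H a := by
        have := (H a).inv_mem hu
        rwa [← hau] at this
      have hmem : a ∈ H a ⊓ (L ⊓ Subgroup.centralizer ({a} : Set G)) :=
        ⟨haH, hD.subset ha, H32.mem_centralizer_singleton.mpr rfl⟩
      rw [hD.inf_eq_bot a ha] at hmem
      have h2 : a = 1 := by simpa using hmem
      exact hD.one_not_mem (h2 ▸ ha)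
    obtain ⟨Φ, Ψ, hΦ, hΨ, hτ⟩ := hτgen
    have h1' : Φ 1 = Ψ 1 := by
      have := congrFun hτ 1
      rw [hone] at this
      simp only [Pi.sub_apply] at this
      exact sub_eq_zero.mp this.symm
    rw [hτ] at hnorm
    obtain ⟨μ, ν, hne, hμν⟩ := exists_irr_sub_irr_of_norm_two hΦ hΨ hnorm h1'
    have hconjτ : conjFun (dadeIsometry A L H β) = - dadeIsometry A L H β := by
      rw [← dade_conj, ← dade_neg]
      congr 1
      funext x
      simp [hβ, conjFun]
    rw [hτ, hμν] at hconjτ
    have hμc : IsIrrCharacter G (conjFun μ.1) := isIrrCharacter_conj μ.2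
    have hνc : IsIrrCharacter G (conjFun ν.1) := isIrrCharacter_conj ν.2
    have key : conjFun μ.1 + μ.1 = conjFun ν.1 + ν.1 := by
      funext g
      have := congrFun hconjτ g
      simp only [conjFun, Pi.sub_apply, Pi.neg_apply, map_sub] at this
      simp only [Pi.add_apply, conjFun]
      linear_combination this
    have hin := congrArg (fun f => classInner f μ.1) key
    simp only [classInner_add_left] at hin
    rw [irr_inner_self μ, irr_inner_ne (χ := ν) (ψ := μ) (Ne.symm hne), add_zero] at hin
    have h3 := irr_inner ⟨conjFun μ.1, hμc⟩ μ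
    have h4 := irr_inner ⟨conjFun ν.1, hνc⟩ μ
    simp only at h3 h4
    have hνμ : (⟨conjFun ν.1, hνc⟩ : IrrCharacter G) = μ := by
      by_contra hcon
      rw [if_neg hcon] at h4
      rw [h4] at hin
      split_ifs at h3 with h5
      · rw [h3] at hin
        norm_num at hin
      · rw [h3] at hin
        norm_num at hin
    refine ⟨μ.1, μ.2, ?_⟩
    rw [hτ, hμν]
    have hν : ν.1 = conjFun μ.1 := by
      have := congrArg Subtype.val hνμ
      simp only at this
      rw [← this, H32.conjFun_conjFun]
    rw [hν]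

end Cfsg.Agent.S1518
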