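import Cfsg.Statements.S1519
import Cfsg.Agent.H32.IndIrr
import Cfsg.Agent.H32.CohMany
import Cfsg.Agent.S1492

set_option autoImplicit false
open Cfsg

namespace Cfsg.Agent.S1519

open Cfsg.Agent.H4 Cfsg.Agent.H32

/-- Let K be a solvable normal subgroup of the finite group L and (S, τ, R) a coherence system from L to G where S is the set of functions induced from non-principal irreducible characters of K; write S(A) for those induced from characters whose kernel contains A. Let A, B, C, D be normal subgroups of L with A < K, B < K, B ≤ D ≤ C ≤ K and every commutator of D with C in B. If S(A) is coherent and 4 * [L:C]^2 * [C:D] < ([K:A] − 1)^2, then S(B) is coherent. -/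
theorem result {L : Type*} [Group L] [Fintype L] {G : Type*} [Group G] [Fintype G] (K : Subgroup L) [hK : K.Normal] (hsolv : Group.IsSolvable K) (τ : (L → ℂ) → (G → ℂ)) (R : (L → ℂ) → Finset (G → ℂ)) (hS : Cfsg.IsCoherenceSystem (Cfsg.inducedIrrAbove K ⊥) τ R) (A B C D : Subgroup L) [A.Normal] [B.Normal] [C.Normal] [D.Normal] (hAK : A < K) (hBK : B < K) (hBD : B ≤ D) (hDC : D ≤ C) (hCK : C ≤ K) (hcent : ∀ x ∈ D, ∀ y ∈ C, x * y * x⁻¹ * y⁻¹ ∈ B) (hA : Cfsg.IsCoherent (Cfsg.inducedIrrAbove K A) {1}ᶜ τ) (hlt : 4 * C.index ^ 2 * D.relIndex C < (A.relIndex K - 1) ^ 2) : Cfsg.IsCoherent (Cfsg.inducedIrrAbove K B) {1}ᶜ τ := by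
  classical
  haveI : Fintype K := Fintype.ofFinite K
  haveI : Group.IsSolvable K := hsolv
  choose! d hd using fun φ (hφ : φ ∈ inducedIrrAbove K ⊥) => cs_deg hS hφ
  choose! n hn using fun φ (hφ : φ ∈ inducedIrrAbove K ⊥) => cs_norm hS hφ
  have hfin : (inducedIrrAbove K ⊥).Finite :=
    finite_of_orthogonal _ hS.orthogonal
      (fun χ hχ h => cs_ne_zero hS hχ (classInner_self_eq_zero h))
  obtain ⟨SA, hSA⟩ : ∃ SA : Finset (L → ℂ), ∀ φ, φ ∈ SA ↔ φ ∈ inducedIrrAbove K A :=
    ⟨(hfin.subset (inducedIrrAbove_subset_bot K A)).toFinset, fun φ => Set.Finite.mem_toFinset _⟩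
  obtain ⟨SB, hSB⟩ : ∃ SB : Finset (L → ℂ), ∀ φ, φ ∈ SB ↔ φ ∈ inducedIrrAbove K B :=
    ⟨(hfin.subset (inducedIrrAbove_subset_bot K B)).toFinset, fun φ => Set.Finite.mem_toFinset _⟩
  have hSAcoe : (↑SA : Set (L → ℂ)) = inducedIrrAbove K A := by
    ext φ
    exact hSA φ
  have hSAS : (↑SA : Set (L → ℂ)) ⊆ inducedIrrAbove K ⊥ :=
    fun φ hφ => inducedIrrAbove_subset_bot K A ((hSA φ).mp hφ)
  have hSBS : (↑SB : Set (L → ℂ)) ⊆ inducedIrrAbove K ⊥ :=
    fun φ hφ => inducedIrrAbove_subset_bot K B ((hSB φ).mp hφ)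
  -- linear characters
  have hlin : ∀ X : Subgroup L, X.Normal → X < K → ∃ χ₁ ∈ inducedIrrAbove K X,
      χ₁ 1 = (K.index : ℂ) := by
    intro X hXn hXK
    have hX'ne : X.subgroupOf K ≠ ⊤ := by
      intro h
      rw [Subgroup.subgroupOf_eq_top] at h
      exact (not_le_of_gt hXK) h
    obtain ⟨f, hf1, hfX⟩ := exists_linear_of_solvable (X.subgroupOf K) hX'ne
    refine ⟨indFun K (Cfsg.Agent.H82.linChar f).1,
      ⟨(Cfsg.Agent.H82.linChar f).1, (Cfsg.Agent.H82.linChar f).2, ?_, ?_, rfl⟩, ?_⟩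
    · intro h
      apply hf1
      ext k
      have := congrFun h k
      rw [Cfsg.Agent.H82.linChar_apply] at this
      simpa using this
    · intro a ha
      rw [Cfsg.Agent.H82.linChar_apply, Cfsg.Agent.H82.linChar_apply,
        hfX a (Subgroup.mem_subgroupOf.mpr ha), map_one]
    · rw [Cfsg.Agent.H82.indFun_one, Cfsg.Agent.H82.linChar_one, mul_one]
  obtain ⟨χ₁, hχ₁A, hχ₁1⟩ := hlin A inferInstance hAK
  have hdχ₁ : d χ₁ = K.index := by
    have h1 := (hd χ₁ (inducedIrrAbove_subset_bot K A hχ₁A)).1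
    rw [hχ₁1] at h1
    exact_mod_cast h1.symm
  have hepos : 0 < K.index := Nat.pos_of_ne_zero Subgroup.index_ne_zero_of_finite
  have hsumA := sum_sq_ge K d n A SA hSA
    (fun φ hφ => (hd φ (hSAS hφ)).1) (fun φ hφ => (hn φ (hSAS hφ)).1)
  have hstep : ∀ χ ∈ SB, χ ∉ SA → ∃ χ₁ ∈ SA, d χ₁ ∣ d χ ∧
      (2 * d χ * d χ₁ : ℝ) < ∑ φ ∈ SA, (d φ : ℝ) ^ 2 / (n φ : ℝ) := by
    intro χ hχ _
    obtain ⟨θ, hθirr, hθne, hθker, hχeq⟩ := (hSB χ).mp hχ
    have hθ1c : θ 1 = (Cfsg.charDegree θ : ℂ) :=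
      Cfsg.Agent.H82.irr_one_eq_charDegree (⟨θ, hθirr⟩ : IrrCharacter K)
    have hdχ : d χ = K.index * Cfsg.charDegree θ := by
      have h1 : χ 1 = (d χ : ℂ) := (hd χ (hSBS hχ)).1
      have h2 : χ 1 = (K.index : ℂ) * θ 1 := by
        rw [hχeq]
        exact Cfsg.Agent.H82.indFun_one K θ
      rw [h2, hθ1c] at h1
      exact_mod_cast h1.symm
    refine ⟨χ₁, (hSA χ₁).mpr hχ₁A, ?_, ?_⟩
    · rw [hdχ₁, hdχ]
      exact Dvd.intro _ rfl
    · have h92 := Cfsg.Agent.S1492.result θ hθirr (B.subgroupOf K) (C.subgroupOf K)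
        (D.subgroupOf K)
        (fun x hx => Subgroup.mem_subgroupOf.mpr (hBD (Subgroup.mem_subgroupOf.mp hx)))
        (fun x hx => Subgroup.mem_subgroupOf.mpr (hDC (Subgroup.mem_subgroupOf.mp hx)))
        (fun c _ b hb => by
          rw [Subgroup.mem_subgroupOf] at hb ⊢
          have := (inferInstance : B.Normal).conj_mem (b : L) hb (c : L)
          simpa using this)
        (fun x hx y hy => by
          rw [Subgroup.mem_subgroupOf] at hx hy ⊢
          have := hcent (x : L) hx (y : L) hy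
          simpa using this)
        (fun b hb => hθker b (Subgroup.mem_subgroupOf.mp hb))
      have hθ1 : ‖θ 1‖ = (Cfsg.charDegree θ : ℝ) := by
        rw [hθ1c]
        simp
      have hcC : Nat.card (C.subgroupOf K) = Nat.card C :=
        Nat.card_congr (Subgroup.subgroupOfEquivOfLe hCK).toEquiv
      have hcD : Nat.card (D.subgroupOf K) = Nat.card D :=
        Nat.card_congr (Subgroup.subgroupOfEquivOfLe (hDC.trans hCK)).toEquiv
      rw [hθ1, hcC, hcD] at h92
      have hK1 : Nat.card K = Nat.card C * C.relIndex K := by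
        have := Subgroup.card_mul_index (C.subgroupOf K)
        rw [hcC] at this
        exact this.symm
      have hC1 : Nat.card C = Nat.card D * D.relIndex C := by
        have := Subgroup.card_mul_index (D.subgroupOf C)
        rw [Nat.card_congr (Subgroup.subgroupOfEquivOfLe hDC).toEquiv] at this
        exact this.symm
      have hCidx : C.index = C.relIndex K * K.index := (Subgroup.relIndex_mul_index hCK).symm
      have h93 : Cfsg.charDegree θ ^ 2 * (Nat.card C * Nat.card D) ≤
          (C.relIndex K ^ 2 * D.relIndex C) * (Nat.card C * Nat.card D) := by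
        have h1 : Cfsg.charDegree θ ^ 2 * Nat.card C * Nat.card D ≤ Nat.card K ^ 2 := by
          exact_mod_cast h92
        calc Cfsg.charDegree θ ^ 2 * (Nat.card C * Nat.card D)
            = Cfsg.charDegree θ ^ 2 * Nat.card C * Nat.card D := by ring
          _ ≤ Nat.card K ^ 2 := h1
          _ = (Nat.card C * C.relIndex K) * (Nat.card C * C.relIndex K) := by
              rw [hK1]
              ring
          _ = (Nat.card C * C.relIndex K) * ((Nat.card D * D.relIndex C) * C.relIndex K) := by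
              rw [← hC1]
          _ = (C.relIndex K ^ 2 * D.relIndex C) * (Nat.card C * Nat.card D) := by
              ring
      have hpos : 0 < Nat.card C * Nat.card D := Nat.mul_pos Nat.card_pos Nat.card_pos
      have h94 : Cfsg.charDegree θ ^ 2 ≤ C.relIndex K ^ 2 * D.relIndex C :=
        Nat.le_of_mul_le_mul_right h93 hpos
      have h95 : (2 * K.index * Cfsg.charDegree θ) ^ 2 < (A.relIndex K - 1) ^ 2 := by
        calc (2 * K.index * Cfsg.charDegree θ) ^ 2
            = 4 * K.index ^ 2 * Cfsg.charDegree θ ^ 2 := by ring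
          _ ≤ 4 * K.index ^ 2 * (C.relIndex K ^ 2 * D.relIndex C) :=
              Nat.mul_le_mul_left _ h94
          _ = 4 * C.index ^ 2 * D.relIndex C := by rw [hCidx]; ring
          _ < (A.relIndex K - 1) ^ 2 := hlt
      have h96 : 2 * K.index * Cfsg.charDegree θ < A.relIndex K - 1 :=
        lt_of_pow_lt_pow_left₀ 2 (Nat.zero_le _) h95
      have h97 : (2 * K.index * Cfsg.charDegree θ : ℝ) + 1 < (A.relIndex K : ℝ) := by
        have : 2 * K.index * Cfsg.charDegree θ + 1 < A.relIndex K := by omega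
        exact_mod_cast this
      have heposR : (0 : ℝ) < K.index := by exact_mod_cast hepos
      rw [hdχ, hdχ₁]
      push_cast
      calc (2 * (K.index * Cfsg.charDegree θ) * K.index : ℝ)
          = K.index * (2 * K.index * Cfsg.charDegree θ) := by ring
        _ < K.index * ((A.relIndex K : ℝ) - 1) := by
            apply mul_lt_mul_of_pos_left _ heposR
            linarith
        _ ≤ _ := hsumA
  have hcohAB := coherence_ext_many (inducedIrrAbove K ⊥) τ R hS d n (fun φ hφ => (hd φ hφ).1)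
    (fun φ hφ => (hn φ hφ).1) SA SB hSAS hSBS
    (fun φ hφ => (hSA _).mpr (inducedIrrAbove_conj K ((hSA φ).mp hφ)))
    (fun φ hφ => (hSB _).mpr (inducedIrrAbove_conj K ((hSB φ).mp hφ)))
    (by rw [hSAcoe]; exact hA) hstep
  obtain ⟨χ₂, hχ₂B, -⟩ := hlin B inferInstance hBK
  have hχ₂S := inducedIrrAbove_subset_bot K B hχ₂B
  refine isCoherent_subset hcohAB ?_ ⟨χ₂ - conjFun χ₂, ?_, ?_⟩
  · intro φ hφ
    exact Finset.mem_coe.mpr (Finset.mem_union_right _ ((hSB φ).mpr hφ))
  · apply mem_zspanOn_compl_one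
    · exact Submodule.sub_mem _ (Submodule.subset_span hχ₂B)
        (Submodule.subset_span (inducedIrrAbove_conj K hχ₂B))
    · rw [Pi.sub_apply, cs_conj_one hS hχ₂S, sub_self]
  · intro h
    exact hS.conj_ne χ₂ hχ₂S (sub_eq_zero.mp h).symm

end Cfsg.Agent.S1519
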