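import Cfsg.Statements.S1520
import Cfsg.Agent.H32.Chain
import Cfsg.Agent.S1519

set_option autoImplicit false
open Cfsg

namespace Cfsg.Agent.S1520

open Cfsg.Agent.H32

/-- Let K be a solvable normal subgroup of the finite group L and (S, τ, R) a coherence system from L to G with S the functions induced from non-principal irreducible characters of K; S(A) the members of S induced from characters whose kernel contains A. Let M ≤ H₁ ≤ H ≤ K be normal subgroups of L such that every term of the lower central series of H eventually lies in M (H/M nilpotent), S(H₁) is coherent and [H:H₁] > 4 * [L:K]^2 + 1. Then S(M) is coherent. -/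
theorem result {L : Type*} [Group L] [Fintype L] {G : Type*} [Group G] [Fintype G] (K : Subgroup L) [hK : K.Normal] (hsolv : Group.IsSolvable K) (τ : (L → ℂ) → (G → ℂ)) (R : (L → ℂ) → Finset (G → ℂ)) (hS : Cfsg.IsCoherenceSystem (Cfsg.inducedIrrAbove K ⊥) τ R) (M H₁ H : Subgroup L) [M.Normal] [H₁.Normal] [H.Normal] (hMH₁ : M ≤ H₁) (hH₁H : H₁ ≤ H) (hHK : H ≤ K) [(M.subgroupOf H).Normal] (hnil : Group.IsNilpotent (↥H ⧸ M.subgroupOf H)) (hcoh : Cfsg.IsCoherent (Cfsg.inducedIrrAbove K H₁) {1}ᶜ τ) (hbig : 4 * K.index ^ 2 + 1 < H₁.relIndex H) : Cfsg.IsCoherent (Cfsg.inducedIrrAbove K M) {1}ᶜ τ := by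
  classical
  obtain ⟨N, hN⟩ := cchain_eventually M H₁ H hMH₁ hH₁H hnil
  rw [← hN]
  have hH₁ne : H₁ ≠ H := by
    intro h
    rw [h, Subgroup.relIndex_self] at hbig
    omega
  have hH₁K : H₁ < K := lt_of_lt_of_le (lt_of_le_of_ne hH₁H hH₁ne) hHK
  have key : ∀ n, Cfsg.IsCoherent (Cfsg.inducedIrrAbove K (cchain M H₁ H n)) {1}ᶜ τ := by
    intro n
    induction n with
    | zero => exact hcoh
    | succ n ih =>
      haveI := cchain_normal M H₁ H n
      haveI := cchain_normal M H₁ H (n + 1)
      have hle : cchain M H₁ H n ≤ H₁ := cchain_le M H₁ H hMH₁ n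
      have hAK : cchain M H₁ H n < K := lt_of_le_of_lt hle hH₁K
      have hBK : cchain M H₁ H (n + 1) < K :=
        lt_of_le_of_lt (cchain_le M H₁ H hMH₁ (n + 1)) hH₁K
      have e1 : H.index = H.relIndex K * K.index := (Subgroup.relIndex_mul_index hHK).symm
      have e2 : (cchain M H₁ H n).relIndex H =
          (cchain M H₁ H n).relIndex H₁ * H₁.relIndex H :=
        (Subgroup.relIndex_mul_relIndex _ _ _ hle hH₁H).symm
      have e3 : (cchain M H₁ H n).relIndex K =
          (cchain M H₁ H n).relIndex H * H.relIndex K :=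
        (Subgroup.relIndex_mul_relIndex _ _ _ (hle.trans hH₁H) hHK).symm
      have p1 : 0 < (cchain M H₁ H n).relIndex H₁ :=
        Nat.pos_of_ne_zero Subgroup.index_ne_zero_of_finite
      have p2 : 0 < H.relIndex K := Nat.pos_of_ne_zero Subgroup.index_ne_zero_of_finite
      have hh : 4 * K.index ^ 2 + 1 < (cchain M H₁ H n).relIndex H := by
        rw [e2]
        calc 4 * K.index ^ 2 + 1 < H₁.relIndex H := hbig
          _ = 1 * H₁.relIndex H := (one_mul _).symm
          _ ≤ _ := Nat.mul_le_mul_right _ p1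
      have hlt : 4 * H.index ^ 2 * (cchain M H₁ H n).relIndex H <
          ((cchain M H₁ H n).relIndex K - 1) ^ 2 := by
        rw [e1, e3]
        exact num_6_5 K.index (H.relIndex K) _ p2 hh
      exact Cfsg.Agent.S1519.result K hsolv τ R hS (cchain M H₁ H n) (cchain M H₁ H (n + 1)) H
        (cchain M H₁ H n) hAK hBK (cchain_succ_le M H₁ H hMH₁ n) (hle.trans hH₁H) hHK
        (cchain_comm M H₁ H n) ih hlt
  exact key N

end Cfsg.Agent.S1520
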