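import Cfsg.Statements.S1521
import Cfsg.Agent.H32.FrobDiv
import Cfsg.Agent.H32.FrobNil
import Cfsg.Agent.S1520

set_option autoImplicit false
open Cfsg

namespace Cfsg.Agent.S1521

open Cfsg.Agent.H32

/-- Let K be a solvable normal subgroup of the finite group L of odd order and (S, τ, R) a coherence system from L to G with S the functions induced from non-principal irreducible characters of K; S(A) as before. Let M ≤ K be normal in L with K/M nilpotent, H₁ = [K, K] ⊔ M, H₁ < K < L, and suppose every element of K outside H₁ is centralised modulo H₁ only from inside K (L/H₁ is a Frobenius group with kernel K/H₁). Suppose one of the following: some normal subgroup of L lies strictly between H₁ and K; or [K:H₁] > 4[L:K]^2 + 1; or [K:M] is not a prime power; or [K,K] ≤ M; or [K:M] is a power of a prime p with [L:K] dividing p − 1. Then S(M) is coherent. -/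
theorem result {L : Type*} [Group L] [Fintype L] {G : Type*} [Group G] [Fintype G] (K : Subgroup L) [hK : K.Normal] (hsolv : Group.IsSolvable K) (τ : (L → ℂ) → (G → ℂ)) (R : (L → ℂ) → Finset (G → ℂ)) (hS : Cfsg.IsCoherenceSystem (Cfsg.inducedIrrAbove K ⊥) τ R) (hodd : Odd (Nat.card L)) (M : Subgroup L) [M.Normal] (hMK : M ≤ K) [(M.subgroupOf K).Normal] (hnil : Group.IsNilpotent (↥K ⧸ M.subgroupOf K)) (H₁ : Subgroup L) (hH₁ : H₁ = ⁅K, K⁆ ⊔ M) (hH₁K : H₁ < K) (hKL : K < ⊤) (hfrob : ∀ k ∈ K, k ∉ H₁ → ∀ x : L, x * k * x⁻¹ * k⁻¹ ∈ H₁ → x ∈ K) (hgood : (∃ N : Subgroup L, N.Normal ∧ H₁ < N ∧ N < K) ∨ 4 * K.index ^ 2 + 1 < H₁.relIndex K ∨ (¬ ∃ p m : ℕ, p.Prime ∧ M.relIndex K = p ^ m) ∨ ⁅K, K⁆ ≤ M ∨ (∃ p m : ℕ, p.Prime ∧ M.relIndex K = p ^ m ∧ K.index ∣ p - 1)) : Cfsg.IsCoherent (Cfsg.inducedIrrAbove K M) {1}ᶜ τ := by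
  classical
  haveI : Group.IsSolvable K := hsolv
  haveI hH₁n : H₁.Normal := by
    rw [hH₁]
    infer_instance
  have hcomm : ⁅K, K⁆ ≤ H₁ := by
    rw [hH₁]
    exact le_sup_left
  have hMH₁ : M ≤ H₁ := by
    rw [hH₁]
    exact le_sup_right
  have hbase : Cfsg.IsCoherent (Cfsg.inducedIrrAbove K H₁) {1}ᶜ τ :=
    coh_base K τ R hS H₁ hH₁K hcomm
  have case2 : 4 * K.index ^ 2 + 1 < H₁.relIndex K →
      Cfsg.IsCoherent (Cfsg.inducedIrrAbove K M) {1}ᶜ τ :=
    fun hbig => Cfsg.Agent.S1520.result K hsolv τ R hS M H₁ K hMH₁ hH₁K.le le_rfl hnil hbase hbig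
  have case4 : ⁅K, K⁆ ≤ M → Cfsg.IsCoherent (Cfsg.inducedIrrAbove K M) {1}ᶜ τ := by
    intro h
    have h1 : H₁ = M := by
      rw [hH₁]
      exact sup_eq_right.mpr h
    rw [← h1]
    exact hbase
  have case1 : (∃ N : Subgroup L, N.Normal ∧ H₁ < N ∧ N < K) →
      Cfsg.IsCoherent (Cfsg.inducedIrrAbove K M) {1}ᶜ τ := by
    rintro ⟨N, hNn, h1, h2⟩
    haveI := hNn
    exact case2 (frob_between_bound hodd K H₁ N hcomm h1 h2 hfrob)
  rcases hgood with h | h | h | h | h
  · exact case1 h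
  · exact case2 h
  · apply case1
    apply exists_between_of_not_prime_pow K H₁ hcomm hH₁K
    rintro ⟨p, a, hp, hpa⟩
    obtain ⟨m, hm⟩ := relIndex_prime_pow_of_nilpotent K M H₁ hMK hnil hH₁ p a hp hpa
    exact h ⟨p, m, hp, hm⟩
  · exact case4 h
  · obtain ⟨p, m, hp, hpm, hdvd⟩ := h
    have hmul : M.relIndex H₁ * H₁.relIndex K = M.relIndex K :=
      Subgroup.relIndex_mul_relIndex _ _ _ hMH₁ hH₁K.le
    have hdvd2 : H₁.relIndex K ∣ p ^ m := by
      rw [← hpm]
      exact Dvd.intro_left _ hmul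
    obtain ⟨a, -, ha⟩ := (Nat.dvd_prime_pow hp).mp hdvd2
    rcases Nat.lt_or_ge a 2 with ha2 | ha2
    · have ha1 : a = 1 := by
        rcases Nat.eq_zero_or_pos a with h0 | h0
        · exfalso
          rw [h0, pow_zero, Subgroup.relIndex_eq_one] at ha
          exact not_le_of_gt hH₁K ha
        · omega
      rw [ha1, pow_one] at ha
      exact case4 (comm_le_of_prime_index K M H₁ hMK hnil hH₁ p hp ha)
    · apply case2
      have hoddK : Odd (Nat.card K) := hodd.of_dvd_nat (Subgroup.card_subgroup_dvd_card K)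
      have hpo : Odd p := by
        have h1 : p ∣ H₁.relIndex K := by
          rw [ha]
          exact dvd_pow_self p (by omega)
        exact (hoddK.of_dvd_nat (Subgroup.relIndex_dvd_card H₁ K)).of_dvd_nat h1
      have heo : Odd K.index := hodd.of_dvd_nat (Subgroup.index_dvd_card K)
      have hge := num_odd_ge K.index p heo hpo hp.one_lt hdvd
      have hepos : 0 < K.index := Nat.pos_of_ne_zero Subgroup.index_ne_zero_of_finite
      rw [ha]
      calc 4 * K.index ^ 2 + 1 < (2 * K.index + 1) ^ 2 := by nlinarith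
        _ ≤ p ^ 2 := Nat.pow_le_pow_left hge 2
        _ ≤ p ^ a := Nat.pow_le_pow_right hp.pos ha2

end Cfsg.Agent.S1521
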