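import Mathlib
import Cfsg.Statements.S1522
import Cfsg.Agent.H19.CohZ2
import Cfsg.Agent.S1521
import Cfsg.Agent.H32.FrobDiv

set_option autoImplicit false
open Cfsg

namespace Cfsg.Agent.S1522

/-- Let K be a nilpotent normal subgroup of the finite group L of odd order with [K,K] < K < L and L/[K,K] a Frobenius group with kernel K/[K,K] (elements of K outside [K,K] are centralised modulo [K,K] only from inside K); let (S, τ, R) be a coherence system from L to G with S the functions induced from non-principal irreducible characters of K. Let Z be a nontrivial normal subgroup of L contained in the centre of K, and suppose every member of S outside S(Z) is an irreducible character of L. Then S minus S(Z) is the set of irreducible characters χ of L with χ z ≠ χ 1 for some z ∈ Z, and it is coherent. -/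
theorem result {L : Type*} [Group L] [Fintype L] {G : Type*} [Group G] [Fintype G] (K : Subgroup L) [hK : K.Normal] (hsolv : Group.IsSolvable K) (τ : (L → ℂ) → (G → ℂ)) (R : (L → ℂ) → Finset (G → ℂ)) (hS : Cfsg.IsCoherenceSystem (Cfsg.inducedIrrAbove K ⊥) τ R) (hodd : Odd (Nat.card L)) (hnil : Group.IsNilpotent K) (hH₁K : ⁅K, K⁆ < K) (hKL : K < ⊤) (hfrob : ∀ k ∈ K, k ∉ ⁅K, K⁆ → ∀ x : L, x * k * x⁻¹ * k⁻¹ ∈ ⁅K, K⁆ → x ∈ K) (Z : Subgroup L) [Z.Normal] (hZ1 : Z ≠ ⊥) (hZK : Z ≤ K) (hZc : ∀ z ∈ Z, ∀ k ∈ K, z * k = k * z) (hirr : ∀ χ ∈ Cfsg.inducedIrrAbove K ⊥ \ Cfsg.inducedIrrAbove K Z, Cfsg.IsIrrCharacter L χ) : Cfsg.inducedIrrAbove K ⊥ \ Cfsg.inducedIrrAbove K Z = {χ | Cfsg.IsIrrCharacter L χ ∧ ∃ z ∈ Z, χ z ≠ χ 1} ∧ Cfsg.IsCoherent (Cfsg.inducedIrrAbove K ⊥ \ Cfsg.inducedIrrAbove K Z) {1}ᶜ τ := by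
  classical
  have hA := Cfsg.Agent.H19.induced_diff_eq K Z hZK hirr
  have hA' : Cfsg.inducedIrrAbove K ⊥ \ Cfsg.inducedIrrAbove K Z =
      {χ | Cfsg.IsIrrCharacter L χ ∧ ∃ z ∈ Z, χ z ≠ χ 1} := hA
  refine ⟨hA', ?_⟩
  rw [hA]
  have hsubS : Cfsg.Agent.H19.SKall Z ⊆ Cfsg.inducedIrrAbove K ⊥ := by
    rw [← hA]
    exact Set.sdiff_subset
  have hτ := Cfsg.Agent.H32.isLinearIsometryOn_mono hS.isometry
    (fun f hf => Cfsg.Agent.H32.zspanOn_mono hsubS hf)
  have hτ1 : ∀ α ∈ Cfsg.zspanOn (Cfsg.Agent.H19.SKall Z) {1}ᶜ, τ α 1 = 0 :=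
    fun α hα => hS.map_one α (Cfsg.Agent.H32.zspanOn_mono hsubS hα)
  by_cases hpp : ∃ p m : ℕ, p.Prime ∧ Nat.card K = p ^ m
  · obtain ⟨p, m, hp, hKcard⟩ := hpp
    have hm : m ≠ 0 := by
      intro h0
      rw [h0, pow_zero] at hKcard
      have hKbot : K = ⊥ := Subgroup.card_eq_one.mp hKcard
      rw [hKbot] at hH₁K
      exact not_lt_bot hH₁K
    have hpdvdL : p ∣ Nat.card L := by
      have h1 : p ∣ Nat.card K := by
        rw [hKcard]
        exact dvd_pow_self p hm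
      exact h1.trans (Subgroup.card_subgroup_dvd_card K)
    have hp2 : p ≠ 2 := by
      rintro rfl
      exact (Nat.not_even_iff_odd.mpr hodd) (even_iff_two_dvd.mpr hpdvdL)
    have hcop : Nat.Coprime K.index p := by
      rw [Nat.coprime_comm, Nat.Prime.coprime_iff_not_dvd hp]
      intro hdvd
      have h1 := Cfsg.Agent.H32.frob_dvd K ⁅K, K⁆ K le_rfl le_rfl hfrob
      have h2 : (⁅K, K⁆ : Subgroup L).relIndex K ∣ Nat.card K := Subgroup.relIndex_dvd_card _ _
      rw [hKcard] at h2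
      obtain ⟨j, hj, hjeq⟩ := (Nat.dvd_prime_pow hp).mp h2
      have hj0 : j ≠ 0 := by
        intro h0
        rw [h0, pow_zero, Subgroup.relIndex_eq_one] at hjeq
        exact (not_le_of_gt hH₁K) hjeq
      have h3 : p ∣ (⁅K, K⁆ : Subgroup L).relIndex K := by
        rw [hjeq]
        exact dvd_pow_self p hj0
      have h4 : p ∣ (⁅K, K⁆ : Subgroup L).relIndex K - 1 := hdvd.trans h1
      have h5 : 0 < (⁅K, K⁆ : Subgroup L).relIndex K := by
        rw [hjeq]
        exact pow_pos hp.pos j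
      have h7 : (⁅K, K⁆ : Subgroup L).relIndex K - 1 + 1 = (⁅K, K⁆ : Subgroup L).relIndex K := by
        omega
      have h6 : p ∣ 1 := (Nat.dvd_add_right h4).mp (h7 ▸ h3)
      exact hp.one_lt.ne' (Nat.dvd_one.mp h6)
    exact Cfsg.Agent.H19.coh_central_gen K p hp hp2 m hKcard hcop hodd Z hZ1 hZK hZc
      (fun ξ hξ => by
        obtain ⟨θ, hθ, -, -, rfl⟩ := hsubS hξ
        exact ⟨θ, hθ, rfl⟩) τ hτ hτ1
  · haveI := hnil
    have hcohS := Cfsg.Agent.S1521.result K hsolv τ R hS hodd ⊥ bot_le inferInstance ⁅K, K⁆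
      (sup_bot_eq _).symm hH₁K hKL hfrob
      (Or.inr (Or.inr (Or.inl (by rw [Subgroup.relIndex_bot_left]; exact hpp))))
    exact Cfsg.Agent.H19.coh_subset hcohS hsubS
      (Cfsg.Agent.H19.SKall_exists_nonzero hodd Z hZ1)

end Cfsg.Agent.S1522
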