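import Mathlib
import Cfsg.Statements.S1524
import Cfsg.Agent.H19.SibE
import Cfsg.Agent.H19.SibF

set_option autoImplicit false
open Cfsg

namespace Cfsg.Agent.S1524

/-- Let G be a finite group and H ≤ L subgroups with L of odd order, H ≠ ⊥ nilpotent and normal in L with a nontrivial complement W₁ in L (H ⊓ W₁ = ⊥, H ⊔ W₁ = L) acting on H without non-identity fixed points (L is a Frobenius group with kernel H), and suppose the underlying set of H is a TI-subset of G whose normaliser is L. Let S be the set of functions on L induced from the non-principal irreducible characters of H. Then (S, L minus 1, induction to G) is coherent. -/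
theorem result {G : Type*} [Group G] [Fintype G] (H L W₁ : Subgroup G) [Fintype L] (hodd : Odd (Nat.card L)) (hHL : H ≤ L) (hW₁L : W₁ ≤ L) (hH1 : H ≠ ⊥) (hW1 : W₁ ≠ ⊥) (hnil : Group.IsNilpotent H) (hHn : ∀ x ∈ L, ∀ h ∈ H, x * h * x⁻¹ ∈ H) (hinf : H ⊓ W₁ = ⊥) (hsup : H ⊔ W₁ = L) (hfpf : ∀ w ∈ W₁, w ≠ 1 → ∀ h ∈ H, w * h = h * w → h = 1) (hTI : Cfsg.IsTISubset (H : Set G)) (hN : Subgroup.normalizer (H : Set G) = L) : Cfsg.IsCoherent (Cfsg.inducedIrrAbove (H.subgroupOf L) ⊥) {1}ᶜ (fun α : L → ℂ => Cfsg.indFun L α) := by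
  classical
  subst hN
  have hW : ∀ w ∈ W₁, ∀ h ∈ H, w * h * w⁻¹ ∈ H := fun w hw h hh => hHn w (hW₁L hw) h hh
  have hC : ∀ k ∈ H, k ≠ 1 → Subgroup.centralizer ({k} : Set G) ≤ H := by
    intro k hk hk1 x hx
    have hcomm : x * k = k * x := (Subgroup.mem_centralizer_iff.mp hx k rfl).symm
    have hxN : x ∈ Subgroup.normalizer (H : Set G) := by
      by_contra hxN
      apply hk1
      apply hTI x hxN k hk
      rw [hcomm, mul_inv_cancel_right]
      exact hk
    by_contra hxH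
    rw [← hsup] at hxN
    exact hk1 (Cfsg.Agent.H19.frobCompl_fpf H W₁ hW hfpf x hxN hxH k hk hcomm)
  have hlt : H < Subgroup.normalizer (H : Set G) := by
    refine lt_of_le_of_ne hHL ?_
    intro heq
    apply hW1
    have h1 : W₁ ≤ H := fun w hw => by
      have h2 := hW₁L hw
      rw [← heq] at h2
      exact h2
    rw [← hinf]
    exact (inf_eq_right.mpr h1).symm
  have hset : Cfsg.inducedIrrAbove (H.subgroupOf (Subgroup.normalizer (H : Set G))) ⊥ =
      Cfsg.Agent.H19.SKall (H.subgroupOf (Subgroup.normalizer (H : Set G))) := by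
    ext χ
    rw [show (χ ∈ Cfsg.Agent.H19.SKall (H.subgroupOf (Subgroup.normalizer (H : Set G)))) ↔
      χ ∈ Cfsg.Agent.H5.relSet (H.subgroupOf (Subgroup.normalizer (H : Set G))) from Iff.rfl,
      Cfsg.Agent.H5.mem_relSet_iff _ (Cfsg.Agent.H5.normalizer_fpf H hC) χ]
    constructor
    · rintro ⟨θ, hθ, hθ1, -, rfl⟩
      exact ⟨θ, hθ, hθ1, rfl⟩
    · rintro ⟨θ, hθ, hθ1, rfl⟩
      refine ⟨θ, hθ, hθ1, ?_, rfl⟩
      intro a ha
      have h1 : a = 1 := Subtype.ext (Subgroup.mem_bot.mp ha)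
      rw [h1]
  rw [hset]
  have hoddK : Odd (Nat.card (H.subgroupOf (Subgroup.normalizer (H : Set G)))) :=
    Odd.of_dvd_nat hodd (Subgroup.card_subgroup_dvd_card _)
  rcases Cfsg.Agent.H19.sibley_TI H hH1 hTI hlt hC with h | h | ⟨⟨m, hm⟩, -⟩
  · exact h
  · exfalso
    have h2 : Odd ((H.subgroupOf (Subgroup.normalizer (H : Set G))).index) :=
      Odd.of_dvd_nat hodd (Subgroup.index_dvd_card _)
    rw [h] at hoddK
    exact (Nat.not_even_iff_odd.mpr hoddK) h2.add_one
  · exfalso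
    rw [hm] at hoddK
    have hm0 : m ≠ 0 := by
      intro h0
      rw [h0, pow_zero] at hm
      exact Cfsg.Agent.H19.tiK_ne_bot H hH1 (Subgroup.card_eq_one.mp hm)
    exact (Nat.not_even_iff_odd.mpr hoddK) (Nat.even_pow.mpr ⟨even_two, hm0⟩)

end Cfsg.Agent.S1524
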