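import Cfsg.Statements.S1525
import Cfsg.Agent.H32.DadeCount

set_option autoImplicit false
open Cfsg

namespace Cfsg.Agent.S1525

/-- Under the Dade hypothesis for (A, L, H), let χ be a class function of G and let ψ be a function on L whose value at each a ∈ A is the average of χ over the coset a·H(a). Then (1/|G|) Σ |χ g|² over the elements g of G conjugate into some coset a·H(a) with a ∈ A is at least (1/|L|) Σ_{a ∈ A ∩ L} |ψ a|². -/
theorem result {G : Type*} [Group G] [Fintype G] (A : Set G) (L : Subgroup G) [Fintype L] (H : G → Subgroup G) (hD : Cfsg.DadeHypothesis A L H) (χ : G → ℂ) (hχ : Cfsg.IsClassFunction G χ) (ψ : L → ℂ) (hψ : ∀ a : L, (a : G) ∈ A → ψ a = (Nat.card (H a) : ℂ)⁻¹ * ∑ᶠ u ∈ (H a : Set G), χ (a * u)) : (Nat.card L : ℝ)⁻¹ * ∑ᶠ a ∈ {a : L | (a : G) ∈ A}, ‖ψ a‖ ^ 2 ≤ (Nat.card G : ℝ)⁻¹ * ∑ᶠ g ∈ {g : G | ∃ a ∈ A, ∃ u ∈ H a, ∃ x : G, x * g * x⁻¹ = a * u}, ‖χ g‖ ^ 2 := by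
  classical
  have hLsum : ∑ᶠ a ∈ {a : L | (a : G) ∈ A}, ‖ψ a‖ ^ 2 =
      ∑ a : L, if (a : G) ∈ A then ‖ψ a‖ ^ 2 else 0 := by
    rw [finsum_mem_def, finsum_eq_sum_of_fintype]
    apply Finset.sum_congr rfl
    intro a _
    by_cases ha : (a : G) ∈ A
    · rw [if_pos ha, Set.indicator_of_mem (show a ∈ {a : L | (a : G) ∈ A} from ha)]
    · rw [if_neg ha, Set.indicator_of_notMem (show a ∉ {a : L | (a : G) ∈ A} from ha)]
  have hRsum : ∑ᶠ g ∈ {g : G | ∃ a ∈ A, ∃ u ∈ H a, ∃ x : G, x * g * x⁻¹ = a * u}, ‖χ g‖ ^ 2 =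
      ∑ g : G, if Cfsg.Agent.H32.InDade A H g then ‖χ g‖ ^ 2 else 0 := by
    rw [finsum_mem_def, finsum_eq_sum_of_fintype]
    apply Finset.sum_congr rfl
    intro g _
    by_cases hg : Cfsg.Agent.H32.InDade A H g
    · rw [if_pos hg, Set.indicator_of_mem
        (show g ∈ {g : G | ∃ a ∈ A, ∃ u ∈ H a, ∃ x : G, x * g * x⁻¹ = a * u} from hg)]
    · rw [if_neg hg, Set.indicator_of_notMem
        (show g ∉ {g : G | ∃ a ∈ A, ∃ u ∈ H a, ∃ x : G, x * g * x⁻¹ = a * u} from hg)]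
  rw [hLsum, hRsum]
  have key := Cfsg.Agent.H32.dade_sum_eq (K := ℝ) hD (fun g => ‖χ g‖ ^ 2)
    (by intro g x; show ‖χ (x * g * x⁻¹)‖ ^ 2 = ‖χ g‖ ^ 2; rw [hχ g x])
  have main : ∑ a : L, (if (a : G) ∈ A then ‖ψ a‖ ^ 2 else 0) ≤
      ∑ a : G, ∑ u : G,
        (if a ∈ A ∧ u ∈ H a then (Nat.card (H a) : ℝ)⁻¹ * ‖χ (a * u)‖ ^ 2 else 0) := by
    have e : ∑ a : L, (if (a : G) ∈ A then ‖ψ a‖ ^ 2 else 0) =
        ∑ a : G, if h : a ∈ A then ‖ψ ⟨a, hD.subset h⟩‖ ^ 2 else 0 := by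
      apply Fintype.sum_of_injective (Subtype.val : L → G) Subtype.val_injective
      · intro x hx
        rw [dif_neg]
        intro h
        exact hx ⟨⟨x, hD.subset h⟩, rfl⟩
      · intro a
        by_cases ha : (a : G) ∈ A
        · rw [if_pos ha, dif_pos ha]
        · rw [if_neg ha, dif_neg ha]
    rw [e]
    apply Finset.sum_le_sum
    intro a _
    by_cases ha : a ∈ A
    · rw [dif_pos ha, hψ ⟨a, hD.subset ha⟩ ha]
      rw [finsum_mem_def, finsum_eq_sum_of_fintype]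
      set s := Finset.univ.filter (fun u : G => u ∈ H a) with hs
      have hcard : (s.card : ℝ) = (Nat.card (H a) : ℝ) := by
        rw [Nat.card_eq_fintype_card, Fintype.card_subtype]
      have hsum1 : ∑ u : G, Set.indicator (H a : Set G) (fun u => χ (a * u)) u =
          ∑ u ∈ s, χ (a * u) := by
        rw [hs, Finset.sum_filter]
        apply Finset.sum_congr rfl
        intro u _
        by_cases hu : u ∈ H a
        · rw [if_pos hu, Set.indicator_of_mem (show u ∈ (H a : Set G) from hu)]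
        · rw [if_neg hu, Set.indicator_of_notMem (show u ∉ (H a : Set G) from hu)]
      have hsum2 : ∑ u : G, (if a ∈ A ∧ u ∈ H a then
          (Nat.card (H a) : ℝ)⁻¹ * ‖χ (a * u)‖ ^ 2 else 0) =
          (Nat.card (H a) : ℝ)⁻¹ * ∑ u ∈ s, ‖χ (a * u)‖ ^ 2 := by
        rw [Finset.mul_sum, hs, Finset.sum_filter]
        apply Finset.sum_congr rfl
        intro u _
        simp [ha]
      show ‖(Nat.card (H a) : ℂ)⁻¹ * ∑ u : G, Set.indicator (H a : Set G) (fun u => χ (a * u)) u‖ ^ 2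
        ≤ _
      rw [hsum1, hsum2, norm_mul, norm_inv, Complex.norm_natCast, mul_pow]
      have hnpos : (0 : ℝ) < Nat.card (H a) := by exact_mod_cast Nat.card_pos
      have h1 : ‖∑ u ∈ s, χ (a * u)‖ ^ 2 ≤ (Nat.card (H a) : ℝ) * ∑ u ∈ s, ‖χ (a * u)‖ ^ 2 := by
        calc ‖∑ u ∈ s, χ (a * u)‖ ^ 2 ≤ (∑ u ∈ s, ‖χ (a * u)‖) ^ 2 :=
              pow_le_pow_left₀ (norm_nonneg _) (norm_sum_le _ _) 2
          _ ≤ s.card * ∑ u ∈ s, ‖χ (a * u)‖ ^ 2 := sq_sum_le_card_mul_sum_sq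
          _ = _ := by rw [hcard]
      calc ((Nat.card (H a) : ℝ)⁻¹) ^ 2 * ‖∑ u ∈ s, χ (a * u)‖ ^ 2
          ≤ ((Nat.card (H a) : ℝ)⁻¹) ^ 2 *
            ((Nat.card (H a) : ℝ) * ∑ u ∈ s, ‖χ (a * u)‖ ^ 2) :=
            mul_le_mul_of_nonneg_left h1 (sq_nonneg _)
        _ = (Nat.card (H a) : ℝ)⁻¹ * ∑ u ∈ s, ‖χ (a * u)‖ ^ 2 := by
            field_simp
    · rw [dif_neg ha]
      apply le_of_eq
      symm
      apply Finset.sum_eq_zero
      intro u _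
      simp [ha]
  have hLpos : (0 : ℝ) < Nat.card L := by exact_mod_cast Nat.card_pos
  have hGpos : (0 : ℝ) < Nat.card G := by exact_mod_cast Nat.card_pos
  have e2 : ∀ (S T : ℝ), (Nat.card L : ℝ) * S = (Nat.card G : ℝ) * T →
      (Nat.card G : ℝ)⁻¹ * S = (Nat.card L : ℝ)⁻¹ * T := by
    intro S T h
    field_simp
    linarith
  rw [e2 _ _ key]
  exact mul_le_mul_of_nonneg_left main (inv_nonneg.mpr hLpos.le)

end Cfsg.Agent.S1525
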