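import Cfsg.Statements.S1526
import Mathlib
import Cfsg.Agent.H31.FP8

set_option autoImplicit false
open Cfsg

namespace Cfsg.Agent.S1526

universe u


/-- Let G be a finite group of odd order and (L i, H i), i in a finite index type with at least two elements, pairs of subgroups with H i a nontrivial proper normal subgroup of L i such that every non-identity element of H i has its centraliser within L i contained in H i (L i is a Frobenius group with kernel H i), the orders of the H i pairwise coprime, and the underlying set of each H i a TI-subset of G with normaliser L i. If every non-identity element of G is conjugate to an element of some H i, we reach a contradiction. -/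
theorem result {G : Type*} [Group G] [Finite G] (hodd : Odd (Nat.card G)) {ι : Type*} [Fintype ι] (hι : 2 ≤ Fintype.card ι) (L H : ι → Subgroup G) (hHL : ∀ i, H i < L i) (hH1 : ∀ i, H i ≠ ⊥) (hHn : ∀ i, ∀ x ∈ L i, ∀ h ∈ H i, x * h * x⁻¹ ∈ H i) (hfrob : ∀ i, ∀ h ∈ H i, h ≠ 1 → L i ⊓ Subgroup.centralizer ({h} : Set G) ≤ H i) (hcop : ∀ i j, i ≠ j → Nat.Coprime (Nat.card (H i)) (Nat.card (H j))) (hTI : ∀ i, Cfsg.IsTISubset (H i : Set G) ∧ Subgroup.normalizer (H i : Set G) = L i) (hcover : ∀ g : G, g ≠ 1 → ∃ i, ∃ x : G, x * g * x⁻¹ ∈ H i) : False := by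
  haveI : Nonempty ι := by
    rw [← Fintype.card_pos_iff]
    omega
  exact Cfsg.Agent.H31.frob_partition_false hodd L H hHL hH1 hHn hfrob hcop hTI hcover

end Cfsg.Agent.S1526
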