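import Mathlib
import Cfsg.Statements.S1527
import Cfsg.Agent.H32.TICount

set_option autoImplicit false
open Cfsg

namespace Cfsg.Agent.S1527

/-- Let G be a finite group and H i (i in a finite index type) subgroups of pairwise coprime orders, each of whose underlying sets is a TI-subset of G, such that every non-identity element of G is conjugate to an element of some H i. Then Nat.card G − 1 = Σ_i [G : N_G(H i)] · (Nat.card (H i) − 1). -/
theorem result {G : Type*} [Group G] [Finite G] {ι : Type*} [Fintype ι] (H : ι → Subgroup G) (hcop : ∀ i j, i ≠ j → Nat.Coprime (Nat.card (H i)) (Nat.card (H j))) (hTI : ∀ i, Cfsg.IsTISubset (H i : Set G)) (hcover : ∀ g : G, g ≠ 1 → ∃ i, ∃ x : G, x * g * x⁻¹ ∈ H i) : Nat.card G - 1 = ∑ i, (Subgroup.normalizer (H i : Set G)).index * (Nat.card (H i) - 1) := by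
  classical
  have : Fintype G := Fintype.ofFinite G
  have hD : ∀ i, (Finset.univ.filter (fun g : G => g ≠ 1 ∧ ∃ x : G, x * g * x⁻¹ ∈ H i)).card =
      (Subgroup.normalizer (H i : Set G)).index * (Nat.card (H i) - 1) := fun i => by
    convert Cfsg.Agent.H32.ti_card_conj (H i) (hTI i)
  rw [← Finset.sum_congr rfl (fun i _ => hD i)]
  have h1 : Nat.card G - 1 = (Finset.univ.filter (fun g : G => g ≠ 1)).card := by
    rw [Finset.filter_ne' Finset.univ (1 : G), Finset.card_erase_of_mem (Finset.mem_univ _),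
      Finset.card_univ, Nat.card_eq_fintype_card]
  rw [h1]
  simp_rw [Finset.card_filter]
  rw [Finset.sum_comm]
  apply Finset.sum_congr rfl
  intro g _
  by_cases hg : g = 1
  · simp [hg]
  · obtain ⟨i₀, x₀, hx₀⟩ := hcover g hg
    rw [Finset.sum_eq_single i₀]
    · have : g ≠ 1 ∧ ∃ x : G, x * g * x⁻¹ ∈ H i₀ := ⟨hg, x₀, hx₀⟩
      simp [hg, this]
    · intro j _ hj
      have : ¬ (g ≠ 1 ∧ ∃ x : G, x * g * x⁻¹ ∈ H j) := by
        rintro ⟨-, y, hy⟩
        apply hg
        have ho1 : orderOf g ∣ Nat.card (H i₀) := by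
          rw [← Cfsg.Agent.H32.orderOf_conj' x₀ g]
          exact Subgroup.orderOf_dvd_natCard _ hx₀
        have ho2 : orderOf g ∣ Nat.card (H j) := by
          rw [← Cfsg.Agent.H32.orderOf_conj' y g]
          exact Subgroup.orderOf_dvd_natCard _ hy
        have ho3 : orderOf g ∣ Nat.gcd (Nat.card (H i₀)) (Nat.card (H j)) := Nat.dvd_gcd ho1 ho2
        have hc := hcop i₀ j (Ne.symm hj)
        rw [Nat.Coprime] at hc
        rw [hc] at ho3
        exact orderOf_eq_one_iff.mp (Nat.dvd_one.mp ho3)
      simp [this]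
    · intro h
      exact absurd (Finset.mem_univ i₀) h

end Cfsg.Agent.S1527
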