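import Cfsg.Statements.S1530
import Cfsg.Agent.H32.Coherence

set_option autoImplicit false
open Cfsg

namespace Cfsg.Agent.S1530

open Cfsg.Agent.H4 Cfsg.Agent.H32

/-- Let N be a subgroup of the finite group G and S₀ a finite set of irreducible characters of N, χ an irreducible character of N not in S₀, with degrees ξ 1 = d ξ. Let τ be a linear isometry on the integer combinations of S₀ ∪ {χ} vanishing at 1, with values virtual characters of G vanishing at 1, such that (S₀, N minus 1, τ) is coherent. If some ψ ∈ S₀ has d ψ dividing d χ and 2 · d ψ · d χ < Σ_{ξ ∈ S₀} (d ξ)², then (S₀ ∪ {χ}, N minus 1, τ) is coherent. -/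
theorem result {G : Type*} [Group G] [Fintype G] (N : Subgroup G) [Fintype N] (S₀ : Finset (N → ℂ)) (χ : N → ℂ) (hirr : ∀ ξ ∈ S₀, Cfsg.IsIrrCharacter N ξ) (hχ : Cfsg.IsIrrCharacter N χ) (hχS : χ ∉ S₀) (d : (N → ℂ) → ℕ) (hd : ∀ ξ ∈ insert χ S₀, ξ 1 = (d ξ : ℂ)) (τ : (N → ℂ) → (G → ℂ)) (hτ : Cfsg.IsLinearIsometryOn (Cfsg.zspanOn (↑(insert χ S₀) : Set (N → ℂ)) {1}ᶜ) τ) (hτ1 : ∀ α ∈ Cfsg.zspanOn (↑(insert χ S₀) : Set (N → ℂ)) {1}ᶜ, τ α 1 = 0) (hcoh : Cfsg.IsCoherent (↑S₀ : Set (N → ℂ)) {1}ᶜ τ) (ψ : N → ℂ) (hψ : ψ ∈ S₀) (hdvd : d ψ ∣ d χ) (hlt : 2 * d ψ * d χ < ∑ ξ ∈ S₀, d ξ ^ 2) : Cfsg.IsCoherent (↑(insert χ S₀) : Set (N → ℂ)) {1}ᶜ τ := by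
  classical
  obtain ⟨⟨α₀, hα₀, hα₀ne⟩, τ₀, hτ₀, hagree⟩ := hcoh
  have hS₀sub : (↑S₀ : Set (N → ℂ)) ⊆ (↑(insert χ S₀) : Set (N → ℂ)) := by
    intro ξ hξ
    exact Finset.mem_coe.mpr (Finset.mem_insert_of_mem (Finset.mem_coe.mp hξ))
  have hχmem : χ ∈ (↑(insert χ S₀) : Set (N → ℂ)) :=
    Finset.mem_coe.mpr (Finset.mem_insert_self _ _)
  have hψmem : ψ ∈ (↑(insert χ S₀) : Set (N → ℂ)) := hS₀sub (Finset.mem_coe.mpr hψ)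
  have hirr' : ∀ ξ ∈ (↑(insert χ S₀) : Set (N → ℂ)), IsIrrCharacter N ξ := by
    intro ξ hξ
    rcases Finset.mem_insert.mp (Finset.mem_coe.mp hξ) with rfl | h
    · exact hχ
    · exact hirr ξ h
  have hnorm : ∀ ξ ∈ (↑(insert χ S₀) : Set (N → ℂ)), classInner ξ ξ = 1 := by
    intro ξ hξ
    have := irr_inner (⟨ξ, hirr' ξ hξ⟩ : IrrCharacter N) ⟨ξ, hirr' ξ hξ⟩
    rwa [if_pos rfl] at this
  have horth : ∀ ξ ∈ (↑(insert χ S₀) : Set (N → ℂ)), ∀ ζ ∈ (↑(insert χ S₀) : Set (N → ℂ)),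
      ξ ≠ ζ → classInner ξ ζ = 0 := by
    intro ξ hξ ζ hζ hne
    have := irr_inner (⟨ξ, hirr' ξ hξ⟩ : IrrCharacter N) ⟨ζ, hirr' ζ hζ⟩
    rwa [if_neg (fun h => hne (congrArg Subtype.val h))] at this
  have hdpos : ∀ ξ ∈ (↑(insert χ S₀) : Set (N → ℂ)), 0 < d ξ := by
    intro ξ hξ
    obtain ⟨n, hn, e⟩ := irr_one_eq_natCast (⟨ξ, hirr' ξ hξ⟩ : IrrCharacter N)
    have e' : ξ 1 = (n : ℂ) := e
    rw [hd ξ (Finset.mem_coe.mp hξ)] at e'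
    have : d ξ = n := by exact_mod_cast e'
    omega
  have hdZ : ∀ ξ ∈ (↑(insert χ S₀) : Set (N → ℂ)), ξ 1 = (((d ξ : ℤ)) : ℂ) := by
    intro ξ hξ
    rw [hd ξ (Finset.mem_coe.mp hξ)]
    simp
  obtain ⟨a, ha⟩ := hdvd
  have haZ : (d χ : ℤ) = (d ψ : ℤ) * (a : ℤ) := by rw [ha]; push_cast; ring
  have hψχ : ψ ≠ χ := fun h => hχS (h ▸ hψ)
  have hdψpos : (0 : ℤ) < (d ψ : ℤ) := by exact_mod_cast hdpos ψ hψmem
  have hdχpos : (0 : ℤ) < (d χ : ℤ) := by exact_mod_cast hdpos χ hχmem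
  -- β = χ - a ψ
  have hβmem : χ - (a : ℤ) • ψ ∈ zspanOn (↑(insert χ S₀) : Set (N → ℂ)) {1}ᶜ := by
    apply mem_zspanOn_compl_one
    · exact Submodule.sub_mem _ (Submodule.subset_span hχmem)
        (Submodule.smul_mem _ _ (Submodule.subset_span hψmem))
    · rw [Pi.sub_apply, Pi.smul_apply, hdZ χ hχmem, hdZ ψ hψmem, zsmul_eq_mul, haZ]
      push_cast
      ring
  have hτβ : IsGeneralizedCharacter G (τ (χ - (a : ℤ) • ψ)) := hτ.2.2.2 _ hβmem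
  have hS₀span : ∀ ξ ∈ S₀, ξ ∈ zspan (↑S₀ : Set (N → ℂ)) :=
    fun ξ hξ => Submodule.subset_span (Finset.mem_coe.mpr hξ)
  have hτ₀gen : ∀ ξ ∈ S₀, IsGeneralizedCharacter G (τ₀ ξ) :=
    fun ξ hξ => hτ₀.2.2.2 ξ (hS₀span ξ hξ)
  have hτ₀inner : ∀ ξ ∈ S₀, ∀ ζ ∈ S₀, classInner (τ₀ ξ) (τ₀ ζ) = if ξ = ζ then 1 else 0 := by
    intro ξ hξ ζ hζ
    rw [hτ₀.2.2.1 ξ (hS₀span ξ hξ) ζ (hS₀span ζ hζ)]
    split_ifs with h
    · subst h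
      exact hnorm ξ (hS₀sub (Finset.mem_coe.mpr hξ))
    · exact horth ξ (hS₀sub (Finset.mem_coe.mpr hξ)) ζ (hS₀sub (Finset.mem_coe.mpr hζ)) h
  have hint : ∀ ξ ∈ S₀, ∃ k : ℤ, classInner (τ (χ - (a : ℤ) • ψ)) (τ₀ ξ) = k :=
    fun ξ hξ => genChar_inner_int hτβ (hτ₀gen ξ hξ)
  choose! y hy using hint
  have hγmem : ∀ ξ ∈ S₀, (d ψ : ℤ) • ξ - (d ξ : ℤ) • ψ ∈ zspanOn (↑S₀ : Set (N → ℂ)) {1}ᶜ := by
    intro ξ hξ
    apply mem_zspanOn_compl_one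
    · exact Submodule.sub_mem _ (Submodule.smul_mem _ _ (hS₀span ξ hξ))
        (Submodule.smul_mem _ _ (hS₀span ψ hψ))
    · rw [Pi.sub_apply, Pi.smul_apply, Pi.smul_apply,
        hdZ ξ (hS₀sub (Finset.mem_coe.mpr hξ)), hdZ ψ hψmem, zsmul_eq_mul, zsmul_eq_mul]
      ring
  have hτ₀γ : ∀ ξ ∈ S₀, τ ((d ψ : ℤ) • ξ - (d ξ : ℤ) • ψ) =
      (d ψ : ℤ) • τ₀ ξ - (d ξ : ℤ) • τ₀ ψ := by
    intro ξ hξ
    rw [← hagree _ (hγmem ξ hξ)]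
    exact linIso_zspan_sub hτ₀ (hS₀span ξ hξ) (hS₀span ψ hψ) _ _
  have hrel : ∀ ξ ∈ S₀, (d ψ : ℤ) * y ξ =
      (d ξ : ℤ) * (y ψ + a) - (if ξ = ψ then (d χ : ℤ) else 0) := by
    intro ξ hξ
    have hξmem := hS₀sub (Finset.mem_coe.mpr hξ)
    have h1 := hτ.2.2.1 _ hβmem _ (zspanOn_mono hS₀sub (hγmem ξ hξ))
    rw [hτ₀γ ξ hξ] at h1
    simp only [classInner_sub_left, classInner_sub_right, classInner_zsmul_left,
      classInner_zsmul_right] at h1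
    rw [hy ξ hξ, hy ψ hψ, horth χ hχmem ξ hξmem (fun h => hχS (h ▸ hξ)),
      horth χ hχmem ψ hψmem (Ne.symm hψχ), hnorm ψ hψmem] at h1
    by_cases hc : ξ = ψ
    · subst hc
      rw [if_pos rfl, haZ]
      ring
    · rw [if_neg hc]
      rw [horth ψ hψmem ξ hξmem (Ne.symm hc)] at h1
      have h2 : ((d ψ : ℤ) : ℂ) * (y ξ : ℂ) - ((d ξ : ℤ) : ℂ) * (y ψ : ℂ) =
          ((a : ℤ) : ℂ) * ((d ξ : ℤ) : ℂ) := by
        linear_combination h1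
      have h3 : (d ψ : ℤ) * y ξ - (d ξ : ℤ) * y ψ = (a : ℤ) * (d ξ : ℤ) := by exact_mod_cast h2
      linarith
  -- the remainder Z
  have hZgen : IsGeneralizedCharacter G (τ (χ - (a : ℤ) • ψ) - ∑ ξ ∈ S₀, y ξ • τ₀ ξ) :=
    isGeneralizedCharacter_sub hτβ (isGeneralizedCharacter_sum _ _
      (fun ξ hξ => isGeneralizedCharacter_zsmul _ (hτ₀gen ξ hξ)))
  have hZorth : ∀ ζ ∈ S₀,
      classInner (τ (χ - (a : ℤ) • ψ) - ∑ ξ ∈ S₀, y ξ • τ₀ ξ) (τ₀ ζ) = 0 := by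
    intro ζ hζ
    rw [classInner_sub_left, classInner_sum_left, hy ζ hζ, Finset.sum_eq_single ζ]
    · rw [classInner_zsmul_left, hτ₀inner ζ hζ ζ hζ, if_pos rfl, mul_one, sub_self]
    · intro ξ hξ hne
      rw [classInner_zsmul_left, hτ₀inner ξ hξ ζ hζ, if_neg hne, mul_zero]
    · intro h
      exact absurd hζ h
  have hββ : classInner (τ (χ - (a : ℤ) • ψ)) (τ (χ - (a : ℤ) • ψ)) = ((1 + (a : ℤ) ^ 2 : ℤ) : ℂ) := by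
    rw [hτ.2.2.1 _ hβmem _ hβmem]
    simp only [classInner_sub_left, classInner_sub_right, classInner_zsmul_left,
      classInner_zsmul_right]
    rw [hnorm χ hχmem, hnorm ψ hψmem, horth χ hχmem ψ hψmem (Ne.symm hψχ),
      horth ψ hψmem χ hχmem hψχ]
    push_cast
    ring
  have hZZ : classInner (τ (χ - (a : ℤ) • ψ) - ∑ ξ ∈ S₀, y ξ • τ₀ ξ)
      (τ (χ - (a : ℤ) • ψ) - ∑ ξ ∈ S₀, y ξ • τ₀ ξ) =
      ((1 + (a : ℤ) ^ 2 - ∑ ξ ∈ S₀, y ξ ^ 2 : ℤ) : ℂ) := by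
    have h1 : classInner (τ (χ - (a : ℤ) • ψ) - ∑ ξ ∈ S₀, y ξ • τ₀ ξ)
        (∑ ξ ∈ S₀, y ξ • τ₀ ξ) = 0 := by
      rw [classInner_sum_right]
      apply Finset.sum_eq_zero
      intro ξ hξ
      rw [classInner_zsmul_right, hZorth ξ hξ, mul_zero]
    have h2 : classInner (∑ ξ ∈ S₀, y ξ • τ₀ ξ) (τ (χ - (a : ℤ) • ψ)) =
        ((∑ ξ ∈ S₀, y ξ ^ 2 : ℤ) : ℂ) := by
      rw [classInner_sum_left]
      push_cast
      apply Finset.sum_congr rfl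
      intro ξ hξ
      rw [classInner_zsmul_left, ← classInner_conj_symm, hy ξ hξ, map_intCast]
      ring
    rw [classInner_sub_right, h1, sub_zero, classInner_sub_left, hββ, h2]
    push_cast
    ring
  have hm0 : 0 ≤ 1 + (a : ℤ) ^ 2 - ∑ ξ ∈ S₀, y ξ ^ 2 := by
    have h := classInner_self_re_nonneg (τ (χ - (a : ℤ) • ψ) - ∑ ξ ∈ S₀, y ξ • τ₀ ξ)
    rw [hZZ, Complex.intCast_re] at h
    exact_mod_cast h
  have hDlt : 2 * (d ψ : ℤ) * (d χ : ℤ) < ∑ ξ ∈ S₀, (d ξ : ℤ) ^ 2 := by exact_mod_cast hlt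
  have h3 : (d ψ : ℤ) ^ 2 * ∑ ξ ∈ S₀, y ξ ^ 2 =
      (y ψ + a) ^ 2 * (∑ ξ ∈ S₀, (d ξ : ℤ) ^ 2) - 2 * (y ψ + a) * (d ψ : ℤ) * (d χ : ℤ) +
        (d χ : ℤ) ^ 2 := by
    rw [Finset.mul_sum]
    have hterm : ∀ ξ ∈ S₀, (d ψ : ℤ) ^ 2 * y ξ ^ 2 = (y ψ + a) ^ 2 * (d ξ : ℤ) ^ 2 -
        (if ξ = ψ then 2 * (y ψ + a) * (d ψ : ℤ) * (d χ : ℤ) - (d χ : ℤ) ^ 2 else 0) := by
      intro ξ hξ
      have h := hrel ξ hξ
      have e : (d ψ : ℤ) ^ 2 * y ξ ^ 2 = ((d ψ : ℤ) * y ξ) ^ 2 := by ring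
      rw [e, h]
      split_ifs with hc
      · subst hc; ring
      · ring
    rw [Finset.sum_congr rfl hterm, Finset.sum_sub_distrib, Finset.sum_ite_eq' S₀ ψ, if_pos hψ,
      ← Finset.mul_sum]
    ring
  -- values at 1
  have hval : ∀ ξ ∈ S₀, ((d ψ : ℤ) : ℂ) * τ₀ ξ 1 = ((d ξ : ℤ) : ℂ) * τ₀ ψ 1 := by
    intro ξ hξ
    have h := hτ1 _ (zspanOn_mono hS₀sub (hγmem ξ hξ))
    rw [hτ₀γ ξ hξ, Pi.sub_apply, Pi.smul_apply, Pi.smul_apply, zsmul_eq_mul, zsmul_eq_mul] at h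
    linear_combination h
  have hw : τ₀ ψ 1 ≠ 0 := by
    have hsg := signed_of_norm_one (hτ₀gen ψ hψ) (by rw [hτ₀inner ψ hψ ψ hψ, if_pos rfl])
    rcases hsg with h | h
    · obtain ⟨n, hn, e⟩ := irr_one_eq_natCast (⟨τ₀ ψ, h⟩ : IrrCharacter G)
      have e' : τ₀ ψ 1 = (n : ℂ) := e
      rw [e']
      exact_mod_cast hn.ne'
    · obtain ⟨n, hn, e⟩ := irr_one_eq_natCast (⟨-τ₀ ψ, h⟩ : IrrCharacter G)
      have e' : -τ₀ ψ 1 = (n : ℂ) := e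
      intro h0
      rw [h0, neg_zero] at e'
      have : (n : ℂ) ≠ 0 := by exact_mod_cast hn.ne'
      exact this e'.symm
  have hZ1 : ((d ψ : ℤ) : ℂ) ^ 2 * (τ (χ - (a : ℤ) • ψ) - ∑ ξ ∈ S₀, y ξ • τ₀ ξ) 1 =
      -(τ₀ ψ 1) * ((((y ψ + a) * (∑ ξ ∈ S₀, (d ξ : ℤ) ^ 2) - (d ψ : ℤ) * (d χ : ℤ) : ℤ)) : ℂ) := by
    rw [Pi.sub_apply, hτ1 _ hβmem, zero_sub, Finset.sum_apply, mul_neg, Finset.mul_sum]
    have hterm : ∀ ξ ∈ S₀, ((d ψ : ℤ) : ℂ) ^ 2 * (y ξ • τ₀ ξ) 1 =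
        τ₀ ψ 1 * ((((y ψ + a) * (d ξ : ℤ) ^ 2 -
          (if ξ = ψ then (d ψ : ℤ) * (d χ : ℤ) else 0) : ℤ)) : ℂ) := by
      intro ξ hξ
      have h := hrel ξ hξ
      have hC : ((d ψ : ℤ) : ℂ) * (y ξ : ℂ) = ((d ξ : ℤ) : ℂ) * ((y ψ : ℂ) + (a : ℂ)) -
          (((if ξ = ψ then (d χ : ℤ) else 0 : ℤ)) : ℂ) := by exact_mod_cast h
      rw [Pi.smul_apply, zsmul_eq_mul]
      have e : ((d ψ : ℤ) : ℂ) ^ 2 * ((y ξ : ℂ) * τ₀ ξ 1) =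
          (((d ψ : ℤ) : ℂ) * (y ξ : ℂ)) * (((d ψ : ℤ) : ℂ) * τ₀ ξ 1) := by ring
      rw [e, hC, hval ξ hξ]
      split_ifs with hc
      · subst hc
        push_cast
        ring
      · push_cast
        ring
    rw [Finset.sum_congr rfl hterm, ← Finset.mul_sum, ← Int.cast_sum, Finset.sum_sub_distrib,
      Finset.sum_ite_eq' S₀ ψ, if_pos hψ, ← Finset.mul_sum]
    ring
  -- the case analysis: u = y ψ + a = 0
  have hpq : 0 < (d ψ : ℤ) * (d χ : ℤ) := mul_pos hdψpos hdχpos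
  have hDpos : 0 < ∑ ξ ∈ S₀, (d ξ : ℤ) ^ 2 := by linarith
  have hu0 : y ψ + a = 0 := by
    by_contra hne
    have hprod : 0 < (y ψ + a) * ((y ψ + a) * (∑ ξ ∈ S₀, (d ξ : ℤ) ^ 2) -
        2 * (d ψ : ℤ) * (d χ : ℤ)) := by
      rcases lt_or_gt_of_ne hne with hneg | hpos
      · have h0 : (y ψ + a) * (∑ ξ ∈ S₀, (d ξ : ℤ) ^ 2) < 0 :=
          mul_neg_of_neg_of_pos hneg hDpos
        exact mul_pos_of_neg_of_neg hneg (by linarith)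
      · have h0 : (∑ ξ ∈ S₀, (d ξ : ℤ) ^ 2) ≤ (y ψ + a) * (∑ ξ ∈ S₀, (d ξ : ℤ) ^ 2) :=
          le_mul_of_one_le_left hDpos.le (by omega)
        exact mul_pos hpos (by linarith)
    have hm : 1 + (a : ℤ) ^ 2 - ∑ ξ ∈ S₀, y ξ ^ 2 = 0 := by
      have h4 : (d ψ : ℤ) ^ 2 * (1 + (a : ℤ) ^ 2 - ∑ ξ ∈ S₀, y ξ ^ 2) < (d ψ : ℤ) ^ 2 := by
        have h41 : (d ψ : ℤ) ^ 2 * (a : ℤ) ^ 2 = (d χ : ℤ) ^ 2 := by rw [haZ]; ring
        have h42 : (d ψ : ℤ) ^ 2 * (1 + (a : ℤ) ^ 2 - ∑ ξ ∈ S₀, y ξ ^ 2) =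
            (d ψ : ℤ) ^ 2 + (d ψ : ℤ) ^ 2 * (a : ℤ) ^ 2 - (d ψ : ℤ) ^ 2 * ∑ ξ ∈ S₀, y ξ ^ 2 := by
          ring
        have h43 : (y ψ + a) * ((y ψ + a) * (∑ ξ ∈ S₀, (d ξ : ℤ) ^ 2) -
            2 * (d ψ : ℤ) * (d χ : ℤ)) = (y ψ + a) ^ 2 * (∑ ξ ∈ S₀, (d ξ : ℤ) ^ 2) -
              2 * (y ψ + a) * (d ψ : ℤ) * (d χ : ℤ) := by ring
        rw [h42, h41, h3]
        linarith
      have h5 : 1 + (a : ℤ) ^ 2 - ∑ ξ ∈ S₀, y ξ ^ 2 < 1 := by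
        by_contra hcon
        push Not at hcon
        have : (d ψ : ℤ) ^ 2 ≤ (d ψ : ℤ) ^ 2 * (1 + (a : ℤ) ^ 2 - ∑ ξ ∈ S₀, y ξ ^ 2) :=
          le_mul_of_one_le_right (sq_nonneg _) hcon
        linarith
      omega
    have hZ0 : τ (χ - (a : ℤ) • ψ) - ∑ ξ ∈ S₀, y ξ • τ₀ ξ = 0 := by
      apply classInner_self_eq_zero
      rw [hZZ, hm]
      simp
    rw [hZ0, Pi.zero_apply, mul_zero] at hZ1
    have h6 : (((y ψ + a) * (∑ ξ ∈ S₀, (d ξ : ℤ) ^ 2) - (d ψ : ℤ) * (d χ : ℤ) : ℤ) : ℂ) = 0 := by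
      rcases mul_eq_zero.mp hZ1.symm with h | h
      · exact absurd (neg_eq_zero.mp h) hw
      · exact h
    have h7 : (y ψ + a) * (∑ ξ ∈ S₀, (d ξ : ℤ) ^ 2) - (d ψ : ℤ) * (d χ : ℤ) = 0 := by
      exact_mod_cast h6
    have h8 : (y ψ + a) * (∑ ξ ∈ S₀, (d ξ : ℤ) ^ 2) = (d ψ : ℤ) * (d χ : ℤ) := by linarith
    rw [h8] at hprod
    have h9 : (y ψ + a) * ((d ψ : ℤ) * (d χ : ℤ) - 2 * (d ψ : ℤ) * (d χ : ℤ)) =
        -((y ψ + a) * ((d ψ : ℤ) * (d χ : ℤ))) := by ring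
    rw [h9] at hprod
    have h10 : y ψ + a < 0 := by
      by_contra hc
      push Not at hc
      have := mul_nonneg hc hpq.le
      linarith
    have h11 : (y ψ + a) * (∑ ξ ∈ S₀, (d ξ : ℤ) ^ 2) < 0 := mul_neg_of_neg_of_pos h10 hDpos
    linarith
  have hyψ : y ψ = -(a : ℤ) := by linarith
  have hyξ : ∀ ξ ∈ S₀, ξ ≠ ψ → y ξ = 0 := by
    intro ξ hξ hne
    have h := hrel ξ hξ
    rw [if_neg hne, hu0, mul_zero, sub_zero] at h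
    rcases mul_eq_zero.mp h with h | h
    · exact absurd h hdψpos.ne'
    · exact h
  have hsumy : ∑ ξ ∈ S₀, y ξ • τ₀ ξ = (-(a : ℤ)) • τ₀ ψ := by
    rw [Finset.sum_eq_single ψ, hyψ]
    · intro ξ hξ hne
      rw [hyξ ξ hξ hne, zero_smul]
    · intro h
      exact absurd hψ h
  have hsumy2 : ∑ ξ ∈ S₀, y ξ ^ 2 = (a : ℤ) ^ 2 := by
    rw [Finset.sum_eq_single ψ, hyψ]
    · ring
    · intro ξ hξ hne
      rw [hyξ ξ hξ hne]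
      ring
    · intro h
      exact absurd hψ h
  rw [hsumy] at hZgen hZorth hZZ
  rw [hsumy2] at hZZ
  have hZZ1 : classInner (τ (χ - (a : ℤ) • ψ) - (-(a : ℤ)) • τ₀ ψ)
      (τ (χ - (a : ℤ) • ψ) - (-(a : ℤ)) • τ₀ ψ) = 1 := by
    rw [hZZ]
    push_cast
    ring
  constructor
  · exact ⟨α₀, zspanOn_mono hS₀sub hα₀, hα₀ne⟩
  · apply coherence_of_T (↑(insert χ S₀) : Set (N → ℂ)) τ hτ horth
      (fun ξ hξ => by rw [hnorm ξ hξ]; exact one_ne_zero)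
      (fun ξ => (d ξ : ℤ)) hdZ ψ hψmem hdψpos.ne'
      (fun ξ => if ξ = χ then τ (χ - (a : ℤ) • ψ) - (-(a : ℤ)) • τ₀ ψ else τ₀ ξ)
    · intro ξ hξ
      by_cases hc : ξ = χ
      · simp only [if_pos hc]
        exact hZgen
      · simp only [if_neg hc]
        have hξ₀ : ξ ∈ S₀ := (Finset.mem_insert.mp (Finset.mem_coe.mp hξ)).resolve_left hc
        exact hτ₀gen ξ hξ₀
    · intro ξ hξ ζ hζ
      by_cases hc : ξ = χ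
      · by_cases hc' : ζ = χ
        · simp only [if_pos hc, if_pos hc']
          rw [hZZ1, hc, hc', hnorm χ hχmem]
        · have hζ₀ : ζ ∈ S₀ := (Finset.mem_insert.mp (Finset.mem_coe.mp hζ)).resolve_left hc'
          simp only [if_pos hc, if_neg hc']
          rw [hZorth ζ hζ₀, hc, horth χ hχmem ζ hζ (Ne.symm hc')]
      · have hξ₀ : ξ ∈ S₀ := (Finset.mem_insert.mp (Finset.mem_coe.mp hξ)).resolve_left hc
        by_cases hc' : ζ = χ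
        · simp only [if_neg hc, if_pos hc']
          rw [← classInner_conj_symm, hZorth ξ hξ₀, map_zero, hc', horth ξ hξ χ hχmem hc]
        · have hζ₀ : ζ ∈ S₀ := (Finset.mem_insert.mp (Finset.mem_coe.mp hζ)).resolve_left hc'
          simp only [if_neg hc, if_neg hc']
          exact hτ₀.2.2.1 ξ (hS₀span ξ hξ₀) ζ (hS₀span ζ hζ₀)
    · intro ξ hξ
      simp only [if_neg hψχ]
      by_cases hc : ξ = χ
      · simp only [if_pos hc]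
        rw [hc]
        have e : (d χ : ℤ) • ψ - (d ψ : ℤ) • χ = (-(d ψ : ℤ)) • (χ - (a : ℤ) • ψ) := by
          rw [haZ]
          module
        rw [e, hτ.2.1 _ hβmem, haZ]
        module
      · have hξ₀ : ξ ∈ S₀ := (Finset.mem_insert.mp (Finset.mem_coe.mp hξ)).resolve_left hc
        simp only [if_neg hc]
        have hγ' : (d ξ : ℤ) • ψ - (d ψ : ℤ) • ξ ∈ zspanOn (↑S₀ : Set (N → ℂ)) {1}ᶜ := by
          apply mem_zspanOn_compl_one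
          · exact Submodule.sub_mem _ (Submodule.smul_mem _ _ (hS₀span ψ hψ))
              (Submodule.smul_mem _ _ (hS₀span ξ hξ₀))
          · rw [Pi.sub_apply, Pi.smul_apply, Pi.smul_apply,
              hdZ ξ (hS₀sub (Finset.mem_coe.mpr hξ₀)), hdZ ψ hψmem, zsmul_eq_mul, zsmul_eq_mul]
            ring
        rw [← hagree _ hγ']
        exact linIso_zspan_sub hτ₀ (hS₀span ψ hψ) (hS₀span ξ hξ₀) _ _

end Cfsg.Agent.S1530
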