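import Cfsg.Statements.S1531
import Cfsg.Agent.H32.Coherence

set_option autoImplicit false
open Cfsg

namespace Cfsg.Agent.S1531

open Cfsg.Agent.H4 Cfsg.Agent.H32

/-- Let N be a subgroup of the finite group G, S a set of irreducible characters of N, and α a linear isometry on the integer combinations of S vanishing at 1 with values virtual characters of G vanishing at 1. Let X, Y ⊆ S be disjoint, each with at least two members, and σ, τ linear isometries on ℤ[X], ℤ[Y] into virtual characters agreeing with α on the members vanishing at 1. Then ⟨σ χ, τ η⟩ = 0 for χ ∈ X, η ∈ Y; and if for some χ₀ ∈ X, η₀ ∈ Y with degrees c = χ₀ 1, e = η₀ 1 one has α (c • η₀ − e • χ₀) = c • τ η₀ − e • σ χ₀, then (X ∪ Y, N minus 1, α) is coherent. -/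
theorem result {G : Type*} [Group G] [Fintype G] (N : Subgroup G) [Fintype N] (S X Y : Set (N → ℂ)) (hirr : ∀ ξ ∈ S, Cfsg.IsIrrCharacter N ξ) (hXS : X ⊆ S) (hYS : Y ⊆ S) (hXY : Disjoint X Y) (hX2 : ∃ a ∈ X, ∃ b ∈ X, a ≠ b) (hY2 : ∃ a ∈ Y, ∃ b ∈ Y, a ≠ b) (α : (N → ℂ) → (G → ℂ)) (hα : Cfsg.IsLinearIsometryOn (Cfsg.zspanOn S {1}ᶜ) α) (hα1 : ∀ θ ∈ Cfsg.zspanOn S {1}ᶜ, α θ 1 = 0) (σ τ : (N → ℂ) → (G → ℂ)) (hσ : Cfsg.IsLinearIsometryOn (Cfsg.zspan X) σ) (hσα : ∀ θ ∈ Cfsg.zspanOn X {1}ᶜ, σ θ = α θ) (hτ : Cfsg.IsLinearIsometryOn (Cfsg.zspan Y) τ) (hτα : ∀ θ ∈ Cfsg.zspanOn Y {1}ᶜ, τ θ = α θ) : (∀ χ ∈ X, ∀ η ∈ Y, Cfsg.classInner (σ χ) (τ η) = 0) ∧ ((∃ χ₀ ∈ X, ∃ η₀ ∈ Y, α (χ₀ 1 • η₀ - η₀ 1 • χ₀) = χ₀ 1 • τ η₀ - η₀ 1 • σ χ₀) → Cfsg.IsCoherent (X ∪ Y) {1}ᶜ α) := by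
  classical
  have hdeg : ∀ ξ ∈ S, ξ 1 = ((degInt ξ : ℤ) : ℂ) ∧ 0 < degInt ξ :=
    fun ξ hξ => degInt_irr (hirr ξ hξ)
  have hnorm : ∀ ξ ∈ S, classInner ξ ξ = 1 := by
    intro ξ hξ
    have := irr_inner (⟨ξ, hirr ξ hξ⟩ : IrrCharacter N) ⟨ξ, hirr ξ hξ⟩
    rwa [if_pos rfl] at this
  have horth : ∀ ξ ∈ S, ∀ ζ ∈ S, ξ ≠ ζ → classInner ξ ζ = 0 := by
    intro ξ hξ ζ hζ hne
    have := irr_inner (⟨ξ, hirr ξ hξ⟩ : IrrCharacter N) ⟨ζ, hirr ζ hζ⟩
    rwa [if_neg (fun h => hne (congrArg Subtype.val h))] at this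
  have hXYne : ∀ χ ∈ X, ∀ η ∈ Y, χ ≠ η := by
    intro χ hχ η hη h
    subst h
    exact Set.disjoint_left.mp hXY hχ hη
  have hXsub : ∀ χ ∈ X, χ ∈ zspan X := fun χ h => Submodule.subset_span h
  have hYsub : ∀ χ ∈ Y, χ ∈ zspan Y := fun χ h => Submodule.subset_span h
  have hdiff : ∀ (Z : Set (N → ℂ)), Z ⊆ S → ∀ a ∈ Z, ∀ b ∈ Z,
      degInt b • a - degInt a • b ∈ zspanOn Z {1}ᶜ := by
    intro Z hZ a ha b hb
    apply mem_zspanOn_compl_one
    · exact Submodule.sub_mem _ (Submodule.smul_mem _ _ (Submodule.subset_span ha))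
        (Submodule.smul_mem _ _ (Submodule.subset_span hb))
    · rw [Pi.sub_apply, Pi.smul_apply, Pi.smul_apply, (hdeg a (hZ ha)).1, (hdeg b (hZ hb)).1,
        zsmul_eq_mul, zsmul_eq_mul]
      ring
  have hσirr : ∀ χ ∈ X, IsIrrCharacter G (σ χ) ∨ IsIrrCharacter G (-σ χ) := by
    intro χ hχ
    apply signed_of_norm_one (hσ.2.2.2 χ (hXsub χ hχ))
    rw [hσ.2.2.1 χ (hXsub χ hχ) χ (hXsub χ hχ)]
    exact hnorm χ (hXS hχ)
  have hτirr : ∀ χ ∈ Y, IsIrrCharacter G (τ χ) ∨ IsIrrCharacter G (-τ χ) := by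
    intro χ hχ
    apply signed_of_norm_one (hτ.2.2.2 χ (hYsub χ hχ))
    rw [hτ.2.2.1 χ (hYsub χ hχ) χ (hYsub χ hχ)]
    exact hnorm χ (hYS hχ)
  have part1 : ∀ χ ∈ X, ∀ η ∈ Y, classInner (σ χ) (τ η) = 0 := by
    intro χ hχ η hη
    obtain ⟨χ', hχ', hne⟩ : ∃ χ' ∈ X, χ' ≠ χ := by
      obtain ⟨a, ha, b, hb, hab⟩ := hX2
      by_cases h : a = χ
      · exact ⟨b, hb, fun hb' => hab (h.trans hb'.symm)⟩
      · exact ⟨a, ha, h⟩
    obtain ⟨η', hη', hne'⟩ : ∃ η' ∈ Y, η' ≠ η := by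
      obtain ⟨a, ha, b, hb, hab⟩ := hY2
      by_cases h : a = η
      · exact ⟨b, hb, fun hb' => hab (h.trans hb'.symm)⟩
      · exact ⟨a, ha, h⟩
    have hu := hdiff X hXS χ hχ χ' hχ'
    have hv := hdiff Y hYS η hη η' hη'
    have e1 : σ (degInt χ' • χ - degInt χ • χ') = degInt χ' • σ χ - degInt χ • σ χ' :=
      linIso_zspan_sub hσ (hXsub χ hχ) (hXsub χ' hχ') _ _
    have e2 : τ (degInt η' • η - degInt η • η') = degInt η' • τ η - degInt η • τ η' :=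
      linIso_zspan_sub hτ (hYsub η hη) (hYsub η' hη') _ _
    have hmix0 : classInner (degInt χ' • σ χ - degInt χ • σ χ')
        (degInt η' • τ η - degInt η • τ η') = 0 := by
      rw [← e1, ← e2, hσα _ hu, hτα _ hv,
        hα.2.2.1 _ (zspanOn_mono hXS hu) _ (zspanOn_mono hYS hv)]
      simp only [classInner_sub_left, classInner_sub_right, classInner_zsmul_left,
        classInner_zsmul_right]
      rw [horth χ (hXS hχ) η (hYS hη) (hXYne χ hχ η hη),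
        horth χ (hXS hχ) η' (hYS hη') (hXYne χ hχ η' hη'),
        horth χ' (hXS hχ') η (hYS hη) (hXYne χ' hχ' η hη),
        horth χ' (hXS hχ') η' (hYS hη') (hXYne χ' hχ' η' hη')]
      ring
    have hmix : classInner ((((degInt χ' : ℤ) : ℝ) : ℂ) • σ χ - (((degInt χ : ℤ) : ℝ) : ℂ) • σ χ')
        ((((degInt η' : ℤ) : ℝ) : ℂ) • τ η - (((degInt η : ℤ) : ℝ) : ℂ) • τ η') = 0 := by
      simp only [Complex.ofReal_intCast, ← zsmul_fun_eq_smul]
      exact hmix0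
    have h1' : (((degInt χ' : ℤ) : ℝ) : ℂ) * σ χ 1 = (((degInt χ : ℤ) : ℝ) : ℂ) * σ χ' 1 := by
      have := hα1 _ (zspanOn_mono hXS hu)
      rw [← hσα _ hu, e1, Pi.sub_apply, Pi.smul_apply, Pi.smul_apply, zsmul_eq_mul,
        zsmul_eq_mul] at this
      push_cast
      linear_combination this
    have h2' : (((degInt η' : ℤ) : ℝ) : ℂ) * τ η 1 = (((degInt η : ℤ) : ℝ) : ℂ) * τ η' 1 := by
      have := hα1 _ (zspanOn_mono hYS hv)
      rw [← hτα _ hv, e2, Pi.sub_apply, Pi.smul_apply, Pi.smul_apply, zsmul_eq_mul,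
        zsmul_eq_mul] at this
      push_cast
      linear_combination this
    have hab : classInner (σ χ) (σ χ') = 0 := by
      rw [hσ.2.2.1 χ (hXsub χ hχ) χ' (hXsub χ' hχ')]
      exact horth χ (hXS hχ) χ' (hXS hχ') (Ne.symm hne)
    have hcd : classInner (τ η) (τ η') = 0 := by
      rw [hτ.2.2.1 η (hYsub η hη) η' (hYsub η' hη')]
      exact horth η (hYS hη) η' (hYS hη') (Ne.symm hne')
    have res := weighted_orth (σ χ) (σ χ') (τ η) (τ η') (hσirr χ hχ) (hσirr χ' hχ')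
      (hτirr η hη) (hτirr η' hη') ((degInt χ' : ℤ) : ℝ) ((degInt χ : ℤ) : ℝ)
      ((degInt η' : ℤ) : ℝ) ((degInt η : ℤ) : ℝ)
      (by exact_mod_cast (hdeg χ' (hXS hχ')).2) (by exact_mod_cast (hdeg χ (hXS hχ)).2)
      (by exact_mod_cast (hdeg η' (hYS hη')).2) (by exact_mod_cast (hdeg η (hYS hη)).2)
      hab hcd hmix h1' h2'
    exact res.1
  refine ⟨part1, ?_⟩
  rintro ⟨χ₀, hχ₀, η₀, hη₀, hlink⟩
  have hlink' : α (degInt χ₀ • η₀ - degInt η₀ • χ₀) =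
      degInt χ₀ • τ η₀ - degInt η₀ • σ χ₀ := by
    rw [zsmul_fun_eq_smul, zsmul_fun_eq_smul, zsmul_fun_eq_smul, zsmul_fun_eq_smul,
      ← (hdeg χ₀ (hXS hχ₀)).1, ← (hdeg η₀ (hYS hη₀)).1]
    exact hlink
  have hXYS : X ∪ Y ⊆ S := Set.union_subset hXS hYS
  constructor
  · obtain ⟨a, ha, b, hb, hab⟩ := hX2
    refine ⟨degInt b • a - degInt a • b,
      zspanOn_mono Set.subset_union_left (hdiff X hXS a ha b hb), ?_⟩
    intro h0
    have h3 : classInner (degInt b • a - degInt a • b) a = 0 := by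
      rw [h0, classInner_zero_left]
    rw [classInner_sub_left, classInner_zsmul_left, classInner_zsmul_left, hnorm a (hXS ha),
      horth b (hXS hb) a (hXS ha) (Ne.symm hab), mul_one, mul_zero, sub_zero] at h3
    have h4 : degInt b = 0 := by exact_mod_cast h3
    have := (hdeg b (hXS hb)).2
    omega
  · apply coherence_of_T (X ∪ Y) α
      (isLinearIsometryOn_mono hα (fun f hf => zspanOn_mono hXYS hf))
      (fun χ hχ ψ hψ hne => horth χ (hXYS hχ) ψ (hXYS hψ) hne)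
      (fun χ hχ => by rw [hnorm χ (hXYS hχ)]; exact one_ne_zero)
      degInt (fun χ hχ => (hdeg χ (hXYS hχ)).1) χ₀ (Or.inl hχ₀) (hdeg χ₀ (hXS hχ₀)).2.ne'
      (fun ξ => if ξ ∈ X then σ ξ else τ ξ)
    · intro ξ hξ
      by_cases hX : ξ ∈ X
      · simp only [if_pos hX]
        exact hσ.2.2.2 ξ (hXsub ξ hX)
      · simp only [if_neg hX]
        have hY : ξ ∈ Y := hξ.resolve_left hX
        exact hτ.2.2.2 ξ (hYsub ξ hY)
    · intro ξ hξ ζ hζ
      by_cases hX : ξ ∈ X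
      · by_cases hX' : ζ ∈ X
        · simp only [if_pos hX, if_pos hX']
          exact hσ.2.2.1 ξ (hXsub ξ hX) ζ (hXsub ζ hX')
        · have hY' : ζ ∈ Y := hζ.resolve_left hX'
          simp only [if_pos hX, if_neg hX']
          rw [part1 ξ hX ζ hY', horth ξ (hXS hX) ζ (hYS hY') (hXYne ξ hX ζ hY')]
      · have hY : ξ ∈ Y := hξ.resolve_left hX
        by_cases hX' : ζ ∈ X
        · simp only [if_neg hX, if_pos hX']
          rw [← classInner_conj_symm, part1 ζ hX' ξ hY, map_zero,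
            horth ξ (hYS hY) ζ (hXS hX') (Ne.symm (hXYne ζ hX' ξ hY))]
        · have hY' : ζ ∈ Y := hζ.resolve_left hX'
          simp only [if_neg hX, if_neg hX']
          exact hτ.2.2.1 ξ (hYsub ξ hY) ζ (hYsub ζ hY')
    · intro ψ hψ
      simp only [if_pos hχ₀]
      by_cases hX : ψ ∈ X
      · simp only [if_pos hX]
        rw [← hσα _ (hdiff X hXS χ₀ hχ₀ ψ hX)]
        exact linIso_zspan_sub hσ (hXsub χ₀ hχ₀) (hXsub ψ hX) _ _
      · have hY : ψ ∈ Y := hψ.resolve_left hX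
        simp only [if_neg hX]
        apply zsmul_fun_cancel (hdeg η₀ (hYS hη₀)).2.ne'
        have hm1 : degInt χ₀ • η₀ - degInt η₀ • χ₀ ∈ zspanOn S {1}ᶜ :=
          hdiff S (subset_refl S) η₀ (hYS hη₀) χ₀ (hXS hχ₀)
        have hm2 : degInt ψ • η₀ - degInt η₀ • ψ ∈ zspanOn Y {1}ᶜ := hdiff Y hYS η₀ hη₀ ψ hY
        have hm3 : degInt ψ • χ₀ - degInt χ₀ • ψ ∈ zspanOn S {1}ᶜ :=
          hdiff S (subset_refl S) χ₀ (hXS hχ₀) ψ (hYS hY)
        have e0 : degInt η₀ • (degInt ψ • χ₀ - degInt χ₀ • ψ) =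
            degInt χ₀ • (degInt ψ • η₀ - degInt η₀ • ψ) -
              degInt ψ • (degInt χ₀ • η₀ - degInt η₀ • χ₀) := by
          module
        rw [← hα.2.1 _ hm3 (degInt η₀), e0,
          linIso_zspanOn_sub hα (zspanOn_mono hYS hm2) hm1, ← hτα _ hm2,
          linIso_zspan_sub hτ (hYsub η₀ hη₀) (hYsub ψ hY), hlink']
        module

end Cfsg.Agent.S1531
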