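import Mathlib
import Cfsg.Statements.S1532
import Cfsg.Agent.H19.CohZ
import Cfsg.Agent.H19.FeitG1

set_option autoImplicit false
open Cfsg

namespace Cfsg.Agent.S1532

/-- Let G be a finite group, p an odd prime and P a Sylow p-subgroup that is non-abelian, whose underlying set is a TI-subset of G, with P properly contained in its set normaliser N and C_G(x) ≤ P for every non-identity x ∈ P. Let Z be a nontrivial subgroup of the centre of P normalised by N. Then the set of irreducible characters χ of N with χ z ≠ χ 1 for some z ∈ Z is coherent for the map induced by induction from N to G. -/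
theorem result {G : Type*} [Group G] [Fintype G] (p : ℕ) [Fact p.Prime] (hp : p ≠ 2) (P : Sylow p G) (hna : ¬ IsMulCommutative (P : Subgroup G)) (hTI : Cfsg.IsTISubset ((P : Subgroup G) : Set G)) (hlt : (P : Subgroup G) < Subgroup.normalizer ((P : Subgroup G) : Set G)) (hC : ∀ k ∈ (P : Subgroup G), k ≠ 1 → Subgroup.centralizer ({k} : Set G) ≤ (P : Subgroup G)) [Fintype ↥(Subgroup.normalizer ((P : Subgroup G) : Set G))] (Z : Subgroup G) (hZ1 : Z ≠ ⊥) (hZP : ∀ z ∈ Z, z ∈ (P : Subgroup G) ∧ ∀ y ∈ (P : Subgroup G), z * y = y * z) (hZn : ∀ x ∈ Subgroup.normalizer ((P : Subgroup G) : Set G), ∀ z ∈ Z, x * z * x⁻¹ ∈ Z) : Cfsg.IsCoherent {χ : ↥(Subgroup.normalizer ((P : Subgroup G) : Set G)) → ℂ | Cfsg.IsIrrCharacter ↥(Subgroup.normalizer ((P : Subgroup G) : Set G)) χ ∧ ∃ z : ↥(Subgroup.normalizer ((P : Subgroup G) : Set G)), (z : G) ∈ Z ∧ χ z ≠ χ 1} {1}ᶜ (fun α => Cfsg.indFun (Subgroup.normalizer ((P : Subgroup G) : Set G)) α) := by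
  classical
  have hpP : p.Prime := Fact.out
  have hC' : ∀ k ∈ ((P : Subgroup G).subgroupOf (Subgroup.normalizer ((P : Subgroup G) : Set G))), k ≠ 1 → Subgroup.centralizer ({k} : Set ↥(Subgroup.normalizer ((P : Subgroup G) : Set G))) ≤ ((P : Subgroup G).subgroupOf (Subgroup.normalizer ((P : Subgroup G) : Set G))) := by
    intro k hk hk1 x hx
    by_contra hxK
    have hcomm : x * k = k * x := (Subgroup.mem_centralizer_iff.mp hx k rfl).symm
    exact hk1 (Cfsg.Agent.H5.normalizer_fpf (P : Subgroup G) hC x hxK k hk hcomm)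
  obtain ⟨hτ, hτ1⟩ := Cfsg.Agent.H19.indFun_linIso (P : Subgroup G) hTI hC
  obtain ⟨n, hn⟩ := IsPGroup.iff_card.mp P.isPGroup'
  have hHcard : Nat.card ((P : Subgroup G).subgroupOf (Subgroup.normalizer ((P : Subgroup G) : Set G))) = p ^ n := by
    rw [← hn]
    exact Nat.card_congr (Subgroup.subgroupOfEquivOfLe Subgroup.le_normalizer).toEquiv
  have hcop : Nat.Coprime (((P : Subgroup G).subgroupOf (Subgroup.normalizer ((P : Subgroup G) : Set G)))).index p := by
    rw [Nat.coprime_comm, Nat.Prime.coprime_iff_not_dvd hpP]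
    intro hdvd
    apply P.not_dvd_index
    rw [← Subgroup.relIndex_mul_index (Subgroup.le_normalizer : (P : Subgroup G) ≤ (Subgroup.normalizer ((P : Subgroup G) : Set G)))]
    exact Dvd.dvd.mul_right hdvd _
  have hodd : Odd (Nat.card ↥(Subgroup.normalizer ((P : Subgroup G) : Set G))) := by
    apply Cfsg.Agent.H19.odd_of_fpf_nonabelian ((P : Subgroup G).subgroupOf (Subgroup.normalizer ((P : Subgroup G) : Set G)))
      (Cfsg.Agent.H5.normalizer_fpf (P : Subgroup G) hC)
    · rw [hHcard]
      exact Odd.pow (hpP.odd_of_ne_two hp)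
    · by_contra hcon
      push Not at hcon
      apply hna
      refine ⟨⟨fun a b => ?_⟩⟩
      have h1 := hcon ⟨a.1, Subgroup.le_normalizer a.2⟩ (Subgroup.mem_subgroupOf.mpr a.2)
        ⟨b.1, Subgroup.le_normalizer b.2⟩ (Subgroup.mem_subgroupOf.mpr b.2)
      have h2 : (a : G) * (b : G) = (b : G) * (a : G) := congrArg Subtype.val h1
      exact Subtype.ext h2
  haveI hZn' : ((Z.subgroupOf (Subgroup.normalizer ((P : Subgroup G) : Set G)))).Normal := by
    constructor
    intro z hz x
    rw [Subgroup.mem_subgroupOf] at hz ⊢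
    exact hZn x x.2 z hz
  have hZ1' : (Z.subgroupOf (Subgroup.normalizer ((P : Subgroup G) : Set G))) ≠ ⊥ := by
    intro hbot
    apply hZ1
    rw [Subgroup.eq_bot_iff_forall]
    intro z hz
    have hzP := (hZP z hz).1
    have hmem : (⟨z, Subgroup.le_normalizer hzP⟩ : ↥(Subgroup.normalizer ((P : Subgroup G) : Set G))) ∈ (Z.subgroupOf (Subgroup.normalizer ((P : Subgroup G) : Set G))) := by
      rw [Subgroup.mem_subgroupOf]
      exact hz
    rw [hbot, Subgroup.mem_bot] at hmem
    exact congrArg Subtype.val hmem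
  have hZK' : (Z.subgroupOf (Subgroup.normalizer ((P : Subgroup G) : Set G))) ≤ ((P : Subgroup G).subgroupOf (Subgroup.normalizer ((P : Subgroup G) : Set G))) := fun z hz =>
    Subgroup.mem_subgroupOf.mpr (hZP z (Subgroup.mem_subgroupOf.mp hz)).1
  have hZc' : ∀ z ∈ (Z.subgroupOf (Subgroup.normalizer ((P : Subgroup G) : Set G))), ∀ k ∈ ((P : Subgroup G).subgroupOf (Subgroup.normalizer ((P : Subgroup G) : Set G))), z * k = k * z := fun z hz k hk =>
    Subtype.ext ((hZP z (Subgroup.mem_subgroupOf.mp hz)).2 k (Subgroup.mem_subgroupOf.mp hk))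
  exact Cfsg.Agent.H19.coh_central ((P : Subgroup G).subgroupOf (Subgroup.normalizer ((P : Subgroup G) : Set G))) hC' p hpP hp n hHcard hcop hodd (Z.subgroupOf (Subgroup.normalizer ((P : Subgroup G) : Set G))) hZ1' hZK' hZc'
    (fun α => Cfsg.indFun (Subgroup.normalizer ((P : Subgroup G) : Set G)) α) hτ hτ1

end Cfsg.Agent.S1532
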