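import Mathlib
import Cfsg.Statements.S1534
import Cfsg.Agent.H19.SibE

set_option autoImplicit false
open Cfsg

namespace Cfsg.Agent.S1534

/-- Let G be a finite group and K a nontrivial nilpotent subgroup whose underlying set is a TI-subset of G, properly contained in its set normaliser N, with C_G(k) ≤ K for every non-identity k ∈ K; let e be the index of K in N and S the set of irreducible characters χ of N with χ k ≠ χ 1 for some k ∈ K. Then one of: S has exactly one member, Nat.card K = e + 1 and K is an elementary abelian p-group for some prime p; or K is a Sylow 2-subgroup of G (Nat.card K is the largest power of 2 dividing Nat.card G) and [K : [K,K]] < 4e²; or (S, N minus 1, induction to G) is coherent. -/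
theorem result {G : Type*} [Group G] [Fintype G] (K : Subgroup G) (hK1 : K ≠ ⊥) (hnil : Group.IsNilpotent K) (hTI : Cfsg.IsTISubset (K : Set G)) (hlt : K < Subgroup.normalizer (K : Set G)) (hC : ∀ k ∈ K, k ≠ 1 → Subgroup.centralizer ({k} : Set G) ≤ K) [Fintype ↥(Subgroup.normalizer (K : Set G))] : (Nat.card {χ : ↥(Subgroup.normalizer (K : Set G)) → ℂ // Cfsg.IsIrrCharacter ↥(Subgroup.normalizer (K : Set G)) χ ∧ ∃ k : ↥(Subgroup.normalizer (K : Set G)), (k : G) ∈ K ∧ χ k ≠ χ 1} = 1 ∧ Nat.card K = (K.subgroupOf (Subgroup.normalizer (K : Set G))).index + 1 ∧ ∃ p : ℕ, p.Prime ∧ Cfsg.IsElementaryAbelian p K) ∨ (Nat.card K = 2 ^ (Nat.card G).factorization 2 ∧ (⁅K, K⁆.subgroupOf K).index < 4 * (K.subgroupOf (Subgroup.normalizer (K : Set G))).index ^ 2) ∨ Cfsg.IsCoherent {χ : ↥(Subgroup.normalizer (K : Set G)) → ℂ | Cfsg.IsIrrCharacter ↥(Subgroup.normalizer (K : Set G)) χ ∧ ∃ k : ↥(Subgroup.normalizer (K : Set G)), (k : G) ∈ K ∧ χ k ≠ χ 1} {1}ᶜ (fun α => Cfsg.indFun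 (Subgroup.normalizer (K : Set G)) α) := by
  classical
  rcases Cfsg.Agent.H19.sibley_TI K hK1 hTI hlt hC with h | h | ⟨⟨m, hm⟩, hidx⟩
  · exact Or.inr (Or.inr h)
  · left
    obtain ⟨h1, h2, h3⟩ := Cfsg.Agent.H19.tiK_exc K hK1 hlt hC h
    refine ⟨h1, h2, ?_⟩
    have hK2 : Nat.card K ≠ 1 := fun hc => hK1 (Subgroup.card_eq_one.mp hc)
    obtain ⟨p, hpp, hpd⟩ := Nat.exists_prime_and_dvd hK2
    exact ⟨p, hpp, h3 p hpp hpd⟩
  · right
    left
    exact Cfsg.Agent.H19.tiK_two K hK1 hlt hC m hm hidx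

end Cfsg.Agent.S1534
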