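import Cfsg.Statements.S1536
import Cfsg.Agent.H4.HallFix

set_option autoImplicit false
open Cfsg

namespace Cfsg.Agent.S1536

/-- Let H be a normal subgroup of the finite group M whose order is coprime to its index. For x ∈ M: some non-principal irreducible character of H is unchanged under h ↦ θ(x h x⁻¹) if and only if some non-identity element of H commutes with x. -/
theorem result {M : Type*} [Group M] [Finite M] (H : Subgroup M) [hN : H.Normal] (hHall : Nat.Coprime (Nat.card H) H.index) (x : M) : (∃ θ : H → ℂ, Cfsg.IsIrrCharacter H θ ∧ θ ≠ (fun _ => 1) ∧ (fun h : H => θ ⟨x * h * x⁻¹, hN.conj_mem h h.2 x⟩) = θ) ↔ ∃ h ∈ H, h ≠ 1 ∧ x * h = h * x := by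
  constructor
  · rintro ⟨θ, hθ, hθ1, hfix⟩
    exact Cfsg.Agent.H4.exists_commute_of_fixed_irr H hHall x θ hθ hθ1 hfix
  · rintro ⟨h, hh, h1, hx⟩
    exact Cfsg.Agent.H4.exists_fixed_irr_of_commute H x h hh h1 hx

end Cfsg.Agent.S1536
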