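import Cfsg.Statements.S1570
import Cfsg.Agent.H93.LeechClasses

set_option autoImplicit false
open Cfsg

namespace Cfsg.Agent.S1570

/-- Every congruence class of the lattice modulo twice the lattice contains a vector of customary norm at most 8. -/
theorem result (x : Cfsg.GolayPt → ℤ) (hx : x ∈ Cfsg.leechLattice) : ∃ y ∈ Cfsg.leechLattice, Cfsg.sqNorm y ≤ 64 ∧ ∃ z ∈ Cfsg.leechLattice, x - y = 2 • z := by
  exact Cfsg.Agent.H93.exists_short hx

end Cfsg.Agent.S1570
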