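import Cfsg.Statements.S1573
import Cfsg.Agent.H33.LCountSets

set_option autoImplicit false
open Cfsg

namespace Cfsg.Agent.S1573

/-- Census of minimal vectors by inner product with a fixed minimal vector: 4600 have customary inner product −2, 47104 have −1, and 93150 are orthogonal. -/
theorem result (v : Cfsg.GolayPt → ℤ) (hv : v ∈ Cfsg.leechLattice) (hvn : Cfsg.sqNorm v = 32) : {w : Cfsg.GolayPt → ℤ | w ∈ Cfsg.leechLattice ∧ Cfsg.sqNorm w = 32 ∧ Cfsg.dotInt v w = -16}.ncard = 4600 ∧ {w : Cfsg.GolayPt → ℤ | w ∈ Cfsg.leechLattice ∧ Cfsg.sqNorm w = 32 ∧ Cfsg.dotInt v w = -8}.ncard = 47104 ∧ {w : Cfsg.GolayPt → ℤ | w ∈ Cfsg.leechLattice ∧ Cfsg.sqNorm w = 32 ∧ Cfsg.dotInt v w = 0}.ncard = 93150 :=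
  by
  have hv32 : v ∈ Cfsg.Agent.H93.V 32 :=
    (Cfsg.Agent.H93.mem_V (by norm_num)).mpr ⟨hv, by exact_mod_cast hvn⟩
  have h := Cfsg.Agent.H33.cnt32_values hv32
  rw [Cfsg.Agent.H33.ncard_min_dot, Cfsg.Agent.H33.ncard_min_dot, Cfsg.Agent.H33.ncard_min_dot]
  exact ⟨h.2.2, h.2.1, h.1⟩

end Cfsg.Agent.S1573
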