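import Cfsg.Statements.S1579
import Cfsg.Agent.H33.LTrans

set_option autoImplicit false
open Cfsg

namespace Cfsg.Agent.S1579

/-- The stabiliser of a vector of customary norm 6 is transitive on the 552 minimal vectors that complete it to a sum of two minimal vectors. -/
theorem result (u v v' : ↥Cfsg.leechLattice) (hu : Cfsg.sqNorm (u : Cfsg.GolayPt → ℤ) = 48) (hv : Cfsg.sqNorm (v : Cfsg.GolayPt → ℤ) = 32 ∧ Cfsg.sqNorm ((u - v) : Cfsg.GolayPt → ℤ) = 32) (hv' : Cfsg.sqNorm (v' : Cfsg.GolayPt → ℤ) = 32 ∧ Cfsg.sqNorm ((u - v') : Cfsg.GolayPt → ℤ) = 32) : ∃ g : ↥Cfsg.Co0, g • u = u ∧ g • v = v' :=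
  by
  have key : ∀ x : ↥Cfsg.leechLattice, Cfsg.sqNorm (x : Cfsg.GolayPt → ℤ) = 32 ∧
      Cfsg.sqNorm ((u : Cfsg.GolayPt → ℤ) - (x : Cfsg.GolayPt → ℤ)) = 32 →
      x ∈ Cfsg.Agent.H33.Xdot 24 u := by
    intro x hx
    refine ⟨hx.1, ?_⟩
    have := Cfsg.Agent.H33.lc_sqNorm_sub (u : Cfsg.GolayPt → ℤ) (x : Cfsg.GolayPt → ℤ)
    rw [hx.2, hu, hx.1] at this
    linarith
  obtain ⟨g, hg, e1, e2⟩ := Cfsg.Agent.H33.trans_dot24 u v v' hu (key v hv) (key v' hv')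
  exact ⟨⟨g, hg⟩, e1, e2⟩

end Cfsg.Agent.S1579
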