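import Cfsg.Statements.S1587

set_option autoImplicit false
open Matrix
open Cfsg

namespace Cfsg.Agent.S1587

/-- First step of the characterisation of the rank-24 lattice: in an even lattice without roots, norm-8 vectors congruent modulo 2 are equal, opposite or orthogonal. -/
theorem result (B : Matrix (Fin 24) (Fin 24) ℤ) (hsymm : B.IsSymm) (hpos : ∀ x : Fin 24 → ℤ, x ≠ 0 → 0 < x ⬝ᵥ (B *ᵥ x)) (heven : ∀ x : Fin 24 → ℤ, (2 : ℤ) ∣ x ⬝ᵥ (B *ᵥ x)) (h2 : ∀ x : Fin 24 → ℤ, x ⬝ᵥ (B *ᵥ x) ≠ 2) (x y : Fin 24 → ℤ) (hx : x ⬝ᵥ (B *ᵥ x) = 8) (hy : y ⬝ᵥ (B *ᵥ y) = 8) (hc : ∀ i, (2 : ℤ) ∣ (x - y) i) : y = x ∨ y = -x ∨ x ⬝ᵥ (B *ᵥ y) = 0 := by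
  -- symmetry of the form
  have hsym : ∀ a b : Fin 24 → ℤ, a ⬝ᵥ (B *ᵥ b) = b ⬝ᵥ (B *ᵥ a) := by
    intro a b
    rw [Matrix.dotProduct_mulVec, ← Matrix.mulVec_transpose, hsymm.eq, dotProduct_comm]
  -- nonzero vectors have norm at least 4
  have hmin : ∀ z : Fin 24 → ℤ, z ≠ 0 → 4 ≤ z ⬝ᵥ (B *ᵥ z) := by
    intro z hz
    have h1 := hpos z hz
    have h3 := h2 z
    obtain ⟨k, hk⟩ := heven z
    omega
  -- the key estimate: if `u = 2 z` with `u ≠ 0` then `16 ≤ u·u`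
  have hkey : ∀ u : Fin 24 → ℤ, (∀ i, (2 : ℤ) ∣ u i) → u ≠ 0 → 16 ≤ u ⬝ᵥ (B *ᵥ u) := by
    intro u hu hu0
    choose z hz using hu
    have huz : u = (2 : ℤ) • z := by
      funext i
      simp [hz i]
    have hz0 : z ≠ 0 := by
      rintro rfl
      apply hu0
      rw [huz]
      simp
    have h4 := hmin z hz0
    rw [huz, Matrix.mulVec_smul, dotProduct_smul, smul_dotProduct]
    simp only [smul_eq_mul]
    linarith
  by_cases h1 : y = x
  · exact Or.inl h1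
  by_cases h2' : y = -x
  · exact Or.inr (Or.inl h2')
  refine Or.inr (Or.inr ?_)
  have hm : x - y ≠ 0 := by
    intro h
    apply h1
    exact (sub_eq_zero.mp h).symm
  have hp : x + y ≠ 0 := by
    intro h
    apply h2'
    exact (neg_eq_of_add_eq_zero_right h).symm ▸ rfl
  have hcp : ∀ i, (2 : ℤ) ∣ (x + y) i := by
    intro i
    have := hc i
    simp only [Pi.sub_apply, Pi.add_apply] at this ⊢
    omega
  have e1 := hkey (x - y) hc hm
  have e2 := hkey (x + y) hcp hp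
  have hxy := hsym y x
  rw [Matrix.mulVec_sub, dotProduct_sub, sub_dotProduct, sub_dotProduct] at e1
  rw [Matrix.mulVec_add, dotProduct_add, add_dotProduct, add_dotProduct] at e2
  linarith

end Cfsg.Agent.S1587
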