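import Cfsg.Statements.S1590
import Cfsg.Agent.H34.Ternary

set_option autoImplicit false
open Cfsg

namespace Cfsg.Agent.S1590

open Cfsg.Agent.H34

theorem twt_cases : ∀ a : TP, twt a = 0 ∨ twt a = 6 ∨ twt a = 9 ∨ twt a = 12 := by
  decide +kernel

theorem count6 : (Finset.univ.filter fun a : TP => twt a = 6).card = 264 := by decide +kernel

theorem count9 : (Finset.univ.filter fun a : TP => twt a = 9).card = 440 := by decide +kernel

theorem count12 : (Finset.univ.filter fun a : TP => twt a = 12).card = 24 := by decide +kernel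

theorem ncard_weight (n : ℕ) :
    {x : Cfsg.ArrayPt → ZMod 3 | x ∈ Cfsg.ternaryGolayCode ∧ (Cfsg.ternarySupport x).card = n}.ncard
      = (Finset.univ.filter fun a : TP => twt a = n).card := by
  have h : {x : Cfsg.ArrayPt → ZMod 3 | x ∈ Cfsg.ternaryGolayCode ∧ (Cfsg.ternarySupport x).card = n}
      = tenc '' ((Finset.univ.filter fun a : TP => twt a = n) : Set TP) := by
    ext x
    simp only [Set.mem_ofPred_eq, Set.mem_image, Finset.coe_filter, Finset.mem_univ, true_and]
    constructor
    · rintro ⟨hx, hw⟩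
      obtain ⟨a, rfl⟩ := (mem_ternary_iff x).mp hx
      exact ⟨a, hw, rfl⟩
    · rintro ⟨a, hw, rfl⟩
      exact ⟨tenc_mem a, hw⟩
  rw [h, Set.ncard_image_of_injective _ tenc_injective, Set.ncard_coe_finset]

/-- The length-12 ternary code has 729 words with weight distribution 0^1 6^264 9^440 12^24. -/
theorem result : Nat.card ↥Cfsg.ternaryGolayCode = 729 ∧ (∀ x ∈ Cfsg.ternaryGolayCode, x ≠ 0 → (Cfsg.ternarySupport x).card = 6 ∨ (Cfsg.ternarySupport x).card = 9 ∨ (Cfsg.ternarySupport x).card = 12) ∧ {x : Cfsg.ArrayPt → ZMod 3 | x ∈ Cfsg.ternaryGolayCode ∧ (Cfsg.ternarySupport x).card = 6}.ncard = 264 ∧ {x : Cfsg.ArrayPt → ZMod 3 | x ∈ Cfsg.ternaryGolayCode ∧ (Cfsg.ternarySupport x).card = 9}.ncard = 440 ∧ {x : Cfsg.ArrayPt → ZMod 3 | x ∈ Cfsg.ternaryGolayCode ∧ (Cfsg.ternarySupport x).card = 12}.ncard = 24 := by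
  refine ⟨?_, ?_, ?_, ?_, ?_⟩
  · have h : Nat.card ↥ternaryGolayCode = Nat.card TP := (Nat.card_congr tencEquiv).symm
    rw [h]
    simp only [Nat.card_prod, Nat.card_zmod]
  · intro x hx hx0
    obtain ⟨a, rfl⟩ := (mem_ternary_iff x).mp hx
    rcases twt_cases a with h | h
    · exfalso
      apply hx0
      unfold twt at h
      rw [Finset.card_eq_zero] at h
      funext p
      by_contra hp
      have : p ∈ ternarySupport (tenc a) := by
        unfold ternarySupport
        simp only [Finset.mem_filter, Finset.mem_univ, true_and]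
        exact hp
      rw [h] at this
      simp at this
    · exact h
  · rw [ncard_weight, count6]
  · rw [ncard_weight, count9]
  · rw [ncard_weight, count12]

end Cfsg.Agent.S1590
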