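import Cfsg.Statements.S1591
import Cfsg.Agent.H34.Ternary

set_option autoImplicit false
open Cfsg

namespace Cfsg.Agent.S1591

open Cfsg.Agent.H34

theorem orth_gen : ∀ (a : TP) (k : Fin 6), ∑ p, tenc a p * tgen k p = 0 := by decide +kernel

/-- Any two words of the length-12 ternary code have dot product zero. -/
theorem result (x y : Cfsg.ArrayPt → ZMod 3) (hx : x ∈ Cfsg.ternaryGolayCode) (hy : y ∈ Cfsg.ternaryGolayCode) : ∑ p, x p * y p = 0 := by
  obtain ⟨a, rfl⟩ := (mem_ternary_iff x).mp hx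
  obtain ⟨b, rfl⟩ := (mem_ternary_iff y).mp hy
  have h : ∀ p, tenc a p * tenc b p = b.1 * (tenc a p * tgen 0 p) + b.2.1 * (tenc a p * tgen 1 p) +
      b.2.2.1 * (tenc a p * tgen 2 p) + b.2.2.2.1 * (tenc a p * tgen 3 p) +
      b.2.2.2.2.1 * (tenc a p * tgen 4 p) + b.2.2.2.2.2 * (tenc a p * tgen 5 p) := by
    intro p
    rw [tenc_lin b p]
    ring
  simp only [h, Finset.sum_add_distrib, ← Finset.mul_sum, orth_gen, mul_zero, add_zero]

end Cfsg.Agent.S1591
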