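import Cfsg.Statements.S1592
import Cfsg.Agent.H34.TernaryHex

set_option autoImplicit false
open Cfsg

namespace Cfsg.Agent.S1592

open Cfsg.Agent.H34

theorem ternHexads_eq_image :
    ternHexads = (fun m => ofMask aE m) '' ((hexMasks.toFinset : Finset ℕ) : Set ℕ) := by
  ext h
  rw [mem_ternHexads_iff]
  simp only [Set.mem_image, Finset.mem_coe, List.mem_toFinset]
  constructor
  · rintro ⟨m, hm, rfl⟩
    exact ⟨m, hm, rfl⟩
  · rintro ⟨m, hm, rfl⟩
    exact ⟨m, hm, rfl⟩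

/-- The supports of the weight-6 words of the length-12 ternary code form a Steiner system S(5, 6, 12) with 132 blocks. -/
theorem result : Cfsg.IsSteinerSystem 5 6 {h : Finset Cfsg.ArrayPt | ∃ x ∈ Cfsg.ternaryGolayCode, Cfsg.ternarySupport x = h ∧ h.card = 6} ∧ {h : Finset Cfsg.ArrayPt | ∃ x ∈ Cfsg.ternaryGolayCode, Cfsg.ternarySupport x = h ∧ h.card = 6}.ncard = 132 := by
  show Cfsg.IsSteinerSystem 5 6 ternHexads ∧ ternHexads.ncard = 132
  refine ⟨⟨?_, ?_⟩, ?_⟩
  · rintro b ⟨x, -, -, hc⟩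
    exact hc
  · intro s hs
    obtain ⟨ms, hms, rfl⟩ := exists_mask aE s
    rw [card_ofMask] at hs
    obtain ⟨m, hm, hsub, huniq⟩ := hex_steiner ms hms hs
    refine ⟨ofMask aE m, ⟨(mem_ternHexads_iff _).mpr ⟨m, hm, rfl⟩,
      (ofMask_subset_iff aE m hms).mpr hsub⟩, ?_⟩
    rintro b ⟨hb, hsb⟩
    obtain ⟨m', hm', rfl⟩ := (mem_ternHexads_iff b).mp hb
    rw [huniq m' hm' ((ofMask_subset_iff aE m' hms).mp hsb)]
  · rw [ternHexads_eq_image, Set.ncard_image_of_injOn, Set.ncard_coe_finset,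
      List.toFinset_card_of_nodup hexMasks_nodup, hexMasks_length]
    intro a ha b hb hab
    simp only [Finset.mem_coe, List.mem_toFinset] at ha hb
    exact ofMask_inj aE (hexMasks_lt a ha) (hexMasks_lt b hb) hab

end Cfsg.Agent.S1592
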