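import Cfsg.Statements.S1593
import Cfsg.Agent.H34.Ternary

set_option autoImplicit false
open Cfsg

namespace Cfsg.Agent.S1593

open Cfsg.Agent.H34

/-- The sign vector with mask `m`: entry `2 = -1` at the positions of `m`, entry `1` elsewhere. -/
def usign (m : ℕ) (p : ArrayPt) : ZMod 3 := if m.testBit (aE p) = true then 2 else 1

theorem sign_check : ∀ m : ℕ, m < 4096 →
    (∀ k : Fin 6, (fun p => usign m p * tgen k p) = tenc (tproj fun p => usign m p * tgen k p)) →
    m = 0 ∨ m = 4095 :=
  forall_lt_of_all (by decide +kernel)

theorem unit_cases : ∀ u : (ZMod 3)ˣ, u = 1 ∨ u = -1 := by decide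

theorem testBit_4095 : ∀ i : Fin 12, (4095 : ℕ).testBit i = true := by decide

/-- The only sign changes preserving the length-12 ternary code are the identity and negation of all coordinates. -/
theorem result (c : Cfsg.ArrayPt → (ZMod 3)ˣ) (h : (∀ x ∈ Cfsg.ternaryGolayCode, Cfsg.monomialMap 1 c x ∈ Cfsg.ternaryGolayCode)) : (∀ p, c p = 1) ∨ (∀ p, c p = -1) := by
  classical
  set s : Finset ArrayPt := Finset.univ.filter fun p => c p = -1 with hs
  set m : ℕ := toMask aE s with hm
  have hbit : ∀ p, m.testBit (aE p) = true ↔ c p = -1 := by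
    intro p
    rw [hm, testBit_toMask, hs]
    simp
  have hu : ∀ p, ((c p : (ZMod 3)ˣ) : ZMod 3) = usign m p := by
    intro p
    unfold usign
    by_cases hp : c p = -1
    · rw [if_pos ((hbit p).mpr hp), hp]
      decide
    · rw [if_neg (fun h' => hp ((hbit p).mp h'))]
      rcases unit_cases (c p) with h1 | h1
      · rw [h1]; rfl
      · exact absurd h1 hp
  have hm_lt : m < 4096 := toMask_lt aE s
  have hk : ∀ k : Fin 6, (fun p => usign m p * tgen k p) = tenc (tproj fun p => usign m p * tgen k p) := by
    intro k
    apply eq_tenc_of_mem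
    have h1 := h (tgen k) (tenc_mem _)
    have h2 : Cfsg.monomialMap 1 c (tgen k) = fun p => usign m p * tgen k p := by
      funext p
      unfold Cfsg.monomialMap
      rw [hu p]
      rfl
    rw [← h2]
    exact h1
  rcases sign_check m hm_lt hk with h0 | h1
  · left
    intro p
    rcases unit_cases (c p) with h1 | h1
    · exact h1
    · exfalso
      have := (hbit p).mpr h1
      rw [h0] at this
      simp at this
  · right
    intro p
    apply (hbit p).mp
    rw [h1]
    exact testBit_4095 (aE p)

end Cfsg.Agent.S1593
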