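import Cfsg.Statements.S1595
import Cfsg.Agent.S1592
import Cfsg.Agent.S0408

set_option autoImplicit false
open Cfsg

namespace Cfsg.Agent.S1595

open Cfsg.Agent.H34

/-- Two distinct hexads meet in 0, 2, 3 or 4 points (mask form). -/
theorem hex_inter : ∀ m ∈ hexMasks, ∀ m' ∈ hexMasks, m' ≠ m →
    popc 12 (m &&& m') = 0 ∨ popc 12 (m &&& m') = 2 ∨ popc 12 (m &&& m') = 3 ∨
      popc 12 (m &&& m') = 4 :=
  forall_mem_of_all (by decide +kernel)

/-- The number of hexads meeting a hexad exactly in a given subset (mask form). -/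
theorem hex_count : ∀ m ∈ hexMasks, ∀ s : ℕ, s < 4096 → s &&& m = s →
    (popc 12 s = 2 → (hexMasks.filter fun m' => m &&& m' = s).length = 3) ∧
    (popc 12 s = 3 → (hexMasks.filter fun m' => m &&& m' = s).length = 2) ∧
    (popc 12 s = 4 → (hexMasks.filter fun m' => m &&& m' = s).length = 3) := by
  have h : hexMasks.all (fun m => (List.range 4096).all (fun s => decide (s &&& m = s →
      (popc 12 s = 2 → (hexMasks.filter fun m' => m &&& m' = s).length = 3) ∧
      (popc 12 s = 3 → (hexMasks.filter fun m' => m &&& m' = s).length = 2) ∧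
      (popc 12 s = 4 → (hexMasks.filter fun m' => m &&& m' = s).length = 3)))) = true := by
    decide +kernel
  intro m hm s hs
  exact of_decide_eq_true
    (List.all_eq_true.mp (List.all_eq_true.mp h m hm) s (List.mem_range.mpr hs))

/-- The image of a mask under a bijection from the array. -/
def imgMask {α : Type*} [DecidableEq α] (e : ArrayPt ≃ α) (m : ℕ) : Finset α :=
  (ofMask aE m).image e

theorem imgMask_and {α : Type*} [DecidableEq α] (e : ArrayPt ≃ α) (a b : ℕ) :
    imgMask e (a &&& b) = imgMask e a ∩ imgMask e b := by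
  unfold imgMask
  rw [ofMask_and, Finset.image_inter _ _ e.injective]

theorem card_imgMask {α : Type*} [DecidableEq α] (e : ArrayPt ≃ α) (m : ℕ) :
    (imgMask e m).card = popc 12 m := by
  unfold imgMask
  rw [Finset.card_image_of_injective _ e.injective, card_ofMask]

theorem imgMask_inj {α : Type*} [DecidableEq α] (e : ArrayPt ≃ α) {a b : ℕ} (ha : a < 4096)
    (hb : b < 4096) (h : imgMask e a = imgMask e b) : a = b :=
  ofMask_inj aE ha hb (Finset.image_injective e.injective h)

theorem exists_imgMask {α : Type*} [DecidableEq α] (e : ArrayPt ≃ α) (s : Finset α) :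
    ∃ m, m < 4096 ∧ s = imgMask e m := by
  obtain ⟨m, hm, h⟩ := exists_mask aE (s.image e.symm)
  refine ⟨m, hm, ?_⟩
  unfold imgMask
  rw [← h, Finset.image_image]
  simp

theorem card_ArrayPt : Fintype.card ArrayPt = 12 := by decide

/-- Leech triangle of S(5, 6, 12): blocks meet in 0, 2, 3 or 4 points, and a block is met exactly in a given 2-, 3- or 4-subset by 3, 2, 3 blocks respectively. -/
theorem result {α : Type*} [Fintype α] [DecidableEq α] (hα : Fintype.card α = 12) {B : Set (Finset α)} (hB : Cfsg.IsSteinerSystem 5 6 B) (b : Finset α) (hb : b ∈ B) : (∀ c ∈ B, c ≠ b → (b ∩ c).card = 0 ∨ (b ∩ c).card = 2 ∨ (b ∩ c).card = 3 ∨ (b ∩ c).card = 4) ∧ ∀ s ⊆ b, (s.card = 2 → {c : Finset α | c ∈ B ∧ b ∩ c = s}.ncard = 3) ∧ (s.card = 3 → {c : Finset α | c ∈ B ∧ b ∩ c = s}.ncard = 2) ∧ (s.card = 4 → {c : Finset α | c ∈ B ∧ b ∩ c = s}.ncard = 3) := by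
  obtain ⟨e, he⟩ := Cfsg.Agent.S0408.result card_ArrayPt hα Cfsg.Agent.S1592.result.1 hB
  have hmem : ∀ c : Finset α, c ∈ B ↔ ∃ m ∈ hexMasks, c = imgMask e m := by
    intro c
    rw [← he]
    constructor
    · rintro ⟨c0, hc0, rfl⟩
      obtain ⟨m, hm, rfl⟩ := (mem_ternHexads_iff c0).mp hc0
      exact ⟨m, hm, rfl⟩
    · rintro ⟨m, hm, rfl⟩
      exact ⟨ofMask aE m, (mem_ternHexads_iff _).mpr ⟨m, hm, rfl⟩, rfl⟩
  obtain ⟨m, hm, rfl⟩ := (hmem b).mp hb
  have hm4 : m < 4096 := hexMasks_lt m hm
  constructor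
  · intro c hc hcb
    obtain ⟨m', hm', rfl⟩ := (hmem c).mp hc
    rw [← imgMask_and, card_imgMask]
    apply hex_inter m hm m' hm'
    rintro rfl
    exact hcb rfl
  · intro s hs
    obtain ⟨ms, hms, rfl⟩ := exists_imgMask e s
    have hsub : ms &&& m = ms := by
      apply imgMask_inj e (lt_of_le_of_lt Nat.and_le_left hms) hms
      rw [imgMask_and]
      exact Finset.inter_eq_left.mpr hs
    have hset : {c : Finset α | c ∈ B ∧ imgMask e m ∩ c = imgMask e ms} =
        (fun m' => imgMask e m') ''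
          (((hexMasks.filter fun m' => m &&& m' = ms).toFinset : Finset ℕ) : Set ℕ) := by
      ext c
      simp only [Set.mem_ofPred_eq, Set.mem_image, Finset.mem_coe, List.mem_toFinset,
        List.mem_filter, decide_eq_true_eq]
      constructor
      · rintro ⟨hc, hcs⟩
        obtain ⟨m', hm', rfl⟩ := (hmem c).mp hc
        refine ⟨m', ⟨hm', ?_⟩, rfl⟩
        apply imgMask_inj e (lt_of_le_of_lt Nat.and_le_left hm4) hms
        rw [imgMask_and]
        exact hcs
      · rintro ⟨m', ⟨hm', hmm⟩, rfl⟩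
        exact ⟨(hmem _).mpr ⟨m', hm', rfl⟩, by rw [← imgMask_and, hmm]⟩
    have hcard : {c : Finset α | c ∈ B ∧ imgMask e m ∩ c = imgMask e ms}.ncard =
        (hexMasks.filter fun m' => m &&& m' = ms).length := by
      rw [hset, Set.InjOn.ncard_image, Set.ncard_coe_finset,
        List.toFinset_card_of_nodup (hexMasks_nodup.filter _)]
      intro a ha a' ha' haa
      simp only [Finset.mem_coe, List.mem_toFinset, List.mem_filter] at ha ha'
      exact imgMask_inj e (hexMasks_lt a ha.1) (hexMasks_lt a' ha'.1) haa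
    rw [hcard, card_imgMask]
    exact hex_count m hm ms hms hsub

end Cfsg.Agent.S1595
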