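import Cfsg.Statements.S1596
import Cfsg.Agent.H34.Quartet

set_option autoImplicit false
open scoped Pointwise
open Cfsg

namespace Cfsg.Agent.S1596

open Cfsg.Agent.H9 Cfsg.Agent.H34

/-- A quartet of a dodecad is determined by any two of its triples: two disjoint triples uniting to a hexad extend to exactly one quartet. -/
theorem result (d : Finset Cfsg.GolayPt) (hd : d ∈ Cfsg.dodecads) (t u : Finset Cfsg.GolayPt) (ht : t.card = 3) (hu : u.card = 3) (htu : Disjoint t u) (hh : t ∪ u ∈ Cfsg.hexadsOn d) : ∃! Q : Finset (Finset Cfsg.GolayPt), Q ∈ Cfsg.quartets d ∧ t ∈ Q ∧ u ∈ Q := by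
  obtain ⟨g, hg, rfl⟩ := dod_trans hd
  have hh' : g⁻¹ • (t ∪ u) ∈ hexadsOn (fs D0) := (mem_hexadsOn_smul_iff hg).mp hh
  rw [Finset.smul_finset_union] at hh'
  have ht' : (g⁻¹ • t).card = 3 := by rw [Finset.card_smul_finset]; exact ht
  have hu' : (g⁻¹ • u).card = 3 := by rw [Finset.card_smul_finset]; exact hu
  have hsub : g⁻¹ • t ∪ g⁻¹ • u ⊆ fs D0 := by
    obtain ⟨_, o, _, ho⟩ := hh'
    rw [← ho]
    exact Finset.inter_subset_right
  obtain ⟨a, ha, ea⟩ := triple_in_D0 ht' (Finset.union_subset_left hsub)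
  obtain ⟨b, hb, eb⟩ := triple_in_D0 hu' (Finset.union_subset_right hsub)
  have hdis : a &&& b = 0 := by
    apply (disjoint_fs_iff b (trL_lt ha)).mp
    rw [← ea, ← eb]
    exact disjoint_smul_iff.mpr htu
  have hmem : memB (Nat.lor a b) hexL = true := by
    rw [ea, eb, ← fs_or] at hh'
    exact (mem_hexadsOn_iff (Nat.or_lt_two_pow (trL_lt ha) (trL_lt hb))).mp hh'
  obtain ⟨x, hx, h1, h2⟩ := pair_in_QL ha hdis hmem
  have hne : fs a ≠ fs b := fs_ne_of_disjoint ha hdis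
  refine ⟨g • qset x, ⟨smul_mem_quartets hg (qset_mem_quartets hx), ?_, ?_⟩, ?_⟩
  · rw [← Finset.inv_smul_mem_iff, ea]
    exact inQ_mem h1
  · rw [← Finset.inv_smul_mem_iff, eb]
    exact inQ_mem h2
  · rintro Q ⟨hQ, htQ, huQ⟩
    have hQ' := (mem_quartets_smul_iff hg).mp hQ
    have e : g⁻¹ • Q = qset x := by
      refine quartet_unique hQ' (qset_mem_quartets hx) hne ?_ ?_ (inQ_mem h1) (inQ_mem h2)
      · rw [← ea]
        exact (Finset.smul_mem_smul_finset_iff g⁻¹).mpr htQ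
      · rw [← eb]
        exact (Finset.smul_mem_smul_finset_iff g⁻¹).mpr huQ
    rw [← e, smul_inv_smul]

end Cfsg.Agent.S1596
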