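import Cfsg.Statements.S1597
import Cfsg.Agent.H34.Quartet

set_option autoImplicit false
open scoped Pointwise
open Cfsg

namespace Cfsg.Agent.S1597

open Cfsg.Agent.H9 Cfsg.Agent.H34

/-- A dodecad has 220 quartets and its stabiliser is transitive on them. -/
theorem result (d : Finset Cfsg.GolayPt) (hd : d ∈ Cfsg.dodecads) : (Cfsg.quartets d).ncard = 220 ∧ ∀ Q ∈ Cfsg.quartets d, ∀ Q' ∈ Cfsg.quartets d, ∃ g : Equiv.Perm Cfsg.GolayPt, g ∈ Cfsg.M24 ∧ g • d = d ∧ g • Q = Q' := by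
  refine ⟨quartets_ncard hd, ?_⟩
  intro Q hQ Q' hQ'
  obtain ⟨g1, hg1, e1, e1'⟩ := quartet_trans hd hQ
  obtain ⟨g2, hg2, e2, e2'⟩ := quartet_trans hd hQ'
  refine ⟨g2 * g1⁻¹, mul_mem hg2 (inv_mem hg1), ?_, ?_⟩
  · rw [mul_smul, ← e1, inv_smul_smul, e2, e1]
  · rw [mul_smul, ← e1', inv_smul_smul, e2']

end Cfsg.Agent.S1597
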