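import Cfsg.Statements.S1598
import Cfsg.Agent.H34.K0GL

set_option autoImplicit false
open scoped Pointwise
open Cfsg

namespace Cfsg.Agent.S1598

open Cfsg.Agent.H9 Cfsg.Agent.H34

/-- A quartet stabiliser inside the dodecad stabiliser has order 432, a normal subgroup of order 9 with quotient GL(2, 3), and is transitive on the dodecad. -/
theorem result (d : Finset Cfsg.GolayPt) (hd : d ∈ Cfsg.dodecads) (Q : Finset (Finset Cfsg.GolayPt)) (hQ : Q ∈ Cfsg.quartets d) : Nat.card ↥(MulAction.stabilizer Cfsg.M24 d ⊓ MulAction.stabilizer Cfsg.M24 Q) = 432 ∧ (∃ (N : Subgroup ↥(MulAction.stabilizer Cfsg.M24 d ⊓ MulAction.stabilizer Cfsg.M24 Q)) (_ : N.Normal), Nat.card N = 9 ∧ Nonempty (↥(MulAction.stabilizer Cfsg.M24 d ⊓ MulAction.stabilizer Cfsg.M24 Q) ⧸ N ≃* GL (Fin 2) (ZMod 3))) ∧ ∀ p ∈ d, ∀ q ∈ d, ∃ g ∈ (MulAction.stabilizer Cfsg.M24 d ⊓ MulAction.stabilizer Cfsg.M24 Q), ((g : ↥Cfsg.M24) : Equiv.Perm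 Cfsg.GolayPt) p = q := by
  obtain ⟨g, hg, rfl, rfl⟩ := quartet_trans hd hQ
  have hK := K_iff hg
  have hcard : Nat.card ↥(MulAction.stabilizer Cfsg.M24 (g • fs D0) ⊓
      MulAction.stabilizer Cfsg.M24 (g • qset Q0c)) = 432 := by
    rw [card_conj' K0_le hg hK, card_K0]
  refine ⟨hcard, ?_, ?_⟩
  · let e : ↥(MulAction.stabilizer Cfsg.M24 (g • fs D0) ⊓
        MulAction.stabilizer Cfsg.M24 (g • qset Q0c)) ≃* ↥K0 := conjEquiv K0_le hg hK
    let φ : ↥(MulAction.stabilizer Cfsg.M24 (g • fs D0) ⊓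
        MulAction.stabilizer Cfsg.M24 (g • qset Q0c)) →* GL (Fin 2) (ZMod 3) :=
      glHom.comp e.toMonoidHom
    have hφ : Function.Surjective φ := glHom_surj.comp e.surjective
    refine ⟨φ.ker, inferInstance, ?_, ⟨QuotientGroup.quotientKerEquivOfSurjective φ hφ⟩⟩
    have h1 := Subgroup.card_eq_card_quotient_mul_card_subgroup φ.ker
    have h2 : Nat.card (↥(MulAction.stabilizer Cfsg.M24 (g • fs D0) ⊓
        MulAction.stabilizer Cfsg.M24 (g • qset Q0c)) ⧸ φ.ker) = 48 := by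
      rw [Nat.card_congr (QuotientGroup.quotientKerEquivOfSurjective φ hφ).toEquiv, card_GL23]
    rw [hcard, h2] at h1
    omega
  · intro p hp q hq
    obtain ⟨k1, hk1, e1⟩ := K0_pts (gIdx_lt (g⁻¹ p)) (testBit_inv hp)
    obtain ⟨k2, hk2, e2⟩ := K0_pts (gIdx_lt (g⁻¹ q)) (testBit_inv hq)
    rw [gPt_gIdx] at e1 e2
    obtain ⟨k, hk, e⟩ := conj_mem' K0_le hg hK (mul_mem hk2 (inv_mem hk1))
    refine ⟨k, hk, ?_⟩
    rw [e]
    simp only [Equiv.Perm.mul_apply]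
    rw [← e1]
    simp [e2]

end Cfsg.Agent.S1598
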