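import Cfsg.Statements.S1599
import Cfsg.Agent.H34.QuartetStab

set_option autoImplicit false
open scoped Pointwise
open Cfsg

namespace Cfsg.Agent.S1599

open Cfsg.Agent.H9 Cfsg.Agent.H34

/-- A quartet stabiliser has five orbits on the quartets of its dodecad, of sizes 1, 12, 27, 72, 108. -/
theorem result (d : Finset Cfsg.GolayPt) (hd : d ∈ Cfsg.dodecads) (Q : Finset (Finset Cfsg.GolayPt)) (hQ : Q ∈ Cfsg.quartets d) : ∃ X₁ ∈ Cfsg.quartets d, ∃ X₂ ∈ Cfsg.quartets d, ∃ X₃ ∈ Cfsg.quartets d, ∃ X₄ ∈ Cfsg.quartets d, (MulAction.orbit ↥(MulAction.stabilizer Cfsg.M24 d ⊓ MulAction.stabilizer Cfsg.M24 Q) X₁).ncard = 12 ∧ (MulAction.orbit ↥(MulAction.stabilizer Cfsg.M24 d ⊓ MulAction.stabilizer Cfsg.M24 Q) X₂).ncard = 27 ∧ (MulAction.orbit ↥(MulAction.stabilizer Cfsg.M24 d ⊓ MulAction.stabilizer Cfsg.M24 Q) X₃).ncard = 72 ∧ (MulAction.orbit ↥(MulAction.stabilizer Cfsg.M24 d ⊓ MulAction.stabilizer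 Cfsg.M24 Q) X₄).ncard = 108 ∧ Cfsg.quartets d = {Q} ∪ MulAction.orbit ↥(MulAction.stabilizer Cfsg.M24 d ⊓ MulAction.stabilizer Cfsg.M24 Q) X₁ ∪ MulAction.orbit ↥(MulAction.stabilizer Cfsg.M24 d ⊓ MulAction.stabilizer Cfsg.M24 Q) X₂ ∪ MulAction.orbit ↥(MulAction.stabilizer Cfsg.M24 d ⊓ MulAction.stabilizer Cfsg.M24 Q) X₃ ∪ MulAction.orbit ↥(MulAction.stabilizer Cfsg.M24 d ⊓ MulAction.stabilizer Cfsg.M24 Q) X₄ := by
  obtain ⟨g, hg, rfl, rfl⟩ := quartet_trans hd hQ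
  refine ⟨g • qset clsX1, smul_mem_quartets hg (qset_mem_quartets clsX1_mem),
    g • qset clsX2, smul_mem_quartets hg (qset_mem_quartets clsX2_mem),
    g • qset clsX3, smul_mem_quartets hg (qset_mem_quartets clsX3_mem),
    g • qset clsX4, smul_mem_quartets hg (qset_mem_quartets clsX4_mem), ?_, ?_, ?_, ?_, ?_⟩
  · rw [orbit_K_ncard hg, orbit1_ncard]
  · rw [orbit_K_ncard hg, orbit2_ncard]
  · rw [orbit_K_ncard hg, orbit3_ncard]
  · rw [orbit_K_ncard hg, orbit4_ncard]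
  · rw [orbit_K hg, orbit_K hg, orbit_K hg, orbit_K hg, quartets_smul_eq hg, quartets_D0_split]
    simp only [Set.image_union, Set.image_singleton]

end Cfsg.Agent.S1599
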