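import Cfsg.Statements.S1600
import Cfsg.Agent.H34.M24Dod

set_option autoImplicit false
open scoped Pointwise
open Cfsg

namespace Cfsg.Agent.S1600

open Cfsg.Agent.H9 Cfsg.Agent.H34

/-- The pointwise stabiliser of three points of a dodecad inside the dodecad stabiliser (order 72) is transitive on the complementary dodecad. -/
theorem result (d : Finset Cfsg.GolayPt) (hd : d ∈ Cfsg.dodecads) (p q r : Cfsg.GolayPt) (hp : p ∈ d) (hq : q ∈ d) (hr : r ∈ d) (hpq : p ≠ q) (hpr : p ≠ r) (hqr : q ≠ r) : Nat.card ↥(MulAction.stabilizer Cfsg.M24 d ⊓ MulAction.stabilizer Cfsg.M24 p ⊓ MulAction.stabilizer Cfsg.M24 q ⊓ MulAction.stabilizer Cfsg.M24 r) = 72 ∧ ∀ x ∉ d, ∀ y ∉ d, ∃ g ∈ (MulAction.stabilizer Cfsg.M24 d ⊓ MulAction.stabilizer Cfsg.M24 p ⊓ MulAction.stabilizer Cfsg.M24 q ⊓ MulAction.stabilizer Cfsg.M24 r), ((g : ↥Cfsg.M24) : Equiv.Perm Cfsg.GolayPt) x = y := by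
  obtain ⟨g, hg, hd0, hp0, hq0, hr0⟩ := dod_pt3_trans hd hp hq hr hpq hpr hqr
  have hK : ∀ k : ↥M24, k ∈ (MulAction.stabilizer Cfsg.M24 d ⊓ MulAction.stabilizer Cfsg.M24 p ⊓
      MulAction.stabilizer Cfsg.M24 q ⊓ MulAction.stabilizer Cfsg.M24 r) ↔
      g⁻¹ * (k : Equiv.Perm GolayPt) * g ∈ SF [4, 2, 1, D0] := by
    intro k
    rw [Subgroup.mem_inf, Subgroup.mem_inf, Subgroup.mem_inf, MulAction.mem_stabilizer_iff,
      MulAction.mem_stabilizer_iff, MulAction.mem_stabilizer_iff, MulAction.mem_stabilizer_iff,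
      mem_SF]
    have e0 := conj_fix_set g (k : Equiv.Perm GolayPt) (fs D0)
    have e1 := conj_fix_pt g (k : Equiv.Perm GolayPt) (j := 0) (by norm_num)
    have e2 := conj_fix_pt g (k : Equiv.Perm GolayPt) (j := 1) (by norm_num)
    have e3 := conj_fix_pt g (k : Equiv.Perm GolayPt) (j := 2) (by norm_num)
    rw [hd0] at e0
    rw [hp0] at e1
    rw [hq0] at e2
    rw [hr0] at e3
    constructor
    · rintro ⟨⟨⟨h0, h1⟩, h2⟩, h3⟩
      refine ⟨mul_mem (mul_mem (inv_mem hg) k.2) hg, ?_⟩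
      intro a ha
      simp only [List.mem_cons, List.not_mem_nil, or_false] at ha
      rcases ha with rfl | rfl | rfl | rfl
      · exact e3.mpr h3
      · exact e2.mpr h2
      · exact e1.mpr h1
      · exact e0.mpr h0
    · rintro ⟨-, h⟩
      exact ⟨⟨⟨e0.mp (h D0 (by simp)), e1.mp (h 1 (by simp))⟩, e2.mp (h 2 (by simp))⟩,
        e3.mp (h 4 (by simp))⟩
  refine ⟨?_, ?_⟩
  · rw [card_conj hg hK, card_SF_D3]
  · intro x hx y hy
    obtain ⟨h1, hh1, e1⟩ := stabD3_out (gIdx_lt (g⁻¹ x)) (testBit_inv_false (by rw [hd0]; exact hx))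
    obtain ⟨h2, hh2, e2⟩ := stabD3_out (gIdx_lt (g⁻¹ y)) (testBit_inv_false (by rw [hd0]; exact hy))
    rw [gPt_gIdx] at e1 e2
    obtain ⟨k, hk, e⟩ := conj_mem hg hK (mul_mem hh2 (inv_mem hh1))
    refine ⟨k, hk, ?_⟩
    rw [e]
    simp only [Equiv.Perm.mul_apply]
    rw [← e1]
    simp [e2]

end Cfsg.Agent.S1600
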