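import Cfsg.Statements.S1602
import Cfsg.Agent.H34.M11S5

set_option autoImplicit false
open scoped Pointwise
open Cfsg

namespace Cfsg.Agent.S1602

open Cfsg.Agent.H9 Cfsg.Agent.H34

/-- In the 12-point action of the smallest Mathieu group the setwise stabiliser of a pair is isomorphic to the symmetric group of degree 5. -/
theorem result (d : Finset Cfsg.GolayPt) (hd : d ∈ Cfsg.dodecads) (p q q' : Cfsg.GolayPt) (hp : p ∈ d) (hq : q ∉ d) (hq' : q' ∉ d) (hqq' : q ≠ q') : Nonempty (↥(MulAction.stabilizer Cfsg.M24 d ⊓ MulAction.stabilizer Cfsg.M24 p ⊓ MulAction.stabilizer Cfsg.M24 ({q, q'} : Finset Cfsg.GolayPt)) ≃* Equiv.Perm (Fin 5)) := by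
  obtain ⟨g, hg, hd0, hp0, hq0, hq0'⟩ := dod_pt_out2_trans hd hp hq hq' hqq'
  have hgq : g • fs 2176 = ({q, q'} : Finset GolayPt) := by
    rw [fs_2176, Finset.smul_finset_insert, Finset.smul_finset_singleton]
    show ({g (gPt 7), g (gPt 11)} : Finset GolayPt) = _
    rw [hq0, hq0']
  have hK : ∀ k : ↥M24, k ∈ (MulAction.stabilizer Cfsg.M24 d ⊓ MulAction.stabilizer Cfsg.M24 p ⊓
      MulAction.stabilizer Cfsg.M24 ({q, q'} : Finset Cfsg.GolayPt)) ↔
      g⁻¹ * (k : Equiv.Perm GolayPt) * g ∈ SF [2176, 1, D0] := by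
    intro k
    rw [Subgroup.mem_inf, Subgroup.mem_inf, MulAction.mem_stabilizer_iff,
      MulAction.mem_stabilizer_iff, MulAction.mem_stabilizer_iff, mem_SF]
    have e0 := conj_fix_set g (k : Equiv.Perm GolayPt) (fs D0)
    have e1 := conj_fix_pt g (k : Equiv.Perm GolayPt) (j := 0) (by norm_num)
    have e2 := conj_fix_set g (k : Equiv.Perm GolayPt) (fs 2176)
    rw [hd0] at e0
    rw [hp0] at e1
    rw [hgq] at e2
    constructor
    · rintro ⟨⟨h0, h1⟩, h2⟩
      refine ⟨mul_mem (mul_mem (inv_mem hg) k.2) hg, ?_⟩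
      intro a ha
      simp only [List.mem_cons, List.not_mem_nil, or_false] at ha
      rcases ha with rfl | rfl | rfl
      · exact e2.mpr h2
      · exact e1.mpr h1
      · exact e0.mpr h0
    · rintro ⟨-, h⟩
      exact ⟨⟨e0.mp (h D0 (by simp)), e1.mp (h 1 (by simp))⟩, e2.mp (h 2176 (by simp))⟩
  have hH : SF [2176, 1, D0] ≤ M24 := fun x hx => (mem_SF.mp hx).1
  exact ⟨(conjEquiv hH hg hK).trans HS_equiv⟩

end Cfsg.Agent.S1602
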