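import Cfsg.Statements.S1604
import Cfsg.Agent.H34.M24Oct

set_option autoImplicit false
open scoped Pointwise
open Cfsg

namespace Cfsg.Agent.S1604

open Cfsg.Agent.H9 Cfsg.Agent.H34

/-- Point conditions on a mask. -/
def ptc (m : ℕ) : Bool := tb m 0 && tb m 1

/-- Selector: octads satisfying the point conditions and meeting the base octad in `c` points. -/
def selc (c : ℕ) (m : ℕ) : Bool :=
  Nat.beq (pcT m) 8 && (ptc m && Nat.beq (pcT (Nat.land 5279 m)) c)

theorem ptc_iff (m : ℕ) : ptc m = true ↔ (gPt 0 ∈ fs m ∧ gPt 1 ∈ fs m) := by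
  unfold ptc
  simp only [gPt_mem_fs' m (show (0 : ℕ) < 24 by norm_num), gPt_mem_fs' m (show (1 : ℕ) < 24 by norm_num), Bool.and_eq_true,
    Bool.not_eq_true', Bool.not_eq_true]

def cert2 : List ℕ := [984818244535754528103549039458486304, 644605018821627938051691585253804064, 892693839141920873362786190333708320, 944319304547998642267612847938832416, 569349250298069670222106722786453536, 402950967334487994463973033105497120, 855014313715042587834618988808220704, 683581508040117145416738967391545376, 855896795372895559242045876028442656, 351105921415599095095375321372105760, 231926442544903165466759018717620256, 468955518096908278328657991377951776, 731475688621343288943628942883039264, 796626479722024718422877285424277536, 684918421368654991969900970020046880, 609265350007157793698523230685603872]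

theorem cert2_ok : certOK [1, 2, 5279] 352547 cert2 (selB (selc 2) 4096 []) = true := by
  decide +kernel

theorem count2 : countB (fun k => selc 2 (cwN k)) 4096 = 16 := by decide +kernel

def cert4 : List ℕ := [984818244535754528103549039458486304, 731475688621343288943628942883039264, 845920619692163244963093527447084064, 652588595877008959135997496258562080, 767835250339498772862356010476906528, 402879033386241294248921241505337376, 589678721265202051166269848190789664, 604566207982921683819992429271035936, 849900528551554922347717597864364064, 861079783182102786449126859103902752, 235707328561262037326638207129227296, 607846922176225586365525516328504352, 381853860922298896660938547305713696, 941729478620728354896875000812668960, 725968829998368502641140241471511584, 478035705193646410343169113788128288, 687480809560185374657006118902048800, 569349250298069670222106722786453536, 279433875066317122167311472663826464, 903068278123601289291589566474586144, 596738379696408251190632149984348192, 963959757977958701891079246152017952, 692260654647229525838818280427884576,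 225196528108010034799246692109914144, 981894611524621315333578551116310560, 480840929116560270574296557688072224, 928499026759977426709736566229676064, 267789554776313320827231940227861536, 260450833136091678154481108370197536, 222730698868594326300417443254869024, 341007105896639020902063516420376608, 962504667559808837744080299536648224, 810578069776225460840404114464811040, 566674382312264366201429243845549088, 349892465407304188758320211219785760, 713225213912897529944334103962789920, 725000053524781487856610359565846560, 551331060960965109070744701053800480, 276955562259337605532581802858126368, 688801225341780966569372801241843744, 385065019193446147635130971838318624, 231839010638090231984589924025380896, 593477588992336876074802284936269856, 272244984998201782198148258308688928, 962660455969611261303912270539327520, 399265195638282765307960917501292576, 899022300269103362213648580640616480, 646898092568471298762367431407148064, 675468431468441270177158993086127136, 893709778071020533691954823537331232, 269255772084359974936927660725899296, 264423646596619980224236440115056672,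 801791787981523741252544693767833632, 475970100961505812026140001879437344, 642147690355271247608960191771519008, 631689686053965570732969561124210720, 601712126043526638663256109893422112, 219632496298149325838087733520969760, 640217611066445192691625083791608864, 606915936985091661034633787766614048]

theorem cert4_ok : certOK [1, 2, 5279] 18147 cert4 (selB (selc 4) 4096 []) = true := by
  decide +kernel

theorem count4 : countB (fun k => selc 4 (cwN k)) 4096 = 60 := by decide +kernel

theorem cases_ok : allB (fun k => (fun m => !(Nat.beq (pcT m) 8 && ptc m) || (Nat.beq (pcT (Nat.land 5279 m)) 2 || (Nat.beq (pcT (Nat.land 5279 m)) 4 || Nat.beq m 5279))) (cwN k)) 4096 = true := by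
  decide +kernel

theorem base_count (c : ℕ) :
    {t | t ∈ octads ∧ ((gPt 0 ∈ t ∧ gPt 1 ∈ t) ∧ (fs 5279 ∩ t).card = c)}.ncard
      = countB (fun k => selc c (cwN k)) 4096 := by
  apply ncard_octad_filter (fun t => (gPt 0 ∈ t ∧ gPt 1 ∈ t) ∧ (fs 5279 ∩ t).card = c)
    (fun m => ptc m && Nat.beq (pcT (Nat.land 5279 m)) c)
  intro k hk h8
  rw [← ptc_iff, card_fs_inter, Bool.and_eq_true]
  constructor
  · rintro ⟨h1, h2⟩
    exact ⟨h1, by rw [← h2]; exact Nat.beq_refl _⟩
  · rintro ⟨h1, h2⟩
    exact ⟨h1, Nat.eq_of_beq_eq_true h2⟩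

theorem class_cases {j : ℕ} (hj : j < 4096) (h1 : pcT (cw j) = 8) (h2 : ptc (cw j) = true) :
    pcT (Nat.land 5279 (cw j)) = 2 ∨ pcT (Nat.land 5279 (cw j)) = 4 ∨ cw j = 5279 := by
  have h := forall_cw_of_allB (f := fun m => !(Nat.beq (pcT m) 8 && ptc m) || (Nat.beq (pcT (Nat.land 5279 m)) 2 || (Nat.beq (pcT (Nat.land 5279 m)) 4 || Nat.beq m 5279))) cases_ok j hj
  rw [h1, h2] at h
  simp only [Bool.or_eq_true] at h
  rcases h with h | h | h | h
  · exact absurd h (by decide)
  · exact Or.inl (Nat.eq_of_beq_eq_true h)
  · exact Or.inr (Or.inl (Nat.eq_of_beq_eq_true h))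
  · exact Or.inr (Or.inr (Nat.eq_of_beq_eq_true h))

theorem sel_of {c j : ℕ} (h1 : pcT (cw j) = 8) (h2 : ptc (cw j) = true)
    (h3 : pcT (Nat.land 5279 (cw j)) = c) : selc c (cw j) = true := by
  unfold selc
  rw [h1, h2, h3]
  simp

/-- The stabiliser of the base configuration is transitive on the octads satisfying the point
conditions and meeting the base octad in a given number of points. -/
theorem base_trans {k k' : ℕ} (hk : k < 4096) (hk' : k' < 4096) (h8 : pcT (cw k) = 8)
    (h8' : pcT (cw k') = 8) (h0 : ptc (cw k) = true) (h0' : ptc (cw k') = true)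
    (hc : pcT (Nat.land 5279 (cw k)) = pcT (Nat.land 5279 (cw k'))) :
    ∃ g ∈ SF [1, 2, 5279], g • fs (cw k) = fs (cw k') := by
  rcases class_cases hk h8 h0 with h | h | h
  · obtain ⟨g, hg, hg'⟩ := cert_sel cert2_ok hk (sel_of h8 h0 h)
    obtain ⟨g', hg1, hg1'⟩ := cert_sel cert2_ok hk' (sel_of h8' h0' (by rw [← hc, h]))
    refine ⟨g' * g⁻¹, Subgroup.mul_mem _ hg1 (Subgroup.inv_mem _ hg), ?_⟩
    rw [mul_smul, ← hg', inv_smul_smul, hg1']
  · obtain ⟨g, hg, hg'⟩ := cert_sel cert4_ok hk (sel_of h8 h0 h)
    obtain ⟨g', hg1, hg1'⟩ := cert_sel cert4_ok hk' (sel_of h8' h0' (by rw [← hc, h]))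
    refine ⟨g' * g⁻¹, Subgroup.mul_mem _ hg1 (Subgroup.inv_mem _ hg), ?_⟩
    rw [mul_smul, ← hg', inv_smul_smul, hg1']
  · have h' : cw k' = 5279 := by
      rcases class_cases hk' h8' h0' with h2 | h2 | h2
      · rw [← hc, h] at h2
        exact absurd h2 (by decide +kernel)
      · rw [← hc, h] at h2
        exact absurd h2 (by decide +kernel)
      · exact h2
    exact ⟨1, Subgroup.one_mem _, by rw [one_smul, h, h']⟩

/-- A hexad stabiliser in the two-point stabiliser has orbits of sizes 1, 16, 60 on the 77 hexads: the 16 hexads disjoint from it and the 60 meeting it in two points. -/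
theorem result (p q : Cfsg.GolayPt) (hpq : p ≠ q) (o o' o'' : Finset Cfsg.GolayPt) (ho : o ∈ Cfsg.octads) (ho' : o' ∈ Cfsg.octads) (ho'' : o'' ∈ Cfsg.octads) (hp : p ∈ o ∧ p ∈ o' ∧ p ∈ o'') (hq : q ∈ o ∧ q ∈ o' ∧ q ∈ o'') (h : (o ∩ o').card = (o ∩ o'').card) : {x : Finset Cfsg.GolayPt | x ∈ Cfsg.octads ∧ p ∈ x ∧ q ∈ x ∧ (o ∩ x).card = 2}.ncard = 16 ∧ {x : Finset Cfsg.GolayPt | x ∈ Cfsg.octads ∧ p ∈ x ∧ q ∈ x ∧ (o ∩ x).card = 4}.ncard = 60 ∧ ∃ g : Equiv.Perm Cfsg.GolayPt, g ∈ Cfsg.M24 ∧ g p = p ∧ g q = q ∧ g • o = o ∧ g • o' = o'' := by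
  obtain ⟨g1, hg1, h1o, h1p, h1q⟩ := pairflag_trans ho hp.1 hq.1 hpq
  have hmemp : ∀ t : Finset GolayPt, gPt 0 ∈ g1 • t ↔ p ∈ t := by
    intro t
    rw [← h1p]
    exact Finset.smul_mem_smul_finset_iff g1
  have hmemq : ∀ t : Finset GolayPt, gPt 1 ∈ g1 • t ↔ q ∈ t := by
    intro t
    rw [← h1q]
    exact Finset.smul_mem_smul_finset_iff g1
  have htr : ∀ c : ℕ, {x : Finset Cfsg.GolayPt | x ∈ Cfsg.octads ∧ p ∈ x ∧ q ∈ x ∧ (o ∩ x).card = c}.ncard
      = {t | t ∈ octads ∧ ((gPt 0 ∈ t ∧ gPt 1 ∈ t) ∧ (fs 5279 ∩ t).card = c)}.ncard := by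
    intro c
    apply ncard_transport g1
    intro t
    rw [smul_mem_octads hg1, hmemp, hmemq, ← card_inter_smul g1, h1o]
    constructor
    · rintro ⟨a1, a2, a3, a4⟩
      exact ⟨a1, ⟨a2, a3⟩, a4⟩
    · rintro ⟨a1, ⟨a2, a3⟩, a4⟩
      exact ⟨a1, a2, a3, a4⟩
  refine ⟨?_, ?_, ?_⟩
  · rw [htr 2, base_count 2, count2]
  · rw [htr 4, base_count 4, count4]
  · obtain ⟨k, hk, h8, hk'⟩ := (mem_octads_iff (g1 • o')).mp ((smul_mem_octads hg1).mpr ho')
    obtain ⟨k', hk1, h8', hk1'⟩ := (mem_octads_iff (g1 • o'')).mp ((smul_mem_octads hg1).mpr ho'')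
    have hm : ∀ (u : Finset GolayPt) (j : ℕ), p ∈ u → q ∈ u → g1 • u = fs (cw j) →
        ptc (cw j) = true := by
      intro u j hu hv hj
      rw [ptc_iff, ← hj, hmemp, hmemq]
      exact ⟨hu, hv⟩
    have hcard : ∀ (u : Finset GolayPt) (j : ℕ), g1 • u = fs (cw j) →
        (o ∩ u).card = pcT (Nat.land 5279 (cw j)) := by
      intro u j hj
      rw [← card_inter_smul g1, h1o, hj]
      exact card_fs_inter _ _
    obtain ⟨a, ha, ha'⟩ := base_trans hk hk1 h8 h8' (hm o' k hp.2.1 hq.2.1 hk')
      (hm o'' k' hp.2.2 hq.2.2 hk1') (by rw [← hcard o' k hk', ← hcard o'' k' hk1', h])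
    refine ⟨g1⁻¹ * a * g1, Subgroup.mul_mem _ (Subgroup.mul_mem _ (Subgroup.inv_mem _ hg1) ha.1) hg1,
      ?_, ?_, ?_, ?_⟩
    · apply conj_apply
      rw [h1p]
      exact SF_fix_pt ha (j := 0) (by norm_num) (by simp)
    · apply conj_apply
      rw [h1q]
      exact SF_fix_pt ha (j := 1) (by norm_num) (by simp)
    · apply conj_smul
      rw [h1o]
      exact SF_fix ha (a := 5279) (by simp)
    · apply conj_smul
      rw [hk', hk1']
      exact ha'

end Cfsg.Agent.S1604
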