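import Cfsg.Statements.S1606
import Cfsg.Agent.H34.M22Sub

set_option autoImplicit false
open scoped Pointwise
open Cfsg

namespace Cfsg.Agent.S1606

/-- The stabiliser of two points in the group of the length-24 code has no subgroups of index 56 or 210. -/
theorem result (p q : Cfsg.GolayPt) (hpq : p ≠ q) (H : Subgroup ↥(MulAction.stabilizer Cfsg.M24 p ⊓ MulAction.stabilizer Cfsg.M24 q)) : H.index ≠ 56 ∧ H.index ≠ 210 := by
  obtain ⟨φ⟩ := Cfsg.Agent.H34.m22_iso hpq
  have hc : Nat.card H * H.index = 443520 := by
    rw [Subgroup.card_mul_index, Cfsg.Agent.S0378.result p q hpq]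
  have hK : Nat.card (H.map φ.toMonoidHom) = Nat.card H :=
    Subgroup.card_map_of_injective φ.injective
  have hno := Cfsg.Agent.H34.no_sub_M22 (H.map φ.toMonoidHom)
  rw [hK] at hno
  constructor
  · intro h
    rw [h] at hc
    exact hno.1 (by omega)
  · intro h
    rw [h] at hc
    exact hno.2 (by omega)

end Cfsg.Agent.S1606
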