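import Cfsg.Statements.S1609
import Cfsg.Agent.H34.M23Sub
import Cfsg.Agent.S0376

set_option autoImplicit false
open scoped Pointwise
open Cfsg

namespace Cfsg.Agent.S1609

/-- Subgroups of index 253 in the Mathieu group of degree 23 are exactly the duad stabilisers and the heptad stabilisers. -/
theorem result (x : Cfsg.GolayPt) (H : Subgroup ↥(MulAction.stabilizer Cfsg.M24 x)) (hH : H.index = 253) : (∃ s : Finset Cfsg.GolayPt, s.card = 2 ∧ x ∉ s ∧ H = (MulAction.stabilizer Cfsg.M24 s).subgroupOf (MulAction.stabilizer Cfsg.M24 x)) ∨ ∃ o ∈ Cfsg.octads, x ∈ o ∧ H = (MulAction.stabilizer Cfsg.M24 o).subgroupOf (MulAction.stabilizer Cfsg.M24 x) := by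
  have hcard : Nat.card H = 40320 := by
    have h1 := Subgroup.card_mul_index H
    rw [hH, Cfsg.Agent.S0376.result x] at h1
    omega
  have hKc : Nat.card ((H.map (MulAction.stabilizer Cfsg.M24 x).subtype).map
      Cfsg.M24.subtype) = 40320 := by
    rw [Subgroup.card_map_of_injective (Subgroup.subtype_injective _),
      Subgroup.card_map_of_injective (Subgroup.subtype_injective _), hcard]
  have hKmem : ∀ z : ↥(MulAction.stabilizer Cfsg.M24 x),
      ((z : ↥Cfsg.M24) : Equiv.Perm Cfsg.GolayPt) ∈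
        (H.map (MulAction.stabilizer Cfsg.M24 x).subtype).map Cfsg.M24.subtype ↔ z ∈ H := by
    intro z
    constructor
    · rintro ⟨w, ⟨v, hv, rfl⟩, e⟩
      have e2 : v = z := Subtype.ext (Subtype.ext e)
      rw [← e2]
      exact hv
    · intro hz
      exact ⟨z.1, ⟨z, hz, rfl⟩, rfl⟩
  have hKM : (H.map (MulAction.stabilizer Cfsg.M24 x).subtype).map Cfsg.M24.subtype ≤
      Cfsg.M24 := by
    rintro _ ⟨w, -, rfl⟩
    exact w.2
  have hKx : ∀ g ∈ (H.map (MulAction.stabilizer Cfsg.M24 x).subtype).map Cfsg.M24.subtype,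
      g x = x := by
    rintro _ ⟨w, ⟨v, -, rfl⟩, rfl⟩
    exact MulAction.mem_stabilizer_iff.mp v.2
  rcases Cfsg.Agent.H34.sub253 x _ hKM hKx hKc with ⟨s, hs2, hxs, hs⟩ | ⟨o, ho, hxo, hs⟩
  · left
    refine ⟨s, hs2, hxs, ?_⟩
    ext z
    rw [Subgroup.mem_subgroupOf, MulAction.mem_stabilizer_iff, ← hKmem z, hs]
    constructor
    · rintro ⟨-, -, h⟩
      exact h
    · intro h
      exact ⟨z.1.2, MulAction.mem_stabilizer_iff.mp z.2, h⟩
  · right
    refine ⟨o, ho, hxo, ?_⟩
    ext z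
    rw [Subgroup.mem_subgroupOf, MulAction.mem_stabilizer_iff, ← hKmem z, hs]
    constructor
    · rintro ⟨-, -, h⟩
      exact h
    · intro h
      exact ⟨z.1.2, MulAction.mem_stabilizer_iff.mp z.2, h⟩

end Cfsg.Agent.S1609
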