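import Cfsg.Statements.S1610
import Cfsg.Agent.H34.Hexacode

set_option autoImplicit false
open Cfsg

namespace Cfsg.Agent.S1610

/-- The hexacode has 64 words, minimum weight 4, and weight distribution 0^1 4^45 6^18. -/
theorem result (F : Type*) [Field F] [Fintype F] [DecidableEq F] (hF : Fintype.card F = 4) (ω : F) (hω : ω ^ 2 + ω + 1 = 0) : Nat.card ↥(Cfsg.hexacode F ω) = 64 ∧ (∀ x ∈ Cfsg.hexacode F ω, x ≠ 0 → (Finset.univ.filter fun i => x i ≠ 0).card = 4 ∨ (Finset.univ.filter fun i => x i ≠ 0).card = 6) ∧ {x : Fin 6 → F | x ∈ Cfsg.hexacode F ω ∧ (Finset.univ.filter fun i => x i ≠ 0).card = 4}.ncard = 45 ∧ {x : Fin 6 → F | x ∈ Cfsg.hexacode F ω ∧ (Finset.univ.filter fun i => x i ≠ 0).card = 6}.ncard = 18 := by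
  refine ⟨Cfsg.Agent.H34.hex_card hF ω hω,
    fun x hx hx0 => Cfsg.Agent.H34.hex_wt_cases hF ω hω x hx hx0, ?_, ?_⟩
  · rw [Cfsg.Agent.H34.hex_ncard hF ω hω, Cfsg.Agent.H34.wtK_four]
  · rw [Cfsg.Agent.H34.hex_ncard hF ω hω, Cfsg.Agent.H34.wtK_six]

end Cfsg.Agent.S1610
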