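import Cfsg.Statements.S1624
import Cfsg.Agent.H9.J2.U3Perm
import Cfsg.Agent.H9.J2.U3Orb

set_option autoImplicit false
open Quaternion
open Cfsg

namespace Cfsg.Agent.S1624

/-- The Hall–Janko group contains PSU(3, 3) with index 100 and acts on the 100 cosets with rank 3 and subdegrees 1, 36, 63. -/
theorem result : ∃ H : Subgroup Cfsg.Spor.J2, H.index = 100 ∧ (∃ (F : Type) (_ : Field F) (_ : Fintype F), Fintype.card F = 9 ∧ Nonempty (↥H ≃* Cfsg.PSU 3 F 3)) ∧ ∃ c₁ c₂ : Cfsg.Spor.J2 ⧸ H, (MulAction.orbit ↥H c₁).ncard = 36 ∧ (MulAction.orbit ↥H c₂).ncard = 63 := by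
  classical
  have := Cfsg.Agent.H9.J2.j2_finite
  have hle : Nat.card ↥Cfsg.Agent.H9.J2.H3 ≤ 6048 := Cfsg.Agent.H9.J2.card_H3_le
  have hR : Nat.card ↥Cfsg.Agent.H6.G22.rho.range = 6048 := by
    rw [← Nat.card_congr (MonoidHom.ofInjective Cfsg.Agent.H6.G22.rho_injective).toEquiv]
    exact Cfsg.Agent.H6.G22.su_card Cfsg.Agent.H6.L29.card_gf9
  have hsub : Cfsg.Agent.H6.G22.rho.range ≤ Cfsg.Agent.H9.J2.phi3.range :=
    Cfsg.Agent.H9.J2.rho_range_le.trans Cfsg.Agent.H9.J2.tS_le_range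
  have h1 : 6048 ≤ Nat.card ↥Cfsg.Agent.H9.J2.phi3.range := by
    rw [← hR]
    exact Subgroup.card_le_of_le hsub
  have hk := Subgroup.card_mul_index Cfsg.Agent.H9.J2.phi3.ker
  rw [Subgroup.index_ker] at hk
  have hpos : 0 < Nat.card ↥Cfsg.Agent.H9.J2.phi3.ker := Nat.card_pos
  have hker : Nat.card ↥Cfsg.Agent.H9.J2.phi3.ker = 1 := by nlinarith
  have hrange : Nat.card ↥Cfsg.Agent.H9.J2.phi3.range = 6048 := by nlinarith
  have hcard : Nat.card ↥Cfsg.Agent.H9.J2.H3 = 6048 := by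
    rw [hker, hrange] at hk
    omega
  have hidx : Cfsg.Agent.H9.J2.H3.index = 100 := by
    have h2 := Subgroup.card_mul_index Cfsg.Agent.H9.J2.H3
    rw [hcard, Cfsg.Agent.H9.J2.card_J2] at h2
    omega
  have hinj : Function.Injective Cfsg.Agent.H9.J2.phi3 :=
    (MonoidHom.ker_eq_bot_iff _).1 (Subgroup.eq_bot_of_card_eq _ hker)
  have heq : Cfsg.Agent.H6.G22.rho.range = Cfsg.Agent.H9.J2.phi3.range :=
    Subgroup.eq_of_le_of_card_ge hsub (by rw [hR, hrange])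
  refine ⟨Cfsg.Agent.H9.J2.H3, hidx, ⟨Cfsg.Agent.H6.L29.GF9, inferInstance, inferInstance,
    Cfsg.Agent.H6.L29.card_gf9, ⟨?_⟩⟩, Cfsg.Agent.H9.J2.orbits_36_63 hidx⟩
  exact (MonoidHom.ofInjective hinj).trans ((MulEquiv.subgroupCongr heq.symm).trans
    ((MonoidHom.ofInjective Cfsg.Agent.H6.G22.rho_injective).symm.trans
      (Cfsg.Agent.H6.G22.suEquivPSU Cfsg.Agent.H6.L29.card_gf9)))

end Cfsg.Agent.S1624
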