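import Cfsg.Statements.S1629
import Cfsg.Agent.H49.Transv3
import Cfsg.Agent.H49.Levi

set_option autoImplicit false
open scoped MatrixGroups
open Cfsg

namespace Cfsg.Agent.S1629

/-- The orthogonal transvections of the plus-type orthogonal group in dimension 2m ≥ 6 over the field with two elements form a generating conjugacy class of 3-transpositions. -/
theorem result (m : ℕ) (hm : 3 ≤ m) : Cfsg.IsThreeTranspositionClass {g : ↥(Cfsg.isometryGroup (ZMod 2) (Cfsg.quadFormPlus m (ZMod 2))) | (((g : GL (Fin m ⊕ Fin m) (ZMod 2)) : Matrix (Fin m ⊕ Fin m) (Fin m ⊕ Fin m) (ZMod 2)) - 1).rank = 1} := by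
  have hF : ∀ a : ZMod 2, a ≠ 0 → a = 1 := by decide
  have h2 : (2 : ZMod 2) = 0 := by decide
  refine H49.three_transposition_class (H49.QP m (ZMod 2)) hF h2 (H49.QP_nondeg m (ZMod 2))
    (H49.finrank_plus m (ZMod 2)) (Or.inr (by omega))
    ⟨Pi.single (Sum.inl ⟨0, by omega⟩) 1 - (1 : ZMod 2) • Pi.single (Sum.inr ⟨0, by omega⟩) 1, ?_⟩
  rw [H49.QP_single_sub]
  decide

end Cfsg.Agent.S1629
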