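import Cfsg.Statements.S1630
import Cfsg.Agent.H49.Transv3
import Cfsg.Agent.H49.MinusForm

set_option autoImplicit false
open scoped MatrixGroups
open Cfsg

namespace Cfsg.Agent.S1630

/-- The orthogonal transvections of the minus-type orthogonal group in dimension ≥ 6 over the field with two elements form a generating conjugacy class of 3-transpositions. -/
theorem result (m : ℕ) (hm : 2 ≤ m) : Cfsg.IsThreeTranspositionClass {g : ↥(Cfsg.isometryGroup (ZMod 2) (Cfsg.quadFormMinus m (ZMod 2) 1 1)) | (((g : GL ((Fin m ⊕ Fin m) ⊕ Fin 2) (ZMod 2)) : Matrix ((Fin m ⊕ Fin m) ⊕ Fin 2) ((Fin m ⊕ Fin m) ⊕ Fin 2) (ZMod 2)) - 1).rank = 1} := by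
  have hF : ∀ a : ZMod 2, a ≠ 0 → a = 1 := by decide
  have h2 : (2 : ZMod 2) = 0 := by decide
  refine H49.three_transposition_class (H49.QMin m (ZMod 2) 1 1) hF h2
    (H49.QMin_nondeg m 1 1 (by decide)) (H49.finrank_minus m) (Or.inr (by omega))
    ⟨Sum.elim 0 ![1, 0], ?_⟩
  show H49.sumQ (H49.QP m (ZMod 2)) (H49.binQ 1 1) (Sum.elim 0 ![1, 0]) ≠ 0
  rw [H49.sumQ_apply, Sum.elim_comp_inl, Sum.elim_comp_inr, QuadraticMap.map_zero, zero_add,
    H49.binQ_apply]
  decide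

end Cfsg.Agent.S1630
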