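import Cfsg.Statements.S1631
import Cfsg.Agent.H17.SUTransp

set_option autoImplicit false
open scoped MatrixGroups
open Cfsg

namespace Cfsg.Agent.S1631

/-- The unitary transvections of SU(n, 2), n ≥ 4, form a generating conjugacy class of 3-transpositions. -/
theorem result (F : Type) [Field F] [Fintype F] [DecidableEq F] (hF : Fintype.card F = 4) (n : ℕ) (hn : 4 ≤ n) : Cfsg.IsThreeTranspositionClass {g : ↥(Cfsg.SU n F 2) | (((g : Matrix.SpecialLinearGroup (Fin n) F) : Matrix (Fin n) (Fin n) F) - 1).rank = 1} := by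
  classical
  have hF' : Fintype.card F = 2 ^ 2 := by rw [hF]; norm_num
  have h2 : (2 : F) = 0 := by
    have h := H17.frob_add hF' (1 : F) 1
    linear_combination h
  have hcube : ∀ l : F, l ≠ 0 → l ^ 3 = 1 := by
    intro l hl
    have := FiniteField.pow_card_sub_one_eq_one l hl
    rw [hF] at this
    exact this
  -- every member is a transvection with parameter 1
  have hD : ∀ d : ↥(Cfsg.SU n F 2),
      (((d : Matrix.SpecialLinearGroup (Fin n) F) : Matrix (Fin n) (Fin n) F) - 1).rank = 1 →
      ∃ v : Fin n → F, v ≠ 0 ∧ Cfsg.hermForm n F 2 v v = 0 ∧ H17.IsTr d v 1 := by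
    intro d hd
    obtain ⟨v, c, hv0, hc0, hvv, hT⟩ := H17.isTr_of_rank_one hF' d hd
    have hc := H17.transv_param hF' d v c hv0 hvv hT
    have hc1 : c = 1 := by
      have h3 : c * (c + 1) = 0 := by linear_combination hc
      rcases mul_eq_zero.mp h3 with h4 | h4
      · exact absurd h4 hc0
      · linear_combination h4 - h2
    rw [hc1] at hT
    exact ⟨v, hv0, hvv, hT⟩
  have hsq : ∀ (d : ↥(Cfsg.SU n F 2)) (v : Fin n → F), Cfsg.hermForm n F 2 v v = 0 →
      H17.IsTr d v 1 → d * d = 1 := by
    intro d v hvv hT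
    apply H17.su_ext
    intro z
    rw [H17.suAct_mul, H17.suAct_one, hT z, hT, H17.hermForm_add_left, H17.hermForm_smul_left, hvv]
    ext i
    simp only [Pi.add_apply, Pi.smul_apply, smul_eq_mul]
    linear_combination (Cfsg.hermForm n F 2 z v * v i) * h2
  refine ⟨⟨?_, ?_⟩, ?_, ?_⟩
  · -- order 2
    intro d hd
    obtain ⟨v, hv0, hvv, hT⟩ := hD d hd
    have : Fact (Nat.Prime 2) := ⟨Nat.prime_two⟩
    apply orderOf_eq_prime
    · rw [pow_two]
      exact hsq d v hvv hT
    · rintro rfl
      have hd' : (((1 : ↥(Cfsg.SU n F 2)) : Matrix.SpecialLinearGroup (Fin n) F) :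
          Matrix (Fin n) (Fin n) F) - 1 = 0 := by simp
      have hd2 : (((1 : ↥(Cfsg.SU n F 2)) : Matrix.SpecialLinearGroup (Fin n) F) :
          Matrix (Fin n) (Fin n) F) - 1 = 0 → False := by
        intro h0
        have := hd
        simp only [Set.mem_ofPred_eq] at this
        rw [h0, Matrix.rank_zero] at this
        exact zero_ne_one this
      exact hd2 hd'
  · -- 3-transpositions
    intro d hd e he
    obtain ⟨u, hu0, huu, hTd⟩ := hD d hd
    obtain ⟨v, hv0, hvv, hTe⟩ := hD e he
    have hdd := hsq d u huu hTd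
    have hee := hsq e v hvv hTe
    have hdinv : d⁻¹ = d := inv_eq_of_mul_eq_one_left hdd
    have heinv : e⁻¹ = e := inv_eq_of_mul_eq_one_left hee
    by_cases ha : Cfsg.hermForm n F 2 u v = 0
    · left
      have hvu : Cfsg.hermForm n F 2 v u = 0 := H17.hermForm_swap_zero hF' _ _ ha
      have h1 := hTe.conj d
      have h2' : H17.suAct d v = v := by
        rw [hTd v, hvu, mul_zero, zero_smul, add_zero]
      rw [h2', hdinv] at h1
      have h3 : d * e * d = e := h1.unique hTe
      have h4 : d * e = e * d := by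
        calc d * e = d * e * (d * d) := by rw [hdd, mul_one]
          _ = (d * e * d) * d := by simp only [mul_assoc]
          _ = e * d := by rw [h3]
      rw [pow_two]
      calc d * e * (d * e) = d * e * (e * d) := by rw [h4]
        _ = d * (e * e) * d := by simp only [mul_assoc]
        _ = 1 := by rw [hee, mul_one, hdd]
    · right
      obtain ⟨a, hadef⟩ : ∃ a, a = Cfsg.hermForm n F 2 u v := ⟨_, rfl⟩
      rw [← hadef] at ha
      have ha3 : a ^ 3 = 1 := hcube a ha
      have hvu : Cfsg.hermForm n F 2 v u = a ^ 2 := by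
        rw [hadef, H17.hermForm_conj n hF']
      have h1 := hTe.conj d
      have h1' : H17.suAct d v = v + (a ^ 2) • u := by
        rw [hTd v, hvu, one_mul]
      rw [h1', hdinv] at h1
      have h2' := hTd.conj e
      have h2'' : H17.suAct e u = u + a • v := by
        rw [hTe u, ← hadef, one_mul]
      rw [h2'', heinv] at h2'
      have h3 := h2'.scale (a ^ 2) (by
        have : (a ^ 2) ^ (2 + 1) = (a ^ 3) ^ 2 := by ring
        rw [this, ha3, one_pow])
      have h4 : (a ^ 2) • (u + a • v) = v + (a ^ 2) • u := by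
        rw [smul_add, smul_smul]
        have : a ^ 2 * a = 1 := by rw [← ha3]; ring
        rw [this, one_smul, add_comm]
      rw [h4] at h3
      have hb : d * e * d = e * d * e := h1.unique h3
      have h5 : (d * e) ^ 3 = (d * e * d) * (e * d * e) := by
        simp only [pow_succ, pow_zero, one_mul, mul_assoc]
      rw [h5, ← hb]
      calc d * e * d * (d * e * d) = d * e * (d * d) * e * d := by simp only [mul_assoc]
        _ = d * (e * e) * d := by rw [hdd, mul_one]; simp only [mul_assoc]
        _ = 1 := by rw [hee, mul_one, hdd]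
  · -- a single conjugacy class
    have hn0 : 0 < n := by omega
    have hn1 : 1 < n := by omega
    obtain ⟨v₀, hv₀def⟩ : ∃ v₀ : Fin n → F, v₀ = Pi.single (⟨0, hn0⟩ : Fin n) 1 + Pi.single (⟨1, hn1⟩ : Fin n) 1 :=
      ⟨_, rfl⟩
    have h01 : (⟨0, hn0⟩ : Fin n) ≠ ⟨1, hn1⟩ := by
      intro h
      exact absurd (congrArg Fin.val h) (by simp)
    have hv₀v₀ : Cfsg.hermForm n F 2 v₀ v₀ = 0 := by
      rw [hv₀def]
      simp only [H17.hermForm_add_left, H17.hermForm_add_right n hF', H17.hermForm_single_single hF',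
        if_neg h01, if_neg h01.symm, if_true]
      linear_combination h2
    have hv₀0 : v₀ ≠ 0 := by
      intro h0
      have := congrFun h0 ⟨0, hn0⟩
      rw [hv₀def] at this
      simp only [Pi.add_apply, Pi.single_eq_same, Pi.zero_apply, Pi.single_eq_of_ne h01,
        add_zero] at this
      exact one_ne_zero this
    obtain ⟨d₀, -, hd₀⟩ := H17.ex_T hF' v₀ 1 hv₀v₀ (by
      rw [one_pow]
      linear_combination h2)
    have hTd₀ : H17.IsTr d₀ v₀ 1 := hd₀
    refine ⟨d₀, H17.rank_one_of_isTr hF' d₀ v₀ 1 hv₀0 one_ne_zero hTd₀, ?_⟩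
    ext x
    constructor
    · intro hx
      obtain ⟨v, hv0, hvv, hT⟩ := hD x hx
      have hall : ∀ z : Fin n → F, H17.InD n z := fun z i hi => absurd i.2 (by omega)
      obtain ⟨t, -, -, ht⟩ := H17.b1 hF' (by omega : 3 ≤ n) le_rfl v₀ v (hall v₀) (hall v) hv₀0 hv0
        hv₀v₀ hvv
      have h1 := hTd₀.conj t
      rw [ht] at h1
      show IsConj d₀ x
      rw [isConj_iff]
      exact ⟨t, h1.unique hT⟩
    · intro hx
      have hx' : IsConj d₀ x := hx
      rw [isConj_iff] at hx'
      obtain ⟨g, hg⟩ := hx'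
      have h1 := hTd₀.conj g
      rw [hg] at h1
      exact H17.rank_one_of_isTr hF' x _ 1 (H17.su_mulVec_ne_zero g v₀ hv₀0) one_ne_zero h1
  · -- generation
    have hgen := H17.su_gen (F := F) (q := 2) (n := n) hF' (by omega) (by omega)
    unfold H17.suT at hgen
    rw [eq_top_iff, ← hgen]
    apply (Subgroup.closure_le _).2
    rintro A ⟨v, c, hv, hA⟩
    have hT : H17.IsTr A v c := by
      intro z
      unfold H17.suAct
      rw [hA, H17.unitaryTransvection_mulVec]
    by_cases h0 : v = 0 ∨ c = 0
    · rw [hT.eq_one_of_zero h0]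
      exact Subgroup.one_mem _
    · push Not at h0
      exact Subgroup.subset_closure (H17.rank_one_of_isTr hF' A v c h0.1 h0.2 hT)

end Cfsg.Agent.S1631
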