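import Cfsg.Statements.S1635
import Cfsg.Agent.H94.Coset

set_option autoImplicit false
open Cfsg

namespace Cfsg.Agent.S1635

open Cfsg.Agent.H9 Cfsg.Agent.H33 Cfsg.Agent.H94

/-- Coset leaders of the length-24 code: a coset contains a unique word of weight ≤ 3, or else exactly six words of weight 4 and none lighter. -/
theorem result (w : Cfsg.GolayPt → ZMod 2) : ({v : Cfsg.GolayPt → ZMod 2 | hammingNorm v ≤ 4 ∧ w - v ∈ Cfsg.golayCode}.ncard = 1 ∧ ∃ v : Cfsg.GolayPt → ZMod 2, hammingNorm v ≤ 3 ∧ w - v ∈ Cfsg.golayCode) ∨ ({v : Cfsg.GolayPt → ZMod 2 | hammingNorm v ≤ 4 ∧ w - v ∈ Cfsg.golayCode}.ncard = 6 ∧ ∀ v : Cfsg.GolayPt → ZMod 2, w - v ∈ Cfsg.golayCode → hammingNorm v ≤ 4 → hammingNorm v = 4) := by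
  obtain ⟨t₀, h4, hs⟩ := exists_leader (support₂ w)
  rw [leader_words w, Set.ncard_image_of_injective _ ind_injective]
  by_cases h3 : t₀.card ≤ 3
  · left
    rw [leader_set_small h3 hs]
    refine ⟨Set.ncard_singleton _, ind t₀, ?_, ?_⟩
    · rw [hammingNorm_eq_card, support₂_ind]
      exact h3
    · rw [mem_golayCode_iff_support, support₂_sub, support₂_ind]
      exact hs
  · right
    have h0 : t₀.card = 4 := by omega
    have hsx := sextetOf_mem_sextets hW hS t₀ h0
    have hset := leader_set_four h0 hs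
    rw [hset, Set.ncard_coe_finset]
    refine ⟨hsx.1, fun v hv hv4 => ?_⟩
    have hmem : support₂ v ∈ {t : Finset GolayPt | t.card ≤ 4 ∧ symmDiff (support₂ w) t ∈ GC} := by
      refine ⟨hv4, ?_⟩
      rw [← support₂_sub]
      exact (mem_golayCode_iff_support _).mp hv
    rw [hset] at hmem
    exact hsx.2.1 _ hmem

end Cfsg.Agent.S1635
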