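import Cfsg.Statements.S1636
import Cfsg.Agent.H9.Golay

set_option autoImplicit false
open Cfsg

namespace Cfsg.Agent.S1636

open Cfsg.Agent.H9

/-- the word of length 23 of a mask -/
def d23 (n : ℕ) : ZMod 23 → ZMod 2 := fun x => if n.testBit x.val = true then 1 else 0

/-- the punctured code -/
def P : Set (ZMod 23 → ZMod 2) :=
  {u : ZMod 23 → ZMod 2 | ∃ w ∈ Cfsg.golayCode, ∀ x : ZMod 23, u x = w (some x)}

theorem mem_P (u : ZMod 23 → ZMod 2) : u ∈ P ↔ ∃ k, k < 4096 ∧ u = d23 (cw k) := by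
  constructor
  · rintro ⟨w, hw, h⟩
    obtain ⟨k, hk, rfl⟩ := (mem_golayCode_iff w).mp hw
    exact ⟨k, hk, funext fun x => h x⟩
  · rintro ⟨k, hk, rfl⟩
    exact ⟨dec (cw k), dec_cw_mem k, fun x => rfl⟩

theorem d23_zero : d23 0 = 0 := by
  funext x
  simp [d23]

theorem d23_inj {a b : ℕ} (h : d23 a = d23 b) : a % 2 ^ 23 = b % 2 ^ 23 := by
  apply Nat.eq_of_testBit_eq
  intro i
  rw [Nat.testBit_mod_two_pow, Nat.testBit_mod_two_pow]
  by_cases hi : i < 23
  · have h1 := congrFun h ((i : ℕ) : ZMod 23)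
    simp only [d23] at h1
    rw [ZMod.val_natCast, Nat.mod_eq_of_lt hi] at h1
    cases ha : a.testBit i <;> cases hb : b.testBit i <;> simp_all
  · simp [hi]

theorem hammingNorm_d23 (n : ℕ) : hammingNorm (d23 n) = pcT (Nat.mod n 8388608) := by
  rw [pcT_eq, ← hammingNorm_dec]
  unfold hammingNorm
  rw [Finset.card_filter, Finset.card_filter, Fintype.sum_option]
  have hm : Nat.mod n 8388608 = n % 2 ^ 23 := rfl
  have h0 : dec (Nat.mod n 8388608) none = 0 := by
    have h3 : (Nat.mod n 8388608).testBit 23 = false := by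
      rw [hm, Nat.testBit_mod_two_pow]
      simp
    show (if (Nat.mod n 8388608).testBit 23 = true then (1 : ZMod 2) else 0) = 0
    rw [h3]
    rfl
  rw [if_neg (by rw [h0]; exact fun h => h rfl), zero_add]
  apply Finset.sum_congr rfl
  intro x _
  have hx : x.val < 23 := ZMod.val_lt x
  have h2 : (Nat.mod n 8388608).testBit x.val = n.testBit x.val := by
    rw [hm, Nat.testBit_mod_two_pow]
    simp [hx]
  have h1 : dec (Nat.mod n 8388608) (some x) = d23 n x := by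
    show (if (Nat.mod n 8388608).testBit x.val = true then (1 : ZMod 2) else 0)
      = (if n.testBit x.val = true then 1 else 0)
    rw [h2]
  rw [h1]

theorem chk_inj : allB (fun m => Nat.beq m 0 || !(Nat.beq (Nat.mod (cwN m) 8388608) 0)) 4096 = true := by
  decide +kernel

theorem cw_mod_inj {j k : ℕ} (hj : j < 4096) (hk : k < 4096)
    (h : cw j % 2 ^ 23 = cw k % 2 ^ 23) : j = k := by
  have h1 : cw (j ^^^ k) % 2 ^ 23 = 0 := by
    rw [cw_xor, Nat.xor_mod_two_pow, h, Nat.xor_self]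
  have h2 : j ^^^ k < 4096 := Nat.xor_lt_two_pow (n := 12) hj hk
  have h3 := (allB_iff _ _).mp chk_inj (j ^^^ k) h2
  rw [cwN_eq] at h3
  have h4 : Nat.beq (Nat.mod (cw (j ^^^ k)) 8388608) 0 = true := by
    have : Nat.mod (cw (j ^^^ k)) 8388608 = 0 := h1
    rw [this]; rfl
  rw [h4] at h3
  simp only [Bool.not_true, Bool.or_false] at h3
  have h5 : j ^^^ k = 0 := Nat.eq_of_beq_eq_true h3
  exact Nat.xor_eq_zero_iff.mp h5

/-- the punctured words with a property of their mask form a set whose size is computed by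
`countB` -/
theorem ncard_filter (f : ℕ → Bool) :
    {u : ZMod 23 → ZMod 2 | ∃ k, k < 4096 ∧ f (cw k) = true ∧ u = d23 (cw k)}.ncard
      = countB (fun k => f (cwN k)) 4096 := by
  rw [countB_eq]
  have h : {u : ZMod 23 → ZMod 2 | ∃ k, k < 4096 ∧ f (cw k) = true ∧ u = d23 (cw k)}
      = (fun k => d23 (cw k)) ''
        (((Finset.range 4096).filter (fun k => f (cwN k) = true) : Finset ℕ) : Set ℕ) := by
    ext u
    constructor
    · rintro ⟨k, hk, hf, rfl⟩
      refine ⟨k, ?_, rfl⟩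
      rw [Finset.mem_coe, Finset.mem_filter, Finset.mem_range, cwN_eq]
      exact ⟨hk, hf⟩
    · rintro ⟨k, hk, rfl⟩
      rw [Finset.mem_coe, Finset.mem_filter, Finset.mem_range, cwN_eq] at hk
      exact ⟨k, hk.1, hk.2, rfl⟩
  rw [h, Set.InjOn.ncard_image, Set.ncard_coe_finset]
  intro j hj k hk hjk
  rw [Finset.mem_coe, Finset.mem_filter, Finset.mem_range] at hj hk
  exact cw_mod_inj hj.1 hk.1 (d23_inj hjk)

theorem ncard_weight (m : ℕ) :
    {u : ZMod 23 → ZMod 2 | u ∈ P ∧ hammingNorm u = m}.ncard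
      = countB (fun k => Nat.beq (pcT (Nat.mod (cwN k) 8388608)) m) 4096 := by
  rw [← ncard_filter (fun n => Nat.beq (pcT (Nat.mod n 8388608)) m)]
  apply congrArg Set.ncard
  ext u
  constructor
  · rintro ⟨hu, hw⟩
    obtain ⟨k, hk, rfl⟩ := (mem_P u).mp hu
    refine ⟨k, hk, ?_, rfl⟩
    rw [hammingNorm_d23] at hw
    rw [hw]
    exact Nat.beq_refl m
  · rintro ⟨k, hk, hf, rfl⟩
    refine ⟨(mem_P _).mpr ⟨k, hk, rfl⟩, ?_⟩
    rw [hammingNorm_d23]
    exact Nat.eq_of_beq_eq_true hf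

theorem countB_true (n : ℕ) : countB (fun _ => true) n = n := by
  induction n with
  | zero => rfl
  | succ n ih =>
    rw [countB, ih]
    show 1 + n = n + 1
    omega

theorem ncard_P : P.ncard = 4096 := by
  have h := ncard_filter (fun _ => true)
  have h2 : countB (fun _ => true) 4096 = 4096 := countB_true 4096
  have hP : P = {u : ZMod 23 → ZMod 2 | ∃ k, k < 4096 ∧ (fun _ => true) (cw k) = true ∧
      u = d23 (cw k)} := by
    ext u
    rw [mem_P]
    constructor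
    · rintro ⟨k, hk, rfl⟩
      exact ⟨k, hk, rfl, rfl⟩
    · rintro ⟨k, hk, _, rfl⟩
      exact ⟨k, hk, rfl⟩
  rw [hP]
  exact h.trans h2

theorem cnt7 : countB (fun k => Nat.beq (pcT (Nat.mod (cwN k) 8388608)) 7) 4096 = 253 := by
  decide +kernel
theorem cnt8 : countB (fun k => Nat.beq (pcT (Nat.mod (cwN k) 8388608)) 8) 4096 = 506 := by
  decide +kernel
theorem cnt11 : countB (fun k => Nat.beq (pcT (Nat.mod (cwN k) 8388608)) 11) 4096 = 1288 := by
  decide +kernel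
theorem cnt12 : countB (fun k => Nat.beq (pcT (Nat.mod (cwN k) 8388608)) 12) 4096 = 1288 := by
  decide +kernel
theorem cnt15 : countB (fun k => Nat.beq (pcT (Nat.mod (cwN k) 8388608)) 15) 4096 = 506 := by
  decide +kernel
theorem cnt16 : countB (fun k => Nat.beq (pcT (Nat.mod (cwN k) 8388608)) 16) 4096 = 253 := by
  decide +kernel

theorem chk_min :
    allB (fun k => Nat.beq k 0 || Nat.ble 7 (pcT (Nat.mod (cwN k) 8388608))) 4096 = true := by
  decide +kernel

theorem min_weight (u : ZMod 23 → ZMod 2) (hu : u ∈ P) (h0 : u ≠ 0) : 7 ≤ hammingNorm u := by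
  obtain ⟨k, hk, rfl⟩ := (mem_P u).mp hu
  have h := (allB_iff _ _).mp chk_min k hk
  rw [hammingNorm_d23, ← cwN_eq]
  rcases Bool.or_eq_true_iff.mp h with h1 | h1
  · exfalso
    apply h0
    have : k = 0 := Nat.eq_of_beq_eq_true h1
    rw [this, cw_zero, d23_zero]
  · exact Nat.le_of_ble_eq_true h1

/-- The punctured length-23 code has weight distribution 0^1 7^253 8^506 11^1288 12^1288 15^506 16^253 23^1. -/
theorem result : {u : ZMod 23 → ZMod 2 | ∃ w ∈ Cfsg.golayCode, ∀ x : ZMod 23, u x = w (some x)}.ncard = 4096 ∧ {u : ZMod 23 → ZMod 2 | u ∈ {u : ZMod 23 → ZMod 2 | ∃ w ∈ Cfsg.golayCode, ∀ x : ZMod 23, u x = w (some x)} ∧ hammingNorm u = 7}.ncard = 253 ∧ {u : ZMod 23 → ZMod 2 | u ∈ {u : ZMod 23 → ZMod 2 | ∃ w ∈ Cfsg.golayCode, ∀ x : ZMod 23, u x = w (some x)} ∧ hammingNorm u = 8}.ncard = 506 ∧ {u : ZMod 23 → ZMod 2 | u ∈ {u : ZMod 23 → ZMod 2 | ∃ w ∈ Cfsg.golayCode, ∀ x : ZMod 23, u x = w (some x)} ∧ hammingNorm u = 11}.ncard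 = 1288 ∧ {u : ZMod 23 → ZMod 2 | u ∈ {u : ZMod 23 → ZMod 2 | ∃ w ∈ Cfsg.golayCode, ∀ x : ZMod 23, u x = w (some x)} ∧ hammingNorm u = 12}.ncard = 1288 ∧ {u : ZMod 23 → ZMod 2 | u ∈ {u : ZMod 23 → ZMod 2 | ∃ w ∈ Cfsg.golayCode, ∀ x : ZMod 23, u x = w (some x)} ∧ hammingNorm u = 15}.ncard = 506 ∧ {u : ZMod 23 → ZMod 2 | u ∈ {u : ZMod 23 → ZMod 2 | ∃ w ∈ Cfsg.golayCode, ∀ x : ZMod 23, u x = w (some x)} ∧ hammingNorm u = 16}.ncard = 253 ∧ ∀ u ∈ {u : ZMod 23 → ZMod 2 | ∃ w ∈ Cfsg.golayCode, ∀ x : ZMod 23, u x = w (some x)}, u ≠ 0 → 7 ≤ hammingNorm u := by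
  refine ⟨ncard_P, ?_, ?_, ?_, ?_, ?_, ?_, min_weight⟩
  · exact (ncard_weight 7).trans cnt7
  · exact (ncard_weight 8).trans cnt8
  · exact (ncard_weight 11).trans cnt11
  · exact (ncard_weight 12).trans cnt12
  · exact (ncard_weight 15).trans cnt15
  · exact (ncard_weight 16).trans cnt16

end Cfsg.Agent.S1636
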