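import Cfsg.Statements.S1637
import Cfsg.Agent.H94.Coset

set_option autoImplicit false
open Cfsg

namespace Cfsg.Agent.S1637

open Cfsg.Agent.H9 Cfsg.Agent.H33 Cfsg.Agent.H94

/-- the tetrads of a sextet cover the points -/
theorem sextet_cover {S : Finset (Finset GolayPt)} (hS' : S ∈ sextets) (p : GolayPt) :
    ∃ t ∈ S, p ∈ t := by
  classical
  have hdisj : ∀ t ∈ S, ∀ u ∈ S, t ≠ u → Disjoint t u := by
    intro t ht u hu htu
    have ho := hS'.2.2 t ht u hu htu
    rw [← Finset.card_union_eq_card_add_card, ho.2, hS'.2.1 t ht, hS'.2.1 u hu]
  have hcard : ((S.biUnion fun t => t)).card = 24 := by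
    rw [Finset.card_biUnion (fun t ht u hu htu => hdisj t ht u hu htu)]
    rw [Finset.sum_congr rfl (fun t ht => hS'.2.1 t ht), Finset.sum_const, hS'.1]
    rfl
  have huniv : (S.biUnion fun t => t) = Finset.univ := by
    apply Finset.eq_univ_of_card
    rw [hcard]
    rfl
  have hp : p ∈ (S.biUnion fun t => t) := by rw [huniv]; exact Finset.mem_univ p
  obtain ⟨t, ht, hpt⟩ := Finset.mem_biUnion.mp hp
  exact ⟨t, ht, hpt⟩

/-- extension of a word of length 23 by zero at the extra point -/
def ext (u : ZMod 23 → ZMod 2) : GolayPt → ZMod 2
  | none => 0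
  | some x => u x

/-- a leader with at most three points other than the extra point -/
theorem exists_leader3 (s : Finset GolayPt) :
    ∃ t : Finset GolayPt, symmDiff s t ∈ GC ∧ (t.erase none).card ≤ 3 := by
  obtain ⟨t₀, h4, hs⟩ := exists_leader s
  by_cases h3 : t₀.card ≤ 3
  · exact ⟨t₀, hs, (Finset.card_erase_le).trans h3⟩
  have h0 : t₀.card = 4 := by omega
  have hsx := sextetOf_mem_sextets hW hS t₀ h0
  obtain ⟨t, ht, hnone⟩ := sextet_cover hsx none
  have hmem : t ∈ {t : Finset GolayPt | t.card ≤ 4 ∧ symmDiff s t ∈ GC} := by
    rw [leader_set_four h0 hs]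
    exact ht
  refine ⟨t, hmem.2, ?_⟩
  rw [Finset.card_erase_of_mem hnone, hsx.2.1 t ht]

/-- The punctured length-23 code is a perfect 3-error-correcting code: each word of length 23 is within distance 3 of exactly one codeword. -/
theorem result (u : ZMod 23 → ZMod 2) : ∃! c : ZMod 23 → ZMod 2, c ∈ {u : ZMod 23 → ZMod 2 | ∃ w ∈ Cfsg.golayCode, ∀ x : ZMod 23, u x = w (some x)} ∧ hammingDist u c ≤ 3 := by
  classical
  obtain ⟨t, ht, h3⟩ := exists_leader3 (support₂ (ext u))
  have hcw : ext u - ind t ∈ golayCode := by
    rw [mem_golayCode_iff_support, support₂_sub, support₂_ind]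
    exact ht
  refine ⟨fun x => (ext u - ind t) (some x), ⟨⟨ext u - ind t, hcw, fun x => rfl⟩, ?_⟩, ?_⟩
  · -- distance at most 3
    unfold hammingDist
    refine le_trans ?_ h3
    apply Finset.card_le_card_of_injOn (fun x => (some x : GolayPt))
    · intro x hx
      rw [Finset.mem_coe, Finset.mem_filter] at hx
      have hx2 : u x ≠ u x - ind t (some x) := hx.2
      rw [Finset.mem_coe, Finset.mem_erase]
      refine ⟨by simp, ?_⟩
      by_contra hnot
      apply hx2
      simp [ind, hnot]
    · intro x _ y _ h
      exact Option.some_injective _ h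
  · -- uniqueness
    rintro c ⟨⟨w, hw, hc⟩, hd⟩
    have hdiff : w - (ext u - ind t) ∈ golayCode := golayCode.sub_mem hw hcw
    have h7 : hammingNorm (w - (ext u - ind t)) ≤ 7 := by
      have hsub : support₂ (w - (ext u - ind t)) ⊆
          insert (none : GolayPt) ((Finset.univ.filter
            (fun x : ZMod 23 => c x ≠ (ext u - ind t) (some x))).image some) := by
        intro p hp
        rw [support₂, Finset.mem_filter] at hp
        rcases p with _ | x
        · exact Finset.mem_insert_self _ _
        · apply Finset.mem_insert_of_mem
          rw [Finset.mem_image]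
          refine ⟨x, ?_, rfl⟩
          rw [Finset.mem_filter]
          refine ⟨Finset.mem_univ _, ?_⟩
          rw [hc x]
          intro heq
          apply hp.2
          show w (some x) - (ext u - ind t) (some x) = 0
          rw [heq, sub_self]
      have hcard := Finset.card_le_card hsub
      have h1 := Finset.card_insert_le (none : GolayPt) ((Finset.univ.filter
            (fun x : ZMod 23 => c x ≠ (ext u - ind t) (some x))).image some)
      have h2 := Finset.card_image_le (s := Finset.univ.filter
            (fun x : ZMod 23 => c x ≠ (ext u - ind t) (some x))) (f := (some : ZMod 23 → GolayPt))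
      have h3' : (Finset.univ.filter
            (fun x : ZMod 23 => c x ≠ (ext u - ind t) (some x))).card
          = hammingDist c (fun x => (ext u - ind t) (some x)) := rfl
      have h4 := hammingDist_triangle c u (fun x => (ext u - ind t) (some x))
      have h5 : hammingDist c u ≤ 3 := by rw [hammingDist_comm]; exact hd
      have h6 : hammingDist u (fun x => (ext u - ind t) (some x)) ≤ 3 := by
        unfold hammingDist
        refine le_trans ?_ h3
        apply Finset.card_le_card_of_injOn (fun x => (some x : GolayPt))
        · intro x hx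
          rw [Finset.mem_coe, Finset.mem_filter] at hx
          have hx2 : u x ≠ u x - ind t (some x) := hx.2
          rw [Finset.mem_coe, Finset.mem_erase]
          refine ⟨by simp, ?_⟩
          by_contra hnot
          apply hx2
          simp [ind, hnot]
        · intro x _ y _ h
          exact Option.some_injective _ h
      rw [hammingNorm_eq_card]
      omega
    have h0 : hammingNorm (w - (ext u - ind t)) = 0 := by
      rcases hW _ hdiff with h | h | h | h | h <;> omega
    have heq : w = ext u - ind t := by
      rw [hammingNorm_eq_zero] at h0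
      exact sub_eq_zero.mp h0
    funext x
    rw [hc x, heq]

end Cfsg.Agent.S1637
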