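import Cfsg.Statements.S1639
import Cfsg.Agent.H9.DodOrb
import Cfsg.Agent.H33.OctStab

set_option autoImplicit false
open scoped Pointwise
open Cfsg

namespace Cfsg.Agent.S1639

/-- The point stabiliser acts on the 1288 dodecads through the point with rank 4 and subdegrees 1, 165, 330, 792, distinguished by intersection 4, 8, 6 with the fixed dodecad. -/
theorem result (x : Cfsg.GolayPt) (d : Finset Cfsg.GolayPt) (hd : d ∈ Cfsg.dodecads) (hx : x ∈ d) : {d' : Finset Cfsg.GolayPt | d' ∈ Cfsg.dodecads ∧ x ∈ d' ∧ (d ∩ d').card = 4}.ncard = 165 ∧ {d' : Finset Cfsg.GolayPt | d' ∈ Cfsg.dodecads ∧ x ∈ d' ∧ (d ∩ d').card = 8}.ncard = 330 ∧ {d' : Finset Cfsg.GolayPt | d' ∈ Cfsg.dodecads ∧ x ∈ d' ∧ (d ∩ d').card = 6}.ncard = 792 ∧ ∀ d' d'' : Finset Cfsg.GolayPt, d' ∈ Cfsg.dodecads → d'' ∈ Cfsg.dodecads → x ∈ d' → x ∈ d'' → (d ∩ d').card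 = (d ∩ d'').card → ∃ g : Equiv.Perm Cfsg.GolayPt, g ∈ Cfsg.M24 ∧ g x = x ∧ g • d = d ∧ g • d' = d'' := by
  classical
  obtain ⟨h, hh, rfl, rfl⟩ := Cfsg.Agent.H9.exists_smul_dod0_pt hd hx
  have hpull : ∀ d' : Finset Cfsg.GolayPt, d' ∈ Cfsg.dodecads → h (Cfsg.Agent.H9.gPt 0) ∈ d' →
      (h⁻¹ • d' ∈ Cfsg.dodecads ∧ Cfsg.Agent.H9.gPt 0 ∈ h⁻¹ • d' ∧
        (Cfsg.Agent.H33.dod0 ∩ h⁻¹ • d').card = (h • Cfsg.Agent.H33.dod0 ∩ d').card) := by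
    intro d' h1 h2
    refine ⟨Cfsg.Agent.H33.m24_smul_mem_dodecads (inv_mem hh) h1, ?_, ?_⟩
    · rw [Finset.mem_inv_smul_finset_iff]
      exact h2
    · rw [← Finset.card_smul_finset h (Cfsg.Agent.H33.dod0 ∩ h⁻¹ • d'), Finset.smul_finset_inter,
        smul_inv_smul]
  have hset : ∀ c : ℕ, {d' : Finset Cfsg.GolayPt | d' ∈ Cfsg.dodecads ∧
        h (Cfsg.Agent.H9.gPt 0) ∈ d' ∧ (h • Cfsg.Agent.H33.dod0 ∩ d').card = c}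
      = (fun s : Finset Cfsg.GolayPt => h • s) '' {s : Finset Cfsg.GolayPt | s ∈ Cfsg.dodecads ∧
        Cfsg.Agent.H9.gPt 0 ∈ s ∧ (Cfsg.Agent.H33.dod0 ∩ s).card = c} := by
    intro c
    ext d'
    constructor
    · rintro ⟨h1, h2, h3⟩
      obtain ⟨a1, a2, a3⟩ := hpull d' h1 h2
      exact ⟨h⁻¹ • d', ⟨a1, a2, by rw [a3, h3]⟩, smul_inv_smul h d'⟩
    · rintro ⟨s, ⟨h1, h2, h3⟩, rfl⟩
      refine ⟨Cfsg.Agent.H33.m24_smul_mem_dodecads hh h1, Finset.smul_mem_smul_finset h2, ?_⟩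
      rw [← Finset.smul_finset_inter, Finset.card_smul_finset]
      exact h3
  have hn : ∀ c : ℕ, {d' : Finset Cfsg.GolayPt | d' ∈ Cfsg.dodecads ∧
        h (Cfsg.Agent.H9.gPt 0) ∈ d' ∧ (h • Cfsg.Agent.H33.dod0 ∩ d').card = c}.ncard
      = Cfsg.Agent.H9.countB (fun k => Cfsg.Agent.H9.dptPred c (Cfsg.Agent.H9.cwN k)) 4096 := by
    intro c
    rw [hset c, Set.ncard_image_of_injective _ (MulAction.injective h), Cfsg.Agent.H9.dpt_ncard]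
  refine ⟨by rw [hn 4, Cfsg.Agent.H9.dpt_count4], by rw [hn 8, Cfsg.Agent.H9.dpt_count8],
    by rw [hn 6, Cfsg.Agent.H9.dpt_count6], ?_⟩
  intro d' d'' hd' hd'' hx' hx'' hcard
  obtain ⟨a1, a2, a3⟩ := hpull d' hd' hx'
  obtain ⟨b1, b2, b3⟩ := hpull d'' hd'' hx''
  rw [← hcard] at b3
  have fin : ∀ g₀ : Equiv.Perm Cfsg.GolayPt, g₀ ∈ Cfsg.M24 →
      g₀ (Cfsg.Agent.H9.gPt 0) = Cfsg.Agent.H9.gPt 0 →
      g₀ • Cfsg.Agent.H33.dod0 = Cfsg.Agent.H33.dod0 → g₀ • (h⁻¹ • d') = h⁻¹ • d'' →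
      ∃ g : Equiv.Perm Cfsg.GolayPt, g ∈ Cfsg.M24 ∧ g (h (Cfsg.Agent.H9.gPt 0))
        = h (Cfsg.Agent.H9.gPt 0) ∧ g • h • Cfsg.Agent.H33.dod0 = h • Cfsg.Agent.H33.dod0 ∧
        g • d' = d'' := by
    intro g₀ hg₀ e0 e1 e2
    refine ⟨h * g₀ * h⁻¹, mul_mem (mul_mem hh hg₀) (inv_mem hh), ?_, ?_, ?_⟩
    · simp [e0]
    · rw [mul_smul, mul_smul, inv_smul_smul, e1]
    · rw [mul_smul, mul_smul, e2, smul_inv_smul]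
  rcases Cfsg.Agent.H33.dodecad_inter_card Cfsg.Agent.H33.hW Cfsg.Agent.H33.dod0_mem a1
    with h0 | h4 | h6 | h8 | h12
  · exfalso
    have h1 : Cfsg.Agent.H9.gPt 0 ∈ Cfsg.Agent.H33.dod0 ∩ h⁻¹ • d' :=
      Finset.mem_inter.mpr ⟨Cfsg.Agent.H9.gPt0_mem_dod0, a2⟩
    rw [Finset.card_eq_zero.mp h0] at h1
    exact absurd h1 (Finset.notMem_empty _)
  · obtain ⟨g₀, hg₀, e0, e1, e2⟩ := Cfsg.Agent.H9.dpt_trans (c := 4) (Or.inl rfl)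
      ⟨a1, a2, h4⟩ ⟨b1, b2, by rw [b3, a3.symm, h4]⟩
    exact fin g₀ hg₀ e0 e1 e2
  · obtain ⟨g₀, hg₀, e0, e1, e2⟩ := Cfsg.Agent.H9.dpt_trans (c := 6) (Or.inr (Or.inl rfl))
      ⟨a1, a2, h6⟩ ⟨b1, b2, by rw [b3, a3.symm, h6]⟩
    exact fin g₀ hg₀ e0 e1 e2
  · obtain ⟨g₀, hg₀, e0, e1, e2⟩ := Cfsg.Agent.H9.dpt_trans (c := 8) (Or.inr (Or.inr rfl))
      ⟨a1, a2, h8⟩ ⟨b1, b2, by rw [b3, a3.symm, h8]⟩
    exact fin g₀ hg₀ e0 e1 e2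
  · have e1 := Cfsg.Agent.H33.dodecad_eq_of_inter Cfsg.Agent.H33.dod0_mem a1 h12
    have e2 := Cfsg.Agent.H33.dodecad_eq_of_inter Cfsg.Agent.H33.dod0_mem b1
      (by rw [b3, a3.symm, h12])
    exact fin 1 (one_mem _) rfl (one_smul _ _) (by rw [one_smul, e1, e2])

end Cfsg.Agent.S1639
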