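import Cfsg.Statements.S1679
import Cfsg.Agent.H94.G2.Main

set_option autoImplicit false
open Cfsg

namespace Cfsg.Agent.S1679

open Cfsg.Agent.H35 Cfsg.Spor Cfsg.Agent.H10.SuzT Cfsg.Agent.H94.HS Cfsg.Agent.H94.G2

/-- the subgroup of the statement is the subgroup of the coset enumeration -/
theorem hHs : (Subgroup.closure ({Suz.a, Suz.b, Suz.c, Suz.d, Suz.e, Suz.f} :
    Set (FreeGroup Suz.Gen))).map
    (PresentedGroup.mk (coxRelators Suz.edges ∪ {r | r ∈ Suz.extra})) =
      Cfsg.Agent.H10.SuzT.Hs := by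
  show Subgroup.map _ (Subgroup.closure _) = Subgroup.closure _
  rw [MonoidHom.map_closure]
  congr 1
  ext g
  simp only [Set.image_insert_eq, Set.image_singleton, Set.mem_insert_iff, Set.mem_singleton_iff,
    t1680_sw_def, List.mem_cons, List.not_mem_nil, or_false, exists_eq_or_imp, exists_eq_left,
    Set.mem_ofPred_eq, uw_eq, List.map, List.prod_cons, List.prod_nil, mul_one, map_mul,
    pow_succ, pow_zero, one_mul, mul_assoc, suz_gen_eq]

/-- the order of the subgroup -/
theorem hcard : Nat.card Cfsg.Agent.H10.SuzT.Hs = 251596800 := by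
  have h1 := Subgroup.card_mul_index Cfsg.Agent.H10.SuzT.Hs
  have h2 : Cfsg.Agent.H10.SuzT.Hs.index = 1782 := tc_index suz_hyp
  rw [h2, suz_main.1] at h1
  exact Nat.eq_of_mul_eq_mul_right (by norm_num : 0 < 1782) h1

/-- In the presented sporadic Suzuki group (generators a, …, g), the subgroup generated by the images of a, …, f is isomorphic to the adjoint Chevalley group of type G₂ over a field with four elements. -/
theorem result : ∃ (K : Type) (_ : Field K) (_ : Fintype K), Fintype.card K = 4 ∧ Nonempty ((((Subgroup.closure ({Cfsg.Spor.Suz.a, Cfsg.Spor.Suz.b, Cfsg.Spor.Suz.c, Cfsg.Spor.Suz.d, Cfsg.Spor.Suz.e, Cfsg.Spor.Suz.f} : Set (FreeGroup Cfsg.Spor.Suz.Gen))).map (PresentedGroup.mk (Cfsg.Spor.coxRelators Cfsg.Spor.Suz.edges ∪ {r | r ∈ Cfsg.Spor.Suz.extra})))) ≃* Cfsg.Lie.chevG2.group K) := by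
  obtain ⟨ρ, hw, -, -⟩ := tc_core suz_hyp (by decide)
  refine ⟨F4, inferInstance, inferInstance, F4.card_eq, ?_⟩
  rw [hHs]
  exact suz_g2 ρ hw hcard

end Cfsg.Agent.S1679
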