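import Cfsg.Statements.S1680
import Cfsg.Agent.H35.T1680.PAll
import Cfsg.Agent.H35.T1680.RAll

set_option autoImplicit false
open Cfsg

namespace Cfsg.Agent.S1680

open Cfsg.Agent.H35 Cfsg.Spor

/-- the subgroup of the statement -/
private abbrev Hs : Subgroup Suz :=
  (Subgroup.closure ({Suz.a, Suz.b, Suz.c, Suz.d, Suz.e, Suz.f} : Set (FreeGroup Suz.Gen))).map
    (PresentedGroup.mk (coxRelators Suz.edges ∪ {r | r ∈ Suz.extra}))

private theorem hHs : Hs = Subgroup.closure {g | ∃ w ∈ t1680_sw, g = uw suz_gen w} := by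
  show Subgroup.map _ (Subgroup.closure _) = Subgroup.closure _
  rw [MonoidHom.map_closure]
  congr 1
  ext g
  simp only [Set.image_insert_eq, Set.image_singleton, Set.mem_insert_iff, Set.mem_singleton_iff,
    t1680_sw_def, List.mem_cons, List.not_mem_nil, or_false, exists_eq_or_imp, exists_eq_left,
    Set.mem_ofPred_eq, uw_eq, List.map, List.prod_cons, List.prod_nil, mul_one, map_mul,
    pow_succ, pow_zero, one_mul, mul_assoc, suz_gen_eq]

private theorem hsw : t1680_rsw = t1680_sw := by decide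

private theorem hyp : TCHyp suz_gen Hs t1680_pd t1680_rd suz_rws suz_prels t1680_sw where
  UP := fun f hf h1 h2 => suz_UP f hf h1 h2
  hP := by
    refine ⟨by decide, suz_gens_all, ?_, t1680_psub⟩
    intro p hp
    have h : (t1680_pd.ptOK suz_rws suz_prels p && t1680_pd.orbOK t1680_sw t1680_roots p) = true :=
      t1680_pall p hp
    exact (Bool.and_eq_true_iff.mp h).1
  hy := by
    refine ⟨suz_inv, suz_gof_gi, by decide, fun p hp => wrapRow_of_le _ _ p hp, ?_, ?_,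
      t1680_h0, by decide⟩
    · exact circTab_valid suz_gen suz_inv _ suz_full_one t1680_circT t1680_ccert t1680_circ_ok
    · refine hcTab_valid suz_gen suz_inv Hs t1680_rsw ?_ t1680_hc1T t1680_hc2T _
        (fun c hc => allR_sound _ _ _ 0 t1680_hc_ok c (Nat.zero_le _) (by omega) hc)
      intro w hw
      rw [hsw] at hw
      rw [hHs]
      exact Subgroup.subset_closure ⟨w, hw, rfl⟩
  hgensR := suz_gens_all
  hgen := suz_closure
  hN := by decide
  hNM := by decide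
  hNN := rfl
  hchk := t1680_rall
  hH := hHs

private theorem horbOK : ∀ p, p < t1680_pd.N → t1680_pd.orbOK t1680_sw t1680_roots p = true := by
  intro p hp
  have h : (t1680_pd.ptOK suz_rws suz_prels p && t1680_pd.orbOK t1680_sw t1680_roots p) = true :=
    t1680_pall p hp
  exact (Bool.and_eq_true_iff.mp h).2

private theorem cnt1 :
    cntR (fun i => Nat.beq (t1680_pd.cls i) (t1680_pd.cls 47)) 1782 11 0 = 416 := by
  decide +kernel

private theorem cnt2 :
    cntR (fun i => Nat.beq (t1680_pd.cls i) (t1680_pd.cls 1)) 1782 11 0 = 1365 := by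
  decide +kernel

private theorem main : Hs.index = 1782 ∧ ∃ q₁ q₂ : Suz ⧸ Hs,
    (MulAction.orbit Hs q₁).ncard = 416 ∧ (MulAction.orbit Hs q₂).ncard = 1365 := by
  have hidx : Hs.index = 1782 := tc_index hyp
  obtain ⟨E, hE, hlt, hsurj, horb⟩ := tc_orbits hyp t1680_roots horbOK
  obtain ⟨q1, hq1⟩ := hsurj 47 (by decide)
  obtain ⟨q2, hq2⟩ := hsurj 1 (by decide)
  refine ⟨hidx, q1, q2, ?_, ?_⟩
  · rw [orbit_ncard_eq (fun _ _ => rfl) t1680_pd.cls 1782 E hE hlt hsurj horb q1 11 (by decide),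
      hq1]
    exact cnt1
  · rw [orbit_ncard_eq (fun _ _ => rfl) t1680_pd.cls 1782 E hE hlt hsurj horb q2 11 (by decide),
      hq2]
    exact cnt2

/-- In the presented sporadic Suzuki group, let H be the subgroup generated by the images of a, …, f. Then H has index 1782, H has orbits of sizes 416 and 1365 on the cosets of H other than H itself (with the index 1782 this makes the action rank 3). -/
theorem result : (((Subgroup.closure ({Cfsg.Spor.Suz.a, Cfsg.Spor.Suz.b, Cfsg.Spor.Suz.c, Cfsg.Spor.Suz.d, Cfsg.Spor.Suz.e, Cfsg.Spor.Suz.f} : Set (FreeGroup Cfsg.Spor.Suz.Gen))).map (PresentedGroup.mk (Cfsg.Spor.coxRelators Cfsg.Spor.Suz.edges ∪ {r | r ∈ Cfsg.Spor.Suz.extra})))).index = 1782 ∧ ∃ q₁ q₂ : Cfsg.Spor.Suz ⧸ (((Subgroup.closure ({Cfsg.Spor.Suz.a, Cfsg.Spor.Suz.b, Cfsg.Spor.Suz.c, Cfsg.Spor.Suz.d, Cfsg.Spor.Suz.e, Cfsg.Spor.Suz.f} : Set (FreeGroup Cfsg.Spor.Suz.Gen))).map (PresentedGroup.mk (Cfsg.Spor.coxRelators Cfsg.Spor.Suz.edges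 ∪ {r | r ∈ Cfsg.Spor.Suz.extra})))), (MulAction.orbit (((Subgroup.closure ({Cfsg.Spor.Suz.a, Cfsg.Spor.Suz.b, Cfsg.Spor.Suz.c, Cfsg.Spor.Suz.d, Cfsg.Spor.Suz.e, Cfsg.Spor.Suz.f} : Set (FreeGroup Cfsg.Spor.Suz.Gen))).map (PresentedGroup.mk (Cfsg.Spor.coxRelators Cfsg.Spor.Suz.edges ∪ {r | r ∈ Cfsg.Spor.Suz.extra})))) q₁).ncard = 416 ∧ (MulAction.orbit (((Subgroup.closure ({Cfsg.Spor.Suz.a, Cfsg.Spor.Suz.b, Cfsg.Spor.Suz.c, Cfsg.Spor.Suz.d, Cfsg.Spor.Suz.e, Cfsg.Spor.Suz.f} : Set (FreeGroup Cfsg.Spor.Suz.Gen))).map (PresentedGroup.mk (Cfsg.Spor.coxRelators Cfsg.Spor.Suz.edges ∪ {r | r ∈ Cfsg.Spor.Suz.extra})))) q₂).ncard = 1365 := by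
  exact main

end Cfsg.Agent.S1680
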