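import Cfsg.Statements.S1681
import Cfsg.Agent.H35.T1681.PAll
import Cfsg.Agent.H35.T1681.RAll

set_option autoImplicit false
set_option maxRecDepth 100000
open Cfsg

namespace Cfsg.Agent.S1681

open Cfsg.Agent.H35 Cfsg.Spor

/-- the subgroup of the statement -/
private abbrev Hs : Subgroup Suz :=
  (Subgroup.closure ({Suz.a, Suz.b, Suz.c, Suz.d, Suz.f, Suz.g} : Set (FreeGroup Suz.Gen))).map
    (PresentedGroup.mk (coxRelators Suz.edges ∪ {r | r ∈ Suz.extra}))

private theorem hHs : Hs = Subgroup.closure {g | ∃ w ∈ t1681_sw, g = uw suz_gen w} := by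
  show Subgroup.map _ (Subgroup.closure _) = Subgroup.closure _
  rw [MonoidHom.map_closure]
  congr 1
  ext g
  simp only [Set.image_insert_eq, Set.image_singleton, Set.mem_insert_iff, Set.mem_singleton_iff,
    t1681_sw_def, List.mem_cons, List.not_mem_nil, or_false, exists_eq_or_imp, exists_eq_left,
    Set.mem_ofPred_eq, uw_eq, List.map, List.prod_cons, List.prod_nil, mul_one, map_mul,
    pow_succ, pow_zero, one_mul, mul_assoc, suz_gen_eq]

private theorem hsw : t1681_rsw = t1681_sw := by decide

private theorem hyp : TCHyp suz_gen Hs t1681_pd t1681_rd suz_rws suz_prels t1681_sw where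
  UP := fun f hf h1 h2 => suz_UP f hf h1 h2
  hP := by
    refine ⟨by decide, suz_gens_all, ?_, t1681_psub⟩
    intro p hp
    exact t1681_pall p hp
  hy := by
    refine ⟨suz_inv, suz_gof_gi, by decide, fun p hp => wrapRow_of_le _ _ p hp, ?_, ?_,
      t1681_h0, by decide⟩
    · exact circTab_valid suz_gen suz_inv _ suz_full_one t1681_circT t1681_ccert t1681_circ_ok
    · refine hcTab_valid suz_gen suz_inv Hs t1681_rsw ?_ t1681_hc1T t1681_hc2T _
        (fun c hc => allR_sound _ _ _ 0 t1681_hc_ok c (Nat.zero_le _) (by omega) hc)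
      intro w hw
      rw [hsw] at hw
      rw [hHs]
      exact Subgroup.subset_closure ⟨w, hw, rfl⟩
  hgensR := suz_gens_all
  hgen := suz_closure
  hN := by decide
  hNM := by decide
  hNN := rfl
  hchk := t1681_rall
  hH := hHs

private theorem main : Hs.index = 22880 := tc_index hyp

/-- In the presented sporadic Suzuki group (generators a, …, g), the subgroup generated by the images of a, b, c, d, f, g has index 22880. -/
theorem result : (((Subgroup.closure ({Cfsg.Spor.Suz.a, Cfsg.Spor.Suz.b, Cfsg.Spor.Suz.c, Cfsg.Spor.Suz.d, Cfsg.Spor.Suz.f, Cfsg.Spor.Suz.g} : Set (FreeGroup Cfsg.Spor.Suz.Gen))).map (PresentedGroup.mk (Cfsg.Spor.coxRelators Cfsg.Spor.Suz.edges ∪ {r | r ∈ Cfsg.Spor.Suz.extra})))).index = 22880 := by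
  exact main

end Cfsg.Agent.S1681
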