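import Cfsg.Statements.S1682
import Cfsg.Agent.H94.HS.Final

set_option autoImplicit false
open Cfsg

namespace Cfsg.Agent.S1682

open Cfsg.Agent.H35 Cfsg.Spor Cfsg.Agent.H10 Cfsg.Agent.H10.HeT Cfsg.Agent.H94.HS

/-- the subgroup of the statement is the subgroup of the coset enumeration -/
theorem hHs : (Subgroup.closure ({He.a, He.c, He.d, He.e, He.f, (He.a * He.b) ^ 2,
    (He.b * He.c * He.d * He.e) ^ 7} : Set (FreeGroup He.Gen))).map
    (PresentedGroup.mk (coxRelators He.edges ∪ {r | r ∈ He.extra})) = Hp := by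
  show Subgroup.map _ (Subgroup.closure _) = Subgroup.closure _
  rw [MonoidHom.map_closure]
  congr 1
  ext g
  simp only [Set.image_insert_eq, Set.image_singleton, Set.mem_insert_iff, Set.mem_singleton_iff,
    t1683_sw_def, List.mem_cons, List.not_mem_nil, or_false, exists_eq_or_imp, exists_eq_left,
    Set.mem_ofPred_eq, uw_eq, List.map, List.prod_cons, List.prod_nil, mul_one, map_mul,
    pow_succ, pow_zero, one_mul, mul_assoc, he_gen_eq]

/-- In the presented Held group, the subgroup H generated by the images of a, c, d, e, f, (ab)^2 and (bcde)^7 has a normal subgroup of index 2 isomorphic to the 4-dimensional symplectic group over a field with four elements. -/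
theorem result : ∃ (N : Subgroup (((Subgroup.closure ({Cfsg.Spor.He.a, Cfsg.Spor.He.c, Cfsg.Spor.He.d, Cfsg.Spor.He.e, Cfsg.Spor.He.f, (Cfsg.Spor.He.a * Cfsg.Spor.He.b) ^ 2, (Cfsg.Spor.He.b * Cfsg.Spor.He.c * Cfsg.Spor.He.d * Cfsg.Spor.He.e) ^ 7} : Set (FreeGroup Cfsg.Spor.He.Gen))).map (PresentedGroup.mk (Cfsg.Spor.coxRelators Cfsg.Spor.He.edges ∪ {r | r ∈ Cfsg.Spor.He.extra}))))) (K : Type) (_ : Field K) (_ : Fintype K), N.Normal ∧ N.index = 2 ∧ Fintype.card K = 4 ∧ Nonempty (N ≃* Matrix.symplecticGroup (Fin 2) K) := by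
  rw [hHs]
  obtain ⟨N, hN, hidx, ⟨f⟩⟩ := he_stab_sp
  refine ⟨N.subgroupOf Hp, F4, inferInstance, inferInstance, ?_, hidx, F4.card_eq,
    ⟨(Subgroup.subgroupOfEquivOfLe hN).trans f⟩⟩
  exact Subgroup.normal_of_index_eq_two hidx

end Cfsg.Agent.S1682
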