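import Cfsg.Statements.S1683
import Cfsg.Agent.H35.T1683.PAll
import Cfsg.Agent.H35.T1683.RAll

set_option autoImplicit false
open Cfsg

namespace Cfsg.Agent.S1683

open Cfsg.Agent.H35 Cfsg.Spor

/-- the subgroup of the statement -/
private abbrev Hs : Subgroup He :=
  (Subgroup.closure ({He.a, He.c, He.d, He.e, He.f, (He.a * He.b) ^ 2, (He.b * He.c * He.d * He.e) ^ 7} : Set (FreeGroup He.Gen))).map
    (PresentedGroup.mk (coxRelators He.edges ∪ {r | r ∈ He.extra}))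

private theorem hHs : Hs = Subgroup.closure {g | ∃ w ∈ t1683_sw, g = uw he_gen w} := by
  show Subgroup.map _ (Subgroup.closure _) = Subgroup.closure _
  rw [MonoidHom.map_closure]
  congr 1
  ext g
  simp only [Set.image_insert_eq, Set.image_singleton, Set.mem_insert_iff, Set.mem_singleton_iff,
    t1683_sw_def, List.mem_cons, List.not_mem_nil, or_false, exists_eq_or_imp, exists_eq_left,
    Set.mem_ofPred_eq, uw_eq, List.map, List.prod_cons, List.prod_nil, mul_one, map_mul,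
    pow_succ, pow_zero, one_mul, mul_assoc, he_gen_eq]

private theorem hsw : t1683_rsw = t1683_sw := by decide

private theorem hyp : TCHyp he_gen Hs t1683_pd t1683_rd he_rws he_prels t1683_sw where
  UP := fun f hf h1 h2 => he_UP f hf h1 h2
  hP := by
    refine ⟨by decide, he_gens_all, ?_, t1683_psub⟩
    intro p hp
    have h : (t1683_pd.ptOK he_rws he_prels p && t1683_pd.orbOK t1683_sw t1683_roots p) = true :=
      t1683_pall p hp
    exact (Bool.and_eq_true_iff.mp h).1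
  hy := by
    refine ⟨he_inv, he_gof_gi, by decide, fun p hp => wrapRow_of_le _ _ p hp, ?_, ?_,
      t1683_h0, by decide⟩
    · exact circTab_valid he_gen he_inv _ he_full_one t1683_circT t1683_ccert t1683_circ_ok
    · refine hcTab_valid he_gen he_inv Hs t1683_rsw ?_ t1683_hc1T t1683_hc2T _
        (fun c hc => allR_sound _ _ _ 0 t1683_hc_ok c (Nat.zero_le _) (by omega) hc)
      intro w hw
      rw [hsw] at hw
      rw [hHs]
      exact Subgroup.subset_closure ⟨w, hw, rfl⟩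
  hgensR := he_gens_all
  hgen := he_closure
  hN := by decide
  hNM := by decide
  hNN := rfl
  hchk := t1683_rall
  hH := hHs

private theorem horbOK : ∀ p, p < t1683_pd.N → t1683_pd.orbOK t1683_sw t1683_roots p = true := by
  intro p hp
  have h : (t1683_pd.ptOK he_rws he_prels p && t1683_pd.orbOK t1683_sw t1683_roots p) = true :=
    t1683_pall p hp
  exact (Bool.and_eq_true_iff.mp h).2

private theorem cnt1 :
    cntR (fun i => Nat.beq (t1683_pd.cls i) (t1683_pd.cls 46)) 2058 12 0 = 136 := by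
  decide +kernel

private theorem cnt2 :
    cntR (fun i => Nat.beq (t1683_pd.cls i) (t1683_pd.cls 65)) 2058 12 0 = 136 := by
  decide +kernel

private theorem cnt3 :
    cntR (fun i => Nat.beq (t1683_pd.cls i) (t1683_pd.cls 2)) 2058 12 0 = 425 := by
  decide +kernel

private theorem cnt4 :
    cntR (fun i => Nat.beq (t1683_pd.cls i) (t1683_pd.cls 1)) 2058 12 0 = 1360 := by
  decide +kernel

private theorem clsne : t1683_pd.cls 65 ≠ t1683_pd.cls 46 := by decide +kernel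

private theorem main : Hs.index = 2058 ∧ ∃ q₁ q₂ q₃ q₄ : He ⧸ Hs,
    MulAction.orbit Hs q₁ ≠ MulAction.orbit Hs q₂ ∧ (MulAction.orbit Hs q₁).ncard = 136 ∧ (MulAction.orbit Hs q₂).ncard = 136 ∧ (MulAction.orbit Hs q₃).ncard = 425 ∧ (MulAction.orbit Hs q₄).ncard = 1360 := by
  have hidx : Hs.index = 2058 := tc_index hyp
  obtain ⟨E, hE, hlt, hsurj, horb⟩ := tc_orbits hyp t1683_roots horbOK
  obtain ⟨q1, hq1⟩ := hsurj 46 (by decide)
  obtain ⟨q2, hq2⟩ := hsurj 65 (by decide)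
  obtain ⟨q3, hq3⟩ := hsurj 2 (by decide)
  obtain ⟨q4, hq4⟩ := hsurj 1 (by decide)
  refine ⟨hidx, q1, q2, q3, q4, ?_, ?_, ?_, ?_, ?_⟩
  · intro heq
    have hmem : q2 ∈ MulAction.orbit Hs q1 := heq ▸ MulAction.mem_orbit_self q2
    obtain ⟨g, hg⟩ := hmem
    have h3 := (horb q1 q2).mp ⟨g.1, g.2, hg⟩
    rw [hq1, hq2] at h3
    exact clsne h3
  · rw [orbit_ncard_eq (fun _ _ => rfl) t1683_pd.cls 2058 E hE hlt hsurj horb q1 12 (by decide),
      hq1]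
    exact cnt1
  · rw [orbit_ncard_eq (fun _ _ => rfl) t1683_pd.cls 2058 E hE hlt hsurj horb q2 12 (by decide),
      hq2]
    exact cnt2
  · rw [orbit_ncard_eq (fun _ _ => rfl) t1683_pd.cls 2058 E hE hlt hsurj horb q3 12 (by decide),
      hq3]
    exact cnt3
  · rw [orbit_ncard_eq (fun _ _ => rfl) t1683_pd.cls 2058 E hE hlt hsurj horb q4 12 (by decide),
      hq4]
    exact cnt4

/-- In the presented Held group, let H be the subgroup generated by the images of a, c, d, e, f, (ab)^2 and (bcde)^7. Then H has index 2058, there are four distinct H-orbits on the cosets of H other than H itself, of sizes 136, 136, 425 and 1360. -/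
theorem result : (((Subgroup.closure ({Cfsg.Spor.He.a, Cfsg.Spor.He.c, Cfsg.Spor.He.d, Cfsg.Spor.He.e, Cfsg.Spor.He.f, (Cfsg.Spor.He.a * Cfsg.Spor.He.b) ^ 2, (Cfsg.Spor.He.b * Cfsg.Spor.He.c * Cfsg.Spor.He.d * Cfsg.Spor.He.e) ^ 7} : Set (FreeGroup Cfsg.Spor.He.Gen))).map (PresentedGroup.mk (Cfsg.Spor.coxRelators Cfsg.Spor.He.edges ∪ {r | r ∈ Cfsg.Spor.He.extra})))).index = 2058 ∧ ∃ q₁ q₂ q₃ q₄ : Cfsg.Spor.He ⧸ (((Subgroup.closure ({Cfsg.Spor.He.a, Cfsg.Spor.He.c, Cfsg.Spor.He.d, Cfsg.Spor.He.e, Cfsg.Spor.He.f, (Cfsg.Spor.He.a * Cfsg.Spor.He.b) ^ 2, (Cfsg.Spor.He.b * Cfsg.Spor.He.c * Cfsg.Spor.He.d * Cfsg.Spor.He.e) ^ 7} : Set (FreeGroup Cfsg.Spor.He.Gen))).map (PresentedGroup.mk (Cfsg.Spor.coxRelators Cfsg.Spor.He.edges ∪ {r | r ∈ Cfsg.Spor.He.extra})))), MulAction.orbit (((Subgroup.closure ({Cfsg.Spor.He.a, Cfsg.Spor.He.c, Cfsg.Spor.He.d, Cfsg.Spor.He.e, Cfsg.Spor.He.f, (Cfsg.Spor.He.a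 * Cfsg.Spor.He.b) ^ 2, (Cfsg.Spor.He.b * Cfsg.Spor.He.c * Cfsg.Spor.He.d * Cfsg.Spor.He.e) ^ 7} : Set (FreeGroup Cfsg.Spor.He.Gen))).map (PresentedGroup.mk (Cfsg.Spor.coxRelators Cfsg.Spor.He.edges ∪ {r | r ∈ Cfsg.Spor.He.extra})))) q₁ ≠ MulAction.orbit (((Subgroup.closure ({Cfsg.Spor.He.a, Cfsg.Spor.He.c, Cfsg.Spor.He.d, Cfsg.Spor.He.e, Cfsg.Spor.He.f, (Cfsg.Spor.He.a * Cfsg.Spor.He.b) ^ 2, (Cfsg.Spor.He.b * Cfsg.Spor.He.c * Cfsg.Spor.He.d * Cfsg.Spor.He.e) ^ 7} : Set (FreeGroup Cfsg.Spor.He.Gen))).map (PresentedGroup.mk (Cfsg.Spor.coxRelators Cfsg.Spor.He.edges ∪ {r | r ∈ Cfsg.Spor.He.extra})))) q₂ ∧ (MulAction.orbit (((Subgroup.closure ({Cfsg.Spor.He.a, Cfsg.Spor.He.c, Cfsg.Spor.He.d, Cfsg.Spor.He.e, Cfsg.Spor.He.f, (Cfsg.Spor.He.a * Cfsg.Spor.He.b) ^ 2, (Cfsg.Spor.He.b * Cfsg.Spor.He.c * Cfsg.Spor.He.d * Cfsg.Spor.He.e) ^ 7} : Set (FreeGroup Cfsg.Spor.He.Gen))).map (PresentedGroup.mk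 (Cfsg.Spor.coxRelators Cfsg.Spor.He.edges ∪ {r | r ∈ Cfsg.Spor.He.extra})))) q₁).ncard = 136 ∧ (MulAction.orbit (((Subgroup.closure ({Cfsg.Spor.He.a, Cfsg.Spor.He.c, Cfsg.Spor.He.d, Cfsg.Spor.He.e, Cfsg.Spor.He.f, (Cfsg.Spor.He.a * Cfsg.Spor.He.b) ^ 2, (Cfsg.Spor.He.b * Cfsg.Spor.He.c * Cfsg.Spor.He.d * Cfsg.Spor.He.e) ^ 7} : Set (FreeGroup Cfsg.Spor.He.Gen))).map (PresentedGroup.mk (Cfsg.Spor.coxRelators Cfsg.Spor.He.edges ∪ {r | r ∈ Cfsg.Spor.He.extra})))) q₂).ncard = 136 ∧ (MulAction.orbit (((Subgroup.closure ({Cfsg.Spor.He.a, Cfsg.Spor.He.c, Cfsg.Spor.He.d, Cfsg.Spor.He.e, Cfsg.Spor.He.f, (Cfsg.Spor.He.a * Cfsg.Spor.He.b) ^ 2, (Cfsg.Spor.He.b * Cfsg.Spor.He.c * Cfsg.Spor.He.d * Cfsg.Spor.He.e) ^ 7} : Set (FreeGroup Cfsg.Spor.He.Gen))).map (PresentedGroup.mk (Cfsg.Spor.coxRelators Cfsg.Spor.He.edges ∪ {r | r ∈ Cfsg.Spor.He.extra})))) q₃).ncard = 425 ∧ (MulAction.orbit (((Subgroup.closure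 ({Cfsg.Spor.He.a, Cfsg.Spor.He.c, Cfsg.Spor.He.d, Cfsg.Spor.He.e, Cfsg.Spor.He.f, (Cfsg.Spor.He.a * Cfsg.Spor.He.b) ^ 2, (Cfsg.Spor.He.b * Cfsg.Spor.He.c * Cfsg.Spor.He.d * Cfsg.Spor.He.e) ^ 7} : Set (FreeGroup Cfsg.Spor.He.Gen))).map (PresentedGroup.mk (Cfsg.Spor.coxRelators Cfsg.Spor.He.edges ∪ {r | r ∈ Cfsg.Spor.He.extra})))) q₄).ncard = 1360 := by
  exact main

end Cfsg.Agent.S1683
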