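import Cfsg.Statements.S1684
import Cfsg.Agent.H10.U6T.Cover

set_option autoImplicit false
open Cfsg

namespace Cfsg.Agent.S1684

/-- In the presented Fischer group Fi₂₂, the subgroup generated by the images of a, c, d, e, f, g, h, i and (abcdeh)^5 is a non-split double cover of PSU(6, 2) (realised over a field with four elements). -/
theorem result : ∃ (K : Type) (_ : Field K) (_ : Fintype K), Fintype.card K = 4 ∧ Cfsg.IsNonsplitDoubleCover (((Subgroup.closure ({Cfsg.Spor.Fi22.a, Cfsg.Spor.Fi22.c, Cfsg.Spor.Fi22.d, Cfsg.Spor.Fi22.e, Cfsg.Spor.Fi22.f, Cfsg.Spor.Fi22.g, Cfsg.Spor.Fi22.h, Cfsg.Spor.Fi22.i, (Cfsg.Spor.Fi22.a * Cfsg.Spor.Fi22.b * Cfsg.Spor.Fi22.c * Cfsg.Spor.Fi22.d * Cfsg.Spor.Fi22.e * Cfsg.Spor.Fi22.h) ^ 5} : Set (FreeGroup Cfsg.Spor.Fi22.Gen))).map (PresentedGroup.mk (Cfsg.Spor.coxRelators Cfsg.Spor.Fi22.edges ∪ {r | r ∈ Cfsg.Spor.Fi22.extra}))))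 (Cfsg.PSU 6 K 2) := by
  refine ⟨Cfsg.Agent.H98.GF4, inferInstance, inferInstance, Cfsg.Agent.H98.GF4.card_eq, ?_⟩
  have hHs : (Subgroup.closure ({Cfsg.Spor.Fi22.a, Cfsg.Spor.Fi22.c, Cfsg.Spor.Fi22.d, Cfsg.Spor.Fi22.e, Cfsg.Spor.Fi22.f, Cfsg.Spor.Fi22.g, Cfsg.Spor.Fi22.h, Cfsg.Spor.Fi22.i, (Cfsg.Spor.Fi22.a * Cfsg.Spor.Fi22.b * Cfsg.Spor.Fi22.c * Cfsg.Spor.Fi22.d * Cfsg.Spor.Fi22.e * Cfsg.Spor.Fi22.h) ^ 5} : Set (FreeGroup Cfsg.Spor.Fi22.Gen))).map (PresentedGroup.mk (Cfsg.Spor.coxRelators Cfsg.Spor.Fi22.edges ∪ {r | r ∈ Cfsg.Spor.Fi22.extra})) = Cfsg.Agent.H10.U6T.Ks := by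
    show Subgroup.map _ (Subgroup.closure _) = Subgroup.closure _
    rw [MonoidHom.map_closure]
    congr 1
    ext g
    simp only [Set.image_insert_eq, Set.image_singleton, Set.mem_insert_iff, Set.mem_singleton_iff,
      Cfsg.Agent.H35.t1687_sw_def, List.mem_cons, List.not_mem_nil, or_false, exists_eq_or_imp, exists_eq_left,
      Set.mem_ofPred_eq, Cfsg.Agent.H35.uw_eq, List.map, List.prod_cons, List.prod_nil, mul_one, map_mul,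
      pow_succ, pow_zero, one_mul, mul_assoc, Cfsg.Agent.H35.fi22_gen_eq]
  rw [hHs]
  exact Cfsg.Agent.H10.U6T.u6_main

end Cfsg.Agent.S1684
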