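import Cfsg.Statements.S1685
import Cfsg.Agent.H35.T1685.PAll
import Cfsg.Agent.H35.T1685.RAll

set_option autoImplicit false
open Cfsg

namespace Cfsg.Agent.S1685

open Cfsg.Agent.H35 Cfsg.Spor

/-- the subgroup of the statement -/
private abbrev Hs : Subgroup Fi22 :=
  (Subgroup.closure ({Fi22.b, Fi22.c, Fi22.d, Fi22.e, Fi22.f, Fi22.g, Fi22.h, Fi22.i} : Set (FreeGroup Fi22.Gen))).map
    (PresentedGroup.mk (coxRelators Fi22.edges ∪ {r | r ∈ Fi22.extra}))

private theorem hHs : Hs = Subgroup.closure {g | ∃ w ∈ t1685_sw, g = uw fi22_gen w} := by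
  show Subgroup.map _ (Subgroup.closure _) = Subgroup.closure _
  rw [MonoidHom.map_closure]
  congr 1
  ext g
  simp only [Set.image_insert_eq, Set.image_singleton, Set.mem_insert_iff, Set.mem_singleton_iff,
    t1685_sw_def, List.mem_cons, List.not_mem_nil, or_false, exists_eq_or_imp, exists_eq_left,
    Set.mem_ofPred_eq, uw_eq, List.map, List.prod_cons, List.prod_nil, mul_one, map_mul,
    pow_succ, pow_zero, one_mul, mul_assoc, fi22_gen_eq]

private theorem hsw : t1685_rsw = t1685_sw := by decide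

private theorem hyp : TCHyp fi22_gen Hs t1685_pd t1685_rd fi22_rws fi22_prels t1685_sw where
  UP := fun f hf h1 h2 => fi22_UP f hf h1 h2
  hP := by
    refine ⟨by decide, fi22_gens_all, ?_, t1685_psub⟩
    intro p hp
    exact t1685_pall p hp
  hy := by
    refine ⟨fi22_inv, fi22_gof_gi, by decide, fun p hp => wrapRow_of_le _ _ p hp, ?_, ?_,
      t1685_h0, by decide⟩
    · exact circTab_valid fi22_gen fi22_inv _ fi22_full_one t1685_circT t1685_ccert t1685_circ_ok
    · refine hcTab_valid fi22_gen fi22_inv Hs t1685_rsw ?_ t1685_hc1T t1685_hc2T _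
        (fun c hc => allR_sound _ _ _ 0 t1685_hc_ok c (Nat.zero_le _) (by omega) hc)
      intro w hw
      rw [hsw] at hw
      rw [hHs]
      exact Subgroup.subset_closure ⟨w, hw, rfl⟩
  hgensR := fi22_gens_all
  hgen := fi22_closure
  hN := by decide
  hNM := by decide
  hNN := rfl
  hchk := t1685_rall
  hH := hHs

private theorem main : Hs.index = 14080 := tc_index hyp

/-- In the presented Fischer group Fi₂₂ (generators a, …, i), the subgroup generated by the images of b, c, d, e, f, g, h, i has index 14080. -/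
theorem result : (((Subgroup.closure ({Cfsg.Spor.Fi22.b, Cfsg.Spor.Fi22.c, Cfsg.Spor.Fi22.d, Cfsg.Spor.Fi22.e, Cfsg.Spor.Fi22.f, Cfsg.Spor.Fi22.g, Cfsg.Spor.Fi22.h, Cfsg.Spor.Fi22.i} : Set (FreeGroup Cfsg.Spor.Fi22.Gen))).map (PresentedGroup.mk (Cfsg.Spor.coxRelators Cfsg.Spor.Fi22.edges ∪ {r | r ∈ Cfsg.Spor.Fi22.extra})))).index = 14080 := by
  exact main

end Cfsg.Agent.S1685
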