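import Cfsg.Statements.S1686
import Cfsg.Agent.H10.O7T.Main

set_option autoImplicit false
open Cfsg

namespace Cfsg.Agent.S1686

/-- In the presented Fischer group Fi₂₂, the subgroup generated by the images of b, …, i is isomorphic to PΩ(7, 3), the commutator subgroup of the isometry group of the quadratic form x₀² + x₁y₁ + x₂y₂ + x₃y₃ over the integers mod 3, modulo its centre. -/
theorem result : Nonempty ((((Subgroup.closure ({Cfsg.Spor.Fi22.b, Cfsg.Spor.Fi22.c, Cfsg.Spor.Fi22.d, Cfsg.Spor.Fi22.e, Cfsg.Spor.Fi22.f, Cfsg.Spor.Fi22.g, Cfsg.Spor.Fi22.h, Cfsg.Spor.Fi22.i} : Set (FreeGroup Cfsg.Spor.Fi22.Gen))).map (PresentedGroup.mk (Cfsg.Spor.coxRelators Cfsg.Spor.Fi22.edges ∪ {r | r ∈ Cfsg.Spor.Fi22.extra})))) ≃* Cfsg.POmega (ZMod 3) (Cfsg.quadFormOdd 3 (ZMod 3))) := by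
  have hHs : (Subgroup.closure ({Cfsg.Spor.Fi22.b, Cfsg.Spor.Fi22.c, Cfsg.Spor.Fi22.d, Cfsg.Spor.Fi22.e, Cfsg.Spor.Fi22.f, Cfsg.Spor.Fi22.g, Cfsg.Spor.Fi22.h, Cfsg.Spor.Fi22.i} : Set (FreeGroup Cfsg.Spor.Fi22.Gen))).map (PresentedGroup.mk (Cfsg.Spor.coxRelators Cfsg.Spor.Fi22.edges ∪ {r | r ∈ Cfsg.Spor.Fi22.extra})) = Cfsg.Agent.H10.O7T.Ho := by
    show Subgroup.map _ (Subgroup.closure _) = Subgroup.closure _
    rw [MonoidHom.map_closure]
    congr 1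
    ext g
    simp only [Set.image_insert_eq, Set.image_singleton, Set.mem_insert_iff, Set.mem_singleton_iff,
      Cfsg.Agent.H35.t1685_sw_def, List.mem_cons, List.not_mem_nil, or_false, exists_eq_or_imp, exists_eq_left,
      Set.mem_ofPred_eq, Cfsg.Agent.H35.uw_eq, List.map, List.prod_cons, List.prod_nil, mul_one, map_mul,
      pow_succ, pow_zero, one_mul, mul_assoc, Cfsg.Agent.H35.fi22_gen_eq]
  rw [hHs, ← Cfsg.Agent.H7.qOdd_coe]
  exact Cfsg.Agent.H10.O7T.o7_main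

end Cfsg.Agent.S1686
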