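import Cfsg.Statements.S1687
import Cfsg.Agent.H35.T1687.PAll
import Cfsg.Agent.H35.T1687.RAll

set_option autoImplicit false
open Cfsg

namespace Cfsg.Agent.S1687

open Cfsg.Agent.H35 Cfsg.Spor

/-- the subgroup of the statement -/
private abbrev Hs : Subgroup Fi22 :=
  (Subgroup.closure ({Fi22.a, Fi22.c, Fi22.d, Fi22.e, Fi22.f, Fi22.g, Fi22.h, Fi22.i, (Fi22.a * Fi22.b * Fi22.c * Fi22.d * Fi22.e * Fi22.h) ^ 5} : Set (FreeGroup Fi22.Gen))).map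
    (PresentedGroup.mk (coxRelators Fi22.edges ∪ {r | r ∈ Fi22.extra}))

private theorem hHs : Hs = Subgroup.closure {g | ∃ w ∈ t1687_sw, g = uw fi22_gen w} := by
  show Subgroup.map _ (Subgroup.closure _) = Subgroup.closure _
  rw [MonoidHom.map_closure]
  congr 1
  ext g
  simp only [Set.image_insert_eq, Set.image_singleton, Set.mem_insert_iff, Set.mem_singleton_iff,
    t1687_sw_def, List.mem_cons, List.not_mem_nil, or_false, exists_eq_or_imp, exists_eq_left,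
    Set.mem_ofPred_eq, uw_eq, List.map, List.prod_cons, List.prod_nil, mul_one, map_mul,
    pow_succ, pow_zero, one_mul, mul_assoc, fi22_gen_eq]

private theorem hsw : t1687_rsw = t1687_sw := by decide

private theorem hyp : TCHyp fi22_gen Hs t1687_pd t1687_rd fi22_rws fi22_prels t1687_sw where
  UP := fun f hf h1 h2 => fi22_UP f hf h1 h2
  hP := by
    refine ⟨by decide, fi22_gens_all, ?_, t1687_psub⟩
    intro p hp
    have h : (t1687_pd.ptOK fi22_rws fi22_prels p && t1687_pd.orbOK t1687_sw t1687_roots p) = true :=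
      t1687_pall p hp
    exact (Bool.and_eq_true_iff.mp h).1
  hy := by
    refine ⟨fi22_inv, fi22_gof_gi, by decide, fun p hp => wrapRow_of_le _ _ p hp, ?_, ?_,
      t1687_h0, by decide⟩
    · exact circTab_valid fi22_gen fi22_inv _ fi22_full_one t1687_circT t1687_ccert t1687_circ_ok
    · refine hcTab_valid fi22_gen fi22_inv Hs t1687_rsw ?_ t1687_hc1T t1687_hc2T _
        (fun c hc => allR_sound _ _ _ 0 t1687_hc_ok c (Nat.zero_le _) (by omega) hc)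
      intro w hw
      rw [hsw] at hw
      rw [hHs]
      exact Subgroup.subset_closure ⟨w, hw, rfl⟩
  hgensR := fi22_gens_all
  hgen := fi22_closure
  hN := by decide
  hNM := by decide
  hNN := rfl
  hchk := t1687_rall
  hH := hHs

private theorem horbOK : ∀ p, p < t1687_pd.N → t1687_pd.orbOK t1687_sw t1687_roots p = true := by
  intro p hp
  have h : (t1687_pd.ptOK fi22_rws fi22_prels p && t1687_pd.orbOK t1687_sw t1687_roots p) = true :=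
    t1687_pall p hp
  exact (Bool.and_eq_true_iff.mp h).2

private theorem cnt1 :
    cntR (fun i => Nat.beq (t1687_pd.cls i) (t1687_pd.cls 6)) 3510 12 0 = 693 := by
  decide +kernel

private theorem cnt2 :
    cntR (fun i => Nat.beq (t1687_pd.cls i) (t1687_pd.cls 1)) 3510 12 0 = 2816 := by
  decide +kernel

private theorem main : Hs.index = 3510 ∧ ∃ q₁ q₂ : Fi22 ⧸ Hs,
    (MulAction.orbit Hs q₁).ncard = 693 ∧ (MulAction.orbit Hs q₂).ncard = 2816 := by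
  have hidx : Hs.index = 3510 := tc_index hyp
  obtain ⟨E, hE, hlt, hsurj, horb⟩ := tc_orbits hyp t1687_roots horbOK
  obtain ⟨q1, hq1⟩ := hsurj 6 (by decide)
  obtain ⟨q2, hq2⟩ := hsurj 1 (by decide)
  refine ⟨hidx, q1, q2, ?_, ?_⟩
  · rw [orbit_ncard_eq (fun _ _ => rfl) t1687_pd.cls 3510 E hE hlt hsurj horb q1 12 (by decide),
      hq1]
    exact cnt1
  · rw [orbit_ncard_eq (fun _ _ => rfl) t1687_pd.cls 3510 E hE hlt hsurj horb q2 12 (by decide),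
      hq2]
    exact cnt2

/-- In the presented Fischer group Fi₂₂, let H be the subgroup generated by the images of a, c, d, e, f, g, h, i and (abcdeh)^5. Then H has index 3510, H has orbits of sizes 693 and 2816 on the cosets of H other than H itself. -/
theorem result : (((Subgroup.closure ({Cfsg.Spor.Fi22.a, Cfsg.Spor.Fi22.c, Cfsg.Spor.Fi22.d, Cfsg.Spor.Fi22.e, Cfsg.Spor.Fi22.f, Cfsg.Spor.Fi22.g, Cfsg.Spor.Fi22.h, Cfsg.Spor.Fi22.i, (Cfsg.Spor.Fi22.a * Cfsg.Spor.Fi22.b * Cfsg.Spor.Fi22.c * Cfsg.Spor.Fi22.d * Cfsg.Spor.Fi22.e * Cfsg.Spor.Fi22.h) ^ 5} : Set (FreeGroup Cfsg.Spor.Fi22.Gen))).map (PresentedGroup.mk (Cfsg.Spor.coxRelators Cfsg.Spor.Fi22.edges ∪ {r | r ∈ Cfsg.Spor.Fi22.extra})))).index = 3510 ∧ ∃ q₁ q₂ : Cfsg.Spor.Fi22 ⧸ (((Subgroup.closure ({Cfsg.Spor.Fi22.a, Cfsg.Spor.Fi22.c, Cfsg.Spor.Fi22.d, Cfsg.Spor.Fi22.e, Cfsg.Spor.Fi22.f, Cfsg.Spor.Fi22.g, Cfsg.Spor.Fi22.h,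 Cfsg.Spor.Fi22.i, (Cfsg.Spor.Fi22.a * Cfsg.Spor.Fi22.b * Cfsg.Spor.Fi22.c * Cfsg.Spor.Fi22.d * Cfsg.Spor.Fi22.e * Cfsg.Spor.Fi22.h) ^ 5} : Set (FreeGroup Cfsg.Spor.Fi22.Gen))).map (PresentedGroup.mk (Cfsg.Spor.coxRelators Cfsg.Spor.Fi22.edges ∪ {r | r ∈ Cfsg.Spor.Fi22.extra})))), (MulAction.orbit (((Subgroup.closure ({Cfsg.Spor.Fi22.a, Cfsg.Spor.Fi22.c, Cfsg.Spor.Fi22.d, Cfsg.Spor.Fi22.e, Cfsg.Spor.Fi22.f, Cfsg.Spor.Fi22.g, Cfsg.Spor.Fi22.h, Cfsg.Spor.Fi22.i, (Cfsg.Spor.Fi22.a * Cfsg.Spor.Fi22.b * Cfsg.Spor.Fi22.c * Cfsg.Spor.Fi22.d * Cfsg.Spor.Fi22.e * Cfsg.Spor.Fi22.h) ^ 5} : Set (FreeGroup Cfsg.Spor.Fi22.Gen))).map (PresentedGroup.mk (Cfsg.Spor.coxRelators Cfsg.Spor.Fi22.edges ∪ {r | r ∈ Cfsg.Spor.Fi22.extra})))) q₁).ncard = 693 ∧ (MulAction.orbit (((Subgroup.closure ({Cfsg.Spor.Fi22.a, Cfsg.Spor.Fi22.c, Cfsg.Spor.Fi22.d, Cfsg.Spor.Fi22.e, Cfsg.Spor.Fi22.f, Cfsg.Spor.Fi22.g,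 Cfsg.Spor.Fi22.h, Cfsg.Spor.Fi22.i, (Cfsg.Spor.Fi22.a * Cfsg.Spor.Fi22.b * Cfsg.Spor.Fi22.c * Cfsg.Spor.Fi22.d * Cfsg.Spor.Fi22.e * Cfsg.Spor.Fi22.h) ^ 5} : Set (FreeGroup Cfsg.Spor.Fi22.Gen))).map (PresentedGroup.mk (Cfsg.Spor.coxRelators Cfsg.Spor.Fi22.edges ∪ {r | r ∈ Cfsg.Spor.Fi22.extra})))) q₂).ncard = 2816 := by
  exact main

end Cfsg.Agent.S1687
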