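import Cfsg.Statements.S1689
import Cfsg.Agent.H35.T1689.PAll
import Cfsg.Agent.H35.T1689.RAll

set_option autoImplicit false
set_option maxRecDepth 100000
open Cfsg

namespace Cfsg.Agent.S1689

open Cfsg.Agent.H35 Cfsg.Spor

/-- the subgroup of the statement -/
private abbrev Hs : Subgroup Fi23 :=
  (Subgroup.closure ({Fi23.a, Fi23.b, Fi23.c, Fi23.d, Fi23.e, Fi23.f, Fi23.g, Fi23.h, Fi23.i} : Set (FreeGroup Fi23.Gen))).map
    (PresentedGroup.mk (coxRelators Fi23.edges ∪ {r | r ∈ Fi23.extra}))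

private theorem hHs : Hs = Subgroup.closure {g | ∃ w ∈ t1689_sw, g = uw fi23_gen w} := by
  show Subgroup.map _ (Subgroup.closure _) = Subgroup.closure _
  rw [MonoidHom.map_closure]
  congr 1
  ext g
  simp only [Set.image_insert_eq, Set.image_singleton, Set.mem_insert_iff, Set.mem_singleton_iff,
    t1689_sw_def, List.mem_cons, List.not_mem_nil, or_false, exists_eq_or_imp, exists_eq_left,
    Set.mem_ofPred_eq, uw_eq, List.map, List.prod_cons, List.prod_nil, mul_one, map_mul,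
    pow_succ, pow_zero, one_mul, mul_assoc, fi23_gen_eq]

private theorem hsw : t1689_rsw = t1689_sw := by decide

private theorem hyp : TCHyp fi23_gen Hs t1689_pd t1689_rd fi23_rws fi23_prels t1689_sw where
  UP := fun f hf h1 h2 => fi23_UP f hf h1 h2
  hP := by
    refine ⟨by decide, fi23_gens_all, ?_, t1689_psub⟩
    intro p hp
    have h : (t1689_pd.ptOK fi23_rws fi23_prels p && t1689_pd.orbOK t1689_sw t1689_roots p) = true :=
      t1689_pall p hp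
    exact (Bool.and_eq_true_iff.mp h).1
  hy := by
    refine ⟨fi23_inv, fi23_gof_gi, by decide, fun p hp => wrapRow_of_le _ _ p hp, ?_, ?_,
      t1689_h0, by decide⟩
    · exact circTab_valid fi23_gen fi23_inv _ fi23_full_one t1689_circT t1689_ccert t1689_circ_ok
    · refine hcTab_valid fi23_gen fi23_inv Hs t1689_rsw ?_ t1689_hc1T t1689_hc2T _
        (fun c hc => allR_sound _ _ _ 0 t1689_hc_ok c (Nat.zero_le _) (by omega) hc)
      intro w hw
      rw [hsw] at hw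
      rw [hHs]
      exact Subgroup.subset_closure ⟨w, hw, rfl⟩
  hgensR := fi23_gens_all
  hgen := fi23_closure
  hN := by decide
  hNM := by decide
  hNN := rfl
  hchk := t1689_rall
  hH := hHs

private theorem horbOK : ∀ p, p < t1689_pd.N → t1689_pd.orbOK t1689_sw t1689_roots p = true := by
  intro p hp
  have h : (t1689_pd.ptOK fi23_rws fi23_prels p && t1689_pd.orbOK t1689_sw t1689_roots p) = true :=
    t1689_pall p hp
  exact (Bool.and_eq_true_iff.mp h).2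

private theorem cnt1 :
    cntR (fun i => Nat.beq (t1689_pd.cls i) (t1689_pd.cls 52)) 31671 15 0 = 3510 := by
  decide +kernel

private theorem cnt2 :
    cntR (fun i => Nat.beq (t1689_pd.cls i) (t1689_pd.cls 1)) 31671 15 0 = 28160 := by
  decide +kernel

private theorem main : Hs.index = 31671 ∧ ∃ q₁ q₂ : Fi23 ⧸ Hs,
    (MulAction.orbit Hs q₁).ncard = 3510 ∧ (MulAction.orbit Hs q₂).ncard = 28160 := by
  have hidx : Hs.index = 31671 := tc_index hyp
  obtain ⟨E, hE, hlt, hsurj, horb⟩ := tc_orbits hyp t1689_roots horbOK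
  obtain ⟨q1, hq1⟩ := hsurj 52 (by decide)
  obtain ⟨q2, hq2⟩ := hsurj 1 (by decide)
  refine ⟨hidx, q1, q2, ?_, ?_⟩
  · rw [orbit_ncard_eq (fun _ _ => rfl) t1689_pd.cls 31671 E hE hlt hsurj horb q1 15 (by decide),
      hq1]
    exact cnt1
  · rw [orbit_ncard_eq (fun _ _ => rfl) t1689_pd.cls 31671 E hE hlt hsurj horb q2 15 (by decide),
      hq2]
    exact cnt2

/-- In the presented Fischer group Fi₂₃, let H be the subgroup generated by the images of a, …, i. Then H has index 31671, H has orbits of sizes 3510 and 28160 on the cosets of H other than H itself. -/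
theorem result : (((Subgroup.closure ({Cfsg.Spor.Fi23.a, Cfsg.Spor.Fi23.b, Cfsg.Spor.Fi23.c, Cfsg.Spor.Fi23.d, Cfsg.Spor.Fi23.e, Cfsg.Spor.Fi23.f, Cfsg.Spor.Fi23.g, Cfsg.Spor.Fi23.h, Cfsg.Spor.Fi23.i} : Set (FreeGroup Cfsg.Spor.Fi23.Gen))).map (PresentedGroup.mk (Cfsg.Spor.coxRelators Cfsg.Spor.Fi23.edges ∪ {r | r ∈ Cfsg.Spor.Fi23.extra})))).index = 31671 ∧ ∃ q₁ q₂ : Cfsg.Spor.Fi23 ⧸ (((Subgroup.closure ({Cfsg.Spor.Fi23.a, Cfsg.Spor.Fi23.b, Cfsg.Spor.Fi23.c, Cfsg.Spor.Fi23.d, Cfsg.Spor.Fi23.e, Cfsg.Spor.Fi23.f, Cfsg.Spor.Fi23.g, Cfsg.Spor.Fi23.h, Cfsg.Spor.Fi23.i} : Set (FreeGroup Cfsg.Spor.Fi23.Gen))).map (PresentedGroup.mk (Cfsg.Spor.coxRelators Cfsg.Spor.Fi23.edges ∪ {r | r ∈ Cfsg.Spor.Fi23.extra})))), (MulAction.orbit (((Subgroup.closure ({Cfsg.Spor.Fi23.a, Cfsg.Spor.Fi23.b, Cfsg.Spor.Fi23.c, Cfsg.Spor.Fi23.d, Cfsg.Spor.Fi23.e, Cfsg.Spor.Fi23.f, Cfsg.Spor.Fi23.g, Cfsg.Spor.Fi23.h, Cfsg.Spor.Fi23.i}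 : Set (FreeGroup Cfsg.Spor.Fi23.Gen))).map (PresentedGroup.mk (Cfsg.Spor.coxRelators Cfsg.Spor.Fi23.edges ∪ {r | r ∈ Cfsg.Spor.Fi23.extra})))) q₁).ncard = 3510 ∧ (MulAction.orbit (((Subgroup.closure ({Cfsg.Spor.Fi23.a, Cfsg.Spor.Fi23.b, Cfsg.Spor.Fi23.c, Cfsg.Spor.Fi23.d, Cfsg.Spor.Fi23.e, Cfsg.Spor.Fi23.f, Cfsg.Spor.Fi23.g, Cfsg.Spor.Fi23.h, Cfsg.Spor.Fi23.i} : Set (FreeGroup Cfsg.Spor.Fi23.Gen))).map (PresentedGroup.mk (Cfsg.Spor.coxRelators Cfsg.Spor.Fi23.edges ∪ {r | r ∈ Cfsg.Spor.Fi23.extra})))) q₂).ncard = 28160 := by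
  exact main

end Cfsg.Agent.S1689
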