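import Cfsg.Statements.S1690
import Cfsg.Agent.H35.T1690.PAll
import Cfsg.Agent.H35.T1690.RAll

set_option autoImplicit false
set_option maxRecDepth 100000
open Cfsg

namespace Cfsg.Agent.S1690

open Cfsg.Agent.H35 Cfsg.Spor

/-- the subgroup of the statement -/
private abbrev Hs : Subgroup Fi24 :=
  (Subgroup.closure ({Fi24.a, Fi24.b, Fi24.c, Fi24.d, Fi24.e, Fi24.f, Fi24.g, Fi24.h, Fi24.i, Fi24.j, Fi24.l} : Set (FreeGroup Fi24.Gen))).map
    (PresentedGroup.mk (coxRelators Fi24.edges ∪ {r | r ∈ Fi24.extra}))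

private theorem hHs : Hs = Subgroup.closure {g | ∃ w ∈ t1690_sw, g = uw fi24_gen w} := by
  show Subgroup.map _ (Subgroup.closure _) = Subgroup.closure _
  rw [MonoidHom.map_closure]
  congr 1
  ext g
  simp only [Set.image_insert_eq, Set.image_singleton, Set.mem_insert_iff, Set.mem_singleton_iff,
    t1690_sw_def, List.mem_cons, List.not_mem_nil, or_false, exists_eq_or_imp, exists_eq_left,
    Set.mem_ofPred_eq, uw_eq, List.map, List.prod_cons, List.prod_nil, mul_one, map_mul,
    pow_succ, pow_zero, one_mul, mul_assoc, fi24_gen_eq]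

private theorem hsw : t1690_rsw = t1690_sw := by decide

private theorem hyp : W.TCHyp fi24_gen Hs t1690_pd t1690_rd fi24_prws fi24_pprels t1690_sw where
  UP := fun f hf h1 h2 => fi24_UPp f hf h1 h2
  hP := by
    refine ⟨by decide, fi24_gens_all, ?_, t1690_psub⟩
    intro p hp
    exact t1690_pall p hp
  hy := by
    refine ⟨fi24_inv, fi24_gof_gi, by decide, fun p hp => wrapRow_of_le _ _ p hp, ?_, ?_,
      t1690_h0, by decide⟩
    · exact circTab_valid fi24_gen fi24_inv _ fi24_full_one t1690_circT t1690_ccert t1690_circ_ok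
    · refine hcTab_valid fi24_gen fi24_inv Hs t1690_rsw ?_ t1690_hc1T t1690_hc2T _
        (fun c hc => allR_sound _ _ _ 0 t1690_hc_ok c (Nat.zero_le _) (by omega) hc)
      intro w hw
      rw [hsw] at hw
      rw [hHs]
      exact Subgroup.subset_closure ⟨w, hw, rfl⟩
  hgensR := fi24_gens_all
  hgen := fi24_closure
  hN := by decide
  hNM := by decide
  hNN := rfl
  hchk := t1690_rall
  hH := hHs

private theorem main : Hs.index = 306936 := W.tc_index hyp

/-- In the presented group Fi₂₄ = Fi₂₄′:2, the subgroup generated by the images of a, b, c, d, e, f, g, h, i, j and l (every generator but k) has index 306936. -/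
theorem result : (((Subgroup.closure ({Cfsg.Spor.Fi24.a, Cfsg.Spor.Fi24.b, Cfsg.Spor.Fi24.c, Cfsg.Spor.Fi24.d, Cfsg.Spor.Fi24.e, Cfsg.Spor.Fi24.f, Cfsg.Spor.Fi24.g, Cfsg.Spor.Fi24.h, Cfsg.Spor.Fi24.i, Cfsg.Spor.Fi24.j, Cfsg.Spor.Fi24.l} : Set (FreeGroup Cfsg.Spor.Fi24.Gen))).map (PresentedGroup.mk (Cfsg.Spor.coxRelators Cfsg.Spor.Fi24.edges ∪ {r | r ∈ Cfsg.Spor.Fi24.extra})))).index = 306936 := by
  exact main

end Cfsg.Agent.S1690
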