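import Cfsg.Statements.S1691

set_option autoImplicit false
open Cfsg

namespace Cfsg.Agent.S1691

open Cfsg.Spor Cfsg.Spor.Fi24

/-- The relator set of the presented group. -/
private abbrev rels : Set (FreeGroup Gen) := coxRelators edges ∪ {r | r ∈ extra}

/-- The sign map on generators. -/
private def sgnGen : Gen → Multiplicative (ZMod 2) := fun _ => Multiplicative.ofAdd 1

private theorem lift_sq (w : FreeGroup Gen) : (FreeGroup.lift sgnGen w) ^ 2 = 1 := by
  generalize FreeGroup.lift sgnGen w = z
  revert z
  decide

private theorem lift_of (x : Gen) : FreeGroup.lift sgnGen (FreeGroup.of x) = Multiplicative.ofAdd 1 := by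
  simp [sgnGen]

private theorem sgn_rel : ∀ r ∈ rels, FreeGroup.lift sgnGen r = 1 := by
  intro r hr
  rcases hr with hr | hr
  · obtain ⟨x, _, y, _, rfl⟩ := hr
    rw [map_pow, map_mul, lift_of, lift_of]
    have : (Multiplicative.ofAdd (1 : ZMod 2) * Multiplicative.ofAdd (1 : ZMod 2)) = 1 := by decide
    rw [this, one_pow]
  · simp only [extra, List.mem_cons, List.mem_nil_iff, or_false, Set.mem_ofPred_eq] at hr
    rcases hr with rfl | rfl
    · simp only [map_mul, map_inv, map_pow, lift_of]
      decide
    · simp only [map_mul, map_pow, lift_of]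
      decide

/-- The sign homomorphism. -/
private def sgn : Fi24 →* Multiplicative (ZMod 2) := PresentedGroup.toGroup sgn_rel

private theorem sgn_of (x : Gen) : sgn (PresentedGroup.of x) = Multiplicative.ofAdd 1 := by
  simp [sgn, PresentedGroup.toGroup.of, sgnGen]

/-- image of a generator in the abelianization -/
private def ab (x : Gen) : Abelianization Fi24 := Abelianization.of (PresentedGroup.of x)

private theorem cox_rel (x y : Gen) (hx : x ∈ coxNodes edges) (hy : y ∈ coxNodes edges) :
    ((PresentedGroup.of x : Fi24) * PresentedGroup.of y) ^ coxLabel edges x y = 1 := by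
  have h : (FreeGroup.of x * FreeGroup.of y) ^ coxLabel edges x y ∈ rels :=
    Or.inl ⟨x, hx, y, hy, rfl⟩
  have := PresentedGroup.one_of_mem h
  simpa [PresentedGroup.of] using this

private theorem ab_sq (x : Gen) : ab x * ab x = 1 := by
  have hx : x ∈ coxNodes edges := by cases x <;> decide
  have h := cox_rel x x hx hx
  have h1 : coxLabel edges x x = 1 := by simp [coxLabel]
  rw [h1, pow_one] at h
  have := congrArg (Abelianization.of (G := Fi24)) h
  simpa [ab] using this

private theorem ab_edge (x y : Gen) (h3 : coxLabel edges x y = 3) : ab x = ab y := by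
  have hx : x ∈ coxNodes edges := by cases x <;> decide
  have hy : y ∈ coxNodes edges := by cases y <;> decide
  have h := cox_rel x y hx hy
  rw [h3] at h
  have h' := congrArg (Abelianization.of (G := Fi24)) h
  simp only [map_pow, map_mul, map_one] at h'
  change (ab x * ab y) ^ 3 = 1 at h'
  have hxx := ab_sq x
  have hyy := ab_sq y
  have e1 : (ab x * ab y) ^ 3 = (ab x * ab x) * (ab y * ab y) * (ab x * ab y) := by
    rw [pow_succ, pow_two]
    simp only [mul_assoc, mul_comm, mul_left_comm]
  rw [e1, hxx, hyy, one_mul, one_mul] at h'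
  -- ab x * ab y = 1 and ab y * ab y = 1
  calc ab x = ab x * (ab y * ab y) := by rw [hyy, mul_one]
    _ = (ab x * ab y) * ab y := by rw [mul_assoc]
    _ = ab y := by rw [h', one_mul]

private theorem ab_all (x : Gen) : ab x = ab Gen.l := by
  have e1 : ab Gen.l = ab Gen.k := ab_edge _ _ (by decide)
  have e2 : ab Gen.k = ab Gen.a := ab_edge _ _ (by decide)
  have e3 : ab Gen.a = ab Gen.b := ab_edge _ _ (by decide)
  have e4 : ab Gen.b = ab Gen.c := ab_edge _ _ (by decide)
  have e5 : ab Gen.c = ab Gen.d := ab_edge _ _ (by decide)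
  have e6 : ab Gen.d = ab Gen.e := ab_edge _ _ (by decide)
  have e7 : ab Gen.d = ab Gen.h := ab_edge _ _ (by decide)
  have e8 : ab Gen.e = ab Gen.f := ab_edge _ _ (by decide)
  have e9 : ab Gen.f = ab Gen.g := ab_edge _ _ (by decide)
  have e10 : ab Gen.g = ab Gen.j := ab_edge _ _ (by decide)
  have e11 : ab Gen.h = ab Gen.i := ab_edge _ _ (by decide)
  cases x
  · rfl
  · exact e1.symm
  · exact (e1.trans e2).symm
  · exact (e1.trans (e2.trans e3)).symm
  · exact (e1.trans (e2.trans (e3.trans e4))).symm
  · exact (e1.trans (e2.trans (e3.trans (e4.trans e5)))).symm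
  · exact (e1.trans (e2.trans (e3.trans (e4.trans (e5.trans e6))))).symm
  · exact (e1.trans (e2.trans (e3.trans (e4.trans (e5.trans (e6.trans e8)))))).symm
  · exact (e1.trans (e2.trans (e3.trans (e4.trans (e5.trans (e6.trans (e8.trans e9))))))).symm
  · exact (e1.trans (e2.trans (e3.trans (e4.trans (e5.trans (e6.trans (e8.trans (e9.trans e10)))))))).symm
  · exact (e1.trans (e2.trans (e3.trans (e4.trans (e5.trans e7))))).symm
  · exact (e1.trans (e2.trans (e3.trans (e4.trans (e5.trans (e7.trans e11)))))).symm

private theorem ab_two (z : Abelianization Fi24) : z = 1 ∨ z = ab Gen.l := by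
  obtain ⟨g, rfl⟩ := QuotientGroup.mk_surjective (s := commutator Fi24) z
  change Abelianization.of g = 1 ∨ Abelianization.of g = ab Gen.l
  obtain ⟨w, rfl⟩ := PresentedGroup.mk_surjective rels g
  induction w using FreeGroup.induction_on with
  | C1 => left; simp
  | of x => right; exact ab_all x
  | inv_of x ih =>
    right
    have h1 : Abelianization.of (PresentedGroup.mk rels (FreeGroup.of x)⁻¹) = (ab x)⁻¹ := by
      simp [ab, PresentedGroup.of]
    have h2 : (ab x)⁻¹ = ab x := inv_eq_of_mul_eq_one_left (ab_sq x)
    change Abelianization.of (PresentedGroup.mk rels (FreeGroup.of x)⁻¹) = ab Gen.l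
    rw [h1, h2]; exact ab_all x
  | mul u v hu hv =>
    have hm : Abelianization.of (PresentedGroup.mk rels (u * v)) =
        Abelianization.of (PresentedGroup.mk rels u) * Abelianization.of (PresentedGroup.mk rels v) := by
      simp
    change Abelianization.of (PresentedGroup.mk rels (u * v)) = 1 ∨
      Abelianization.of (PresentedGroup.mk rels (u * v)) = ab Gen.l
    change Abelianization.of (PresentedGroup.mk rels u) = 1 ∨
      Abelianization.of (PresentedGroup.mk rels u) = ab Gen.l at hu
    change Abelianization.of (PresentedGroup.mk rels v) = 1 ∨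
      Abelianization.of (PresentedGroup.mk rels v) = ab Gen.l at hv
    rw [hm]
    rcases hu with hu | hu <;> rcases hv with hv | hv <;> rw [hu, hv]
    · left; simp
    · right; simp
    · right; simp
    · left; exact ab_sq Gen.l

private theorem ab_ne : (1 : Abelianization Fi24) ≠ ab Gen.l := by
  intro h
  have h2 := congrArg (Abelianization.lift sgn) h
  simp only [map_one, ab, Abelianization.lift_apply_of, sgn_of] at h2
  exact absurd h2 (by decide)

/-- The commutator subgroup of the presented group Fi₂₄ has index 2 (the presented group is Fi₂₄′:2 with Fi₂₄′ its derived subgroup). -/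
theorem result : (commutator Cfsg.Spor.Fi24).index = 2 := by
  have h : Nat.card (Abelianization Fi24) = 2 := by
    rw [Nat.card_eq_two_iff]
    refine ⟨1, ab Gen.l, ab_ne, ?_⟩
    ext z
    simp only [Set.mem_insert_iff, Set.mem_singleton_iff, Set.mem_univ, iff_true]
    exact ab_two z
  exact h

end Cfsg.Agent.S1691
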