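import Cfsg.Statements.S1692
import Cfsg.Agent.H35.T1692.PAll
import Cfsg.Agent.H35.T1692.RAll

set_option autoImplicit false
set_option maxRecDepth 100000
open Cfsg

namespace Cfsg.Agent.S1692

open Cfsg.Agent.H35 Cfsg.Spor

/-- the subgroup of the statement -/
private abbrev Hs : Subgroup ON :=
  (Subgroup.closure ({ON.a, ON.b, ON.c, ON.d, ON.e, ON.f} : Set (FreeGroup ON.Gen))).map
    (PresentedGroup.mk (coxRelators ON.edges ∪ {r | r ∈ ON.extra}))

private theorem hHs : Hs = Subgroup.closure {g | ∃ w ∈ t1692_sw, g = uw on_gen w} := by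
  show Subgroup.map _ (Subgroup.closure _) = Subgroup.closure _
  rw [MonoidHom.map_closure]
  congr 1
  ext g
  simp only [Set.image_insert_eq, Set.image_singleton, Set.mem_insert_iff, Set.mem_singleton_iff,
    t1692_sw_def, List.mem_cons, List.not_mem_nil, or_false, exists_eq_or_imp, exists_eq_left,
    Set.mem_ofPred_eq, uw_eq, List.map, List.prod_cons, List.prod_nil, mul_one, on_gen]
  rfl

private theorem hsw : t1692_rsw = t1692_sw := by decide

private theorem hyp : NI.TCHyp on_gen Hs t1692_pd t1692_rd on_rws t1692_sw where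
  UP := fun f hv h1 => on_UP f hv h1
  hP := by
    refine ⟨by decide, on_gens_all, on_gv_gv, ?_, t1692_psub⟩
    intro p hp
    exact t1692_pall p hp
  hy := by
    refine ⟨on_gen_gv, on_gof_gi, by decide, fun p hp => wrapRow_of_le _ _ p hp, ?_, ?_,
      t1692_h0, by decide⟩
    · exact NI.circTab_valid on_gen on_gv on_gen_gv _ on_full_one t1692_circT t1692_ccert
        t1692_circ_ok
    · refine NI.hcTab_valid on_gen Hs t1692_rsw ?_ t1692_hc1T t1692_hc2T _
        (fun c hc => allR_sound _ _ _ 0 t1692_hc_ok c (Nat.zero_le _) (by omega) hc)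
      intro w hw
      rw [hsw] at hw
      rw [hHs]
      exact Subgroup.subset_closure ⟨w, hw, rfl⟩
  hgensR := on_gens_all
  hgen := on_closure
  hN := by decide
  hNM := by decide
  hNN := rfl
  hchk := t1692_rall
  hH := hHs

private theorem main : Hs.index = 122760 := NI.tc_index hyp

/-- In the presented O'Nan group (generators g, a, b, c, d, e, f), the subgroup generated by the images of a, …, f has index 122760. -/
theorem result : (((Subgroup.closure ({Cfsg.Spor.ON.a, Cfsg.Spor.ON.b, Cfsg.Spor.ON.c, Cfsg.Spor.ON.d, Cfsg.Spor.ON.e, Cfsg.Spor.ON.f} : Set (FreeGroup Cfsg.Spor.ON.Gen))).map (PresentedGroup.mk (Cfsg.Spor.coxRelators Cfsg.Spor.ON.edges ∪ {r | r ∈ Cfsg.Spor.ON.extra})))).index = 122760 := by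
  exact main

end Cfsg.Agent.S1692
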