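import Cfsg.Statements.S1717
import Cfsg.Agent.H98.C2H

set_option autoImplicit false
open Cfsg

namespace Cfsg.Agent.S1717

/-- Let G be a finite group with an involution z whose centraliser C is isomorphic to the centraliser of a transvection of SL(5, 2). Then a Sylow 2-subgroup of C, viewed in G, is a Sylow 2-subgroup of G (its index in G is odd). -/
theorem result {G : Type*} [Group G] [Finite G] (s : Matrix.SpecialLinearGroup (Fin 5) (ZMod 2)) (hs : (s : Matrix (Fin 5) (Fin 5) (ZMod 2)) = Matrix.transvection 0 1 1) (z : G) (hz : orderOf z = 2) (e : (Subgroup.centralizer ({z} : Set G)) ≃* Subgroup.centralizer ({s} : Set (Matrix.SpecialLinearGroup (Fin 5) (ZMod 2)))) (T : Sylow 2 (Subgroup.centralizer ({z} : Set G))) : ¬ 2 ∣ ((T : Subgroup (Subgroup.centralizer ({z} : Set G))).map (Subgroup.subtype (Subgroup.centralizer ({z} : Set G)))).index := by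
  have hs0 : s = Cfsg.Agent.H98.TransvCent.s0 := Subtype.ext hs
  subst hs0
  exact Cfsg.Agent.H98.C2A.sylow_of_model (Cfsg.Agent.H98.C2A.model_of_equiv z hz e) T

end Cfsg.Agent.S1717
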