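import Cfsg.Statements.S1753

set_option autoImplicit false
universe u
open Cfsg

namespace Cfsg.Agent.S1753

/-- A section `H' / N` of a proper subgroup `H` of a finite group `G` has smaller order than `G`. -/
theorem card_section_lt {G : Type u} [Group G] [Finite G] (H : Subgroup G) (hH : H ≠ ⊤)
    (H' : Subgroup H) (N : Subgroup H') [N.Normal] : Nat.card (H' ⧸ N) < Nat.card G := by
  have h1 : Nat.card (H' ⧸ N) ≤ Nat.card H' := by
    have := Subgroup.card_eq_card_quotient_mul_card_subgroup N
    have hpos : 0 < Nat.card N := Nat.card_pos
    calc Nat.card (H' ⧸ N) = Nat.card (H' ⧸ N) * 1 := (mul_one _).symm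
      _ ≤ Nat.card (H' ⧸ N) * Nat.card N := Nat.mul_le_mul_left _ hpos
      _ = Nat.card H' := this.symm
  have h2 : Nat.card H' ≤ Nat.card H := Subgroup.card_le_card_group H'
  have h3 : Nat.card H < Nat.card G := by
    by_contra hcon
    exact hH (Subgroup.eq_top_of_le_card H (not_lt.mp hcon))
  omega

/-- Let K be any property of groups. (1) If G is a minimal counterexample relative to K — a finite non-abelian simple group not satisfying K such that every finite non-abelian simple group of smaller order satisfies K — then every proper subgroup of G is a K-group (all its non-abelian simple sections satisfy K), since such sections have smaller order than G. (2) Consequently (induction on the order), if every finite non-abelian simple group all of whose proper subgroups are K-groups satisfies K, then every finite non-abelian simple group satisfies K. -/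
theorem result (K : ∀ (X : Type u) [Group X], Prop) :
    (∀ (G : Type u) [Group G], Cfsg.IsMinCounterexampleWith K G → Cfsg.IsKProperWith K G) ∧
      ((∀ (X : Type u) [Group X] [Finite X], IsSimpleGroup X → ¬ IsMulCommutative X → Cfsg.IsKProperWith K X → K X) →
        ∀ (G : Type u) [Group G] [Finite G], IsSimpleGroup G → ¬ IsMulCommutative G → K G) := by
  refine ⟨?_, ?_⟩
  · intro G _ hmin H hH H' N _ hsimp hnc
    obtain ⟨hfin, -, -, -, hsmall⟩ := hmin
    have := hfin
    exact hsmall (H' ⧸ N) hsimp hnc (card_section_lt H hH H' N)
  · intro hyp
    have key : ∀ n : ℕ, ∀ (G : Type u) [Group G] [Finite G], Nat.card G = n →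
        IsSimpleGroup G → ¬ IsMulCommutative G → K G := by
      intro n
      induction n using Nat.strong_induction_on with
      | _ n ih =>
        intro G _ _ hn hsimp hnc
        apply hyp G hsimp hnc
        intro H hH H' N _ hs' hnc'
        have hlt : Nat.card (H' ⧸ N) < n := hn ▸ card_section_lt H hH H' N
        exact ih _ hlt (H' ⧸ N) rfl hs' hnc'
    intro G _ _ hsimp hnc
    exact key _ G rfl hsimp hnc

end Cfsg.Agent.S1753
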