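import Cfsg.Statements.S1755
import Cfsg.Agent.H36.CentInvolution

set_option autoImplicit false
open Cfsg

namespace Cfsg.Agent.S1755

/-- Let G be a finite group and let z be an involution of G such that Q, the generalized Fitting subgroup of the centralizer C of z, is a 2-group of symplectic type (every characteristic abelian subgroup of Q is cyclic). Let B be a characteristic abelian subgroup of Q, viewed as a subgroup of G. Then for every g in G, the conjugate of B by g either equals B or meets B trivially. -/
theorem result {G : Type*} [Group G] [Finite G] (z : G) (hz : orderOf z = 2) (hQ : Cfsg.IsOfSymplecticType ↥(Cfsg.generalizedFittingSubgroup ↥(Subgroup.centralizer ({z} : Set G))))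
    (B : Subgroup ↥(Cfsg.generalizedFittingSubgroup ↥(Subgroup.centralizer ({z} : Set G)))) (hBc : B.Characteristic) (hBa : IsMulCommutative ↥B) (g : G) :
    ((B.map (Cfsg.generalizedFittingSubgroup ↥(Subgroup.centralizer ({z} : Set G))).subtype).map (Subgroup.centralizer ({z} : Set G)).subtype).map (MulAut.conj g).toMonoidHom =
        (B.map (Cfsg.generalizedFittingSubgroup ↥(Subgroup.centralizer ({z} : Set G))).subtype).map (Subgroup.centralizer ({z} : Set G)).subtype ∨
      ((B.map (Cfsg.generalizedFittingSubgroup ↥(Subgroup.centralizer ({z} : Set G))).subtype).map (Subgroup.centralizer ({z} : Set G)).subtype).map (MulAut.conj g).toMonoidHom ⊓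
        (B.map (Cfsg.generalizedFittingSubgroup ↥(Subgroup.centralizer ({z} : Set G))).subtype).map (Subgroup.centralizer ({z} : Set G)).subtype = ⊥ := by
  by_cases hB : B = ⊥
  · left
    rw [hB]
    simp
  obtain ⟨hzB, huniq⟩ := Cfsg.Agent.H36.symplectic_char_abelian_involution hQ
    (Cfsg.Agent.H36.zInGenFitting z)
    (by rw [Cfsg.Agent.H36.zInGenFitting_orderOf]; exact hz)
    (Cfsg.Agent.H36.zInGenFitting_central z) B hBc hBa hB
  apply Cfsg.Agent.H36.ti_of_unique_involution z
  · exact ((hQ.1.to_subgroup B).map _).map _
  · rintro x ⟨c, ⟨b, hb, rfl⟩, rfl⟩ hx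
    have hb2 : orderOf b = 2 := by
      rw [← hx]
      simp
    rw [huniq b hb hb2]
    rfl
  · intro c hc x hx
    have hcC : c ∈ Subgroup.centralizer ({z} : Set G) :=
      (Cfsg.Agent.H36.mem_centralizer_singleton_iff z c).mpr hc
    have hQn : (generalizedFittingSubgroup ↥(Subgroup.centralizer ({z} : Set G))).Normal :=
      Cfsg.Agent.H28.genFitting_normal
    have hN : (B.map
        (generalizedFittingSubgroup ↥(Subgroup.centralizer ({z} : Set G))).subtype).Normal :=
      ConjAct.normal_of_characteristic_of_normal
    obtain ⟨n, hn, rfl⟩ := hx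
    exact ⟨⟨c, hcC⟩ * n * ⟨c, hcC⟩⁻¹, hN.conj_mem n hn _, rfl⟩

end Cfsg.Agent.S1755
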