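import Cfsg.Statements.S1756
import Cfsg.Agent.H36.InnerInvolution

set_option autoImplicit false
open Cfsg

namespace Cfsg.Agent.S1756

/-- Let Q be an extraspecial 2-subgroup of the finite group G (special with centre of order 2) and t an involution of G normalizing Q such that the centralizer of t in Q has index at most 2 in Q. Then t lies in the product of Q with the centralizer of Q. -/
theorem result {G : Type*} [Group G] [Finite G] (Q : Subgroup G)
    (hQ : Cfsg.IsExtraspecial 2 ↥Q) (t : G) (ht : orderOf t = 2) (htN : t ∈ Subgroup.normalizer (Q : Set G))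
    (hi : (Subgroup.centralizer ({t} : Set G) ⊓ Q).relIndex Q ≤ 2) :
    t ∈ Q ⊔ Subgroup.centralizer (Q : Set G) := by
  obtain ⟨z, hzQ, hz1, hz2, hzc, hcen, hcommQ⟩ := Cfsg.Agent.H36.extraspecial_two_center Q hQ
  have htt : t * t = 1 := by
    have := pow_orderOf_eq_one t
    rwa [ht, pow_two] at this
  have hinv : t⁻¹ = t := inv_eq_of_mul_eq_one_left htt
  have htt' : ∀ y : G, t * (t * y) = y := by
    intro y; rw [← mul_assoc, htt, one_mul]
  have hnorm : ∀ q ∈ Q, t * q * t⁻¹ ∈ Q := fun q hq => (Subgroup.mem_normalizer_iff.mp htN q).mp hq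
  set M := Subgroup.centralizer ({t} : Set G) ⊓ Q with hM
  have hMmem : ∀ m : G, m ∈ M ↔ t * m = m * t ∧ m ∈ Q := by
    intro m
    rw [hM, Subgroup.mem_inf, Subgroup.mem_centralizer_iff]
    constructor
    · rintro ⟨h1, h2⟩
      exact ⟨h1 t (Set.mem_singleton t), h2⟩
    · rintro ⟨h1, h2⟩
      refine ⟨?_, h2⟩
      intro x hx
      rw [Set.mem_singleton_iff] at hx
      rw [hx]; exact h1
  have hidx0 : (M.subgroupOf Q).index ≠ 0 := Subgroup.index_ne_zero_of_finite
  have hidx : (M.subgroupOf Q).index = 1 ∨ (M.subgroupOf Q).index = 2 := by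
    have : (M.subgroupOf Q).index ≤ 2 := hi
    omega
  rcases hidx with h1 | h2
  · -- `t` centralizes `Q`
    rw [Subgroup.index_eq_one, Subgroup.subgroupOf_eq_top] at h1
    apply Subgroup.mem_sup_right
    rw [Subgroup.mem_centralizer_iff]
    intro q hq
    exact (((hMmem q).mp (h1 hq)).1).symm
  · -- index two
    have hidx2 : ∀ a ∈ Q, ∀ b ∈ Q, (a * b ∈ M ↔ (a ∈ M ↔ b ∈ M)) := by
      intro a ha b hb
      have := Subgroup.mul_mem_iff_of_index_two h2 (a := (⟨a, ha⟩ : Q)) (b := ⟨b, hb⟩)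
      simpa [Subgroup.mem_subgroupOf] using this
    have hex : ∃ x ∈ Q, x ∉ M := by
      by_contra hcon
      push Not at hcon
      have : M.subgroupOf Q = ⊤ := by
        rw [Subgroup.subgroupOf_eq_top]
        exact hcon
      rw [← Subgroup.index_eq_one, h2] at this
      omega
    obtain ⟨x, hxQ, hxM⟩ := hex
    have hxinvM : x⁻¹ ∉ M := fun h => hxM (by simpa using M.inv_mem h)
    have hMQ : ∀ m ∈ M, m ∈ Q := fun m hm => ((hMmem m).mp hm).2
    have hMt : ∀ m ∈ M, Commute t m := fun m hm => ((hMmem m).mp hm).1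
    -- the element `c = x⁻¹ * (t x t⁻¹)`
    set c := x⁻¹ * (t * x * t⁻¹) with hc
    have hcQ : c ∈ Q := Q.mul_mem (Q.inv_mem hxQ) (hnorm x hxQ)
    have htx : t * x * t⁻¹ = x * c := by rw [hc]; group
    -- (i) `c` commutes with `M`
    have hcM : ∀ m ∈ M, Commute c m := by
      intro m hm
      have hmQ := hMQ m hm
      have h1 : x * m ∉ M := fun h => hxM (((hidx2 x hxQ m hmQ).mp h).mpr hm)
      have h2 : x * m * x⁻¹ ∈ M :=
        (hidx2 (x * m) (Q.mul_mem hxQ hmQ) x⁻¹ (Q.inv_mem hxQ)).mpr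
          ⟨fun h => absurd h h1, fun h => absurd h hxinvM⟩
      have h3 : Commute t (x * m * x⁻¹) := hMt _ h2
      have h4 : Commute (x⁻¹ * t * x⁻¹⁻¹) (x⁻¹ * (x * m * x⁻¹) * x⁻¹⁻¹) := (Commute.conj_iff x⁻¹).mpr h3
      have h5 : x⁻¹ * (x * m * x⁻¹) * x⁻¹⁻¹ = m := by group
      rw [h5] at h4
      have h6 : Commute t⁻¹ m := (hMt m hm).inv_left
      have h7 : Commute (x⁻¹ * t * x⁻¹⁻¹ * t⁻¹) m := h4.mul_left h6
      have h8 : x⁻¹ * t * x⁻¹⁻¹ * t⁻¹ = c := by rw [hc]; group
      rw [h8] at h7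
      exact h7
    -- (ii) `c` commutes with `x`
    have hcx : Commute c x := by
      by_cases hcMem : c ∈ M
      · have htc : Commute t c := hMt c hcMem
        have hcc : c * c = 1 := by
          have e1 : t * (t * x * t⁻¹) * t⁻¹ = x := by rw [hinv]; simp [mul_assoc, htt', htt]
          have e2 : t * (x * c) * t⁻¹ = (t * x * t⁻¹) * (t * c * t⁻¹) := by group
          have e3 : t * c * t⁻¹ = c := by rw [htc.eq, mul_assoc, mul_inv_cancel, mul_one]
          rw [htx, e2, e3, htx] at e1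
          have := congrArg (fun y => x⁻¹ * y) e1
          simpa [mul_assoc] using this
        have hxx : x * x ∈ M := (hidx2 x hxQ x hxQ).mpr Iff.rfl
        have htxx : Commute t (x * x) := hMt _ hxx
        have e4 : (t * x * t⁻¹) * (t * x * t⁻¹) = x * x := by
          have : (t * x * t⁻¹) * (t * x * t⁻¹) = t * (x * x) * t⁻¹ := by group
          rw [this, htxx.eq, mul_assoc, mul_inv_cancel, mul_one]
        rw [htx] at e4
        -- x c x c = x x, so c x c = x, so c x = x c⁻¹ = x c
        have e5 : c * x * c = x := by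
          have := congrArg (fun y => x⁻¹ * y) e4
          simpa [mul_assoc] using this
        have e6 : c * x = x * c := by
          have := congrArg (fun y => y * c) e5
          simp only [mul_assoc, hcc, mul_one] at this
          exact this
        exact e6
      · have h1 : x⁻¹ * c ∈ M :=
          (hidx2 x⁻¹ (Q.inv_mem hxQ) c hcQ).mpr ⟨fun h => absurd h hxinvM, fun h => absurd h hcMem⟩
        have h2 : Commute c (x⁻¹ * c) := hcM _ h1
        have h3 : Commute c (c * (x⁻¹ * c)⁻¹) := (Commute.refl c).mul_right h2.inv_right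
        have h4 : c * (x⁻¹ * c)⁻¹ = x := by group
        rw [h4] at h3
        exact h3
    -- (iii) `c` is central in `Q`
    have hccen : ∀ q ∈ Q, q * c = c * q := by
      intro q hq
      by_cases hqM : q ∈ M
      · exact (hcM q hqM).eq.symm
      · have h1 : x⁻¹ * q ∈ M :=
          (hidx2 x⁻¹ (Q.inv_mem hxQ) q hq).mpr ⟨fun h => absurd h hxinvM, fun h => absurd h hqM⟩
        have h2 : Commute c (x * (x⁻¹ * q)) := hcx.mul_right (hcM _ h1)
        have h3 : x * (x⁻¹ * q) = q := by group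
        rw [h3] at h2
        exact h2.eq.symm
    have hc1z : c = 1 ∨ c = z := hcen c hcQ hccen
    -- (iv) all commutators `[t, q]` lie in `{1, z}`
    have htc : ∀ q ∈ Q, t * q * t⁻¹ * q⁻¹ = 1 ∨ t * q * t⁻¹ * q⁻¹ = z := by
      intro q hq
      by_cases hqM : q ∈ M
      · left
        exact (Cfsg.Agent.H36.comm_iff_commutator_eq_one t q).mp (hMt q hqM).eq
      · have h1 : x⁻¹ * q ∈ M :=
          (hidx2 x⁻¹ (Q.inv_mem hxQ) q hq).mpr ⟨fun h => absurd h hxinvM, fun h => absurd h hqM⟩
        have h2 : t * (x⁻¹ * q) * t⁻¹ * (x⁻¹ * q)⁻¹ = 1 :=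
          (Cfsg.Agent.H36.comm_iff_commutator_eq_one t _).mp (hMt _ h1).eq
        have h3 : t * q * t⁻¹ * q⁻¹ =
            (t * x * t⁻¹) * (t * (x⁻¹ * q) * t⁻¹ * (x⁻¹ * q)⁻¹) * x⁻¹ := by group
        have h4 : t * q * t⁻¹ * q⁻¹ = c := by
          rw [h3, h2, mul_one, htx, mul_assoc, (hccen x⁻¹ (Q.inv_mem hxQ)).symm, ← mul_assoc,
            mul_inv_cancel, one_mul]
        rw [h4]; exact hc1z
    exact Cfsg.Agent.H36.mem_sup_centralizer_of_commutators Q z hzQ hz1 hz2 hzc hcen hcommQ t htt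
      hnorm htc

end Cfsg.Agent.S1756
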