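import Cfsg.Statements.S1757
import Cfsg.Agent.H36.TI

set_option autoImplicit false
open Cfsg

namespace Cfsg.Agent.S1757

/-- Let p be a prime and A, B p-subgroups of the finite group G, each of which meets every conjugate of itself other than itself trivially. Suppose the order of A is at most that of B, A and B intersect trivially, and B normalizes A. Then A and B commute elementwise. -/
theorem result {G : Type*} [Group G] [Finite G] (p : ℕ) [Fact p.Prime] (A B : Subgroup G)
    (hA : IsPGroup p ↥A) (hB : IsPGroup p ↥B)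
    (hAti : ∀ g : G, A.map (MulAut.conj g).toMonoidHom = A ∨ A.map (MulAut.conj g).toMonoidHom ⊓ A = ⊥)
    (hBti : ∀ g : G, B.map (MulAut.conj g).toMonoidHom = B ∨ B.map (MulAut.conj g).toMonoidHom ⊓ B = ⊥)
    (hle : Nat.card ↥A ≤ Nat.card ↥B) (hAB : A ⊓ B = ⊥) (hN : B ≤ Subgroup.normalizer (A : Set G)) : ⁅A, B⁆ = ⊥ := by
  have h := Cfsg.Agent.H36.commute_of_ti_normalizing A B (fun a _ => hBti a) hle hAB hN
  rw [Subgroup.commutator_eq_bot_iff_le_centralizer]
  intro a ha
  rw [Subgroup.mem_centralizer_iff]
  intro b hb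
  exact (h a ha b hb).symm

end Cfsg.Agent.S1757
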