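import Cfsg.Statements.S1781
import Cfsg.Agent.H36.AbelianTI

set_option autoImplicit false
open Cfsg

namespace Cfsg.Agent.S1781

/-- Let A be an abelian 2-subgroup of the finite group G such that every conjugate of A equals A or meets A trivially, and let g ∈ G with g A g⁻¹ ≠ A. Then either the subgroup of those elements of A that normalize g A g⁻¹ is an elementary abelian 2-group, or A and g A g⁻¹ commute elementwise. -/
theorem result {G : Type*} [Group G] [Finite G] (A : Subgroup G)
    (hA2 : IsPGroup 2 ↥A) (hAa : IsMulCommutative ↥A)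
    (hti : ∀ h : G, A.map (MulAut.conj h).toMonoidHom = A ∨ A.map (MulAut.conj h).toMonoidHom ⊓ A = ⊥)
    (g : G) (hg : A.map (MulAut.conj g).toMonoidHom ≠ A) :
    Cfsg.IsElementaryAbelian 2 (A ⊓ Subgroup.normalizer ((A.map (MulAut.conj g).toMonoidHom : Subgroup G) : Set G)) ∨
      ⁅A, A.map (MulAut.conj g).toMonoidHom⁆ = ⊥ := by
  by_cases hel : ∀ a ∈ A ⊓ Subgroup.normalizer ((A.map (MulAut.conj g).toMonoidHom : Subgroup G) : Set G), a ^ 2 = 1
  · left
    refine ⟨⟨⟨?_⟩⟩, hel⟩
    rintro ⟨x, hx⟩ ⟨y, hy⟩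
    apply Subtype.ext
    have hc : x * y = y * x := congrArg Subtype.val (mul_comm' (⟨x, hx.1⟩ : A) ⟨y, hy.1⟩)
    exact hc
  · right
    push Not at hel
    obtain ⟨a, ⟨haA, haN⟩, ha2⟩ := hel
    have haN' : ∀ b ∈ A.map (MulAut.conj g).toMonoidHom, a * b * a⁻¹ ∈ A.map (MulAut.conj g).toMonoidHom :=
      fun b hb => (Subgroup.mem_normalizer_iff.mp haN b).mp hb
    have h := Cfsg.Agent.H36.abelian_ti_commute_of_sq_ne_one A hA2 hAa hti g hg a haA ha2 haN'
    rw [Subgroup.commutator_eq_bot_iff_le_centralizer]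
    intro x hx
    rw [Subgroup.mem_centralizer_iff]
    intro b hb
    exact (h x hx b hb).symm

end Cfsg.Agent.S1781
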