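import Cfsg.Statements.S1782
import Cfsg.Agent.H36.TIFamily

set_option autoImplicit false
open Cfsg

namespace Cfsg.Agent.S1782

/-- Let S be a finite 2-group and Δ a set of subgroups of S closed under conjugation by S, all of the same order, each with nontrivial Frattini subgroup, and such that two distinct members of Δ meet trivially. Then any two distinct members of Δ commute elementwise. -/
theorem result {S : Type*} [Group S] [Finite S] (hS : IsPGroup 2 S)
    (Δ : Set (Subgroup S)) (hinv : ∀ s : S, ∀ R ∈ Δ, R.map (MulAut.conj s).toMonoidHom ∈ Δ)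
    (hΦ : ∀ R ∈ Δ, frattini ↥R ≠ ⊥) (hord : ∀ R ∈ Δ, ∀ T ∈ Δ, Nat.card ↥R = Nat.card ↥T)
    (hti : ∀ R ∈ Δ, ∀ T ∈ Δ, R = T ∨ R ⊓ T = ⊥) :
    ∀ R ∈ Δ, ∀ T ∈ Δ, R ≠ T → ⁅R, T⁆ = ⊥ := by
  intro R hR T hT hRT
  have h3 : ∀ X ∈ Δ, ∃ x ∈ X, x * x ≠ 1 := by
    intro X hX
    by_contra hcon
    push Not at hcon
    apply hΦ X hX
    apply Cfsg.Agent.H36.frattini_eq_bot_of_sq_eq_one
    intro x
    apply Subtype.ext
    exact hcon x x.2
  have key := Cfsg.Agent.H36.ti_family_commute_aux (Nat.card (⊤ : Subgroup S)) ⊤ rfl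
    (hS.to_subgroup ⊤) Δ (fun _ _ => le_top) (fun s _ X hX => hinv s X hX) h3 hord hti
    R hR T hT hRT
  rw [Subgroup.commutator_eq_bot_iff_le_centralizer]
  intro x hx
  rw [Subgroup.mem_centralizer_iff]
  intro y hy
  exact (key x hx y hy).symm

end Cfsg.Agent.S1782
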