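import Cfsg.Statements.S1783
import Cfsg.Agent.H36.QuadraticTI
import Cfsg.Agent.H28.Bender
import Cfsg.Agent.H60.Cores

set_option autoImplicit false
open Cfsg

namespace Cfsg.Agent.S1783

open scoped IsMulCommutative in
/-- Let X be a finite group whose generalized Fitting subgroup equals its largest normal 2-subgroup Q, and let A be an abelian 2-subgroup of X such that every conjugate of A equals A or meets A trivially. Let B be the subgroup generated by the squares of the elements of A. Then B lies in Q, and if B is not an elementary abelian 2-group then the normal closure of B in X is commutative. -/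
theorem result {X : Type*} [Group X] [Finite X]
    (hX : Cfsg.generalizedFittingSubgroup X = Cfsg.pCore 2 X) (A : Subgroup X) (hA2 : IsPGroup 2 ↥A) (hAa : IsMulCommutative ↥A)
    (hti : ∀ h : X, A.map (MulAut.conj h).toMonoidHom = A ∨ A.map (MulAut.conj h).toMonoidHom ⊓ A = ⊥) :
    Subgroup.closure ((fun a : X => a ^ 2) '' (A : Set X)) ≤ Cfsg.pCore 2 X ∧
      (¬ Cfsg.IsElementaryAbelian 2 (Subgroup.closure ((fun a : X => a ^ 2) '' (A : Set X))) →
        IsMulCommutative ↥(Subgroup.normalClosure ((fun a : X => a ^ 2) '' (A : Set X)))) := by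
  have : Fact (Nat.Prime 2) := ⟨Nat.prime_two⟩
  have hQn : (Cfsg.pCore 2 X).Normal := Subgroup.sSup_normal _ (fun _ h => h.1)
  have hQ2 : IsPGroup 2 ↥(Cfsg.pCore 2 X) := Cfsg.Agent.H60.isPGroup_pCore 2
  have hC : Subgroup.centralizer (Cfsg.pCore 2 X : Set X) ≤ Cfsg.pCore 2 X := by
    have h1 := Cfsg.Agent.H28.centralizer_genFitting_le (G := X)
    rwa [hX] at h1
  have hAc : ∀ x ∈ A, ∀ y ∈ A, x * y = y * x := fun x hx y hy =>
    congrArg Subtype.val (mul_comm' (⟨x, hx⟩ : A) ⟨y, hy⟩)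
  have part1 : Subgroup.closure ((fun a : X => a ^ 2) '' (A : Set X)) ≤ Cfsg.pCore 2 X := by
    rw [Subgroup.closure_le]
    rintro _ ⟨a, ha, rfl⟩
    show a ^ 2 ∈ Cfsg.pCore 2 X
    by_cases hexp : ∀ x ∈ A, x * x = 1
    · rw [pow_two, hexp a ha]; exact Subgroup.one_mem _
    · push Not at hexp
      have hquad := Cfsg.Agent.H36.ti_quadratic A hA2 hAc hti hexp (Cfsg.pCore 2 X) hQ2
      obtain ⟨U, hUn, hU2, hU⟩ :=
        Cfsg.Agent.H36.exists_normal_pgroup_of_stable 2 (Cfsg.pCore 2 X) hQ2 hC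
      have haU : a * a ∈ U := hU (a * a) (fun M hM hMQ m hm =>
        Cfsg.Agent.H36.sq_stable_of_quadratic (Cfsg.pCore 2 X) hQ2 a
          (fun q hq => hquad q hq a ha a ha) M hM hMQ m hm)
      rw [pow_two]
      exact Cfsg.Agent.H60.le_pCore hUn hU2 haU
  refine ⟨part1, ?_⟩
  intro hnotEA
  obtain ⟨B, hB⟩ : ∃ B : Subgroup X,
      B = Subgroup.closure ((fun a : X => a ^ 2) '' (A : Set X)) := ⟨_, rfl⟩
  rw [← hB] at hnotEA part1
  have hBA : B ≤ A := by
    rw [hB, Subgroup.closure_le]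
    rintro _ ⟨a, ha, rfl⟩
    exact A.pow_mem ha 2
  have hBc : ∀ x ∈ B, ∀ y ∈ B, x * y = y * x := fun x hx y hy => hAc x (hBA hx) y (hBA hy)
  have hBne : ∃ x ∈ B, x * x ≠ 1 := by
    by_contra hcon
    push Not at hcon
    apply hnotEA
    exact ⟨⟨⟨fun x y => Subtype.ext (hBc x x.2 y y.2)⟩⟩,
      fun b hb => by rw [pow_two]; exact hcon b hb⟩
  have hBmap : ∀ g : X, B.map (MulAut.conj g).toMonoidHom =
      Subgroup.closure ((fun a : X => a ^ 2) ''
        ((A.map (MulAut.conj g).toMonoidHom : Subgroup X) : Set X)) := by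
    intro g
    rw [hB, MonoidHom.map_closure, Subgroup.coe_map, Set.image_image, Set.image_image]
    congr 1
    ext x
    simp
  have hA1 : A.map (MulAut.conj (1 : X)).toMonoidHom = A := by
    ext x
    rw [Cfsg.Agent.H36.mem_map_conj]
    simp
  have hB1 : B.map (MulAut.conj (1 : X)).toMonoidHom = B := by
    ext x
    rw [Cfsg.Agent.H36.mem_map_conj]
    simp
  have hBti : ∀ h : X, B.map (MulAut.conj h).toMonoidHom = B ∨
      B.map (MulAut.conj h).toMonoidHom ⊓ B = ⊥ := by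
    intro h
    rcases hti h with h1 | h1
    · left
      rw [hBmap, h1, ← hA1, ← hBmap, hB1]
    · right
      rw [eq_bot_iff, ← h1]
      exact inf_le_inf (Subgroup.map_mono hBA) hBA
  have hfam := Cfsg.Agent.H36.ti_conj_family_commute (Cfsg.pCore 2 X) hQ2 B hBti hBne Set.univ
    (fun _ _ _ _ => Set.mem_univ _)
    (by
      intro t _ x hx
      rw [Cfsg.Agent.H36.mem_map_conj] at hx
      have h1 : x = t * (t⁻¹ * x * t) * t⁻¹ := by group
      rw [h1]
      exact hQn.conj_mem _ (part1 hx) t)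
  rw [Subgroup.normalClosure]
  apply Subgroup.isMulCommutative_closure
  intro x hx y hy
  rw [Group.mem_conjugatesOfSet_iff] at hx hy
  obtain ⟨x₀, ⟨a₁, ha₁, rfl⟩, hx⟩ := hx
  obtain ⟨y₀, ⟨a₂, ha₂, rfl⟩, hy⟩ := hy
  rw [isConj_iff] at hx hy
  obtain ⟨c₁, rfl⟩ := hx
  obtain ⟨c₂, rfl⟩ := hy
  have hx' : c₁ * a₁ ^ 2 * c₁⁻¹ ∈ B.map (MulAut.conj c₁).toMonoidHom :=
    Cfsg.Agent.H36.conj_mem_map_conj B c₁ (by rw [hB]; exact Subgroup.subset_closure ⟨a₁, ha₁, rfl⟩)
  have hy' : c₂ * a₂ ^ 2 * c₂⁻¹ ∈ B.map (MulAut.conj c₂).toMonoidHom :=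
    Cfsg.Agent.H36.conj_mem_map_conj B c₂ (by rw [hB]; exact Subgroup.subset_closure ⟨a₂, ha₂, rfl⟩)
  by_cases heq : B.map (MulAut.conj c₁).toMonoidHom = B.map (MulAut.conj c₂).toMonoidHom
  · rw [heq] at hx'
    rw [Cfsg.Agent.H36.mem_map_conj] at hx' hy'
    have h1 := hBc _ hx' _ hy'
    have h2 := congrArg (fun t => c₂ * t * c₂⁻¹) h1
    simp only [mul_assoc, mul_inv_cancel_left, mul_inv_cancel, mul_one] at h2
    simp only [mul_assoc]
    exact h2
  · exact hfam c₁ (Set.mem_univ _) c₂ (Set.mem_univ _) heq _ hx' _ hy'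

end Cfsg.Agent.S1783
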