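import Cfsg.Statements.S1784
import Cfsg.Agent.H36.CentInvolution
import Cfsg.Agent.H36.Extraspecial
import Cfsg.Agent.H36.ExtraspecialInvolution
import Cfsg.Agent.H92.PGroup

set_option autoImplicit false
open Cfsg

namespace Cfsg.Agent.S1784

/-- Let G be a finite group and let z be an involution of G such that Q, the generalized Fitting subgroup of the centralizer C of z, is a 2-group of symplectic type (every characteristic abelian subgroup of Q is cyclic); suppose Q is extraspecial, and view Q inside G. Let α be an involution of C that is not in Q, and let Q₀ be the subgroup of those q ∈ Q whose commutator with α lies in the subgroup generated by z. Then (a) the subgroup generated by the commutators α q α⁻¹ q⁻¹, q ∈ Q, equals the centre of Q₀; and (b) if Q₀ is not contained in the product of the centralizer of α in Q with the subgroup generated by z, then some element of Q conjugates α to α z. -/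
theorem result {G : Type*} [Group G] [Finite G] (z : G) (hz : orderOf z = 2) (hQ : Cfsg.IsOfSymplecticType ↥(Cfsg.generalizedFittingSubgroup ↥(Subgroup.centralizer ({z} : Set G)))) (hE : Cfsg.IsExtraspecial 2 ↥(Cfsg.generalizedFittingSubgroup ↥(Subgroup.centralizer ({z} : Set G))))
    (α : G) (hα : orderOf α = 2) (hαC : α ∈ Subgroup.centralizer ({z} : Set G)) (hαQ : α ∉ (Cfsg.generalizedFittingSubgroup ↥(Subgroup.centralizer ({z} : Set G))).map (Subgroup.centralizer ({z} : Set G)).subtype)
    (Q₀ : Subgroup G) (hQ₀ : ∀ q : G, q ∈ Q₀ ↔ (q ∈ (Cfsg.generalizedFittingSubgroup ↥(Subgroup.centralizer ({z} : Set G))).map (Subgroup.centralizer ({z} : Set G)).subtype ∧ α * q * α⁻¹ * q⁻¹ ∈ Subgroup.zpowers z)) :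
    Subgroup.closure ((fun q : G => α * q * α⁻¹ * q⁻¹) '' ((Cfsg.generalizedFittingSubgroup ↥(Subgroup.centralizer ({z} : Set G))).map (Subgroup.centralizer ({z} : Set G)).subtype : Set G)) = (Subgroup.center ↥Q₀).map Q₀.subtype ∧
      (¬ Q₀ ≤ ((Cfsg.generalizedFittingSubgroup ↥(Subgroup.centralizer ({z} : Set G))).map (Subgroup.centralizer ({z} : Set G)).subtype ⊓ Subgroup.centralizer ({α} : Set G)) ⊔ Subgroup.zpowers z →
        ∃ q ∈ (Cfsg.generalizedFittingSubgroup ↥(Subgroup.centralizer ({z} : Set G))).map (Subgroup.centralizer ({z} : Set G)).subtype, q * α * q⁻¹ = α * z) := by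
  have : Fact (Nat.Prime 2) := ⟨Nat.prime_two⟩
  have hz1 : z ≠ 1 := by
    rintro rfl
    rw [orderOf_one] at hz
    omega
  have hz2 : z * z = 1 := by
    have := pow_orderOf_eq_one z
    rwa [hz, pow_two] at this
  have hα2 : α * α = 1 := by
    have := pow_orderOf_eq_one α
    rwa [hα, pow_two] at this
  have hαz : α * z = z * α := (Cfsg.Agent.H36.mem_centralizer_singleton_iff z α).mp hαC
  have hZ := Cfsg.Agent.H36.mem_zpowers_involution_iff z hz2
  have hzinv : z⁻¹ = z := inv_eq_of_mul_eq_one_left hz2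
  -- the elementwise structure of `Q` inside `C`
  obtain ⟨z', hz'Q, hz'1, hz'2, hz'c, hcen', hcomm'⟩ :=
    Cfsg.Agent.H36.extraspecial_two_center
      (Cfsg.generalizedFittingSubgroup ↥(Subgroup.centralizer ({z} : Set G))) hE
  have hzCQ := Cfsg.Agent.H36.self_mem_genFitting_centralizer z
  have hzz' : (⟨z, Cfsg.Agent.H36.self_mem_centralizer_singleton z⟩ :
      ↥(Subgroup.centralizer ({z} : Set G))) = z' := by
    rcases hcen' _ hzCQ (fun q _ => Cfsg.Agent.H36.self_central_in_centralizer z q) with h | h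
    · exfalso
      exact hz1 (congrArg Subtype.val h)
    · exact h
  subst hzz'
  have hQn : (generalizedFittingSubgroup ↥(Subgroup.centralizer ({z} : Set G))).Normal :=
    Cfsg.Agent.H28.genFitting_normal
  have hzQg : z ∈ (Cfsg.generalizedFittingSubgroup ↥(Subgroup.centralizer ({z} : Set G))).map
      (Subgroup.centralizer ({z} : Set G)).subtype := ⟨_, hzCQ, rfl⟩
  have hzc : ∀ q ∈ (Cfsg.generalizedFittingSubgroup ↥(Subgroup.centralizer ({z} : Set G))).map
      (Subgroup.centralizer ({z} : Set G)).subtype, q * z = z * q := by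
    rintro _ ⟨q, -, rfl⟩
    exact (Cfsg.Agent.H36.mem_centralizer_singleton_iff z q).mp q.2
  have hcen : ∀ c ∈ (Cfsg.generalizedFittingSubgroup ↥(Subgroup.centralizer ({z} : Set G))).map
      (Subgroup.centralizer ({z} : Set G)).subtype,
      (∀ q ∈ (Cfsg.generalizedFittingSubgroup ↥(Subgroup.centralizer ({z} : Set G))).map
        (Subgroup.centralizer ({z} : Set G)).subtype, q * c = c * q) → c = 1 ∨ c = z := by
    rintro _ ⟨c, hc, rfl⟩ hcc
    rcases hcen' c hc (fun q hq => Subtype.ext (hcc q ⟨q, hq, rfl⟩)) with h | h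
    · left; rw [h]; rfl
    · right; rw [h]; rfl
  have hcomm : ∀ a ∈ (Cfsg.generalizedFittingSubgroup ↥(Subgroup.centralizer ({z} : Set G))).map
      (Subgroup.centralizer ({z} : Set G)).subtype,
      ∀ b ∈ (Cfsg.generalizedFittingSubgroup ↥(Subgroup.centralizer ({z} : Set G))).map
        (Subgroup.centralizer ({z} : Set G)).subtype,
      a * b * a⁻¹ * b⁻¹ = 1 ∨ a * b * a⁻¹ * b⁻¹ = z := by
    rintro _ ⟨a, ha, rfl⟩ _ ⟨b, hb, rfl⟩
    rcases hcomm' a ha b hb with h | h
    · left; exact congrArg Subtype.val h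
    · right; exact congrArg Subtype.val h
  have hsq : ∀ a ∈ (Cfsg.generalizedFittingSubgroup ↥(Subgroup.centralizer ({z} : Set G))).map
      (Subgroup.centralizer ({z} : Set G)).subtype, a * a = 1 ∨ a * a = z := by
    rintro _ ⟨a, ha, rfl⟩
    have h1 : (⟨a, ha⟩ : ↥(Cfsg.generalizedFittingSubgroup
        ↥(Subgroup.centralizer ({z} : Set G)))) ^ 2 ∈ frattini _ :=
      Cfsg.Agent.H92.pow_mem_frattini hQ.1 _
    rw [hE.1.2.1, Subgroup.mem_center_iff] at h1
    have h2 : ∀ q ∈ Cfsg.generalizedFittingSubgroup ↥(Subgroup.centralizer ({z} : Set G)),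
        q * (a * a) = (a * a) * q := by
      intro q hq
      have h3 := congrArg Subtype.val (h1 ⟨q, hq⟩)
      simpa [pow_two] using h3
    rcases hcen' (a * a) (Subgroup.mul_mem _ ha ha) h2 with h | h
    · left; exact congrArg Subtype.val h
    · right; exact congrArg Subtype.val h
  have hαQn : ∀ q ∈ (Cfsg.generalizedFittingSubgroup ↥(Subgroup.centralizer ({z} : Set G))).map
      (Subgroup.centralizer ({z} : Set G)).subtype,
      α * q * α⁻¹ ∈ (Cfsg.generalizedFittingSubgroup ↥(Subgroup.centralizer ({z} : Set G))).map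
        (Subgroup.centralizer ({z} : Set G)).subtype := by
    rintro _ ⟨q, hq, rfl⟩
    exact ⟨⟨α, hαC⟩ * q * ⟨α, hαC⟩⁻¹, hQn.conj_mem q hq _, rfl⟩
  have hαnc : ∃ q ∈ (Cfsg.generalizedFittingSubgroup ↥(Subgroup.centralizer ({z} : Set G))).map
      (Subgroup.centralizer ({z} : Set G)).subtype, α * q ≠ q * α := by
    by_contra hcon
    push Not at hcon
    apply hαQ
    have hmem : (⟨α, hαC⟩ : ↥(Subgroup.centralizer ({z} : Set G))) ∈
        Subgroup.centralizer ((Cfsg.generalizedFittingSubgroup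
          ↥(Subgroup.centralizer ({z} : Set G)) : Subgroup _) : Set _) := by
      rw [Subgroup.mem_centralizer_iff]
      intro q hq
      apply Subtype.ext
      exact (hcon q ⟨q, hq, rfl⟩).symm
    exact ⟨_, Cfsg.Agent.H28.centralizer_genFitting_le hmem, rfl⟩
  refine ⟨Cfsg.Agent.H36.extraspecial_commutator_eq_center _ z α hzQg hz1 hz2 hzc hcen hcomm hsq
    hα2 hαz hαQn hαnc Q₀ hQ₀, ?_⟩
  intro hnot
  obtain ⟨q, hqQ₀, hqn⟩ := SetLike.not_le_iff_exists.mp hnot
  obtain ⟨hqQ, hqz⟩ := (hQ₀ q).mp hqQ₀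
  refine ⟨q, hqQ, ?_⟩
  rw [hZ] at hqz
  rcases hqz with h | h
  · exfalso
    apply hqn
    apply Subgroup.mem_sup_left
    refine Subgroup.mem_inf.mpr ⟨hqQ, ?_⟩
    rw [Cfsg.Agent.H36.mem_centralizer_singleton_iff]
    exact ((Cfsg.Agent.H36.comm_iff_commutator_eq_one α q).mpr h).symm
  · have h1 : q * α * q⁻¹ * α⁻¹ = z := by
      have h2 : q * α * q⁻¹ * α⁻¹ = (α * q * α⁻¹ * q⁻¹)⁻¹ := by group
      rw [h2, h, hzinv]
    have h3 := congrArg (fun t => t * α) h1
    simp only [inv_mul_cancel_right] at h3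
    rw [h3, hαz]

end Cfsg.Agent.S1784
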