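import Cfsg.Statements.S1785
import Cfsg.Agent.H36.ElemAbelian

set_option autoImplicit false
open Cfsg

namespace Cfsg.Agent.S1785

open scoped IsMulCommutative in
/-- Let X be a finite 2-group having a normal elementary abelian subgroup of order at least 32. Then (a) for any two elementary abelian subgroups A, B of X of order 8 there is a chain A = A₁, A₂, …, Aₙ = B of elementary abelian subgroups of order 8 in which consecutive members commute elementwise; and (b) every elementary abelian subgroup of X of order 4 is contained in an elementary abelian subgroup of order 8. -/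
theorem result {X : Type*} [Group X] [Finite X]
    (hX : IsPGroup 2 X) (E : Subgroup X) [E.Normal] (hE : Cfsg.IsElementaryAbelian 2 E) (hE32 : 32 ≤ Nat.card ↥E) :
    (∀ A B : Subgroup X, Cfsg.IsElementaryAbelian 2 A → Nat.card ↥A = 8 → Cfsg.IsElementaryAbelian 2 B → Nat.card ↥B = 8 →
        Relation.ReflTransGen
          (fun C D : Subgroup X => Cfsg.IsElementaryAbelian 2 C ∧ Nat.card ↥C = 8 ∧ Cfsg.IsElementaryAbelian 2 D ∧ Nat.card ↥D = 8 ∧ ⁅C, D⁆ = ⊥)
          A B) ∧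
      (∀ V : Subgroup X, Cfsg.IsElementaryAbelian 2 V → Nat.card ↥V = 4 →
        ∃ A : Subgroup X, V ≤ A ∧ Cfsg.IsElementaryAbelian 2 A ∧ Nat.card ↥A = 8) := by
  have toEl : ∀ A : Subgroup X, Cfsg.IsElementaryAbelian 2 A →
      (∀ x ∈ A, ∀ y ∈ A, x * y = y * x) ∧ (∀ x ∈ A, x * x = 1) := by
    intro A h
    obtain ⟨h1, h2⟩ := h
    refine ⟨fun x hx y hy => congrArg Subtype.val (mul_comm' (⟨x, hx⟩ : A) ⟨y, hy⟩),
      fun x hx => ?_⟩
    have := h2 x hx
    rwa [pow_two] at this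
  have ofEl : ∀ A : Subgroup X, (∀ x ∈ A, ∀ y ∈ A, x * y = y * x) → (∀ x ∈ A, x * x = 1) →
      Cfsg.IsElementaryAbelian 2 A := by
    intro A h1 h2
    exact ⟨⟨⟨fun x y => Subtype.ext (h1 x x.2 y y.2)⟩⟩, fun a ha => by rw [pow_two]; exact h2 a ha⟩
  obtain ⟨hEc, hE2⟩ := toEl E hE
  constructor
  · intro A B hA hA8 hB hB8
    have hR : ∀ C D : Subgroup X, (∀ x ∈ C, ∀ y ∈ C, x * y = y * x) → (∀ x ∈ C, x * x = 1) →
        Nat.card ↥C = 8 → (∀ x ∈ D, ∀ y ∈ D, x * y = y * x) → (∀ x ∈ D, x * x = 1) →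
        Nat.card ↥D = 8 → (∀ x ∈ C, ∀ y ∈ D, x * y = y * x) →
        (fun C D : Subgroup X => Cfsg.IsElementaryAbelian 2 C ∧ Nat.card ↥C = 8 ∧
          Cfsg.IsElementaryAbelian 2 D ∧ Nat.card ↥D = 8 ∧ ⁅C, D⁆ = ⊥) C D := by
      intro C D hCc hC2 hC8 hDc hD2 hD8 hCD
      refine ⟨ofEl C hCc hC2, hC8, ofEl D hDc hD2, hD8, ?_⟩
      rw [Subgroup.commutator_eq_bot_iff_le_centralizer]
      intro x hx
      rw [Subgroup.mem_centralizer_iff]
      intro y hy
      exact (hCD x hx y hy).symm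
    have hsymm : ∀ C D : Subgroup X, (fun C D : Subgroup X => Cfsg.IsElementaryAbelian 2 C ∧
        Nat.card ↥C = 8 ∧ Cfsg.IsElementaryAbelian 2 D ∧ Nat.card ↥D = 8 ∧ ⁅C, D⁆ = ⊥) C D →
        (fun C D : Subgroup X => Cfsg.IsElementaryAbelian 2 C ∧
        Nat.card ↥C = 8 ∧ Cfsg.IsElementaryAbelian 2 D ∧ Nat.card ↥D = 8 ∧ ⁅C, D⁆ = ⊥) D C := by
      rintro C D ⟨h1, h2, h3, h4, h5⟩
      exact ⟨h3, h4, h1, h2, by rw [Subgroup.commutator_comm]; exact h5⟩
    have hrev : ∀ C D : Subgroup X, Relation.ReflTransGen (fun C D : Subgroup X =>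
        Cfsg.IsElementaryAbelian 2 C ∧ Nat.card ↥C = 8 ∧ Cfsg.IsElementaryAbelian 2 D ∧
        Nat.card ↥D = 8 ∧ ⁅C, D⁆ = ⊥) C D → Relation.ReflTransGen (fun C D : Subgroup X =>
        Cfsg.IsElementaryAbelian 2 C ∧ Nat.card ↥C = 8 ∧ Cfsg.IsElementaryAbelian 2 D ∧
        Nat.card ↥D = 8 ∧ ⁅C, D⁆ = ⊥) D C := by
      intro C D h
      induction h with
      | refl => exact Relation.ReflTransGen.refl
      | tail _ hbc ih => exact Relation.ReflTransGen.head (hsymm _ _ hbc) ih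
    obtain ⟨A', hA'E, hA'8, hA'c, hA'2, hchainA⟩ :=
      Cfsg.Agent.H36.e8_connected_into E hEc hE2 hE32 _ hR 8 A (toEl A hA).1 (toEl A hA).2 hA8
        (by omega)
    obtain ⟨B', hB'E, hB'8, hB'c, hB'2, hchainB⟩ :=
      Cfsg.Agent.H36.e8_connected_into E hEc hE2 hE32 _ hR 8 B (toEl B hB).1 (toEl B hB).2 hB8
        (by omega)
    have hA'B' := hR A' B' hA'c hA'2 hA'8 hB'c hB'2 hB'8
      (fun x hx y hy => hEc x (hA'E hx) y (hB'E hy))
    refine hchainA.trans ?_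
    exact Relation.ReflTransGen.head hA'B' (hrev _ _ hchainB)
  · intro V hV hV4
    obtain ⟨hVc, hV2⟩ := toEl V hV
    obtain ⟨e, heE, heV, hec⟩ :=
      Cfsg.Agent.H36.exists_centralizing_outside E hEc hE2 hE32 V hVc hV2 (Or.inl hV4)
    obtain ⟨hmem, hcard⟩ := Cfsg.Agent.H36.sup_zpowers_involution V e heV (hE2 e heE) hec
    obtain ⟨h1, h2⟩ :=
      Cfsg.Agent.H36.elem_abelian_sup_involution V e hVc hV2 heV (hE2 e heE) hec
    exact ⟨V ⊔ Subgroup.zpowers e, le_sup_left, ofEl _ h1 h2, by rw [hcard, hV4]⟩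

end Cfsg.Agent.S1785
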