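import Cfsg.Statements.S1850
import Cfsg.Agent.H54.FStar
import Cfsg.Agent.H54.SPE2

set_option autoImplicit false
open Cfsg

namespace Cfsg.Agent.S1850

open Cfsg.Agent.H54

/-- In a finite group: if `N_G(B)` has characteristic `p` for some subgroup `B` of the `p`-group `U`,
then `N_G(U)` has characteristic `p` (climb the normalizer chain from `B` to `U`). -/
theorem charP_normalizer_of_le {G : Type*} [Group G] [Finite G] {p : ℕ} [Fact p.Prime]
    (U : Subgroup G) (hU : IsPGroup p ↥U) :
    ∀ (n : ℕ) (B : Subgroup G), B ≤ U → CharP p ↥(Subgroup.normalizer (B : Set G)) →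
      Nat.card U - Nat.card B ≤ n → CharP p ↥(Subgroup.normalizer (U : Set G)) := by
  intro n
  induction n with
  | zero =>
    intro B hBU hB hn
    have hle : Nat.card U ≤ Nat.card B := by omega
    have : B = U := Subgroup.eq_of_le_of_card_ge hBU hle
    rw [← this]; exact hB
  | succ n ih =>
    intro B hBU hB hn
    by_cases hBeq : B = U
    · rw [← hBeq]; exact hB
    · have hlt : B < U := lt_of_le_of_ne hBU hBeq
      obtain ⟨y, hyU, hyB, hyN⟩ := exists_mem_normalizer_not_mem_of_lt U B hU hlt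
      have hBB' : B ≤ U ⊓ Subgroup.normalizer (B : Set G) := le_inf hBU Subgroup.le_normalizer
      have hB' : CharP p ↥(Subgroup.normalizer ((U ⊓ Subgroup.normalizer (B : Set G) : Subgroup G) : Set G)) :=
        charP_normalizer_of_centralizer_le (Subgroup.normalizer (B : Set G))
          (U ⊓ Subgroup.normalizer (B : Set G)) hB (hU.to_le inf_le_left) inf_le_right
          ((Subgroup.centralizer_le hBB').trans (Subgroup.centralizer_le_normalizer _))
      refine ih (U ⊓ Subgroup.normalizer (B : Set G)) inf_le_left hB' ?_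
      have hcard : Nat.card B < Nat.card ↥(U ⊓ Subgroup.normalizer (B : Set G)) := by
        by_contra hcon
        have hge : Nat.card ↥(U ⊓ Subgroup.normalizer (B : Set G)) ≤ Nat.card B := by omega
        have heq : B = U ⊓ Subgroup.normalizer (B : Set G) := Subgroup.eq_of_le_of_card_ge hBB' hge
        apply hyB
        rw [heq]
        exact ⟨hyU, hyN⟩
      have hcard2 : Nat.card ↥(U ⊓ Subgroup.normalizer (B : Set G)) ≤ Nat.card U :=
        Subgroup.card_le_of_le inf_le_left
      omega

/-- Let G be a non-abelian finite simple QTKE-group and T a Sylow 2-subgroup of G. If U is a nontrivial 2-subgroup of G with U ∩ Z(T) ≠ 1, then F*(N_G(U)) = O₂(N_G(U)). -/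
theorem result {G : Type*} [Group G] [Finite G] [IsSimpleGroup G]
    (hG : ¬ IsMulCommutative G) (hQ : Cfsg.IsQTKE G) (T : Sylow 2 G) (U : Subgroup G)
    (hU : IsPGroup 2 ↥U) (hZ : U ⊓ ((T : Subgroup G) ⊓ Subgroup.centralizer ((T : Subgroup G) : Set G)) ≠ ⊥) :
    Subgroup.normalizer (U : Set G) ∈ Cfsg.calHe G := by
  haveI : Fact (Nat.Prime 2) := ⟨Nat.prime_two⟩
  set Z₀ : Subgroup G := U ⊓ ((T : Subgroup G) ⊓ Subgroup.centralizer ((T : Subgroup G) : Set G))
    with hZ₀
  have hZ₀U : Z₀ ≤ U := inf_le_left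
  -- the 2-local `M = N_G(Z₀)` contains `T`, hence has characteristic 2
  have hTM : (T : Subgroup G) ≤ Subgroup.normalizer (Z₀ : Set G) := by
    refine le_trans ?_ (Subgroup.centralizer_le_normalizer _)
    intro t ht
    rw [Subgroup.mem_centralizer_iff]
    intro z hz
    have hzc : z ∈ Subgroup.centralizer ((T : Subgroup G) : Set G) := hz.2.2
    exact (Subgroup.mem_centralizer_iff.mp hzc t ht).symm
  have hM : CharP 2 ↥(Subgroup.normalizer (Z₀ : Set G)) :=
    hQ.2.2 (Subgroup.normalizer (Z₀ : Set G)) ⟨Z₀, hU.to_le hZ₀U, hZ, rfl⟩ ⟨T, hTM⟩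
  -- `B₀ = N_U(Z₀)`
  have hZ₀B₀ : Z₀ ≤ U ⊓ Subgroup.normalizer (Z₀ : Set G) := le_inf hZ₀U Subgroup.le_normalizer
  have hB₀ : CharP 2 ↥(Subgroup.normalizer ((U ⊓ Subgroup.normalizer (Z₀ : Set G) : Subgroup G) : Set G)) :=
    charP_normalizer_of_centralizer_le (Subgroup.normalizer (Z₀ : Set G))
      (U ⊓ Subgroup.normalizer (Z₀ : Set G)) hM (hU.to_le inf_le_left) inf_le_right
      ((Subgroup.centralizer_le hZ₀B₀).trans (Subgroup.centralizer_le_normalizer _))
  have hfin := charP_normalizer_of_le U hU _ (U ⊓ Subgroup.normalizer (Z₀ : Set G)) inf_le_left hB₀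
    le_rfl
  exact fstar_eq_pCore_iff_charP.mpr hfin

end Cfsg.Agent.S1850
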