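import Cfsg.Statements.S1961
import Cfsg.Agent.H39.Control

set_option autoImplicit false
open Cfsg

namespace Cfsg.Agent.S1961

/-- Local-to-global control of strong fusion through well-placed subgroups. Let p be a prime, G a finite group with Sylow p-subgroup S, and W a conjugacy functor for p on G. If W controls strong fusion in N_G(T) for every nonidentity subgroup T of S that is well placed in S with respect to W, then W controls strong fusion in G. -/
theorem result {G : Type*} [Group G] [Finite G] {p : ℕ} [Fact p.Prime] (S : Sylow p G) (W : Subgroup G → Subgroup G) (hW : Cfsg.IsConjugacyFunctor p W) (hloc : ∀ T : Subgroup G, T ≠ ⊥ → Cfsg.IsWellPlaced p W (S : Subgroup G) T → Cfsg.ControlsStrongFusionIn p W (Subgroup.normalizer ((T : Subgroup G) : Set G))) : Cfsg.ControlsStrongFusionIn p W ⊤ := by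
  rw [H39.controlsStrongFusionIn_iff]
  refine ⟨S, H39.sylIn_top S, H39.csf_of_local S hW ?_⟩
  intro U hU hwp
  obtain ⟨T', hT', hc⟩ := H39.controlsStrongFusionIn_iff.mp (hloc U hU ((H39.wpIn_top_iff S U).mpr hwp))
  have h0 : H39.SylIn p ((S : Subgroup G) ⊓ Subgroup.normalizer (U : Set G))
      (Subgroup.normalizer (U : Set G)) := by
    have := hwp.2 0
    unfold H39.GoodAt H39.twN at this
    rw [top_inf_eq] at this
    exact this
  exact hc.of_sylIn hW hT' h0

end Cfsg.Agent.S1961
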