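import Cfsg.Statements.S1966
import Cfsg.Agent.H39.Cores

set_option autoImplicit false
open Cfsg

namespace Cfsg.Agent.S1966

/-- Let p be a prime, G a finite group with Sylow p-subgroup S and 𝓕 a conjugation family for S in G. Then the members of 𝓕 containing O_p(G) still form a conjugation family for S in G. -/
theorem result {G : Type*} [Group G] [Finite G] {p : ℕ} [Fact p.Prime] (S : Sylow p G) (𝓕 : Set (Subgroup G)) (h : Cfsg.IsConjugationFamily 𝓕 (S : Subgroup G)) : Cfsg.IsConjugationFamily {T : Subgroup G | T ∈ 𝓕 ∧ Cfsg.pCore p G ≤ T} (S : Subgroup G) := by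
  obtain ⟨h1, h2⟩ := h
  refine ⟨fun T hT => h1 T hT.1, ?_⟩
  intro A g hne hAS hgA
  have hO : Cfsg.pCore p G ≤ (S : Subgroup G) := H39.pCore_le_sylow S
  have hOn : (Cfsg.pCore p G).Normal := H39.pCore_normal' p
  have hA'S : A ∪ (Cfsg.pCore p G : Set G) ⊆ (S : Subgroup G) := by
    rintro a (ha | ha)
    · exact hAS ha
    · exact hO ha
  have hgA' : (fun a => g⁻¹ * a * g) '' (A ∪ (Cfsg.pCore p G : Set G)) ⊆ (S : Subgroup G) := by
    rintro _ ⟨a, ha | ha, rfl⟩
    · exact hgA ⟨a, ha, rfl⟩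
    · apply hO
      have := hOn.conj_mem a ha g⁻¹
      simpa using this
  obtain ⟨n, T, x, hx, hT, hxN, h0, hstep⟩ := h2 (A ∪ (Cfsg.pCore p G : Set G)) g
    (hne.mono Set.subset_union_left) hA'S hgA'
  refine ⟨n, T, x, hx, ?_, hxN, fun h => Set.subset_union_left.trans (h0 h), ?_⟩
  · intro i
    refine ⟨hT i, ?_⟩
    obtain ⟨i, hi⟩ := i
    cases i with
    | zero =>
      intro o ho
      exact h0 hi (Or.inr ho)
    | succ j =>
      intro o ho
      have hj : j < n := by omega
      have hs := hstep ⟨j, hj⟩ hi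
      set P := ((List.ofFn x).take (j + 1)).prod with hP
      have ho' : P * o * P⁻¹ ∈ Cfsg.pCore p G := hOn.conj_mem o ho P
      have : P⁻¹ * (P * o * P⁻¹) * P ∈ T ⟨j + 1, hi⟩ := hs ⟨P * o * P⁻¹, Or.inr ho', rfl⟩
      have e : P⁻¹ * (P * o * P⁻¹) * P = o := by group
      rwa [e] at this
  · intro i h
    exact (Set.image_mono Set.subset_union_left).trans (hstep i h)

end Cfsg.Agent.S1966
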