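import Cfsg.Statements.S1968
import Cfsg.Agent.H39.Tower2

set_option autoImplicit false
open Cfsg

namespace Cfsg.Agent.S1968

/-- Let p be a prime, G a finite group with Sylow p-subgroup S and W a conjugacy functor for p on G with Z(P) ≤ W(P) for every p-subgroup P. Let A be a subgroup of Z(S) normalized by N_G(W(S)) that is not weakly closed in S with respect to G. Then there is a subgroup T of S, well placed in S with respect to W, such that: A ≤ T; N_G(W(N_S(T))) normalizes A; N_S(T) is a Sylow p-subgroup of N_G(T); A ≤ Z(N_S(T)); and A is not weakly closed in N_S(T) with respect to N_G(T), that is, some N_G(T)-conjugate of A other than A lies in N_S(T). -/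
theorem result {G : Type*} [Group G] [Finite G] {p : ℕ} [Fact p.Prime] (S : Sylow p G) (W : Subgroup G → Subgroup G) (hW : Cfsg.IsConjugacyFunctor p W) (hWZ : ∀ P : Subgroup G, IsPGroup p ↥P → P ⊓ Subgroup.centralizer (P : Set G) ≤ W P) (A : Subgroup G) (hAZ : A ≤ (S : Subgroup G) ⊓ Subgroup.centralizer ((S : Subgroup G) : Set G)) (hAN : Subgroup.normalizer ((W (S : Subgroup G) : Subgroup G) : Set G) ≤ Subgroup.normalizer ((A : Subgroup G) : Set G)) (hnwc : ¬ Cfsg.IsWeaklyClosed A (S : Subgroup G)) : ∃ T : Subgroup G, Cfsg.IsWellPlaced p W (S : Subgroup G) T ∧ A ≤ T ∧ Subgroup.normalizer ((W ((S : Subgroup G) ⊓ Subgroup.normalizer ((T : Subgroup G) : Set G)) : Subgroup G) : Set G) ≤ Subgroup.normalizer ((A : Subgroup G) : Set G) ∧ ¬ p ∣ ((S : Subgroup G) ⊓ Subgroup.normalizer ((T : Subgroup G) : Set G)).relIndex (Subgroup.normalizer ((T : Subgroup G) : Set G)) ∧ A ≤ Subgroup.centralizer (((S : Subgroup G) ⊓ Subgroup.normalizer ((T : Subgroup G) : Set G) : Subgroup G)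 : Set G) ∧ ∃ g ∈ Subgroup.normalizer ((T : Subgroup G) : Set G), A.map (MulAut.conj g).toMonoidHom ≤ (S : Subgroup G) ⊓ Subgroup.normalizer ((T : Subgroup G) : Set G) ∧ A.map (MulAut.conj g).toMonoidHom ≠ A := by
  have hAS : A ≤ (S : Subgroup G) := hAZ.trans inf_le_left
  have hex : ∃ g : G, A.map (MulAut.conj g).toMonoidHom ≤ (S : Subgroup G) ∧
      A.map (MulAut.conj g).toMonoidHom ≠ A := by
    by_contra hcon
    apply hnwc
    refine ⟨hAS, fun g hg => ?_⟩
    by_contra hne
    exact hcon ⟨g, hg, hne⟩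
  obtain ⟨g, hg1, hg2⟩ := hex
  obtain ⟨U, hUwp, hAU, hUN, g', -, hg'N, hg'A⟩ :=
    H39.exists_wp_moving hW hWZ (H39.sylIn_top S) (A := (A : Set G)) hAZ
      (fun x _ hx => H39.cjS_eq_iff_mem_normalizer.mpr (hAN hx)) (Subgroup.mem_top g)
      (by rw [H39.cjS_coe]; exact hg1)
      (by rw [H39.cjS_coe]; intro h; exact hg2 (SetLike.coe_injective h))
  have hwp := (H39.wpIn_top_iff S U).mpr hUwp
  refine ⟨U, hwp, hAU, ?_, hwp.2 0, ?_, g', hg'N, ?_, ?_⟩
  · intro x hx
    exact H39.cjS_eq_iff_mem_normalizer.mp (hUN x (Subgroup.mem_top x) hx)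
  · refine le_trans (hAZ.trans inf_le_right) (Subgroup.centralizer_le ?_)
    exact_mod_cast (inf_le_left : (S : Subgroup G) ⊓ Subgroup.normalizer (U : Set G) ≤ (S : Subgroup G))
  · calc A.map (MulAut.conj g').toMonoidHom ≤ U.map (MulAut.conj g').toMonoidHom := H39.conjMap_mono hAU
      _ = U := H39.conjMap_of_mem_normalizer hg'N
      _ ≤ (S : Subgroup G) ⊓ Subgroup.normalizer (U : Set G) := le_inf hwp.1 Subgroup.le_normalizer
  · intro h
    apply hg'A
    rw [H39.cjS_coe, h]

end Cfsg.Agent.S1968
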