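import Cfsg.Statements.S1969
import Cfsg.Agent.H40.SecH

set_option autoImplicit false
universe u
open Cfsg

namespace Cfsg.Agent.S1969

/-- Let p be a prime, G a finite group and W an isomorphism-invariant p-group functor (W assigns to every group Q a subgroup W(Q), nontrivial whenever Q is a nontrivial finite p-group, and every isomorphism from a finite p-group Q onto a group R carries W(Q) onto W(R)). Suppose that W(S*) is normal in G* whenever G* = K/R is a section of G with C_{G*}(O_p(G*)) ≤ O_p(G*) and S* is a Sylow p-subgroup of G*. Then W controls strong fusion in every section of G: for every section K/R and every Sylow p-subgroup T of K/R, the subgroup W(T) controls strong fusion in K/R. -/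
theorem result {G : Type u} [Group G] [Finite G] {p : ℕ} [Fact p.Prime] (W : ∀ (Q : Type u) [Group Q], Subgroup Q) (hW : Cfsg.IsCharPFunctor.{u} p W) (hloc : ∀ (K R : Subgroup G) [hR : (R.subgroupOf K).Normal], Subgroup.centralizer ((Cfsg.pCore p (↥K ⧸ R.subgroupOf K) : Subgroup (↥K ⧸ R.subgroupOf K)) : Set (↥K ⧸ R.subgroupOf K)) ≤ Cfsg.pCore p (↥K ⧸ R.subgroupOf K) → ∀ T : Sylow p (↥K ⧸ R.subgroupOf K), (Cfsg.inducedFunctor (G := (↥K ⧸ R.subgroupOf K)) W ((T : Subgroup (↥K ⧸ R.subgroupOf K)))).Normal) : ∀ (K R : Subgroup G) [hR : (R.subgroupOf K).Normal], ∀ T : Sylow p (↥K ⧸ R.subgroupOf K), Cfsg.ControlsStrongFusion p (Cfsg.inducedFunctor (G := (↥K ⧸ R.subgroupOf K)) W ((T : Subgroup (↥K ⧸ R.subgroupOf K)))) := by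
  classical
  have h𝓦 : ∀ W' ∈ ({W} : Set (∀ (Q : Type u) [Group Q], Subgroup Q)),
      Cfsg.IsCharPFunctor.{u} p W' := by
    rintro W' rfl
    exact hW
  have hyp : Cfsg.Agent.H40.Sec.Hyp (fun (Y : Type u) [Group Y] =>
      Cfsg.FamilyControlsStrongFusionIn p (Cfsg.Agent.H40.Sec.IndFam {W} Y) ⊤) p G := by
    apply Cfsg.Agent.H40.Sec.hyp_of_hloc
    · intro Y Y' _ _ _ e h
      exact Cfsg.Agent.H40.Sec.ctrl_of_equiv h𝓦 Y Y' e h
    · intro K R hR hcon
      obtain ⟨T⟩ : Nonempty (Sylow p (↥K ⧸ R.subgroupOf K)) := inferInstance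
      exact Cfsg.Agent.H39.familyControlsStrongFusionIn_iff.mpr
        ⟨T, Cfsg.Agent.H39.sylIn_top T,
          Cfsg.Agent.H40.Sec.fsf_of_normal (Set.mem_singleton W) _ (hloc K R hcon T)⟩
  intro K R hR T
  have hsec : Cfsg.Agent.H40.Sec.IsSec (↥K ⧸ R.subgroupOf K) G :=
    ⟨K, QuotientGroup.mk' _, QuotientGroup.mk'_surjective _⟩
  have h1 := Cfsg.Agent.H40.Sec.fsf_of_hyp h𝓦 _ (↥K ⧸ R.subgroupOf K) rfl (hyp.of_isSec hsec) T
  refine ⟨T, Cfsg.Agent.H39.cf_le (Cfsg.Agent.H40.Sec.isConjugacyFunctor_induced hW) T.isPGroup', ?_⟩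
  intro A hA
  refine ⟨hA, ?_⟩
  intro g hg
  obtain ⟨g', d, hg'⟩ := h1 (Subgroup.closure A) ((Subgroup.closure_le _).mpr hA) g
    (Subgroup.mem_top _) (Cfsg.Agent.H39.closure_conj_le hg)
  exact ⟨g', Cfsg.Agent.H40.Sec.fchain_single_mem d,
    fun a ha => (hg' a (Subgroup.subset_closure ha)).symm⟩

end Cfsg.Agent.S1969
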