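import Cfsg.Statements.S1970
import Cfsg.Agent.H40.TrE

set_option autoImplicit false
universe u
open Cfsg

namespace Cfsg.Agent.S1970

/-- Let p be a prime, G a finite group and W an isomorphism-invariant p-group functor (W assigns to every group Q a subgroup W(Q), nontrivial whenever Q is a nontrivial finite p-group, and every isomorphism from a finite p-group Q onto a group R carries W(Q) onto W(R)). Suppose that for every section G* = K/R of G with C_{G*}(O_p(G*)) ≤ O_p(G*) and every Sylow p-subgroup S* of G*, one has O_p(G*) ∩ (G*)' = O_p(G*) ∩ (N_{G*}(W(S*)))'. Then W controls transfer in every section G* of G: S* ∩ (G*)' = S* ∩ (N_{G*}(W(S*)))' for a Sylow p-subgroup S* of G*. -/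
theorem result {G : Type u} [Group G] [Finite G] {p : ℕ} [Fact p.Prime] (W : ∀ (Q : Type u) [Group Q], Subgroup Q) (hW : Cfsg.IsCharPFunctor.{u} p W) (hloc : ∀ (K R : Subgroup G) [hR : (R.subgroupOf K).Normal], Subgroup.centralizer ((Cfsg.pCore p (↥K ⧸ R.subgroupOf K) : Subgroup (↥K ⧸ R.subgroupOf K)) : Set (↥K ⧸ R.subgroupOf K)) ≤ Cfsg.pCore p (↥K ⧸ R.subgroupOf K) → ∀ T : Sylow p (↥K ⧸ R.subgroupOf K), Cfsg.pCore p (↥K ⧸ R.subgroupOf K) ⊓ commutator (↥K ⧸ R.subgroupOf K) = Cfsg.pCore p (↥K ⧸ R.subgroupOf K) ⊓ ⁅Subgroup.normalizer ((Cfsg.inducedFunctor (G := (↥K ⧸ R.subgroupOf K)) W ((T : Subgroup (↥K ⧸ R.subgroupOf K))) : Subgroup (↥K ⧸ R.subgroupOf K)) : Set (↥K ⧸ R.subgroupOf K)), Subgroup.normalizer ((Cfsg.inducedFunctor (G := (↥K ⧸ R.subgroupOf K)) W ((T : Subgroup (↥K ⧸ R.subgroupOf K))) : Subgroup (↥K ⧸ R.subgroupOf K)) : Set (↥K ⧸ R.subgroupOf K))⁆) : ∀ (K R : Subgroup G) [hR : (R.subgroupOf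 K).Normal], Cfsg.ControlsTransferIn p (Cfsg.inducedFunctor (G := (↥K ⧸ R.subgroupOf K)) W) ⊤ := by
  classical
  have hyp : Cfsg.Agent.H40.Sec.Hyp (Cfsg.Agent.H40.Sec.HQ p W) p G := by
    apply Cfsg.Agent.H40.Sec.hyp_of_hloc
    · intro Y Y' _ _ _ e h
      exact Cfsg.Agent.H40.Sec.HQ.of_equiv hW Y Y' e h
    · intro K R hR hcon
      exact hloc K R hcon
  intro K R hR
  have hsec : Cfsg.Agent.H40.Sec.IsSec (↥K ⧸ R.subgroupOf K) G :=
    ⟨K, QuotientGroup.mk' _, QuotientGroup.mk'_surjective _⟩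
  obtain ⟨S⟩ : Nonempty (Sylow p (↥K ⧸ R.subgroupOf K)) := inferInstance
  have h := Cfsg.Agent.H40.Sec.fct_of_hq hW _ (↥K ⧸ R.subgroupOf K) rfl (hyp.of_isSec hsec) S
  exact Cfsg.Agent.H39.controlsTransferIn_iff.mpr
    ⟨S, Cfsg.Agent.H39.sylIn_top S, Cfsg.Agent.H40.Sec.fct_singleton_iff.mp h⟩

end Cfsg.Agent.S1970
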