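import Cfsg.Statements.S1972
import Cfsg.Agent.H40.TrI

set_option autoImplicit false
universe u
open Cfsg

namespace Cfsg.Agent.S1972

/-- Let p be a prime, G a finite group and W an isomorphism-invariant p-group functor (W assigns to every group Q a subgroup W(Q), nontrivial whenever Q is a nontrivial finite p-group, and every isomorphism from a finite p-group Q onto a group R carries W(Q) onto W(R)). Suppose that whenever G* = K/R is a section of G with C_{G*}(O_p(G*)) ≤ O_p(G*) and S* is a Sylow p-subgroup of G* with W(S*) not normal in G*, there is an element g of S* outside O_p(G*) such that [X, g, …, g] ≤ Y with p − 1 entries g, for every chief factor X/Y of G* with X ≤ O_p(G*). Then W controls transfer in every section of G. -/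
theorem result {G : Type u} [Group G] [Finite G] {p : ℕ} [Fact p.Prime] (W : ∀ (Q : Type u) [Group Q], Subgroup Q) (hW : Cfsg.IsCharPFunctor.{u} p W) (hloc : ∀ (K R : Subgroup G) [hR : (R.subgroupOf K).Normal], Subgroup.centralizer ((Cfsg.pCore p (↥K ⧸ R.subgroupOf K) : Subgroup (↥K ⧸ R.subgroupOf K)) : Set (↥K ⧸ R.subgroupOf K)) ≤ Cfsg.pCore p (↥K ⧸ R.subgroupOf K) → ∀ T : Sylow p (↥K ⧸ R.subgroupOf K), ¬ (Cfsg.inducedFunctor (G := (↥K ⧸ R.subgroupOf K)) W ((T : Subgroup (↥K ⧸ R.subgroupOf K)))).Normal → ∃ g : (↥K ⧸ R.subgroupOf K), g ∈ (T : Subgroup (↥K ⧸ R.subgroupOf K)) ∧ g ∉ Cfsg.pCore p (↥K ⧸ R.subgroupOf K) ∧ ∀ U V : Subgroup (↥K ⧸ R.subgroupOf K), Cfsg.IsChiefFactor U V → U ≤ Cfsg.pCore p (↥K ⧸ R.subgroupOf K) → Cfsg.iterCommutator U (Subgroup.zpowers g) (p - 1) ≤ V) : ∀ (K R : Subgroup G) [hR : (R.subgroupOf K).Normal], Cfsg.ControlsTransferIn p (Cfsg.inducedFunctor (G := (↥K ⧸ R.subgroupOf K)) W) ⊤ := by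
  classical
  have h𝓦 : ∀ W' ∈ ({W} : Set (∀ (Q : Type u) [Group Q], Subgroup Q)),
      Cfsg.IsCharPFunctor.{u} p W' := by
    intro W' hW'
    rw [Set.mem_singleton_iff] at hW'
    subst hW'
    exact hW
  have claim : ∀ n : ℕ, ∀ (K R : Subgroup G) [hR : (R.subgroupOf K).Normal],
      Nat.card (↥K ⧸ R.subgroupOf K) = n → ∀ S : Sylow p (↥K ⧸ R.subgroupOf K),
      Cfsg.Agent.H39.FCT (Cfsg.Agent.H40.Sec.IndFam {W} (↥K ⧸ R.subgroupOf K)) ⊤
        (S : Subgroup (↥K ⧸ R.subgroupOf K)) := by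
    intro n
    induction n using Nat.strong_induction_on with
    | _ n ih =>
    intro K R hR hn S
    by_contra hnot
    have hprop : ∀ (Y : Type u) [Group Y] [Finite Y],
        Cfsg.Agent.H40.Sec.IsSec Y (↥K ⧸ R.subgroupOf K) →
        Nat.card Y < Nat.card (↥K ⧸ R.subgroupOf K) →
        Cfsg.FamilyControlsTransferIn p (Cfsg.Agent.H40.Sec.IndFam {W} Y) ⊤ := by
      intro Y _ _ hsecY hcard
      have hsecG : Cfsg.Agent.H40.Sec.IsSec Y G :=
        hsecY.trans ⟨K, QuotientGroup.mk' _, QuotientGroup.mk'_surjective _⟩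
      obtain ⟨K', R', hR', ⟨e⟩, -⟩ := hsecG.exists_concrete
      haveI := hR'
      have hc : Nat.card (↥K' ⧸ R'.subgroupOf K') < n := by
        rw [Nat.card_congr e.toEquiv, ← hn]
        exact hcard
      obtain ⟨S'⟩ : Nonempty (Sylow p (↥K' ⧸ R'.subgroupOf K')) := inferInstance
      have h1 := ih _ hc K' R' rfl S'
      exact Cfsg.Agent.H40.Sec.ctrlT_of_equiv h𝓦 _ _ e
        (Cfsg.Agent.H39.familyControlsTransferIn_iff.mpr ⟨S', Cfsg.Agent.H39.sylIn_top S', h1⟩)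
    obtain ⟨hcon, -, -, h4⟩ := Cfsg.Agent.H40.Sec.minimal_counterexample h𝓦
      (Set.singleton_nonempty W) (↥K ⧸ R.subgroupOf K) hprop S hnot
    have hnn : ¬ (Cfsg.inducedFunctor (G := (↥K ⧸ R.subgroupOf K)) W
        (S : Subgroup (↥K ⧸ R.subgroupOf K))).Normal := by
      intro hnorm
      apply hnot
      rw [Cfsg.Agent.H40.Sec.fct_top_iff, Cfsg.Agent.H40.Sec.LL_singleton,
        Subgroup.normalizer_eq_top_iff.mpr hnorm]
    obtain ⟨g, hgS, hgQ, hg⟩ := hloc K R hcon S hnn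
    exact h4 g hgS hgQ hg
  intro K R hR
  obtain ⟨S⟩ : Nonempty (Sylow p (↥K ⧸ R.subgroupOf K)) := inferInstance
  exact Cfsg.Agent.H39.controlsTransferIn_iff.mpr
    ⟨S, Cfsg.Agent.H39.sylIn_top S, Cfsg.Agent.H40.Sec.fct_singleton_iff.mp (claim _ K R rfl S)⟩

end Cfsg.Agent.S1972
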