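import Cfsg.Statements.S1980
import Cfsg.Agent.H39.KSeq

set_option autoImplicit false
open Cfsg

namespace Cfsg.Agent.S1980

/-- Let P be a finite p-group and A an abelian normal subgroup of P. Then A belongs to every family used to build the K-sequence of P: the class-two family, every lower-star family relative to an odd-indexed term, and every upper-star family relative to an even-indexed term. In particular A lies in every term of the K-sequence. -/
theorem result {P : Type*} [Group P] [Finite P] {p : ℕ} [Fact p.Prime] (hP : IsPGroup p P) (A : Subgroup P) [A.Normal] (hA : IsMulCommutative ↥A) : A ∈ Cfsg.classTwoSubgroups P ∧ ∀ n : ℕ, A ∈ Cfsg.kLowerStarFamily (Cfsg.kSeqOdd P n) ∧ A ∈ Cfsg.kUpperStarFamily (Cfsg.kSeqEven P n) := by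
  exact ⟨H39.abelian_normal_mem_classTwo A hA, fun n =>
    ⟨H39.abelian_normal_mem_lower A hA _, H39.abelian_normal_mem_upper A hA _⟩⟩

end Cfsg.Agent.S1980
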