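import Cfsg.Statements.S1981
import Cfsg.Agent.H39.KSeq

set_option autoImplicit false
open Cfsg

namespace Cfsg.Agent.S1981

/-- Let P be a finite p-group generated by its abelian normal subgroups. Then both K-infinity subgroups of P equal P. -/
theorem result {P : Type*} [Group P] [Finite P] {p : ℕ} [Fact p.Prime] (hP : IsPGroup p P) (hgen : ⨆ A ∈ {A : Subgroup P | A.Normal ∧ IsMulCommutative ↥A}, A = ⊤) : Cfsg.kInfLower P = ⊤ ∧ Cfsg.kInfUpper P = ⊤ := by
  have key : ∀ Q : Subgroup P, sSup (kLowerStarFamily Q) = ⊤ ∧ sSup (kUpperStarFamily Q) = ⊤ := by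
    intro Q
    constructor
    · rw [eq_top_iff, ← hgen]
      refine iSup₂_le ?_
      rintro A ⟨hAn, hAc⟩
      haveI := hAn
      exact le_sSup (H39.abelian_normal_mem_lower A hAc Q)
    · rw [eq_top_iff, ← hgen]
      refine iSup₂_le ?_
      rintro A ⟨hAn, hAc⟩
      haveI := hAn
      exact le_sSup (H39.abelian_normal_mem_upper A hAc Q)
  constructor
  · rw [eq_top_iff]
    have h0 : kSeqEven P 0 = ⊤ := (key _).1
    rw [← h0]
    exact le_iSup (kSeqEven P) 0
  · rw [eq_top_iff]
    refine le_iInf ?_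
    intro n
    cases n with
    | zero => exact le_rfl
    | succ n => rw [H39.kSeqOdd_succ, (key _).2]

end Cfsg.Agent.S1981
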