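import Cfsg.Statements.S1989
import Cfsg.Agent.H14.QdFusion
import Cfsg.Agent.H38.QdStable
import Cfsg.Agent.S1987

set_option autoImplicit false
universe u
open Cfsg

namespace Cfsg.Agent.S1989

/-- Let p be an odd prime and G a finite group. Then Qd(p) (the natural semidirect product of an elementary abelian group of order p² by SL₂(p)) is not involved in G if and only if, in every section K/R of G and for every Sylow p-subgroup T of K/R, the lower K-infinity subgroup of T controls strong fusion in K/R. -/
theorem result {G : Type u} [Group G] [Finite G] {p : ℕ} [Fact p.Prime] (hp : p ≠ 2) : ¬ Cfsg.Involves ↥(Cfsg.qd p) G ↔ ∀ (K R : Subgroup G) [hR : (R.subgroupOf K).Normal], ∀ T : Sylow p (↥K ⧸ R.subgroupOf K), Cfsg.ControlsStrongFusion p (Cfsg.inducedFunctor (G := (↥K ⧸ R.subgroupOf K)) Cfsg.kInfLower (T : Subgroup (↥K ⧸ R.subgroupOf K))) := by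
  constructor
  · intro hfree K R hR T
    apply Cfsg.Agent.S1987.result hp _ T
    intro K' R' hR'
    apply Cfsg.Agent.H38.isNormalizerPStable_of_not_involves_qd hp
    intro h
    exact hfree (Cfsg.Agent.H38.involves_of_section K R (Cfsg.Agent.H38.involves_of_section K' R' h))
  · rintro hctl ⟨K, R, hn, ⟨e⟩⟩
    haveI := hn
    obtain ⟨T⟩ := (inferInstance : Nonempty (Sylow p (↥K ⧸ R.subgroupOf K)))
    have h := hctl K R T
    refine Cfsg.Agent.H14.QdFusion.qd_fail e T (Cfsg.kInfLower ↥(T : Subgroup (↥K ⧸ R.subgroupOf K))) ?_ ?_ h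
    · intro hnt
      exact Cfsg.Agent.H40.KInf.isCharPFunctor_kInfLower.1 _ T.isPGroup' hnt
    · rw [Subgroup.characteristic_iff_map_eq]
      intro φ
      exact Cfsg.Agent.H40.KInf.kInfLower_map_equiv φ

end Cfsg.Agent.S1989
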