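import Cfsg.Statements.S1996
import Cfsg.Agent.H40.SecG

set_option autoImplicit false
universe u
open Cfsg

namespace Cfsg.Agent.S1996

/-- Let p be a prime, G a finite group and W₁, W₂ two isomorphism-invariant p-group functors (W assigns to every group Q a subgroup W(Q), nontrivial whenever Q is a nontrivial finite p-group, and every isomorphism from a finite p-group Q onto a group R carries W(Q) onto W(R)). Suppose that G* = N_{G*}(W₁(S*)) N_{G*}(W₂(S*)) whenever G* = K/R is a section of G with C_{G*}(O_p(G*)) ≤ O_p(G*) and S* is a Sylow p-subgroup of G*. Then the pair {W₁, W₂} controls strong fusion in G. -/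
theorem result {G : Type u} [Group G] [Finite G] {p : ℕ} [Fact p.Prime] (W₁ W₂ : ∀ (Q : Type u) [Group Q], Subgroup Q) (hW₁ : Cfsg.IsCharPFunctor.{u} p W₁) (hW₂ : Cfsg.IsCharPFunctor.{u} p W₂) (hfac : ∀ (K R : Subgroup G) [hR : (R.subgroupOf K).Normal], Subgroup.centralizer ((Cfsg.pCore p (↥K ⧸ R.subgroupOf K) : Subgroup (↥K ⧸ R.subgroupOf K)) : Set (↥K ⧸ R.subgroupOf K)) ≤ Cfsg.pCore p (↥K ⧸ R.subgroupOf K) → ∀ T : Sylow p (↥K ⧸ R.subgroupOf K), ∀ x : (↥K ⧸ R.subgroupOf K), ∃ a ∈ Subgroup.normalizer ((Cfsg.inducedFunctor (G := (↥K ⧸ R.subgroupOf K)) W₁ (T : Subgroup (↥K ⧸ R.subgroupOf K)) : Subgroup (↥K ⧸ R.subgroupOf K)) : Set (↥K ⧸ R.subgroupOf K)), ∃ b ∈ Subgroup.normalizer ((Cfsg.inducedFunctor (G := (↥K ⧸ R.subgroupOf K)) W₂ (T : Subgroup (↥K ⧸ R.subgroupOf K)) : Subgroup (↥K ⧸ R.subgroupOf K)) : Set (↥K ⧸ R.subgroupOf K)), x = a * b) : Cfsg.FamilyControlsStrongFusionIn p {Cfsg.inducedFunctor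 (G := G) W₁, Cfsg.inducedFunctor (G := G) W₂} ⊤ := by
  classical
  have h𝓦 : ∀ W ∈ ({W₁, W₂} : Set (∀ (Q : Type u) [Group Q], Subgroup Q)),
      Cfsg.IsCharPFunctor.{u} p W := by
    rintro W (rfl | rfl)
    · exact hW₁
    · exact hW₂
  have hyp : Cfsg.Agent.H40.Sec.Hyp (fun (Y : Type u) [Group Y] =>
      Cfsg.FamilyControlsStrongFusionIn p (Cfsg.Agent.H40.Sec.IndFam {W₁, W₂} Y) ⊤) p G := by
    apply Cfsg.Agent.H40.Sec.hyp_of_hloc
    · intro Y Y' _ _ _ e h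
      exact Cfsg.Agent.H40.Sec.ctrl_of_equiv h𝓦 Y Y' e h
    · intro K R hR hcon
      obtain ⟨T⟩ : Nonempty (Sylow p (↥K ⧸ R.subgroupOf K)) := inferInstance
      exact Cfsg.Agent.H39.familyControlsStrongFusionIn_iff.mpr
        ⟨T, Cfsg.Agent.H39.sylIn_top T,
          Cfsg.Agent.H40.Sec.fsf_of_factorization hW₁ hW₂ T (hfac K R hcon T)⟩
  obtain ⟨S⟩ : Nonempty (Sylow p G) := inferInstance
  have h1 := Cfsg.Agent.H40.Sec.fsf_of_hyp h𝓦 _ G rfl hyp S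
  have e : Cfsg.Agent.H40.Sec.IndFam {W₁, W₂} G =
      {Cfsg.inducedFunctor (G := G) W₁, Cfsg.inducedFunctor (G := G) W₂} :=
    Set.image_pair _ _ _
  rw [e] at h1
  exact Cfsg.Agent.H39.familyControlsStrongFusionIn_iff.mpr ⟨S, Cfsg.Agent.H39.sylIn_top S, h1⟩

end Cfsg.Agent.S1996
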