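import Cfsg.Statements.S1997
import Cfsg.Agent.H14.TripleFac

set_option autoImplicit false
universe u
open Cfsg

namespace Cfsg.Agent.S1997

/-- Let p be a prime, G a finite group with Sylow p-subgroup S, and W₁, W₂ two isomorphism-invariant p-group functors (W assigns to every group Q a subgroup W(Q), nontrivial whenever Q is a nontrivial finite p-group, and every isomorphism from a finite p-group Q onto a group R carries W(Q) onto W(R)). Suppose that G* = C_{G*}(Ω₁Z(S*)) N_{G*}(W₁(S*)) = C_{G*}(Ω₁Z(S*)) N_{G*}(W₂(S*)) = N_{G*}(W₁(S*)) N_{G*}(W₂(S*)) whenever G* = K/R is a section of G with C_{G*}(O_p(G*)) ≤ O_p(G*) and S* is a Sylow p-subgroup of G*, where Ω₁Z denotes the subgroup generated by the elements of order dividing p in the centre. Suppose also Ω₁Z(S) ≤ W₁(S) ∩ W₂(S), and let A be the normal closure of Ω₁Z(S) in N_G(W₁(S)). Then A is an elementary abelian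 subgroup of S, strongly closed in S with respect to G, and A controls strong fusion in G. -/
theorem result {G : Type u} [Group G] [Finite G] {p : ℕ} [Fact p.Prime] (S : Sylow p G) (W₁ W₂ : ∀ (Q : Type u) [Group Q], Subgroup Q) (hW₁ : Cfsg.IsCharPFunctor.{u} p W₁) (hW₂ : Cfsg.IsCharPFunctor.{u} p W₂) (hfac : ∀ (K R : Subgroup G) [hR : (R.subgroupOf K).Normal], Subgroup.centralizer ((Cfsg.pCore p (↥K ⧸ R.subgroupOf K) : Subgroup (↥K ⧸ R.subgroupOf K)) : Set (↥K ⧸ R.subgroupOf K)) ≤ Cfsg.pCore p (↥K ⧸ R.subgroupOf K) → ∀ T : Sylow p (↥K ⧸ R.subgroupOf K), (∀ x : (↥K ⧸ R.subgroupOf K), ∃ a ∈ Subgroup.centralizer ((Cfsg.omegaOne p ((T : Subgroup (↥K ⧸ R.subgroupOf K)) ⊓ Subgroup.centralizer (((T : Subgroup (↥K ⧸ R.subgroupOf K)) : Subgroup (↥K ⧸ R.subgroupOf K)) : Set (↥K ⧸ R.subgroupOf K))) : Subgroup (↥K ⧸ R.subgroupOf K)) : Set (↥K ⧸ R.subgroupOf K)), ∃ b ∈ Subgroup.normalizer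 ((Cfsg.inducedFunctor (G := (↥K ⧸ R.subgroupOf K)) W₁ (T : Subgroup (↥K ⧸ R.subgroupOf K)) : Subgroup (↥K ⧸ R.subgroupOf K)) : Set (↥K ⧸ R.subgroupOf K)), x = a * b) ∧ (∀ x : (↥K ⧸ R.subgroupOf K), ∃ a ∈ Subgroup.centralizer ((Cfsg.omegaOne p ((T : Subgroup (↥K ⧸ R.subgroupOf K)) ⊓ Subgroup.centralizer (((T : Subgroup (↥K ⧸ R.subgroupOf K)) : Subgroup (↥K ⧸ R.subgroupOf K)) : Set (↥K ⧸ R.subgroupOf K))) : Subgroup (↥K ⧸ R.subgroupOf K)) : Set (↥K ⧸ R.subgroupOf K)), ∃ b ∈ Subgroup.normalizer ((Cfsg.inducedFunctor (G := (↥K ⧸ R.subgroupOf K)) W₂ (T : Subgroup (↥K ⧸ R.subgroupOf K)) : Subgroup (↥K ⧸ R.subgroupOf K)) : Set (↥K ⧸ R.subgroupOf K)), x = a * b) ∧ (∀ x : (↥K ⧸ R.subgroupOf K), ∃ a ∈ Subgroup.normalizer ((Cfsg.inducedFunctor (G := (↥K ⧸ R.subgroupOf K)) W₁ (T : Subgroup (↥K ⧸ R.subgroupOf K)) : Subgroup (↥K ⧸ R.subgroupOf K)) : Set (↥K ⧸ R.subgroupOf K)), ∃ b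 ∈ Subgroup.normalizer ((Cfsg.inducedFunctor (G := (↥K ⧸ R.subgroupOf K)) W₂ (T : Subgroup (↥K ⧸ R.subgroupOf K)) : Subgroup (↥K ⧸ R.subgroupOf K)) : Set (↥K ⧸ R.subgroupOf K)), x = a * b)) (hZ : Cfsg.omegaOne p ((S : Subgroup G) ⊓ Subgroup.centralizer (((S : Subgroup G) : Subgroup G) : Set G)) ≤ Cfsg.inducedFunctor (G := G) W₁ (S : Subgroup G) ⊓ Cfsg.inducedFunctor (G := G) W₂ (S : Subgroup G)) (N₁ : Subgroup G) (hN₁ : N₁ = Subgroup.normalizer ((Cfsg.inducedFunctor (G := G) W₁ (S : Subgroup G) : Subgroup G) : Set G)) (A : Subgroup G) (hA : A = (Subgroup.normalClosure (((Cfsg.omegaOne p ((S : Subgroup G) ⊓ Subgroup.centralizer (((S : Subgroup G) : Subgroup G) : Set G))).subgroupOf N₁ : Subgroup ↥N₁) : Set ↥N₁)).map N₁.subtype) : A ≤ (S : Subgroup G) ∧ Cfsg.IsElementaryAbelian p A ∧ Cfsg.IsStronglyClosed A (S : Subgroup G) ∧ Cfsg.ControlsStrongFusion p A := by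
  classical
  subst hN₁
  have hSp : IsPGroup p (S : Subgroup G) := S.isPGroup'
  have hS1 : (S : Subgroup G) ≤ Subgroup.normalizer
      ((Cfsg.inducedFunctor (G := G) W₁ (S : Subgroup G) : Subgroup G) : Set G) :=
    Cfsg.Agent.H40.Sec.sylow_le_normalizer_induced hW₁ hSp
  have hW1S : Cfsg.inducedFunctor (G := G) W₁ (S : Subgroup G) ≤ (S : Subgroup G) :=
    Subgroup.map_subtype_le _
  have h𝓦 : ∀ W ∈ ({W₁, W₂} : Set (∀ (Q : Type u) [Group Q], Subgroup Q)),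
      Cfsg.IsCharPFunctor.{u} p W := by
    rintro W (rfl | rfl)
    · exact hW₁
    · exact hW₂
  have hyp1 : Cfsg.Agent.H40.Sec.Hyp (fun (Y : Type u) [Group Y] =>
      Cfsg.Agent.H14.TripleFac.CZ p W₁ Y) p G := by
    apply Cfsg.Agent.H40.Sec.hyp_of_hloc
    · intro Y Y' _ _ _ e h
      exact Cfsg.Agent.H14.TripleFac.CZ.of_equiv hW₁ e h
    · intro K R hR hcon T x
      exact (hfac K R hcon T).1 x
  have hyp2 : Cfsg.Agent.H40.Sec.Hyp (fun (Y : Type u) [Group Y] =>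
      Cfsg.Agent.H14.TripleFac.CZ p W₂ Y) p G := by
    apply Cfsg.Agent.H40.Sec.hyp_of_hloc
    · intro Y Y' _ _ _ e h
      exact Cfsg.Agent.H14.TripleFac.CZ.of_equiv hW₂ e h
    · intro K R hR hcon T x
      exact (hfac K R hcon T).2.1 x
  have hypF : Cfsg.Agent.H40.Sec.Hyp (fun (Y : Type u) [Group Y] =>
      Cfsg.FamilyControlsStrongFusionIn p (Cfsg.Agent.H40.Sec.IndFam {W₁, W₂} Y) ⊤) p G := by
    apply Cfsg.Agent.H40.Sec.hyp_of_hloc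
    · intro Y Y' _ _ _ e h
      exact Cfsg.Agent.H40.Sec.ctrl_of_equiv h𝓦 Y Y' e h
    · intro K R hR hcon
      obtain ⟨T⟩ : Nonempty (Sylow p (↥K ⧸ R.subgroupOf K)) := inferInstance
      exact Cfsg.Agent.H39.familyControlsStrongFusionIn_iff.mpr
        ⟨T, Cfsg.Agent.H39.sylIn_top T,
          Cfsg.Agent.H40.Sec.fsf_of_factorization hW₁ hW₂ T (hfac K R hcon T).2.2⟩
  obtain ⟨-, hP2⟩ := Cfsg.Agent.H14.TripleFac.main hW₁ hW₂ hyp1 hyp2 hypF S hZ _ ⊤ rfl le_top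
  have hozS : ∀ z ∈ Cfsg.Agent.H14.TripleFac.oz p (S : Subgroup G), z ∈ (S : Subgroup G) :=
    fun z hz => (Subgroup.mem_inf.mp (Cfsg.Agent.H14.TripleFac.oz_le p _ hz)).1
  have hozC : ∀ z ∈ Cfsg.Agent.H14.TripleFac.oz p (S : Subgroup G),
      ∀ s ∈ (S : Subgroup G), s * z = z * s :=
    fun z hz s hs => Subgroup.mem_centralizer_iff.mp
      (Subgroup.mem_inf.mp (Cfsg.Agent.H14.TripleFac.oz_le p _ hz)).2 s hs
  have hAeq : A = Subgroup.closure (Cfsg.Agent.H14.TripleFac.cs p (S : Subgroup G) ⊤ W₁) := by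
    rw [hA]
    show Subgroup.map _ (Subgroup.closure _) = _
    rw [MonoidHom.map_closure]
    congr 1
    ext y
    constructor
    · rintro ⟨a, ha, rfl⟩
      obtain ⟨b, hb, hba⟩ := Group.mem_conjugatesOfSet_iff.mp ha
      obtain ⟨c, hc⟩ := isConj_iff.mp hba
      refine ⟨(c : G), Subgroup.mem_inf.mpr ⟨Subgroup.mem_top _, c.2⟩, (b : G),
        Subgroup.mem_subgroupOf.mp hb, ?_⟩
      rw [← hc]
      simp
    · rintro ⟨n, hn, z, hz, rfl⟩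
      have hnN := (Subgroup.mem_inf.mp hn).2
      have hzN := hS1 (hozS z hz)
      refine ⟨⟨n, hnN⟩ * ⟨z, hzN⟩ * ⟨n, hnN⟩⁻¹, ?_, by simp⟩
      apply Group.mem_conjugatesOfSet_iff.mpr
      exact ⟨⟨z, hzN⟩, Subgroup.mem_subgroupOf.mpr hz, isConj_iff.mpr ⟨⟨n, hnN⟩, rfl⟩⟩
  have hgenW : ∀ y ∈ Cfsg.Agent.H14.TripleFac.cs p (S : Subgroup G) ⊤ W₁,
      y ∈ Cfsg.inducedFunctor (G := G) W₁ (S : Subgroup G) := by
    rintro _ ⟨n, hn, z, hz, rfl⟩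
    exact (Subgroup.mem_normalizer_iff.mp (Subgroup.mem_inf.mp hn).2 z).mp (hZ hz).1
  have hAS : A ≤ (S : Subgroup G) := by
    rw [hAeq, Subgroup.closure_le]
    intro y hy
    exact hW1S (hgenW y hy)
  have hgc : ∀ a ∈ Cfsg.Agent.H14.TripleFac.cs p (S : Subgroup G) ⊤ W₁,
      ∀ b ∈ Cfsg.Agent.H14.TripleFac.cs p (S : Subgroup G) ⊤ W₁, a * b = b * a := by
    rintro _ ⟨c, hc, z, hz, rfl⟩ _ ⟨d, hd, z', hz', rfl⟩
    have hmem : (d⁻¹ * c) * z * (d⁻¹ * c)⁻¹ ∈ (S : Subgroup G) :=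
      hW1S (hgenW _ ⟨d⁻¹ * c, mul_mem (inv_mem hd) hc, z, hz, rfl⟩)
    have h1 := hozC z' hz' _ hmem
    calc c * z * c⁻¹ * (d * z' * d⁻¹)
        = d * ((d⁻¹ * c) * z * (d⁻¹ * c)⁻¹ * z') * d⁻¹ := by group
      _ = d * (z' * ((d⁻¹ * c) * z * (d⁻¹ * c)⁻¹)) * d⁻¹ := by rw [h1]
      _ = d * z' * d⁻¹ * (c * z * c⁻¹) := by group
  have hgp : ∀ a ∈ Cfsg.Agent.H14.TripleFac.cs p (S : Subgroup G) ⊤ W₁, a ^ p = 1 := by
    rintro _ ⟨c, hc, z, hz, rfl⟩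
    rw [conj_pow, Cfsg.Agent.H14.TripleFac.oz_pow p _ z hz]
    group
  have hNA : ∀ x₀ ∈ (⊤ : Subgroup G) ⊓ Subgroup.normalizer
      ((Subgroup.closure (Cfsg.Agent.H14.TripleFac.cs p (S : Subgroup G) ⊤ W₁) : Subgroup G) :
        Set G), x₀ ∈ Subgroup.normalizer (A : Set G) := by
    intro x₀ hx₀
    rw [hAeq]
    exact (Subgroup.mem_inf.mp hx₀).2
  refine ⟨hAS, ⟨?_, ?_⟩, ⟨hAS, ?_⟩, ⟨S, hAS, ?_⟩⟩
  · have hc := Cfsg.Agent.H14.TripleFac.closure_comm _ hgc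
    refine ⟨⟨fun a b => Subtype.ext ?_⟩⟩
    have ha : (a : G) ∈ Subgroup.closure
        (Cfsg.Agent.H14.TripleFac.cs p (S : Subgroup G) ⊤ W₁) := by rw [← hAeq]; exact a.2
    have hb : (b : G) ∈ Subgroup.closure
        (Cfsg.Agent.H14.TripleFac.cs p (S : Subgroup G) ⊤ W₁) := by rw [← hAeq]; exact b.2
    exact hc _ ha _ hb
  · intro a ha
    rw [hAeq] at ha
    exact Cfsg.Agent.H14.TripleFac.closure_pow _ p hgc hgp a ha
  · intro x hx g hg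
    have hB : Subgroup.zpowers x ≤ (S : Subgroup G) := by
      rw [Subgroup.zpowers_le]; exact hAS hx
    have hgB : (Subgroup.zpowers x).map (MulEquiv.toMonoidHom (MulAut.conj g)) ≤
        (S : Subgroup G) := by
      rw [Cfsg.Agent.H39.conjMap_le_iff]
      rintro q ⟨k, rfl⟩
      have : g * x ^ k * g⁻¹ = (g * x * g⁻¹) ^ k := by rw [conj_zpow]
      rw [this]
      exact zpow_mem hg k
    obtain ⟨x₀, hx₀, hx₀e⟩ := hP2 _ hB g (Subgroup.mem_top g) hgB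
    rw [← hx₀e x (Subgroup.mem_zpowers x)]
    exact (Subgroup.mem_normalizer_iff.mp (hNA x₀ hx₀) x).mp hx
  · intro 𝒜 h𝒜
    refine ⟨h𝒜, fun g hg => ?_⟩
    have hB : Subgroup.closure 𝒜 ≤ (S : Subgroup G) := (Subgroup.closure_le _).mpr h𝒜
    obtain ⟨x₀, hx₀, hx₀e⟩ := hP2 _ hB g (Subgroup.mem_top g)
      (Cfsg.Agent.H39.closure_conj_le hg)
    exact ⟨x₀, hNA x₀ hx₀, fun a ha => (hx₀e a (Subgroup.subset_closure ha)).symm⟩

end Cfsg.Agent.S1997
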