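import Cfsg.Statements.S2004
import Cfsg.Agent.H29.QuadLift

set_option autoImplicit false
open Cfsg

namespace Cfsg.Agent.S2004

/-- Let p be an odd prime and G a finite group such that SL₂(p) is not involved in N_G(P) for any nonidentity p-subgroup P of G. Then every section of G is p-stable in the normalizer form: in each section, whenever an element of the normalizer of a p-subgroup Q acts quadratically on Q, its image in N(Q)/C(Q) lies in O_p(N(Q)/C(Q)). -/
theorem result {G : Type*} [Group G] [Finite G] {p : ℕ} [Fact p.Prime] (hp : p ≠ 2) (h : ∀ P : Subgroup G, IsPGroup p ↥P → P ≠ ⊥ → ¬ Cfsg.Involves (Matrix.SpecialLinearGroup (Fin 2) (ZMod p)) ↥(Subgroup.normalizer ((P : Subgroup G) : Set G))) : ∀ (K R : Subgroup G) [hR : (R.subgroupOf K).Normal], Cfsg.IsNormalizerPStable p (↥K ⧸ R.subgroupOf K) := by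
  intro K R hR Pb hPb g hg hq
  by_cases hbot : Pb = ⊥
  · subst hbot
    have h1 : (QuotientGroup.mk (s := (Subgroup.centralizer (((⊥ : Subgroup (↥K ⧸ R.subgroupOf K)) :
        Set (↥K ⧸ R.subgroupOf K)))).subgroupOf (Subgroup.normalizer _))
        (⟨g, hg⟩ : ↥(Subgroup.normalizer (((⊥ : Subgroup (↥K ⧸ R.subgroupOf K)) :
        Set (↥K ⧸ R.subgroupOf K)))))) = 1 := by
      rw [QuotientGroup.eq_one_iff, Subgroup.mem_subgroupOf, Subgroup.mem_centralizer_iff]
      intro x hx
      have : x = 1 := Subgroup.mem_bot.1 hx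
      rw [this, one_mul, mul_one]
    rw [h1]
    exact Subgroup.one_mem _
  rcases Cfsg.Agent.H29.QP.quad_normal_pgroup hp Pb hPb g hg hq with h1 | h1
  · exact h1
  · exfalso
    obtain ⟨P₀, hP₀, hne, hInv⟩ := Cfsg.Agent.H29.QP.invSL_lift
      (QuotientGroup.mk' (R.subgroupOf K)) (QuotientGroup.mk'_surjective _) Pb hPb hbot h1
    have h2 := Cfsg.Agent.H29.QP.invSL_normalizer_map K P₀ hInv
    refine h (P₀.map K.subtype) (hP₀.map _) ?_ (Cfsg.Agent.H29.QP.involves_of_invSL h2)
    intro hb
    exact hne ((Subgroup.map_eq_bot_iff_of_injective P₀ (Subgroup.subtype_injective K)).1 hb)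

end Cfsg.Agent.S2004
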