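import Cfsg.Statements.S2007
import Cfsg.Agent.H40.PComp

set_option autoImplicit false
open Cfsg

namespace Cfsg.Agent.S2007

/-- Let p be a prime, G a finite group with Sylow p-subgroup S, and T a normal subgroup of S containing C_S(T). If N_G(T)/C_G(T) is a p-group (every element of N_G(T) of order prime to p centralizes T), then N_G(T) has a normal p-complement. -/
theorem result {G : Type*} [Group G] [Finite G] {p : ℕ} [Fact p.Prime] (S : Sylow p G) (T : Subgroup G) (hTS : T ≤ (S : Subgroup G)) (hTn : (S : Subgroup G) ≤ Subgroup.normalizer ((T : Subgroup G) : Set G)) (hC : (S : Subgroup G) ⊓ Subgroup.centralizer ((T : Subgroup G) : Set G) ≤ T) (hN : ∀ g ∈ Subgroup.normalizer ((T : Subgroup G) : Set G), (orderOf g).Coprime p → g ∈ Subgroup.centralizer ((T : Subgroup G) : Set G)) : Cfsg.HasNormalPComplement p ↥(Subgroup.normalizer ((T : Subgroup G) : Set G)) := by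
  classical
  set NT := Subgroup.normalizer ((T : Subgroup G) : Set G) with hNT
  haveI hTn' : (T.subgroupOf NT).Normal := Subgroup.normal_in_normalizer
  let C : Subgroup NT := Subgroup.centralizer ((T.subgroupOf NT : Subgroup NT) : Set NT)
  haveI hCn : C.Normal := Subgroup.normal_centralizer
  let S' : Sylow p NT := S.subtype hTn
  let Z : Sylow p C := Cfsg.Agent.H40.sylowInfNormal S' C
  refine Cfsg.Agent.H40.hasNormalPComplement_of_central_sylow C Z ?_ ?_
  · intro z hz
    have hz1 : (z : NT) ∈ (S' : Subgroup NT) := hz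
    have hz2 : ((z : NT) : G) ∈ (S : Subgroup G) := hz1
    have hz3 : ((z : NT) : G) ∈ Subgroup.centralizer ((T : Subgroup G) : Set G) := by
      rw [Subgroup.mem_centralizer_iff]
      intro t ht
      have htn : t ∈ NT := Subgroup.le_normalizer ht
      have := (Subgroup.mem_centralizer_iff.mp z.2) ⟨t, htn⟩ ht
      exact congrArg Subtype.val this
    have hz4 : ((z : NT) : G) ∈ T := hC ⟨hz2, hz3⟩
    rw [Subgroup.mem_center_iff]
    intro c
    have := (Subgroup.mem_centralizer_iff.mp c.2) (z : NT) hz4
    exact Subtype.ext this.symm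
  · intro g hg
    have h1 : orderOf (g : G) = orderOf g := orderOf_injective NT.subtype NT.subtype_injective g
    have h2 := hN (g : G) g.2 (h1 ▸ hg)
    show g ∈ Subgroup.centralizer ((T.subgroupOf NT : Subgroup NT) : Set NT)
    rw [Subgroup.mem_centralizer_iff]
    intro t ht
    have := (Subgroup.mem_centralizer_iff.mp h2) (t : G) ht
    exact Subtype.ext this

end Cfsg.Agent.S2007
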