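import Cfsg.Statements.S2008
import Cfsg.Agent.H40.Crit19

set_option autoImplicit false
open Cfsg

namespace Cfsg.Agent.S2008

/-- Let H be a finite group and z an involution such that every proper normal subgroup of H meets the centralizer of z trivially, and suppose z lies in a Klein four-subgroup E of H all three of whose involutions are conjugate to z in H. Then H has no non-trivial abelian normal subgroup. -/
theorem result {H : Type*} [Group H] [Finite H] (z : H) (hz : orderOf z = 2) (hN : ∀ N : Subgroup H, N.Normal → N ≠ ⊤ → N ⊓ Subgroup.centralizer ({z} : Set H) = ⊥) (E : Subgroup H) (hE : IsKleinFour ↥E) (hzE : z ∈ E) (hc : ∀ e ∈ E, e ≠ 1 → IsConj z e) (N : Subgroup H) [N.Normal] (hab : IsMulCommutative ↥N) : N = ⊥ := by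
  by_cases hNt : N = ⊤
  · exfalso
    -- H is abelian, so every nonidentity element of E equals z
    have hcomm : ∀ a b : H, a * b = b * a := by
      intro a b
      have ha : a ∈ N := by rw [hNt]; exact Subgroup.mem_top a
      have hb : b ∈ N := by rw [hNt]; exact Subgroup.mem_top b
      have := mul_comm' (⟨a, ha⟩ : N) ⟨b, hb⟩
      exact congrArg Subtype.val this
    have hall : ∀ e ∈ E, e ≠ 1 → e = z := by
      intro e he he1
      obtain ⟨g, hg⟩ := isConj_iff.mp (hc e he he1)
      rw [← hg, hcomm g z, mul_assoc, mul_inv_cancel, mul_one]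
    have hsub : (Set.univ : Set E) ⊆ {1, ⟨z, hzE⟩} := by
      intro b _
      by_cases hb : b = 1
      · left; exact hb
      · right
        exact Subtype.ext (hall b b.2 (fun h => hb (Subtype.ext h)))
    have hle : Nat.card E ≤ 2 := by
      have h7 := Set.ncard_le_ncard hsub (Set.toFinite _)
      rw [Set.ncard_univ] at h7
      exact h7.trans (Set.ncard_insert_le _ _ |>.trans (by simp))
    have := hE.card_four
    omega
  · exact Cfsg.Agent.H40.crit19_core z hz hN E hE hzE hc N inferInstance hNt

end Cfsg.Agent.S2008
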