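import Cfsg.Statements.S3958
import Cfsg.Agent.H69.HopfSplit

set_option autoImplicit false
universe u v
open Cfsg

namespace Cfsg.Agent.S3958

/-- Let `σ : Γ →* Q` be a finite stem extension of the finite group `Q` with `Γ` of trivial Schur multiplier. Then `σ` is a Schur covering group of `Q`: for every finite stem extension `τ : Δ →* Q` with `Δ` in the same universe as `Q`, the kernel of `τ` is a homomorphic image of the kernel of `σ`. -/
theorem result {Q : Type u} [Group Q] [Finite Q] {Γ : Type v} [Group Γ] [Finite Γ] (σ : Γ →* Q) (hσ : Cfsg.IsStemExtension σ) (hΓ : Cfsg.HasCyclicSchurMultiplier Γ 1) (Δ : Type u) [Group Δ] [Finite Δ] (τ : Δ →* Q) (hτ : Cfsg.IsStemExtension τ) : ∃ π : σ.ker →* τ.ker, Function.Surjective π := by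
  classical
  -- the Hopf multiplier of `Γ` is trivial
  have hM : Cfsg.Agent.H69.hopfM Γ = ⊥ := by
    obtain ⟨Γ', _, _, σ', hσ', ⟨e'⟩⟩ := Cfsg.Agent.H69.hopf_exists_cover Γ
    have h1 := Cfsg.Agent.H69.ker_eq_bot_of_hasTrivialSchurMultiplier hΓ Γ' σ' hσ'
    rw [eq_bot_iff]
    intro m hm
    have h2 : (e'.symm ⟨m, hm⟩ : Γ') ∈ (⊥ : Subgroup Γ') := (le_of_eq h1) (e'.symm ⟨m, hm⟩).2
    rw [Subgroup.mem_bot] at h2
    have h3 : e'.symm ⟨m, hm⟩ = 1 := Subtype.ext h2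
    have h4 : (⟨m, hm⟩ : ↥(Cfsg.Agent.H69.hopfM Γ)) = 1 := by
      rw [← e'.apply_symm_apply ⟨m, hm⟩, h3, map_one]
    rw [Subgroup.mem_bot]
    exact congrArg Subtype.val h4
  -- the pullback
  obtain ⟨P, hP⟩ : ∃ P : Subgroup (Γ × Δ), P =
      (σ.comp (MonoidHom.fst Γ Δ)).eqLocus (τ.comp (MonoidHom.snd Γ Δ)) := ⟨_, rfl⟩
  have hPmem : ∀ x : ↥P, σ x.1.1 = τ x.1.2 := by
    intro x
    exact (le_of_eq hP) x.2
  have hPmk : ∀ (g : Γ) (d : Δ), σ g = τ d → (g, d) ∈ P := by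
    intro g d h
    rw [hP]
    exact h
  let p₁ : ↥P →* Γ := (MonoidHom.fst Γ Δ).comp P.subtype
  let p₂ : ↥P →* Δ := (MonoidHom.snd Γ Δ).comp P.subtype
  have hp₁ : Function.Surjective p₁ := by
    intro g
    obtain ⟨d, hd⟩ := hτ.1 (σ g)
    exact ⟨⟨(g, d), hPmk g d hd.symm⟩, rfl⟩
  have hp₂ : Function.Surjective p₂ := by
    intro d
    obtain ⟨g, hg⟩ := hσ.1 (τ d)
    exact ⟨⟨(g, d), hPmk g d hg⟩, rfl⟩
  have hc₁ : p₁.ker ≤ Subgroup.center ↥P := by
    intro x hx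
    have hx1 : x.1.1 = 1 := MonoidHom.mem_ker.mp hx
    have hx2 : x.1.2 ∈ Subgroup.center Δ := by
      apply hτ.2.1
      rw [MonoidHom.mem_ker, ← hPmem, hx1, map_one]
    rw [Subgroup.mem_center_iff]
    intro y
    apply Subtype.ext
    apply Prod.ext
    · show y.1.1 * x.1.1 = x.1.1 * y.1.1
      rw [hx1, mul_one, one_mul]
    · show y.1.2 * x.1.2 = x.1.2 * y.1.2
      exact Subgroup.mem_center_iff.mp hx2 y.1.2
  obtain ⟨φ, hφ⟩ := Cfsg.Agent.H69.hopf_lift Γ p₁ hp₁ hc₁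
  have himg := Cfsg.Agent.H69.hopf_image Γ p₁ hc₁ φ hφ
  rw [hM, Subgroup.map_bot] at himg
  -- commutators map onto commutators
  have hcomm₁ : commutator Γ ≤ (commutator ↥P).map p₁ := by
    rw [commutator_def, commutator_def, Subgroup.map_commutator, ← MonoidHom.range_eq_map,
      MonoidHom.range_eq_top.mpr hp₁]
  have hcomm₂ : commutator Δ ≤ (commutator ↥P).map p₂ := by
    rw [commutator_def, commutator_def, Subgroup.map_commutator, ← MonoidHom.range_eq_map,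
      MonoidHom.range_eq_top.mpr hp₂]
  -- the subgroup of the commutator subgroup lying over `ker σ`
  obtain ⟨D, hD⟩ : ∃ D : Subgroup ↥P, D = commutator ↥P ⊓ (σ.ker).comap p₁ := ⟨_, rfl⟩
  have hD1 : ∀ x : ↥D, x.1 ∈ commutator ↥P := by
    intro x
    exact ((le_of_eq hD) x.2).1
  have hD2 : ∀ x : ↥D, p₁ x.1 ∈ σ.ker := by
    intro x
    exact ((le_of_eq hD) x.2).2
  let E : ↥D →* σ.ker := (p₁.comp D.subtype).codRestrict σ.ker hD2
  have hEinj : Function.Injective E := by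
    rw [injective_iff_map_eq_one]
    intro x hx
    have h1 : p₁ x.1 = 1 := congrArg Subtype.val hx
    have h2 : x.1 ∈ p₁.ker ⊓ commutator ↥P := ⟨MonoidHom.mem_ker.mpr h1, hD1 x⟩
    rw [himg, Subgroup.mem_bot] at h2
    exact Subtype.ext h2
  have hEsurj : Function.Surjective E := by
    rintro ⟨k, hk⟩
    obtain ⟨x, hx, hxk⟩ := hcomm₁ (hσ.2.2 hk)
    have hxD : x ∈ D := by
      rw [hD]
      have h9 : x ∈ (σ.ker).comap p₁ := by
        rw [Subgroup.mem_comap, hxk]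
        exact hk
      exact ⟨hx, h9⟩
    exact ⟨⟨x, hxD⟩, Subtype.ext hxk⟩
  let g : ↥D →* τ.ker := (p₂.comp D.subtype).codRestrict τ.ker (by
    intro x
    rw [MonoidHom.mem_ker]
    have h1 : τ (p₂ x.1) = σ (p₁ x.1) := (hPmem x.1).symm
    show τ (p₂ x.1) = 1
    rw [h1]
    exact MonoidHom.mem_ker.mp (hD2 x))
  have hgsurj : Function.Surjective g := by
    rintro ⟨d, hd⟩
    obtain ⟨x, hx, hxd⟩ := hcomm₂ (hτ.2.2 hd)
    have hxD : x ∈ D := by
      rw [hD]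
      have h9 : x ∈ (σ.ker).comap p₁ := by
        rw [Subgroup.mem_comap, MonoidHom.mem_ker]
        have h1 : σ (p₁ x) = τ (p₂ x) := hPmem x
        rw [h1, hxd]
        exact MonoidHom.mem_ker.mp hd
      exact ⟨hx, h9⟩
    exact ⟨⟨x, hxD⟩, Subtype.ext hxd⟩
  let Ee : ↥D ≃* σ.ker := MulEquiv.ofBijective E ⟨hEinj, hEsurj⟩
  exact ⟨g.comp Ee.symm.toMonoidHom, hgsurj.comp Ee.symm.surjective⟩

end Cfsg.Agent.S3958
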