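import Cfsg.Statements.S3962
-- import your own Cfsg.Agent.* helpers here

set_option autoImplicit false
open Cfsg

namespace Cfsg.Agent.S3962

/-- Let `G` be a perfect group and `π : G →* Q` a surjective homomorphism whose kernel is central. Then `π` maps the centre of `G` onto the centre of `Q`. Taking `π` to be the map to `G ⧸ Z(G)` shows that the central quotient of a perfect group has trivial centre. -/
theorem result {G Q : Type*} [Group G] [Group Q] (hG : Group.IsPerfect G) (π : G →* Q) (hπ : Function.Surjective π) (hker : π.ker ≤ Subgroup.center G) : (Subgroup.center G).map π = Subgroup.center Q := by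
  apply le_antisymm
  · rintro _ ⟨z, hz, rfl⟩
    rw [Subgroup.mem_center_iff]
    intro q
    obtain ⟨g, rfl⟩ := hπ q
    rw [← map_mul, ← map_mul, (Subgroup.mem_center_iff.mp hz g)]
  · intro q hq
    obtain ⟨g, rfl⟩ := hπ q
    refine ⟨g, ?_, rfl⟩
    -- the map h ↦ g * h * g⁻¹ * h⁻¹ takes values in the centre
    have hc : ∀ h : G, g * h * g⁻¹ * h⁻¹ ∈ Subgroup.center G := by
      intro h
      apply hker
      rw [MonoidHom.mem_ker]
      have := (Subgroup.mem_center_iff.mp hq (π h))
      simp only [map_mul, map_inv]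
      rw [← this]
      group
    -- it is a homomorphism to the centre
    let f : G →* Subgroup.center G :=
      { toFun := fun h => ⟨g * h * g⁻¹ * h⁻¹, hc h⟩
        map_one' := by
          apply Subtype.ext
          simp
        map_mul' := by
          intro h1 h2
          apply Subtype.ext
          show g * (h1 * h2) * g⁻¹ * (h1 * h2)⁻¹ = (g * h1 * g⁻¹ * h1⁻¹) * (g * h2 * g⁻¹ * h2⁻¹)
          have e := Subgroup.mem_center_iff.mp (hc h2) h1⁻¹
          calc g * (h1 * h2) * g⁻¹ * (h1 * h2)⁻¹
              = g * h1 * g⁻¹ * ((g * h2 * g⁻¹ * h2⁻¹) * h1⁻¹) := by group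
            _ = g * h1 * g⁻¹ * (h1⁻¹ * (g * h2 * g⁻¹ * h2⁻¹)) := by rw [← e]
            _ = (g * h1 * g⁻¹ * h1⁻¹) * (g * h2 * g⁻¹ * h2⁻¹) := by group }
    have key : commutator G ≤ f.ker := by
      rw [commutator_eq_closure, Subgroup.closure_le]
      rintro x ⟨a, b, rfl⟩
      rw [SetLike.mem_coe, MonoidHom.mem_ker, commutatorElement_def, map_mul, map_mul, map_mul,
        map_inv, map_inv]
      have hcomm : f a * f b = f b * f a := by
        apply Subtype.ext
        exact (Subgroup.mem_center_iff.mp (f a).2 (f b).1).symm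
      rw [hcomm]
      group
    rw [SetLike.mem_coe, Subgroup.mem_center_iff]
    intro h
    have hh : h ∈ commutator G := by
      rw [Group.isPerfect_def.mp hG]; trivial
    have h1 := key hh
    rw [MonoidHom.mem_ker] at h1
    have h2 : g * h * g⁻¹ * h⁻¹ = 1 := congrArg Subtype.val h1
    calc h * g = (g * h * g⁻¹ * h⁻¹)⁻¹ * (g * h) := by group
      _ = g * h := by rw [h2]; simp

end Cfsg.Agent.S3962
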