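import Cfsg.Statements.S3961
import Cfsg.Agent.H69.Central
import Cfsg.Agent.S3962

set_option autoImplicit false
universe u v
open Cfsg

namespace Cfsg.Agent.S3961

/-- Let `π : G →* Q` be a surjective homomorphism with central kernel from a finite perfect group `G` (a perfect cover of `Q`). Then `π` is universal, in the sense that every surjective homomorphism `ξ : X →* Q` with central kernel from a group `X` in the universe of `G` admits a homomorphism `η : G →* X` with `ξ ∘ η = π`, if and only if `G` has trivial Schur multiplier. -/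
theorem result {G : Type u} {Q : Type v} [Group G] [Group Q] [Finite G] (hG : Group.IsPerfect G) (π : G →* Q) (hπ : Function.Surjective π) (hker : π.ker ≤ Subgroup.center G) : (∀ (X : Type u) [Group X] (ξ : X →* Q), Function.Surjective ξ → ξ.ker ≤ Subgroup.center X → ∃ η : G →* X, ξ.comp η = π) ↔ Cfsg.HasCyclicSchurMultiplier G 1 := by
  have hGc : commutator G = ⊤ := Group.isPerfect_def.mp hG
  constructor
  · intro U
    apply Cfsg.Agent.H69.hasTrivialSchurMultiplier_of
    intro Γ _ _ τ hτ
    -- Γ is perfect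
    have hΓ : commutator Γ = ⊤ := by
      rw [eq_top_iff]
      intro y _
      obtain ⟨w, hw, l, hl, rfl⟩ := Cfsg.Agent.H69.exists_mul_ker_of_perfect hGc τ hτ.1 y
      exact Subgroup.mul_mem _ hw (hτ.2.2 hl)
    have hΓp : Group.IsPerfect Γ := Group.isPerfect_def.mpr hΓ
    -- the composite is a central extension
    have hcen : (π.comp τ).ker ≤ Subgroup.center Γ := by
      intro u hu
      have h1 : τ u ∈ π.ker := hu
      have h2 : τ u ∈ Subgroup.center G := hker h1
      rw [← Cfsg.Agent.S3962.result hΓp τ hτ.1 hτ.2.1] at h2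
      obtain ⟨z, hz, hzu⟩ := h2
      have h3 : u * z⁻¹ ∈ τ.ker := by
        rw [MonoidHom.mem_ker, map_mul, map_inv, hzu, mul_inv_cancel]
      have h4 : u = (u * z⁻¹) * z := by group
      rw [h4]
      exact Subgroup.mul_mem _ (hτ.2.1 h3) hz
    obtain ⟨η, hη⟩ := U Γ (π.comp τ) (hπ.comp hτ.1) hcen
    have h5 : τ.comp η = MonoidHom.id G := by
      apply Cfsg.Agent.H69.eq_of_perfect_of_central_diff hGc
      intro g
      apply hker
      have h6 : π (τ (η g)) = π g := DFunLike.congr_fun hη g
      rw [MonoidHom.mem_ker, map_mul, map_inv]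
      show π (τ (η g)) * (π g)⁻¹ = 1
      rw [h6, mul_inv_cancel]
    have h7 : η.comp τ = MonoidHom.id Γ := by
      apply Cfsg.Agent.H69.eq_of_perfect_of_central_diff hΓ
      intro g
      apply hτ.2.1
      have h8 : τ (η (τ g)) = τ g := DFunLike.congr_fun h5 (τ g)
      rw [MonoidHom.mem_ker, map_mul, map_inv]
      show τ (η (τ g)) * (τ g)⁻¹ = 1
      rw [h8, mul_inv_cancel]
    rw [eq_bot_iff]
    intro k hk
    rw [Subgroup.mem_bot]
    have h9 : η (τ k) = k := DFunLike.congr_fun h7 k
    rw [MonoidHom.mem_ker.mp hk, map_one] at h9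
    exact h9.symm
  · intro h X _ ξ hξ hξc
    let P : Subgroup (G × X) := (π.comp (MonoidHom.fst G X)).eqLocus (ξ.comp (MonoidHom.snd G X))
    have hPmem : ∀ y : ↥P, π y.1.1 = ξ y.1.2 := fun y => y.2
    let p₁ : ↥P →* G := (MonoidHom.fst G X).comp P.subtype
    have hp₁ : ∀ y : ↥P, p₁ y = y.1.1 := fun y => rfl
    have hp₁s : Function.Surjective p₁ := by
      intro g
      obtain ⟨x, hx⟩ := hξ (π g)
      exact ⟨⟨(g, x), hx.symm⟩, rfl⟩
    have hp₁c : p₁.ker ≤ Subgroup.center ↥P := by
      intro y hy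
      rw [MonoidHom.mem_ker, hp₁] at hy
      have h2 : y.1.2 ∈ Subgroup.center X := by
        apply hξc
        rw [MonoidHom.mem_ker, ← hPmem y, hy, map_one]
      rw [Subgroup.mem_center_iff]
      intro z
      apply Subtype.ext
      apply Prod.ext
      · show z.1.1 * y.1.1 = y.1.1 * z.1.1
        rw [hy, mul_one, one_mul]
      · exact Subgroup.mem_center_iff.mp h2 z.1.2
    haveI hfin : Finite ↥(commutator ↥P) := Cfsg.Agent.H69.finite_commutator_of_central_ker p₁ hp₁c
    have hperf : commutator ↥(commutator ↥P) = ⊤ := by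
      apply Cfsg.Agent.H69.commutator_perfect_of_central
      intro y
      obtain ⟨w, hw, l, hl, rfl⟩ := Cfsg.Agent.H69.exists_mul_ker_of_perfect hGc p₁ hp₁s y
      exact ⟨w, hw, l, hp₁c hl, rfl⟩
    let τ₁ : ↥(commutator ↥P) →* G := p₁.comp (commutator ↥P).subtype
    have hτ₁s : Function.Surjective τ₁ := by
      intro g
      obtain ⟨y, rfl⟩ := hp₁s g
      obtain ⟨w, hw, l, hl, rfl⟩ := Cfsg.Agent.H69.exists_mul_ker_of_perfect hGc p₁ hp₁s y
      refine ⟨⟨w, hw⟩, ?_⟩
      show p₁ w = p₁ (w * l)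
      rw [map_mul, MonoidHom.mem_ker.mp hl, mul_one]
    have hstem : Cfsg.IsStemExtension τ₁ := by
      refine ⟨hτ₁s, ?_, ?_⟩
      · intro k hk
        have h1 : k.1 ∈ p₁.ker := hk
        have h2 := Subgroup.mem_center_iff.mp (hp₁c h1)
        rw [Subgroup.mem_center_iff]
        intro z
        apply Subtype.ext
        exact h2 z.1
      · rw [hperf]; exact le_top
    have hker1 := Cfsg.Agent.H69.ker_eq_bot_of_hasTrivialSchurMultiplier h ↥(commutator ↥P) τ₁ hstem
    have hinj : Function.Injective τ₁ := (MonoidHom.ker_eq_bot_iff τ₁).mp hker1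
    let e : ↥(commutator ↥P) ≃* G := MulEquiv.ofBijective τ₁ ⟨hinj, hτ₁s⟩
    refine ⟨(MonoidHom.snd G X).comp (P.subtype.comp ((commutator ↥P).subtype.comp e.symm.toMonoidHom)), ?_⟩
    ext g
    show ξ ((e.symm g).1.1.2) = π g
    rw [← hPmem (e.symm g).1]
    have h3 : (e.symm g).1.1.1 = g := by
      have : e (e.symm g) = g := e.apply_symm_apply g
      exact this
    rw [h3]

end Cfsg.Agent.S3961
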