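import Cfsg.Statements.S2086
import Cfsg.Agent.H91.SMDefs
import Cfsg.Agent.S2117
import Cfsg.Agent.S3958
import Cfsg.Agent.S3961
import Cfsg.Agent.S0248
import Cfsg.Agent.H4.SMId
import Cfsg.Agent.H4.SMFree
import Cfsg.Agent.H4.SMInd
import Cfsg.Agent.H4.SMRel4
import Cfsg.Agent.H53.SMC5
import Cfsg.Agent.H53.SMC4T
import Cfsg.Agent.H53.SMC3T
import Cfsg.Agent.H11.SMC4H
import Cfsg.Agent.H14.SMRel3
import Cfsg.Agent.H75.SMSplit
import Cfsg.Agent.H16.SMArith
import Cfsg.Agent.H62.SMStem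

set_option autoImplicit false
open Cfsg

namespace Cfsg.Agent.S2086
open Cfsg.Agent.H91.SM

/-- Schur multipliers of the linear groups: for n ≥ 2 and a field F with q elements (q ≥ 4 when n = 2), apart from the five exceptional pairs (n, q) = (2, 4), (2, 9), (3, 2), (3, 4), (4, 2), the Schur multiplier of PSL_n(F) is cyclic of order gcd(n, q − 1); here the Schur multiplier is described through stem extensions, as in the definitions. -/
theorem result {F : Type*} [Field F] [Fintype F] {q : ℕ} (hF : Fintype.card F = q) (n : ℕ) (hn : 2 ≤ n) (h2 : n = 2 → 4 ≤ q) (hexc : (n, q) ∉ ({(2, 4), (2, 9), (3, 2), (3, 4), (4, 2)} : Set (ℕ × ℕ))) : Cfsg.HasCyclicSchurMultiplier (Matrix.ProjectiveSpecialLinearGroup (Fin n) F) (Nat.gcd n (q - 1)) := by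
  subst hF
  simp only [Set.mem_insert_iff, Set.mem_singleton_iff, Prod.mk.injEq, not_or, not_and] at hexc
  obtain ⟨he24, he29, he32, he34, he42⟩ := hexc
  have hcard2 : 2 ≤ Fintype.card F := Fintype.one_lt_card
  -- `SL_n(F)` has trivial multiplier
  have hmult : Cfsg.HasCyclicSchurMultiplier (SLn n F) 1 := by
    by_cases hn2 : n = 2
    · subst hn2
      exact Cfsg.Agent.S2117.result (he24 rfl) (he29 rfl)
    · have hn3 : 3 ≤ n := by omega
      have hperf : Group.IsPerfect (SLn n F) :=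
        Group.isPerfect_def.mpr (Cfsg.Agent.S0248.result n hn3)
      refine (Cfsg.Agent.S3961.result hperf (MonoidHom.id (SLn n F)) (fun x => ⟨x, rfl⟩)
        (by rw [MonoidHom.ker_id]; exact bot_le)).1 ?_
      intro X _ ξ hξ hc
      have hComm : Comm ξ := by
        rcases (by omega : n = 3 ∨ n = 4 ∨ 5 ≤ n) with h | h | h5
        · subst h
          obtain ⟨r, hr0, hr⟩ := Cfsg.Agent.H16.SM.arith.1 (he32 rfl) (he34 rfl)
          exact Cfsg.Agent.H53.SM.c3t Cfsg.Agent.H4.SM.free ξ hξ hc r hr0 hr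
        · subst h
          by_cases h3 : Fintype.card F = 3
          · exact Cfsg.Agent.H11.SM.c4h Cfsg.Agent.H4.SM.free ξ hξ hc (Cfsg.Agent.H16.SM.arith.2.2 h3)
          · have h4 : 4 ≤ Fintype.card F := by
              have := he42 rfl
              omega
            obtain ⟨r, hr0, hr⟩ := Cfsg.Agent.H16.SM.arith.2.1 h4
            exact Cfsg.Agent.H53.SM.c4t Cfsg.Agent.H4.SM.free ξ hξ hc r hr0 hr
        · exact Cfsg.Agent.H53.SM.c5 Cfsg.Agent.H4.SM.free ξ hξ hc h5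
      have hInd : Ind ξ := Cfsg.Agent.H4.SM.ind Cfsg.Agent.H4.SM.id3 ξ hξ hc hComm
      have hRel : Rel3 ξ := by
        by_cases h4 : 4 ≤ n
        · exact Cfsg.Agent.H4.SM.rel4 Cfsg.Agent.H4.SM.id3 (Cfsg.Agent.H4.SM.ind Cfsg.Agent.H4.SM.id3) ξ hξ hc h4 hComm
        · obtain rfl : n = 3 := by omega
          obtain ⟨r, hr0, hr⟩ := Cfsg.Agent.H16.SM.arith.1 (he32 rfl) (he34 rfl)
          exact Cfsg.Agent.H14.SM.rel3 ξ hξ hc hComm r hr0 hr
      exact Cfsg.Agent.H75.SM.split ξ hξ hc hn3 hComm hInd hRel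
  obtain ⟨hstem, ⟨e⟩⟩ := Cfsg.Agent.H62.SM.stem (F := F) n hn h2
  refine ⟨⟨SLn n F, inferInstance, inferInstance, QuotientGroup.mk' _, hstem, ⟨e⟩⟩, ?_⟩
  intro Γ _ _ σ hσ
  obtain ⟨π, hπ⟩ := Cfsg.Agent.S3958.result (QuotientGroup.mk' (Subgroup.center (SLn n F)))
    hstem hmult Γ σ hσ
  exact ⟨π.comp e.symm.toMonoidHom, hπ.comp e.symm.surjective⟩

end Cfsg.Agent.S2086
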