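import Cfsg.Statements.S2116
import Cfsg.Agent.H41.AltMult67

set_option autoImplicit false
open Cfsg

namespace Cfsg.Agent.S2116

open Cfsg.Agent.H41

/-- Exceptional Schur multipliers of the alternating groups: for n = 6 and n = 7 the Schur multiplier of the alternating group of degree n is cyclic of order 6 (here the Schur multiplier is described through stem extensions, as in the definitions). -/
theorem result (n : ℕ) (hn : n = 6 ∨ n = 7) : Cfsg.HasCyclicSchurMultiplier (alternatingGroup (Fin n)) 6 := by
  refine ⟨?_, fun Γ _ _ σ hσ => AltMult.alt67_upper n hn Γ σ hσ⟩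
  obtain ⟨Γ3, _, _, σ3, hσ3, ⟨e3⟩⟩ := AltMult.TC.exists_triple_cover_alt n hn
  have h2 : IsStemExtension (Spin.proj n) := by
    refine ⟨Spin.proj_surjective, ?_, ?_⟩
    · rw [Spin.ker_proj, Subgroup.zpowers_le]; exact Spin.zEl_mem_center
    · rw [Spin.ker_proj, Subgroup.zpowers_le]; exact Spin.zEl_mem_commutator (by omega)
  have hcard2 : Nat.card (Spin.proj n).ker = 2 := by
    rw [Spin.ker_proj, Nat.card_zpowers, Spin.orderOf_zEl]
  have hcyc2 : IsCyclic (Spin.proj n).ker := by
    rw [Spin.ker_proj]; infer_instance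
  have hcard3 : Nat.card σ3.ker = 3 := by
    rw [Nat.card_congr e3.toEquiv, Nat.card_eq_fintype_card, Fintype.card_multiplicative,
      ZMod.card]
  have hcyc3 : IsCyclic σ3.ker :=
    isCyclic_of_surjective e3.symm.toMonoidHom e3.symm.surjective
  exact exists_stem_of_coprime (Spin.proj n) σ3 h2 hσ3 2 3 (by norm_num) hcard2 hcard3 hcyc2
    hcyc3

end Cfsg.Agent.S2116
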