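import Cfsg.Statements.S2121
import Cfsg.Agent.H46.OutGG2
import Cfsg.Agent.H18.StbSyl
import Cfsg.Agent.H18.StbW0
import Cfsg.Agent.H13.StbOpp
import Cfsg.Agent.H70.StbNeg
import Cfsg.Agent.H70.StbPos
import Cfsg.Agent.H73.StbGMatchG
import Cfsg.Agent.H13.StbRootMap
import Cfsg.Agent.H61.StbNormU
import Cfsg.Agent.H61.StbPar
import Cfsg.Agent.H13.StbPV
import Cfsg.Agent.H78.StbPsi
import Cfsg.Agent.H13.StbMult
import Cfsg.Agent.H70.StbField
import Cfsg.Agent.H27.StbGal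
import Cfsg.Agent.H13.StbGNUV
import Cfsg.Agent.H24.OutDesc
import Cfsg.Agent.H16.OutDiagN
import Cfsg.Agent.H82.OutCnt
import Cfsg.Agent.H82.OutFix
import Cfsg.Agent.H82.OutDecomp
import Cfsg.Agent.H89.OutDAut
import Cfsg.Agent.H13.OutCardT
import Cfsg.Agent.H96.OGRoots
import Cfsg.Agent.H96.OGSInn
import Cfsg.Agent.H37.OGAsm2S
import Cfsg.Agent.H73.OGCnt2
import Cfsg.Agent.H73.OGFlip
import Cfsg.Agent.H73.OGNotFix
import Cfsg.Agent.H72.OGNoFlipG2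

set_option autoImplicit false
open Cfsg

namespace Cfsg.Agent.S2121

/-- Outer automorphisms of the Chevalley groups of type G₂: over a field with q = p^f (p prime) ≥ 3 elements, the outer automorphism group of G₂(q) has order f when p ≠ 3 and 2f when p = 3 (field automorphisms, and in characteristic 3 also the exceptional graph automorphism). -/
theorem result {F : Type*} [Field F] [Fintype F] (p f : ℕ) [Fact p.Prime] [CharP F p] (hF : Fintype.card F = p ^ f) (hq : 3 ≤ p ^ f) : Nat.card (Cfsg.Out ↥(Cfsg.Lie.chevG2.group F)) = (if p = 3 then 2 * f else f) := by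
  have hW0 := Cfsg.Agent.H18.Stb.w0
  have hNormU := Cfsg.Agent.H61.Stb.normU
  have hNeg := Cfsg.Agent.H70.Stb.neg hNormU Cfsg.Agent.H61.Stb.par (Cfsg.Agent.H13.Stb.pv hW0)
  exact Cfsg.Agent.H46.OutG.out_G2 Cfsg.Agent.H18.Stb.syl (Cfsg.Agent.H13.Stb.opp hW0)
    (Cfsg.Agent.H96.OutG.sInn (Cfsg.Agent.H13.StbG.nuv hNormU hW0)) Cfsg.Agent.H82.OutE.cnt
    (Cfsg.Agent.H89.OutE.dAut Cfsg.Agent.H16.OutE.diagN Cfsg.Agent.H82.OutE.fix Cfsg.Agent.H24.OutE.desc)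
    Cfsg.Agent.H82.OutE.decomp Cfsg.Agent.H13.OutE.cardT Cfsg.Agent.H70.Stb.field Cfsg.Agent.H27.Stb.gal
    hNeg (Cfsg.Agent.H70.Stb.pos hNeg hW0) Cfsg.Agent.H73.StbG.matchG Cfsg.Agent.H13.Stb.rootMap
    Cfsg.Agent.H96.OutG.rootPres
    (Cfsg.Agent.H37.OutG.asm2S (Cfsg.Agent.H78.Stb.psi Cfsg.Agent.H78.Stb.rank1) Cfsg.Agent.H13.Stb.mult)
    Cfsg.Agent.H73.OutG.cnt2 Cfsg.Agent.H73.OutG.flip Cfsg.Agent.H73.OutG.notFix Cfsg.Agent.H72.OutG.noFlipG2 p f hF hq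

end Cfsg.Agent.S2121
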