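import Cfsg.Statements.S2125
import Cfsg.Agent.H46.OutE8
import Cfsg.Agent.H70.StbAsm1
import Cfsg.Agent.H18.StbSyl
import Cfsg.Agent.H18.StbW0
import Cfsg.Agent.H13.StbOpp
import Cfsg.Agent.H70.StbNeg
import Cfsg.Agent.H70.StbPos
import Cfsg.Agent.H98.StbMatch
import Cfsg.Agent.H13.StbRootMap
import Cfsg.Agent.H61.StbNormU
import Cfsg.Agent.H61.StbPar
import Cfsg.Agent.H13.StbPV
import Cfsg.Agent.H78.StbPsi
import Cfsg.Agent.H13.StbMult
import Cfsg.Agent.H70.StbField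
import Cfsg.Agent.H27.StbGal
import Cfsg.Agent.H13.OutInn2
import Cfsg.Agent.H13.OutAsm2N
import Cfsg.Agent.H24.OutDesc
import Cfsg.Agent.H16.OutDiagN
import Cfsg.Agent.H82.OutCnt
import Cfsg.Agent.H82.OutFix
import Cfsg.Agent.H82.OutDecomp
import Cfsg.Agent.H89.OutDAut
import Cfsg.Agent.H39.OutTInn
import Cfsg.Agent.H13.OutCardT

set_option autoImplicit false
open Cfsg

namespace Cfsg.Agent.S2125

/-- Outer automorphisms of the Chevalley groups of type E₈: over a field with p^f elements, p prime, the outer automorphism group of E₈(p^f) has order f (field automorphisms only). -/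
theorem result {F : Type*} [Field F] [Fintype F] (p f : ℕ) [Fact p.Prime] [CharP F p] (hF : Fintype.card F = p ^ f) : Nat.card (Cfsg.Out ↥(Cfsg.Lie.chevE8.group F)) = f := by
  have hW0 := Cfsg.Agent.H18.Stb.w0
  have hNormU := Cfsg.Agent.H61.Stb.normU
  have hNeg := Cfsg.Agent.H70.Stb.neg hNormU Cfsg.Agent.H61.Stb.par (Cfsg.Agent.H13.Stb.pv hW0)
  exact Cfsg.Agent.H46.OutE.out_E8
    (Cfsg.Agent.H70.Stb.asm1 Cfsg.Agent.H18.Stb.syl (Cfsg.Agent.H13.Stb.opp hW0) hNeg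
      (Cfsg.Agent.H70.Stb.pos hNeg hW0) Cfsg.Agent.H98.Stb.match_ Cfsg.Agent.H13.Stb.rootMap)
    (Cfsg.Agent.H89.OutE.dAut Cfsg.Agent.H16.OutE.diagN Cfsg.Agent.H82.OutE.fix Cfsg.Agent.H24.OutE.desc)
    (Cfsg.Agent.H13.OutE.asm2N (Cfsg.Agent.H78.Stb.psi Cfsg.Agent.H78.Stb.rank1) Cfsg.Agent.H13.Stb.mult)
    (Cfsg.Agent.H13.OutE.inn2 hNormU hW0)
    Cfsg.Agent.H82.OutE.cnt Cfsg.Agent.H82.OutE.decomp Cfsg.Agent.H13.OutE.cardT Cfsg.Agent.H39.OutE.tInn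
    Cfsg.Agent.H70.Stb.field Cfsg.Agent.H27.Stb.gal p f hF

end Cfsg.Agent.S2125
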