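import Cfsg.Statements.S2140
import Cfsg.Agent.H17.PmMain

set_option autoImplicit false
open Cfsg

namespace Cfsg.Agent.S2140

/-- Minimal index of a proper subgroup of the linear groups: for n ≥ 3 and a field F with q elements, (n, q) ≠ (4, 2), every proper subgroup of PSL_n(F) has index at least (q^n − 1)/(q − 1), and some subgroup has exactly that index (the stabiliser of a point of the projective space). -/
theorem result {F : Type*} [Field F] [Fintype F] {q : ℕ} (hF : Fintype.card F = q) (n : ℕ) (hn : 3 ≤ n) (hexc : ¬ (n = 4 ∧ q = 2)) : (∀ H : Subgroup (Matrix.ProjectiveSpecialLinearGroup (Fin n) F), H ≠ ⊤ → (q ^ n - 1) / (q - 1) ≤ H.index) ∧ (∃ H : Subgroup (Matrix.ProjectiveSpecialLinearGroup (Fin n) F), H.index = (q ^ n - 1) / (q - 1)) :=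
  Cfsg.Agent.H17.Pm.main_result hF n hn hexc

end Cfsg.Agent.S2140
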