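import Cfsg.Statements.S2298
import Cfsg.Agent.H44.GL2Final

set_option autoImplicit false
open Cfsg

namespace Cfsg.Agent.S2298

/-- Over a finite field F with q elements, every irreducible complex character of GL₂ has degree 1, q − 1, q or q + 1; and when q ≥ 3 (so that these four numbers are distinct) there are exactly q − 1 irreducible characters of degree 1, exactly q − 1 of degree q, exactly (q − 1)(q − 2)/2 of degree q + 1 and exactly q(q − 1)/2 of degree q − 1. -/
theorem result {F : Type*} [Field F] [Fintype F] :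
    (∀ χ : Matrix.GeneralLinearGroup (Fin 2) F → ℂ, Cfsg.IsIrrCharacter (Matrix.GeneralLinearGroup (Fin 2) F) χ →
      χ 1 = 1 ∨ χ 1 = (Fintype.card F : ℂ) - 1 ∨ χ 1 = (Fintype.card F : ℂ) ∨ χ 1 = (Fintype.card F : ℂ) + 1) ∧
    (3 ≤ Fintype.card F →
      Nat.card {χ : Cfsg.IrrCharacter (Matrix.GeneralLinearGroup (Fin 2) F) // (χ : Matrix.GeneralLinearGroup (Fin 2) F → ℂ) 1 = 1} = Fintype.card F - 1 ∧
      Nat.card {χ : Cfsg.IrrCharacter (Matrix.GeneralLinearGroup (Fin 2) F) // (χ : Matrix.GeneralLinearGroup (Fin 2) F → ℂ) 1 = (Fintype.card F : ℂ)} = Fintype.card F - 1 ∧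
      Nat.card {χ : Cfsg.IrrCharacter (Matrix.GeneralLinearGroup (Fin 2) F) // (χ : Matrix.GeneralLinearGroup (Fin 2) F → ℂ) 1 = (Fintype.card F : ℂ) + 1} = (Fintype.card F - 1) * (Fintype.card F - 2) / 2 ∧
      Nat.card {χ : Cfsg.IrrCharacter (Matrix.GeneralLinearGroup (Fin 2) F) // (χ : Matrix.GeneralLinearGroup (Fin 2) F → ℂ) 1 = (Fintype.card F : ℂ) - 1} = Fintype.card F * (Fintype.card F - 1) / 2) := by
  classical
  letI : Fintype (Matrix.GeneralLinearGroup (Fin 2) F) := Fintype.ofFinite _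
  letI : Fintype (MulChar F ℂ) := Fintype.ofFinite _
  letI : Fintype (Cfsg.IrrCharacter (Matrix.GeneralLinearGroup (Fin 2) F)) := Cfsg.Agent.H4.fintypeIrr _
  refine ⟨?_, ?_⟩
  · intro χ hχ
    rcases Cfsg.Agent.H44.GL2_irr_cases hχ with ⟨α, rfl⟩ | ⟨α, rfl⟩ | ⟨α, β, -, rfl⟩ | ⟨-, h1, -⟩
    · exact Or.inl (Cfsg.Agent.H44.linGL_one α)
    · exact Or.inr (Or.inr (Or.inl (Cfsg.Agent.H44.stGL_one α)))
    · exact Or.inr (Or.inr (Or.inr (Cfsg.Agent.H44.psGL_one α β)))
    · exact Or.inr (Or.inl h1)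
  · intro hq
    have key := fun c : ℂ => (Cfsg.Agent.H44.natCard_subtype_eq_sum
      (fun χ : Cfsg.IrrCharacter (Matrix.GeneralLinearGroup (Fin 2) F) => χ.1 1 = c)).trans
      (Cfsg.Agent.H44.GL2_degree_count (F := F) c)
    have e1 : (Fintype.card F : ℂ) - 1 ≠ 1 := by
      have : (Fintype.card F : ℤ) - 1 ≠ 1 := by omega
      exact_mod_cast this
    have e2 : (Fintype.card F : ℂ) ≠ 1 := by
      have : (Fintype.card F : ℤ) ≠ 1 := by omega
      exact_mod_cast this
    have e3 : (Fintype.card F : ℂ) + 1 ≠ 1 := by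
      have : (Fintype.card F : ℤ) + 1 ≠ 1 := by omega
      exact_mod_cast this
    have e4 : (Fintype.card F : ℂ) - 1 ≠ (Fintype.card F : ℂ) := by
      have : (Fintype.card F : ℤ) - 1 ≠ (Fintype.card F : ℤ) := by omega
      exact_mod_cast this
    have e5 : (Fintype.card F : ℂ) + 1 ≠ (Fintype.card F : ℂ) := by
      have : (Fintype.card F : ℤ) + 1 ≠ (Fintype.card F : ℤ) := by omega
      exact_mod_cast this
    have e6 : (Fintype.card F : ℂ) - 1 ≠ (Fintype.card F : ℂ) + 1 := by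
      have : (Fintype.card F : ℤ) - 1 ≠ (Fintype.card F : ℤ) + 1 := by omega
      exact_mod_cast this
    obtain ⟨k, hk⟩ := Nat.exists_eq_add_of_le hq
    refine ⟨?_, ?_, ?_, ?_⟩
    · have h := key 1
      rw [if_neg e1, if_pos rfl, if_neg e2, if_neg e3] at h
      have h2 : ((Nat.card {χ : Cfsg.IrrCharacter (Matrix.GeneralLinearGroup (Fin 2) F) // χ.1 1 = 1} : ℕ) : ℂ) =
          ((Fintype.card F - 1 : ℕ) : ℂ) := by
        rw [h, Nat.cast_sub Fintype.card_pos]; push_cast; ring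
      exact_mod_cast h2
    · have h := key (Fintype.card F : ℂ)
      rw [if_neg e4, if_neg e2.symm, if_pos rfl, if_neg e5] at h
      have h2 : ((Nat.card {χ : Cfsg.IrrCharacter (Matrix.GeneralLinearGroup (Fin 2) F) // χ.1 1 = (Fintype.card F : ℂ)} : ℕ) : ℂ) =
          ((Fintype.card F - 1 : ℕ) : ℂ) := by
        rw [h, Nat.cast_sub Fintype.card_pos]; push_cast; ring
      exact_mod_cast h2
    · have h := key ((Fintype.card F : ℂ) + 1)
      rw [if_neg e6, if_neg e3.symm, if_neg e5.symm, if_pos rfl] at h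
      have h2 : ((2 * Nat.card {χ : Cfsg.IrrCharacter (Matrix.GeneralLinearGroup (Fin 2) F) // χ.1 1 = (Fintype.card F : ℂ) + 1} : ℕ) : ℂ) =
          (((Fintype.card F - 1) * (Fintype.card F - 2) : ℕ) : ℂ) := by
        rw [Nat.cast_mul, h, Nat.cast_mul, Nat.cast_sub Fintype.card_pos, Nat.cast_sub (by omega : 2 ≤ Fintype.card F)]
        push_cast; ring
      have h3 : 2 * Nat.card {χ : Cfsg.IrrCharacter (Matrix.GeneralLinearGroup (Fin 2) F) // χ.1 1 = (Fintype.card F : ℂ) + 1} =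
          (Fintype.card F - 1) * (Fintype.card F - 2) := by exact_mod_cast h2
      omega
    · have h := key ((Fintype.card F : ℂ) - 1)
      rw [if_pos rfl, if_neg e1.symm, if_neg e4.symm, if_neg e6.symm] at h
      have h2 : ((2 * Nat.card {χ : Cfsg.IrrCharacter (Matrix.GeneralLinearGroup (Fin 2) F) // χ.1 1 = (Fintype.card F : ℂ) - 1} : ℕ) : ℂ) =
          ((Fintype.card F * (Fintype.card F - 1) : ℕ) : ℂ) := by
        rw [Nat.cast_mul, h, Nat.cast_mul, Nat.cast_sub Fintype.card_pos]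
        push_cast; ring
      have h3 : 2 * Nat.card {χ : Cfsg.IrrCharacter (Matrix.GeneralLinearGroup (Fin 2) F) // χ.1 1 = (Fintype.card F : ℂ) - 1} =
          Fintype.card F * (Fintype.card F - 1) := by exact_mod_cast h2
      omega

end Cfsg.Agent.S2298
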