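import Cfsg.Statements.S2299
import Cfsg.Agent.H44.SL2OddF

set_option autoImplicit false
open Cfsg

namespace Cfsg.Agent.S2299

/-- Over a finite field F with q elements, q odd, every irreducible complex character of SL₂ has degree 1, q, q + 1, q − 1, (q + 1)/2 or (q − 1)/2; and when q ≥ 5 (so that these six numbers are distinct) there are exactly one irreducible character of degree 1, one of degree q, (q − 3)/2 of degree q + 1, (q − 1)/2 of degree q − 1, two of degree (q + 1)/2 and two of degree (q − 1)/2. -/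
theorem result {F : Type*} [Field F] [Fintype F] (hodd : Odd (Fintype.card F)) :
    (∀ χ : Matrix.SpecialLinearGroup (Fin 2) F → ℂ, Cfsg.IsIrrCharacter (Matrix.SpecialLinearGroup (Fin 2) F) χ →
      χ 1 = 1 ∨ χ 1 = (Fintype.card F : ℂ) ∨ χ 1 = (Fintype.card F : ℂ) + 1 ∨ χ 1 = (Fintype.card F : ℂ) - 1 ∨
        χ 1 = (((Fintype.card F + 1) / 2 : ℕ) : ℂ) ∨ χ 1 = (((Fintype.card F - 1) / 2 : ℕ) : ℂ)) ∧
    (5 ≤ Fintype.card F →
      Nat.card {χ : Cfsg.IrrCharacter (Matrix.SpecialLinearGroup (Fin 2) F) // (χ : Matrix.SpecialLinearGroup (Fin 2) F → ℂ) 1 = 1} = 1 ∧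
      Nat.card {χ : Cfsg.IrrCharacter (Matrix.SpecialLinearGroup (Fin 2) F) // (χ : Matrix.SpecialLinearGroup (Fin 2) F → ℂ) 1 = (Fintype.card F : ℂ)} = 1 ∧
      Nat.card {χ : Cfsg.IrrCharacter (Matrix.SpecialLinearGroup (Fin 2) F) // (χ : Matrix.SpecialLinearGroup (Fin 2) F → ℂ) 1 = (Fintype.card F : ℂ) + 1} = (Fintype.card F - 3) / 2 ∧
      Nat.card {χ : Cfsg.IrrCharacter (Matrix.SpecialLinearGroup (Fin 2) F) // (χ : Matrix.SpecialLinearGroup (Fin 2) F → ℂ) 1 = (Fintype.card F : ℂ) - 1} = (Fintype.card F - 1) / 2 ∧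
      Nat.card {χ : Cfsg.IrrCharacter (Matrix.SpecialLinearGroup (Fin 2) F) // (χ : Matrix.SpecialLinearGroup (Fin 2) F → ℂ) 1 = (((Fintype.card F + 1) / 2 : ℕ) : ℂ)} = 2 ∧
      Nat.card {χ : Cfsg.IrrCharacter (Matrix.SpecialLinearGroup (Fin 2) F) // (χ : Matrix.SpecialLinearGroup (Fin 2) F → ℂ) 1 = (((Fintype.card F - 1) / 2 : ℕ) : ℂ)} = 2) := by
  classical
  letI : Fintype (Matrix.SpecialLinearGroup (Fin 2) F) := Fintype.ofFinite _
  letI : Fintype (MulChar F ℂ) := Fintype.ofFinite _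
  letI : Fintype (Cfsg.IrrCharacter (Matrix.SpecialLinearGroup (Fin 2) F)) := Cfsg.Agent.H4.fintypeIrr _
  obtain ⟨α₀, ξ₁, ξ₂, D⟩ := Cfsg.Agent.H44.exists_quadDecomp hodd
  rw [Cfsg.Agent.H44.half_cast_add hodd, Cfsg.Agent.H44.half_cast_sub hodd]
  refine ⟨?_, ?_⟩
  · intro χ hχ
    rcases Cfsg.Agent.H44.SL2_odd_irr_cases hodd D hχ with rfl | rfl | ⟨α, -, rfl⟩ | rfl | rfl | ⟨-, ⟨h1, -⟩ | ⟨h1, -⟩⟩
    · exact Or.inl rfl
    · exact Or.inr (Or.inl Cfsg.Agent.H44.stSL_one)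
    · exact Or.inr (Or.inr (Or.inl (Cfsg.Agent.H44.psSL_one α)))
    · exact Or.inr (Or.inr (Or.inr (Or.inr (Or.inl D.deg₁))))
    · exact Or.inr (Or.inr (Or.inr (Or.inr (Or.inl D.deg₂))))
    · exact Or.inr (Or.inr (Or.inr (Or.inl h1)))
    · exact Or.inr (Or.inr (Or.inr (Or.inr (Or.inr h1))))
  · intro hq
    have key := fun c : ℂ => (Cfsg.Agent.H44.natCard_subtype_eq_sum
      (fun χ : Cfsg.IrrCharacter (Matrix.SpecialLinearGroup (Fin 2) F) => χ.1 1 = c)).trans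
      (Cfsg.Agent.H44.SL2_odd_degree_count hodd D c)
    have n12 : (1 : ℂ) ≠ (Fintype.card F : ℂ) :=
      Cfsg.Agent.H44.ne_of_lin (q := Fintype.card F) (-2) (2) (by push_cast; ring) (by omega)
    have n13 : (1 : ℂ) ≠ (Fintype.card F : ℂ) + 1 :=
      Cfsg.Agent.H44.ne_of_lin (q := Fintype.card F) (-2) (0) (by push_cast; ring) (by omega)
    have n14 : (1 : ℂ) ≠ (Fintype.card F : ℂ) - 1 :=
      Cfsg.Agent.H44.ne_of_lin (q := Fintype.card F) (-2) (4) (by push_cast; ring) (by omega)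
    have n15 : (1 : ℂ) ≠ ((Fintype.card F : ℂ) + 1) / 2 :=
      Cfsg.Agent.H44.ne_of_lin (q := Fintype.card F) (-1) (1) (by push_cast; ring) (by omega)
    have n16 : (1 : ℂ) ≠ ((Fintype.card F : ℂ) - 1) / 2 :=
      Cfsg.Agent.H44.ne_of_lin (q := Fintype.card F) (-1) (3) (by push_cast; ring) (by omega)
    have n21 : (Fintype.card F : ℂ) ≠ (1 : ℂ) :=
      Cfsg.Agent.H44.ne_of_lin (q := Fintype.card F) (2) (-2) (by push_cast; ring) (by omega)
    have n23 : (Fintype.card F : ℂ) ≠ (Fintype.card F : ℂ) + 1 :=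
      Cfsg.Agent.H44.ne_of_lin (q := Fintype.card F) (0) (-2) (by push_cast; ring) (by omega)
    have n24 : (Fintype.card F : ℂ) ≠ (Fintype.card F : ℂ) - 1 :=
      Cfsg.Agent.H44.ne_of_lin (q := Fintype.card F) (0) (2) (by push_cast; ring) (by omega)
    have n25 : (Fintype.card F : ℂ) ≠ ((Fintype.card F : ℂ) + 1) / 2 :=
      Cfsg.Agent.H44.ne_of_lin (q := Fintype.card F) (1) (-1) (by push_cast; ring) (by omega)
    have n26 : (Fintype.card F : ℂ) ≠ ((Fintype.card F : ℂ) - 1) / 2 :=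
      Cfsg.Agent.H44.ne_of_lin (q := Fintype.card F) (1) (1) (by push_cast; ring) (by omega)
    have n31 : (Fintype.card F : ℂ) + 1 ≠ (1 : ℂ) :=
      Cfsg.Agent.H44.ne_of_lin (q := Fintype.card F) (2) (0) (by push_cast; ring) (by omega)
    have n32 : (Fintype.card F : ℂ) + 1 ≠ (Fintype.card F : ℂ) :=
      Cfsg.Agent.H44.ne_of_lin (q := Fintype.card F) (0) (2) (by push_cast; ring) (by omega)
    have n34 : (Fintype.card F : ℂ) + 1 ≠ (Fintype.card F : ℂ) - 1 :=
      Cfsg.Agent.H44.ne_of_lin (q := Fintype.card F) (0) (4) (by push_cast; ring) (by omega)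
    have n35 : (Fintype.card F : ℂ) + 1 ≠ ((Fintype.card F : ℂ) + 1) / 2 :=
      Cfsg.Agent.H44.ne_of_lin (q := Fintype.card F) (1) (1) (by push_cast; ring) (by omega)
    have n36 : (Fintype.card F : ℂ) + 1 ≠ ((Fintype.card F : ℂ) - 1) / 2 :=
      Cfsg.Agent.H44.ne_of_lin (q := Fintype.card F) (1) (3) (by push_cast; ring) (by omega)
    have n41 : (Fintype.card F : ℂ) - 1 ≠ (1 : ℂ) :=
      Cfsg.Agent.H44.ne_of_lin (q := Fintype.card F) (2) (-4) (by push_cast; ring) (by omega)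
    have n42 : (Fintype.card F : ℂ) - 1 ≠ (Fintype.card F : ℂ) :=
      Cfsg.Agent.H44.ne_of_lin (q := Fintype.card F) (0) (-2) (by push_cast; ring) (by omega)
    have n43 : (Fintype.card F : ℂ) - 1 ≠ (Fintype.card F : ℂ) + 1 :=
      Cfsg.Agent.H44.ne_of_lin (q := Fintype.card F) (0) (-4) (by push_cast; ring) (by omega)
    have n45 : (Fintype.card F : ℂ) - 1 ≠ ((Fintype.card F : ℂ) + 1) / 2 :=
      Cfsg.Agent.H44.ne_of_lin (q := Fintype.card F) (1) (-3) (by push_cast; ring) (by omega)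
    have n46 : (Fintype.card F : ℂ) - 1 ≠ ((Fintype.card F : ℂ) - 1) / 2 :=
      Cfsg.Agent.H44.ne_of_lin (q := Fintype.card F) (1) (-1) (by push_cast; ring) (by omega)
    have n51 : ((Fintype.card F : ℂ) + 1) / 2 ≠ (1 : ℂ) :=
      Cfsg.Agent.H44.ne_of_lin (q := Fintype.card F) (1) (-1) (by push_cast; ring) (by omega)
    have n52 : ((Fintype.card F : ℂ) + 1) / 2 ≠ (Fintype.card F : ℂ) :=
      Cfsg.Agent.H44.ne_of_lin (q := Fintype.card F) (-1) (1) (by push_cast; ring) (by omega)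
    have n53 : ((Fintype.card F : ℂ) + 1) / 2 ≠ (Fintype.card F : ℂ) + 1 :=
      Cfsg.Agent.H44.ne_of_lin (q := Fintype.card F) (-1) (-1) (by push_cast; ring) (by omega)
    have n54 : ((Fintype.card F : ℂ) + 1) / 2 ≠ (Fintype.card F : ℂ) - 1 :=
      Cfsg.Agent.H44.ne_of_lin (q := Fintype.card F) (-1) (3) (by push_cast; ring) (by omega)
    have n56 : ((Fintype.card F : ℂ) + 1) / 2 ≠ ((Fintype.card F : ℂ) - 1) / 2 :=
      Cfsg.Agent.H44.ne_of_lin (q := Fintype.card F) (0) (2) (by push_cast; ring) (by omega)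
    have n61 : ((Fintype.card F : ℂ) - 1) / 2 ≠ (1 : ℂ) :=
      Cfsg.Agent.H44.ne_of_lin (q := Fintype.card F) (1) (-3) (by push_cast; ring) (by omega)
    have n62 : ((Fintype.card F : ℂ) - 1) / 2 ≠ (Fintype.card F : ℂ) :=
      Cfsg.Agent.H44.ne_of_lin (q := Fintype.card F) (-1) (-1) (by push_cast; ring) (by omega)
    have n63 : ((Fintype.card F : ℂ) - 1) / 2 ≠ (Fintype.card F : ℂ) + 1 :=
      Cfsg.Agent.H44.ne_of_lin (q := Fintype.card F) (-1) (-3) (by push_cast; ring) (by omega)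
    have n64 : ((Fintype.card F : ℂ) - 1) / 2 ≠ (Fintype.card F : ℂ) - 1 :=
      Cfsg.Agent.H44.ne_of_lin (q := Fintype.card F) (-1) (1) (by push_cast; ring) (by omega)
    have n65 : ((Fintype.card F : ℂ) - 1) / 2 ≠ ((Fintype.card F : ℂ) + 1) / 2 :=
      Cfsg.Agent.H44.ne_of_lin (q := Fintype.card F) (0) (-2) (by push_cast; ring) (by omega)
    refine ⟨?_, ?_, ?_, ?_, ?_, ?_⟩
    · have h := key ((1 : ℂ))
      rw [if_neg n41, if_neg n61, if_pos rfl, if_neg n21, if_neg n51, if_neg n31] at h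
      have h2 : ((Nat.card {χ : Cfsg.IrrCharacter (Matrix.SpecialLinearGroup (Fin 2) F) // χ.1 1 = (1 : ℂ)} : ℕ) : ℂ) =
          ((1 : ℕ) : ℂ) := by
        rw [h]; push_cast; ring
      exact_mod_cast h2
    · have h := key ((Fintype.card F : ℂ))
      rw [if_neg n42, if_neg n62, if_neg n12, if_pos rfl, if_neg n52, if_neg n32] at h
      have h2 : ((Nat.card {χ : Cfsg.IrrCharacter (Matrix.SpecialLinearGroup (Fin 2) F) // χ.1 1 = (Fintype.card F : ℂ)} : ℕ) : ℂ) =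
          ((1 : ℕ) : ℂ) := by
        rw [h]; push_cast; ring
      exact_mod_cast h2
    · have h := key ((Fintype.card F : ℂ) + 1)
      rw [if_neg n43, if_neg n63, if_neg n13, if_neg n23, if_neg n53, if_pos rfl] at h
      have h2 : ((2 * Nat.card {χ : Cfsg.IrrCharacter (Matrix.SpecialLinearGroup (Fin 2) F) // χ.1 1 = (Fintype.card F : ℂ) + 1} : ℕ) : ℂ) =
          ((Fintype.card F - 3 : ℕ) : ℂ) := by
        rw [Nat.cast_mul, h, Nat.cast_sub (by omega : 3 ≤ Fintype.card F)]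
        push_cast; ring
      have h3 : 2 * Nat.card {χ : Cfsg.IrrCharacter (Matrix.SpecialLinearGroup (Fin 2) F) // χ.1 1 = (Fintype.card F : ℂ) + 1} =
          Fintype.card F - 3 := by exact_mod_cast h2
      omega
    · have h := key ((Fintype.card F : ℂ) - 1)
      rw [if_pos rfl, if_neg n64, if_neg n14, if_neg n24, if_neg n54, if_neg n34] at h
      have h2 : ((2 * Nat.card {χ : Cfsg.IrrCharacter (Matrix.SpecialLinearGroup (Fin 2) F) // χ.1 1 = (Fintype.card F : ℂ) - 1} : ℕ) : ℂ) =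
          ((Fintype.card F - 1 : ℕ) : ℂ) := by
        rw [Nat.cast_mul, h, Nat.cast_sub (by omega : 1 ≤ Fintype.card F)]
        push_cast; ring
      have h3 : 2 * Nat.card {χ : Cfsg.IrrCharacter (Matrix.SpecialLinearGroup (Fin 2) F) // χ.1 1 = (Fintype.card F : ℂ) - 1} =
          Fintype.card F - 1 := by exact_mod_cast h2
      omega
    · have h := key (((Fintype.card F : ℂ) + 1) / 2)
      rw [if_neg n45, if_neg n65, if_neg n15, if_neg n25, if_pos rfl, if_neg n35] at h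
      have h2 : ((Nat.card {χ : Cfsg.IrrCharacter (Matrix.SpecialLinearGroup (Fin 2) F) // χ.1 1 = ((Fintype.card F : ℂ) + 1) / 2} : ℕ) : ℂ) =
          ((2 : ℕ) : ℂ) := by
        rw [h]; push_cast; ring
      exact_mod_cast h2
    · have h := key (((Fintype.card F : ℂ) - 1) / 2)
      rw [if_neg n46, if_pos rfl, if_neg n16, if_neg n26, if_neg n56, if_neg n36] at h
      have h2 : ((Nat.card {χ : Cfsg.IrrCharacter (Matrix.SpecialLinearGroup (Fin 2) F) // χ.1 1 = ((Fintype.card F : ℂ) - 1) / 2} : ℕ) : ℂ) =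
          ((2 : ℕ) : ℂ) := by
        rw [h]; push_cast; ring
      exact_mod_cast h2

end Cfsg.Agent.S2299
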