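import Cfsg.Statements.S2301
import Cfsg.Agent.H44.SL2Card

set_option autoImplicit false
open Cfsg

namespace Cfsg.Agent.S2301

open Cfsg.Agent.H44 in
/-- Over a finite field with q elements of odd characteristic p, the elements of order p of SL₂ (the non-identity unipotent elements) fall into exactly two conjugacy classes, each of size (q² − 1)/2; two upper unitriangular matrices with non-zero off-diagonal entries b and b′ are conjugate exactly when bb′ is a square. -/
theorem result {F : Type*} [Field F] [Fintype F] (p : ℕ) [Fact p.Prime] [CharP F p] (hp : p ≠ 2) :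
    Nat.card {C : ConjClasses (Matrix.SpecialLinearGroup (Fin 2) F) // ∃ g : Matrix.SpecialLinearGroup (Fin 2) F, orderOf g = p ∧ ConjClasses.mk g = C} = 2 ∧
    (∀ g : Matrix.SpecialLinearGroup (Fin 2) F, orderOf g = p → Nat.card (ConjClasses.mk g).carrier = (Fintype.card F ^ 2 - 1) / 2) ∧
    ∀ g h : Matrix.SpecialLinearGroup (Fin 2) F, (g : Matrix (Fin 2) (Fin 2) F) 0 0 = 1 → (g : Matrix (Fin 2) (Fin 2) F) 1 1 = 1 → (g : Matrix (Fin 2) (Fin 2) F) 1 0 = 0 → (g : Matrix (Fin 2) (Fin 2) F) 0 1 ≠ 0 →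
      (h : Matrix (Fin 2) (Fin 2) F) 0 0 = 1 → (h : Matrix (Fin 2) (Fin 2) F) 1 1 = 1 → (h : Matrix (Fin 2) (Fin 2) F) 1 0 = 0 → (h : Matrix (Fin 2) (Fin 2) F) 0 1 ≠ 0 →
      (IsConj g h ↔ IsSquare ((g : Matrix (Fin 2) (Fin 2) F) 0 1 * (h : Matrix (Fin 2) (Fin 2) F) 0 1)) := by
  have hodd : Odd (Fintype.card F) := by
    obtain ⟨n, hpr, hn⟩ := FiniteField.card F p
    rw [hn]
    exact (hpr.odd_of_ne_two hp).pow
  obtain ⟨ε, hε⟩ := FiniteField.exists_nonsquare (ringChar_ne_two_of_odd hodd)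
  have hε0 : ε ≠ 0 := by rintro rfl; exact hε IsSquare.zero
  refine ⟨?_, ?_, ?_⟩
  · have hset : {C : ConjClasses (Matrix.SpecialLinearGroup (Fin 2) F) | ∃ g : Matrix.SpecialLinearGroup (Fin 2) F, orderOf g = p ∧ ConjClasses.mk g = C} =
        {ConjClasses.mk (uSL (1 : F)), ConjClasses.mk (uSL ε)} := by
      ext C
      simp only [Set.mem_insert_iff, Set.mem_singleton_iff]
      constructor
      · rintro ⟨g, hg, rfl⟩
        obtain ⟨hg1, hg2⟩ := (SL2_orderOf_iff p g).mp hg
        obtain ⟨b, hb, hc⟩ := SL2_isConj_uSL g hg1 hg2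
        by_cases hsq : IsSquare b
        · left
          rw [ConjClasses.mk_eq_mk_iff_isConj]
          refine hc.trans ((uSL_isConj_iff hb one_ne_zero).mpr ?_)
          rwa [mul_one]
        · right
          rw [ConjClasses.mk_eq_mk_iff_isConj]
          exact hc.trans ((uSL_isConj_iff hb hε0).mpr (isSquare_mul_of_not_isSquare hsq hε))
      · rintro (rfl | rfl)
        · exact ⟨uSL 1, (SL2_orderOf_iff p _).mpr ⟨nonScalar_uMat one_ne_zero, trace_uMat 1⟩, rfl⟩
        · exact ⟨uSL ε, (SL2_orderOf_iff p _).mpr ⟨nonScalar_uMat hε0, trace_uMat ε⟩, rfl⟩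
    have hne : ConjClasses.mk (uSL (1 : F)) ≠ ConjClasses.mk (uSL ε) := by
      rw [Ne, ConjClasses.mk_eq_mk_iff_isConj, uSL_isConj_iff one_ne_zero hε0, one_mul]
      exact hε
    show Nat.card ({C : ConjClasses (Matrix.SpecialLinearGroup (Fin 2) F) | ∃ g : Matrix.SpecialLinearGroup (Fin 2) F, orderOf g = p ∧ ConjClasses.mk g = C} : Set _) = 2
    rw [hset, Nat.card_coe_set_eq, Set.ncard_pair hne]
  · intro g hg
    obtain ⟨hg1, hg2⟩ := (SL2_orderOf_iff p g).mp hg
    exact card_carrier_unipotent_odd hodd g hg1 hg2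
  · intro g h g00 g11 g10 g01 h00 h11 h10 h01
    have eg : g = uSL ((g : Matrix (Fin 2) (Fin 2) F) 0 1) := by
      apply Subtype.ext
      ext i j
      fin_cases i <;> fin_cases j <;> simp [coe_uSL, uMat, g00, g11, g10]
    have eh : h = uSL ((h : Matrix (Fin 2) (Fin 2) F) 0 1) := by
      apply Subtype.ext
      ext i j
      fin_cases i <;> fin_cases j <;> simp [coe_uSL, uMat, h00, h11, h10]
    rw [eg, eh, uSL_isConj_iff g01 h01, ← eg, ← eh]

end Cfsg.Agent.S2301
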