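import Cfsg.Statements.S2303
import Cfsg.Agent.H44.SL2Card

set_option autoImplicit false
open Cfsg

namespace Cfsg.Agent.S2303

open Matrix

variable {F : Type*} [Field F]

/-- diagonal element of GL₂ -/
noncomputable def diagGL (a d : Fˣ) : GL (Fin 2) F :=
  GeneralLinearGroup.mkOfDetNeZero !![(a : F), 0; 0, (d : F)] (by simp [Matrix.det_fin_two])

theorem coe_diagGL (a d : Fˣ) : (diagGL a d : Matrix (Fin 2) (Fin 2) F) = !![(a : F), 0; 0, (d : F)] := rfl

theorem comm_entries {s g : GL (Fin 2) F} (hs : s ∈ Subgroup.centralizer ({g} : Set (GL (Fin 2) F))) :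
    (s : Matrix (Fin 2) (Fin 2) F) * (g : Matrix (Fin 2) (Fin 2) F) =
      (g : Matrix (Fin 2) (Fin 2) F) * (s : Matrix (Fin 2) (Fin 2) F) := by
  have := Subgroup.mem_centralizer_singleton_iff.mp hs
  have h2 := congrArg Units.val this
  rwa [Units.val_mul, Units.val_mul] at h2

theorem det_ne_zero_GL (s : GL (Fin 2) F) : (s : Matrix (Fin 2) (Fin 2) F).det ≠ 0 := by
  have := (GeneralLinearGroup.det s).ne_zero
  rwa [GeneralLinearGroup.val_det_apply] at this

/-- centralizer of a diagonal element with distinct entries -/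
noncomputable def centDiagEquiv (g : GL (Fin 2) F) (h01 : (g : Matrix (Fin 2) (Fin 2) F) 0 1 = 0)
    (h10 : (g : Matrix (Fin 2) (Fin 2) F) 1 0 = 0)
    (hne : (g : Matrix (Fin 2) (Fin 2) F) 0 0 ≠ (g : Matrix (Fin 2) (Fin 2) F) 1 1) :
    Subgroup.centralizer ({g} : Set (GL (Fin 2) F)) ≃ Fˣ × Fˣ := by
  have key : ∀ s : Subgroup.centralizer ({g} : Set (GL (Fin 2) F)),
      (s.1 : Matrix (Fin 2) (Fin 2) F) 0 1 = 0 ∧ (s.1 : Matrix (Fin 2) (Fin 2) F) 1 0 = 0 ∧
      (s.1 : Matrix (Fin 2) (Fin 2) F) 0 0 ≠ 0 ∧ (s.1 : Matrix (Fin 2) (Fin 2) F) 1 1 ≠ 0 := by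
    intro s
    have hm := comm_entries s.2
    have e01 := congrFun (congrFun hm 0) 1
    have e10 := congrFun (congrFun hm 1) 0
    simp [Matrix.mul_apply, Fin.sum_univ_two, h01, h10] at e01 e10
    have hd : (g : Matrix (Fin 2) (Fin 2) F) 1 1 - (g : Matrix (Fin 2) (Fin 2) F) 0 0 ≠ 0 :=
      sub_ne_zero.mpr (Ne.symm hne)
    have s01 : (s.1 : Matrix (Fin 2) (Fin 2) F) 0 1 = 0 := by
      have : (s.1 : Matrix (Fin 2) (Fin 2) F) 0 1 * ((g : Matrix (Fin 2) (Fin 2) F) 1 1 - (g : Matrix (Fin 2) (Fin 2) F) 0 0) = 0 := by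
        linear_combination e01
      rcases mul_eq_zero.mp this with h | h
      · exact h
      · exact absurd h hd
    have s10 : (s.1 : Matrix (Fin 2) (Fin 2) F) 1 0 = 0 := by
      have : (s.1 : Matrix (Fin 2) (Fin 2) F) 1 0 * ((g : Matrix (Fin 2) (Fin 2) F) 1 1 - (g : Matrix (Fin 2) (Fin 2) F) 0 0) = 0 := by
        linear_combination -e10
      rcases mul_eq_zero.mp this with h | h
      · exact h
      · exact absurd h hd
    have hdet := det_ne_zero_GL s.1
    rw [Matrix.det_fin_two, s01, s10] at hdet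
    simp at hdet
    exact ⟨s01, s10, hdet.1, hdet.2⟩
  exact
  { toFun := fun s => (Units.mk0 _ (key s).2.2.1, Units.mk0 _ (key s).2.2.2)
    invFun := fun p => ⟨diagGL p.1 p.2, by
      rw [Subgroup.mem_centralizer_singleton_iff]
      apply Units.ext
      rw [Units.val_mul, Units.val_mul, coe_diagGL]
      ext i j
      fin_cases i <;> fin_cases j <;> simp [Matrix.mul_apply, Fin.sum_univ_two, h01, h10, mul_comm]⟩
    left_inv := fun s => by
      apply Subtype.ext
      apply Units.ext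
      rw [coe_diagGL]
      ext i j
      fin_cases i <;> fin_cases j <;> simp [(key s).1, (key s).2.1]
    right_inv := fun p => by
      apply Prod.ext <;> apply Units.ext <;> simp [coe_diagGL] }

/-- the element `a + b g` of GL₂ for an element `g` without eigenvectors -/
noncomputable def linGL (g : GL (Fin 2) F)
    (hg : ∀ (c : F) (v : Fin 2 → F), v ≠ 0 → (g : Matrix (Fin 2) (Fin 2) F).mulVec v ≠ c • v)
    (p : {p : F × F // p ≠ 0}) : GL (Fin 2) F :=
  GeneralLinearGroup.mkOfDetNeZero (p.1.1 • (1 : Matrix (Fin 2) (Fin 2) F) + p.1.2 • (g : Matrix (Fin 2) (Fin 2) F)) (by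
    intro hdet
    obtain ⟨v, hv, hmv⟩ := Matrix.exists_mulVec_eq_zero_iff.mpr hdet
    rw [Matrix.add_mulVec, Matrix.smul_mulVec, Matrix.smul_mulVec, Matrix.one_mulVec] at hmv
    by_cases hb : p.1.2 = 0
    · rw [hb, zero_smul, add_zero] at hmv
      have ha : p.1.1 = 0 := by
        rcases smul_eq_zero.mp hmv with h | h
        · exact h
        · exact absurd h hv
      exact p.2 (Prod.ext ha hb)
    · apply hg (-p.1.1 / p.1.2) v hv
      have : p.1.2 • (g : Matrix (Fin 2) (Fin 2) F).mulVec v = -(p.1.1 • v) := by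
        rw [eq_neg_iff_add_eq_zero, add_comm]; exact hmv
      have h2 : (g : Matrix (Fin 2) (Fin 2) F).mulVec v = (p.1.2)⁻¹ • (p.1.2 • (g : Matrix (Fin 2) (Fin 2) F).mulVec v) := by
        rw [smul_smul, inv_mul_cancel₀ hb, one_smul]
      rw [h2, this, smul_neg, smul_smul, ← neg_smul]
      congr 1
      field_simp)

theorem coe_linGL (g : GL (Fin 2) F)
    (hg : ∀ (c : F) (v : Fin 2 → F), v ≠ 0 → (g : Matrix (Fin 2) (Fin 2) F).mulVec v ≠ c • v)
    (p : {p : F × F // p ≠ 0}) :
    (linGL g hg p : Matrix (Fin 2) (Fin 2) F) =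
      p.1.1 • (1 : Matrix (Fin 2) (Fin 2) F) + p.1.2 • (g : Matrix (Fin 2) (Fin 2) F) := rfl

theorem g10_ne_zero (g : GL (Fin 2) F)
    (hg : ∀ (c : F) (v : Fin 2 → F), v ≠ 0 → (g : Matrix (Fin 2) (Fin 2) F).mulVec v ≠ c • v) :
    (g : Matrix (Fin 2) (Fin 2) F) 1 0 ≠ 0 := by
  intro h10
  apply hg ((g : Matrix (Fin 2) (Fin 2) F) 0 0) ![1, 0]
  · intro h
    have := congrFun h 0
    simp at this
  · ext i
    fin_cases i <;> simp [Matrix.mulVec, dotProduct, Fin.sum_univ_two, h10]

/-- centralizer of an element without eigenvectors -/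
noncomputable def centEllEquiv (g : GL (Fin 2) F)
    (hg : ∀ (c : F) (v : Fin 2 → F), v ≠ 0 → (g : Matrix (Fin 2) (Fin 2) F).mulVec v ≠ c • v) :
    Subgroup.centralizer ({g} : Set (GL (Fin 2) F)) ≃ {p : F × F // p ≠ 0} := by
  have h10 := g10_ne_zero g hg
  have key : ∀ s : Subgroup.centralizer ({g} : Set (GL (Fin 2) F)),
      (s.1 : Matrix (Fin 2) (Fin 2) F) =
        ((s.1 : Matrix (Fin 2) (Fin 2) F) 0 0 - (s.1 : Matrix (Fin 2) (Fin 2) F) 1 0 / (g : Matrix (Fin 2) (Fin 2) F) 1 0 * (g : Matrix (Fin 2) (Fin 2) F) 0 0) • (1 : Matrix (Fin 2) (Fin 2) F) +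
        ((s.1 : Matrix (Fin 2) (Fin 2) F) 1 0 / (g : Matrix (Fin 2) (Fin 2) F) 1 0) • (g : Matrix (Fin 2) (Fin 2) F) := by
    intro s
    have hm := comm_entries s.2
    have e00 := congrFun (congrFun hm 0) 0
    have e10 := congrFun (congrFun hm 1) 0
    simp [Matrix.mul_apply, Fin.sum_univ_two] at e00 e10
    ext i j
    fin_cases i <;> fin_cases j <;> simp
    · field_simp
      linear_combination e00
    · field_simp
    · field_simp
      linear_combination e10
  have hne : ∀ s : Subgroup.centralizer ({g} : Set (GL (Fin 2) F)),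
      (((s.1 : Matrix (Fin 2) (Fin 2) F) 0 0 - (s.1 : Matrix (Fin 2) (Fin 2) F) 1 0 / (g : Matrix (Fin 2) (Fin 2) F) 1 0 * (g : Matrix (Fin 2) (Fin 2) F) 0 0,
        (s.1 : Matrix (Fin 2) (Fin 2) F) 1 0 / (g : Matrix (Fin 2) (Fin 2) F) 1 0) : F × F) ≠ 0 := by
    intro s h0
    have h1 := congrArg Prod.fst h0
    have h2 := congrArg Prod.snd h0
    simp only [Prod.fst_zero, Prod.snd_zero] at h1 h2
    have hk := key s
    rw [h1, h2, zero_smul, zero_smul, add_zero] at hk
    have hdet := det_ne_zero_GL s.1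
    rw [hk] at hdet
    simp at hdet
  exact
  { toFun := fun s => ⟨_, hne s⟩
    invFun := fun p => ⟨linGL g hg p, by
      rw [Subgroup.mem_centralizer_singleton_iff]
      apply Units.ext
      rw [Units.val_mul, Units.val_mul, coe_linGL]
      rw [add_mul, mul_add, Matrix.smul_mul, Matrix.smul_mul, Matrix.mul_smul, Matrix.mul_smul, one_mul, mul_one]⟩
    left_inv := fun s => by
      apply Subtype.ext
      apply Units.ext
      rw [coe_linGL]
      exact (key s).symm
    right_inv := fun p => by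
      apply Subtype.ext
      apply Prod.ext
      · simp [coe_linGL]
        field_simp
        ring
      · simp [coe_linGL]
        field_simp }

/-- Over a finite field with q elements: a diagonal element of GL₂ with two distinct diagonal entries has centralizer of order (q − 1)² (so q(q + 1) conjugates), and an element of GL₂ with no eigenvector in F² has centralizer of order q² − 1 (so q(q − 1) conjugates). -/
theorem result {F : Type*} [Field F] [Fintype F] (g : Matrix.GeneralLinearGroup (Fin 2) F) :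
    ((g : Matrix (Fin 2) (Fin 2) F) 0 1 = 0 → (g : Matrix (Fin 2) (Fin 2) F) 1 0 = 0 → (g : Matrix (Fin 2) (Fin 2) F) 0 0 ≠ (g : Matrix (Fin 2) (Fin 2) F) 1 1 →
      Nat.card (Subgroup.centralizer ({g} : Set (Matrix.GeneralLinearGroup (Fin 2) F))) = (Fintype.card F - 1) ^ 2) ∧
    ((∀ (c : F) (v : Fin 2 → F), v ≠ 0 → (g : Matrix (Fin 2) (Fin 2) F).mulVec v ≠ c • v) →
      Nat.card (Subgroup.centralizer ({g} : Set (Matrix.GeneralLinearGroup (Fin 2) F))) = Fintype.card F ^ 2 - 1) := by
  classical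
  constructor
  · intro h01 h10 hne
    rw [Nat.card_congr (centDiagEquiv g h01 h10 hne), Nat.card_prod, Nat.card_units, Nat.card_eq_fintype_card,
      pow_two]
  · intro hg
    rw [Nat.card_congr (centEllEquiv g hg), Nat.card_eq_fintype_card]
    have := Fintype.card_subtype_compl (fun p : F × F => p = 0)
    simp only [Fintype.card_subtype_eq, Fintype.card_prod] at this
    rw [pow_two]
    convert this using 2

end Cfsg.Agent.S2303
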