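import Cfsg.Statements.S2307
import Cfsg.Agent.H44.SL2OddA

set_option autoImplicit false
open Cfsg

namespace Cfsg.Agent.S2307

/-- Over a finite field F with q elements, q odd, let α be the multiplicative character of F of order 2. The character of SL₂ induced from the linear character b ↦ α(b₁₁) of the upper triangular subgroup is the sum of two distinct irreducible characters, each of degree (q + 1)/2, which are conjugate under GL₂: some fixed element of GL₂ conjugates the one into the other. -/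
theorem result {F : Type*} [Field F] [Fintype F] [DecidableEq F] (hodd : Odd (Fintype.card F)) (α : MulChar F ℂ)
    (hα : α ^ 2 = 1) (hα1 : α ≠ 1) :
    ∃ χ₁ χ₂ : Matrix.SpecialLinearGroup (Fin 2) F → ℂ, Cfsg.IsIrrCharacter (Matrix.SpecialLinearGroup (Fin 2) F) χ₁ ∧ Cfsg.IsIrrCharacter (Matrix.SpecialLinearGroup (Fin 2) F) χ₂ ∧ χ₁ ≠ χ₂ ∧
      Cfsg.indFun ((Cfsg.upperTriangularGL 2 F).comap Matrix.SpecialLinearGroup.toGL) (fun b => α (((b : Matrix.SpecialLinearGroup (Fin 2) F) : Matrix (Fin 2) (Fin 2) F) 0 0)) = χ₁ + χ₂ ∧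
      χ₁ 1 = (((Fintype.card F + 1) / 2 : ℕ) : ℂ) ∧ χ₂ 1 = (((Fintype.card F + 1) / 2 : ℕ) : ℂ) ∧
      ∃ x : Matrix.GeneralLinearGroup (Fin 2) F, ∀ g h : Matrix.SpecialLinearGroup (Fin 2) F,
        Matrix.SpecialLinearGroup.toGL h = x * Matrix.SpecialLinearGroup.toGL g * x⁻¹ → χ₂ h = χ₁ g := by
  obtain ⟨ε, hε⟩ := FiniteField.exists_nonsquare (Cfsg.Agent.H44.ringChar_ne_two_of_odd hodd)
  have hε0 : ε ≠ 0 := by
    rintro rfl
    exact hε IsSquare.zero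
  obtain ⟨ξ₁, ξ₂, h1, h2, hne, hsum, htw⟩ := Cfsg.Agent.H44.psSL_quadratic_decomp α hα hα1 ε hε hε0
  have hdeg2 : ξ₂ 1 = ξ₁ 1 := by rw [htw 1, map_one]
  have hdegsum : ξ₁ 1 + ξ₂ 1 = (Fintype.card F : ℂ) + 1 := by
    have := congrFun hsum 1
    rw [Cfsg.Agent.H44.psSL_one] at this
    exact this.symm
  have hdeg1 : ξ₁ 1 = (((Fintype.card F + 1) / 2 : ℕ) : ℂ) := by
    obtain ⟨k, hk⟩ := hodd
    have hk2 : (Fintype.card F + 1) / 2 = k + 1 := by omega
    rw [hk2]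
    rw [hdeg2, hk] at hdegsum
    push_cast at hdegsum ⊢
    linear_combination hdegsum / 2
  refine ⟨ξ₁, ξ₂, h1, h2, hne, hsum, hdeg1, hdeg2.trans hdeg1,
    Cfsg.Agent.H44.triGL (Units.mk0 ε⁻¹ (inv_ne_zero hε0)) 1 0, ?_⟩
  intro g h hgh
  rw [← Cfsg.Agent.H44.toGL_twistSL ε⁻¹ (inv_ne_zero hε0) g] at hgh
  have hh : h = Cfsg.Agent.H44.twistSL ε⁻¹ (inv_ne_zero hε0) g :=
    Matrix.SpecialLinearGroup.toGL_injective hgh
  rw [htw h, hh]
  exact congrArg ξ₁ ((Cfsg.Agent.H44.twistSL ε hε0).apply_symm_apply g)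

end Cfsg.Agent.S2307
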