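import Cfsg.Statements.S2308
import Cfsg.Agent.H44.Borel

set_option autoImplicit false
open Cfsg

namespace Cfsg.Agent.S2308

open Cfsg.Agent.H44 in
/-- Values of the permutation character of GL₂ over a finite field F with q elements on the cosets of its upper triangular subgroup (equivalently, the number of lines of F² that an element maps to themselves): q + 1 at a scalar matrix, 2 at a diagonal matrix with two different diagonal entries, 0 at an element with no eigenvector in F², and 1 at an upper triangular matrix with equal diagonal entries and non-zero upper right entry. -/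
theorem result {F : Type*} [Field F] [Fintype F] (g : Matrix.GeneralLinearGroup (Fin 2) F) :
    ((∃ a : F, (g : Matrix (Fin 2) (Fin 2) F) = a • (1 : Matrix (Fin 2) (Fin 2) F)) → Cfsg.fixedPointCharacter (Cfsg.upperTriangularGL 2 F) g = Fintype.card F + 1) ∧
    ((g : Matrix (Fin 2) (Fin 2) F) 0 1 = 0 → (g : Matrix (Fin 2) (Fin 2) F) 1 0 = 0 → (g : Matrix (Fin 2) (Fin 2) F) 0 0 ≠ (g : Matrix (Fin 2) (Fin 2) F) 1 1 →
      Cfsg.fixedPointCharacter (Cfsg.upperTriangularGL 2 F) g = 2) ∧
    ((∀ (c : F) (v : Fin 2 → F), v ≠ 0 → (g : Matrix (Fin 2) (Fin 2) F).mulVec v ≠ c • v) → Cfsg.fixedPointCharacter (Cfsg.upperTriangularGL 2 F) g = 0) ∧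
    ((g : Matrix (Fin 2) (Fin 2) F) 1 0 = 0 → (g : Matrix (Fin 2) (Fin 2) F) 0 0 = (g : Matrix (Fin 2) (Fin 2) F) 1 1 → (g : Matrix (Fin 2) (Fin 2) F) 0 1 ≠ 0 →
      Cfsg.fixedPointCharacter (Cfsg.upperTriangularGL 2 F) g = 1) := by
  classical
  rw [fixedPointCharacter_borel]
  refine ⟨?_, ?_, ?_, ?_⟩
  · rintro ⟨a, ha⟩
    have hall : ∀ s : Option F, FixCond (g : Matrix (Fin 2) (Fin 2) F) s := by
      intro s
      cases s with
      | none => show (g : Matrix (Fin 2) (Fin 2) F) 1 0 = 0; rw [ha]; simp
      | some t => show qf (g : Matrix (Fin 2) (Fin 2) F) t 1 = 0; rw [ha]; simp [qf]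
    rw [Nat.card_congr (Equiv.subtypeUnivEquiv hall), Nat.card_eq_fintype_card, Fintype.card_option]
    push_cast; ring
  · intro h01 h10 hne
    have hset : {s : Option F | FixCond (g : Matrix (Fin 2) (Fin 2) F) s} = {none, some 0} := by
      ext s
      simp only [Set.mem_insert_iff, Set.mem_singleton_iff]
      cases s with
      | none => simp only [true_or, iff_true]; exact h10
      | some t =>
        show qf (g : Matrix (Fin 2) (Fin 2) F) t 1 = 0 ↔ _
        simp only [qf, h10, h01, reduceCtorEq, Option.some.injEq, false_or]
        constructor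
        · intro h
          have h' : ((g : Matrix (Fin 2) (Fin 2) F) 1 1 - (g : Matrix (Fin 2) (Fin 2) F) 0 0) * t = 0 := by
            linear_combination h
          rcases mul_eq_zero.mp h' with h1 | h1
          · exact absurd (sub_eq_zero.mp h1).symm hne
          · exact h1
        · rintro rfl; ring
    show ((Nat.card ({s : Option F | FixCond (g : Matrix (Fin 2) (Fin 2) F) s} : Set (Option F)) : ℕ) : ℂ) = 2
    rw [hset, Nat.card_coe_set_eq, Set.ncard_pair (by simp)]
    norm_num
  · intro hg
    have hempty : IsEmpty {s : Option F // FixCond (g : Matrix (Fin 2) (Fin 2) F) s} := by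
      constructor
      rintro ⟨s, hs⟩
      cases s with
      | none =>
        apply hg ((g : Matrix (Fin 2) (Fin 2) F) 0 0) ![1, 0]
        · intro h
          have := congrFun h 0
          simp at this
        · have h10 : (g : Matrix (Fin 2) (Fin 2) F) 1 0 = 0 := hs
          ext i
          fin_cases i <;> simp [Matrix.mulVec, dotProduct, Fin.sum_univ_two, h10]
      | some t =>
        have hq : qf (g : Matrix (Fin 2) (Fin 2) F) t 1 = 0 := hs
        apply hg ((g : Matrix (Fin 2) (Fin 2) F) 1 0 * t + (g : Matrix (Fin 2) (Fin 2) F) 1 1) ![t, 1]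
        · intro h
          have := congrFun h 1
          simp at this
        · ext i
          fin_cases i
          · simp [Matrix.mulVec, dotProduct, Fin.sum_univ_two]
            simp only [qf] at hq
            linear_combination -hq
          · simp [Matrix.mulVec, dotProduct, Fin.sum_univ_two]
    rw [Nat.card_of_isEmpty]
    simp
  · intro h10 h00 h01
    have hset : {s : Option F | FixCond (g : Matrix (Fin 2) (Fin 2) F) s} = {none} := by
      ext s
      simp only [Set.mem_singleton_iff]
      cases s with
      | none => simp only [iff_true]; exact h10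
      | some t =>
        show qf (g : Matrix (Fin 2) (Fin 2) F) t 1 = 0 ↔ _
        simp only [qf, h10, h00, reduceCtorEq, iff_false]
        intro h
        apply h01
        linear_combination -h
    show ((Nat.card ({s : Option F | FixCond (g : Matrix (Fin 2) (Fin 2) F) s} : Set (Option F)) : ℕ) : ℂ) = 1
    rw [hset, Nat.card_coe_set_eq, Set.ncard_singleton]
    norm_num

end Cfsg.Agent.S2308
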