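import Cfsg.Statements.S2309
import Cfsg.Agent.H44.GL2Final

set_option autoImplicit false
open Cfsg

namespace Cfsg.Agent.S2309

/-- Over a finite field F with q elements: every irreducible complex character of GL₂ of degree q − 1 vanishes at every diagonal matrix with two distinct entries, and every irreducible complex character of degree q + 1 vanishes at every element with no eigenvector in F². -/
theorem result {F : Type*} [Field F] [Fintype F] (χ : Matrix.GeneralLinearGroup (Fin 2) F → ℂ) (hχ : Cfsg.IsIrrCharacter (Matrix.GeneralLinearGroup (Fin 2) F) χ) (g : Matrix.GeneralLinearGroup (Fin 2) F) :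
    (χ 1 = (Fintype.card F : ℂ) - 1 → (g : Matrix (Fin 2) (Fin 2) F) 0 1 = 0 → (g : Matrix (Fin 2) (Fin 2) F) 1 0 = 0 → (g : Matrix (Fin 2) (Fin 2) F) 0 0 ≠ (g : Matrix (Fin 2) (Fin 2) F) 1 1 → χ g = 0) ∧
    (χ 1 = (Fintype.card F : ℂ) + 1 → (∀ (c : F) (v : Fin 2 → F), v ≠ 0 → (g : Matrix (Fin 2) (Fin 2) F).mulVec v ≠ c • v) → χ g = 0) := by
  classical
  letI : Fintype (Matrix.GeneralLinearGroup (Fin 2) F) := Fintype.ofFinite _
  letI : Fintype (MulChar F ℂ) := Fintype.ofFinite _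
  letI : Fintype (Cfsg.IrrCharacter (Matrix.GeneralLinearGroup (Fin 2) F)) := Cfsg.Agent.H4.fintypeIrr _
  refine ⟨?_, ?_⟩
  · intro hdeg h01 h10 hne
    by_cases hq : 3 ≤ Fintype.card F
    · obtain ⟨hc, -⟩ := Cfsg.Agent.H44.GL2_irr_of_degree_q_sub_one hq hχ hdeg
      exact Cfsg.Agent.H44.cuspidal_diag (Cfsg.Agent.H4.isClassFunction_of_isCharacter
        (Cfsg.Agent.H4.isCharacter_of_isIrrCharacter hχ)) hc g h01 h10 hne
    · exfalso
      have hq2 : 2 ≤ Fintype.card F := Fintype.one_lt_card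
      have hq3 : Fintype.card F = 2 := by omega
      obtain ⟨h00, h11⟩ := Cfsg.Agent.H44.borel_diag_ne_zero g h10
      exact hne (Cfsg.Agent.H44.eq_of_card_two hq3 _ _ h00 h11)
  · intro hdeg hell
    obtain ⟨α, β, -, rfl⟩ := Cfsg.Agent.H44.GL2_irr_of_degree_q_add_one hχ hdeg
    exact Cfsg.Agent.H44.psGL_elliptic α β g hell

end Cfsg.Agent.S2309
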