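import Cfsg.Statements.S2313
import Cfsg.Agent.H68.StChev
import Cfsg.Agent.H23.AllB

set_option autoImplicit false
open Cfsg

namespace Cfsg.Agent.S2313

/-- In a Chevalley group of type G₂, B₂, D₄, F₄, E₆, E₇ or E₈ over a finite field, the restriction of the Steinberg character to the subgroup B = UH is the permutation character of B on the cosets of the diagonal subgroup H: at b ∈ B its value is the number of cosets xH, x ∈ B, with bxH = xH. -/
theorem result {F : Type*} [Field F] [Fintype F] (D : Cfsg.Lie.ChevalleyDatum) (hD : D ∈ [Cfsg.Lie.chevG2, Cfsg.Lie.chevB2, Cfsg.Lie.chevD4, Cfsg.Lie.chevF4, Cfsg.Lie.chevE6, Cfsg.Lie.chevE7, Cfsg.Lie.chevE8]) (b : ↥((D.borelSubgroup F).subgroupOf (D.group F))) :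
    D.steinbergCharacter F ((((D.borelSubgroup F).subgroupOf (D.group F)).subtype) b) =
      Cfsg.fixedPointCharacter (((D.diagonalSubgroup F).subgroupOf (D.group F)).subgroupOf ((D.borelSubgroup F).subgroupOf (D.group F))) b := by
  obtain ⟨z, η, w, rT, par, dep, hP⟩ := Cfsg.Agent.H23.packF_all (F := F) D hD
  exact Cfsg.Agent.H68.St.chev_borel hP.packB hP.semV w hP.tabW b

end Cfsg.Agent.S2313
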