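import Cfsg.Statements.S2317
import Cfsg.Agent.H97.Nilp

set_option autoImplicit false
open Cfsg

namespace Cfsg.Agent.S2317

/-- Over a finite field of characteristic p, the conjugacy classes of GL_n consisting of elements of p-power order (the unipotent classes) are as many as the partitions of n. -/
theorem result {F : Type*} [Field F] [Fintype F] (p : ℕ) [Fact p.Prime] [CharP F p] (n : ℕ) :
    Nat.card {C : ConjClasses (Matrix.GeneralLinearGroup (Fin n) F) //
      ∃ g : Matrix.GeneralLinearGroup (Fin n) F, (∃ k : ℕ, orderOf g = p ^ k) ∧ ConjClasses.mk g = C} =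
      Fintype.card (Nat.Partition n) := by
  classical
  have hmodel : ∀ μ : Nat.Partition n, ∃ g : GL (Fin n) F,
      (∃ e, ((g : Matrix (Fin n) (Fin n) F) - 1) ^ e = 0) ∧
      ∀ k, (((g : Matrix (Fin n) (Fin n) F) - 1) ^ k).rank =
        (μ.parts.map (fun b => b - k)).sum := by
    intro μ
    obtain ⟨g, h1, h2⟩ := Cfsg.Agent.H97.Nilp.exists_gl_model (F := F) μ.parts μ.parts_sum n
      (fun b hb => by
        have := Multiset.le_sum_of_mem hb
        rw [μ.parts_sum] at this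
        exact this)
    exact ⟨g, ⟨n, h1⟩, h2⟩
  choose G hG1 hG2 using hmodel
  rw [← Nat.card_eq_fintype_card]
  symm
  apply Nat.card_eq_of_bijective (fun μ : Nat.Partition n =>
    (⟨ConjClasses.mk (G μ), G μ, (Cfsg.Agent.H97.Nilp.ppow_iff p (G μ)).mpr (hG1 μ), rfl⟩ :
      {C : ConjClasses (Matrix.GeneralLinearGroup (Fin n) F) //
        ∃ g : Matrix.GeneralLinearGroup (Fin n) F,
          (∃ k : ℕ, orderOf g = p ^ k) ∧ ConjClasses.mk g = C}))
  constructor
  · intro μ ν h
    have h1 : ConjClasses.mk (G μ) = ConjClasses.mk (G ν) := congrArg Subtype.val h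
    rw [ConjClasses.mk_eq_mk_iff_isConj] at h1
    apply Nat.Partition.ext
    apply Cfsg.Agent.H97.Nilp.mset_eq_of_sums _ _ (fun b hb => μ.parts_pos hb)
      (fun b hb => ν.parts_pos hb)
    intro k
    rw [← hG2 μ k, ← hG2 ν k]
    exact Cfsg.Agent.H97.Nilp.rank_of_gl_conj _ _ h1 k
  · rintro ⟨C, g, hg, rfl⟩
    obtain ⟨E, hE⟩ := (Cfsg.Agent.H97.Nilp.ppow_iff p g).mp hg
    obtain ⟨μ, _, hμ⟩ := Cfsg.Agent.H97.Nilp.exists_partition_of_nilp g E hE
    refine ⟨μ, Subtype.ext ?_⟩
    show ConjClasses.mk (G μ) = ConjClasses.mk g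
    rw [ConjClasses.mk_eq_mk_iff_isConj]
    exact Cfsg.Agent.H97.Nilp.gl_conj_of_rank _ _ (hG1 μ) (fun k => by rw [hG2 μ k, hμ k])

end Cfsg.Agent.S2317
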