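import Cfsg.Statements.S2320
import Cfsg.Agent.H44.GL2Final

set_option autoImplicit false
open Cfsg

namespace Cfsg.Agent.S2320

/-- Over a finite field F with q elements, every irreducible complex character of GL₂ of degree q takes a value of absolute value 1 at every diagonal matrix with two different diagonal entries and at every element with no eigenvector in F². -/
theorem result {F : Type*} [Field F] [Fintype F] (χ : Matrix.GeneralLinearGroup (Fin 2) F → ℂ) (hχ : Cfsg.IsIrrCharacter (Matrix.GeneralLinearGroup (Fin 2) F) χ) (hdeg : χ 1 = (Fintype.card F : ℂ)) (g : Matrix.GeneralLinearGroup (Fin 2) F) :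
    ((g : Matrix (Fin 2) (Fin 2) F) 0 1 = 0 → (g : Matrix (Fin 2) (Fin 2) F) 1 0 = 0 → (g : Matrix (Fin 2) (Fin 2) F) 0 0 ≠ (g : Matrix (Fin 2) (Fin 2) F) 1 1 → ‖χ g‖ = 1) ∧
    ((∀ (c : F) (v : Fin 2 → F), v ≠ 0 → (g : Matrix (Fin 2) (Fin 2) F).mulVec v ≠ c • v) → ‖χ g‖ = 1) := by
  classical
  letI : Fintype (Matrix.GeneralLinearGroup (Fin 2) F) := Fintype.ofFinite _
  letI : Fintype (MulChar F ℂ) := Fintype.ofFinite _
  letI : Fintype (Cfsg.IrrCharacter (Matrix.GeneralLinearGroup (Fin 2) F)) := Cfsg.Agent.H4.fintypeIrr _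
  obtain ⟨α, rfl⟩ := Cfsg.Agent.H44.GL2_irr_of_degree_q hχ hdeg
  refine ⟨?_, ?_⟩
  · intro h01 h10 hne
    obtain ⟨h00, h11⟩ := Cfsg.Agent.H44.borel_diag_ne_zero g h10
    rw [Cfsg.Agent.H44.stGL_diag α g h01 h10 hne, norm_mul, Cfsg.Agent.H44.mulChar_norm α _ h00,
      Cfsg.Agent.H44.mulChar_norm α _ h11, mul_one]
  · intro hell
    rw [Cfsg.Agent.H44.stGL_elliptic α g hell, norm_neg,
      Cfsg.Agent.H44.mulChar_norm α _ (Cfsg.Agent.H44.GL2_det_ne_zero g)]

end Cfsg.Agent.S2320
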