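import Cfsg.Statements.S2321
import Cfsg.Agent.H44.SL2Deg

set_option autoImplicit false
open Cfsg

namespace Cfsg.Agent.S2321

/-- Over a finite field F with q elements, an irreducible complex character of SL₂ of degree q (the Steinberg character) takes the value 1 at every diagonal matrix whose diagonal entry a has a² ≠ 1, the value −1 at every element with no eigenvector in F², and the value 0 at every upper triangular matrix with equal diagonal entries and non-zero upper right entry. -/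
theorem result {F : Type*} [Field F] [Fintype F] (χ : Matrix.SpecialLinearGroup (Fin 2) F → ℂ) (hχ : Cfsg.IsIrrCharacter (Matrix.SpecialLinearGroup (Fin 2) F) χ) (hdeg : χ 1 = (Fintype.card F : ℂ)) (g : Matrix.SpecialLinearGroup (Fin 2) F) :
    ((g : Matrix (Fin 2) (Fin 2) F) 0 1 = 0 → (g : Matrix (Fin 2) (Fin 2) F) 1 0 = 0 → (g : Matrix (Fin 2) (Fin 2) F) 0 0 ^ 2 ≠ 1 → χ g = 1) ∧
    ((∀ (c : F) (v : Fin 2 → F), v ≠ 0 → (g : Matrix (Fin 2) (Fin 2) F).mulVec v ≠ c • v) → χ g = -1) ∧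
    ((g : Matrix (Fin 2) (Fin 2) F) 1 0 = 0 → (g : Matrix (Fin 2) (Fin 2) F) 0 0 = (g : Matrix (Fin 2) (Fin 2) F) 1 1 → (g : Matrix (Fin 2) (Fin 2) F) 0 1 ≠ 0 → χ g = 0) := by
  classical
  letI : Fintype (Matrix.SpecialLinearGroup (Fin 2) F) := Fintype.ofFinite _
  letI : Fintype (MulChar F ℂ) := Fintype.ofFinite _
  letI : Fintype (Cfsg.IrrCharacter (Matrix.SpecialLinearGroup (Fin 2) F)) := Cfsg.Agent.H4.fintypeIrr _
  have h := Cfsg.Agent.H44.SL2_of_degree_q hχ hdeg
  subst h
  refine ⟨fun h01 h10 hsq => ?_, fun hell => ?_, fun h10 h00 h01 => ?_⟩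
  · apply Cfsg.Agent.H44.stSL_diag g h01 h10
    intro heq
    apply hsq
    have h1 := Cfsg.Agent.H44.borelSL_entries g h10
    rw [← heq] at h1
    rw [pow_two]
    exact h1
  · exact Cfsg.Agent.H44.stSL_elliptic g hell
  · exact Cfsg.Agent.H44.stSL_jordan g h10 h00 h01

end Cfsg.Agent.S2321
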