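import Cfsg.Statements.S2322
import Cfsg.Agent.H44.SL2OddH

set_option autoImplicit false
open Cfsg

namespace Cfsg.Agent.S2322

/-- Over a finite field F with q elements, q odd: every irreducible complex character of SL₂ of degree q − 1 or (q − 1)/2 vanishes at every diagonal matrix whose diagonal entry a has a² ≠ 1, and every irreducible complex character of degree q + 1 or (q + 1)/2 vanishes at every element with no eigenvector in F². -/
theorem result {F : Type*} [Field F] [Fintype F] (hodd : Odd (Fintype.card F)) (χ : Matrix.SpecialLinearGroup (Fin 2) F → ℂ) (hχ : Cfsg.IsIrrCharacter (Matrix.SpecialLinearGroup (Fin 2) F) χ) (g : Matrix.SpecialLinearGroup (Fin 2) F) :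
    ((χ 1 = (Fintype.card F : ℂ) - 1 ∨ χ 1 = (((Fintype.card F - 1) / 2 : ℕ) : ℂ)) →
      (g : Matrix (Fin 2) (Fin 2) F) 0 1 = 0 → (g : Matrix (Fin 2) (Fin 2) F) 1 0 = 0 → (g : Matrix (Fin 2) (Fin 2) F) 0 0 ^ 2 ≠ 1 → χ g = 0) ∧
    ((χ 1 = (Fintype.card F : ℂ) + 1 ∨ χ 1 = (((Fintype.card F + 1) / 2 : ℕ) : ℂ)) →
      (∀ (c : F) (v : Fin 2 → F), v ≠ 0 → (g : Matrix (Fin 2) (Fin 2) F).mulVec v ≠ c • v) → χ g = 0) := by
  classical
  letI : Fintype (Matrix.SpecialLinearGroup (Fin 2) F) := Fintype.ofFinite _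
  letI : Fintype (MulChar F ℂ) := Fintype.ofFinite _
  letI : Fintype (Cfsg.IrrCharacter (Matrix.SpecialLinearGroup (Fin 2) F)) := Cfsg.Agent.H4.fintypeIrr _
  obtain ⟨α₀, ξ₁, ξ₂, D⟩ := Cfsg.Agent.H44.exists_quadDecomp hodd
  have hq3 := Cfsg.Agent.H44.three_le_card_of_odd hodd
  have hcf := Cfsg.Agent.H4.isClassFunction_of_isCharacter (Cfsg.Agent.H4.isCharacter_of_isIrrCharacter hχ)
  rw [Cfsg.Agent.H44.half_cast_add hodd, Cfsg.Agent.H44.half_cast_sub hodd]
  refine ⟨fun hd h01 h10 hsq => ?_, fun hd hell => ?_⟩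
  · by_cases h3 : Fintype.card F = 3
    · exfalso
      apply hsq
      have h := Cfsg.Agent.H44.borelSL_entries g h10
      have h00 : (g : Matrix (Fin 2) (Fin 2) F) 0 0 ≠ 0 := left_ne_zero_of_mul_eq_one h
      have h4 := FiniteField.pow_card_sub_one_eq_one _ h00
      rw [h3] at h4
      exact h4
    · have hq5 : 5 ≤ Fintype.card F := by
        obtain ⟨k, hk⟩ := hodd
        omega
      have hc : Cfsg.Agent.H44.IsCuspidalSL χ := by
        rcases hd with hd | hd
        · exact (Cfsg.Agent.H44.SL2_odd_of_degree_sub_one hodd hq5 D hχ hd).1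
        · exact (Cfsg.Agent.H44.SL2_odd_of_degree_half_sub hodd hq5 D hχ hd).1
      exact Cfsg.Agent.H44.cuspidalSL_diag_odd hodd hcf hc g h01 h10 hsq
  · rcases Cfsg.Agent.H44.SL2_odd_irr_cases hodd D hχ with h | h | ⟨α, -, h⟩ | h | h | ⟨hc, ⟨h1, h2⟩ | ⟨h1, h2⟩⟩
    · exfalso
      rw [h] at hd
      rcases hd with hd | hd
      · exact (Cfsg.Agent.H44.ne_of_lin (q := Fintype.card F) (-2) (0) (by push_cast; ring) (by omega) :
          (1 : ℂ) ≠ (Fintype.card F : ℂ) + 1) hd
      · exact (Cfsg.Agent.H44.ne_of_lin (q := Fintype.card F) (-1) (1) (by push_cast; ring) (by omega) :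
          (1 : ℂ) ≠ ((Fintype.card F : ℂ) + 1) / 2) hd
    · exfalso
      rw [h, Cfsg.Agent.H44.stSL_one] at hd
      rcases hd with hd | hd
      · exact (Cfsg.Agent.H44.ne_of_lin (q := Fintype.card F) (0) (-2) (by push_cast; ring) (by omega) :
          (Fintype.card F : ℂ) ≠ (Fintype.card F : ℂ) + 1) hd
      · exact (Cfsg.Agent.H44.ne_of_lin (q := Fintype.card F) (1) (-1) (by push_cast; ring) (by omega) :
          (Fintype.card F : ℂ) ≠ ((Fintype.card F : ℂ) + 1) / 2) hd
    · rw [h]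
      exact Cfsg.Agent.H44.psSL_elliptic α g hell
    · rw [h]
      exact (D.elliptic hodd g hell).1
    · rw [h]
      exact (D.elliptic hodd g hell).2
    · rcases hd with hd | hd
      · exfalso
        exact (Cfsg.Agent.H44.ne_of_lin (q := Fintype.card F) (0) (-4) (by push_cast; ring) (by omega) :
          (Fintype.card F : ℂ) - 1 ≠ (Fintype.card F : ℂ) + 1) (h1.symm.trans hd)
      · have h3 : (Fintype.card F : ℂ) = 3 := by
          have h4 := h1.symm.trans hd
          linear_combination 2 * h4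
        have h3' : Fintype.card F = 3 := by exact_mod_cast h3
        exact Cfsg.Agent.H44.cuspidal_elliptic_q3 hodd h3' D hχ hc h1 g hell
    · exfalso
      rcases hd with hd | hd
      · exact (Cfsg.Agent.H44.ne_of_lin (q := Fintype.card F) (-1) (-3) (by push_cast; ring) (by omega) :
          ((Fintype.card F : ℂ) - 1) / 2 ≠ (Fintype.card F : ℂ) + 1) (h1.symm.trans hd)
      · exact (Cfsg.Agent.H44.ne_of_lin (q := Fintype.card F) (0) (-2) (by push_cast; ring) (by omega) :
          ((Fintype.card F : ℂ) - 1) / 2 ≠ ((Fintype.card F : ℂ) + 1) / 2) (h1.symm.trans hd)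

end Cfsg.Agent.S2322
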