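import Cfsg.Statements.S2328
import Cfsg.Agent.H68.StChev
import Cfsg.Agent.H23.SylowU
import Cfsg.Agent.H78.DefectZero

set_option autoImplicit false
open Cfsg

namespace Cfsg.Agent.S2328

/-- In a Chevalley group of type G₂, B₂, D₄, F₄, E₆, E₇ or E₈ over a finite field of characteristic p, the Steinberg character vanishes at every element whose order is divisible by p (every element that is not semisimple). -/
theorem result {F : Type*} [Field F] [Fintype F] (p : ℕ) [Fact p.Prime] [CharP F p] (D : Cfsg.Lie.ChevalleyDatum) (hD : D ∈ [Cfsg.Lie.chevG2, Cfsg.Lie.chevB2, Cfsg.Lie.chevD4, Cfsg.Lie.chevF4, Cfsg.Lie.chevE6, Cfsg.Lie.chevE7, Cfsg.Lie.chevE8]) (g : ↥(D.group F)) (hg : p ∣ orderOf g) :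
    D.steinbergCharacter F g = 0 := by
  obtain ⟨z, η, w, rT, par, dep, hP⟩ := Cfsg.Agent.H23.packF_all (F := F) D hD
  let _ : Fintype ↥(D.group F) := Fintype.ofFinite _
  have hirr := Cfsg.Agent.H68.St.chev_irr hP.packB
  have hdeg : D.steinbergCharacter F 1 = ((Fintype.card F ^ (D.nroots / 2) : ℕ) : ℂ) := by
    rw [Cfsg.Agent.H68.St.chev_degree hP.packB hP.semV w hP.tabW,
      Cfsg.Agent.H23.numPos_half_all D hD, Nat.card_eq_fintype_card]
    push_cast
    rfl
  obtain ⟨S, hS⟩ := Cfsg.Agent.H23.exists_sylow_posUnipotent (F := F) p D hD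
  have hcS : Nat.card ↥(S : Subgroup ↥(D.group F)) = Fintype.card F ^ (D.nroots / 2) := by
    rw [hS, Nat.card_congr (Subgroup.subgroupOfEquivOfLe
      (Cfsg.Agent.H23.posUnipotent_le_group hP.packB.sem)).toEquiv,
      Cfsg.Agent.H23.card_posUnipotent_all D hD]
  have hcd : Cfsg.charDegree (D.steinbergCharacter F) = Fintype.card F ^ (D.nroots / 2) := by
    unfold Cfsg.charDegree
    rw [hdeg, Complex.natCast_re, Nat.floor_natCast]
  have hdef : ¬ p ∣ Nat.card ↥(D.group F) / Cfsg.charDegree (D.steinbergCharacter F) := by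
    rw [hcd, ← hcS]
    have h1 := Subgroup.index_mul_card (S : Subgroup ↥(D.group F))
    have hpos : 0 < Nat.card ↥(S : Subgroup ↥(D.group F)) := Nat.card_pos
    have h2 : Nat.card ↥(D.group F) / Nat.card ↥(S : Subgroup ↥(D.group F)) =
        (S : Subgroup ↥(D.group F)).index := by
      rw [← h1]
      exact Nat.mul_div_cancel _ hpos
    rw [h2]
    exact S.not_dvd_index
  exact Cfsg.Agent.H78.irr_defect_zero_vanish p Fact.out
    (⟨D.steinbergCharacter F, hirr⟩ : Cfsg.IrrCharacter ↥(D.group F)) hdef g hg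

end Cfsg.Agent.S2328
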