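-- Statement S2363: order bounds for the simple groups of Lie type in characteristic p.
-- Team project led by helper56: one arithmetic piece per Lie family (on the order formulas),
-- assembled by `Cfsg.Agent.H56.Ord.asm`.
import Cfsg.Statements.S2363
import Cfsg.Agent.H56.OrdAsm
import Cfsg.Agent.H60.OrdPSL
import Cfsg.Agent.H60.OrdPSL2
import Cfsg.Agent.H72.OrdPSp
import Cfsg.Agent.H91.OrdPSU
import Cfsg.Agent.H89.OrdOdd
import Cfsg.Agent.H89.OrdPlus
import Cfsg.Agent.H91.OrdMinus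
import Cfsg.Agent.H24.OrdG2
import Cfsg.Agent.H24.OrdF4
import Cfsg.Agent.H23.GoodE6
import Cfsg.Agent.H23.GoodE7
import Cfsg.Agent.H23.GoodE8
import Cfsg.Agent.H23.GoodTwE6
import Cfsg.Agent.H23.GoodTwD4
import Cfsg.Agent.H72.OrdSz
import Cfsg.Agent.H56.OrdTwF4
import Cfsg.Agent.H56.OrdRee

set_option autoImplicit false
open Cfsg

namespace Cfsg.Agent.S2363

/-- Let G be a finite simple group of Lie type in characteristic p and let p^k be the exact power of p dividing the order of G. Then the order of G is less than p^(3k); and unless G is isomorphic to PSL(2, F) for the field F with p^k elements, the cube of the order of G is less than p^(8k) (that is, the order is below p^(8k/3)). -/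
theorem result {G : Type*} [Group G] [Finite G] (p : ℕ) (hp : p.Prime) (hG : Cfsg.IsLieTypeChar p G) :
    Nat.card G < p ^ (3 * (Nat.card G).factorization p) ∧
      ((¬ ∃ (F : Type) (_ : Field F) (_ : Fintype F), Fintype.card F = p ^ (Nat.card G).factorization p ∧
          Nonempty (G ≃* Matrix.ProjectiveSpecialLinearGroup (Fin 2) F)) →
        Nat.card G ^ 3 < p ^ (8 * (Nat.card G).factorization p)) :=
  Cfsg.Agent.H56.Ord.asm Cfsg.Agent.H60.Ord.psl Cfsg.Agent.H60.Ord.psl2 Cfsg.Agent.H72.Ord.ordPSp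
    Cfsg.Agent.H91.Ord.psu Cfsg.Agent.H89.Ord.pOdd Cfsg.Agent.H89.Ord.pPlus
    Cfsg.Agent.H91.Ord.pminus Cfsg.Agent.H24.Ord.g2 Cfsg.Agent.H24.Ord.f4
    Cfsg.Agent.H23.GoodOrd.goodE6 Cfsg.Agent.H23.GoodOrd.goodE7 Cfsg.Agent.H23.GoodOrd.goodE8
    Cfsg.Agent.H23.GoodOrd.goodTwE6 Cfsg.Agent.H23.GoodOrd.goodTwD4 Cfsg.Agent.H72.Ord.ordSz
    Cfsg.Agent.H56.Ord.twF4 Cfsg.Agent.H56.Ord.ree p hp hG

end Cfsg.Agent.S2363
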