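import Cfsg.Statements.S2364
-- import your own Cfsg.Agent.* helpers here
import Mathlib
import Cfsg.Agent.H45.NilComm
import Cfsg.Agent.S0242

set_option autoImplicit false
open Cfsg

namespace Cfsg.Agent.S2364

open Matrix

/-- Lifting a commuting pair (of prime orders `p`, `r`) from `G ⧸ Z(G)` to a commuting pair in `G`,
when the exponent `e` of the centre is prime to `p` and `r`. -/
theorem lift_commuting {G : Type*} [Group G] (p r e : ℕ) [Fact p.Prime] [Fact r.Prime]
    (hpe : Nat.Coprime e p) (hre : Nat.Coprime e r)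
    (hZ : ∀ z ∈ Subgroup.center G, z ^ e = 1)
    (a b : G ⧸ Subgroup.center G) (ha : orderOf a = p) (hb : orderOf b = r) (hab : Commute a b) :
    ∃ A B : G, A ^ p = 1 ∧ A ≠ 1 ∧ B ^ r = 1 ∧ B ≠ 1 ∧ Commute A B := by
  have hp : p.Prime := Fact.out
  have hr : r.Prime := Fact.out
  -- general lifting of one element
  have lift1 : ∀ (s : ℕ), s.Prime → Nat.Coprime e s → ∀ x : G ⧸ Subgroup.center G, orderOf x = s →
      ∃ X : G, X ^ s = 1 ∧ (X : G ⧸ Subgroup.center G) = x := by
    intro s hs hes x hx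
    obtain ⟨X₀, rfl⟩ := QuotientGroup.mk_surjective x
    have hc : e ^ (s - 1) ≡ 1 [MOD s] := by
      have := Nat.ModEq.pow_totient hes
      rwa [Nat.totient_prime hs] at this
    refine ⟨X₀ ^ (e ^ (s - 1)), ?_, ?_⟩
    · have hX₀ : X₀ ^ s ∈ Subgroup.center G := by
        rw [← QuotientGroup.eq_one_iff, QuotientGroup.mk_pow, ← hx]
        exact pow_orderOf_eq_one _
      have h1 := hZ _ hX₀
      have hs2 : s - 1 = (s - 2) + 1 := by have := hs.two_le; omega
      rw [← pow_mul, mul_comm, pow_mul, hs2, pow_succ', pow_mul, h1, one_pow]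
    · rw [QuotientGroup.mk_pow]
      have h2 : (X₀ : G ⧸ Subgroup.center G) ^ (e ^ (s - 1)) = (X₀ : G ⧸ Subgroup.center G) ^ 1 := by
        rw [pow_eq_pow_iff_modEq, hx]
        exact hc
      rw [h2, pow_one]
  obtain ⟨A, hA, rfl⟩ := lift1 p hp hpe a ha
  obtain ⟨B, hB, rfl⟩ := lift1 r hr hre b hb
  have hA1 : A ≠ 1 := by
    rintro rfl
    rw [QuotientGroup.mk_one, orderOf_one] at ha
    exact hp.one_lt.ne ha
  have hB1 : B ≠ 1 := by
    rintro rfl
    rw [QuotientGroup.mk_one, orderOf_one] at hb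
    exact hr.one_lt.ne hb
  refine ⟨A, B, hA, hA1, hB, hB1, ?_⟩
  set z := A * B * A⁻¹ * B⁻¹ with hz
  have hzc : z ∈ Subgroup.center G := by
    rw [← QuotientGroup.eq_one_iff, hz]
    simp only [QuotientGroup.mk_mul, QuotientGroup.mk_inv]
    rw [hab.eq]
    group
  have hzcomm : ∀ g : G, g * z = z * g := fun g => Subgroup.mem_center_iff.mp hzc g
  have hAB : A * B = z * B * A := by rw [hz]; group
  have hk : ∀ k : ℕ, A ^ k * B = z ^ k * B * A ^ k := by
    intro k
    induction k with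
    | zero => simp
    | succ k ih =>
      calc A ^ (k + 1) * B = A ^ k * (A * B) := by rw [pow_succ]; group
        _ = A ^ k * (z * B * A) := by rw [hAB]
        _ = (A ^ k * z) * B * A := by group
        _ = z * (A ^ k * B) * A := by rw [hzcomm]; group
        _ = z * (z ^ k * B * A ^ k) * A := by rw [ih]
        _ = z ^ (k + 1) * B * A ^ (k + 1) := by rw [pow_succ, pow_succ]; group
  have hzp : z ^ p = 1 := by
    have := hk p
    rw [hA, one_mul, mul_one] at this
    exact (mul_eq_right).mp this.symm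
  have hze : z ^ e = 1 := hZ z hzc
  have hz1 : z = 1 := by
    have h1 : orderOf z ∣ p := orderOf_dvd_of_pow_eq_one hzp
    have h2 : orderOf z ∣ e := orderOf_dvd_of_pow_eq_one hze
    have h3 : orderOf z ∣ Nat.gcd e p := Nat.dvd_gcd h2 h1
    rw [hpe] at h3
    exact orderOf_eq_one_iff.mp (Nat.dvd_one.mp h3)
  show A * B = B * A
  rw [hAB, hz1, one_mul]

/-- `|SL_m(q)| = q^(m-1) ∏_{i<m-1} (q^m - q^i)`. -/
theorem card_SL_succ {F : Type*} [Field F] [Fintype F] (m : ℕ) :
    Nat.card (Matrix.SpecialLinearGroup (Fin (m + 1)) F) =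
      Fintype.card F ^ m * ∏ i : Fin m, (Fintype.card F ^ (m + 1) - Fintype.card F ^ (i : ℕ)) := by
  have h := Cfsg.Agent.S0242.result (F := F) rfl (m + 1) (by omega)
  rw [Fin.prod_univ_castSucc] at h
  simp only [Fin.val_castSucc, Fin.val_last] at h
  have hq : 2 ≤ Fintype.card F := Fintype.one_lt_card
  have h2 : Fintype.card F ^ (m + 1) - Fintype.card F ^ m = (Fintype.card F - 1) * Fintype.card F ^ m := by
    rw [pow_succ, Nat.sub_mul, one_mul, mul_comm]
  rw [h2] at h
  have h3 : (Fintype.card F - 1) * Nat.card (Matrix.SpecialLinearGroup (Fin (m + 1)) F) =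
      (Fintype.card F - 1) * (Fintype.card F ^ m *
        ∏ i : Fin m, (Fintype.card F ^ (m + 1) - Fintype.card F ^ (i : ℕ))) := by
    rw [h]; ring
  exact Nat.eq_of_mul_eq_mul_left (by omega) h3

theorem dvd_card_SL_of_dvd_pow_sub_one {F : Type*} [Field F] [Fintype F] (m r j : ℕ)
    (hj1 : 1 ≤ j) (hjm : j ≤ m) (hm : 2 ≤ m) (h : r ∣ Fintype.card F ^ j - 1) :
    r ∣ Nat.card (Matrix.SpecialLinearGroup (Fin m) F) := by
  obtain ⟨m', rfl⟩ : ∃ m', m = m' + 1 := ⟨m - 1, by omega⟩
  rw [card_SL_succ]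
  apply Dvd.dvd.mul_left
  have hq : 1 ≤ Fintype.card F := Fintype.card_pos
  by_cases hj : j = 1
  · subst hj
    have hmem : (⟨0, by omega⟩ : Fin m') ∈ Finset.univ := Finset.mem_univ _
    refine dvd_trans ?_ (Finset.dvd_prod_of_mem _ hmem)
    simp only [pow_zero]
    rw [pow_one] at h
    refine dvd_trans h ?_
    exact Nat.sub_one_dvd_pow_sub_one _ _
  · have hmem : (⟨m' + 1 - j, by omega⟩ : Fin m') ∈ Finset.univ := Finset.mem_univ _
    refine dvd_trans ?_ (Finset.dvd_prod_of_mem _ hmem)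
    have h2 : Fintype.card F ^ (m' + 1) - Fintype.card F ^ (m' + 1 - j) =
        Fintype.card F ^ (m' + 1 - j) * (Fintype.card F ^ j - 1) := by
      rw [Nat.mul_sub, mul_one, ← pow_add]
      congr 2
      omega
    show r ∣ Fintype.card F ^ (m' + 1) - Fintype.card F ^ (m' + 1 - j)
    rw [h2]
    exact Dvd.dvd.mul_left h _

theorem char_dvd_card_SL {F : Type*} [Field F] [Fintype F] (p : ℕ) [Fact p.Prime] [CharP F p]
    (m : ℕ) (hm : 2 ≤ m) : p ∣ Nat.card (Matrix.SpecialLinearGroup (Fin m) F) := by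
  obtain ⟨m', rfl⟩ : ∃ m', m = m' + 1 := ⟨m - 1, by omega⟩
  rw [card_SL_succ]
  apply Dvd.dvd.mul_right
  obtain ⟨k, _, hk⟩ := FiniteField.card F p
  rw [hk, ← pow_mul]
  exact dvd_pow_self p (Nat.mul_ne_zero k.pos.ne' (by omega))

/-- Let F be a finite field of characteristic p, n ≥ 4, and let a, b be commuting elements of PSL(n, F) with a of order p. Then every prime divisor of the order of b divides the order of SL(n − 2, F). -/
theorem result {F : Type*} [Field F] [Fintype F] (p : ℕ) [Fact p.Prime] [CharP F p] (n : ℕ) (hn : 4 ≤ n)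
    (a b : Matrix.ProjectiveSpecialLinearGroup (Fin n) F) (ha : orderOf a = p) (hab : Commute a b) :
    (orderOf b).primeFactors ⊆ (Nat.card (Matrix.SpecialLinearGroup (Fin (n - 2)) F)).primeFactors := by
  classical
  intro r hr
  rw [Nat.mem_primeFactors] at hr
  obtain ⟨hrp, hrb, hb0⟩ := hr
  have hp : p.Prime := Fact.out
  have : Fact r.Prime := ⟨hrp⟩
  have hm : 2 ≤ n - 2 := by omega
  have hpos : Nat.card (Matrix.SpecialLinearGroup (Fin (n - 2)) F) ≠ 0 := Nat.card_pos.ne'
  rw [Nat.mem_primeFactors]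
  refine ⟨hrp, ?_, hpos⟩
  obtain ⟨k, _, hk⟩ := FiniteField.card F p
  have hpq : p ∣ Fintype.card F := by rw [hk]; exact dvd_pow_self p k.pos.ne'
  have hq1 : 1 ≤ Fintype.card F := Fintype.card_pos
  by_cases hrp' : r = p
  · subst hrp'
    exact char_dvd_card_SL r (n - 2) hm
  by_cases hrq1 : r ∣ Fintype.card F - 1
  · exact dvd_card_SL_of_dvd_pow_sub_one (n - 2) r 1 le_rfl (by omega) hm (by simpa using hrq1)
  have hrq : ¬ r ∣ Fintype.card F := by
    intro h
    rw [hk] at h
    exact hrp' ((Nat.prime_dvd_prime_iff_eq hrp hp).mp (hrp.dvd_of_dvd_pow h))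
  have hb₁ : orderOf (b ^ (orderOf b / r)) = r := orderOf_pow_orderOf_div hb0 hrb
  have hab₁ : Commute a (b ^ (orderOf b / r)) := hab.pow_right _
  have hcop1 : Nat.Coprime (Fintype.card F - 1) p := by
    apply Nat.Coprime.symm
    rw [Nat.Prime.coprime_iff_not_dvd hp]
    intro h
    have := (Nat.dvd_sub hpq h)
    have h1 : Fintype.card F - (Fintype.card F - 1) = 1 := by omega
    rw [h1] at this
    exact hp.one_lt.ne' (Nat.dvd_one.mp this)
  have hcop2 : Nat.Coprime (Fintype.card F - 1) r := by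
    apply Nat.Coprime.symm
    rw [Nat.Prime.coprime_iff_not_dvd hrp]
    exact hrq1
  have hZ : ∀ z ∈ Subgroup.center (Matrix.SpecialLinearGroup (Fin n) F), z ^ (Fintype.card F - 1) = 1 := by
    intro z hz
    rw [Matrix.SpecialLinearGroup.mem_center_iff] at hz
    obtain ⟨ζ, hζ, hzζ⟩ := hz
    have hζ0 : ζ ≠ 0 := by
      rintro rfl
      rw [zero_pow (by simp; omega)] at hζ
      exact zero_ne_one hζ
    apply Subtype.ext
    rw [Matrix.SpecialLinearGroup.coe_pow, ← hzζ, ← map_pow, FiniteField.pow_card_sub_one_eq_one ζ hζ0]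
    simp
  obtain ⟨A, B, hA, hA1, hB, hB1, hAB⟩ := lift_commuting p r (Fintype.card F - 1) hcop1 hcop2 hZ a
    (b ^ (orderOf b / r)) ha hb₁ hab₁
  have hAm : (A : Matrix (Fin n) (Fin n) F) ^ p = 1 := by
    have := congrArg Subtype.val hA
    simpa using this
  have hAm1 : (A : Matrix (Fin n) (Fin n) F) ≠ 1 := fun h => hA1 (Subtype.ext (by simpa using h))
  have hBm : (B : Matrix (Fin n) (Fin n) F) ^ r = 1 := by
    have := congrArg Subtype.val hB
    simpa using this
  have hBm1 : (B : Matrix (Fin n) (Fin n) F) ≠ 1 := fun h => hB1 (Subtype.ext (by simpa using h))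
  have hcomm : (A : Matrix (Fin n) (Fin n) F) * (B : Matrix (Fin n) (Fin n) F) =
      (B : Matrix (Fin n) (Fin n) F) * (A : Matrix (Fin n) (Fin n) F) := by
    have := congrArg Subtype.val hAB.eq
    simpa using this
  have hne : Nonempty (Fin n) := ⟨⟨0, by omega⟩⟩
  have : ExpChar (Matrix (Fin n) (Fin n) F) p := ExpChar.prime hp
  have hNp : ((A : Matrix (Fin n) (Fin n) F) - 1) ^ p = 0 := by
    have := sub_pow_expChar_pow_of_commute p 1 (Commute.one_right (A : Matrix (Fin n) (Fin n) F))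
    rw [pow_one] at this
    rw [this, hAm, one_pow, sub_self]
  obtain ⟨j, hj1, hj2, hj3⟩ := Cfsg.Agent.H45.exists_dvd_pow_sub_one_of_commute_nilpotent (F := F) r hrq
    (Matrix.toLinAlgEquiv' (B : Matrix (Fin n) (Fin n) F))
    (Matrix.toLinAlgEquiv' ((A : Matrix (Fin n) (Fin n) F) - 1))
    (by
      rw [← map_mul, ← map_mul]
      congr 1
      rw [mul_sub, sub_mul, mul_one, one_mul, hcomm])
    (by
      intro h
      rw [map_eq_zero_iff _ (Matrix.toLinAlgEquiv' (R := F) (n := Fin n)).injective, sub_eq_zero] at h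
      exact hAm1 h)
    ⟨p, by rw [← map_pow, hNp, map_zero]⟩
    (by rw [← map_pow, hBm, map_one])
    (by
      intro h
      apply hBm1
      apply (Matrix.toLinAlgEquiv' (R := F) (n := Fin n)).injective
      rw [h, map_one])
    (by rw [Module.finrank_fin_fun]; omega)
  rw [Module.finrank_fin_fun] at hj2
  exact dvd_card_SL_of_dvd_pow_sub_one (n - 2) r j hj1 (by omega) hm hj3

end Cfsg.Agent.S2364
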