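import Cfsg.Statements.S2365
-- import your own Cfsg.Agent.* helpers here
import Mathlib
import Cfsg.Agent.H45.UnitaryEig
import Cfsg.Agent.H7.Unitary
import Cfsg.Agent.H7.SUCenter
import Cfsg.Agent.S2364

set_option autoImplicit false
open Cfsg

namespace Cfsg.Agent.S2365

open Matrix Cfsg.Agent.H45

/-- The matrix identity `Mᵀ * M^(q) = 1` for elements of `SU`. -/
theorem su_transpose_mul_map {F : Type*} [Field F] [Fintype F] (m q : ℕ) (hq : q ≠ 0)
    (s : Matrix.SpecialLinearGroup (Fin m) F) (hs : s ∈ Cfsg.SU m F q) :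
    (s : Matrix (Fin m) (Fin m) F)ᵀ * (s : Matrix (Fin m) (Fin m) F).map (fun x => x ^ q) = 1 := by
  classical
  rw [Cfsg.Agent.H7.mem_SU_iff] at hs
  ext i j
  have h := hs (Pi.single i 1) (Pi.single j 1)
  rw [Matrix.mulVec_single_one, Matrix.mulVec_single_one] at h
  rw [Matrix.mul_apply, Matrix.one_apply]
  simp only [Matrix.transpose_apply, Matrix.map_apply]
  have h2 : (∑ k, (s : Matrix (Fin m) (Fin m) F) k i * (s : Matrix (Fin m) (Fin m) F) k j ^ q) =
      Cfsg.hermForm m F q ((s : Matrix (Fin m) (Fin m) F).col i)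
        ((s : Matrix (Fin m) (Fin m) F).col j) := rfl
  rw [h2, h]
  unfold Cfsg.hermForm
  by_cases hij : i = j
  · subst hij
    rw [if_pos rfl, Finset.sum_eq_single i]
    · simp
    · intro b _ hb
      simp [Pi.single_eq_of_ne hb]
    · simp
  · rw [if_neg hij]
    apply Finset.sum_eq_zero
    intro k _
    by_cases hk : k = i
    · subst hk
      simp [Pi.single_eq_of_ne hij, hq]
    · simp [Pi.single_eq_of_ne hk]

/-- The order of `SU_{n+1}(q)`. -/
theorem card_SU_succ {F : Type*} [Field F] [Fintype F] {q : ℕ} (hF : Fintype.card F = q ^ 2) (n : ℕ) :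
    Nat.card (Cfsg.SU (n + 1) F q) = q ^ ((n + 1) * n / 2) *
      ∏ i ∈ Finset.range n, (if Even (i + 1) then q ^ (i + 2) + 1 else q ^ (i + 2) - 1) := by
  have h1 := Cfsg.Agent.H7.card_SU_mul hF (n + 1) (by omega)
  rw [Cfsg.Agent.H7.card_GU hF (n + 1), Finset.prod_range_succ'] at h1
  have he0 : Even 0 := ⟨0, rfl⟩
  rw [if_pos he0] at h1
  simp only [Nat.add_sub_cancel, zero_add, pow_one] at h1
  have h2 : (q + 1) * Nat.card (Cfsg.SU (n + 1) F q) = (q + 1) * (q ^ ((n + 1) * n / 2) *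
      ∏ i ∈ Finset.range n, (if Even (i + 1) then q ^ (i + 2) + 1 else q ^ (i + 2) - 1)) := by
    rw [h1]
    ring
  exact Nat.eq_of_mul_eq_mul_left (by omega) h2

theorem dvd_card_SU_of_dvd {F : Type*} [Field F] [Fintype F] {q : ℕ} (hF : Fintype.card F = q ^ 2)
    (n r k : ℕ) (hn : 2 ≤ n) (hk1 : 1 ≤ k) (hkn : k ≤ n)
    (hr : r ∣ (if Even k then q ^ k - 1 else q ^ k + 1)) :
    r ∣ Nat.card (Cfsg.SU n F q) := by
  obtain ⟨n', rfl⟩ : ∃ n', n = n' + 1 := ⟨n - 1, by omega⟩
  rw [card_SU_succ hF n']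
  apply Dvd.dvd.mul_left
  by_cases hk2 : 2 ≤ k
  · obtain ⟨i, rfl⟩ : ∃ i, k = i + 2 := ⟨k - 2, by omega⟩
    refine dvd_trans ?_ (Finset.dvd_prod_of_mem _ (Finset.mem_range.mpr (by omega : i < n')))
    have h1 : Even (i + 1) ↔ ¬ Even (i + 2) := by
      rw [show i + 2 = (i + 1) + 1 from rfl, Nat.even_add_one (n := i + 1), not_not]
    by_cases h2 : Even (i + 2)
    · rw [if_pos h2] at hr
      rw [if_neg (fun h => (h1.mp h) h2)]
      exact hr
    · rw [if_neg h2] at hr
      rw [if_pos (h1.mpr h2)]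
      exact hr
  · have hk : k = 1 := by omega
    subst hk
    rw [if_neg (by decide)] at hr
    refine dvd_trans ?_ (Finset.dvd_prod_of_mem _ (Finset.mem_range.mpr (by omega : 0 < n')))
    rw [if_neg (by decide)]
    have h3 : q ^ (0 + 2) - 1 = (q ^ 1 + 1) * (q - 1) := by
      rcases Nat.eq_zero_or_pos q with h | h
      · subst h; simp
      · obtain ⟨q', rfl⟩ : ∃ q', q = q' + 1 := ⟨q - 1, by omega⟩
        rw [Nat.add_sub_cancel]
        apply Nat.sub_eq_of_eq_add
        ring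
    rw [h3]
    exact Dvd.dvd.mul_right hr _

/-- Let q be a power of the prime p, F the field with q² elements, m ≥ 4, and let a, b be commuting elements of PSU(m, q) with a of order p. Then every prime divisor of the order of b divides the order of SU(m − 2, q). -/
theorem result {F : Type*} [Field F] [Fintype F] (p : ℕ) [Fact p.Prime] [CharP F p] (m q : ℕ) (hm : 4 ≤ m) (hF : Fintype.card F = q ^ 2)
    (a b : Cfsg.PSU m F q) (ha : orderOf a = p) (hab : Commute a b) :
    (orderOf b).primeFactors ⊆ (Nat.card ↥(Cfsg.SU (m - 2) F q)).primeFactors := by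
  classical
  intro r hr
  rw [Nat.mem_primeFactors] at hr
  obtain ⟨hrp, hrb, hb0⟩ := hr
  have hp : p.Prime := Fact.out
  have : Fact r.Prime := ⟨hrp⟩
  have hq2 : 2 ≤ q := Cfsg.Agent.H7.two_le_of_card_sq hF
  have hpos : Nat.card ↥(Cfsg.SU (m - 2) F q) ≠ 0 := Nat.card_pos.ne'
  rw [Nat.mem_primeFactors]
  refine ⟨hrp, ?_, hpos⟩
  -- `q` is a power of `p`
  obtain ⟨k, _, hk⟩ := FiniteField.card F p
  obtain ⟨j, hj⟩ : ∃ j, q = p ^ j := by
    have h1 : q ∣ p ^ (k : ℕ) := by rw [← hk, hF]; exact dvd_pow_self q two_ne_zero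
    obtain ⟨j, -, hj⟩ := (Nat.dvd_prime_pow hp).mp h1
    exact ⟨j, hj⟩
  have hj0 : j ≠ 0 := by rintro rfl; rw [pow_zero] at hj; omega
  have hpq : p ∣ q := by rw [hj]; exact dvd_pow_self p hj0
  by_cases hrp' : r = p
  · subst hrp'
    obtain ⟨n', hn'⟩ : ∃ n', m - 2 = n' + 1 := ⟨m - 3, by omega⟩
    rw [hn', card_SU_succ hF n']
    apply Dvd.dvd.mul_right
    refine dvd_trans hpq (dvd_pow_self q ?_)
    have h1 : 1 ≤ n' := by omega
    have h2 : 2 ≤ (n' + 1) * n' := by nlinarith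
    have h3 := Nat.div_le_div_right (c := 2) h2
    omega
  by_cases hex : ∃ k, 1 ≤ k ∧ k + 2 ≤ m ∧ r ∣ (if Even k then q ^ k - 1 else q ^ k + 1)
  · obtain ⟨k, hk1, hk2, hk3⟩ := hex
    exact dvd_card_SU_of_dvd hF (m - 2) r k (by omega) hk1 (by omega) hk3
  exfalso
  push Not at hex
  have hrq1 : ¬ r ∣ q + 1 := by
    have := hex 1 le_rfl (by omega)
    simpa using this
  -- lift to `SU`
  have hb₁ : orderOf (b ^ (orderOf b / r)) = r := orderOf_pow_orderOf_div hb0 hrb
  have hab₁ : Commute a (b ^ (orderOf b / r)) := hab.pow_right _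
  have hcop1 : Nat.Coprime (q + 1) p := by
    rw [Nat.coprime_comm, Nat.Prime.coprime_iff_not_dvd hp]
    intro h
    have := (Nat.dvd_add_right hpq).mp h
    exact hp.one_lt.ne' (Nat.dvd_one.mp this)
  have hcop2 : Nat.Coprime (q + 1) r := by
    rw [Nat.coprime_comm, Nat.Prime.coprime_iff_not_dvd hrp]
    exact hrq1
  have hZ : ∀ z ∈ Subgroup.center ↥(Cfsg.SU m F q), z ^ (q + 1) = 1 := by
    intro z hz
    have h1 := Cfsg.Agent.H7.card_center_SU hF m (by omega)
    have h2 : (⟨z, hz⟩ : Subgroup.center ↥(Cfsg.SU m F q)) ^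
        Nat.card (Subgroup.center ↥(Cfsg.SU m F q)) = 1 := pow_card_eq_one'
    rw [h1] at h2
    have h3 : z ^ Nat.gcd m (q + 1) = 1 := by
      have := congrArg Subtype.val h2
      simpa using this
    obtain ⟨c, hc⟩ := Nat.gcd_dvd_right m (q + 1)
    rw [hc, pow_mul, h3, one_pow]
  obtain ⟨A, B, hA, hA1, hB, hB1, hAB⟩ := Cfsg.Agent.S2364.lift_commuting p r (q + 1) hcop1 hcop2 hZ a
    (b ^ (orderOf b / r)) ha hb₁ hab₁
  -- matrices
  obtain ⟨MA, hMA⟩ : ∃ MA : Matrix (Fin m) (Fin m) F,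
      ((A : Matrix.SpecialLinearGroup (Fin m) F) : Matrix (Fin m) (Fin m) F) = MA := ⟨_, rfl⟩
  obtain ⟨MB, hMB⟩ : ∃ MB : Matrix (Fin m) (Fin m) F,
      ((B : Matrix.SpecialLinearGroup (Fin m) F) : Matrix (Fin m) (Fin m) F) = MB := ⟨_, rfl⟩
  have hAm : MA ^ p = 1 := by
    have := congrArg (fun x : ↥(Cfsg.SU m F q) =>
      ((x : Matrix.SpecialLinearGroup (Fin m) F) : Matrix (Fin m) (Fin m) F)) hA
    simpa [hMA] using this
  have hAm1 : MA ≠ 1 := fun h => hA1 (Subtype.ext (Subtype.ext (by simpa [hMA] using h)))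
  have hBm : MB ^ r = 1 := by
    have := congrArg (fun x : ↥(Cfsg.SU m F q) =>
      ((x : Matrix.SpecialLinearGroup (Fin m) F) : Matrix (Fin m) (Fin m) F)) hB
    simpa [hMB] using this
  have hBm1 : MB ≠ 1 := fun h => hB1 (Subtype.ext (Subtype.ext (by simpa [hMB] using h)))
  have hcomm : MA * MB = MB * MA := by
    have := congrArg (fun x : ↥(Cfsg.SU m F q) =>
      ((x : Matrix.SpecialLinearGroup (Fin m) F) : Matrix (Fin m) (Fin m) F)) hAB.eq
    simpa [hMA, hMB] using this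
  have hBu : MBᵀ * MB.map (fun x => x ^ q) = 1 := by
    rw [← hMB]
    exact su_transpose_mul_map m q (by omega) B.1 B.2
  have hne : Nonempty (Fin m) := ⟨⟨0, by omega⟩⟩
  have : ExpChar (Matrix (Fin m) (Fin m) F) p := ExpChar.prime hp
  have hNp : (MA - 1) ^ p = 0 := by
    have := sub_pow_expChar_pow_of_commute p 1 (Commute.one_right MA)
    rw [pow_one] at this
    rw [this, hAm, one_pow, sub_self]
  -- base change to the algebraic closure
  have hιinj : Function.Injective (algebraMap F (AlgebraicClosure F)) :=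
    (algebraMap F (AlgebraicClosure F)).injective
  have hmapinj : Function.Injective ((algebraMap F (AlgebraicClosure F)).mapMatrix (m := Fin m)) := by
    intro X Y hXY
    exact Matrix.map_injective hιinj hXY
  set Φ := (algebraMap F (AlgebraicClosure F)).mapMatrix (m := Fin m) with hΦ
  have hBLu : (Φ MB)ᵀ * (Φ MB).map (fun x => x ^ (p ^ j)) = 1 := by
    have h1 : (Φ MB).map (fun x => x ^ (p ^ j)) = Φ (MB.map (fun x => x ^ q)) := by
      ext a b
      simp [hΦ, hj]
    have h2 : (Φ MB)ᵀ = Φ MBᵀ := by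
      ext a b
      simp [hΦ]
    rw [h1, h2, ← map_mul, hBu, map_one]
  have hBLr : (Φ MB) ^ r = 1 := by rw [← map_pow, hBm, map_one]
  have hBL1 : Φ MB ≠ 1 := fun h => hBm1 (hmapinj (by rw [h, map_one]))
  have hcommL : Φ MA * Φ MB = Φ MB * Φ MA := by rw [← map_mul, ← map_mul, hcomm]
  have hnil : IsNilpotent (Φ MA - 1) := ⟨p, by rw [← map_one Φ, ← map_sub, ← map_pow, hNp, map_zero]⟩
  have hpr : ¬ p ∣ r := fun h => hrp' ((Nat.prime_dvd_prime_iff_eq hp hrp).mp h).symm
  have hreg := unitary_regular (L := AlgebraicClosure F) p j (by omega : 3 ≤ m) r hrp' (Φ MB) hBLu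
    hBLr hBL1 (by
      intro k hk1 hk2
      rw [← hj]
      exact hex k hk1 hk2)
  have hAL1 := eq_one_of_commute_regular (L := AlgebraicClosure F) p r hpr (Φ MA) (Φ MB) hBLr hreg
    hcommL hnil
  exact hAm1 (hmapinj (by rw [hAL1, map_one]))

end Cfsg.Agent.S2365
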