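import Cfsg.Statements.S2367
-- import your own Cfsg.Agent.* helpers here

set_option autoImplicit false
open Cfsg

namespace Cfsg.Agent.S2367

theorem spor_core (N : ℕ) (l : List ℕ) (hl : N.primeFactorsList = l)
    (hcheck : ∀ q ∈ l.dedup, q ≠ 2 → l.count q = 3 → q ^ 3 < 2 ^ (l.count 2))
    (p : ℕ) (hodd : p ≠ 2) (h3 : N.factorization p = 3) :
    p ^ 3 < 2 ^ N.factorization 2 := by
  rw [← Nat.primeFactorsList_count_eq] at h3 ⊢
  rw [hl] at h3 ⊢
  have hmem : p ∈ l := by
    rw [← List.count_pos_iff]; omega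
  exact hcheck p (List.mem_dedup.mpr hmem) hodd h3

theorem two_k_lt (k : ℕ) (hk : 3 ≤ k) : 2 * k + 1 < 2 ^ k := by
  induction k, hk using Nat.le_induction with
  | base => norm_num
  | succ k hk ih => rw [pow_succ]; omega

theorem alt_num (k : ℕ) (hk : 1 ≤ k) : (2 * k + 1) ^ 3 < 2 ^ (3 * k + (6 * k + 3) / 4) := by
  rcases Nat.lt_or_ge k 3 with h | h
  · interval_cases k <;> norm_num
  · calc (2 * k + 1) ^ 3 < (2 ^ k) ^ 3 := Nat.pow_lt_pow_left (two_k_lt k h) (by norm_num)
      _ = 2 ^ (3 * k) := by rw [← pow_mul, mul_comm]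
      _ ≤ 2 ^ (3 * k + (6 * k + 3) / 4) := Nat.pow_le_pow_right (by norm_num) (Nat.le_add_right _ _)

open Nat in
theorem alt_core (n : ℕ) (hn : 5 ≤ n) (N : ℕ) (hN : 2 * N = n !)
    (p : ℕ) (hp : p.Prime) (hodd : p ≠ 2) (h3 : N.factorization p = 3) :
    p ^ 3 < 2 ^ N.factorization 2 := by
  have hN0 : N ≠ 0 := by
    rintro rfl
    have := Nat.factorial_pos n
    omega
  have : Fact p.Prime := ⟨hp⟩
  have : Fact (Nat.Prime 2) := ⟨Nat.prime_two⟩
  -- valuations of n!
  have hvp : padicValNat p (n !) = 3 := by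
    rw [← hN, padicValNat.mul (by norm_num) hN0, ← Nat.factorization_def N hp, h3]
    have : padicValNat p 2 = 0 := by
      apply padicValNat.eq_zero_of_not_dvd
      intro h
      exact hodd ((Nat.prime_dvd_prime_iff_eq hp Nat.prime_two).mp h)
    omega
  have hv2 : padicValNat 2 (n !) = N.factorization 2 + 1 := by
    rw [← hN, padicValNat.mul (by norm_num) hN0, ← Nat.factorization_def N Nat.prime_two]
    have : padicValNat 2 2 = 1 := padicValNat_self
    omega
  -- n ≥ 3p
  have hp3 : 3 ≤ p := by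
    have := hp.two_le
    omega
  have hn3p : 3 * p ≤ n := by
    by_contra hlt
    push Not at hlt
    have hsum : padicValNat p (n !) = ∑ i ∈ Finset.Ico 1 (Nat.log p n + 1), n / p ^ i :=
      padicValNat_factorial (Nat.lt_succ_self _)
    have hle : ∑ i ∈ Finset.Ico 1 (Nat.log p n + 1), n / p ^ i ≤
        ∑ i ∈ Finset.Ico 1 (Nat.log p n + 1), (if i = 1 then 2 else 0) := by
      apply Finset.sum_le_sum
      intro i hi
      rw [Finset.mem_Ico] at hi
      split_ifs with h1
      · subst h1
        rw [pow_one]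
        have : n / p < 3 := by
          rw [Nat.div_lt_iff_lt_mul hp.pos]; exact hlt
        omega
      · have h2 : 2 ≤ i := by omega
        have : n < p ^ i := by
          calc n < 3 * p := hlt
            _ ≤ p * p := Nat.mul_le_mul_right p hp3
            _ = p ^ 2 := by ring
            _ ≤ p ^ i := Nat.pow_le_pow_right hp.pos h2
        rw [Nat.div_eq_of_lt this]
    have hle2 : ∑ i ∈ Finset.Ico 1 (Nat.log p n + 1), (if i = 1 then 2 else 0) ≤ 2 := by
      rw [Finset.sum_ite_eq']
      split_ifs <;> omega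
    omega
  -- 2-adic valuation lower bound
  have hlog : 2 ≤ Nat.log 2 n := by
    have : Nat.log 2 (2 ^ 2) ≤ Nat.log 2 n := Nat.log_mono_right (by omega)
    rwa [Nat.log_pow (by norm_num)] at this
  have hsum2 : padicValNat 2 (n !) = ∑ i ∈ Finset.Ico 1 (Nat.log 2 n + 1), n / 2 ^ i :=
    padicValNat_factorial (Nat.lt_succ_self _)
  have hge : n / 2 + n / 4 ≤ ∑ i ∈ Finset.Ico 1 (Nat.log 2 n + 1), n / 2 ^ i := by
    have hsub : ({1, 2} : Finset ℕ) ⊆ Finset.Ico 1 (Nat.log 2 n + 1) := by
      intro i hi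
      simp only [Finset.mem_insert, Finset.mem_singleton] at hi
      rw [Finset.mem_Ico]
      omega
    calc n / 2 + n / 4 = ∑ i ∈ ({1, 2} : Finset ℕ), n / 2 ^ i := by
          rw [Finset.sum_pair (by norm_num)]; norm_num
      _ ≤ _ := Finset.sum_le_sum_of_subset hsub
  -- write p = 2k+1
  obtain ⟨k, hk⟩ : ∃ k, p = 2 * k + 1 := by
    rcases hp.eq_two_or_odd with h | h
    · exact absurd h hodd
    · exact ⟨p / 2, by omega⟩
  have hk1 : 1 ≤ k := by omega
  have hexp : 3 * k + (6 * k + 3) / 4 ≤ N.factorization 2 := by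
    have h1 : (6 * k + 3) / 2 ≤ n / 2 := Nat.div_le_div_right (by omega)
    have h2 : (6 * k + 3) / 4 ≤ n / 4 := Nat.div_le_div_right (by omega)
    have h3 : (6 * k + 3) / 2 = 3 * k + 1 := by omega
    omega
  calc p ^ 3 = (2 * k + 1) ^ 3 := by rw [hk]
    _ < 2 ^ (3 * k + (6 * k + 3) / 4) := alt_num k hk1
    _ ≤ 2 ^ N.factorization 2 := Nat.pow_le_pow_right (by norm_num) hexp

/-- Let G be an alternating group of degree at least 5 or a simple group with the order of one of the 26 sporadic groups, and let p be an odd prime such that p³ is the exact power of p dividing the order of G. Then p³ is less than the 2-part of the order of G. -/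
theorem result {G : Type*} [Group G] [Finite G] (hG : Cfsg.IsAlternating G ∨ Cfsg.IsSporadic G)
    (p : ℕ) (hp : p.Prime) (hodd : p ≠ 2) (h3 : (Nat.card G).factorization p = 3) :
    p ^ 3 < 2 ^ (Nat.card G).factorization 2 := by
  rcases hG with ⟨n, hn, ⟨e⟩⟩ | hG
  · have hcard : Nat.card G = Nat.card (alternatingGroup (Fin n)) := Nat.card_congr e.toEquiv
    have : Nontrivial (Fin n) := Fin.nontrivial_iff_two_le.mpr (by omega)
    have h2 : 2 * Nat.card G = n.factorial := by
      rw [hcard, two_mul_nat_card_alternatingGroup, Nat.card_perm, Nat.card_eq_fintype_card,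
        Fintype.card_fin]
    exact alt_core n hn _ h2 p hp hodd h3
  · unfold Cfsg.IsSporadic at hG
    rcases hG with h | h | h | h | h | h | h | h | h | h | h | h | h | h | h | h | h | h | h | h |
      h | h | h | h | h | h <;>
    · obtain ⟨-, hc⟩ := h
      rw [hc] at h3 ⊢
      exact spor_core _ _ (by simp; rfl) (by decide +kernel) p hodd h3

end Cfsg.Agent.S2367
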