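import Cfsg.Statements.S2368
-- import your own Cfsg.Agent.* helpers here
import Mathlib

set_option autoImplicit false
open Cfsg

namespace Cfsg.Agent.S2368

open Polynomial Matrix

theorem nilp_pow_card {F : Type*} [Field F] {m : ℕ} (N : Matrix (Fin m) (Fin m) F)
    (hN : IsNilpotent N) : N ^ m = 0 := by
  have h1 : N.charpoly = X ^ m := by
    have h := Matrix.isNilpotent_charpoly_sub_pow_of_isNilpotent hN
    rw [Fintype.card_fin] at h
    exact sub_eq_zero.mp h.eq_zero
  have h2 := Matrix.aeval_self_charpoly N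
  rw [h1] at h2
  simpa using h2

theorem exists_pow_bound (p m : ℕ) (hp : 1 < p) (hm : 1 ≤ m) : ∃ e, m ≤ p ^ e ∧ p ^ e < p * m := by
  refine ⟨Nat.clog p m, Nat.le_pow_clog hp m, ?_⟩
  rcases Nat.lt_or_ge 1 m with h | h
  · have h1 := Nat.pow_pred_clog_lt_self hp h
    have hpos : 0 < Nat.clog p m := Nat.clog_pos hp h
    obtain ⟨k, hk⟩ := Nat.exists_eq_succ_of_ne_zero (Nat.pos_iff_ne_zero.mp hpos)
    rw [hk] at h1 ⊢
    rw [Nat.pred_succ] at h1
    calc p ^ (k + 1) = p * p ^ k := pow_succ' p k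
      _ < p * m := Nat.mul_lt_mul_of_pos_left h1 (by omega)
  · have : m = 1 := by omega
    subst this
    rw [Nat.clog_one_right, pow_zero]
    omega

theorem part_a {F : Type*} [Field F] (p : ℕ) [Fact p.Prime] [CharP F p] (m : ℕ) (hm : 1 ≤ m)
    (g : Matrix.GeneralLinearGroup (Fin m) F) (j : ℕ) (hj : orderOf g = p ^ j) :
    orderOf g < p * m := by
  have : Nonempty (Fin m) := ⟨⟨0, hm⟩⟩
  have hpp : p.Prime := Fact.out
  have : ExpChar (Matrix (Fin m) (Fin m) F) p := ExpChar.prime hpp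
  obtain ⟨e, he1, he2⟩ := exists_pow_bound p m hpp.one_lt hm
  set A : Matrix (Fin m) (Fin m) F := g.1 with hAdef
  have hA : A ^ (p ^ j) = 1 := by
    have h1 := pow_orderOf_eq_one g
    rw [hj] at h1
    have h2 := congrArg Units.val h1
    simpa using h2
  have hN : (A - 1) ^ (p ^ j) = 0 := by
    rw [sub_pow_expChar_pow_of_commute p j (Commute.one_right A), hA, one_pow, sub_self]
  have hN2 : (A - 1) ^ m = 0 := nilp_pow_card (A - 1) ⟨p ^ j, hN⟩
  have hN3 : (A - 1) ^ (p ^ e) = 0 := pow_eq_zero_of_le he1 hN2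
  have hA2 : A ^ (p ^ e) = 1 := by
    rw [sub_pow_expChar_pow_of_commute p e (Commute.one_right A), one_pow, sub_eq_zero] at hN3
    exact hN3
  have hg : g ^ (p ^ e) = 1 := by
    apply Units.ext
    simpa using hA2
  have hdvd : orderOf g ∣ p ^ e := orderOf_dvd_of_pow_eq_one hg
  exact lt_of_le_of_lt (Nat.le_of_dvd (pow_pos hpp.pos e) hdvd) he2

theorem part_b {F : Type*} [Field F] (p : ℕ) [Fact p.Prime] [CharP F p] (m : ℕ) (hm : 1 ≤ m) :
    ∃ g : Matrix.GeneralLinearGroup (Fin m) F, (∃ j : ℕ, orderOf g = p ^ j) ∧ m ≤ orderOf g := by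
  classical
  have hpp : p.Prime := Fact.out
  set f : F[X] := (X - C 1) ^ m with hf
  have hmonic : f.Monic := (monic_X_sub_C 1).pow m
  have hdeg : f.natDegree = m := by rw [hf, natDegree_pow, natDegree_X_sub_C, mul_one]
  have hfdeg : f.degree ≠ 0 := by
    rw [degree_eq_natDegree hmonic.ne_zero, hdeg]
    exact_mod_cast (by omega : m ≠ 0)
  have : Nontrivial (AdjoinRoot f) := AdjoinRoot.nontrivial f hfdeg
  have : CharP (AdjoinRoot f) p :=
    charP_of_injective_algebraMap (algebraMap F (AdjoinRoot f)).injective p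
  have hdim : (AdjoinRoot.powerBasis' hmonic).dim = m := by
    rw [AdjoinRoot.powerBasis'_dim, hdeg]
  let b : Module.Basis (Fin m) F (AdjoinRoot f) :=
    (AdjoinRoot.powerBasis' hmonic).basis.reindex (finCongr hdim)
  let φ : AdjoinRoot f →ₐ[F] Matrix (Fin m) (Fin m) F := Algebra.leftMulMatrix b
  have hφ : Function.Injective φ := Algebra.leftMulMatrix_injective b
  set r : AdjoinRoot f := AdjoinRoot.root f with hr
  obtain ⟨e, he1, he2⟩ := exists_pow_bound p m hpp.one_lt hm
  have hmk : ∀ k : ℕ, AdjoinRoot.mk f ((X - C 1) ^ k) = (r - 1) ^ k := by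
    intro k
    rw [map_pow, map_sub, AdjoinRoot.mk_X, AdjoinRoot.mk_C, map_one]
  have hr0 : (r - 1) ^ m = 0 := by
    rw [← hmk, ← hf]; exact AdjoinRoot.mk_self
  have hr1 : r ^ (p ^ e) = 1 := by
    have h1 : (r - 1) ^ (p ^ e) = 0 := pow_eq_zero_of_le he1 hr0
    rw [sub_pow_char_pow, one_pow, sub_eq_zero] at h1
    exact h1
  let u : (AdjoinRoot f)ˣ := Units.ofPowEqOne r (p ^ e) hr1 (pow_ne_zero e hpp.ne_zero)
  let g : Matrix.GeneralLinearGroup (Fin m) F := Units.map (φ : AdjoinRoot f →* Matrix (Fin m) (Fin m) F) u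
  have hord : orderOf g = orderOf r := by
    have h1 : orderOf g = orderOf u :=
      orderOf_injective (Units.map (φ : AdjoinRoot f →* Matrix (Fin m) (Fin m) F))
        (Units.map_injective hφ) u
    rw [h1, ← orderOf_units]
    rfl
  have hdvd : orderOf r ∣ p ^ e := orderOf_dvd_of_pow_eq_one hr1
  obtain ⟨j, -, hjeq⟩ := (Nat.dvd_prime_pow hpp).mp hdvd
  refine ⟨g, ⟨j, by rw [hord, hjeq]⟩, ?_⟩
  have h1 : r ^ (p ^ j) = 1 := by rw [← hjeq]; exact pow_orderOf_eq_one r
  have h2 : (r - 1) ^ (p ^ j) = 0 := by rw [sub_pow_char_pow, h1, one_pow, sub_self]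
  have h3 : f ∣ (X - C 1) ^ (p ^ j) := by
    rw [← AdjoinRoot.mk_eq_zero, hmk]; exact h2
  have h4 : m ≤ p ^ j :=
    (pow_dvd_pow_iff (X_sub_C_ne_zero (1 : F)) (not_isUnit_X_sub_C (1 : F))).mp h3
  rw [hord, hjeq]
  exact h4

/-- Let F be a finite field of characteristic p and m ≥ 1. Every element of GL(m, F) of p-power order has order less than p·m, and GL(m, F) has an element of p-power order at least m; so the largest order of a p-element of GL(m, F) is the least power of p that is at least m. -/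
theorem result {F : Type*} [Field F] [Fintype F] (p : ℕ) [Fact p.Prime] [CharP F p] (m : ℕ) (hm : 1 ≤ m) :
    (∀ g : Matrix.GeneralLinearGroup (Fin m) F, (∃ j : ℕ, orderOf g = p ^ j) → orderOf g < p * m) ∧
      ∃ g : Matrix.GeneralLinearGroup (Fin m) F, (∃ j : ℕ, orderOf g = p ^ j) ∧ m ≤ orderOf g := by
  refine ⟨?_, part_b p m hm⟩
  rintro g ⟨j, hj⟩
  exact part_a p m hm g j hj

end Cfsg.Agent.S2368
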