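import Cfsg.Statements.S2370
import Cfsg.Agent.S1077
import Cfsg.Agent.H22.TF4Ra

set_option autoImplicit false
open Cfsg

namespace Cfsg.Agent.S2370

/-- Let q = 2^(2m+1) with m ≥ 1. Every element of 2-power order of the large Ree group ²F₄(q) has order at most 32. -/
theorem result {K : Type*} [Field K] [Fintype K] (m : ℕ) (hm : 1 ≤ m) (hK : Fintype.card K = 2 ^ (2 * m + 1))
    (x : ↥(Cfsg.Lie.twistedF4 K (2 ^ m))) (hx : ∃ j : ℕ, orderOf x = 2 ^ j) : orderOf x ≤ 32 := by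
  have hc2 : CharP K 2 := Cfsg.Agent.H22.TF4.charP_two_of_card (n := 2 * m) hK
  obtain ⟨θ, hs, hk, hx'⟩ := Cfsg.Agent.S1077.result Cfsg.Lie.chevF4 (by simp) (K := K)
  obtain ⟨C⟩ := Cfsg.Agent.H22.TF4.exists_ctx4 hK θ hs hk hx'
  obtain ⟨j, hj⟩ := hx
  have hH : ¬ 2 ∣ Nat.card ↥(Cfsg.Lie.chevF4.diagonalSubgroup K ⊓ Cfsg.Lie.twistedF4 K (2 ^ m)) := by
    rw [Cfsg.Agent.H22.TF4.card_H1 hK θ hs hk hx']
    intro hdiv
    have h1 := Nat.Prime.dvd_of_dvd_pow Nat.prime_two hdiv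
    have h2 : 2 ^ (2 * m + 1) = 2 * 2 ^ (2 * m) := by ring
    have h3 : 1 ≤ 2 ^ (2 * m) := Nat.one_le_two_pow
    omega
  exact C.exp32 hH (2 * m + 1) (by rw [Nat.card_eq_fintype_card, hK]) (by omega) x j hj

end Cfsg.Agent.S2370
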