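import Cfsg.Statements.S2380
-- import your own Cfsg.Agent.* helpers here
import Mathlib
import Cfsg.Agent.H45.GLOrder
import Cfsg.Agent.H45.Torus

set_option autoImplicit false
open scoped MatrixGroups
open Cfsg

namespace Cfsg.Agent.S2380

open Cfsg.Agent.H45

/-- Sylow subgroups of `GL_n(q)` for large primes. Let `F` be a field with `q` elements and `r` a prime with `r > n` and `r ∤ q`. Let `d` be the multiplicative order of `q` modulo `r` and `m` the `r`-part of the value at `q` of the `d`-th cyclotomic polynomial. Then every Sylow `r`-subgroup of `GL_n(q)` is a direct product of `⌊n/d⌋` cyclic groups of order `m` (the degrees of the Weyl group being `1, …, n`). -/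
theorem result {F : Type*} [Field F] [Fintype F] {q : ℕ} (hq : Fintype.card F = q) (n : ℕ)
    (r : ℕ) [Fact r.Prime] (hrn : n < r) (hrq : ¬ r ∣ q) (P : Sylow r (GL (Fin n) F)) :
    Nonempty (↥(P : Subgroup (GL (Fin n) F)) ≃*
      (Fin (n / orderOf (q : ZMod r)) →
        Multiplicative (ZMod (r ^ padicValNat r ((Polynomial.cyclotomic (orderOf (q : ZMod r)) ℤ).eval (q : ℤ)).natAbs)))) := by
  classical
  subst hq
  have hr : r.Prime := Fact.out
  have hdpos : 0 < orderOf ((Fintype.card F : ℕ) : ZMod r) := orderOf_zmod_pos _ r hrq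
  have hq2 : 2 ≤ Fintype.card F := Fintype.one_lt_card
  have hm : r ^ padicValNat r ((Polynomial.cyclotomic (orderOf ((Fintype.card F : ℕ) : ZMod r)) ℤ).eval
      ((Fintype.card F : ℕ) : ℤ)).natAbs ∣ Fintype.card F ^ orderOf ((Fintype.card F : ℕ) : ZMod r) - 1 := by
    rw [← factorization_pow_order_sub_one (Fintype.card F) r hrq]
    exact Nat.ordProj_dvd _ _
  obtain ⟨φ, hφ⟩ := exists_injective_hom_GL F n (orderOf ((Fintype.card F : ℕ) : ZMod r))
    (n / orderOf ((Fintype.card F : ℕ) : ZMod r)) _ hdpos (Nat.div_mul_le_self n _) hm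
  have hcard : Nat.card φ.range = r ^ (Nat.card (GL (Fin n) F)).factorization r := by
    rw [Nat.card_congr (MonoidHom.ofInjective hφ).toEquiv.symm, Matrix.card_GL_field,
      factorization_prod_GL _ r hq2 n hrn hrq, Nat.card_pi]
    simp only [Nat.card_eq_fintype_card, Fintype.card_multiplicative, Finset.prod_const,
      Finset.card_univ, Fintype.card_fin]
    rw [← Nat.card_eq_fintype_card, Nat.card_zmod, ← pow_mul, mul_comm]
  refine ⟨(Sylow.equiv P (Sylow.ofCard φ.range hcard)).trans
    ((MulEquiv.subgroupCongr (Sylow.coe_ofCard _ hcard)).trans (MonoidHom.ofInjective hφ).symm)⟩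

end Cfsg.Agent.S2380
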