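import Cfsg.Statements.S2379
-- import your own Cfsg.Agent.* helpers here
import Mathlib
import Cfsg.Agent.H45.GLOrder
import Cfsg.Agent.H45.Torus
import Cfsg.Agent.S0242
import Cfsg.Agent.S2380

set_option autoImplicit false
open Cfsg

namespace Cfsg.Agent.S2379

open Cfsg.Agent.H45

/-- Diagonal matrices `diag(x_1, …, x_n', (∏ x_i)⁻¹)` in `SL_{n'+1}`. -/
noncomputable def diagSLfun (F : Type*) [Field F] (n' : ℕ) (x : Fin n' → Fˣ) :
    Matrix.SpecialLinearGroup (Fin (n' + 1)) F :=
  ⟨Matrix.diagonal (fun i => ((Fin.snoc (α := fun _ => Fˣ) x (∏ j, x j)⁻¹ : Fin (n' + 1) → Fˣ) i : F)), by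
    rw [Matrix.det_diagonal, Fin.prod_univ_castSucc]
    simp only [Fin.snoc_castSucc, Fin.snoc_last]
    rw [← Units.coe_prod, ← Units.val_mul, mul_inv_cancel, Units.val_one]⟩

theorem diagSLfun_coe (F : Type*) [Field F] (n' : ℕ) (x : Fin n' → Fˣ) :
    (diagSLfun F n' x : Matrix (Fin (n' + 1)) (Fin (n' + 1)) F) =
      Matrix.diagonal (fun i => ((Fin.snoc (α := fun _ => Fˣ) x (∏ j, x j)⁻¹ : Fin (n' + 1) → Fˣ) i : F)) :=
  rfl

noncomputable def diagSL (F : Type*) [Field F] (n' : ℕ) :
    (Fin n' → Fˣ) →* Matrix.SpecialLinearGroup (Fin (n' + 1)) F where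
  toFun x := diagSLfun F n' x
  map_one' := by
    apply Subtype.ext
    rw [diagSLfun_coe, Matrix.SpecialLinearGroup.coe_one, ← Matrix.diagonal_one]
    congr 1
    funext i
    refine Fin.lastCases ?_ (fun j => ?_) i
    · simp
    · simp
  map_mul' x y := by
    apply Subtype.ext
    rw [Matrix.SpecialLinearGroup.coe_mul, diagSLfun_coe, diagSLfun_coe, diagSLfun_coe,
      Matrix.diagonal_mul_diagonal]
    congr 1
    funext i
    refine Fin.lastCases ?_ (fun j => ?_) i
    · simp [Finset.prod_mul_distrib, mul_comm]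
    · simp

theorem diagSL_injective (F : Type*) [Field F] (n' : ℕ) : Function.Injective (diagSL F n') := by
  intro x y h
  funext j
  have h1 := congrArg (fun A : Matrix.SpecialLinearGroup (Fin (n' + 1)) F =>
    (A : Matrix (Fin (n' + 1)) (Fin (n' + 1)) F) (Fin.castSucc j) (Fin.castSucc j)) h
  have h2 : (diagSLfun F n' x : Matrix (Fin (n' + 1)) (Fin (n' + 1)) F) (Fin.castSucc j) (Fin.castSucc j)
      = (diagSLfun F n' y : Matrix (Fin (n' + 1)) (Fin (n' + 1)) F) (Fin.castSucc j) (Fin.castSucc j) := h1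
  rw [diagSLfun_coe, diagSLfun_coe, Matrix.diagonal_apply_eq, Matrix.diagonal_apply_eq,
    Fin.snoc_castSucc, Fin.snoc_castSucc] at h2
  exact Units.ext h2

theorem card_pi_zmod (a m : ℕ) : Nat.card (Fin a → Multiplicative (ZMod m)) = m ^ a := by
  rw [Nat.card_pi, Finset.prod_const, Finset.card_univ, Fintype.card_fin]
  congr 1
  exact (Nat.card_congr Multiplicative.toAdd).trans (Nat.card_zmod m)

theorem subsingleton_SL0 (F : Type*) [Field F] : Subsingleton (Matrix.SpecialLinearGroup (Fin 0) F) :=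
  ⟨fun a b => Subtype.ext (by ext i; exact i.elim0)⟩

/-- Sylow subgroups of `SL_n(q)` for large primes. Let `F` be a field with `q` elements and `r` a prime with `r > n` and `r ∤ q` (so `r` does not divide the order `n!` of the Weyl group). Let `d` be the multiplicative order of `q` modulo `r`, `a` the number of integers `i` with `2 ≤ i ≤ n` divisible by `d` (the degrees of the Weyl group are `2, …, n`), and `m` the `r`-part of the value at `q` of the `d`-th cyclotomic polynomial. Then every Sylow `r`-subgroup of `SL_n(q)` is a direct product of `a` cyclic groups of order `m`. -/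
theorem result {F : Type*} [Field F] [Fintype F] {q : ℕ} (hq : Fintype.card F = q) (n : ℕ)
    (r : ℕ) [Fact r.Prime] (hrn : n < r) (hrq : ¬ r ∣ q) (P : Sylow r (Matrix.SpecialLinearGroup (Fin n) F)) :
    Nonempty (↥(P : Subgroup (Matrix.SpecialLinearGroup (Fin n) F)) ≃*
      (Fin ((Finset.Icc 2 n).filter (fun i => orderOf (q : ZMod r) ∣ i)).card →
        Multiplicative (ZMod (r ^ padicValNat r ((Polynomial.cyclotomic (orderOf (q : ZMod r)) ℤ).eval (q : ℤ)).natAbs)))) := by
  classical
  subst hq
  have hr : r.Prime := Fact.out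
  rcases Nat.eq_zero_or_pos n with rfl | hn
  · have h0 : ((Finset.Icc 2 0).filter (fun i => orderOf ((Fintype.card F : ℕ) : ZMod r) ∣ i)).card = 0 := by
      simp
    rw [h0]
    have := subsingleton_SL0 F
    exact ⟨{ toFun := fun _ => 1, invFun := fun _ => 1, left_inv := fun x => Subsingleton.elim _ _,
             right_inv := fun x => Subsingleton.elim _ _, map_mul' := fun _ _ => Subsingleton.elim _ _ }⟩
  have hq2 : 2 ≤ Fintype.card F := Fintype.one_lt_card
  have hSL := Cfsg.Agent.S0242.result (F := F) rfl n hn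
  have hSL0 : Nat.card (Matrix.SpecialLinearGroup (Fin n) F) ≠ 0 := Nat.card_pos.ne'
  have hq10 : Fintype.card F - 1 ≠ 0 := by omega
  have hfac : ((Fintype.card F - 1) * Nat.card (Matrix.SpecialLinearGroup (Fin n) F)).factorization r =
      (∏ i : Fin n, (Fintype.card F ^ n - Fintype.card F ^ (i : ℕ))).factorization r := by rw [hSL]
  rw [Nat.factorization_mul hq10 hSL0, Finsupp.add_apply, factorization_prod_GL _ r hq2 n hrn hrq] at hfac
  by_cases hd1 : orderOf ((Fintype.card F : ℕ) : ZMod r) = 1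
  · -- split case
    rw [hd1] at hfac ⊢
    have hs := factorization_pow_order_sub_one (Fintype.card F) r hrq
    rw [hd1, pow_one] at hs
    have hm : r ^ padicValNat r ((Polynomial.cyclotomic 1 ℤ).eval ((Fintype.card F : ℕ) : ℤ)).natAbs ∣
        Fintype.card F - 1 := by
      rw [← hs]
      exact Nat.ordProj_dvd _ _
    have hcount : ((Finset.Icc 2 n).filter (fun i => 1 ∣ i)).card = n - 1 := by
      rw [Finset.filter_true_of_mem (fun i _ => one_dvd i), Nat.card_Icc]
      omega
    rw [hcount]
    obtain ⟨n', rfl⟩ : ∃ n', n = n' + 1 := ⟨n - 1, by omega⟩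
    have hFu : Nat.card Fˣ = Fintype.card F - 1 := by
      rw [Nat.card_units, Nat.card_eq_fintype_card]
    obtain ⟨ι, hι⟩ := exists_injective_hom_zmod (H := Fˣ) _ (hFu ▸ hm)
    have hψ : Function.Injective ((diagSL F n').comp (MonoidHom.compLeft ι (Fin n'))) := by
      intro x y hxy
      have h1 := diagSL_injective F n' hxy
      funext i
      exact hι (congrFun h1 i)
    have hcard : Nat.card ((diagSL F n').comp (MonoidHom.compLeft ι (Fin n'))).range =
        r ^ (Nat.card (Matrix.SpecialLinearGroup (Fin (n' + 1)) F)).factorization r := by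
      rw [Nat.card_congr (MonoidHom.ofInjective hψ).toEquiv.symm, card_pi_zmod, ← pow_mul]
      congr 1
      rw [hs, Nat.div_one] at hfac
      have : (n' + 1) * padicValNat r ((Polynomial.cyclotomic 1 ℤ).eval ((Fintype.card F : ℕ) : ℤ)).natAbs
          = padicValNat r ((Polynomial.cyclotomic 1 ℤ).eval ((Fintype.card F : ℕ) : ℤ)).natAbs
            + n' * padicValNat r ((Polynomial.cyclotomic 1 ℤ).eval ((Fintype.card F : ℕ) : ℤ)).natAbs := by ring
      rw [this] at hfac
      have h2 := Nat.add_left_cancel hfac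
      rw [h2, mul_comm]
    exact ⟨(Sylow.equiv P (Sylow.ofCard _ hcard)).trans
      ((MulEquiv.subgroupCongr (Sylow.coe_ofCard _ hcard)).trans (MonoidHom.ofInjective hψ).symm)⟩
  · -- r ∤ q - 1
    have hdpos : 0 < orderOf ((Fintype.card F : ℕ) : ZMod r) := orderOf_zmod_pos _ r hrq
    have hrq1 : ¬ r ∣ Fintype.card F - 1 := by
      intro h
      have h1 : r ∣ Fintype.card F ^ 1 - 1 := by rwa [pow_one]
      rw [dvd_pow_sub_one_iff _ r hrq] at h1
      exact hd1 (Nat.dvd_one.mp h1)
    rw [Nat.factorization_eq_zero_of_not_dvd hrq1, zero_add] at hfac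
    have hcount : ((Finset.Icc 2 n).filter (fun i => orderOf ((Fintype.card F : ℕ) : ZMod r) ∣ i)).card =
        n / orderOf ((Fintype.card F : ℕ) : ZMod r) := by
      rw [← Nat.Ioc_filter_dvd_card_eq_div]
      congr 1
      ext i
      simp only [Finset.mem_filter, Finset.mem_Icc, Finset.mem_Ioc]
      constructor
      · rintro ⟨⟨h1, h2⟩, h3⟩
        exact ⟨⟨by omega, h2⟩, h3⟩
      · rintro ⟨⟨h1, h2⟩, h3⟩
        refine ⟨⟨?_, h2⟩, h3⟩
        have := Nat.le_of_dvd h1 h3
        omega
    rw [hcount]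
    have hinj : Function.Injective (Matrix.SpecialLinearGroup.toGL : Matrix.SpecialLinearGroup (Fin n) F →* GL (Fin n) F) :=
      Matrix.SpecialLinearGroup.toGL_injective
    have hcard : Nat.card ((P : Subgroup (Matrix.SpecialLinearGroup (Fin n) F)).map
        (Matrix.SpecialLinearGroup.toGL : Matrix.SpecialLinearGroup (Fin n) F →* GL (Fin n) F)) =
        r ^ (Nat.card (GL (Fin n) F)).factorization r := by
      rw [← Nat.card_congr (Subgroup.equivMapOfInjective _ _ hinj).toEquiv, Sylow.card_eq_multiplicity,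
        Matrix.card_GL_field, factorization_prod_GL _ r hq2 n hrn hrq, hfac]
    obtain ⟨e⟩ := Cfsg.Agent.S2380.result (F := F) rfl n r hrn hrq (Sylow.ofCard _ hcard)
    exact ⟨(Subgroup.equivMapOfInjective _ _ hinj).trans
      ((MulEquiv.subgroupCongr (Sylow.coe_ofCard _ hcard).symm).trans e)⟩

end Cfsg.Agent.S2379
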