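import Cfsg.Statements.S2381
-- import your own Cfsg.Agent.* helpers here
import Mathlib
import Cfsg.Agent.H45.SpSylow
import Cfsg.Agent.S0245
import Cfsg.Agent.S2379

set_option autoImplicit false
open Cfsg

namespace Cfsg.Agent.S2381

open Matrix Cfsg.Agent.H45

/-- Sylow subgroups of `Sp_{2n}(q)` for large primes. Let `F` be a field with `q` elements and `r` an odd prime with `r > n` and `r ∤ q` (so `r` does not divide the order `2^n n!` of the Weyl group). Let `d` be the multiplicative order of `q` modulo `r`, `a` the number of `i` with `1 ≤ i ≤ n` and `d ∣ 2i` (the degrees being `2, 4, …, 2n`), and `m` the `r`-part of the value at `q` of the `d`-th cyclotomic polynomial. Then every Sylow `r`-subgroup of the symplectic group `Sp_{2n}(q)` is a direct product of `a` cyclic groups of order `m`. -/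
theorem result {F : Type*} [Field F] [Fintype F] {q : ℕ} (hq : Fintype.card F = q) (n : ℕ)
    (r : ℕ) [Fact r.Prime] (hr2 : r ≠ 2) (hrn : n < r) (hrq : ¬ r ∣ q) (P : Sylow r ↥(Matrix.symplecticGroup (Fin n) F)) :
    Nonempty (↥(P : Subgroup ↥(Matrix.symplecticGroup (Fin n) F)) ≃*
      (Fin ((Finset.Icc 1 n).filter (fun i => orderOf (q : ZMod r) ∣ 2 * i)).card →
        Multiplicative (ZMod (r ^ padicValNat r ((Polynomial.cyclotomic (orderOf (q : ZMod r)) ℤ).eval (q : ℤ)).natAbs)))) := by
  classical
  subst hq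
  have hr : r.Prime := Fact.out
  have hq2 : 2 ≤ Fintype.card F := Fintype.one_lt_card
  have hdpos : 0 < orderOf ((Fintype.card F : ℕ) : ZMod r) := orderOf_zmod_pos _ r hrq
  have hSp := Cfsg.Agent.S0245.result (F := F) rfl n
  have hfac := factorization_card_Sp (Fintype.card F) r hq2 n hr2 hrn hrq
  rw [← hSp] at hfac
  have hsd := factorization_pow_order_sub_one (Fintype.card F) r hrq
  obtain ⟨d, hd⟩ : ∃ d, orderOf ((Fintype.card F : ℕ) : ZMod r) = d := ⟨_, rfl⟩
  rw [hd] at hfac hsd hdpos ⊢
  obtain ⟨s, hs⟩ : ∃ s, padicValNat r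
      ((Polynomial.cyclotomic d ℤ).eval ((Fintype.card F : ℕ) : ℤ)).natAbs = s := ⟨_, rfl⟩
  rw [hs] at hfac hsd ⊢
  have hmdvd : r ^ s ∣ Fintype.card F ^ d - 1 := by
    rw [← hsd]
    exact Nat.ordProj_dvd _ _
  have hemb : ∃ ψ : (Fin ((Finset.Icc 1 n).filter (fun i => d ∣ 2 * i)).card →
      Multiplicative (ZMod (r ^ s))) →* ↥(Matrix.symplecticGroup (Fin n) F),
      Function.Injective ψ := by
    rcases Nat.even_or_odd d with hev | hodd
    · obtain ⟨e, he⟩ := hev
      have he0 : 0 < e := by omega
      have hcount : ((Finset.Icc 1 n).filter (fun i => d ∣ 2 * i)).card = n / e := by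
        rw [← card_filter_Icc_dvd n e]
        congr 1
        apply Finset.filter_congr
        intro i _
        rw [he, ← two_mul]
        exact Nat.mul_dvd_mul_iff_left (by norm_num)
      have hae : ((Finset.Icc 1 n).filter (fun i => d ∣ 2 * i)).card * e ≤ n := by
        rw [hcount]
        exact Nat.div_mul_le_self n e
      have hm : r ^ s ∣ Fintype.card F ^ e + 1 := by
        have hq1 : 1 ≤ Fintype.card F ^ e := Nat.one_le_pow _ _ (by omega)
        have h1 : Fintype.card F ^ d - 1 = (Fintype.card F ^ e - 1) * (Fintype.card F ^ e + 1) := by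
          rw [he, pow_add]
          obtain ⟨Q, hQ⟩ : ∃ Q, Fintype.card F ^ e = Q + 1 := ⟨Fintype.card F ^ e - 1, by omega⟩
          rw [hQ, Nat.add_sub_cancel]
          apply Nat.sub_eq_of_eq_add
          ring
        have h2 : ¬ r ∣ Fintype.card F ^ e - 1 := by
          rw [dvd_pow_sub_one_iff _ r hrq, hd]
          intro h
          have := Nat.le_of_dvd he0 h
          omega
        have hcop : Nat.Coprime (r ^ s) (Fintype.card F ^ e - 1) :=
          Nat.Coprime.pow_left _ ((Nat.Prime.coprime_iff_not_dvd hr).mpr h2)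
        exact hcop.dvd_of_dvd_mul_left (h1 ▸ hmdvd)
      exact exists_injective_hom_Sp_even F n e _ (r ^ s) he0 hae hm
    · have hcop : Nat.Coprime d 2 := Nat.Coprime.symm (Nat.coprime_two_left.mpr hodd)
      have hcount : ((Finset.Icc 1 n).filter (fun i => d ∣ 2 * i)).card = n / d := by
        rw [← card_filter_Icc_dvd n d]
        congr 1
        apply Finset.filter_congr
        intro i _
        exact hcop.dvd_mul_left
      have had : ((Finset.Icc 1 n).filter (fun i => d ∣ 2 * i)).card * d ≤ n := by
        rw [hcount]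
        exact Nat.div_mul_le_self n d
      exact exists_injective_hom_Sp_odd F n d _ (r ^ s) hdpos had hmdvd
  obtain ⟨ψ, hψ⟩ := hemb
  have hcard : Nat.card ψ.range =
      r ^ (Nat.card ↥(Matrix.symplecticGroup (Fin n) F)).factorization r := by
    rw [Nat.card_congr (MonoidHom.ofInjective hψ).toEquiv.symm, Cfsg.Agent.S2379.card_pi_zmod,
      ← pow_mul, hfac, mul_comm]
  exact ⟨(Sylow.equiv P (Sylow.ofCard _ hcard)).trans
    ((MulEquiv.subgroupCongr (Sylow.coe_ofCard _ hcard)).trans (MonoidHom.ofInjective hψ).symm)⟩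

end Cfsg.Agent.S2381
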