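import Cfsg.Statements.S2388
-- import your own Cfsg.Agent.* helpers here
import Mathlib
import Cfsg.Agent.H45.Semisimple

set_option autoImplicit false
open Cfsg

namespace Cfsg.Agent.S2388

open Cfsg.Agent.H45

theorem semisimple_toLin' {F : Type*} [Field F] (p : ℕ) [Fact p.Prime] [CharP F p] (n : ℕ)
    (g : Matrix.SpecialLinearGroup (Fin n) F) (hg : (orderOf g).Coprime p) :
    Module.End.IsSemisimple (Matrix.toLin' (g : Matrix (Fin n) (Fin n) F)) := by
  have hp : p.Prime := Fact.out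
  refine isSemisimple_of_pow_eq_one p _ (orderOf g) ?_ ?_
  · intro h
    have := Nat.Coprime.eq_one_of_dvd hg.symm h
    exact hp.one_lt.ne' this
  · rw [← Matrix.toLin'_pow, ← Matrix.SpecialLinearGroup.coe_pow, pow_orderOf_eq_one,
      Matrix.SpecialLinearGroup.coe_one, Matrix.toLin'_one]
    rfl

/-- In `SL_n(q)`, `q` a power of the prime `p`, two elements of order prime to `p` with the same characteristic polynomial are conjugate in `SL_n(q)` (not merely in `GL_n`). -/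
theorem result {F : Type*} [Field F] [Fintype F] (p : ℕ) [Fact p.Prime] [CharP F p] (n : ℕ)
    (g h : Matrix.SpecialLinearGroup (Fin n) F) (hg : (orderOf g).Coprime p) (hh : (orderOf h).Coprime p)
    (hc : (g : Matrix (Fin n) (Fin n) F).charpoly = (h : Matrix (Fin n) (Fin n) F).charpoly) : IsConj g h := by
  classical
  rcases Nat.eq_zero_or_pos n with rfl | hn
  · have : g = h := Subtype.ext (by ext i; exact i.elim0)
    rw [this]
  have hne : Nonempty (Fin n) := ⟨⟨0, hn⟩⟩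
  have hgs := semisimple_toLin' p n g hg
  have hhs := semisimple_toLin' p n h hh
  obtain ⟨e, he⟩ := exists_equiv_of_charpoly_eq n (Matrix.toLin' (g : Matrix (Fin n) (Fin n) F))
    (Matrix.toLin' (h : Matrix (Fin n) (Fin n) F)) (Module.finrank_fin_fun F) hgs hhs
    (by rw [Matrix.charpoly_toLin', Matrix.charpoly_toLin', hc])
  have hdet : LinearMap.det (e : (Fin n → F) →ₗ[F] (Fin n → F)) ≠ 0 :=
    (LinearEquiv.isUnit_det' e).ne_zero
  obtain ⟨C, hC, hCdet⟩ := exists_commute_det (Matrix.toLin' (g : Matrix (Fin n) (Fin n) F)) hgs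
    (LinearMap.det (e : (Fin n → F) →ₗ[F] (Fin n → F)))⁻¹ (inv_ne_zero hdet)
  have hPdet : (LinearMap.toMatrix' ((e : (Fin n → F) →ₗ[F] (Fin n → F)) ∘ₗ
      (C : (Fin n → F) →ₗ[F] (Fin n → F)))).det = 1 := by
    rw [LinearMap.det_toMatrix', LinearMap.det_comp, hCdet, mul_inv_cancel₀ hdet]
  have hcomm : ((e : (Fin n → F) →ₗ[F] (Fin n → F)) ∘ₗ (C : (Fin n → F) →ₗ[F] (Fin n → F))) ∘ₗ
      Matrix.toLin' (g : Matrix (Fin n) (Fin n) F) =
      Matrix.toLin' (h : Matrix (Fin n) (Fin n) F) ∘ₗ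
        ((e : (Fin n → F) →ₗ[F] (Fin n → F)) ∘ₗ (C : (Fin n → F) →ₗ[F] (Fin n → F))) := by
    apply LinearMap.ext
    intro v
    simp only [LinearMap.comp_apply, LinearEquiv.coe_coe]
    rw [hC, he]
  have hPg : LinearMap.toMatrix' ((e : (Fin n → F) →ₗ[F] (Fin n → F)) ∘ₗ
      (C : (Fin n → F) →ₗ[F] (Fin n → F))) * (g : Matrix (Fin n) (Fin n) F) =
      (h : Matrix (Fin n) (Fin n) F) * LinearMap.toMatrix' ((e : (Fin n → F) →ₗ[F] (Fin n → F)) ∘ₗ
      (C : (Fin n → F) →ₗ[F] (Fin n → F))) := by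
    have := congrArg LinearMap.toMatrix' hcomm
    rw [LinearMap.toMatrix'_comp, LinearMap.toMatrix'_comp _ (_ ∘ₗ _), LinearMap.toMatrix'_toLin',
      LinearMap.toMatrix'_toLin'] at this
    exact this
  obtain ⟨P, hP⟩ : ∃ P : Matrix.SpecialLinearGroup (Fin n) F, (P : Matrix (Fin n) (Fin n) F) =
      LinearMap.toMatrix' ((e : (Fin n → F) →ₗ[F] (Fin n → F)) ∘ₗ
      (C : (Fin n → F) →ₗ[F] (Fin n → F))) := ⟨⟨_, hPdet⟩, rfl⟩
  rw [isConj_iff]
  refine ⟨P, ?_⟩
  rw [mul_inv_eq_iff_eq_mul]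
  apply Subtype.ext
  rw [Matrix.SpecialLinearGroup.coe_mul, Matrix.SpecialLinearGroup.coe_mul, hP]
  exact hPg

end Cfsg.Agent.S2388
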