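import Cfsg.Statements.S2384
-- import your own Cfsg.Agent.* helpers here
import Mathlib
import Cfsg.Agent.H45.Semisimple
import Cfsg.Agent.H45.PolyCount
import Cfsg.Agent.S2388

set_option autoImplicit false
open Cfsg

namespace Cfsg.Agent.S2384

open Cfsg.Agent.H45 Polynomial

theorem SL_charpoly_props {F : Type*} [Field F] (n : ℕ) (g : Matrix.SpecialLinearGroup (Fin n) F) :
    (g : Matrix (Fin n) (Fin n) F).charpoly.Monic ∧
      (g : Matrix (Fin n) (Fin n) F).charpoly.natDegree = n ∧
      (g : Matrix (Fin n) (Fin n) F).charpoly.coeff 0 = (-1) ^ n := by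
  refine ⟨Matrix.charpoly_monic _, by simp, ?_⟩
  have h1 := Matrix.det_eq_sign_charpoly_coeff (g : Matrix (Fin n) (Fin n) F)
  rw [g.2, Fintype.card_fin] at h1
  have h2 : ((-1 : F) ^ n) * ((-1 : F) ^ n) = 1 := by
    rw [← mul_pow]; simp
  calc (g : Matrix (Fin n) (Fin n) F).charpoly.coeff 0
      = ((-1 : F) ^ n) * ((-1 : F) ^ n) * (g : Matrix (Fin n) (Fin n) F).charpoly.coeff 0 := by
        rw [h2, one_mul]
    _ = (-1 : F) ^ n * 1 := by rw [mul_assoc, ← h1]
    _ = (-1) ^ n := mul_one _

theorem SL_charpoly_conj {F : Type*} [Field F] (n : ℕ) (c g : Matrix.SpecialLinearGroup (Fin n) F) :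
    ((c * g * c⁻¹ : Matrix.SpecialLinearGroup (Fin n) F) : Matrix (Fin n) (Fin n) F).charpoly =
      (g : Matrix (Fin n) (Fin n) F).charpoly := by
  have h1 : ((c * g * c⁻¹ : Matrix.SpecialLinearGroup (Fin n) F) : Matrix (Fin n) (Fin n) F) =
      ((Matrix.SpecialLinearGroup.toGL c : GL (Fin n) F) : Matrix (Fin n) (Fin n) F) *
        (g : Matrix (Fin n) (Fin n) F) *
        ((Matrix.SpecialLinearGroup.toGL c : GL (Fin n) F) : Matrix (Fin n) (Fin n) F)⁻¹ := by
    rw [Matrix.SpecialLinearGroup.coe_mul, Matrix.SpecialLinearGroup.coe_mul, ← Matrix.coe_units_inv,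
      ← map_inv]
    rfl
  rw [h1, Matrix.charpoly_units_conj]

/-- In `SL_n(q)`, `q` a power of the prime `p`, the number of conjugacy classes of elements of order prime to `p` (the semisimple classes) is `q^(n-1)`. -/
theorem result {F : Type*} [Field F] [Fintype F] {q : ℕ} (hq : Fintype.card F = q) (p : ℕ) [Fact p.Prime] [CharP F p] (n : ℕ) (hn : 1 ≤ n) :
    Nat.card {c : ConjClasses (Matrix.SpecialLinearGroup (Fin n) F) //
      ∃ g : Matrix.SpecialLinearGroup (Fin n) F, ConjClasses.mk g = c ∧ (orderOf g).Coprime p} = q ^ (n - 1) := by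
  classical
  subst hq
  have hp : p.Prime := Fact.out
  obtain ⟨n', rfl⟩ : ∃ n', n = n' + 1 := ⟨n - 1, by omega⟩
  have hcount := card_monic_coeff_zero (F := F) n' (fun x => x = (-1) ^ (n' + 1))
  have hone : Nat.card {x : F // x = (-1) ^ (n' + 1)} = 1 := by
    rw [Nat.card_eq_fintype_card, Fintype.card_subtype_eq]
  have hΘ : Function.Bijective (fun c : {c : ConjClasses (Matrix.SpecialLinearGroup (Fin (n' + 1)) F) //
      ∃ g : Matrix.SpecialLinearGroup (Fin (n' + 1)) F, ConjClasses.mk g = c ∧ (orderOf g).Coprime p} =>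
      (⟨((Classical.choose c.2 : Matrix.SpecialLinearGroup (Fin (n' + 1)) F) :
          Matrix (Fin (n' + 1)) (Fin (n' + 1)) F).charpoly,
        SL_charpoly_props (n' + 1) _⟩ :
        {f : F[X] // f.Monic ∧ f.natDegree = n' + 1 ∧ f.coeff 0 = (-1) ^ (n' + 1)})) := by
    constructor
    · intro c c' hcc
      have h1 := Classical.choose_spec c.2
      have h2 := Classical.choose_spec c'.2
      have hch := congrArg Subtype.val hcc
      have hconj := Cfsg.Agent.S2388.result p _ _ _ h1.2 h2.2 hch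
      apply Subtype.ext
      rw [← h1.1, ← h2.1]
      exact ConjClasses.mk_eq_mk_iff_isConj.mpr hconj
    · rintro ⟨f, hfm, hfn, hf0⟩
      have hf0' : f.coeff 0 ≠ 0 := by
        rw [hf0]
        exact pow_ne_zero _ (neg_ne_zero.mpr one_ne_zero)
      obtain ⟨A, hA, m, hm, hAm⟩ := exists_matrix_charpoly p (n' + 1) f hfm hfn hf0'
      have hdet : A.det = 1 := by
        rw [Matrix.det_eq_sign_charpoly_coeff, hA, hf0, Fintype.card_fin, ← mul_pow]
        simp
      obtain ⟨gA, hgA⟩ : ∃ gA : Matrix.SpecialLinearGroup (Fin (n' + 1)) F,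
          (gA : Matrix (Fin (n' + 1)) (Fin (n' + 1)) F) = A := ⟨⟨A, hdet⟩, rfl⟩
      have hord : (orderOf gA).Coprime p := by
        have h1 : gA ^ m = 1 := by
          apply Subtype.ext
          rw [Matrix.SpecialLinearGroup.coe_pow, hgA, hAm, Matrix.SpecialLinearGroup.coe_one]
        have h2 : orderOf gA ∣ m := orderOf_dvd_of_pow_eq_one h1
        exact Nat.Coprime.coprime_dvd_left h2 ((Nat.Prime.coprime_iff_not_dvd hp).mpr hm).symm
      refine ⟨⟨ConjClasses.mk gA, gA, rfl, hord⟩, ?_⟩
      apply Subtype.ext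
      have hex : ∃ g : Matrix.SpecialLinearGroup (Fin (n' + 1)) F,
          ConjClasses.mk g = ConjClasses.mk gA ∧ (orderOf g).Coprime p := ⟨gA, rfl, hord⟩
      have h1 := Classical.choose_spec hex
      have hconj : IsConj (Classical.choose hex) gA := ConjClasses.mk_eq_mk_iff_isConj.mp h1.1
      obtain ⟨c, hc⟩ := isConj_iff.mp hconj
      have key : ((Classical.choose hex : Matrix.SpecialLinearGroup (Fin (n' + 1)) F) :
          Matrix (Fin (n' + 1)) (Fin (n' + 1)) F).charpoly =
          (gA : Matrix (Fin (n' + 1)) (Fin (n' + 1)) F).charpoly := by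
        generalize Classical.choose hex = g' at hc
        rw [← hc, SL_charpoly_conj]
      show ((Classical.choose hex : Matrix.SpecialLinearGroup (Fin (n' + 1)) F) :
          Matrix (Fin (n' + 1)) (Fin (n' + 1)) F).charpoly = f
      rw [key, hgA, hA]
  rw [Nat.card_congr (Equiv.ofBijective _ hΘ), hcount, hone]
  simp

end Cfsg.Agent.S2384
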