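import Cfsg.Statements.S2389
-- import your own Cfsg.Agent.* helpers here
import Cfsg.Agent.H45.IsoSp

set_option autoImplicit false
open Cfsg

namespace Cfsg.Agent.S2389

open Cfsg.Agent.H45 in
theorem sp_pow_eq_one {F : Type*} [Field F] (p : ℕ) [Fact p.Prime] (n : ℕ)
    (g : ↥(Matrix.symplecticGroup (Fin n) F)) (hg : (orderOf g).Coprime p) :
    ¬ p ∣ orderOf g ∧ (g : Matrix (Fin n ⊕ Fin n) (Fin n ⊕ Fin n) F) ^ orderOf g = 1 := by
  have hp : p.Prime := Fact.out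
  refine ⟨?_, ?_⟩
  · intro h
    have := Nat.Coprime.eq_one_of_dvd hg.symm h
    exact hp.one_lt.ne' this
  · rw [← SubmonoidClass.coe_pow, pow_orderOf_eq_one]
    rfl

/-- In the symplectic group `Sp_{2n}(q)`, `q` a power of the prime `p`, two elements of order prime to `p` with the same characteristic polynomial are conjugate in `Sp_{2n}(q)`. -/
theorem result {F : Type*} [Field F] [Fintype F] (p : ℕ) [Fact p.Prime] [CharP F p] (n : ℕ)
    (g h : ↥(Matrix.symplecticGroup (Fin n) F)) (hg : (orderOf g).Coprime p) (hh : (orderOf h).Coprime p)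
    (hc : (g : Matrix (Fin n ⊕ Fin n) (Fin n ⊕ Fin n) F).charpoly = (h : Matrix (Fin n ⊕ Fin n) (Fin n ⊕ Fin n) F).charpoly) :
    IsConj g h := by
  obtain ⟨hm, hgm⟩ := sp_pow_eq_one p n g hg
  obtain ⟨hm', hhm⟩ := sp_pow_eq_one p n h hh
  obtain ⟨P, hP, hPA⟩ := Cfsg.Agent.H45.sp_conj p (g : Matrix (Fin n ⊕ Fin n) (Fin n ⊕ Fin n) F)
    (h : Matrix (Fin n ⊕ Fin n) (Fin n ⊕ Fin n) F) g.2 h.2 _ _ hm hgm hm' hhm hc
  rw [isConj_iff]
  refine ⟨⟨P, hP⟩, ?_⟩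
  rw [mul_inv_eq_iff_eq_mul]
  apply Subtype.ext
  exact hPA

end Cfsg.Agent.S2389
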