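import Cfsg.Statements.S2385
-- import your own Cfsg.Agent.* helpers here
import Mathlib
import Cfsg.Agent.H45.IsoStd
import Cfsg.Agent.H45.IsoCount
import Cfsg.Agent.S2389

set_option autoImplicit false
open Cfsg

namespace Cfsg.Agent.S2385

open Cfsg.Agent.H45 Polynomial

theorem sp_charpoly_props {F : Type*} [Field F] (n : ℕ)
    (g : ↥(Matrix.symplecticGroup (Fin n) F)) :
    (g : Matrix (Fin n ⊕ Fin n) (Fin n ⊕ Fin n) F).charpoly.Monic ∧
      (g : Matrix (Fin n ⊕ Fin n) (Fin n ⊕ Fin n) F).charpoly.natDegree = 2 * n ∧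
      (g : Matrix (Fin n ⊕ Fin n) (Fin n ⊕ Fin n) F).charpoly.reverse =
        (g : Matrix (Fin n ⊕ Fin n) (Fin n ⊕ Fin n) F).charpoly := by
  refine ⟨Matrix.charpoly_monic _, ?_, sp_charpoly_reverse n _ g.2⟩
  rw [Matrix.charpoly_natDegree_eq_dim, Fintype.card_sum, Fintype.card_fin]
  ring

/-- In the symplectic group `Sp_{2n}(q)`, `q` a power of the prime `p`, the number of conjugacy classes of elements of order prime to `p` is `q^n`. -/
theorem result {F : Type*} [Field F] [Fintype F] {q : ℕ} (hq : Fintype.card F = q) (p : ℕ) [Fact p.Prime] [CharP F p] (n : ℕ) :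
    Nat.card {c : ConjClasses ↥(Matrix.symplecticGroup (Fin n) F) //
      ∃ g : ↥(Matrix.symplecticGroup (Fin n) F), ConjClasses.mk g = c ∧ (orderOf g).Coprime p} = q ^ n := by
  classical
  subst hq
  have hp : p.Prime := Fact.out
  have hΘ : Function.Bijective (fun c : {c : ConjClasses ↥(Matrix.symplecticGroup (Fin n) F) //
      ∃ g : ↥(Matrix.symplecticGroup (Fin n) F), ConjClasses.mk g = c ∧ (orderOf g).Coprime p} =>
      (⟨((Classical.choose c.2 : ↥(Matrix.symplecticGroup (Fin n) F)) :
          Matrix (Fin n ⊕ Fin n) (Fin n ⊕ Fin n) F).charpoly, sp_charpoly_props n _⟩ :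
        {f : F[X] // f.Monic ∧ f.natDegree = 2 * n ∧ f.reverse = f})) := by
    constructor
    · intro c c' hcc
      have h1 := Classical.choose_spec c.2
      have h2 := Classical.choose_spec c'.2
      have hch := congrArg Subtype.val hcc
      have hconj := Cfsg.Agent.S2389.result p n _ _ h1.2 h2.2 hch
      apply Subtype.ext
      rw [← h1.1, ← h2.1]
      exact ConjClasses.mk_eq_mk_iff_isConj.mpr hconj
    · rintro ⟨f, hfm, hfn, hfr⟩
      have hf0 : f.coeff 0 = 1 := by
        have h1 := coeff_zero_reverse f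
        rw [hfr] at h1
        rw [h1]
        exact hfm.leadingCoeff
      have hreal := exists_realizable p (σ := RingHom.id F) (fun a => rfl) (-1) (by simp)
        (fun _ => rfl) (2 * n) f hfn hfm (by rw [hf0]; exact one_ne_zero)
        (by rw [dualPoly_id, hfr]) (fun _ => ⟨hf0, hfn ▸ even_two_mul n⟩)
      obtain ⟨A, hA, hAc, m, hm, hAm⟩ := exists_sp_of_realizable p n f hreal hfn
      obtain ⟨gA, hgA⟩ : ∃ gA : ↥(Matrix.symplecticGroup (Fin n) F),
          (gA : Matrix (Fin n ⊕ Fin n) (Fin n ⊕ Fin n) F) = A := ⟨⟨A, hA⟩, rfl⟩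
      have hord : (orderOf gA).Coprime p := by
        have h1 : gA ^ m = 1 := by
          apply Subtype.ext
          rw [SubmonoidClass.coe_pow, hgA, hAm]
          rfl
        have h2 : orderOf gA ∣ m := orderOf_dvd_of_pow_eq_one h1
        exact Nat.Coprime.coprime_dvd_left h2 ((Nat.Prime.coprime_iff_not_dvd hp).mpr hm).symm
      refine ⟨⟨ConjClasses.mk gA, gA, rfl, hord⟩, ?_⟩
      apply Subtype.ext
      have hex : ∃ g : ↥(Matrix.symplecticGroup (Fin n) F),
          ConjClasses.mk g = ConjClasses.mk gA ∧ (orderOf g).Coprime p := ⟨gA, rfl, hord⟩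
      have h1 := Classical.choose_spec hex
      have hconj : IsConj (Classical.choose hex) gA := ConjClasses.mk_eq_mk_iff_isConj.mp h1.1
      obtain ⟨c, hc⟩ := isConj_iff.mp hconj
      have key : ((Classical.choose hex : ↥(Matrix.symplecticGroup (Fin n) F)) :
          Matrix (Fin n ⊕ Fin n) (Fin n ⊕ Fin n) F).charpoly =
          (gA : Matrix (Fin n ⊕ Fin n) (Fin n ⊕ Fin n) F).charpoly := by
        generalize Classical.choose hex = g' at hc
        rw [mul_inv_eq_iff_eq_mul] at hc
        have hc' := congrArg Subtype.val hc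
        exact charpoly_eq_of_conj (c : Matrix (Fin n ⊕ Fin n) (Fin n ⊕ Fin n) F) _ _
          (SymplecticGroup.symplectic_det c.2) hc'
      show ((Classical.choose hex : ↥(Matrix.symplecticGroup (Fin n) F)) :
          Matrix (Fin n ⊕ Fin n) (Fin n ⊕ Fin n) F).charpoly = f
      rw [key, hgA, hAc]
  rw [Nat.card_congr (Equiv.ofBijective _ hΘ), card_sp_poly]

end Cfsg.Agent.S2385
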