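import Cfsg.Statements.S2390
-- import your own Cfsg.Agent.* helpers here
import Mathlib
import Cfsg.Agent.H45.IsoSU

set_option autoImplicit false
open Cfsg

namespace Cfsg.Agent.S2390

theorem su_pow_eq_one {F : Type*} [Field F] {q : ℕ} (p : ℕ) [Fact p.Prime] (n : ℕ)
    (g : ↥(Cfsg.SU n F q)) (hg : (orderOf g).Coprime p) :
    ¬ p ∣ orderOf g ∧
      ((g : Matrix.SpecialLinearGroup (Fin n) F) : Matrix (Fin n) (Fin n) F) ^ orderOf g = 1 := by
  have hp : p.Prime := Fact.out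
  refine ⟨?_, ?_⟩
  · intro h
    have := Nat.Coprime.eq_one_of_dvd hg.symm h
    exact hp.one_lt.ne' this
  · rw [← Matrix.SpecialLinearGroup.coe_pow, ← Subgroup.coe_pow, pow_orderOf_eq_one]
    rfl

/-- In the special unitary group `SU_n(q)` (inside `SL_n` over the field with `q²` elements), `q` a power of the prime `p`, two elements of order prime to `p` with the same characteristic polynomial are conjugate in `SU_n(q)`. -/
theorem result {F : Type*} [Field F] [Fintype F] {q : ℕ} (hF : Fintype.card F = q ^ 2) (p : ℕ) [Fact p.Prime] [CharP F p] (n : ℕ)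
    (g h : ↥(Cfsg.SU n F q)) (hg : (orderOf g).Coprime p) (hh : (orderOf h).Coprime p)
    (hc : ((g : Matrix.SpecialLinearGroup (Fin n) F) : Matrix (Fin n) (Fin n) F).charpoly =
      ((h : Matrix.SpecialLinearGroup (Fin n) F) : Matrix (Fin n) (Fin n) F).charpoly) : IsConj g h := by
  obtain ⟨hm, hgm⟩ := su_pow_eq_one p n g hg
  obtain ⟨hm', hhm⟩ := su_pow_eq_one p n h hh
  obtain ⟨P, hPdet, hP, hPA⟩ := Cfsg.Agent.H45.su_conj hF p
    ((g : Matrix.SpecialLinearGroup (Fin n) F) : Matrix (Fin n) (Fin n) F)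
    ((h : Matrix.SpecialLinearGroup (Fin n) F) : Matrix (Fin n) (Fin n) F)
    ((Cfsg.Agent.H7.mem_SU_iff n q g.1).1 g.2) ((Cfsg.Agent.H7.mem_SU_iff n q h.1).1 h.2)
    _ _ hm hgm hm' hhm hc
  rw [isConj_iff]
  refine ⟨⟨⟨P, hPdet⟩, (Cfsg.Agent.H7.mem_SU_iff n q _).2 hP⟩, ?_⟩
  rw [mul_inv_eq_iff_eq_mul]
  apply Subtype.ext
  apply Subtype.ext
  exact hPA

end Cfsg.Agent.S2390
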