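import Cfsg.Statements.S2386
-- import your own Cfsg.Agent.* helpers here
import Mathlib
import Cfsg.Agent.H45.IsoStd
import Cfsg.Agent.H45.IsoCount
import Cfsg.Agent.S2390

set_option autoImplicit false
open Cfsg

namespace Cfsg.Agent.S2386

open Cfsg.Agent.H45 Polynomial

theorem su_charpoly_props {F : Type*} [Field F] [Fintype F] {q : ℕ} (hF : Fintype.card F = q ^ 2)
    (σ : F →+* F) (hσq : ∀ x, σ x = x ^ q) (n : ℕ) (g : ↥(Cfsg.SU n F q)) :
    ((g : Matrix.SpecialLinearGroup (Fin n) F) : Matrix (Fin n) (Fin n) F).charpoly.Monic ∧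
      ((g : Matrix.SpecialLinearGroup (Fin n) F) : Matrix (Fin n) (Fin n) F).charpoly.natDegree = n ∧
      ((g : Matrix.SpecialLinearGroup (Fin n) F) : Matrix (Fin n) (Fin n) F).charpoly.coeff 0 =
        (-1) ^ n ∧
      dualPoly σ ((g : Matrix.SpecialLinearGroup (Fin n) F) : Matrix (Fin n) (Fin n) F).charpoly =
        C (σ (((g : Matrix.SpecialLinearGroup (Fin n) F) :
          Matrix (Fin n) (Fin n) F).charpoly.coeff 0)) *
          ((g : Matrix.SpecialLinearGroup (Fin n) F) : Matrix (Fin n) (Fin n) F).charpoly := by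
  refine ⟨Matrix.charpoly_monic _, by simp, ?_,
    su_charpoly_dual hF σ hσq n _ ((Cfsg.Agent.H7.mem_SU_iff n q g.1).1 g.2)⟩
  have h1 := Matrix.det_eq_sign_charpoly_coeff
    ((g : Matrix.SpecialLinearGroup (Fin n) F) : Matrix (Fin n) (Fin n) F)
  rw [g.1.2, Fintype.card_fin] at h1
  have h2 : ((-1 : F) ^ n) * ((-1 : F) ^ n) = 1 := by
    rw [← mul_pow]
    simp
  linear_combination (-((-1 : F) ^ n)) * h1 -
    (((g : Matrix.SpecialLinearGroup (Fin n) F) : Matrix (Fin n) (Fin n) F).charpoly.coeff 0) * h2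

/-- In the special unitary group `SU_n(q)` (matrices of determinant one over the field with `q²` elements preserving the standard Hermitian form), `q` a power of the prime `p`, the number of conjugacy classes of elements of order prime to `p` is `q^(n-1)`. -/
theorem result {F : Type*} [Field F] [Fintype F] {q : ℕ} (hF : Fintype.card F = q ^ 2) (p : ℕ) [Fact p.Prime] [CharP F p] (n : ℕ) (hn : 1 ≤ n) :
    Nat.card {c : ConjClasses ↥(Cfsg.SU n F q) // ∃ g : ↥(Cfsg.SU n F q), ConjClasses.mk g = c ∧ (orderOf g).Coprime p} = q ^ (n - 1) := by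
  classical
  have hp : p.Prime := Fact.out
  have hq := Cfsg.Agent.H7.two_le_of_card_sq hF
  obtain ⟨σ, hσq⟩ := Cfsg.Agent.H7.exists_frobQ hF
  have hσ : ∀ a, σ (σ a) = a := by
    intro a
    rw [hσq, hσq, Cfsg.Agent.H7.pow_q_pow_q hF]
  have hσne : σ ≠ RingHom.id F := by
    intro h
    obtain ⟨z, hz1, hz2⟩ := Cfsg.Agent.H7.exists_norm_one_sq_ne_one hF
    have h2 : σ z = z := by rw [h]; rfl
    rw [hσq] at h2
    apply hz2
    rw [pow_succ, h2] at hz1
    rw [pow_two]
    exact hz1
  have hss : ((-1 : F) ^ n) * ((-1 : F) ^ n) = 1 := by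
    rw [← mul_pow]
    simp
  have hs0 : ((-1 : F) ^ n) ≠ 0 := pow_ne_zero _ (neg_ne_zero.mpr one_ne_zero)
  have hΘ : Function.Bijective (fun c : {c : ConjClasses ↥(Cfsg.SU n F q) //
      ∃ g : ↥(Cfsg.SU n F q), ConjClasses.mk g = c ∧ (orderOf g).Coprime p} =>
      (⟨(((Classical.choose c.2 : ↥(Cfsg.SU n F q)) : Matrix.SpecialLinearGroup (Fin n) F) :
          Matrix (Fin n) (Fin n) F).charpoly, su_charpoly_props hF σ hσq n _⟩ :
        {f : F[X] // f.Monic ∧ f.natDegree = n ∧ f.coeff 0 = (-1) ^ n ∧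
          dualPoly σ f = C (σ (f.coeff 0)) * f})) := by
    constructor
    · intro c c' hcc
      have h1 := Classical.choose_spec c.2
      have h2 := Classical.choose_spec c'.2
      have hch := congrArg Subtype.val hcc
      have hconj := Cfsg.Agent.S2390.result hF p n _ _ h1.2 h2.2 hch
      apply Subtype.ext
      rw [← h1.1, ← h2.1]
      exact ConjClasses.mk_eq_mk_iff_isConj.mpr hconj
    · rintro ⟨f, hfm, hfn, hf0, hfdual⟩
      have hf0' : f.coeff 0 ≠ 0 := by
        rw [hf0]
        exact hs0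
      have hreal := exists_realizable p hσ 1 (by rw [map_one, mul_one])
        (fun h => absurd h hσne) n f hfn hfm hf0'
        (associated_dualPoly_of_eq σ f _ ((map_ne_zero σ).mpr hf0') hfdual)
        (fun h => absurd h hσne)
      obtain ⟨A, hA, hAc, m, hm, hAm⟩ := exists_su_of_realizable hF σ hσq p n f hreal hfn
      have hdet : A.det = 1 := by
        rw [Matrix.det_eq_sign_charpoly_coeff, hAc, hf0, Fintype.card_fin, hss]
      obtain ⟨gA, hgA⟩ : ∃ gA : ↥(Cfsg.SU n F q),
          ((gA : Matrix.SpecialLinearGroup (Fin n) F) : Matrix (Fin n) (Fin n) F) = A :=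
        ⟨⟨⟨A, hdet⟩, (Cfsg.Agent.H7.mem_SU_iff n q _).2 hA⟩, rfl⟩
      have hord : (orderOf gA).Coprime p := by
        have h1 : gA ^ m = 1 := by
          apply Subtype.ext
          apply Subtype.ext
          rw [Subgroup.coe_pow, Matrix.SpecialLinearGroup.coe_pow, hgA, hAm]
          rfl
        have h2 : orderOf gA ∣ m := orderOf_dvd_of_pow_eq_one h1
        exact Nat.Coprime.coprime_dvd_left h2 ((Nat.Prime.coprime_iff_not_dvd hp).mpr hm).symm
      refine ⟨⟨ConjClasses.mk gA, gA, rfl, hord⟩, ?_⟩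
      apply Subtype.ext
      have hex : ∃ g : ↥(Cfsg.SU n F q),
          ConjClasses.mk g = ConjClasses.mk gA ∧ (orderOf g).Coprime p := ⟨gA, rfl, hord⟩
      have h1 := Classical.choose_spec hex
      have hconj : IsConj (Classical.choose hex) gA := ConjClasses.mk_eq_mk_iff_isConj.mp h1.1
      obtain ⟨c, hc⟩ := isConj_iff.mp hconj
      have key : (((Classical.choose hex : ↥(Cfsg.SU n F q)) :
          Matrix.SpecialLinearGroup (Fin n) F) : Matrix (Fin n) (Fin n) F).charpoly =
          ((gA : Matrix.SpecialLinearGroup (Fin n) F) : Matrix (Fin n) (Fin n) F).charpoly := by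
        generalize Classical.choose hex = g' at hc
        rw [mul_inv_eq_iff_eq_mul] at hc
        have hc' := congrArg (fun x : ↥(Cfsg.SU n F q) =>
          ((x : Matrix.SpecialLinearGroup (Fin n) F) : Matrix (Fin n) (Fin n) F)) hc
        refine charpoly_eq_of_conj ((c : Matrix.SpecialLinearGroup (Fin n) F) :
          Matrix (Fin n) (Fin n) F) _ _ ?_ hc'
        rw [c.1.2]
        exact isUnit_one
      show (((Classical.choose hex : ↥(Cfsg.SU n F q)) :
          Matrix.SpecialLinearGroup (Fin n) F) : Matrix (Fin n) (Fin n) F).charpoly = f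
      rw [key, hgA, hAc]
  rw [Nat.card_congr (Equiv.ofBijective _ hΘ), card_su_poly hF σ hσ hσne n hn]

end Cfsg.Agent.S2386
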