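import Cfsg.Statements.S2387
-- import your own Cfsg.Agent.* helpers here
import Mathlib
import Cfsg.Agent.H45.Semisimple
import Cfsg.Agent.H45.PolyCount

set_option autoImplicit false
open scoped MatrixGroups
open Cfsg

namespace Cfsg.Agent.S2387

open Cfsg.Agent.H45 Polynomial

theorem semisimple_GL {F : Type*} [Field F] (p : ℕ) [Fact p.Prime] [CharP F p] (n : ℕ)
    (g : GL (Fin n) F) (hg : (orderOf g).Coprime p) :
    Module.End.IsSemisimple (Matrix.toLin' (g : Matrix (Fin n) (Fin n) F)) := by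
  have hp : p.Prime := Fact.out
  refine isSemisimple_of_pow_eq_one p _ (orderOf g) ?_ ?_
  · intro h
    have := Nat.Coprime.eq_one_of_dvd hg.symm h
    exact hp.one_lt.ne' this
  · rw [← Matrix.toLin'_pow, ← Units.val_pow_eq_pow_val, pow_orderOf_eq_one, Units.val_one,
      Matrix.toLin'_one]
    rfl

/-- Elements of `GL_n(F)` of order prime to the characteristic with the same characteristic
polynomial are conjugate. -/
theorem GL_isConj_of_charpoly_eq {F : Type*} [Field F] (p : ℕ) [Fact p.Prime] [CharP F p] (n : ℕ)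
    (g h : GL (Fin n) F) (hg : (orderOf g).Coprime p) (hh : (orderOf h).Coprime p)
    (hc : (g : Matrix (Fin n) (Fin n) F).charpoly = (h : Matrix (Fin n) (Fin n) F).charpoly) :
    IsConj g h := by
  classical
  have hgs := semisimple_GL p n g hg
  have hhs := semisimple_GL p n h hh
  obtain ⟨e, he⟩ := exists_equiv_of_charpoly_eq n (Matrix.toLin' (g : Matrix (Fin n) (Fin n) F))
    (Matrix.toLin' (h : Matrix (Fin n) (Fin n) F)) (Module.finrank_fin_fun F) hgs hhs
    (by rw [Matrix.charpoly_toLin', Matrix.charpoly_toLin', hc])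
  have hdet : LinearMap.det (e : (Fin n → F) →ₗ[F] (Fin n → F)) ≠ 0 :=
    (LinearEquiv.isUnit_det' e).ne_zero
  have hPdet : (LinearMap.toMatrix' (e : (Fin n → F) →ₗ[F] (Fin n → F))).det ≠ 0 := by
    rw [LinearMap.det_toMatrix']
    exact hdet
  have hcomm : (e : (Fin n → F) →ₗ[F] (Fin n → F)) ∘ₗ Matrix.toLin' (g : Matrix (Fin n) (Fin n) F) =
      Matrix.toLin' (h : Matrix (Fin n) (Fin n) F) ∘ₗ (e : (Fin n → F) →ₗ[F] (Fin n → F)) :=
    LinearMap.ext (fun v => he v)
  have hPg : LinearMap.toMatrix' (e : (Fin n → F) →ₗ[F] (Fin n → F)) * (g : Matrix (Fin n) (Fin n) F) =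
      (h : Matrix (Fin n) (Fin n) F) * LinearMap.toMatrix' (e : (Fin n → F) →ₗ[F] (Fin n → F)) := by
    have := congrArg LinearMap.toMatrix' hcomm
    rwa [LinearMap.toMatrix'_comp, LinearMap.toMatrix'_comp, LinearMap.toMatrix'_toLin',
      LinearMap.toMatrix'_toLin'] at this
  obtain ⟨P, hP⟩ : ∃ P : GL (Fin n) F, (P : Matrix (Fin n) (Fin n) F) =
      LinearMap.toMatrix' (e : (Fin n → F) →ₗ[F] (Fin n → F)) :=
    ⟨Matrix.GeneralLinearGroup.mkOfDetNeZero _ hPdet, rfl⟩
  rw [isConj_iff]
  refine ⟨P, ?_⟩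
  rw [mul_inv_eq_iff_eq_mul]
  apply Units.ext
  rw [Units.val_mul, Units.val_mul, hP]
  exact hPg

theorem GL_charpoly_props {F : Type*} [Field F] (n : ℕ) (g : GL (Fin n) F) :
    (g : Matrix (Fin n) (Fin n) F).charpoly.Monic ∧
      (g : Matrix (Fin n) (Fin n) F).charpoly.natDegree = n ∧
      (g : Matrix (Fin n) (Fin n) F).charpoly.coeff 0 ≠ 0 := by
  refine ⟨Matrix.charpoly_monic _, by simp, ?_⟩
  intro h0
  have h1 := Matrix.det_eq_sign_charpoly_coeff (g : Matrix (Fin n) (Fin n) F)
  rw [h0, mul_zero] at h1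
  have h2 : IsUnit (g : Matrix (Fin n) (Fin n) F).det :=
    (Matrix.isUnit_iff_isUnit_det _).mp g.isUnit
  exact h2.ne_zero h1

/-- In `GL_n(q)` with `n ≥ 1`, `q` a power of the prime `p`, the number of conjugacy classes of elements of order prime to `p` (diagonalisable over the algebraic closure; determined by the characteristic polynomial) is `(q - 1) q^(n-1)`. -/
theorem result {F : Type*} [Field F] [Fintype F] {q : ℕ} (hq : Fintype.card F = q) (p : ℕ) [Fact p.Prime] [CharP F p] (n : ℕ) (hn : 1 ≤ n) :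
    Nat.card {c : ConjClasses (GL (Fin n) F) // ∃ g : GL (Fin n) F, ConjClasses.mk g = c ∧ (orderOf g).Coprime p} = (q - 1) * q ^ (n - 1) := by
  classical
  subst hq
  have hp : p.Prime := Fact.out
  obtain ⟨n', rfl⟩ : ∃ n', n = n' + 1 := ⟨n - 1, by omega⟩
  have hcount := card_monic_coeff_zero (F := F) n' (fun x => x ≠ 0)
  have hnz : Nat.card {x : F // x ≠ 0} = Fintype.card F - 1 := by
    rw [Nat.card_eq_fintype_card, Fintype.card_subtype_compl, Fintype.card_subtype_eq]
  have hΘ : Function.Bijective (fun c : {c : ConjClasses (GL (Fin (n' + 1)) F) //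
      ∃ g : GL (Fin (n' + 1)) F, ConjClasses.mk g = c ∧ (orderOf g).Coprime p} =>
      (⟨((Classical.choose c.2 : GL (Fin (n' + 1)) F) : Matrix (Fin (n' + 1)) (Fin (n' + 1)) F).charpoly,
        GL_charpoly_props (n' + 1) _⟩ :
        {f : F[X] // f.Monic ∧ f.natDegree = n' + 1 ∧ f.coeff 0 ≠ 0})) := by
    constructor
    · intro c c' hcc
      have h1 := Classical.choose_spec c.2
      have h2 := Classical.choose_spec c'.2
      have hch := congrArg Subtype.val hcc
      have hconj := GL_isConj_of_charpoly_eq p _ _ _ h1.2 h2.2 hch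
      apply Subtype.ext
      rw [← h1.1, ← h2.1]
      exact ConjClasses.mk_eq_mk_iff_isConj.mpr hconj
    · rintro ⟨f, hfm, hfn, hf0⟩
      obtain ⟨A, hA, m, hm, hAm⟩ := exists_matrix_charpoly p (n' + 1) f hfm hfn hf0
      have hdet : A.det ≠ 0 := by
        rw [Matrix.det_eq_sign_charpoly_coeff, hA]
        exact mul_ne_zero (pow_ne_zero _ (neg_ne_zero.mpr one_ne_zero)) hf0
      obtain ⟨gA, hgA⟩ : ∃ gA : GL (Fin (n' + 1)) F, (gA : Matrix (Fin (n' + 1)) (Fin (n' + 1)) F) = A :=
        ⟨Matrix.GeneralLinearGroup.mkOfDetNeZero A hdet, rfl⟩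
      have hord : (orderOf gA).Coprime p := by
        have h1 : gA ^ m = 1 := by
          apply Units.ext
          rw [Units.val_pow_eq_pow_val, hgA, hAm, Units.val_one]
        have h2 : orderOf gA ∣ m := orderOf_dvd_of_pow_eq_one h1
        exact Nat.Coprime.coprime_dvd_left h2 ((Nat.Prime.coprime_iff_not_dvd hp).mpr hm).symm
      refine ⟨⟨ConjClasses.mk gA, gA, rfl, hord⟩, ?_⟩
      apply Subtype.ext
      have hex : ∃ g : GL (Fin (n' + 1)) F, ConjClasses.mk g = ConjClasses.mk gA ∧ (orderOf g).Coprime p :=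
        ⟨gA, rfl, hord⟩
      have h1 := Classical.choose_spec hex
      have hconj : IsConj (Classical.choose hex) gA := ConjClasses.mk_eq_mk_iff_isConj.mp h1.1
      obtain ⟨c, hc⟩ := isConj_iff.mp hconj
      have key : ((Classical.choose hex : GL (Fin (n' + 1)) F) : Matrix (Fin (n' + 1)) (Fin (n' + 1)) F).charpoly =
          (gA : Matrix (Fin (n' + 1)) (Fin (n' + 1)) F).charpoly := by
        generalize Classical.choose hex = g' at hc
        rw [← hc, Units.val_mul, Units.val_mul, Matrix.coe_units_inv, Matrix.charpoly_units_conj]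
      show ((Classical.choose hex : GL (Fin (n' + 1)) F) : Matrix (Fin (n' + 1)) (Fin (n' + 1)) F).charpoly = f
      rw [key, hgA, hA]
  rw [Nat.card_congr (Equiv.ofBijective _ hΘ), hcount, hnz]
  simp

end Cfsg.Agent.S2387
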