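import Cfsg.Statements.S2391
-- import your own Cfsg.Agent.* helpers here
import Mathlib

set_option autoImplicit false
open Cfsg

namespace Cfsg.Agent.S2391

open Matrix

variable {F : Type*} [Field F] {n : ℕ}

/-- The ascending "fixed-point" series of a subgroup `U` of `SL_n(F)` on `F^n`. -/
noncomputable def fixSeries (U : Subgroup (Matrix.SpecialLinearGroup (Fin n) F)) :
    ℕ → Submodule F (Fin n → F)
  | 0 => ⊥
  | (j+1) => ⨅ u ∈ U, (fixSeries U j).comap
      (Matrix.mulVecLin (u : Matrix (Fin n) (Fin n) F) - LinearMap.id)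

theorem mem_fixSeries_succ (U : Subgroup (Matrix.SpecialLinearGroup (Fin n) F)) (j : ℕ)
    (v : Fin n → F) :
    v ∈ fixSeries U (j+1) ↔ ∀ u ∈ U, (u : Matrix (Fin n) (Fin n) F).mulVec v - v ∈ fixSeries U j := by
  simp [fixSeries, Submodule.mem_iInf]

theorem fixSeries_le_succ (U : Subgroup (Matrix.SpecialLinearGroup (Fin n) F)) (j : ℕ) :
    fixSeries U j ≤ fixSeries U (j+1) := by
  induction j with
  | zero => simp [fixSeries]
  | succ j ih =>
    intro v hv
    rw [mem_fixSeries_succ] at hv ⊢
    intro u hu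
    exact ih (hv u hu)

theorem fixSeries_normalizer (U : Subgroup (Matrix.SpecialLinearGroup (Fin n) F))
    (g : Matrix.SpecialLinearGroup (Fin n) F)
    (hg : g ∈ Subgroup.normalizer (U : Set (Matrix.SpecialLinearGroup (Fin n) F))) (j : ℕ) :
    ∀ v ∈ fixSeries U j, (g : Matrix (Fin n) (Fin n) F).mulVec v ∈ fixSeries U j := by
  induction j with
  | zero =>
    intro v hv
    simp only [fixSeries, Submodule.mem_bot] at hv ⊢
    rw [hv, Matrix.mulVec_zero]
  | succ j ih =>
    intro v hv
    rw [mem_fixSeries_succ] at hv ⊢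
    intro u hu
    have hu' : g⁻¹ * u * g ∈ U := by
      have := (Subgroup.mem_normalizer_iff.mp (Subgroup.inv_mem _ hg) u).mp hu
      simpa using this
    have h1 := ih _ (hv _ hu')
    have h2 : (g : Matrix (Fin n) (Fin n) F).mulVec
        ((((g⁻¹ * u * g : Matrix.SpecialLinearGroup (Fin n) F)) : Matrix (Fin n) (Fin n) F).mulVec v - v)
        = (u : Matrix (Fin n) (Fin n) F).mulVec ((g : Matrix (Fin n) (Fin n) F).mulVec v)
          - (g : Matrix (Fin n) (Fin n) F).mulVec v := by
      have h3 : (g : Matrix (Fin n) (Fin n) F) *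
          ((g⁻¹ * u * g : Matrix.SpecialLinearGroup (Fin n) F) : Matrix (Fin n) (Fin n) F)
          = (u : Matrix (Fin n) (Fin n) F) * (g : Matrix (Fin n) (Fin n) F) := by
        rw [← Matrix.SpecialLinearGroup.coe_mul, ← Matrix.SpecialLinearGroup.coe_mul]
        rw [show g * (g⁻¹ * u * g) = u * g by group]
      rw [Matrix.mulVec_sub, Matrix.mulVec_mulVec, Matrix.mulVec_mulVec, h3]
    rw [← h2]
    exact h1

theorem fixSeries_map (U : Subgroup (Matrix.SpecialLinearGroup (Fin n) F))
    (g : Matrix.SpecialLinearGroup (Fin n) F)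
    (hg : g ∈ Subgroup.normalizer (U : Set (Matrix.SpecialLinearGroup (Fin n) F))) (j : ℕ) :
    (fixSeries U j).map (Matrix.mulVecLin (g : Matrix (Fin n) (Fin n) F)) = fixSeries U j := by
  apply le_antisymm
  · rintro _ ⟨v, hv, rfl⟩
    exact fixSeries_normalizer U g hg j v hv
  · intro v hv
    refine ⟨(g⁻¹ : Matrix.SpecialLinearGroup (Fin n) F).1.mulVec v,
      fixSeries_normalizer U g⁻¹ (Subgroup.inv_mem _ hg) j v hv, ?_⟩
    simp only [Matrix.mulVecLin_apply, Matrix.mulVec_mulVec]
    rw [← Matrix.SpecialLinearGroup.coe_mul]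
    simp

theorem fixSeries_U (U : Subgroup (Matrix.SpecialLinearGroup (Fin n) F))
    (u : Matrix.SpecialLinearGroup (Fin n) F) (hu : u ∈ U) (j : ℕ) :
    fixSeries U j ≤ (fixSeries U j).comap (Matrix.mulVecLin (u : Matrix (Fin n) (Fin n) F)) := by
  intro v hv
  exact fixSeries_normalizer U u (Subgroup.le_normalizer hu) j v hv

/-- The action of `U` on the quotient by a member of the series. -/
@[instance_reducible] noncomputable def quotAction (U : Subgroup (Matrix.SpecialLinearGroup (Fin n) F)) (j : ℕ) :
    MulAction U ((Fin n → F) ⧸ fixSeries U j) where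
  smul u x := Submodule.mapQ (fixSeries U j) (fixSeries U j)
    (Matrix.mulVecLin (u.1 : Matrix (Fin n) (Fin n) F)) (fixSeries_U U u.1 u.2 j) x
  one_smul x := by
    induction x using Submodule.Quotient.induction_on with
    | _ v =>
      show Submodule.mapQ _ _ _ _ _ = _
      rw [Submodule.mapQ_apply]
      simp
  mul_smul a b x := by
    induction x using Submodule.Quotient.induction_on with
    | _ v =>
      show Submodule.mapQ _ _ _ _ _ = Submodule.mapQ _ _ _ _ (Submodule.mapQ _ _ _ _ _)
      rw [Submodule.mapQ_apply, Submodule.mapQ_apply, Submodule.mapQ_apply]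
      simp [Matrix.mulVec_mulVec]

theorem fixSeries_lt_succ [Fintype F] (p : ℕ) [Fact p.Prime] [CharP F p]
    (U : Subgroup (Matrix.SpecialLinearGroup (Fin n) F)) (hU : IsPGroup p ↥U) (j : ℕ)
    (hj : fixSeries U j ≠ ⊤) : fixSeries U j < fixSeries U (j+1) := by
  refine lt_of_le_of_ne (fixSeries_le_succ U j) ?_
  intro heq
  let _ := quotAction U j
  have hnt : Nontrivial ((Fin n → F) ⧸ fixSeries U j) :=
    Submodule.Quotient.nontrivial_iff.mpr hj
  have hfin : Finite ((Fin n → F) ⧸ fixSeries U j) := inferInstance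
  have hcard : p ∣ Nat.card ((Fin n → F) ⧸ fixSeries U j) := by
    rw [Module.natCard_eq_pow_finrank (K := F)]
    have hpos : 0 < Module.finrank F ((Fin n → F) ⧸ fixSeries U j) := Module.finrank_pos
    have hpF : p ∣ Nat.card F := by
      rw [Nat.card_eq_fintype_card]
      obtain ⟨m, hq, hm⟩ := FiniteField.card F p
      rw [hm]
      exact dvd_pow_self p m.pos.ne'
    exact dvd_trans hpF (dvd_pow_self _ hpos.ne')
  have h0 : (0 : (Fin n → F) ⧸ fixSeries U j) ∈ MulAction.fixedPoints U ((Fin n → F) ⧸ fixSeries U j) := by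
    intro u
    show Submodule.mapQ _ _ _ _ _ = _
    simp
  obtain ⟨b, hb, hb0⟩ := hU.exists_fixed_point_of_prime_dvd_card_of_fixed_point _ hcard h0
  induction b using Submodule.Quotient.induction_on with
  | _ v =>
    have hv : v ∈ fixSeries U (j+1) := by
      rw [mem_fixSeries_succ]
      intro u hu
      have := hb ⟨u, hu⟩
      have h2 : Submodule.mapQ (fixSeries U j) (fixSeries U j)
        (Matrix.mulVecLin (u : Matrix (Fin n) (Fin n) F)) (fixSeries_U U u hu j)
        (Submodule.Quotient.mk v) = Submodule.Quotient.mk v := this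
      rw [Submodule.mapQ_apply, Submodule.Quotient.eq] at h2
      simpa using h2
    rw [← heq] at hv
    apply hb0
    exact ((Submodule.Quotient.mk_eq_zero _).mpr hv).symm

theorem exists_fixSeries_top [Fintype F] (p : ℕ) [Fact p.Prime] [CharP F p]
    (U : Subgroup (Matrix.SpecialLinearGroup (Fin n) F)) (hU : IsPGroup p ↥U) :
    ∃ j, fixSeries U j = ⊤ := by
  by_contra hcon
  push Not at hcon
  have hlt : ∀ j, fixSeries U j < fixSeries U (j+1) := fun j =>
    fixSeries_lt_succ p U hU j (hcon j)
  have hrank : ∀ j, j ≤ Module.finrank F (fixSeries U j) := by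
    intro j
    induction j with
    | zero => exact Nat.zero_le _
    | succ j ih =>
      have := Submodule.finrank_lt_finrank_of_lt (hlt j)
      omega
  have h1 := hrank (n+1)
  have h2 : Module.finrank F (fixSeries U (n+1)) ≤ Module.finrank F (Fin n → F) :=
    Submodule.finrank_le _
  rw [Module.finrank_fin_fun] at h2
  omega

/-- The Borel–Tits property of `SL_n(q)` in flag form: for a field `F` of characteristic `p` with finitely many elements and a non-trivial `p`-subgroup `U` of `SL_n(F)`, there is a flag `0 = V₀ < V₁ < ⋯ < V_{k+1} = F^n` with at least one proper non-zero member such that every element of the normaliser of `U` maps each `V_i` onto itself and every element of `U` acts trivially on each quotient `V_{i+1}/V_i` (so the normaliser lies in the parabolic subgroup of the flag and `U` in its unipotent radical). -/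
theorem result {F : Type*} [Field F] [Fintype F] (p : ℕ) [Fact p.Prime] [CharP F p] (n : ℕ)
    (U : Subgroup (Matrix.SpecialLinearGroup (Fin n) F)) (hU : IsPGroup p ↥U) (hne : U ≠ ⊥) :
    ∃ (k : ℕ) (V : Fin (k + 2) → Submodule F (Fin n → F)), 1 ≤ k ∧ StrictMono V ∧ V 0 = ⊥ ∧ V (Fin.last (k + 1)) = ⊤ ∧
      (∀ g ∈ Subgroup.normalizer (U : Set (Matrix.SpecialLinearGroup (Fin n) F)), ∀ i, (V i).map (Matrix.mulVecLin (g : Matrix (Fin n) (Fin n) F)) = V i) ∧
      (∀ u ∈ U, ∀ i : Fin (k + 1), ∀ v ∈ V i.succ, (u : Matrix (Fin n) (Fin n) F).mulVec v - v ∈ V (Fin.castSucc i)) := by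
  classical
  obtain ⟨j0, hj0⟩ := exists_fixSeries_top p U hU
  have hex : ∃ j, fixSeries U j = ⊤ := ⟨j0, hj0⟩
  set r := Nat.find hex with hr
  have hrtop : fixSeries U r = ⊤ := Nat.find_spec hex
  have hmin : ∀ j, j < r → fixSeries U j ≠ ⊤ := fun j hj => Nat.find_min hex hj
  -- n ≠ 0
  have hn : n ≠ 0 := by
    rintro rfl
    apply hne
    rw [Subgroup.eq_bot_iff_forall]
    intro x _
    apply Subtype.ext
    ext i
    exact i.elim0
  have hr0 : r ≠ 0 := by
    intro h0
    rw [h0] at hrtop
    have : (⊥ : Submodule F (Fin n → F)) = ⊤ := hrtop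
    have hnt : Nontrivial (Fin n → F) := by
      haveI : Nonempty (Fin n) := ⟨⟨0, Nat.pos_of_ne_zero hn⟩⟩
      infer_instance
    exact bot_ne_top this
  have hr1 : r ≠ 1 := by
    intro h1
    rw [h1] at hrtop
    apply hne
    rw [Subgroup.eq_bot_iff_forall]
    intro u hu
    apply Subtype.ext
    have hall : ∀ v : Fin n → F, (u : Matrix (Fin n) (Fin n) F).mulVec v - v = 0 := by
      intro v
      have hv : v ∈ fixSeries U 1 := by rw [hrtop]; trivial
      have := (mem_fixSeries_succ U 0 v).mp hv u hu
      simpa [fixSeries] using this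
    have : Matrix.toLin' (u : Matrix (Fin n) (Fin n) F) = Matrix.toLin' (1 : Matrix (Fin n) (Fin n) F) := by
      apply LinearMap.ext
      intro v
      have := hall v
      simp only [Matrix.toLin'_apply, Matrix.one_mulVec]
      exact sub_eq_zero.mp this
    simpa using Matrix.toLin'.injective this
  refine ⟨r - 1, fun i => fixSeries U i.val, by omega, ?_, ?_, ?_, ?_, ?_⟩
  · rw [Fin.strictMono_iff_lt_succ]
    intro i
    have hi : i.val < r := by have := i.2; omega
    simpa using fixSeries_lt_succ p U hU i.val (hmin _ hi)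
  · rfl
  · have : (Fin.last (r - 1 + 1)).val = r := by simp; omega
    show fixSeries U (Fin.last (r - 1 + 1)).val = ⊤
    rw [this]; exact hrtop
  · intro g hg i
    exact fixSeries_map U g hg _
  · intro u hu i v hv
    have hv' : v ∈ fixSeries U (i.val + 1) := by simpa using hv
    simpa using (mem_fixSeries_succ U i.val v).mp hv' u hu

end Cfsg.Agent.S2391
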