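import Cfsg.Statements.S2392
-- import your own Cfsg.Agent.* helpers here
import Mathlib
import Cfsg.Agent.H45.LS
import Cfsg.Agent.H45.SLTrans

set_option autoImplicit false
open scoped MatrixGroups
open Cfsg

namespace Cfsg.Agent.S2392

open Matrix Cfsg.Agent.H45

section Blocks

variable {F : Type*} [Field F] {m : ℕ}

/-- Block matrices transported to `Fin (1 + m)`. -/
def blk (X : Matrix (Fin 1 ⊕ Fin m) (Fin 1 ⊕ Fin m) F) : Matrix (Fin (1 + m)) (Fin (1 + m)) F :=
  X.submatrix finSumFinEquiv.symm finSumFinEquiv.symm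

theorem blk_mul (X Y : Matrix (Fin 1 ⊕ Fin m) (Fin 1 ⊕ Fin m) F) : blk X * blk Y = blk (X * Y) :=
  Matrix.submatrix_mul_equiv X Y _ _ _

theorem blk_det (X : Matrix (Fin 1 ⊕ Fin m) (Fin 1 ⊕ Fin m) F) : (blk X).det = X.det :=
  Matrix.det_submatrix_equiv_self _ X

theorem blk_apply (X : Matrix (Fin 1 ⊕ Fin m) (Fin 1 ⊕ Fin m) F) (x y : Fin 1 ⊕ Fin m) :
    blk X (finSumFinEquiv x) (finSumFinEquiv y) = X x y := by
  simp [blk]

/-- The root subgroups of the first row: `[1, a; 0, 1]`. -/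
def uSL (a : Fin m → F) : Matrix.SpecialLinearGroup (Fin (1 + m)) F :=
  ⟨blk (fromBlocks 1 (replicateRow (Fin 1) a) 0 1), by
    rw [blk_det, det_fromBlocks_zero₂₁, det_one, det_one, one_mul]⟩

theorem uSL_coe (a : Fin m → F) : (uSL a : Matrix (Fin (1 + m)) (Fin (1 + m)) F) =
    blk (fromBlocks 1 (replicateRow (Fin 1) a) 0 1) := rfl

theorem uSL_add (a b : Fin m → F) : uSL (a + b) = uSL a * uSL b := by
  apply Subtype.ext
  rw [Matrix.SpecialLinearGroup.coe_mul, uSL_coe, uSL_coe, uSL_coe, blk_mul, fromBlocks_multiply]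
  congr 1
  simp [replicateRow_add, add_comm]

/-- The Levi complement `[1, 0; 0, M]`. -/
def gSL (M : Matrix.SpecialLinearGroup (Fin m) F) : Matrix.SpecialLinearGroup (Fin (1 + m)) F :=
  ⟨blk (fromBlocks 1 0 0 (M : Matrix (Fin m) (Fin m) F)), by
    rw [blk_det, det_fromBlocks_zero₂₁, det_one, one_mul, M.2]⟩

theorem gSL_coe (M : Matrix.SpecialLinearGroup (Fin m) F) :
    (gSL M : Matrix (Fin (1 + m)) (Fin (1 + m)) F) =
      blk (fromBlocks 1 0 0 (M : Matrix (Fin m) (Fin m) F)) := rfl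

theorem gSL_conj (M : Matrix.SpecialLinearGroup (Fin m) F) (a : Fin m → F) :
    gSL M * uSL a * (gSL M)⁻¹ =
      uSL (a ᵥ* ((M⁻¹ : Matrix.SpecialLinearGroup (Fin m) F) : Matrix (Fin m) (Fin m) F)) := by
  rw [mul_inv_eq_iff_eq_mul]
  apply Subtype.ext
  rw [Matrix.SpecialLinearGroup.coe_mul, Matrix.SpecialLinearGroup.coe_mul, gSL_coe, uSL_coe, uSL_coe,
    blk_mul, blk_mul, fromBlocks_multiply, fromBlocks_multiply]
  congr 1
  have h1 : ((M⁻¹ : Matrix.SpecialLinearGroup (Fin m) F) : Matrix (Fin m) (Fin m) F) *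
      (M : Matrix (Fin m) (Fin m) F) = 1 := by
    rw [← Matrix.SpecialLinearGroup.coe_mul, inv_mul_cancel, Matrix.SpecialLinearGroup.coe_one]
  simp only [Matrix.one_mul, Matrix.mul_one, Matrix.zero_mul, Matrix.mul_zero, add_zero, zero_add]
  rw [← replicateRow_vecMul, vecMul_vecMul, h1, vecMul_one]

theorem uSL_not_mem_center (a : Fin m → F) (ha : a ≠ 0) :
    uSL a ∉ Subgroup.center (Matrix.SpecialLinearGroup (Fin (1 + m)) F) := by
  intro h
  rw [Matrix.SpecialLinearGroup.mem_center_iff] at h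
  obtain ⟨r, _, hr⟩ := h
  obtain ⟨j, hj⟩ : ∃ j, a j ≠ 0 := by
    by_contra hcon
    push Not at hcon
    exact ha (funext hcon)
  apply hj
  have h1 := congrFun (congrFun hr (finSumFinEquiv (Sum.inl 0))) (finSumFinEquiv (Sum.inr j))
  have hne : (finSumFinEquiv (Sum.inl 0) : Fin (1 + m)) ≠ finSumFinEquiv (Sum.inr j) := by
    intro h2
    exact absurd (finSumFinEquiv.injective h2) (by simp)
  rw [uSL_coe, blk_apply, Matrix.scalar_apply, Matrix.diagonal_apply_ne _ hne] at h1
  simpa using h1.symm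

end Blocks

/-- A lower bound for representations in cross characteristic: for `n ≥ 3` and a field `F` with `q` elements, every homomorphism from `SL_n(F)` to `GL_d(K)`, `K` a field of characteristic different from that of `F`, whose kernel is central has `d ≥ q^(n-1) - 1`. -/
theorem result {F : Type*} [Field F] [Fintype F] {q : ℕ} (hq : Fintype.card F = q) (n : ℕ) (hn : 3 ≤ n)
    {K : Type*} [Field K] (hK : ringChar K ≠ ringChar F) {d : ℕ}
    (ρ : Matrix.SpecialLinearGroup (Fin n) F →* GL (Fin d) K) (hker : ρ.ker ≤ Subgroup.center (Matrix.SpecialLinearGroup (Fin n) F)) :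
    q ^ (n - 1) - 1 ≤ d := by
  classical
  subst hq
  obtain ⟨m, rfl⟩ : ∃ m, n = 1 + m := ⟨n - 1, by omega⟩
  have hm : 2 ≤ m := by omega
  have hsub : 1 + m - 1 = m := by omega
  rw [hsub]
  -- characteristic facts
  have hp : (ringChar F).Prime := CharP.char_is_prime F (ringChar F)
  have : Fact (ringChar F).Prime := ⟨hp⟩
  obtain ⟨k, _, hk⟩ := FiniteField.card F (ringChar F)
  have hpK : ((ringChar F : ℕ) : K) ≠ 0 := by
    intro h0
    rw [ringChar.spec] at h0
    rcases (Nat.Prime.eq_one_or_self_of_dvd hp _ h0) with h1 | h1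
    · exact CharP.ringChar_ne_one h1
    · exact hK h1
  -- the primitive character
  obtain ⟨N, ψ, hψ⟩ := AddChar.FiniteField.primitiveChar F K hK
  have hq : ((Fintype.card F : ℕ) : CyclotomicField N K) ≠ 0 := by
    rw [hk, Nat.cast_pow]
    apply pow_ne_zero
    rw [← map_natCast (algebraMap K (CyclotomicField N K))]
    exact (map_ne_zero _).mpr hpK
  -- the representation over the cyclotomic field
  let R : Matrix.SpecialLinearGroup (Fin (1 + m)) F →* Matrix (Fin d) (Fin d) (CyclotomicField N K) :=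
    ((algebraMap K (CyclotomicField N K)).mapMatrix (m := Fin d)).toMonoidHom.comp
      ((Units.coeHom (Matrix (Fin d) (Fin d) K)).comp ρ)
  have hR : ∀ g, R g = 1 → ρ g = 1 := by
    intro g hg
    apply Units.ext
    have h1 : ((ρ g : GL (Fin d) K) : Matrix (Fin d) (Fin d) K).map (algebraMap K (CyclotomicField N K)) =
        (1 : Matrix (Fin d) (Fin d) K).map (algebraMap K (CyclotomicField N K)) := by
      rw [Matrix.map_one _ (map_zero _) (map_one _)]
      exact hg
    exact Matrix.map_injective (algebraMap K (CyclotomicField N K)).injective h1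
  have hu : ∀ a b : Fin m → F, uSL (a + b) = uSL a * uSL b := uSL_add
  have ha₀ : (fun _ : Fin m => (1 : F)) ≠ 0 := by
    intro h
    have := congrFun h ⟨0, by omega⟩
    simp at this
  obtain ⟨l₀, hl₀S, hl₀⟩ := exists_lsIdem_ne_zero ψ R uSL hψ hq hu
    (fun _ : Fin m => (1 : F))
    (by
      intro h1
      exact uSL_not_mem_center _ ha₀ (hker (MonoidHom.mem_ker.mpr (hR _ h1))))
    {l | l ≠ 0}
    (by
      intro l hl
      have : l = 0 := by simpa using hl
      rw [this, zero_dotProduct, AddChar.map_zero_eq_one])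
  have hall : ∀ μ : Fin m → F, μ ≠ 0 → lsIdem ψ R uSL μ ≠ 0 := by
    intro μ hμ
    obtain ⟨M, hM⟩ := SL_transitive hm l₀ μ hl₀S hμ
    have hMM : ((M⁻¹ : Matrix.SpecialLinearGroup (Fin m) F) : Matrix (Fin m) (Fin m) F) *
        (M : Matrix (Fin m) (Fin m) F) = 1 := by
      rw [← Matrix.SpecialLinearGroup.coe_mul, inv_mul_cancel, Matrix.SpecialLinearGroup.coe_one]
    have hMM' : (M : Matrix (Fin m) (Fin m) F) *
        ((M⁻¹ : Matrix.SpecialLinearGroup (Fin m) F) : Matrix (Fin m) (Fin m) F) = 1 := by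
      rw [← Matrix.SpecialLinearGroup.coe_mul, mul_inv_cancel, Matrix.SpecialLinearGroup.coe_one]
    let σ : (Fin m → F) ≃ (Fin m → F) :=
      { toFun := fun a => a ᵥ* ((M⁻¹ : Matrix.SpecialLinearGroup (Fin m) F) : Matrix (Fin m) (Fin m) F)
        invFun := fun a => a ᵥ* (M : Matrix (Fin m) (Fin m) F)
        left_inv := fun a => by
          show (a ᵥ* _) ᵥ* _ = a
          rw [vecMul_vecMul, hMM, vecMul_one]
        right_inv := fun a => by
          show (a ᵥ* _) ᵥ* _ = a
          rw [vecMul_vecMul, hMM', vecMul_one] }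
    refine lsIdem_ne_zero_of_conj ψ R uSL (gSL M) σ l₀ μ (gSL_conj M) ?_ hl₀
    intro a
    show l₀ ⬝ᵥ a = μ ⬝ᵥ (a ᵥ* ((M⁻¹ : Matrix.SpecialLinearGroup (Fin m) F) : Matrix (Fin m) (Fin m) F))
    rw [dotProduct_comm μ, ← dotProduct_mulVec, ← hM, mulVec_mulVec, hMM, one_mulVec, dotProduct_comm]
  have hcard := card_lsIdem_ne_zero_le ψ R uSL hψ hq hu
  have h1 : Nat.card {l : Fin m → F // l ≠ 0} = Fintype.card F ^ m - 1 := by
    rw [Nat.card_eq_fintype_card, Fintype.card_subtype_compl, Fintype.card_subtype_eq,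
      Fintype.card_fun, Fintype.card_fin]
  have h2 : Nat.card {l : Fin m → F // l ≠ 0} ≤ Nat.card {l : Fin m → F // lsIdem ψ R uSL l ≠ 0} :=
    Nat.card_le_card_of_injective (fun l => ⟨l.1, hall l.1 l.2⟩)
      (fun a b hab => Subtype.ext (by
        have := congrArg (fun x : {l : Fin m → F // lsIdem ψ R uSL l ≠ 0} => x.1) hab
        exact this))
  omega

end Cfsg.Agent.S2392
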