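import Cfsg.Statements.S2393
-- import your own Cfsg.Agent.* helpers here
import Mathlib
import Cfsg.Agent.H45.LS
import Cfsg.Agent.H45.SpLS

set_option autoImplicit false
open scoped MatrixGroups
open Cfsg

namespace Cfsg.Agent.S2393

open Matrix Cfsg.Agent.H45

/-- A lower bound for representations in cross characteristic: for `n ≥ 2` and a field `F` with `q` elements, `q` odd, every homomorphism from the symplectic group `Sp_{2n}(F)` to `GL_d(K)`, `K` a field of characteristic different from that of `F`, whose kernel is central has `d ≥ q^(n-1)(q-1)/2`. -/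
theorem result {F : Type*} [Field F] [Fintype F] {q : ℕ} (hq : Fintype.card F = q) (hodd : Odd q) (n : ℕ) (hn : 2 ≤ n)
    {K : Type*} [Field K] (hK : ringChar K ≠ ringChar F) {d : ℕ}
    (ρ : ↥(Matrix.symplecticGroup (Fin n) F) →* GL (Fin d) K) (hker : ρ.ker ≤ Subgroup.center ↥(Matrix.symplecticGroup (Fin n) F)) :
    q ^ (n - 1) * (q - 1) / 2 ≤ d := by
  classical
  subst hq
  obtain ⟨n', rfl⟩ : ∃ n', n = n' + 1 := ⟨n - 1, by omega⟩
  simp only [Nat.add_sub_cancel]
  -- characteristic facts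
  have hp : (ringChar F).Prime := CharP.char_is_prime F (ringChar F)
  have : Fact (ringChar F).Prime := ⟨hp⟩
  obtain ⟨k, _, hk⟩ := FiniteField.card F (ringChar F)
  have hpK : ((ringChar F : ℕ) : K) ≠ 0 := by
    intro h0
    rw [ringChar.spec] at h0
    rcases (Nat.Prime.eq_one_or_self_of_dvd hp _ h0) with h1 | h1
    · exact CharP.ringChar_ne_one h1
    · exact hK h1
  have h2F : (2 : F) ≠ 0 := by
    apply Ring.two_ne_zero
    intro h2
    rw [FiniteField.even_card_iff_char_two] at h2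
    rcases hodd with ⟨t, ht⟩
    omega
  -- the primitive character
  obtain ⟨N, ψ, hψ⟩ := AddChar.FiniteField.primitiveChar F K hK
  have hq : ((Fintype.card F : ℕ) : CyclotomicField N K) ≠ 0 := by
    rw [hk, Nat.cast_pow]
    apply pow_ne_zero
    rw [← map_natCast (algebraMap K (CyclotomicField N K))]
    exact (map_ne_zero _).mpr hpK
  let R : ↥(Matrix.symplecticGroup (Fin (n' + 1)) F) →* Matrix (Fin d) (Fin d) (CyclotomicField N K) :=
    ((algebraMap K (CyclotomicField N K)).mapMatrix (m := Fin d)).toMonoidHom.comp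
      ((Units.coeHom (Matrix (Fin d) (Fin d) K)).comp ρ)
  have hR : ∀ g, R g = 1 → ρ g = 1 := by
    intro g hg
    apply Units.ext
    have h1 : ((ρ g : GL (Fin d) K) : Matrix (Fin d) (Fin d) K).map (algebraMap K (CyclotomicField N K)) =
        (1 : Matrix (Fin d) (Fin d) K).map (algebraMap K (CyclotomicField N K)) := by
      rw [Matrix.map_one _ (map_zero _) (map_one _)]
      exact hg
    exact Matrix.map_injective (algebraMap K (CyclotomicField N K)).injective h1
  have hu : ∀ a b : Fin (n' + 1) → F, uSp 0 (a + b) = uSp 0 a * uSp 0 b := uSp_add 0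
  have hS0 : symS (0 : Fin (n' + 1)) (Pi.single 0 (1 : F)) ≠ 0 := by
    intro h
    have h1 := congrFun (congrFun h 0) 0
    simp only [symS, Matrix.add_apply, vecMulVec_apply, Pi.single_eq_same, mul_one,
      Matrix.zero_apply] at h1
    apply h2F
    linear_combination h1
  obtain ⟨l₀, hl₀S, hl₀⟩ := exists_lsIdem_ne_zero ψ R (uSp 0) hψ hq hu (Pi.single 0 1)
    (by
      intro h1
      exact uSp_not_mem_center 0 _ hS0 (hker (MonoidHom.mem_ker.mpr (hR _ h1))))
    {l | l 0 ≠ 0}
    (by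
      intro l hl
      have h0 : l 0 = 0 := by simpa using hl
      rw [dotProduct_single, h0, zero_mul, AddChar.map_zero_eq_one])
  have hl₀0 : l₀ 0 ≠ 0 := hl₀S
  -- diagonal moves
  have hD : ∀ c : F, c ≠ 0 → lsIdem ψ R (uSp 0)
      (fun j => l₀ j / (c * Function.update (1 : Fin (n' + 1) → F) 0 c j)) ≠ 0 := by
    intro c hc
    have hdc0 : ∀ j, Function.update (1 : Fin (n' + 1) → F) 0 c j ≠ 0 := by
      intro j
      by_cases hj : j = 0
      · subst hj; simpa using hc
      · simp [Function.update_of_ne hj]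
    have hAB : diagonal (Function.update (1 : Fin (n' + 1) → F) 0 c) *
        diagonal (fun j => (Function.update (1 : Fin (n' + 1) → F) 0 c j)⁻¹) = 1 := by
      rw [diagonal_mul_diagonal, ← diagonal_one]
      congr 1
      funext j
      exact mul_inv_cancel₀ (hdc0 j)
    have hBA : diagonal (fun j => (Function.update (1 : Fin (n' + 1) → F) 0 c j)⁻¹) *
        diagonal (Function.update (1 : Fin (n' + 1) → F) 0 c) = 1 := by
      rw [diagonal_mul_diagonal, ← diagonal_one]
      congr 1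
      funext j
      exact inv_mul_cancel₀ (hdc0 j)
    have hA : diagonal (Function.update (1 : Fin (n' + 1) → F) 0 c) *ᵥ Pi.single 0 1 =
        c • (Pi.single 0 1 : Fin (n' + 1) → F) := by
      rw [diagonal_mulVec_single]
      funext j
      by_cases hj : j = 0
      · subst hj; simp
      · simp [Pi.single_eq_of_ne hj]
    let σ : (Fin (n' + 1) → F) ≃ (Fin (n' + 1) → F) :=
      { toFun := fun a => c • diagonal (Function.update (1 : Fin (n' + 1) → F) 0 c) *ᵥ a
        invFun := fun a => c⁻¹ • diagonal (fun j => (Function.update (1 : Fin (n' + 1) → F) 0 c j)⁻¹) *ᵥ a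
        left_inv := fun a => by
          show c⁻¹ • _ *ᵥ (c • _ *ᵥ a) = a
          rw [mulVec_smul, smul_smul, inv_mul_cancel₀ hc, one_smul, mulVec_mulVec, hBA, one_mulVec]
        right_inv := fun a => by
          show c • _ *ᵥ (c⁻¹ • _ *ᵥ a) = a
          rw [mulVec_smul, smul_smul, mul_inv_cancel₀ hc, one_smul, mulVec_mulVec, hAB, one_mulVec] }
    refine lsIdem_ne_zero_of_conj ψ R (uSp 0) (gSp _ _ hAB) σ l₀ _
      (gSp_conj 0 _ _ hAB hBA c hc hA) ?_ hl₀
    intro a
    show l₀ ⬝ᵥ a = (fun j => l₀ j / (c * Function.update (1 : Fin (n' + 1) → F) 0 c j)) ⬝ᵥ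
      (c • diagonal (Function.update (1 : Fin (n' + 1) → F) 0 c) *ᵥ a)
    simp only [dotProduct, mulVec_diagonal, Pi.smul_apply, smul_eq_mul]
    refine Finset.sum_congr rfl (fun j _ => ?_)
    have := hdc0 j
    field_simp
  -- transvection moves
  have hT : ∀ (μ w : Fin (n' + 1) → F), w 0 = 0 → lsIdem ψ R (uSp 0) μ ≠ 0 →
      lsIdem ψ R (uSp 0) (μ - μ 0 • w) ≠ 0 := by
    intro μ w hw hμ
    have hwe : w ⬝ᵥ (Pi.single 0 1 : Fin (n' + 1) → F) = 0 := by
      rw [dotProduct_single, hw, zero_mul]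
    have hww : vecMulVec (Pi.single 0 1 : Fin (n' + 1) → F) w *
        vecMulVec (Pi.single 0 1 : Fin (n' + 1) → F) w = 0 := by
      rw [vecMulVec_mul, vecMul_vecMulVec, hwe]
      simp
    have hAB : (1 + vecMulVec (Pi.single 0 1 : Fin (n' + 1) → F) w) *
        (1 - vecMulVec (Pi.single 0 1 : Fin (n' + 1) → F) w) = 1 := by
      rw [mul_sub, mul_one, add_mul, one_mul, hww]
      abel
    have hBA : (1 - vecMulVec (Pi.single 0 1 : Fin (n' + 1) → F) w) *
        (1 + vecMulVec (Pi.single 0 1 : Fin (n' + 1) → F) w) = 1 := by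
      rw [mul_add, mul_one, sub_mul, one_mul, hww]
      abel
    have hA : (1 + vecMulVec (Pi.single 0 1 : Fin (n' + 1) → F) w) *ᵥ Pi.single 0 1 =
        (1 : F) • (Pi.single 0 1 : Fin (n' + 1) → F) := by
      rw [add_mulVec, one_mulVec, vecMulVec_mulVec, hwe]
      simp
    let σ : (Fin (n' + 1) → F) ≃ (Fin (n' + 1) → F) :=
      { toFun := fun a => (1 : F) • (1 + vecMulVec (Pi.single 0 1 : Fin (n' + 1) → F) w) *ᵥ a
        invFun := fun a => (1 - vecMulVec (Pi.single 0 1 : Fin (n' + 1) → F) w) *ᵥ a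
        left_inv := fun a => by
          show _ *ᵥ ((1 : F) • _ *ᵥ a) = a
          rw [one_smul, mulVec_mulVec, hBA, one_mulVec]
        right_inv := fun a => by
          show (1 : F) • _ *ᵥ (_ *ᵥ a) = a
          rw [one_smul, mulVec_mulVec, hAB, one_mulVec] }
    refine lsIdem_ne_zero_of_conj ψ R (uSp 0) (gSp _ _ hAB) σ μ (μ - μ 0 • w)
      (gSp_conj 0 _ _ hAB hBA 1 one_ne_zero hA) ?_ hμ
    intro a
    show μ ⬝ᵥ a = (μ - μ 0 • w) ⬝ᵥ ((1 : F) • (1 + vecMulVec (Pi.single 0 1 : Fin (n' + 1) → F) w) *ᵥ a)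
    rw [one_smul, add_mulVec, one_mulVec, vecMulVec_mulVec]
    have hop : MulOpposite.op (w ⬝ᵥ a) • (Pi.single 0 1 : Fin (n' + 1) → F) =
        (w ⬝ᵥ a) • (Pi.single 0 1 : Fin (n' + 1) → F) := by
      funext j
      simp [mul_comm]
    rw [hop, dotProduct_add, sub_dotProduct, sub_dotProduct, smul_dotProduct, smul_dotProduct,
      dotProduct_smul, dotProduct_smul, dotProduct_single, dotProduct_single, hw]
    simp only [smul_eq_mul]
    ring
  -- the family of non-vanishing projections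
  have hfam : ∀ (c : Fˣ) (ν : Fin n' → F),
      lsIdem ψ R (uSp 0) (Fin.cons (l₀ 0 / ((c : F) * c)) ν : Fin (n' + 1) → F) ≠ 0 := by
    intro c ν
    have h1 := hD c c.ne_zero
    have hμ0 : (fun j => l₀ j / ((c : F) * Function.update (1 : Fin (n' + 1) → F) 0 (c : F) j)) 0 =
        l₀ 0 / ((c : F) * c) := by simp
    have hμ0ne : l₀ 0 / ((c : F) * c) ≠ 0 :=
      div_ne_zero hl₀0 (mul_ne_zero c.ne_zero c.ne_zero)
    have h2 := hT _ ((l₀ 0 / ((c : F) * c))⁻¹ •
      ((fun j => l₀ j / ((c : F) * Function.update (1 : Fin (n' + 1) → F) 0 (c : F) j)) -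
        (Fin.cons (l₀ 0 / ((c : F) * c)) ν : Fin (n' + 1) → F))) (by simp) h1
    have h3 : (fun j => l₀ j / ((c : F) * Function.update (1 : Fin (n' + 1) → F) 0 (c : F) j)) -
        (fun j => l₀ j / ((c : F) * Function.update (1 : Fin (n' + 1) → F) 0 (c : F) j)) 0 •
        ((l₀ 0 / ((c : F) * c))⁻¹ •
      ((fun j => l₀ j / ((c : F) * Function.update (1 : Fin (n' + 1) → F) 0 (c : F) j)) -
        (Fin.cons (l₀ 0 / ((c : F) * c)) ν : Fin (n' + 1) → F))) =
        (Fin.cons (l₀ 0 / ((c : F) * c)) ν : Fin (n' + 1) → F) := by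
      rw [hμ0, smul_smul, mul_inv_cancel₀ hμ0ne, one_smul, sub_sub_cancel]
    rw [h3] at h2
    exact h2
  -- counting
  have hcard := card_lsIdem_ne_zero_le ψ R (uSp 0) hψ hq hu
  rw [Nat.card_eq_fintype_card] at hcard
  have hfib : ∀ b ∈ (Finset.univ.image (fun x : Fˣ × (Fin n' → F) =>
      (⟨Fin.cons (l₀ 0 / ((x.1 : F) * x.1)) x.2, hfam x.1 x.2⟩ :
        {l : Fin (n' + 1) → F // lsIdem ψ R (uSp 0) l ≠ 0}))),
      (Finset.univ.filter (fun x : Fˣ × (Fin n' → F) =>
        (⟨Fin.cons (l₀ 0 / ((x.1 : F) * x.1)) x.2, hfam x.1 x.2⟩ :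
          {l : Fin (n' + 1) → F // lsIdem ψ R (uSp 0) l ≠ 0}) = b)).card ≤ 2 := by
    intro b hb
    obtain ⟨⟨c₀, ν₀⟩, -, rfl⟩ := Finset.mem_image.mp hb
    have hsub : Finset.univ.filter (fun x : Fˣ × (Fin n' → F) =>
        (⟨Fin.cons (l₀ 0 / ((x.1 : F) * x.1)) x.2, hfam x.1 x.2⟩ :
          {l : Fin (n' + 1) → F // lsIdem ψ R (uSp 0) l ≠ 0}) =
          ⟨Fin.cons (l₀ 0 / ((c₀ : F) * c₀)) ν₀, hfam c₀ ν₀⟩) ⊆ {(c₀, ν₀), (-c₀, ν₀)} := by
      intro x hx
      rw [Finset.mem_filter] at hx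
      have h1 := congrArg Subtype.val hx.2
      simp only at h1
      rw [Fin.cons_inj] at h1
      obtain ⟨h2, h3⟩ := h1
      have hx0 : (x.1 : F) ≠ 0 := x.1.ne_zero
      have hc0 : (c₀ : F) ≠ 0 := c₀.ne_zero
      have h4 : (x.1 : F) * x.1 = (c₀ : F) * c₀ := by
        field_simp at h2
        rw [← sq, ← sq]
        exact h2.symm
      have h5 : ((x.1 : F) - c₀) * ((x.1 : F) + c₀) = 0 := by linear_combination h4
      rw [Finset.mem_insert, Finset.mem_singleton]
      rcases mul_eq_zero.mp h5 with h6 | h6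
      · left
        exact Prod.ext (Units.ext (sub_eq_zero.mp h6)) h3
      · right
        refine Prod.ext (Units.ext ?_) h3
        rw [Units.val_neg]
        exact eq_neg_of_add_eq_zero_left h6
    exact (Finset.card_le_card hsub).trans Finset.card_le_two
  have h1 := Finset.card_le_mul_card_image (Finset.univ : Finset (Fˣ × (Fin n' → F))) 2 hfib
  have h2 := Finset.card_le_univ (Finset.univ.image (fun x : Fˣ × (Fin n' → F) =>
      (⟨Fin.cons (l₀ 0 / ((x.1 : F) * x.1)) x.2, hfam x.1 x.2⟩ :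
        {l : Fin (n' + 1) → F // lsIdem ψ R (uSp 0) l ≠ 0})))
  have h3 : (Finset.univ : Finset (Fˣ × (Fin n' → F))).card =
      (Fintype.card F - 1) * Fintype.card F ^ n' := by
    rw [Finset.card_univ, Fintype.card_prod, Fintype.card_units, Fintype.card_fun, Fintype.card_fin]
  apply Nat.div_le_of_le_mul
  rw [mul_comm (Fintype.card F ^ n')]
  omega

end Cfsg.Agent.S2393
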