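import Cfsg.Statements.S2395
-- import your own Cfsg.Agent.* helpers here

set_option autoImplicit false
open Cfsg

namespace Cfsg.Agent.S2395

open Cfsg.Lie
open scoped commutatorElement

/-- One certificate step: try to establish a new root from the pair `(r, s)`. -/
def stepRoot (D : ChevalleyDatum) (est : List ℕ) (r s : ℕ) (lam : Bool) : Option ℕ :=
  if r < D.nroots ∧ s < D.nroots ∧ s ≠ r ∧ s ≠ D.neg r then
    match D.commTerms r s with
    | [] => none
    | (k1, c1, i1, j1) :: rest1 =>
      if lam = false then
        if i1 = 1 ∧ j1 = 1 ∧ (c1 = 1 ∨ c1 = -1) ∧ (∀ c ∈ rest1, c.1 ∈ est) then some k1 else none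
      else
        match rest1 with
        | [] => none
        | (k2, c2, i2, j2) :: rest2 =>
          if i1 = 1 ∧ j1 = 1 ∧ i2 = 2 ∧ j2 = 1 ∧ (c2 = 1 ∨ c2 = -1) ∧ (∀ c ∈ rest2, c.1 ∈ est) then some k2
          else none
  else none

/-- Run a certificate: a list of steps `(r, s, lam)`, accumulating the established roots. -/
def runCert (D : ChevalleyDatum) : List ℕ → List (ℕ × ℕ × Bool) → Option (List ℕ)
  | est, [] => some est
  | est, st :: rest =>
    match stepRoot D est st.1 st.2.1 st.2.2 with
    | some k => runCert D (k :: est) rest
    | none => none

/-- The certificate establishes every root. -/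
def certOK (D : ChevalleyDatum) (cert : List (ℕ × ℕ × Bool)) : Bool :=
  match runCert D [] cert with
  | some est => (List.range D.nroots).all (fun k => decide (k ∈ est))
  | none => false

section
variable {K : Type*} [Field K] (D : ChevalleyDatum)

theorem scGen_of_ge (k : ℕ) (h : ¬ k < D.nroots) (t : K) : D.scGen K k t = 1 := by
  simp [ChevalleyDatum.scGen, ChevalleyDatum.stX, h]

theorem scGen_add (k : ℕ) (a b : K) : D.scGen K k (a + b) = D.scGen K k a * D.scGen K k b := by
  by_cases h : k < D.nroots
  · have hmem : D.stX k a * D.stX k b * (D.stX k (a + b))⁻¹ ∈ D.steinbergRelsAB K :=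
      Or.inl ⟨k, a, b, h, rfl⟩
    have h1 := PresentedGroup.one_of_mem hmem
    rw [map_mul, map_inv, mul_inv_eq_one, map_mul] at h1
    exact h1.symm
  · simp [scGen_of_ge D k h]

theorem scGen_zero (k : ℕ) : D.scGen K k (0 : K) = 1 := by
  have h := scGen_add D k (0 : K) 0
  rw [add_zero] at h
  exact (mul_eq_left.mp h.symm)

theorem scGen_neg (k : ℕ) (a : K) : D.scGen K k (-a) = (D.scGen K k a)⁻¹ := by
  rw [eq_inv_iff_mul_eq_one, ← scGen_add, neg_add_cancel, scGen_zero]

theorem mk_stWord (w : List (ℕ × K)) :
    PresentedGroup.mk (D.steinbergRelsAB K) (D.stWord w) = (w.map fun p => D.scGen K p.1 p.2).prod := by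
  unfold ChevalleyDatum.stWord
  rw [map_list_prod, List.map_map]
  rfl

theorem comm_rel (r s : ℕ) (hr : r < D.nroots) (hs : s < D.nroots) (h1 : s ≠ r) (h2 : s ≠ D.neg r)
    (t u : K) :
    ⁅(D.scGen K s u)⁻¹, (D.scGen K r t)⁻¹⁆ =
      ((D.commWord K r s t u).map fun p => D.scGen K p.1 p.2).prod := by
  have hmem : (D.stX s u)⁻¹ * (D.stX r t)⁻¹ * D.stX s u * D.stX r t *
      (D.stWord (D.commWord K r s t u))⁻¹ ∈ D.steinbergRelsAB K :=
    Or.inr ⟨r, s, t, u, hr, hs, h1, h2, rfl⟩
  have h := PresentedGroup.one_of_mem hmem
  rw [map_mul, map_inv, mul_inv_eq_one] at h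
  rw [← mk_stWord, ← h, commutatorElement_def]
  simp [ChevalleyDatum.scGen]

/-- All root elements `x̄_k(t)` lie in the commutator subgroup. -/
def InC (K : Type*) [Field K] (D : ChevalleyDatum) (k : ℕ) : Prop :=
  ∀ t : K, D.scGen K k t ∈ commutator (D.SteinbergCover K)

theorem comm_mem (a b : D.SteinbergCover K) : ⁅a, b⁆ ∈ commutator (D.SteinbergCover K) :=
  Subgroup.commutator_mem_commutator (Subgroup.mem_top a) (Subgroup.mem_top b)

theorem tail_mem (rest : List (ℕ × ℤ × ℕ × ℕ)) (h : ∀ c ∈ rest, InC K D c.1) (t u : K) :
    ((rest.map fun c => (c.1, (c.2.1 : K) * (-t) ^ c.2.2.1 * u ^ c.2.2.2)).map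
      fun p => D.scGen K p.1 p.2).prod ∈ commutator (D.SteinbergCover K) := by
  induction rest with
  | nil => simp
  | cons c rest ih =>
    simp only [List.map_cons, List.prod_cons]
    exact Subgroup.mul_mem _ (h c (by simp) _) (ih (fun c hc => h c (by simp [hc])))

theorem int_sq_one (c : ℤ) (hc : c = 1 ∨ c = -1) : (c : K) * (c : K) = 1 := by
  rcases hc with rfl | rfl <;> simp

theorem stepRoot_sound (est : List ℕ) (r s : ℕ) (lam : Bool) (k : ℕ)
    (hest : ∀ e ∈ est, InC K D e) (hlam : lam = true → ∃ x : K, x ≠ 0 ∧ x ≠ 1)
    (h : stepRoot D est r s lam = some k) : InC K D k := by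
  by_cases hv : r < D.nroots ∧ s < D.nroots ∧ s ≠ r ∧ s ≠ D.neg r
  · rw [stepRoot, if_pos hv] at h
    obtain ⟨hr, hs, h1, h2⟩ := hv
    have hrel := comm_rel (K := K) D r s hr hs h1 h2
    unfold ChevalleyDatum.commWord at hrel
    cases hct : D.commTerms r s with
    | nil => rw [hct] at h; simp at h
    | cons c1 rest1 =>
      obtain ⟨k1, c1, i1, j1⟩ := c1
      rw [hct] at h hrel
      simp only at h
      cases lam with
      | false =>
        rw [if_pos rfl] at h
        split_ifs at h with hc
        obtain ⟨rfl, rfl, hc1, hrest⟩ := hc
        injection h with h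
        subst h
        have key : ∀ t u : K, D.scGen K k1 ((c1 : K) * (-t) ^ 1 * u ^ 1) ∈
            commutator (D.SteinbergCover K) := by
          intro t u
          have h3 := hrel t u
          simp only [List.map_cons, List.prod_cons] at h3
          have h4 := tail_mem (K := K) D rest1 (fun c hc => hest _ (hrest c hc)) t u
          have h5 := comm_mem D (D.scGen K s u)⁻¹ (D.scGen K r t)⁻¹
          rw [h3] at h5
          exact (Subgroup.mul_mem_cancel_right _ h4).mp h5
        intro t'
        have h6 := key (-((c1 : K) * t')) 1
        have h7 : (c1 : K) * (-(-((c1 : K) * t'))) ^ 1 * (1 : K) ^ 1 = t' := by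
          rw [neg_neg, pow_one, one_pow, mul_one, ← mul_assoc, int_sq_one c1 hc1, one_mul]
        rwa [h7] at h6
      | true =>
        rw [if_neg (by simp)] at h
        cases rest1 with
        | nil => simp at h
        | cons c2 rest2 =>
          obtain ⟨k2, c2, i2, j2⟩ := c2
          simp only at h
          split_ifs at h with hc
          obtain ⟨rfl, rfl, rfl, rfl, hc2, hrest⟩ := hc
          injection h with h
          subst h
          have key : ∀ t u : K, D.scGen K k1 ((c1 : K) * (-t) ^ 1 * u ^ 1) *
              D.scGen K k2 ((c2 : K) * (-t) ^ 2 * u ^ 1) ∈ commutator (D.SteinbergCover K) := by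
            intro t u
            have h3 := hrel t u
            simp only [List.map_cons, List.prod_cons] at h3
            have h4 := tail_mem (K := K) D rest2 (fun c hc => hest _ (hrest c hc)) t u
            have h5 := comm_mem D (D.scGen K s u)⁻¹ (D.scGen K r t)⁻¹
            rw [h3, ← mul_assoc] at h5
            exact (Subgroup.mul_mem_cancel_right _ h4).mp h5
          obtain ⟨l, hl0, hl1⟩ := hlam rfl
          have hl1' : l - 1 ≠ 0 := sub_ne_zero.mpr hl1
          intro t'
          set u : K := (c2 : K) * (l - 1)⁻¹ * t' with hu
          have hA := key 1 u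
          have hB := key l (u / l)
          have e1 : (c1 : K) * (-l) ^ 1 * (u / l) ^ 1 = (c1 : K) * (-1) ^ 1 * u ^ 1 := by
            field_simp
          rw [e1] at hB
          have hAB := Subgroup.mul_mem _ (Subgroup.inv_mem _ hA) hB
          have e2 : (D.scGen K k1 ((c1 : K) * (-1) ^ 1 * u ^ 1) *
              D.scGen K k2 ((c2 : K) * (-1) ^ 2 * u ^ 1))⁻¹ *
              (D.scGen K k1 ((c1 : K) * (-1) ^ 1 * u ^ 1) *
              D.scGen K k2 ((c2 : K) * (-l) ^ 2 * (u / l) ^ 1)) = D.scGen K k2 t' := by
            rw [mul_inv_rev, mul_assoc, inv_mul_cancel_left, ← scGen_neg, ← scGen_add]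
            congr 1
            have hc := int_sq_one (K := K) c2 hc2
            rw [hu]
            field_simp
            linear_combination (t' * l - t') * hc
          rwa [e2] at hAB
  · rw [stepRoot, if_neg hv] at h
    simp at h

theorem runCert_sound (hlam : ∃ x : K, x ≠ 0 ∧ x ≠ 1) :
    ∀ (cert : List (ℕ × ℕ × Bool)) (est est' : List ℕ), (∀ e ∈ est, InC K D e) →
      runCert D est cert = some est' → ∀ e ∈ est', InC K D e := by
  intro cert
  induction cert with
  | nil =>
    intro est est' hest h
    simp only [runCert, Option.some.injEq] at h
    subst h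
    exact hest
  | cons st rest ih =>
    intro est est' hest h
    rw [runCert] at h
    cases hs : stepRoot D est st.1 st.2.1 st.2.2 with
    | none => rw [hs] at h; simp at h
    | some k =>
      rw [hs] at h
      simp only at h
      refine ih (k :: est) est' ?_ h
      intro e he
      rcases List.mem_cons.mp he with rfl | he
      · exact stepRoot_sound D est _ _ _ _ hest (fun _ => hlam) hs
      · exact hest e he

theorem runCert_sound' :
    ∀ (cert : List (ℕ × ℕ × Bool)) (est est' : List ℕ), (∀ st ∈ cert, st.2.2 = false) →
      (∀ e ∈ est, InC K D e) → runCert D est cert = some est' → ∀ e ∈ est', InC K D e := by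
  intro cert
  induction cert with
  | nil =>
    intro est est' _ hest h
    simp only [runCert, Option.some.injEq] at h
    subst h
    exact hest
  | cons st rest ih =>
    intro est est' hf hest h
    rw [runCert] at h
    cases hs : stepRoot D est st.1 st.2.1 st.2.2 with
    | none => rw [hs] at h; simp at h
    | some k =>
      rw [hs] at h
      simp only at h
      refine ih (k :: est) est' (fun st' hst' => hf st' (by simp [hst'])) ?_ h
      intro e he
      rcases List.mem_cons.mp he with rfl | he
      · refine stepRoot_sound D est _ _ _ _ hest (fun hl => ?_) hs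
        rw [hf st (by simp)] at hl
        exact absurd hl (by simp)
      · exact hest e he

theorem perfect_of_cert (cert : List (ℕ × ℕ × Bool)) (hcert : certOK D cert = true)
    (hlam : (∃ x : K, x ≠ 0 ∧ x ≠ 1) ∨ ∀ st ∈ cert, st.2.2 = false) :
    commutator (D.SteinbergCover K) = ⊤ := by
  unfold certOK at hcert
  cases hrun : runCert D [] cert with
  | none => rw [hrun] at hcert; simp at hcert
  | some est =>
    rw [hrun] at hcert
    simp only [List.all_eq_true, List.mem_range, decide_eq_true_eq] at hcert
    have hall : ∀ e ∈ est, InC K D e := by
      rcases hlam with hlam | hlam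
      · exact runCert_sound D hlam cert [] est (by simp) hrun
      · exact runCert_sound' D cert [] est hlam (by simp) hrun
    rw [eq_top_iff]
    intro x _
    refine PresentedGroup.generated_by _ _ ?_ x
    rintro ⟨⟨k, hk⟩, t⟩
    have h := hall k (hcert k hk) t
    have e : D.scGen K k t = PresentedGroup.of (⟨k, hk⟩, t) := by
      simp [ChevalleyDatum.scGen, ChevalleyDatum.stX, hk, PresentedGroup.of]
    rwa [e] at h

end

def certG2 : List (ℕ × ℕ × Bool) := [(0, (6, false)), (0, (10, false)), (1, (5, false)), (1, (11, false)), (5, (11, false)), (6, (10, false)), (2, (10, true)), (1, (7, false)), (2, (10, false)), (3, (6, false)), (2, (11, false)), (3, (11, false))]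
def certB2 : List (ℕ × ℕ × Bool) := [(1, (4, true)), (1, (4, false)), (2, (3, false)), (1, (7, true)), (1, (7, false)), (2, (7, true)), (2, (7, false)), (5, (4, true))]
def certD4 : List (ℕ × ℕ × Bool) := [(0, (14, false)), (0, (15, false)), (0, (16, false)), (0, (17, false)), (0, (19, false)), (0, (20, false)), (0, (21, false)), (0, (22, false)), (1, (9, false)), (1, (17, false)), (1, (20, false)), (1, (21, false)), (1, (23, false)), (2, (22, false)), (2, (23, false)), (3, (22, false)), (3, (23, false)), (4, (23, false)), (6, (22, false)), (6, (23, false)), (7, (23, false)), (8, (23, false)), (9, (23, false)), (14, (22, false))]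
def certF4 : List (ℕ × ℕ × Bool) := [(0, (24, false)), (0, (26, false)), (0, (31, false)), (0, (32, false)), (0, (42, false)), (0, (43, false)), (0, (45, false)), (0, (46, false)), (1, (23, false)), (1, (28, false)), (1, (32, false)), (1, (35, false)), (1, (37, false)), (1, (43, false)), (1, (45, false)), (1, (47, false)), (2, (37, false)), (2, (38, false)), (2, (46, false)), (2, (47, false)), (3, (37, false)), (3, (38, false)), (3, (39, false)), (3, (40, false)), (3, (41, false)), (3, (42, false)), (3, (43, false)), (3, (45, false)), (3, (46, false)), (3, (47, false)), (4, (46, false)), (4, (47, false)), (5, (47, false)), (7, (44, false)), (7, (45, false)), (7, (46, false)), (7, (47, false)), (8, (46, false)), (8, (47, false)), (9, (47, false)), (11, (47, false)), (15, (46, false)), (15, (47, false)), (16, (47, false)), (18, (47, false)), (21, (47, false)), (23, (47, false)), (24, (46, false))]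
def certE6 : List (ℕ × ℕ × Bool) := [(0, (46, false)), (0, (47, false)), (0, (48, false)), (0, (49, false)), (0, (50, false)), (0, (51, false)), (0, (52, false)), (0, (53, false)), (0, (54, false)), (0, (55, false)), (0, (61, false)), (0, (62, false)), (0, (63, false)), (0, (64, false)), (0, (65, false)), (0, (66, false)), (0, (67, false)), (0, (68, false)), (0, (69, false)), (0, (70, false)), (1, (25, false)), (1, (53, false)), (1, (54, false)), (1, (55, false)), (1, (64, false)), (1, (65, false)), (1, (66, false)), (1, (67, false)), (1, (68, false)), (1, (69, false)), (1, (71, false)), (2, (55, false)), (2, (66, false)), (2, (67, false)), (2, (68, false)), (2, (70, false)), (2, (71, false)), (3, (67, false)), (3, (69, false)), (3, (70, false)), (3, (71, false)), (4, (68, false)), (4, (69, false)), (4, (70, false)), (4, (71, false)), (5, (55, false)), (5, (69, false)), (5, (70, false)), (5, (71, false)), (6, (70, false)), (6, (71, false)), (7, (70, false)), (7, (71, false)), (8, (71, false)), (9, (71, false)), (10, (71, false)), (16, (66, false)), (16, (69, false)), (16, (70, false)), (16, (71, false)), (17, (70, false)), (17, (71,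 false)), (18, (70, false)), (18, (71, false)), (19, (71, false)), (20, (71, false)), (21, (71, false)), (22, (71, false)), (23, (71, false)), (24, (71, false)), (25, (71, false)), (46, (70, false))]
def certE7 : List (ℕ × ℕ × Bool) := [(0, (93, false)), (0, (94, false)), (0, (95, false)), (0, (96, false)), (0, (97, false)), (0, (98, false)), (0, (99, false)), (0, (100, false)), (0, (101, false)), (0, (102, false)), (0, (103, false)), (0, (104, false)), (0, (105, false)), (0, (106, false)), (0, (107, false)), (0, (108, false)), (0, (109, false)), (0, (110, false)), (0, (111, false)), (0, (112, false)), (0, (113, false)), (0, (114, false)), (0, (115, false)), (0, (116, false)), (0, (117, false)), (0, (118, false)), (0, (119, false)), (0, (120, false)), (0, (121, false)), (0, (122, false)), (0, (123, false)), (0, (124, false)), (1, (32, false)), (1, (109, false)), (1, (110, false)), (1, (111, false)), (1, (112, false)), (1, (113, false)), (1, (114, false)), (1, (115, false)), (1, (116, false)), (1, (117, false)), (1, (118, false)), (1, (119, false)), (1, (120, false)), (1, (121, false)), (1, (122, false)), (1, (123, false)), (1, (125,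 false)), (2, (115, false)), (2, (116, false)), (2, (117, false)), (2, (118, false)), (2, (119, false)), (2, (120, false)), (2, (121, false)), (2, (122, false)), (2, (124, false)), (2, (125, false)), (3, (118, false)), (3, (119, false)), (3, (120, false)), (3, (121, false)), (3, (123, false)), (3, (124, false)), (3, (125, false)), (4, (119, false)), (4, (120, false)), (4, (122, false)), (4, (123, false)), (4, (124, false)), (4, (125, false)), (5, (119, false)), (5, (121, false)), (5, (122, false)), (5, (123, false)), (5, (124, false)), (5, (125, false)), (6, (120, false)), (6, (121, false)), (6, (122, false)), (6, (123, false)), (6, (124, false)), (6, (125, false)), (7, (122, false)), (7, (123, false)), (7, (124, false)), (7, (125, false)), (8, (123, false)), (8, (124, false)), (8, (125, false)), (9, (123, false)), (9, (124, false)), (9, (125, false)), (10, (123, false)), (10, (124, false)), (10, (125, false)), (11, (124, false)), (11, (125, false)), (12, (124, false)), (12, (125, false)), (13, (124, false)), (13, (125, false)), (14, (124, false)), (14, (125, false)), (15, (124, false)), (15, (125, false)), (16, (124, false)), (16,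 (125, false)), (17, (125, false)), (18, (125, false)), (19, (125, false)), (20, (125, false)), (21, (125, false)), (22, (125, false)), (23, (125, false)), (24, (125, false)), (25, (125, false)), (26, (125, false)), (27, (125, false)), (28, (125, false)), (29, (125, false)), (30, (125, false)), (31, (125, false)), (32, (125, false)), (93, (124, false))]
def certE8 : List (ℕ × ℕ × Bool) := [(0, (120, false)), (0, (122, false)), (0, (125, false)), (0, (129, false)), (0, (134, false)), (0, (140, false)), (0, (146, false)), (0, (151, false)), (0, (155, false)), (0, (158, false)), (0, (160, false)), (0, (161, false)), (0, (168, false)), (0, (173, false)), (0, (177, false)), (0, (180, false)), (0, (182, false)), (0, (183, false)), (0, (187, false)), (0, (190, false)), (0, (192, false)), (0, (193, false)), (0, (196, false)), (0, (198, false)), (0, (199, false)), (0, (201, false)), (0, (202, false)), (0, (203, false)), (0, (206, false)), (0, (208, false)), (0, (209, false)), (0, (211, false)), (0, (212, false)), (0, (213, false)), (0, (215, false)), (0, (216, false)), (0, (217, false)), (0, (218, false)), (0, (220, false)), (0, (221, false)),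 (0, (222, false)), (0, (223, false)), (0, (224, false)), (0, (225, false)), (0, (227, false)), (0, (228, false)), (0, (229, false)), (0, (230, false)), (0, (231, false)), (0, (232, false)), (0, (233, false)), (0, (234, false)), (0, (235, false)), (0, (236, false)), (0, (237, false)), (0, (238, false)), (1, (119, false)), (1, (161, false)), (1, (183, false)), (1, (193, false)), (1, (199, false)), (1, (202, false)), (1, (203, false)), (1, (209, false)), (1, (212, false)), (1, (213, false)), (1, (216, false)), (1, (217, false)), (1, (218, false)), (1, (221, false)), (1, (222, false)), (1, (223, false)), (1, (224, false)), (1, (225, false)), (1, (228, false)), (1, (229, false)), (1, (230, false)), (1, (231, false)), (1, (232, false)), (1, (233, false)), (1, (234, false)), (1, (235, false)), (1, (236, false)), (1, (237, false)), (1, (239, false)), (2, (203, false)), (2, (213, false)), (2, (217, false)), (2, (218, false)), (2, (222, false)), (2, (223, false)), (2, (224, false)), (2, (225, false)), (2, (229, false)), (2, (230, false)), (2, (231, false)), (2, (232, false)), (2, (233, false)), (2, (234, false)), (2, (235, false)), (2, (236,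 false)), (2, (238, false)), (2, (239, false)), (3, (218, false)), (3, (223, false)), (3, (224, false)), (3, (225, false)), (3, (230, false)), (3, (231, false)), (3, (232, false)), (3, (233, false)), (3, (234, false)), (3, (235, false)), (3, (237, false)), (3, (238, false)), (3, (239, false)), (4, (224, false)), (4, (225, false)), (4, (231, false)), (4, (232, false)), (4, (233, false)), (4, (234, false)), (4, (236, false)), (4, (237, false)), (4, (238, false)), (4, (239, false)), (5, (225, false)), (5, (232, false)), (5, (233, false)), (5, (235, false)), (5, (236, false)), (5, (237, false)), (5, (238, false)), (5, (239, false)), (6, (225, false)), (6, (234, false)), (6, (235, false)), (6, (236, false)), (6, (237, false)), (6, (238, false)), (6, (239, false)), (7, (234, false)), (7, (235, false)), (7, (236, false)), (7, (237, false)), (7, (238, false)), (7, (239, false)), (8, (235, false)), (8, (236, false)), (8, (237, false)), (8, (238, false)), (8, (239, false)), (9, (236, false)), (9, (237, false)), (9, (238, false)), (9, (239, false)), (10, (237, false)), (10, (238, false)), (10, (239, false)), (11, (238, false)), (11, (239, false)),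 (12, (239, false)), (14, (233, false)), (14, (234, false)), (14, (235, false)), (14, (236, false)), (14, (237, false)), (14, (238, false)), (14, (239, false)), (15, (235, false)), (15, (236, false)), (15, (237, false)), (15, (238, false)), (15, (239, false)), (16, (236, false)), (16, (237, false)), (16, (238, false)), (16, (239, false)), (17, (237, false)), (17, (238, false)), (17, (239, false)), (18, (238, false)), (18, (239, false)), (19, (239, false)), (21, (236, false)), (21, (237, false)), (21, (238, false)), (21, (239, false)), (22, (237, false)), (22, (238, false)), (22, (239, false)), (23, (238, false)), (23, (239, false)), (24, (239, false)), (26, (237, false)), (26, (238, false)), (26, (239, false)), (27, (238, false)), (27, (239, false)), (28, (239, false)), (30, (238, false)), (30, (239, false)), (31, (239, false)), (33, (239, false)), (36, (237, false)), (36, (238, false)), (36, (239, false)), (37, (238, false)), (37, (239, false)), (38, (239, false)), (40, (238, false)), (40, (239, false)), (41, (239, false)), (43, (239, false)), (46, (238, false)), (46, (239, false)), (47, (239, false)), (49, (239, false)), (52, (239,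 false)), (56, (238, false)), (56, (239, false)), (57, (239, false)), (59, (239, false)), (62, (239, false)), (66, (239, false)), (71, (239, false)), (78, (238, false)), (78, (239, false)), (79, (239, false)), (81, (239, false)), (84, (239, false)), (88, (239, false)), (93, (239, false)), (99, (239, false)), (105, (239, false)), (110, (239, false)), (114, (239, false)), (117, (239, false)), (119, (239, false)), (120, (238, false))]

theorem certG2_ok : certOK chevG2 certG2 = true := by decide +kernel
theorem certB2_ok : certOK chevB2 certB2 = true := by decide +kernel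
theorem certD4_ok : certOK chevD4 certD4 = true := by decide +kernel
theorem certF4_ok : certOK chevF4 certF4 = true := by decide +kernel
theorem certE6_ok : certOK chevE6 certE6 = true := by decide +kernel
theorem certE7_ok : certOK chevE7 certE7 = true := by decide +kernel
theorem certE8_ok : certOK chevE8 certE8 = true := by decide +kernel

theorem certD4_nolam : ∀ st ∈ certD4, st.2.2 = false := by decide +kernel
theorem certF4_nolam : ∀ st ∈ certF4, st.2.2 = false := by decide +kernel
theorem certE6_nolam : ∀ st ∈ certE6, st.2.2 = false := by decide +kernel
theorem certE7_nolam : ∀ st ∈ certE7, st.2.2 = false := by decide +kernel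
theorem certE8_nolam : ∀ st ∈ certE8, st.2.2 = false := by decide +kernel

/-- The group presented by Steinberg's generators x̄_r(t) subject only to (R1) (additivity) and (R2) (the commutator formula) is perfect, for each of the types G₂, B₂, D₄, F₄, E₆, E₇, E₈ over any field (for types B₂ and G₂ the field must have more than two elements — the cases where the Chevalley group is not simple are set aside). -/
theorem result {K : Type*} [Field K] (D : Cfsg.Lie.ChevalleyDatum) (hD : D ∈ [Cfsg.Lie.chevG2, Cfsg.Lie.chevB2, Cfsg.Lie.chevD4, Cfsg.Lie.chevF4, Cfsg.Lie.chevE6, Cfsg.Lie.chevE7, Cfsg.Lie.chevE8]) (hK : D ∈ [Cfsg.Lie.chevB2, Cfsg.Lie.chevG2] → ∃ x : K, x ≠ 0 ∧ x ≠ 1) :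
    commutator (D.SteinbergCover K) = ⊤ := by
  simp only [List.mem_cons, List.not_mem_nil, or_false] at hD
  rcases hD with rfl | rfl | rfl | rfl | rfl | rfl | rfl
  · exact perfect_of_cert _ certG2 certG2_ok (Or.inl (hK (by simp)))
  · exact perfect_of_cert _ certB2 certB2_ok (Or.inl (hK (by simp)))
  · exact perfect_of_cert _ certD4 certD4_ok (Or.inr certD4_nolam)
  · exact perfect_of_cert _ certF4 certF4_ok (Or.inr certF4_nolam)
  · exact perfect_of_cert _ certE6 certE6_ok (Or.inr certE6_nolam)
  · exact perfect_of_cert _ certE7 certE7_ok (Or.inr certE7_nolam)
  · exact perfect_of_cert _ certE8 certE8_ok (Or.inr certE8_nolam)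

end Cfsg.Agent.S2395
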