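import Cfsg.Statements.S2397
import Cfsg.Agent.H46.StAll
import Cfsg.Agent.H46.StEquiv
import Cfsg.Agent.S1025

set_option autoImplicit false
open Cfsg

namespace Cfsg.Agent.S2397

/-- Over a finite field the relators (R3) h̄_r(t₁) h̄_r(t₂) = h̄_r(t₁ t₂) are consequences of (R1) and (R2): for each of the types G₂, B₂, D₄, F₄, E₆, E₇, E₈ (for types B₂ and G₂ the field must have more than two elements — the cases where the Chevalley group is not simple are set aside) the group presented by (R1), (R2) is canonically isomorphic to the one presented by (R1)–(R3), by an isomorphism matching the generators x̄_r(t). -/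
theorem result {K : Type*} [Field K] [Finite K] (D : Cfsg.Lie.ChevalleyDatum) (hD : D ∈ [Cfsg.Lie.chevG2, Cfsg.Lie.chevB2, Cfsg.Lie.chevD4, Cfsg.Lie.chevF4, Cfsg.Lie.chevE6, Cfsg.Lie.chevE7, Cfsg.Lie.chevE8]) (hK : D ∈ [Cfsg.Lie.chevB2, Cfsg.Lie.chevG2] → ∃ x : K, x ≠ 0 ∧ x ≠ 1) :
    ∃ e : D.SteinbergCover K ≃* D.SteinbergGroup K, ∀ (r : ℕ) (t : K), e (D.scGen K r t) = D.stGen K r t := by
  obtain ⟨z, η, w, w0, hpk⟩ := H46.packSt_all (K := K) D hD
  exact H46.cover_equiv hpk.tab hpk.hP hpk.hV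
    (fun r s hr hs h1 h2 t u => Cfsg.Agent.S1025.result D hD r s hr hs h1 h2 t u)

end Cfsg.Agent.S2397
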