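import Cfsg.Statements.S2400
import Cfsg.Agent.H46.SmallAll
import Cfsg.Agent.H46.B2F3All

set_option autoImplicit false
open Cfsg

namespace Cfsg.Agent.S2400

/-- Over a finite field `K`, the group presented by Steinberg's relators (R1)–(R3) (the universal Chevalley group) of type E₆ or E₇, or of type B₂ or D₄ with `K` of more than two elements, has trivial Schur multiplier: every finite stem extension of it is an isomorphism (Schur multiplier described through stem extensions as in the definitions). Types G₂, F₄ and E₈ are not covered here. -/
theorem result {K : Type*} [Field K] [Fintype K] (e : Cfsg.Lie.ChevalleyDatum × ℕ)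
    (he : e ∈ [(Cfsg.Lie.chevE6, 0), (Cfsg.Lie.chevE7, 0), (Cfsg.Lie.chevB2, 2), (Cfsg.Lie.chevD4, 2)]) (hK : Fintype.card K ≠ e.2) :
    Cfsg.HasCyclicSchurMultiplier (e.1.SteinbergGroup K) 1 := by
  exact H46.steinberg_schur_trivial H46.B2.b2f3 e he hK

end Cfsg.Agent.S2400
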