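import Cfsg.Statements.S2402
-- import your own Cfsg.Agent.* helpers here
import Cfsg.Agent.H45.CycGen

set_option autoImplicit false
open Cfsg

namespace Cfsg.Agent.S2402

open Matrix Cfsg.Agent.H45

variable {K : Type*} [Field K]

/-- The key group computation: from the diagonal conjugation rules, `[h, g h g⁻¹]` is a root
element. Here `T` is additive, `h T(t) = T(α t) h`, `h' T(t) = T(β t) h'`, `h h' = h' h`,
`g = T(1) w`, `h' = w h w⁻¹`. -/
theorem key_comm {G : Type*} [Group G] (T : K → G) (hadd : ∀ s t, T (s + t) = T s * T t)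
    (h h' w : G) (α β : K) (hβ : β ≠ 0)
    (c1 : ∀ t, h * T t = T (α * t) * h) (c2 : ∀ t, h' * T t = T (β * t) * h')
    (c3 : h * h' = h' * h) (hh' : h' = w * h * w⁻¹) :
    h * (T 1 * w * h * (T 1 * w)⁻¹) * h⁻¹ * (T 1 * w * h * (T 1 * w)⁻¹)⁻¹ =
      T ((α - 1) * (1 - β)) := by
  have hzero : T 0 = 1 := by
    have := hadd 0 0
    rw [add_zero] at this
    exact (mul_eq_left.mp this.symm)
  have hneg : ∀ t, (T t)⁻¹ = T (-t) := by
    intro t
    rw [inv_eq_iff_mul_eq_one, ← hadd, add_neg_cancel, hzero]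
  -- a' = T 1 * h' * (T 1)⁻¹ = h' * T (β⁻¹ - 1)
  have ha : T 1 * w * h * (T 1 * w)⁻¹ = h' * T (β⁻¹ - 1) := by
    have e1 : T 1 * w * h * (T 1 * w)⁻¹ = T 1 * h' * (T 1)⁻¹ := by
      rw [hh']; group
    have e2 : T 1 * h' = h' * T β⁻¹ := by
      have := c2 β⁻¹
      rw [mul_inv_cancel₀ hβ] at this
      exact this.symm
    rw [e1, e2, hneg, mul_assoc, ← hadd, sub_eq_add_neg]
  rw [ha]
  set c := β⁻¹ - 1 with hc
  have e3 : h * (h' * T c) * h⁻¹ = h' * T (α * c) := by
    rw [← mul_assoc, c3, mul_assoc h', c1, mul_assoc, mul_assoc, mul_inv_cancel, mul_one]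
  rw [e3, _root_.mul_inv_rev, hneg, mul_assoc, ← mul_assoc (T (α * c)), ← hadd, ← mul_assoc, c2,
    mul_assoc, mul_inv_cancel, mul_one]
  congr 1
  rw [hc]
  field_simp
  ring

/-- The diagonal element `diag(u, u⁻¹, 1, …, 1)` as a homomorphism `Kˣ →* SL`. -/
noncomputable def diagHom {m : Type*} [Fintype m] [DecidableEq m] {i j : m} (hij : i ≠ j) :
    Kˣ →* SpecialLinearGroup m K where
  toFun u := SpecialLinearGroup.diag2n hij (u : K) u.ne_zero
  map_one' := by
    apply Subtype.ext
    rw [SpecialLinearGroup.diag2n_coe]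
    simp
  map_mul' u v := by
    have hm : (SpecialLinearGroup.diag2n hij ((u * v : Kˣ) : K) (u * v).ne_zero).1 =
        (SpecialLinearGroup.diag2n hij (u : K) u.ne_zero).1 *
          (SpecialLinearGroup.diag2n hij (v : K) v.ne_zero).1 := by
      rw [SpecialLinearGroup.diag2n_coe, SpecialLinearGroup.diag2n_coe,
        SpecialLinearGroup.diag2n_coe, diagonal_mul_diagonal]
      congr 1
      funext a
      split_ifs <;> simp [mul_comm]
    exact Subtype.ext hm

/-- Explicit two-element generation of `PSL_{n+1}(K)` for a finite field `K` with more than three elements: let `k` generate the multiplicative group of `K`, `h = diag(k, k⁻¹, 1, …, 1)`, `x = 1 + E₁₂` (the elementary transvection) and `w` the monomial matrix with entries `1` in positions `(i, i+1)` and `(−1)^n` in position `(n+1, 1)`. Then `h` and `x·w` generate `SL_{n+1}(K)` modulo its centre: the subgroup they generate together with the centre is everything. -/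
theorem result {K : Type*} [Field K] [Fintype K] (hK : 3 < Fintype.card K) (n : ℕ) (hn : 1 ≤ n)
    (k : Kˣ) (hk : ∀ u : Kˣ, u ∈ Subgroup.zpowers k)
    (h x w : Matrix.SpecialLinearGroup (Fin (n + 1)) K)
    (hh : (h : Matrix (Fin (n + 1)) (Fin (n + 1)) K) =
      Matrix.diagonal (fun i => if i.val = 0 then (k : K) else if i.val = 1 then ((k⁻¹ : Kˣ) : K) else 1))
    (hx : (x : Matrix (Fin (n + 1)) (Fin (n + 1)) K) = Matrix.transvection (0 : Fin (n + 1)) (1 : Fin (n + 1)) 1)
    (hw : (w : Matrix (Fin (n + 1)) (Fin (n + 1)) K) =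
      Matrix.of (fun i j => if j.val = i.val + 1 then 1 else if i.val = n ∧ j.val = 0 then (-1) ^ n else 0)) :
    Subgroup.closure ({h, x * w} : Set (Matrix.SpecialLinearGroup (Fin (n + 1)) K)) ⊔
      Subgroup.center (Matrix.SpecialLinearGroup (Fin (n + 1)) K) = ⊤ := by
  classical
  set H := Subgroup.closure ({h, x * w} : Set (Matrix.SpecialLinearGroup (Fin (n + 1)) K)) with hH
  have hhH : h ∈ H := Subgroup.subset_closure (by simp)
  have hgH : x * w ∈ H := Subgroup.subset_closure (by simp)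
  have h01 : (0 : Fin (n + 1)) ≠ 1 := zero_ne_one_fin n hn
  have hv1 : (1 : Fin (n + 1)).val = 1 := by
    rw [Fin.val_one']; exact Nat.mod_eq_of_lt (by omega)
  have hxT : x = SpecialLinearGroup.transvection h01 1 := Subtype.ext hx
  -- order of k
  have hk2 : (k : K) * (k : K) ≠ 1 := by
    intro h1
    have h2 : k ^ 2 = 1 := by
      apply Units.ext
      rw [Units.val_pow_eq_pow_val, Units.val_one, pow_two]
      exact h1
    have h3 : orderOf k ≤ 2 := Nat.le_of_dvd (by norm_num) (orderOf_dvd_of_pow_eq_one h2)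
    have h4 : Subgroup.zpowers k = ⊤ := by
      rw [eq_top_iff]; intro u _; exact hk u
    have h5 : Nat.card (Subgroup.zpowers k) = Nat.card Kˣ := by
      rw [h4, Subgroup.card_top]
    rw [Nat.card_zpowers, Nat.card_eq_fintype_card, Fintype.card_units] at h5
    omega
  have hk0 : (k : K) ≠ 0 := k.ne_zero
  have hk1 : (k : K) ≠ 1 := by
    intro h1; apply hk2; rw [h1, mul_one]
  -- the diagonal function
  set hD : Fin (n + 1) → K := fun i =>
    if i.val = 0 then (k : K) else if i.val = 1 then ((k⁻¹ : Kˣ) : K) else 1 with hhD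
  have hD0 : hD 0 = (k : K) := by simp [hhD]
  have hD1 : hD 1 = (k : K)⁻¹ := by
    simp only [hhD]
    rw [if_neg (by rw [hv1]; norm_num), if_pos hv1, Units.val_inv_eq_inv_val]
  have hne2 : (1 + 1 : Fin (n + 1)) ≠ 1 := by
    intro h2
    have : (1 : Fin (n + 1)) + 1 = 0 + 1 := by rw [zero_add]; exact h2
    exact h01 (add_right_cancel this).symm
  have hD2 : hD (1 + 1) = (k : K) ∨ hD (1 + 1) = 1 := by
    have hv : (1 + 1 : Fin (n + 1)).val ≠ 1 := fun hv => hne2 (Fin.ext (hv.trans hv1.symm))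
    simp only [hhD]
    by_cases h0 : (1 + 1 : Fin (n + 1)).val = 0
    · left; rw [if_pos h0]
    · right; rw [if_neg h0, if_neg hv]
  have hD2ne : hD (1 + 1) ≠ 0 := by
    rcases hD2 with h2 | h2 <;> rw [h2]
    · exact hk0
    · exact one_ne_zero
  have hD1ne : hD 1 ≠ 0 := by rw [hD1]; exact inv_ne_zero hk0
  -- conjugation rule for h
  set T : K → Matrix.SpecialLinearGroup (Fin (n + 1)) K :=
    fun t => SpecialLinearGroup.transvection h01 t with hT
  have hadd : ∀ s t, T (s + t) = T s * T t := fun s t => SpecialLinearGroup.transvection_add h01 s t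
  have c1 : ∀ t, h * T t = T (hD 0 * (hD 1)⁻¹ * t) * h := by
    intro t
    have hm := diagonal_mul_transvection hD 0 1 t hD1ne
    rw [← hh] at hm
    have e : hD 0 * t / hD 1 = hD 0 * (hD 1)⁻¹ * t := by field_simp
    rw [e] at hm
    exact Subtype.ext hm
  -- h' = w h w⁻¹ is diagonal
  have hwe := cyc_entry n w.1 hw
  set h' := w * h * w⁻¹ with hh'def
  have hh'mat : (h' : Matrix (Fin (n + 1)) (Fin (n + 1)) K) = diagonal (fun i => hD (i + 1)) := by
    have e1 := cyc_mul_diagonal n w.1 hwe hD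
    rw [← hh] at e1
    have e2 : ((w * h * w⁻¹ : Matrix.SpecialLinearGroup (Fin (n + 1)) K) :
        Matrix (Fin (n + 1)) (Fin (n + 1)) K) = w.1 * h.1 * (w⁻¹).1 := by
      simp only [Matrix.SpecialLinearGroup.coe_mul]
    have e3 : w.1 * (w⁻¹).1 = (1 : Matrix (Fin (n + 1)) (Fin (n + 1)) K) := by
      have := congrArg Subtype.val (mul_inv_cancel w)
      simpa only [Matrix.SpecialLinearGroup.coe_mul, Matrix.SpecialLinearGroup.coe_one] using this
    rw [hh'def, e2, e1, Matrix.mul_assoc, e3, Matrix.mul_one]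
  have c2 : ∀ t, h' * T t = T (hD 1 * (hD (1 + 1))⁻¹ * t) * h' := by
    intro t
    have hm := diagonal_mul_transvection (fun i => hD (i + 1)) 0 1 t hD2ne
    rw [← hh'mat] at hm
    have e : hD (0 + 1) * t / hD (1 + 1) = hD 1 * (hD (1 + 1))⁻¹ * t := by
      rw [zero_add]; field_simp
    rw [e] at hm
    exact Subtype.ext hm
  have c3 : h * h' = h' * h := by
    have hm : (h : Matrix (Fin (n + 1)) (Fin (n + 1)) K) * h'.1 = h'.1 * h.1 := by
      rw [hh'mat, hh, diagonal_mul_diagonal, diagonal_mul_diagonal]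
      congr 1
      funext i
      exact mul_comm _ _
    exact Subtype.ext hm
  set α := hD 0 * (hD 1)⁻¹ with hα
  set β := hD 1 * (hD (1 + 1))⁻¹ with hβ
  have hβ0 : β ≠ 0 := mul_ne_zero hD1ne (inv_ne_zero hD2ne)
  have hα1 : α ≠ 1 := by
    rw [hα, hD0, hD1, inv_inv]; exact hk2
  have hβ1 : β ≠ 1 := by
    rw [hβ, hD1]
    rcases hD2 with h2 | h2 <;> rw [h2]
    · intro h3
      apply hk2
      have h4 : (k : K) * (k : K) = ((k : K)⁻¹ * (k : K)⁻¹)⁻¹ := by rw [mul_inv, inv_inv]
      rw [h4, h3, inv_one]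
    · intro h3
      apply hk1
      rw [inv_one, mul_one] at h3
      exact inv_eq_one.mp h3
  have hkey := key_comm T hadd h h' w α β hβ0 c1 c2 c3 hh'def
  have hx1 : T 1 = x := hxT.symm
  rw [hx1] at hkey
  set t₀ := (α - 1) * (1 - β) with ht₀
  have ht₀ne : t₀ ≠ 0 := mul_ne_zero (sub_ne_zero.mpr hα1) (sub_ne_zero.mpr (Ne.symm hβ1))
  have hT0 : T t₀ ∈ H := by
    rw [← hkey]
    have ha : x * w * h * (x * w)⁻¹ ∈ H :=
      Subgroup.mul_mem _ (Subgroup.mul_mem _ hgH hhH) (Subgroup.inv_mem _ hgH)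
    exact Subgroup.mul_mem _ (Subgroup.mul_mem _ (Subgroup.mul_mem _ hhH ha)
      (Subgroup.inv_mem _ hhH)) (Subgroup.inv_mem _ ha)
  -- all diagonal elements δ(u) are in H
  have hδk : diagHom (K := K) h01 k = h := by
    have hm : (diagHom (K := K) h01 k).1 = h.1 := by
      rw [hh]
      change (SpecialLinearGroup.diag2n h01 (k : K) k.ne_zero).1 = _
      rw [SpecialLinearGroup.diag2n_coe]
      congr 1
      funext i
      have e0 : i = 0 ↔ i.val = 0 := by rw [Fin.ext_iff, Fin.val_zero]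
      have e1 : i = 1 ↔ i.val = 1 := by rw [Fin.ext_iff, hv1]
      simp only [hhD, e0, e1, Units.val_inv_eq_inv_val]
    exact Subtype.ext hm
  have hδH : ∀ u : Kˣ, diagHom (K := K) h01 u ∈ H := by
    intro u
    obtain ⟨m, rfl⟩ := Subgroup.mem_zpowers_iff.mp (hk u)
    rw [map_zpow, hδk]
    exact Subgroup.zpow_mem _ hhH m
  have hδconj : ∀ (u : Kˣ) (t : K), diagHom (K := K) h01 u * T t =
      T ((u : K) * (u : K) * t) * diagHom (K := K) h01 u := by
    intro u t
    have hm := diagonal_mul_transvection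
      (fun a : Fin (n + 1) => if a = 0 then (u : K) else if a = 1 then (u : K)⁻¹ else 1) 0 1 t
      (by simp [h01.symm])
    have e : (fun a : Fin (n + 1) => if a = 0 then (u : K) else if a = 1 then (u : K)⁻¹ else 1) 0 *
        t / (fun a : Fin (n + 1) => if a = 0 then (u : K) else if a = 1 then (u : K)⁻¹ else 1) 1 =
        (u : K) * (u : K) * t := by
      simp [h01.symm]
      field_simp
    rw [e, ← SpecialLinearGroup.diag2n_coe h01 (u : K) u.ne_zero] at hm
    exact Subtype.ext hm
  have hsq : ∀ a : K, T (a ^ 2 * t₀) ∈ H := by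
    intro a
    by_cases ha : a = 0
    · subst ha
      have : T ((0 : K) ^ 2 * t₀) = 1 := by
        simp only [hT]
        rw [show (0 : K) ^ 2 * t₀ = 0 by ring]
        exact SpecialLinearGroup.transvection_coeff_zero h01
      rw [this]
      exact Subgroup.one_mem _
    · have hc := hδconj (Units.mk0 a ha) t₀
      have : T (a ^ 2 * t₀) = diagHom (K := K) h01 (Units.mk0 a ha) * T t₀ *
          (diagHom (K := K) h01 (Units.mk0 a ha))⁻¹ := by
        rw [hc, mul_inv_cancel_right, Units.val_mk0, pow_two]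
      rw [this]
      exact Subgroup.mul_mem _ (Subgroup.mul_mem _ (hδH _) hT0) (Subgroup.inv_mem _ (hδH _))
  have R01 : ∀ c : K, T c ∈ H := by
    intro c
    obtain ⟨a, b, hab⟩ := sum_two_squares (c / t₀)
    have : c = a ^ 2 * t₀ + b ^ 2 * t₀ := by
      rw [← add_mul, hab]
      field_simp
    rw [this, hadd]
    exact Subgroup.mul_mem _ (hsq a) (hsq b)
  have hxH : x ∈ H := by rw [hxT]; exact R01 1
  have hwH : w ∈ H := by
    have : w = x⁻¹ * (x * w) := by group
    rw [this]
    exact Subgroup.mul_mem _ (Subgroup.inv_mem _ hxH) hgH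
  have hHtop : H = ⊤ := cycle_gen n H w hwH hw h01 R01
  rw [hHtop]
  exact top_sup_eq _

end Cfsg.Agent.S2402
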