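import Cfsg.Statements.S2403
-- import your own Cfsg.Agent.* helpers here
import Cfsg.Agent.H45.SLGen

set_option autoImplicit false
open Cfsg

namespace Cfsg.Agent.S2403

open Matrix Cfsg.Agent.H45

variable {K : Type*} [Field K]

/-- The sign attached to row `i` of the monomial matrix `w`. -/
def eps (n : ℕ) (i : Fin (n + 1)) : K := if i.val = n then (-1) ^ n else 1

theorem eps_mul_self (n : ℕ) (i : Fin (n + 1)) : (eps n i : K) * eps n i = 1 := by
  unfold eps
  split_ifs
  · rw [← mul_pow]; simp
  · simp

theorem w_entry (n : ℕ) (w : Matrix (Fin (n + 1)) (Fin (n + 1)) K)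
    (hw : w = Matrix.of (fun i j : Fin (n + 1) =>
      if j.val = i.val + 1 then (1 : K) else if i.val = n ∧ j.val = 0 then (-1) ^ n else 0))
    (a b : Fin (n + 1)) : w a b = if b = a + 1 then eps n a else 0 := by
  subst hw
  simp only [Matrix.of_apply]
  unfold eps
  by_cases ha : a.val = n
  · have ha' : a = Fin.last n := Fin.ext ha
    subst ha'
    have h1 : ¬ (b.val = (Fin.last n).val + 1) := by
      have := b.isLt
      simp only [Fin.val_last]
      omega
    rw [if_neg h1, Fin.last_add_one]
    have h2 : (b.val = 0) ↔ b = 0 := by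
      constructor
      · intro h; exact Fin.ext h
      · intro h; rw [h]; rfl
    by_cases hb : b = 0
    · subst hb
      simp
    · have : ¬ b.val = 0 := fun h => hb (h2.mp h)
      simp [hb, this]
  · have hlt : a < Fin.last n := by
      rw [Fin.lt_def, Fin.val_last]
      have := a.isLt
      omega
    have h1 : (a + 1).val = a.val + 1 := Fin.val_add_one_of_lt hlt
    have h2 : (b = a + 1) ↔ b.val = a.val + 1 := by
      rw [Fin.ext_iff, h1]
    by_cases hb : b = a + 1
    · rw [if_pos hb, if_pos (h2.mp hb), if_neg ha]
    · rw [if_neg hb, if_neg (fun h => hb (h2.mpr h)), if_neg (fun h => ha h.1)]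

theorem w_conj_matrix (n : ℕ) (w : Matrix (Fin (n + 1)) (Fin (n + 1)) K)
    (hw : ∀ a b : Fin (n + 1), w a b = if b = a + 1 then eps n a else 0)
    (i j : Fin (n + 1)) (c : K) :
    w * transvection (i + 1) (j + 1) (c * eps n j) = transvection i j (c * eps n i) * w := by
  unfold transvection
  rw [mul_add, add_mul, mul_one, one_mul]
  congr 1
  ext a b
  by_cases hb : b = j + 1
  · subst hb
    rw [mul_single_apply_same]
    by_cases ha : a = i
    · subst ha
      rw [single_mul_apply_same, hw, hw, if_pos rfl, if_pos rfl]
      ring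
    · rw [single_mul_apply_of_ne _ _ _ _ _ ha, hw, if_neg (fun h => ha (add_right_cancel h).symm)]
      ring
  · rw [mul_single_apply_of_ne _ _ _ _ _ hb]
    by_cases ha : a = i
    · subst ha
      rw [single_mul_apply_same, hw, if_neg hb]
      ring
    · rw [single_mul_apply_of_ne _ _ _ _ _ ha]

/-- Multiplicative-to-SL homomorphism `c ↦ T_ij(c)`. -/
def transvHom {n : Type*} [Fintype n] [DecidableEq n] {i j : n} (hij : i ≠ j) :
    Multiplicative K →* SpecialLinearGroup n K where
  toFun c := SpecialLinearGroup.transvection hij (Multiplicative.toAdd c)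
  map_one' := SpecialLinearGroup.transvection_coeff_zero hij
  map_mul' _ _ := SpecialLinearGroup.transvection_add hij _ _

theorem prime_field_zmultiples [Fintype K] (hK : Fintype.card K ≤ 3) :
    AddSubgroup.zmultiples (1 : K) = ⊤ := by
  classical
  apply AddSubgroup.eq_top_of_card_eq
  have hdvd : Nat.card (AddSubgroup.zmultiples (1 : K)) ∣ Nat.card K :=
    AddSubgroup.card_addSubgroup_dvd_card _
  have h2 : 2 ≤ Nat.card (AddSubgroup.zmultiples (1 : K)) := by
    rw [Nat.card_eq_fintype_card]
    have : Nontrivial (AddSubgroup.zmultiples (1 : K)) :=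
      ⟨⟨⟨0, AddSubgroup.zero_mem _⟩, ⟨1, AddSubgroup.mem_zmultiples 1⟩, by
        intro h
        have := congrArg Subtype.val h
        exact zero_ne_one this⟩⟩
    exact Fintype.one_lt_card
  have h3 : Nat.card K ≤ 3 := by rwa [Nat.card_eq_fintype_card]
  have hpos : 0 < Nat.card K := Nat.card_pos
  have hle := Nat.le_of_dvd hpos hdvd
  obtain ⟨m, hm⟩ := hdvd
  generalize Nat.card (AddSubgroup.zmultiples (1 : K)) = a at *
  generalize Nat.card K = b at *
  interval_cases b <;> interval_cases a <;> omega

/-- Explicit two-element generation of `PSL_{n+1}(K)` over the fields with two or three elements: with `x = 1 + E₁₂` and `w` the monomial matrix with entries `1` in positions `(i, i+1)` and `(−1)^n` in position `(n+1, 1)`, the elements `x` and `w` generate `SL_{n+1}(K)` modulo its centre. -/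
theorem result {K : Type*} [Field K] [Fintype K] (hK : Fintype.card K ≤ 3) (n : ℕ) (hn : 1 ≤ n)
    (x w : Matrix.SpecialLinearGroup (Fin (n + 1)) K)
    (hx : (x : Matrix (Fin (n + 1)) (Fin (n + 1)) K) = Matrix.transvection (0 : Fin (n + 1)) (1 : Fin (n + 1)) 1)
    (hw : (w : Matrix (Fin (n + 1)) (Fin (n + 1)) K) =
      Matrix.of (fun i j => if j.val = i.val + 1 then 1 else if i.val = n ∧ j.val = 0 then (-1) ^ n else 0)) :
    Subgroup.closure ({x, w} : Set (Matrix.SpecialLinearGroup (Fin (n + 1)) K)) ⊔
      Subgroup.center (Matrix.SpecialLinearGroup (Fin (n + 1)) K) = ⊤ := by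
  classical
  -- H contains all elementary transvections
  set H := Subgroup.closure ({x, w} : Set (Matrix.SpecialLinearGroup (Fin (n + 1)) K)) with hH
  have hxH : x ∈ H := Subgroup.subset_closure (by simp)
  have hwH : w ∈ H := Subgroup.subset_closure (by simp)
  have h01 : (0 : Fin (n + 1)) ≠ 1 := by
    intro h
    have := congrArg Fin.val h
    rw [Fin.val_zero, Fin.val_one'] at this
    have : 1 % (n + 1) = 1 := Nat.mod_eq_of_lt (by omega)
    omega
  have hxT : x = SpecialLinearGroup.transvection h01 1 := Subtype.ext hx
  -- the relation R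
  let R : Fin (n + 1) → Fin (n + 1) → Prop := fun i j =>
    ∀ (hij : i ≠ j) (c : K), SpecialLinearGroup.transvection hij c ∈ H
  have hzm := prime_field_zmultiples hK
  have R01 : R 0 1 := by
    intro hij c
    have hc : c ∈ AddSubgroup.zmultiples (1 : K) := by rw [hzm]; trivial
    obtain ⟨k, rfl⟩ := AddSubgroup.mem_zmultiples_iff.mp hc
    have e : SpecialLinearGroup.transvection hij (k • (1 : K)) =
        (transvHom hij (Multiplicative.ofAdd (1 : K))) ^ k := by
      rw [← map_zpow, ← ofAdd_zsmul]
      rfl
    rw [e]
    apply Subgroup.zpow_mem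
    have : transvHom hij (Multiplicative.ofAdd (1 : K)) = x := by rw [hxT]; rfl
    rw [this]
    exact hxH
  have hwe := w_entry n w.1 hw
  have shift : ∀ i j : Fin (n + 1), R (i + 1) (j + 1) → R i j := by
    intro i j hR hij c
    have hij' : i + 1 ≠ j + 1 := fun h => hij (add_right_cancel h)
    have hm := w_conj_matrix n w.1 hwe i j (c * eps n i)
    have hce : c * eps n i * eps n i = c := by rw [mul_assoc, eps_mul_self, mul_one]
    rw [hce] at hm
    have hm2 : w * SpecialLinearGroup.transvection hij' (c * eps n i * eps n j) =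
        SpecialLinearGroup.transvection hij c * w := Subtype.ext hm
    have : SpecialLinearGroup.transvection hij c =
        w * SpecialLinearGroup.transvection hij' (c * eps n i * eps n j) * w⁻¹ := by
      rw [hm2, mul_inv_cancel_right]
    rw [this]
    exact Subgroup.mul_mem _ (Subgroup.mul_mem _ hwH (hR hij' _)) (Subgroup.inv_mem _ hwH)
  have shiftN : ∀ (k i j : Fin (n + 1)), R (i + k) (j + k) → R i j := by
    intro k
    induction k using Fin.induction with
    | zero => intro i j h; simpa using h
    | succ k ih =>
      intro i j h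
      apply ih
      apply shift
      rw [← Fin.coeSucc_eq_succ] at h
      rw [add_assoc, add_assoc]
      exact h
  have Rsucc : ∀ i : Fin (n + 1), R i (i + 1) := by
    intro i
    apply shiftN (-i)
    have e1 : i + -i = 0 := add_neg_cancel i
    have e2 : i + 1 + -i = 1 := by rw [add_comm i 1, add_assoc, e1, add_zero]
    rw [e1, e2]
    exact R01
  have trans : ∀ i j k : Fin (n + 1), i ≠ j → j ≠ k → R i j → R j k → R i k := by
    intro i j k hij hjk h1 h2 hik c
    have := transvection_comm_rel hij hjk hik c (1 : K)
    rw [mul_one] at this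
    rw [← this]
    exact Subgroup.mul_mem _ (Subgroup.mul_mem _ (Subgroup.mul_mem _ (h1 hij _) (h2 hjk _))
      (h1 hij _)) (h2 hjk _)
  have Rd : ∀ d : Fin (n + 1), d ≠ 0 → ∀ i : Fin (n + 1), R i (i + d) := by
    intro d
    induction d using Fin.induction with
    | zero => intro h; exact absurd rfl h
    | succ k ih =>
      intro _ i
      rw [← Fin.coeSucc_eq_succ]
      by_cases hk : k.castSucc = 0
      · rw [hk, zero_add]
        exact Rsucc i
      · have hne1 : i ≠ i + k.castSucc := by
          intro h
          exact hk (by simpa using h.symm)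
        have hne2 : i + k.castSucc ≠ i + (k.castSucc + 1) := by
          intro h
          have h' : k.castSucc = k.castSucc + 1 := add_left_cancel h
          have h'' : k.castSucc + 0 = k.castSucc + 1 := by rw [add_zero]; exact h'
          exact h01 (add_left_cancel h'')
        have h3 := Rsucc (i + k.castSucc)
        rw [add_assoc] at h3
        exact trans i _ _ hne1 hne2 (ih hk i) h3
  have Rall : ∀ i j : Fin (n + 1), R i j := by
    intro i j hij
    have hd : j - i ≠ 0 := sub_ne_zero.mpr (Ne.symm hij)
    have := Rd (j - i) hd i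
    rw [add_sub_cancel] at this
    exact this hij
  have hHtop : H = ⊤ := by
    rw [eq_top_iff, ← elemSubgroup_eq_top, elemSubgroup, Subgroup.closure_le]
    rintro g ⟨i, j, hij, c, rfl⟩
    exact Rall i j hij c
  rw [hHtop]
  exact top_sup_eq _

end Cfsg.Agent.S2403
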