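import Cfsg.Statements.S2416
import Cfsg.Agent.H23.GenTab
-- import your own Cfsg.Agent.* helpers here

set_option autoImplicit false
open scoped MatrixGroups
open Cfsg

namespace Cfsg.Agent.S2416

/-- A Chevalley group of type G₂, B₂, D₄, F₄, E₆, E₇ or E₈ over a finite field lies in (indeed equals) the subgroup generated by its monomial subgroup `N` and a single fundamental root subgroup `X_p`, where `p` is a short fundamental root if there are two root lengths (any fundamental root otherwise), provided the characteristic is not 2 for types B₂, F₄ and not 3 for type G₂ (and the field has more than two elements for B₂, G₂). -/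
theorem result {K : Type*} [Field K] [Finite K] (D : Cfsg.Lie.ChevalleyDatum) (hD : D ∈ [Cfsg.Lie.chevG2, Cfsg.Lie.chevB2, Cfsg.Lie.chevD4, Cfsg.Lie.chevF4, Cfsg.Lie.chevE6, Cfsg.Lie.chevE7, Cfsg.Lie.chevE8])
    (hK : D ∈ [Cfsg.Lie.chevB2, Cfsg.Lie.chevG2] → ∃ x : K, x ≠ 0 ∧ x ≠ 1)
    (h2 : D ∈ [Cfsg.Lie.chevB2, Cfsg.Lie.chevF4] → ringChar K ≠ 2) (h3 : D = Cfsg.Lie.chevG2 → ringChar K ≠ 3)
    (i : ℕ) (hi : i < D.rank) (hshort : D.isLong (D.simple i) = false) :
    D.group K ≤ D.monomialSubgroup K ⊔ D.rootSubgroup K (D.simple i) := by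
  apply Cfsg.Agent.H23.group_le_mono_sup_root_all D hD _ _ i hi hshort
  · intro h
    have h2' := h2 h
    intro h0
    apply h2'
    have : ((2 : ℕ) : K) = 0 := by exact_mod_cast h0
    exact CharP.ringChar_of_prime_eq_zero Nat.prime_two this
  · intro h
    have h3' := h3 h
    intro h0
    apply h3'
    have : ((3 : ℕ) : K) = 0 := by exact_mod_cast h0
    exact CharP.ringChar_of_prime_eq_zero Nat.prime_three this

end Cfsg.Agent.S2416
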