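import Cfsg.Statements.S2419
import Cfsg.Agent.H46.CoxGen

set_option autoImplicit false
open Cfsg

namespace Cfsg.Agent.S2419

open CoxeterSystem Cfsg.Agent.H46

/-- Rank two: the Coxeter element and the first simple reflection generate. -/
theorem rank_two (M : CoxeterMatrix (Fin 2)) :
    ∃ T : Finset M.Group, T.card = 1 ∧ (∀ t ∈ T, ∃ (g : M.Group) (i : Fin 2), t = g * M.simple i * g⁻¹) ∧
      Subgroup.closure (({((List.finRange 2).map M.simple).prod} : Set M.Group) ∪ ↑T) = ⊤ := by
  refine ⟨{M.simple 0}, Finset.card_singleton _, ?_, ?_⟩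
  · intro t ht
    rw [Finset.mem_singleton] at ht
    exact ⟨1, 0, by rw [ht]; simp⟩
  · set cs := M.toCoxeterSystem with hcs
    set H := Subgroup.closure (({((List.finRange 2).map M.simple).prod} : Set M.Group) ∪
      ↑({M.simple 0} : Finset M.Group)) with hH
    have hc : cs.wordProd [0, 1] ∈ H := Subgroup.subset_closure (Or.inl rfl)
    have ht0 : cs.wordProd [0] ∈ H :=
      Subgroup.subset_closure (Or.inr (by rw [wordProd_singleton]; simp; rfl))
    have h1 : cs.wordProd [1] ∈ H :=
      cox_mem2 cs H ht0 hc [0] (by rfl)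
    refine cox_eq_top cs H (fun i => ?_)
    fin_cases i
    · exact ht0
    · exact h1

theorem simple_conj {n : ℕ} (M : CoxeterMatrix (Fin n)) (i : Fin n) :
    ∃ (g : M.Group) (j : Fin n), M.simple i = g * M.simple j * g⁻¹ :=
  ⟨1, i, by simp⟩

theorem d4_ne : Cfsg.Lie.coxeterD4.simple 0 ≠ Cfsg.Lie.coxeterD4.simple 2 := by
  intro h
  let f : Fin 4 → Equiv.Perm (Fin 4) :=
    ![Equiv.swap 0 1, Equiv.swap 1 2, Equiv.swap 2 3, Equiv.swap 2 3]
  have hf : Cfsg.Lie.coxeterD4.IsLiftable f := by
    intro i j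
    revert i j
    decide
  have h0 := Cfsg.Lie.coxeterD4.toCoxeterSystem.lift_apply_simple hf 0
  have h2 := Cfsg.Lie.coxeterD4.toCoxeterSystem.lift_apply_simple hf 2
  rw [CoxeterMatrix.toCoxeterSystem_simple] at h0 h2
  rw [h, h2] at h0
  revert h0
  decide

theorem f4_ne : CoxeterMatrix.F₄.simple 0 ≠ CoxeterMatrix.F₄.simple 2 := by
  intro h
  let f : Fin 4 → ℤˣ := ![1, 1, -1, -1]
  have hf : CoxeterMatrix.F₄.IsLiftable f := by
    intro i j
    revert i j
    decide
  have h0 := CoxeterMatrix.F₄.toCoxeterSystem.lift_apply_simple hf 0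
  have h2 := CoxeterMatrix.F₄.toCoxeterSystem.lift_apply_simple hf 2
  rw [CoxeterMatrix.toCoxeterSystem_simple] at h0 h2
  rw [h, h2] at h0
  revert h0
  decide

/-- The Coxeter groups of types B₂, G₂, E₆, E₇, E₈ are generated by the Coxeter element `s₁ s₂ ⋯ s_l` together with one suitable reflection (a conjugate of a simple reflection); for types D₄ and F₄ the Coxeter element together with two suitable reflections suffices. -/
theorem result (c : (Σ n : ℕ, CoxeterMatrix (Fin n)) × ℕ)
    (hc : c ∈ [(⟨2, CoxeterMatrix.B 2⟩, 1), (⟨2, CoxeterMatrix.G₂⟩, 1), (⟨4, Cfsg.Lie.coxeterD4⟩, 2), (⟨4, CoxeterMatrix.F₄⟩, 2),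
      (⟨6, CoxeterMatrix.E₆⟩, 1), (⟨7, CoxeterMatrix.E₇⟩, 1), (⟨8, CoxeterMatrix.E₈⟩, 1)]) :
    ∃ T : Finset c.1.2.Group, T.card = c.2 ∧ (∀ t ∈ T, ∃ (g : c.1.2.Group) (i : Fin c.1.1), t = g * c.1.2.simple i * g⁻¹) ∧
      Subgroup.closure (({((List.finRange c.1.1).map c.1.2.simple).prod} : Set c.1.2.Group) ∪ ↑T) = ⊤ := by
  classical
  simp only [List.mem_cons, List.not_mem_nil, or_false] at hc
  rcases hc with rfl | rfl | rfl | rfl | rfl | rfl | rfl
  · exact rank_two (CoxeterMatrix.B 2)
  · exact rank_two CoxeterMatrix.G₂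
  · refine ⟨{Cfsg.Lie.coxeterD4.simple 0, Cfsg.Lie.coxeterD4.simple 2}, Finset.card_pair d4_ne, ?_, ?_⟩
    · intro t ht
      rw [Finset.mem_insert, Finset.mem_singleton] at ht
      rcases ht with rfl | rfl
      · exact simple_conj _ _
      · exact simple_conj _ _
    · have := cox_gen_D4
      rw [Finset.coe_insert, Finset.coe_singleton, Set.insert_eq]
      exact this
  · refine ⟨{CoxeterMatrix.F₄.simple 0, CoxeterMatrix.F₄.simple 2}, Finset.card_pair f4_ne, ?_, ?_⟩
    · intro t ht
      rw [Finset.mem_insert, Finset.mem_singleton] at ht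
      rcases ht with rfl | rfl
      · exact simple_conj _ _
      · exact simple_conj _ _
    · have := cox_gen_F4
      rw [Finset.coe_insert, Finset.coe_singleton, Set.insert_eq]
      exact this
  · refine ⟨{CoxeterMatrix.E₆.simple 0}, Finset.card_singleton _, ?_, ?_⟩
    · intro t ht
      rw [Finset.mem_singleton] at ht
      rw [ht]
      exact simple_conj _ _
    · have := cox_gen_E6
      rw [Finset.coe_singleton]
      exact this
  · refine ⟨{CoxeterMatrix.E₇.simple 5}, Finset.card_singleton _, ?_, ?_⟩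
    · intro t ht
      rw [Finset.mem_singleton] at ht
      rw [ht]
      exact simple_conj _ _
    · have := cox_gen_E7
      rw [Finset.coe_singleton]
      exact this
  · refine ⟨{CoxeterMatrix.E₈.simple 5}, Finset.card_singleton _, ?_, ?_⟩
    · intro t ht
      rw [Finset.mem_singleton] at ht
      rw [ht]
      exact simple_conj _ _
    · have := cox_gen_E8
      rw [Finset.coe_singleton]
      exact this

end Cfsg.Agent.S2419
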