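import Cfsg.Statements.S2423
import Cfsg.Agent.H95.FlagMain

set_option autoImplicit false
open scoped MatrixGroups
open Cfsg

namespace Cfsg.Agent.S2423

/-- The comparison of `GL_n(q)` with the symmetric group on flags: for partitions `ν`, `μ` of `n` (each with `n` non-decreasing parts, zeros allowed), the inner product of the permutation characters of `GL_n(q)` on partial flags of types `ν` and `μ` equals the inner product of the permutation characters of `Sym(n)` on the cosets of the Young subgroups of types `ν` and `μ` (both count the orbits on pairs). -/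
theorem result {F : Type*} [Field F] [Fintype F] [DecidableEq F] {n : ℕ} (ν μ : Fin n → ℕ) (hν : Monotone ν) (hνs : ∑ i, ν i = n)
    (hμ : Monotone μ) (hμs : ∑ i, μ i = n) :
    (Nat.card (GL (Fin n) F) : ℂ)⁻¹ * ∑ g : GL (Fin n) F,
        Cfsg.fixedPointCharacter (Cfsg.parabolicGL n F ν) g * Cfsg.fixedPointCharacter (Cfsg.parabolicGL n F μ) g =
      (Nat.card (Equiv.Perm (Fin n)) : ℂ)⁻¹ * ∑ σ : Equiv.Perm (Fin n),
        Cfsg.fixedPointCharacter (Cfsg.youngSubgroup ν) σ * Cfsg.fixedPointCharacter (Cfsg.youngSubgroup μ) σ := by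
  rw [Cfsg.Agent.H95.Flag.inner_parabolic ν μ, Cfsg.Agent.H95.Flag.inner_young ν μ]

end Cfsg.Agent.S2423
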