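import Cfsg.Statements.S2428
import Cfsg.Agent.H44.SL2TorusB

set_option autoImplicit false
open Cfsg

namespace Cfsg.Agent.S2428

/-- Let F be a finite field with q elements, q odd, and let d be a diagonal element of SL₂ over F whose diagonal entry a has a² ≠ 1 (such d exist exactly when q > 3). Then the centraliser of d is precisely the diagonal subgroup T; the normaliser of T has order 2(q − 1) and exactly (q + 5)/2 conjugacy classes; and every element of that normaliser outside T has square equal to −1. -/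
theorem result {F : Type*} [Field F] [Fintype F] (hodd : Odd (Fintype.card F))
    (d : Matrix.SpecialLinearGroup (Fin 2) F) (hd01 : (d : Matrix (Fin 2) (Fin 2) F) 0 1 = 0) (hd10 : (d : Matrix (Fin 2) (Fin 2) F) 1 0 = 0) (hda : (d : Matrix (Fin 2) (Fin 2) F) 0 0 ^ 2 ≠ 1) :
    (∀ g : Matrix.SpecialLinearGroup (Fin 2) F, g ∈ Subgroup.centralizer ({d} : Set (Matrix.SpecialLinearGroup (Fin 2) F)) ↔ ((g : Matrix (Fin 2) (Fin 2) F) 0 1 = 0 ∧ (g : Matrix (Fin 2) (Fin 2) F) 1 0 = 0)) ∧
    Nat.card (Subgroup.normalizer ((Subgroup.centralizer ({d} : Set (Matrix.SpecialLinearGroup (Fin 2) F))) : Set (Matrix.SpecialLinearGroup (Fin 2) F))) = 2 * (Fintype.card F - 1) ∧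
    Nat.card (ConjClasses (Subgroup.normalizer ((Subgroup.centralizer ({d} : Set (Matrix.SpecialLinearGroup (Fin 2) F))) : Set (Matrix.SpecialLinearGroup (Fin 2) F)))) = (Fintype.card F + 5) / 2 ∧
    ∀ g : Matrix.SpecialLinearGroup (Fin 2) F, g ∈ Subgroup.normalizer ((Subgroup.centralizer ({d} : Set (Matrix.SpecialLinearGroup (Fin 2) F))) : Set (Matrix.SpecialLinearGroup (Fin 2) F)) →
      g ∉ Subgroup.centralizer ({d} : Set (Matrix.SpecialLinearGroup (Fin 2) F)) → ((g * g) : Matrix (Fin 2) (Fin 2) F) = -1 := by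
  have h2 := Cfsg.Agent.H44.two_ne_zero_of_odd hodd
  have ht := Cfsg.Agent.H44.sl2_trace_sq_diag d hd01 hda
  have hcard := Cfsg.Agent.H44.sl2_card_centralizer_diag d hd01 hd10 hda
  have hq5 : 5 ≤ Fintype.card F := by
    have hq : 1 < Fintype.card F := Fintype.one_lt_card
    obtain ⟨k, hk⟩ := hodd
    by_contra hlt
    have h3 : Fintype.card F = 3 := by omega
    apply hda
    have hd := Cfsg.Agent.H65.SL2.det_eq d
    have h0 : d.1 0 0 ≠ 0 := by
      intro h
      rw [h, hd01] at hd
      simp at hd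
    have := FiniteField.pow_card_sub_one_eq_one (d.1 0 0) h0
    rw [h3] at this
    exact this
  refine ⟨Cfsg.Agent.H44.sl2_mem_centralizer_diag d hd01 hd10 hda, ?_, ?_, ?_⟩
  · rw [Cfsg.Agent.H44.sl2_card_normalizer hodd ht, hcard]
  · have := Cfsg.Agent.H44.sl2_card_conjClasses_normalizer hodd ht (by rw [hcard]; omega)
    rw [hcard] at this
    omega
  · intro g hg hgT
    have := Cfsg.Agent.H44.sl2_normalizer_sq h2 ht hg hgT
    rw [← Matrix.SpecialLinearGroup.coe_mul, this]
    simp

end Cfsg.Agent.S2428
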