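import Cfsg.Statements.S2429
import Cfsg.Agent.H44.SL2TorusB

set_option autoImplicit false
open Cfsg

namespace Cfsg.Agent.S2429

/-- Let F be a finite field with q elements, q odd. Then SL₂ over F contains a cyclic subgroup T′ of order q + 1 (a non-split torus) with the following properties: T′ is its own centraliser, and indeed the centraliser of each element of T′ other than 1 and −1 is exactly T′; every element of SL₂ having no eigenvector in F² is conjugate to an element of T′; the normaliser of T′ has order 2(q + 1) and exactly (q + 7)/2 conjugacy classes; and every element of that normaliser outside T′ has square −1. -/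
theorem result {F : Type*} [Field F] [Fintype F] (hodd : Odd (Fintype.card F)) :
    ∃ T' : Subgroup (Matrix.SpecialLinearGroup (Fin 2) F), IsCyclic T' ∧ Nat.card T' = Fintype.card F + 1 ∧
      Subgroup.centralizer ((T' : Set (Matrix.SpecialLinearGroup (Fin 2) F))) = T' ∧
      (∀ g : Matrix.SpecialLinearGroup (Fin 2) F, g ∈ T' → (g : Matrix (Fin 2) (Fin 2) F) ≠ 1 → (g : Matrix (Fin 2) (Fin 2) F) ≠ -1 → Subgroup.centralizer ({g} : Set (Matrix.SpecialLinearGroup (Fin 2) F)) = T') ∧
      (∀ g : Matrix.SpecialLinearGroup (Fin 2) F, (∀ (c : F) (v : Fin 2 → F), v ≠ 0 → (g : Matrix (Fin 2) (Fin 2) F).mulVec v ≠ c • v) → ∃ h : Matrix.SpecialLinearGroup (Fin 2) F, h * g * h⁻¹ ∈ T') ∧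
      Nat.card (Subgroup.normalizer (T' : Set (Matrix.SpecialLinearGroup (Fin 2) F))) = 2 * (Fintype.card F + 1) ∧
      Nat.card (ConjClasses (Subgroup.normalizer (T' : Set (Matrix.SpecialLinearGroup (Fin 2) F)))) = (Fintype.card F + 7) / 2 ∧
      ∀ g : Matrix.SpecialLinearGroup (Fin 2) F, g ∈ Subgroup.normalizer (T' : Set (Matrix.SpecialLinearGroup (Fin 2) F)) → g ∉ T' → ((g * g) : Matrix (Fin 2) (Fin 2) F) = -1 := by
  obtain ⟨ν, g₁, hν, h00, h01, h10⟩ := Cfsg.Agent.H44.exists_ns_elt hodd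
  have h2 := Cfsg.Agent.H44.two_ne_zero_of_odd hodd
  have hell := Cfsg.Agent.H44.elliptic_of_ns hν g₁ h00 h01 h10
  have ht := Cfsg.Agent.H44.elliptic_trace_sq hodd g₁ hell
  have hcard := Cfsg.Agent.H44.sl2_card_centralizer_elliptic hodd g₁ hell
  have hns := Cfsg.Agent.H44.sl2_nonScalar_of_trace_sq g₁ ht
  have hq : 1 < Fintype.card F := Fintype.one_lt_card
  have hq3 : 3 ≤ Fintype.card F := by
    obtain ⟨k, hk⟩ := hodd
    omega
  have hq2 : Fintype.card F % 2 = 1 := Nat.odd_iff.mp hodd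
  refine ⟨Subgroup.centralizer ({g₁} : Set (Matrix.SpecialLinearGroup (Fin 2) F)),
    Cfsg.Agent.H44.sl2_isCyclic_centralizer_ns hν g₁ h00 h01 h10, hcard, ?_, ?_, ?_, ?_, ?_, ?_⟩
  · apply le_antisymm
    · intro x hx
      rw [Cfsg.Agent.H44.mem_centralizer_singleton_iff]
      exact Subgroup.mem_centralizer_iff.mp hx g₁ (Cfsg.Agent.H44.self_mem_centralizer_singleton g₁)
    · intro x hx
      rw [Subgroup.mem_centralizer_iff]
      intro y hy
      rw [SetLike.mem_coe, Cfsg.Agent.H44.mem_centralizer_singleton_iff] at hy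
      rw [Cfsg.Agent.H44.mem_centralizer_singleton_iff] at hx
      exact Cfsg.Agent.H44.sl2_commute_of_commute hns hy.symm hx.symm
  · intro g hg hg1 hgm
    have hgns : Cfsg.Agent.H44.NonScalar (g : Matrix (Fin 2) (Fin 2) F) :=
      Cfsg.Agent.H44.sl2_nonScalar_of_ne g (fun h => hg1 (by rw [h]; rfl)) (fun h => hgm (by rw [h]; simp))
    rw [Cfsg.Agent.H44.mem_centralizer_singleton_iff] at hg
    exact Cfsg.Agent.H44.sl2_centralizer_eq hns hgns hg.symm
  · intro g hg
    exact Cfsg.Agent.H44.exists_conj_mem_ns hodd hν g₁ h00 h01 h10 g hg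
  · rw [Cfsg.Agent.H44.sl2_card_normalizer hodd ht, hcard]
  · have := Cfsg.Agent.H44.sl2_card_conjClasses_normalizer hodd ht (by rw [hcard]; omega)
    rw [hcard] at this
    omega
  · intro g hg hgT
    have := Cfsg.Agent.H44.sl2_normalizer_sq h2 ht hg hgT
    rw [← Matrix.SpecialLinearGroup.coe_mul, this]
    simp

end Cfsg.Agent.S2429
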