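import Cfsg.Statements.S2430
import Cfsg.Agent.H44.SL2Sylow

set_option autoImplicit false
open Cfsg

namespace Cfsg.Agent.S2430

/-- Let F be a finite field with q elements, q odd, ℓ an odd prime, and P a Sylow ℓ-subgroup of SL₂ over F. If ℓ divides q − 1, the centraliser of P is cyclic of order q − 1 (a split torus) and the normaliser of P has order 2(q − 1); if ℓ divides q + 1, the centraliser of P is cyclic of order q + 1 (a non-split torus) and the normaliser of P has order 2(q + 1). -/
theorem result {F : Type*} [Field F] [Fintype F] (hodd : Odd (Fintype.card F)) (ℓ : ℕ) [Fact ℓ.Prime] (hℓ : ℓ ≠ 2)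
    (P : Sylow ℓ (Matrix.SpecialLinearGroup (Fin 2) F)) :
    (ℓ ∣ Fintype.card F - 1 →
      Nat.card (Subgroup.centralizer ((P : Subgroup (Matrix.SpecialLinearGroup (Fin 2) F)) : Set (Matrix.SpecialLinearGroup (Fin 2) F))) = Fintype.card F - 1 ∧
      IsCyclic (Subgroup.centralizer ((P : Subgroup (Matrix.SpecialLinearGroup (Fin 2) F)) : Set (Matrix.SpecialLinearGroup (Fin 2) F))) ∧
      Nat.card (Subgroup.normalizer ((P : Subgroup (Matrix.SpecialLinearGroup (Fin 2) F)) : Set (Matrix.SpecialLinearGroup (Fin 2) F))) = 2 * (Fintype.card F - 1)) ∧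
    (ℓ ∣ Fintype.card F + 1 →
      Nat.card (Subgroup.centralizer ((P : Subgroup (Matrix.SpecialLinearGroup (Fin 2) F)) : Set (Matrix.SpecialLinearGroup (Fin 2) F))) = Fintype.card F + 1 ∧
      IsCyclic (Subgroup.centralizer ((P : Subgroup (Matrix.SpecialLinearGroup (Fin 2) F)) : Set (Matrix.SpecialLinearGroup (Fin 2) F))) ∧
      Nat.card (Subgroup.normalizer ((P : Subgroup (Matrix.SpecialLinearGroup (Fin 2) F)) : Set (Matrix.SpecialLinearGroup (Fin 2) F))) = 2 * (Fintype.card F + 1)) := by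
  have hℓp : ℓ.Prime := Fact.out
  have hq1 : 1 < Fintype.card F := Fintype.one_lt_card
  have hno : ℓ ∣ Fintype.card F - 1 → ℓ ∣ Fintype.card F + 1 → False := by
    intro h1 h2
    have h3 := Nat.dvd_sub h2 h1
    have e : Fintype.card F + 1 - (Fintype.card F - 1) = 2 := by omega
    rw [e] at h3
    exact hℓ ((Nat.prime_dvd_prime_iff_eq hℓp Nat.prime_two).mp h3)
  constructor
  · intro hd
    obtain ⟨z, ht, hdz, hC, hN⟩ := Cfsg.Agent.H44.sylow_SL2_odd hodd ℓ hℓ P (Or.inl hd)
    have hcard : Nat.card (Subgroup.centralizer ({z} : Set (Matrix.SpecialLinearGroup (Fin 2) F))) =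
        Fintype.card F - 1 := by
      by_cases hell : Cfsg.Agent.H44.Elliptic (z : Matrix (Fin 2) (Fin 2) F)
      · exfalso
        rw [Cfsg.Agent.H44.sl2_card_centralizer_elliptic hodd z hell] at hdz
        exact hno hd hdz
      · exact Cfsg.Agent.H44.sl2_card_centralizer_split hodd z ht hell
    refine ⟨?_, ?_, ?_⟩
    · rw [hC, hcard]
    · rw [hC]; exact Cfsg.Agent.H44.sl2_isCyclic_centralizer hodd z ht
    · rw [hN, Cfsg.Agent.H44.sl2_card_normalizer hodd ht, hcard]
  · intro hd
    obtain ⟨z, ht, hdz, hC, hN⟩ := Cfsg.Agent.H44.sylow_SL2_odd hodd ℓ hℓ P (Or.inr hd)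
    have hcard : Nat.card (Subgroup.centralizer ({z} : Set (Matrix.SpecialLinearGroup (Fin 2) F))) =
        Fintype.card F + 1 := by
      by_cases hell : Cfsg.Agent.H44.Elliptic (z : Matrix (Fin 2) (Fin 2) F)
      · exact Cfsg.Agent.H44.sl2_card_centralizer_elliptic hodd z hell
      · exfalso
        rw [Cfsg.Agent.H44.sl2_card_centralizer_split hodd z ht hell] at hdz
        exact hno hdz hd
    refine ⟨?_, ?_, ?_⟩
    · rw [hC, hcard]
    · rw [hC]; exact Cfsg.Agent.H44.sl2_isCyclic_centralizer hodd z ht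
    · rw [hN, Cfsg.Agent.H44.sl2_card_normalizer hodd ht, hcard]

end Cfsg.Agent.S2430
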