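import Cfsg.Statements.S2431
import Cfsg.Agent.H61.SL2Norm

set_option autoImplicit false
open Cfsg

namespace Cfsg.Agent.S2431

/-- Let F be a finite field with q elements, q odd, and S a Sylow 2-subgroup of SL₂ over F. The centraliser of S is the centre of SL₂ (of order 2); S is its own normaliser when q ≡ ±1 mod 8, and has index 3 in its normaliser when q ≡ ±3 mod 8. -/
theorem result {F : Type*} [Field F] [Fintype F] (hodd : Odd (Fintype.card F)) (S : Sylow 2 (Matrix.SpecialLinearGroup (Fin 2) F)) :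
    Subgroup.centralizer ((S : Subgroup (Matrix.SpecialLinearGroup (Fin 2) F)) : Set (Matrix.SpecialLinearGroup (Fin 2) F)) = Subgroup.center (Matrix.SpecialLinearGroup (Fin 2) F) ∧
    ((Fintype.card F % 8 = 1 ∨ Fintype.card F % 8 = 7) →
      Subgroup.normalizer ((S : Subgroup (Matrix.SpecialLinearGroup (Fin 2) F)) : Set (Matrix.SpecialLinearGroup (Fin 2) F)) = (S : Subgroup (Matrix.SpecialLinearGroup (Fin 2) F))) ∧
    ((Fintype.card F % 8 = 3 ∨ Fintype.card F % 8 = 5) →
      Nat.card (Subgroup.normalizer ((S : Subgroup (Matrix.SpecialLinearGroup (Fin 2) F)) : Set (Matrix.SpecialLinearGroup (Fin 2) F))) = 3 * Nat.card S) := by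
  classical
  obtain ⟨n, ⟨e⟩⟩ := Cfsg.Agent.H61.sylow_sl2_quaternion hodd S
  have hcardS : Nat.card (S : Subgroup (Matrix.SpecialLinearGroup (Fin 2) F)) = 4 * 2 ^ n := by
    rw [Nat.card_congr e.toEquiv, Nat.card_eq_fintype_card, QuaternionGroup.card]
  have hG : Nat.card (Matrix.SpecialLinearGroup (Fin 2) F) =
      Fintype.card F * (Fintype.card F ^ 2 - 1) := Cfsg.Agent.H7.card_SL2
  refine ⟨Cfsg.Agent.H61.sl2_centralizer_sylow hodd S, ?_, ?_⟩
  · intro hq
    have h16 : 2 ^ 4 ∣ Nat.card (Matrix.SpecialLinearGroup (Fin 2) F) := by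
      rw [hG]
      apply Dvd.dvd.mul_left
      rcases hq with hq | hq
      · obtain ⟨k, hk⟩ : ∃ k, Fintype.card F = 8 * k + 1 := ⟨Fintype.card F / 8, by omega⟩
        rw [hk]
        refine ⟨4 * k ^ 2 + k, ?_⟩
        have : (8 * k + 1) ^ 2 = 2 ^ 4 * (4 * k ^ 2 + k) + 1 := by ring
        rw [this]; simp
      · obtain ⟨k, hk⟩ : ∃ k, Fintype.card F = 8 * k + 7 := ⟨Fintype.card F / 8, by omega⟩
        rw [hk]
        refine ⟨4 * k ^ 2 + 7 * k + 3, ?_⟩
        have : (8 * k + 7) ^ 2 = 2 ^ 4 * (4 * k ^ 2 + 7 * k + 3) + 1 := by ring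
        rw [this]; simp
    have hdvd := S.pow_dvd_card_of_pow_dvd_card h16
    rw [hcardS] at hdvd
    have hn : 2 ≤ n := by
      by_contra hlt
      have : n = 0 ∨ n = 1 := by omega
      rcases this with rfl | rfl <;> norm_num at hdvd
    exact Cfsg.Agent.H61.sl2_normalizer_sylow_big hodd S n hn e
  · intro hq
    have hqodd := hodd
    have h8 : ∃ m, Odd m ∧ Nat.card (Matrix.SpecialLinearGroup (Fin 2) F) = 2 ^ 3 * m := by
      rw [hG]
      rcases hq with hq | hq
      · obtain ⟨k, hk⟩ : ∃ k, Fintype.card F = 8 * k + 3 := ⟨Fintype.card F / 8, by omega⟩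
        rw [hk]
        refine ⟨(8 * k + 3) * (8 * k ^ 2 + 6 * k + 1), ?_, ?_⟩
        · apply Odd.mul
          · exact ⟨4 * k + 1, by ring⟩
          · exact ⟨4 * k ^ 2 + 3 * k, by ring⟩
        · have : (8 * k + 3) ^ 2 = 2 ^ 3 * (8 * k ^ 2 + 6 * k + 1) + 1 := by ring
          rw [this, Nat.add_sub_cancel]; ring
      · obtain ⟨k, hk⟩ : ∃ k, Fintype.card F = 8 * k + 5 := ⟨Fintype.card F / 8, by omega⟩
        rw [hk]
        refine ⟨(8 * k + 5) * (8 * k ^ 2 + 10 * k + 3), ?_, ?_⟩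
        · apply Odd.mul
          · exact ⟨4 * k + 2, by ring⟩
          · exact ⟨4 * k ^ 2 + 5 * k + 1, by ring⟩
        · have : (8 * k + 5) ^ 2 = 2 ^ 3 * (8 * k ^ 2 + 10 * k + 3) + 1 := by ring
          rw [this, Nat.add_sub_cancel]; ring
    obtain ⟨m, hm, hGm⟩ := h8
    have hS8 : Nat.card (S : Subgroup (Matrix.SpecialLinearGroup (Fin 2) F)) = 2 ^ 3 :=
      Cfsg.Agent.H61.sylow2_card_of_eq S 3 m hm hGm
    have hn : n = 1 := by
      rw [hcardS] at hS8
      have h2n : 2 ^ n = 2 ^ 1 := by omega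
      exact Nat.pow_right_injective (le_refl 2) h2n
    subst hn
    have h24 := Cfsg.Agent.H61.sl2_normalizer_sylow_small hodd S e
    rw [h24]
    show 24 = 3 * Nat.card (S : Subgroup (Matrix.SpecialLinearGroup (Fin 2) F))
    rw [hS8]
    norm_num

end Cfsg.Agent.S2431
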