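import Cfsg.Statements.S2434
import Cfsg.Agent.H44.SL2TorusCharD

set_option autoImplicit false
open Cfsg

namespace Cfsg.Agent.S2434

/-- Let F be a finite field with q elements, q odd, and C a cyclic subgroup of order q + 1 of SL₂ over F (a non-split torus; it contains the centre). For every homomorphism θ from C to the non-zero complex numbers with θ² ≠ 1 there is an irreducible complex character χ of degree q − 1 such that χ(c) = −θ(c) − θ(c)⁻¹ for every non-central c in C, χ(zg) = θ(z)χ(g) for central z in C, χ vanishes at diagonal elements with entry a, a² ≠ 1, and χ takes the value −1 at every upper unitriangular element other than 1. Conversely every irreducible character of degree q − 1 has, for some such θ, the values −θ(c) − θ(c)⁻¹ at the non-central elements c of C (for q ≥ 5 these are exactly the cuspidal characters of degree q − 1). -/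
theorem result {F : Type*} [Field F] [Fintype F] (hodd : Odd (Fintype.card F))
    (C : Subgroup (Matrix.SpecialLinearGroup (Fin 2) F)) (hC : IsCyclic C) (hcard : Nat.card C = Fintype.card F + 1) :
    (∀ θ : C →* ℂˣ, (∃ c : C, θ c ^ 2 ≠ 1) →
      ∃ χ : Matrix.SpecialLinearGroup (Fin 2) F → ℂ, Cfsg.IsIrrCharacter (Matrix.SpecialLinearGroup (Fin 2) F) χ ∧ χ 1 = (Fintype.card F : ℂ) - 1 ∧
        (∀ c : C, (c : Matrix.SpecialLinearGroup (Fin 2) F) ∉ Subgroup.center (Matrix.SpecialLinearGroup (Fin 2) F) → χ c = -((θ c).val + (θ c)⁻¹.val)) ∧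
        (∀ c : C, (c : Matrix.SpecialLinearGroup (Fin 2) F) ∈ Subgroup.center (Matrix.SpecialLinearGroup (Fin 2) F) → ∀ g : Matrix.SpecialLinearGroup (Fin 2) F, χ ((c : Matrix.SpecialLinearGroup (Fin 2) F) * g) = (θ c).val * χ g) ∧
        (∀ g : Matrix.SpecialLinearGroup (Fin 2) F, (g : Matrix (Fin 2) (Fin 2) F) 0 1 = 0 → (g : Matrix (Fin 2) (Fin 2) F) 1 0 = 0 → (g : Matrix (Fin 2) (Fin 2) F) 0 0 ^ 2 ≠ 1 → χ g = 0) ∧
        (∀ g : Matrix.SpecialLinearGroup (Fin 2) F, (g : Matrix (Fin 2) (Fin 2) F) 1 0 = 0 → (g : Matrix (Fin 2) (Fin 2) F) 0 0 = 1 → (g : Matrix (Fin 2) (Fin 2) F) 1 1 = 1 → (g : Matrix (Fin 2) (Fin 2) F) 0 1 ≠ 0 → χ g = -1)) ∧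
    (∀ χ : Matrix.SpecialLinearGroup (Fin 2) F → ℂ, Cfsg.IsIrrCharacter (Matrix.SpecialLinearGroup (Fin 2) F) χ → χ 1 = (Fintype.card F : ℂ) - 1 →
      ∃ θ : C →* ℂˣ, (∃ c : C, θ c ^ 2 ≠ 1) ∧
        ∀ c : C, (c : Matrix.SpecialLinearGroup (Fin 2) F) ∉ Subgroup.center (Matrix.SpecialLinearGroup (Fin 2) F) → χ c = -((θ c).val + (θ c)⁻¹.val)) := by
  classical
  letI : Fintype (Matrix.SpecialLinearGroup (Fin 2) F) := Fintype.ofFinite _
  letI : Fintype (MulChar F ℂ) := Fintype.ofFinite _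
  letI : Fintype (Cfsg.IrrCharacter (Matrix.SpecialLinearGroup (Fin 2) F)) := Cfsg.Agent.H4.fintypeIrr _
  obtain ⟨α₀, ξ₁, ξ₂, D⟩ := Cfsg.Agent.H44.exists_quadDecomp hodd
  have T := Cfsg.Agent.H44.isNSTorus_of_cyclic hodd C hC hcard
  letI : Fintype C := Fintype.ofFinite _
  letI : Fintype (C →* ℂˣ) := @Fintype.ofFinite _ (Cfsg.Agent.H44.finite_hom_units T.comm)
  exact ⟨fun θ hθ => T.full_forward hodd D θ hθ, fun χ hχ h1 => T.full_converse hodd D hχ h1⟩

end Cfsg.Agent.S2434
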