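import Cfsg.Statements.S2435
import Cfsg.Agent.H44.SL2TorusCharD

set_option autoImplicit false
open Cfsg

namespace Cfsg.Agent.S2435

/-- Let F be a finite field with q elements, q odd and q ≥ 5, and χ an irreducible complex character of SL₂ over F. If χ has degree (q + 1)/2, then at a diagonal element with entry a, a² ≠ 1, χ takes the value 1 when a is a square in F and −1 otherwise. If χ has degree (q − 1)/2, then at an element g with no eigenvector in F² (so g has order dividing q + 1), χ takes the value −1 when g raised to the power (q + 1)/2 is the identity and the value 1 otherwise. -/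
theorem result {F : Type*} [Field F] [Fintype F] (hodd : Odd (Fintype.card F)) (hq : 5 ≤ Fintype.card F)
    (χ : Matrix.SpecialLinearGroup (Fin 2) F → ℂ) (hχ : Cfsg.IsIrrCharacter (Matrix.SpecialLinearGroup (Fin 2) F) χ) (g : Matrix.SpecialLinearGroup (Fin 2) F) :
    (χ 1 = (((Fintype.card F + 1) / 2 : ℕ) : ℂ) → (g : Matrix (Fin 2) (Fin 2) F) 0 1 = 0 → (g : Matrix (Fin 2) (Fin 2) F) 1 0 = 0 → (g : Matrix (Fin 2) (Fin 2) F) 0 0 ^ 2 ≠ 1 →
      (IsSquare ((g : Matrix (Fin 2) (Fin 2) F) 0 0) → χ g = 1) ∧ (¬ IsSquare ((g : Matrix (Fin 2) (Fin 2) F) 0 0) → χ g = -1)) ∧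
    (χ 1 = (((Fintype.card F - 1) / 2 : ℕ) : ℂ) → (∀ (c : F) (v : Fin 2 → F), v ≠ 0 → (g : Matrix (Fin 2) (Fin 2) F).mulVec v ≠ c • v) →
      (((g ^ ((Fintype.card F + 1) / 2)) : Matrix (Fin 2) (Fin 2) F) = 1 → χ g = -1) ∧ (((g ^ ((Fintype.card F + 1) / 2)) : Matrix (Fin 2) (Fin 2) F) ≠ 1 → χ g = 1)) := by
  classical
  letI : Fintype (Matrix.SpecialLinearGroup (Fin 2) F) := Fintype.ofFinite _
  letI : Fintype (MulChar F ℂ) := Fintype.ofFinite _
  letI : Fintype (Cfsg.IrrCharacter (Matrix.SpecialLinearGroup (Fin 2) F)) := Cfsg.Agent.H4.fintypeIrr _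
  obtain ⟨α₀, ξ₁, ξ₂, D⟩ := Cfsg.Agent.H44.exists_quadDecomp hodd
  rw [Cfsg.Agent.H44.half_cast_add hodd, Cfsg.Agent.H44.half_cast_sub hodd]
  refine ⟨fun hd h01 h10 hsq => ?_, fun hd hg => ?_⟩
  · have hv := D.diag g h01 h10 hsq
    have hg : χ g = (if IsSquare ((g : Matrix (Fin 2) (Fin 2) F) 0 0) then (1 : ℂ) else -1) := by
      rcases Cfsg.Agent.H44.SL2_odd_of_degree_half_add hodd hq D hχ hd with h | h
      · rw [h]; exact hv.1
      · rw [h]; exact hv.2
    exact ⟨fun hs => by rw [hg, if_pos hs], fun hs => by rw [hg, if_neg hs]⟩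
  · have hc := (Cfsg.Agent.H44.SL2_odd_of_degree_half_sub hodd hq D hχ hd).1
    have h := Cfsg.Agent.H44.cuspidal_half_elliptic hodd D hχ hc hd g hg
    have hiff : ((g ^ ((Fintype.card F + 1) / 2) : Matrix.SpecialLinearGroup (Fin 2) F) :
        Matrix (Fin 2) (Fin 2) F) = 1 ↔ g ^ ((Fintype.card F + 1) / 2) = 1 := by
      constructor
      · intro h'
        exact Subtype.ext (by rw [h', Matrix.SpecialLinearGroup.coe_one])
      · intro h'
        rw [h', Matrix.SpecialLinearGroup.coe_one]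
    exact ⟨fun hp => h.1 (hiff.mp hp), fun hp => h.2 (fun h' => hp (hiff.mpr h'))⟩

end Cfsg.Agent.S2435
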