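import Cfsg.Statements.S2438
import Cfsg.Agent.H44.SL2Deg

set_option autoImplicit false
open Cfsg

namespace Cfsg.Agent.S2438

/-- Let F be a finite field with q elements, q odd, q ≥ 5, U the upper unitriangular subgroup of SL₂ over F, and χ an irreducible complex character. The sum of the values of χ over U equals 2q, q, 0, q, 0 according as the degree of χ is q + 1, q, q − 1, (q + 1)/2, (q − 1)/2; so among these five degrees the sum vanishes exactly for the degrees q − 1 and (q − 1)/2, i.e. the irreducible characters of those two degrees are the ones whose restriction to U does not contain the trivial character (the cuspidal characters), while those of degree q + 1, q and (q + 1)/2 are not cuspidal. -/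
theorem result {F : Type*} [Field F] [Fintype F] [DecidableEq F] (hodd : Odd (Fintype.card F)) (hq : 5 ≤ Fintype.card F)
    (χ : Matrix.SpecialLinearGroup (Fin 2) F → ℂ) (hχ : Cfsg.IsIrrCharacter (Matrix.SpecialLinearGroup (Fin 2) F) χ) :
    (χ 1 = (Fintype.card F : ℂ) + 1 →
      (∑ g : Matrix.SpecialLinearGroup (Fin 2) F, if (g : Matrix (Fin 2) (Fin 2) F) 1 0 = 0 ∧ (g : Matrix (Fin 2) (Fin 2) F) 0 0 = 1 ∧ (g : Matrix (Fin 2) (Fin 2) F) 1 1 = 1 then χ g else 0) = 2 * (Fintype.card F : ℂ)) ∧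
    (χ 1 = (Fintype.card F : ℂ) →
      (∑ g : Matrix.SpecialLinearGroup (Fin 2) F, if (g : Matrix (Fin 2) (Fin 2) F) 1 0 = 0 ∧ (g : Matrix (Fin 2) (Fin 2) F) 0 0 = 1 ∧ (g : Matrix (Fin 2) (Fin 2) F) 1 1 = 1 then χ g else 0) = (Fintype.card F : ℂ)) ∧
    (χ 1 = (Fintype.card F : ℂ) - 1 →
      (∑ g : Matrix.SpecialLinearGroup (Fin 2) F, if (g : Matrix (Fin 2) (Fin 2) F) 1 0 = 0 ∧ (g : Matrix (Fin 2) (Fin 2) F) 0 0 = 1 ∧ (g : Matrix (Fin 2) (Fin 2) F) 1 1 = 1 then χ g else 0) = 0) ∧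
    (χ 1 = (((Fintype.card F + 1) / 2 : ℕ) : ℂ) →
      (∑ g : Matrix.SpecialLinearGroup (Fin 2) F, if (g : Matrix (Fin 2) (Fin 2) F) 1 0 = 0 ∧ (g : Matrix (Fin 2) (Fin 2) F) 0 0 = 1 ∧ (g : Matrix (Fin 2) (Fin 2) F) 1 1 = 1 then χ g else 0) = (Fintype.card F : ℂ)) ∧
    (χ 1 = (((Fintype.card F - 1) / 2 : ℕ) : ℂ) →
      (∑ g : Matrix.SpecialLinearGroup (Fin 2) F, if (g : Matrix (Fin 2) (Fin 2) F) 1 0 = 0 ∧ (g : Matrix (Fin 2) (Fin 2) F) 0 0 = 1 ∧ (g : Matrix (Fin 2) (Fin 2) F) 1 1 = 1 then χ g else 0) = 0) := by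
  classical
  letI : Fintype (MulChar F ℂ) := Fintype.ofFinite _
  letI : Fintype (Cfsg.IrrCharacter (Matrix.SpecialLinearGroup (Fin 2) F)) := Cfsg.Agent.H4.fintypeIrr _
  obtain ⟨α₀, ξ₁, ξ₂, D⟩ := Cfsg.Agent.H44.exists_quadDecomp hodd
  have hcf := Cfsg.Agent.H4.isClassFunction_of_isCharacter (Cfsg.Agent.H4.isCharacter_of_isIrrCharacter hχ)
  rw [Cfsg.Agent.H44.sum_unitriangular χ, Cfsg.Agent.H44.sum_uSL_eq hcf,
    Cfsg.Agent.H44.half_cast_add hodd, Cfsg.Agent.H44.half_cast_sub hodd]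
  refine ⟨fun hd => ?_, fun hd => ?_, fun hd => ?_, fun hd => ?_, fun hd => ?_⟩
  · obtain ⟨α, -, h⟩ := Cfsg.Agent.H44.SL2_odd_of_degree_add_one hodd hq D hχ hd
    rw [h, Cfsg.Agent.H44.nSL_psSL, Complex.conj_ofNat]
    ring
  · have h := Cfsg.Agent.H44.SL2_odd_of_degree_q hodd D hχ hd
    rw [h, Cfsg.Agent.H44.nSL_stSL]
    simp
  · rw [Cfsg.Agent.H44.nSL_cuspidal (Cfsg.Agent.H44.SL2_odd_of_degree_sub_one hodd hq D hχ hd).1]
    simp
  · rcases Cfsg.Agent.H44.SL2_odd_of_degree_half_add hodd hq D hχ hd with h | h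
    · rw [h, D.nSL₁]
      simp
    · rw [h, D.nSL₂]
      simp
  · rw [Cfsg.Agent.H44.nSL_cuspidal (Cfsg.Agent.H44.SL2_odd_of_degree_half_sub hodd hq D hχ hd).1]
    simp

end Cfsg.Agent.S2438
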