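import Cfsg.Statements.S2531
import Cfsg.Agent.H47.SharpTwo

set_option autoImplicit false
open Cfsg

namespace Cfsg.Agent.S2531

/-- Let `F` be a finite field and `n ≥ 3`. No set of permutations of the points of the projective space of `Fⁿ`, each induced by an invertible semilinear transformation of `Fⁿ` (so a subset of the full projective semilinear group), is sharply 2-transitive on the points: it is impossible that for all pairs of distinct points `(a, b)` and `(c, d)` exactly one member of the set sends `a` to `c` and `b` to `d`. -/
theorem result {F : Type*} [Field F] [Finite F]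
    (n : ℕ) (hn : 3 ≤ n) (S : Set (Equiv.Perm (Projectivization F (Fin n → F))))
    (hS : ∀ s ∈ S, ∃ (σ : F ≃+* F) (f : (Fin n → F) →ₛₗ[(σ : F →+* F)] (Fin n → F)) (hf : Function.Injective f),
      ∀ x, s x = Projectivization.map f hf x) :
    ¬ (∀ a b c d : Projectivization F (Fin n → F), a ≠ b → c ≠ d →
        ∃! s, s ∈ S ∧ s a = c ∧ s b = d) := by
  exact Cfsg.Agent.H47.SharpTwo.main n hn S hS

end Cfsg.Agent.S2531
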