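import Cfsg.Statements.S2532

set_option autoImplicit false
open Cfsg

namespace Cfsg.Agent.S2532

open Equiv

/-- pigeonhole: many points with the same stabilizer in pairwise distinct orbits -/
theorem exists_same_stabilizer {G : Type*} [Group G] [Fintype G] {X : Type*} [Fintype X] [DecidableEq X]
    [MulAction G X] (r : ℕ) (h : 2 ^ Fintype.card G * (Fintype.card G * r) < Fintype.card X) :
    ∃ (S : Subgroup G) (x : Fin r → X), (∀ i, MulAction.stabilizer G (x i) = S) ∧
      (∀ i j, x i ∈ MulAction.orbit G (x j) → i = j) := by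
  classical
  let F : X → Set G := fun y => (MulAction.stabilizer G y : Set G)
  have hcard : Fintype.card (Set G) * (Fintype.card G * r) < Fintype.card X := by
    rw [Fintype.card_set]
    exact h
  obtain ⟨T, hT⟩ := Fintype.exists_lt_card_fiber_of_mul_lt_card F hcard
  set Z : Finset X := Finset.univ.filter (fun y => F y = T) with hZ
  let π : X → MulAction.orbitRel.Quotient G X := Quotient.mk''
  have hfib : ∀ a ∈ Z.image π, (Z.filter (fun y => π y = a)).card ≤ Fintype.card G := by
    intro a ha
    obtain ⟨y₀, hy₀, rfl⟩ := Finset.mem_image.mp ha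
    have hsub : Z.filter (fun y => π y = π y₀) ⊆ Finset.univ.image (fun g : G => g • y₀) := by
      intro y hy
      have h1 : π y = π y₀ := (Finset.mem_filter.mp hy).2
      have h2 : y ∈ MulAction.orbit G y₀ := Quotient.eq''.mp h1
      obtain ⟨g, hg⟩ := h2
      exact Finset.mem_image.mpr ⟨g, Finset.mem_univ _, hg⟩
    calc (Z.filter (fun y => π y = π y₀)).card ≤ (Finset.univ.image (fun g : G => g • y₀)).card :=
          Finset.card_le_card hsub
      _ ≤ (Finset.univ : Finset G).card := Finset.card_image_le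
      _ = Fintype.card G := Finset.card_univ
  have h1 : Z.card ≤ Fintype.card G * (Z.image π).card := Finset.card_le_mul_card_image Z _ hfib
  have hGpos : 0 < Fintype.card G := Fintype.card_pos
  have h2 : r < (Z.image π).card := by
    by_contra hcon
    push Not at hcon
    have : Fintype.card G * (Z.image π).card ≤ Fintype.card G * r := Nat.mul_le_mul_left _ hcon
    omega
  obtain ⟨t, ht, htcard⟩ := Finset.exists_subset_card_eq h2.le
  let ε : Fin r ≃ t := (Finset.equivFinOfCardEq htcard).symm
  have hch : ∀ i : Fin r, ∃ y ∈ Z, π y = (ε i : MulAction.orbitRel.Quotient G X) := by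
    intro i
    exact Finset.mem_image.mp (ht (ε i).2)
  choose x hxZ hxπ using hch
  have hZne : Z.Nonempty := by
    rw [← Finset.card_pos]
    omega
  obtain ⟨y₀, hy₀⟩ := hZne
  refine ⟨MulAction.stabilizer G y₀, x, ?_, ?_⟩
  · intro i
    apply SetLike.coe_injective
    have h3 : F (x i) = T := (Finset.mem_filter.mp (hxZ i)).2
    have h4 : F y₀ = T := (Finset.mem_filter.mp hy₀).2
    exact h3.trans h4.symm
  · intro i j hij
    have h3 : π (x i) = π (x j) := Quotient.eq''.mpr hij
    rw [hxπ, hxπ] at h3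
    exact ε.injective (Subtype.ext h3)

section
variable {G : Type*} [Group G] {X : Type*} [MulAction G X] (S : Subgroup G) {r : ℕ} (x : Fin r → X)
  (hS : ∀ i, MulAction.stabilizer G (x i) = S)

/-- the equivariant map `(G/S) × Fin r → X` -/
def e₀ : (G ⧸ S) × Fin r → X := fun p =>
  Quotient.liftOn' p.1 (fun g => g • x p.2) (by
    intro a b hab
    rw [QuotientGroup.leftRel_apply] at hab
    have h1 : (a⁻¹ * b) • x p.2 = x p.2 := by
      rw [← hS p.2] at hab
      exact hab
    show a • x p.2 = b • x p.2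
    calc a • x p.2 = a • ((a⁻¹ * b) • x p.2) := by rw [h1]
      _ = b • x p.2 := by rw [smul_smul, mul_inv_cancel_left])

theorem e₀_mk (g : G) (i : Fin r) : e₀ S x hS ((g : G ⧸ S), i) = g • x i := rfl

theorem e₀_smul (g : G) (p : (G ⧸ S) × Fin r) : e₀ S x hS (g • p.1, p.2) = g • e₀ S x hS p := by
  obtain ⟨q, i⟩ := p
  induction q using QuotientGroup.induction_on with
  | H a =>
    show e₀ S x hS (((g * a : G) : G ⧸ S), i) = g • e₀ S x hS ((a : G ⧸ S), i)
    rw [e₀_mk, e₀_mk, mul_smul]

theorem e₀_injective (hx : ∀ i j, x i ∈ MulAction.orbit G (x j) → i = j) :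
    Function.Injective (e₀ S x hS) := by
  rintro ⟨q, i⟩ ⟨q', j⟩ h
  induction q using QuotientGroup.induction_on with
  | H a =>
  induction q' using QuotientGroup.induction_on with
  | H b =>
  rw [e₀_mk, e₀_mk] at h
  have hij : i = j := by
    apply hx
    refine ⟨a⁻¹ * b, ?_⟩
    show (a⁻¹ * b) • x j = x i
    rw [mul_smul, ← h, inv_smul_smul]
  subst hij
  have h2 : a⁻¹ * b ∈ S := by
    rw [← hS i, MulAction.mem_stabilizer_iff, mul_smul, ← h, inv_smul_smul]
  have h3 : (a : G ⧸ S) = (b : G ⧸ S) := QuotientGroup.eq.mpr h2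
  rw [h3]

end

/-- `σ ↦ id × σ` -/
def prodHom (Q : Type*) (r : ℕ) : Equiv.Perm (Fin r) →* Equiv.Perm (Q × Fin r) where
  toFun σ := Equiv.prodCongrRight (fun _ => σ)
  map_one' := by ext p <;> rfl
  map_mul' σ τ := by ext p <;> rfl

theorem prodHom_apply (Q : Type*) (r : ℕ) (σ : Equiv.Perm (Fin r)) (p : Q × Fin r) :
    prodHom Q r σ p = (p.1, σ p.2) := rfl

theorem sign_prodHom (Q : Type*) [Fintype Q] [DecidableEq Q] (r : ℕ) (σ : Equiv.Perm (Fin r))
    (hσ : Equiv.Perm.sign σ = 1) : Equiv.Perm.sign (prodHom Q r σ) = 1 := by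
  show Equiv.Perm.sign (Equiv.prodCongrRight (fun _ => σ)) = 1
  rw [Equiv.Perm.sign_prodCongrRight]
  simp [hσ]

section
variable {Q : Type*} {X : Type*} {r : ℕ} (E : Q × Fin r → X) (hE : Function.Injective E)

open Classical in
/-- permutations of `Fin r` acting on the image of `E` through the second coordinate -/
noncomputable def Theta : Equiv.Perm (Fin r) →* Equiv.Perm X :=
  (Equiv.Perm.extendDomainHom (Equiv.ofInjective E hE)).comp (prodHom Q r)

theorem Theta_apply_in (σ : Equiv.Perm (Fin r)) (p : Q × Fin r) :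
    Theta E hE σ (E p) = E (p.1, σ p.2) := by
  classical
  exact Equiv.Perm.extendDomain_apply_image (prodHom Q r σ) (Equiv.ofInjective E hE) p

theorem Theta_apply_out (σ : Equiv.Perm (Fin r)) (y : X) (hy : y ∉ Set.range E) :
    Theta E hE σ y = y := by
  classical
  exact Equiv.Perm.extendDomain_apply_not_subtype (prodHom Q r σ) (Equiv.ofInjective E hE) hy

theorem Theta_injective [Nonempty Q] : Function.Injective (Theta E hE) := by
  classical
  apply (Equiv.Perm.extendDomainHom_injective (Equiv.ofInjective E hE)).comp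
  intro σ τ hστ
  apply Equiv.ext
  intro i
  obtain ⟨q⟩ := ‹Nonempty Q›
  have := congrArg (fun ρ : Equiv.Perm (Q × Fin r) => (ρ (q, i)).2) hστ
  simpa [prodHom_apply] using this

theorem Theta_sign [Fintype Q] [Fintype X] [DecidableEq X] (σ : Equiv.Perm (Fin r))
    (hσ : Equiv.Perm.sign σ = 1) : Equiv.Perm.sign (Theta E hE σ) = 1 := by
  classical
  exact (@Equiv.Perm.sign_extendDomain _ _ _ _ _ _ (prodHom Q r σ) _
    (fun _ => Classical.propDecidable _) (Equiv.ofInjective E hE)).trans (sign_prodHom Q r σ hσ)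

end

/-- There is a function `f` of two natural-number arguments such that, whenever `m ≥ f(n, r)`, every subgroup of order `n` of the alternating group of degree `m` centralizes some subgroup of that alternating group isomorphic to the alternating group of degree `r`. -/
theorem result :
    ∃ f : ℕ → ℕ → ℕ, ∀ (m r : ℕ) (H : Subgroup ↥(alternatingGroup (Fin m))), f (Nat.card H) r ≤ m →
      ∃ K : Subgroup ↥(alternatingGroup (Fin m)), Nonempty (↥K ≃* ↥(alternatingGroup (Fin r))) ∧
        K ≤ Subgroup.centralizer (H : Set ↥(alternatingGroup (Fin m))) := by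
  classical
  refine ⟨fun n r => 2 ^ n * (n * r) + 1, ?_⟩
  intro m r H hm
  have hm2 : 2 ^ Nat.card H * (Nat.card H * r) + 1 ≤ m := hm
  have hm' : 2 ^ Fintype.card H * (Fintype.card H * r) < Fintype.card (Fin m) := by
    rw [Nat.card_eq_fintype_card] at hm2
    rw [Fintype.card_fin]
    omega
  obtain ⟨S, x, hS, hx⟩ := exists_same_stabilizer (G := H) (X := Fin m) r hm'
  have hinj := e₀_injective S x hS hx
  have hΘ_comm : ∀ (σ : Equiv.Perm (Fin r)) (h : H) (y : Fin m),
      Theta _ hinj σ (h • y) = h • Theta _ hinj σ y := by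
    intro σ h y
    by_cases hy : y ∈ Set.range (e₀ S x hS)
    · obtain ⟨p, rfl⟩ := hy
      rw [← e₀_smul, Theta_apply_in, Theta_apply_in, ← e₀_smul]
    · rw [Theta_apply_out _ hinj σ y hy]
      apply Theta_apply_out
      rintro ⟨p, hp⟩
      apply hy
      refine ⟨(h⁻¹ • p.1, p.2), ?_⟩
      rw [e₀_smul, hp, inv_smul_smul]
  let Θ' : alternatingGroup (Fin r) →* alternatingGroup (Fin m) :=
    ((Theta _ hinj).comp (alternatingGroup (Fin r)).subtype).codRestrict (alternatingGroup (Fin m))
      (fun σ => Equiv.Perm.mem_alternatingGroup.mpr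
        (Theta_sign _ hinj σ (Equiv.Perm.mem_alternatingGroup.mp σ.2)))
  have hΘ'_inj : Function.Injective Θ' := by
    intro σ τ hστ
    have : Theta _ hinj (σ : Equiv.Perm (Fin r)) = Theta _ hinj (τ : Equiv.Perm (Fin r)) :=
      congrArg Subtype.val hστ
    exact Subtype.ext (Theta_injective _ hinj this)
  refine ⟨Θ'.range, ⟨(MonoidHom.ofInjective hΘ'_inj).symm⟩, ?_⟩
  rintro _ ⟨σ, rfl⟩
  rw [Subgroup.mem_centralizer_iff]
  intro h hh
  apply Subtype.ext
  apply Equiv.ext
  intro y
  exact (hΘ_comm σ ⟨h, hh⟩ y).symm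

end Cfsg.Agent.S2532
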