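import Cfsg.Statements.S2533
import Mathlib

set_option autoImplicit false
open Cfsg

namespace Cfsg.Agent.S2533

open Matrix

variable {p : ℕ} [Fact p.Prime]

/-- `X e_k = e_{k-1}` for odd `k` -/
def mX (p n : ℕ) : Matrix (Fin n) (Fin n) (ZMod p) :=
  Matrix.of fun j k => if (k : ℕ) % 2 = 1 ∧ (j : ℕ) + 1 = k then 1 else 0

/-- `Y e_k = e_{k+1}` for odd `k` -/
def mY (p n : ℕ) : Matrix (Fin n) (Fin n) (ZMod p) :=
  Matrix.of fun j k => if (k : ℕ) % 2 = 1 ∧ (j : ℕ) = k + 1 then 1 else 0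

/-- `Z e_1 = e_0` -/
def mZ (p n : ℕ) : Matrix (Fin n) (Fin n) (ZMod p) :=
  Matrix.of fun j k => if (j : ℕ) = 0 ∧ (k : ℕ) = 1 then 1 else 0

/-- supported on (even row, odd column) -/
def EO {n : ℕ} (A : Matrix (Fin n) (Fin n) (ZMod p)) : Prop :=
  ∀ j k, A j k ≠ 0 → (j : ℕ) % 2 = 0 ∧ (k : ℕ) % 2 = 1

theorem EO_mX (n : ℕ) : EO (mX p n) := by
  intro j k h
  simp only [mX, Matrix.of_apply] at h
  split_ifs at h with hc
  · omega
  · exact absurd rfl h

theorem EO_mY (n : ℕ) : EO (mY p n) := by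
  intro j k h
  simp only [mY, Matrix.of_apply] at h
  split_ifs at h with hc
  · omega
  · exact absurd rfl h

theorem EO_mZ (n : ℕ) : EO (mZ p n) := by
  intro j k h
  simp only [mZ, Matrix.of_apply] at h
  split_ifs at h with hc
  · omega
  · exact absurd rfl h

theorem EO.smul {n : ℕ} {A : Matrix (Fin n) (Fin n) (ZMod p)} (hA : EO A) (c : ZMod p) : EO (c • A) := by
  intro j k h
  apply hA
  intro h0
  apply h
  simp [h0]

theorem EO.add {n : ℕ} {A B : Matrix (Fin n) (Fin n) (ZMod p)} (hA : EO A) (hB : EO B) : EO (A + B) := by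
  intro j k h
  by_cases h0 : A j k = 0
  · apply hB
    intro h1
    apply h
    simp [h0, h1]
  · exact hA j k h0

theorem EO.mul_eq_zero {n : ℕ} {A B : Matrix (Fin n) (Fin n) (ZMod p)} (hA : EO A) (hB : EO B) : A * B = 0 := by
  ext j k
  rw [Matrix.mul_apply]
  apply Finset.sum_eq_zero
  intro l _
  by_cases h0 : A j l = 0
  · simp [h0]
  · have h1 := (hA j l h0).2
    have h2 : B l k = 0 := by
      by_contra h3
      have := (hB l k h3).1
      omega
    simp [h2]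

/-- the nilpotent part -/
def mN (n : ℕ) (v : Fin 3 → ZMod p) : Matrix (Fin n) (Fin n) (ZMod p) :=
  v 0 • mX p n + v 1 • mY p n + v 2 • mZ p n

theorem EO_mN (n : ℕ) (v : Fin 3 → ZMod p) : EO (mN n v) :=
  (((EO_mX n).smul _).add ((EO_mY n).smul _)).add ((EO_mZ n).smul _)

theorem mN_add (n : ℕ) (v w : Fin 3 → ZMod p) : mN n (v + w) = mN n v + mN n w := by
  simp only [mN, Pi.add_apply, add_smul]
  abel

theorem mN_zero (n : ℕ) : mN n (0 : Fin 3 → ZMod p) = 0 := by
  simp [mN]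

theorem mN_neg (n : ℕ) (v : Fin 3 → ZMod p) : mN n (-v) = - mN n v := by
  simp only [mN, Pi.neg_apply, neg_smul]
  abel

theorem one_add_mN_mul (n : ℕ) (v w : Fin 3 → ZMod p) :
    (1 + mN n v) * (1 + mN n w) = 1 + mN n (v + w) := by
  rw [mN_add, add_mul, mul_add, mul_add, (EO_mN n v).mul_eq_zero (EO_mN n w)]
  simp only [one_mul, mul_one, add_zero]
  abel

theorem one_add_mN_pow (n : ℕ) (v : Fin 3 → ZMod p) (k : ℕ) :
    (1 + mN n v) ^ k = 1 + mN n (k • v) := by
  induction k with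
  | zero => simp [mN_zero]
  | succ k ih => rw [pow_succ, ih, one_add_mN_mul, succ_nsmul]

theorem one_add_mN_pow_p (n : ℕ) (v : Fin 3 → ZMod p) : (1 + mN n v) ^ p = 1 := by
  rw [one_add_mN_pow]
  have : p • v = 0 := by
    ext i
    simp
  rw [this, mN_zero, add_zero]

theorem det_one_add_mN (n : ℕ) (v : Fin 3 → ZMod p) : (1 + mN n v).det = 1 := by
  have h := congrArg Matrix.det (one_add_mN_pow_p n v)
  rw [Matrix.det_pow, Matrix.det_one, ZMod.pow_card] at h
  exact h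

/-- the involution `diag((-1)^k)` -/
def mT (p n : ℕ) : Matrix (Fin n) (Fin n) (ZMod p) :=
  Matrix.diagonal fun k => (-1) ^ (k : ℕ)

theorem mT_mul_self (n : ℕ) : mT p n * mT p n = 1 := by
  rw [mT, Matrix.diagonal_mul_diagonal]
  have : (fun k : Fin n => ((-1 : ZMod p)) ^ (k : ℕ) * (-1) ^ (k : ℕ)) = fun _ => 1 := by
    funext k
    rw [← mul_pow]
    simp
  rw [this, Matrix.diagonal_one]

theorem mT_mul_EO {n : ℕ} {A : Matrix (Fin n) (Fin n) (ZMod p)} (hA : EO A) : mT p n * A = A := by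
  ext j k
  rw [mT, Matrix.diagonal_mul]
  by_cases h0 : A j k = 0
  · simp [h0]
  · have h1 := (hA j k h0).1
    have : Even (j : ℕ) := Nat.even_iff.mpr h1
    rw [this.neg_one_pow, one_mul]

theorem EO_mul_mT {n : ℕ} {A : Matrix (Fin n) (Fin n) (ZMod p)} (hA : EO A) : A * mT p n = - A := by
  ext j k
  rw [mT, Matrix.mul_diagonal]
  by_cases h0 : A j k = 0
  · simp [h0]
  · have h1 := (hA j k h0).2
    have : Odd (k : ℕ) := Nat.odd_iff.mpr h1
    rw [this.neg_one_pow]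
    simp

theorem mT_mul_one_add_mN (n : ℕ) (v : Fin 3 → ZMod p) :
    mT p n * (1 + mN n v) = (1 + mN n (-v)) * mT p n := by
  rw [mul_add, add_mul, mul_one, one_mul, mT_mul_EO (EO_mN n v), EO_mul_mT (EO_mN n (-v)), mN_neg, neg_neg]

theorem det_mT (d : ℕ) : (mT p (4 * d + 1)).det = 1 := by
  rw [mT, Matrix.det_diagonal, Finset.prod_pow_eq_pow_sum]
  have h1 : ∑ i : Fin (4 * d + 1), (i : ℕ) = ∑ i ∈ Finset.range (4 * d + 1), i :=
    Fin.sum_univ_eq_sum_range (fun i => i) (4 * d + 1)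
  rw [h1, Finset.sum_range_id]
  have h2 : (4 * d + 1) * (4 * d + 1 - 1) / 2 = 2 * (d * (4 * d + 1)) := by
    have : (4 * d + 1) * (4 * d + 1 - 1) = 2 * (2 * (d * (4 * d + 1))) := by
      have : 4 * d + 1 - 1 = 4 * d := by omega
      rw [this]
      ring
    rw [this]
    omega
  rw [h2, pow_mul]
  simp

theorem sum_range_neg_one_pow (d : ℕ) : ∑ i ∈ Finset.range (4 * d + 1), (-1 : ZMod p) ^ i = 1 := by
  induction d with
  | zero => simp
  | succ d ih =>
    have : 4 * (d + 1) + 1 = 4 * d + 1 + 1 + 1 + 1 + 1 := by ring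
    rw [this, Finset.sum_range_succ, Finset.sum_range_succ, Finset.sum_range_succ, Finset.sum_range_succ, ih]
    have e1 : (-1 : ZMod p) ^ (4 * d + 1) = -1 := Odd.neg_one_pow ⟨2 * d, by ring⟩
    have e2 : (-1 : ZMod p) ^ (4 * d + 1 + 1) = 1 := Even.neg_one_pow ⟨2 * d + 1, by ring⟩
    have e3 : (-1 : ZMod p) ^ (4 * d + 1 + 1 + 1) = -1 := Odd.neg_one_pow ⟨2 * d + 1, by ring⟩
    have e4 : (-1 : ZMod p) ^ (4 * d + 1 + 1 + 1 + 1) = 1 := Even.neg_one_pow ⟨2 * d + 2, by ring⟩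
    rw [e1, e2, e3, e4]
    ring

theorem trace_mT (d : ℕ) : (mT p (4 * d + 1)).trace = 1 := by
  rw [mT, Matrix.trace_diagonal]
  have h1 : ∑ i : Fin (4 * d + 1), ((-1 : ZMod p)) ^ (i : ℕ) = ∑ i ∈ Finset.range (4 * d + 1), (-1 : ZMod p) ^ i :=
    Fin.sum_univ_eq_sum_range (fun i => (-1 : ZMod p) ^ i) (4 * d + 1)
  rw [h1, sum_range_neg_one_pow]



theorem diag_lemma {R : Type*} [Zero R] (d : ℕ) (g : ℕ → ℕ → R)
    (hP : ∀ j k, j < 4 * d + 1 → k < 4 * d + 1 → j % 2 ≠ k % 2 → g j k = 0)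
    (hX1 : ∀ j k, k < 4 * d + 1 → k % 2 = 1 → j % 2 = 0 → j + 1 < 4 * d + 1 → g j (k-1) = g (j+1) k)
    (hX2 : ∀ k, k < 4 * d + 1 → k % 2 = 1 → g (4 * d) (k-1) = 0)
    (hY1 : ∀ j k, j < 4 * d + 1 → k < 4 * d + 1 → k % 2 = 1 → j % 2 = 0 → 1 ≤ j → g j (k+1) = g (j-1) k)
    (hY2 : ∀ k, k < 4 * d + 1 → k % 2 = 1 → g 0 (k+1) = 0) :
    ∀ j k, j < 4 * d + 1 → k < 4 * d + 1 → g j k = if j = k then g 0 0 else 0 := by
  have hS : ∀ a b, a % 2 = 0 → b % 2 = 0 → a + 2 < 4 * d + 1 → b + 2 < 4 * d + 1 →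
      g a b = g (a+2) (b+2) := by
    intro a b ha hb ha2 hb2
    have h1 := hX1 a (b+1) (by omega) (by omega) ha (by omega)
    have h2 := hY1 (a+2) (b+1) (by omega) (by omega) (by omega) (by omega) (by omega)
    simp only [Nat.add_sub_cancel] at h1 h2
    have e1 : a + 2 - 1 = a + 1 := by omega
    have e2 : b + 1 + 1 = b + 2 := by omega
    rw [e1, e2] at h2
    rw [h1, h2]
  have hD1 : ∀ m b, 2 * m < 4 * d + 1 → b % 2 = 0 → 2 * m ≤ b → b < 4 * d + 1 →
      g (2 * m) b = g 0 (b - 2 * m) := by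
    intro m
    induction m with
    | zero => intro b _ _ _ _; simp
    | succ m ih =>
      intro b hm hb hmb hbn
      have h1 := hS (2 * m) (b - 2) (by omega) (by omega) (by omega) (by omega)
      have e1 : 2 * m + 2 = 2 * (m + 1) := by ring
      have e2 : b - 2 + 2 = b := by omega
      rw [e1, e2] at h1
      rw [← h1, ih (b - 2) (by omega) (by omega) (by omega) (by omega)]
      congr 1
      omega
  have hD2 : ∀ m a b, a % 2 = 0 → b % 2 = 0 → b < a → a + 2 * m = 4 * d → g a b = 0 := by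
    intro m
    induction m with
    | zero =>
      intro a b ha hb hba ham
      have h1 := hX2 (b+1) (by omega) (by omega)
      simp only [Nat.add_sub_cancel] at h1
      have : a = 4 * d := by omega
      rw [this]
      exact h1
    | succ m ih =>
      intro a b ha hb hba ham
      rw [hS a b ha hb (by omega) (by omega)]
      exact ih (a+2) (b+2) (by omega) (by omega) (by omega) (by omega)
  have hEE : ∀ a b, a % 2 = 0 → b % 2 = 0 → a < 4 * d + 1 → b < 4 * d + 1 →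
      g a b = if a = b then g 0 0 else 0 := by
    intro a b ha hb han hbn
    rcases Nat.lt_or_ge b a with hba | hab
    · rw [if_neg (by omega)]
      exact hD2 ((4 * d - a) / 2) a b ha hb hba (by omega)
    · obtain ⟨m, rfl⟩ : ∃ m, a = 2 * m := ⟨a / 2, by omega⟩
      rw [hD1 m b han hb hab hbn]
      by_cases h : 2 * m = b
      · rw [if_pos h, ← h]
        simp
      · rw [if_neg h]
        have h1 := hY2 (b - 2 * m - 1) (by omega) (by omega)
        have e : b - 2 * m - 1 + 1 = b - 2 * m := by omega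
        rw [e] at h1
        exact h1
  intro j k hj hk
  rcases Nat.mod_two_eq_zero_or_one j with hj2 | hj2
  · rcases Nat.mod_two_eq_zero_or_one k with hk2 | hk2
    · exact hEE j k hj2 hk2 hj hk
    · rw [if_neg (by omega)]
      exact hP j k hj hk (by omega)
  · rcases Nat.mod_two_eq_zero_or_one k with hk2 | hk2
    · rw [if_neg (by omega)]
      exact hP j k hj hk (by omega)
    · have h1 := hX1 (j-1) k hk hk2 (by omega) (by omega)
      have e : j - 1 + 1 = j := by omega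
      rw [e] at h1
      rw [← h1, hEE (j-1) (k-1) (by omega) (by omega) (by omega) (by omega)]
      by_cases h : j = k
      · rw [if_pos h, if_pos (by omega)]
      · rw [if_neg h, if_neg (by omega)]


section commutant

variable {n : ℕ} (G : Matrix (Fin n) (Fin n) (ZMod p))

theorem mul_mX_apply (j k : Fin n) (hk : (k : ℕ) % 2 = 1) :
    (G * mX p n) j k = G j ⟨(k : ℕ) - 1, by omega⟩ := by
  rw [Matrix.mul_apply, Finset.sum_eq_single (⟨(k : ℕ) - 1, by omega⟩ : Fin n)]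
  · have : (k : ℕ) - 1 + 1 = k := by omega
    simp [mX, hk, this]
  · intro l _ hl
    have : ¬ ((k : ℕ) % 2 = 1 ∧ (l : ℕ) + 1 = k) := by
      rintro ⟨_, h⟩
      apply hl
      apply Fin.ext
      simp only
      omega
    simp [mX, this]
  · intro h
    exact absurd (Finset.mem_univ _) h

theorem mX_mul_apply_of (j k : Fin n) (hj : (j : ℕ) % 2 = 0) (hj' : (j : ℕ) + 1 < n) :
    (mX p n * G) j k = G ⟨(j : ℕ) + 1, hj'⟩ k := by
  rw [Matrix.mul_apply, Finset.sum_eq_single (⟨(j : ℕ) + 1, hj'⟩ : Fin n)]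
  · have : ((j : ℕ) + 1) % 2 = 1 := by omega
    simp [mX, this]
  · intro l _ hl
    have : ¬ ((l : ℕ) % 2 = 1 ∧ (j : ℕ) + 1 = l) := by
      rintro ⟨_, h⟩
      apply hl
      apply Fin.ext
      simp only
      omega
    simp [mX, this]
  · intro h
    exact absurd (Finset.mem_univ _) h

theorem mX_mul_apply_last (j k : Fin n) (hj' : (j : ℕ) + 1 = n) :
    (mX p n * G) j k = 0 := by
  rw [Matrix.mul_apply]
  apply Finset.sum_eq_zero
  intro l _
  have : ¬ ((l : ℕ) % 2 = 1 ∧ (j : ℕ) + 1 = l) := by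
    rintro ⟨_, h⟩
    have := l.2
    omega
  simp [mX, this]

theorem mul_mY_apply (j k : Fin n) (hk : (k : ℕ) % 2 = 1) (hk' : (k : ℕ) + 1 < n) :
    (G * mY p n) j k = G j ⟨(k : ℕ) + 1, hk'⟩ := by
  rw [Matrix.mul_apply, Finset.sum_eq_single (⟨(k : ℕ) + 1, hk'⟩ : Fin n)]
  · simp [mY, hk]
  · intro l _ hl
    have : ¬ ((k : ℕ) % 2 = 1 ∧ (l : ℕ) = k + 1) := by
      rintro ⟨_, h⟩
      apply hl
      apply Fin.ext
      simp only
      omega
    simp [mY, this]
  · intro h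
    exact absurd (Finset.mem_univ _) h

theorem mY_mul_apply_of (j k : Fin n) (hj : (j : ℕ) % 2 = 0) (hj' : 1 ≤ (j : ℕ)) :
    (mY p n * G) j k = G ⟨(j : ℕ) - 1, by omega⟩ k := by
  rw [Matrix.mul_apply, Finset.sum_eq_single (⟨(j : ℕ) - 1, by omega⟩ : Fin n)]
  · have h1 : ((j : ℕ) - 1) % 2 = 1 := by omega
    have h2 : (j : ℕ) = (j : ℕ) - 1 + 1 := by omega
    simp [mY, h1, ← h2]
  · intro l _ hl
    have : ¬ ((l : ℕ) % 2 = 1 ∧ (j : ℕ) = l + 1) := by
      rintro ⟨_, h⟩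
      apply hl
      apply Fin.ext
      simp only
      omega
    simp [mY, this]
  · intro h
    exact absurd (Finset.mem_univ _) h

theorem mY_mul_apply_zero (j k : Fin n) (hj : (j : ℕ) = 0) :
    (mY p n * G) j k = 0 := by
  rw [Matrix.mul_apply]
  apply Finset.sum_eq_zero
  intro l _
  have : ¬ ((l : ℕ) % 2 = 1 ∧ (j : ℕ) = l + 1) := by
    rintro ⟨_, h⟩
    omega
  simp [mY, this]

end commutant

theorem two_ne_zero_zmod (hp : p ≠ 2) : (2 : ZMod p) ≠ 0 := by
  intro h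
  have h1 : ((2 : ℕ) : ZMod p) = 0 := by exact_mod_cast h
  rw [ZMod.natCast_eq_zero_iff] at h1
  have h2 := Nat.le_of_dvd (by norm_num) h1
  have h3 := (Fact.out : p.Prime).two_le
  omega

theorem commutant_scalar (hp : p ≠ 2) (d : ℕ)
    (G : Matrix (Fin (4 * d + 1)) (Fin (4 * d + 1)) (ZMod p))
    (hX : G * mX p (4 * d + 1) = mX p (4 * d + 1) * G)
    (hY : G * mY p (4 * d + 1) = mY p (4 * d + 1) * G)
    (hT : G * mT p (4 * d + 1) = mT p (4 * d + 1) * G) :
    G = Matrix.scalar (Fin (4 * d + 1)) (G 0 0) := by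
  let g : ℕ → ℕ → ZMod p := fun j k =>
    if h : j < 4 * d + 1 ∧ k < 4 * d + 1 then G ⟨j, h.1⟩ ⟨k, h.2⟩ else 0
  have g_eq : ∀ j k (hj : j < 4 * d + 1) (hk : k < 4 * d + 1), g j k = G ⟨j, hj⟩ ⟨k, hk⟩ :=
    fun j k hj hk => dif_pos ⟨hj, hk⟩
  have h2 := two_ne_zero_zmod hp
  have key := diag_lemma d g ?_ ?_ ?_ ?_ ?_
  · ext j k
    have h := key j k j.2 k.2
    rw [g_eq j k j.2 k.2, g_eq 0 0 (by omega) (by omega)] at h
    rw [Matrix.scalar_apply, Matrix.diagonal_apply]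
    have e : (⟨(j : ℕ), j.2⟩ : Fin (4 * d + 1)) = j := rfl
    rw [show G j k = G ⟨(j : ℕ), j.2⟩ ⟨(k : ℕ), k.2⟩ from rfl, h]
    by_cases hjk : j = k
    · rw [if_pos hjk, if_pos (congrArg Fin.val hjk)]
      rfl
    · rw [if_neg hjk, if_neg (fun h' => hjk (Fin.ext h'))]
  · -- parity
    intro j k hj hk hjk
    rw [g_eq j k hj hk]
    have h := congrFun (congrFun hT ⟨j, hj⟩) ⟨k, hk⟩
    rw [mT, Matrix.mul_diagonal, Matrix.diagonal_mul] at h
    simp only at h
    rcases Nat.mod_two_eq_zero_or_one j with hj2 | hj2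
    · have hk2 : k % 2 = 1 := by omega
      rw [(Nat.even_iff.mpr hj2).neg_one_pow, (Nat.odd_iff.mpr hk2).neg_one_pow] at h
      have h3 : (2 : ZMod p) * G ⟨j, hj⟩ ⟨k, hk⟩ = 0 := by linear_combination -h
      rcases mul_eq_zero.mp h3 with h4 | h4
      · exact absurd h4 h2
      · exact h4
    · have hk2 : k % 2 = 0 := by omega
      rw [(Nat.odd_iff.mpr hj2).neg_one_pow, (Nat.even_iff.mpr hk2).neg_one_pow] at h
      have h3 : (2 : ZMod p) * G ⟨j, hj⟩ ⟨k, hk⟩ = 0 := by linear_combination h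
      rcases mul_eq_zero.mp h3 with h4 | h4
      · exact absurd h4 h2
      · exact h4
  · -- X1
    intro j k hk hk2 hj2 hj
    rw [g_eq j (k-1) (by omega) (by omega), g_eq (j+1) k hj hk]
    have h := congrFun (congrFun hX ⟨j, by omega⟩) ⟨k, hk⟩
    rw [mul_mX_apply G _ _ hk2, mX_mul_apply_of G _ _ hj2 hj] at h
    exact h
  · -- X2
    intro k hk hk2
    rw [g_eq (4 * d) (k-1) (by omega) (by omega)]
    have h := congrFun (congrFun hX ⟨4 * d, by omega⟩) ⟨k, hk⟩
    rw [mul_mX_apply G _ _ hk2, mX_mul_apply_last G _ _ rfl] at h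
    exact h
  · -- Y1
    intro j k hj hk hk2 hj2 hj1
    rw [g_eq j (k+1) hj (by omega), g_eq (j-1) k (by omega) hk]
    have h := congrFun (congrFun hY ⟨j, hj⟩) ⟨k, hk⟩
    rw [mul_mY_apply G _ _ hk2 (by simp only; omega), mY_mul_apply_of G _ _ hj2 hj1] at h
    exact h
  · -- Y2
    intro k hk hk2
    rw [g_eq 0 (k+1) (by omega) (by omega)]
    have h := congrFun (congrFun hY ⟨0, by omega⟩) ⟨k, hk⟩
    rw [mul_mY_apply G _ _ hk2 (by simp only; omega), mY_mul_apply_zero G _ _ rfl] at h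
    exact h


section final

/-- action of `ℤˣ` on the vector group -/
noncomputable def psi (p : ℕ) [Fact p.Prime] : ℤˣ →* MulAut (Multiplicative (Fin 3 → ZMod p)) :=
  (MulAutMultiplicative (Fin 3 → ZMod p)).symm.toMonoidHom.comp
    (DistribMulAction.toAddAut ℤˣ (Fin 3 → ZMod p))

theorem psi_apply (ε : ℤˣ) (v : Multiplicative (Fin 3 → ZMod p)) :
    psi p ε v = Multiplicative.ofAdd (ε • v.toAdd) := rfl

/-- unipotent element of `SL` -/
def sU (n : ℕ) (v : Fin 3 → ZMod p) : Matrix.SpecialLinearGroup (Fin n) (ZMod p) :=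
  ⟨1 + mN n v, det_one_add_mN n v⟩

/-- the involution in `SL` -/
def sT (p d : ℕ) [Fact p.Prime] : Matrix.SpecialLinearGroup (Fin (4 * d + 1)) (ZMod p) :=
  ⟨mT p (4 * d + 1), det_mT d⟩

theorem sU_coe (n : ℕ) (v : Fin 3 → ZMod p) :
    ((sU n v : Matrix.SpecialLinearGroup (Fin n) (ZMod p)) : Matrix (Fin n) (Fin n) (ZMod p))
      = 1 + mN n v := rfl

theorem sT_coe (d : ℕ) :
    ((sT p d : Matrix.SpecialLinearGroup (Fin (4 * d + 1)) (ZMod p)) :
      Matrix (Fin (4 * d + 1)) (Fin (4 * d + 1)) (ZMod p)) = mT p (4 * d + 1) := rfl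

theorem sU_mul (n : ℕ) (v w : Fin 3 → ZMod p) : sU n v * sU n w = sU n (v + w) := by
  apply Subtype.ext
  rw [Matrix.SpecialLinearGroup.coe_mul, sU_coe, sU_coe, sU_coe, one_add_mN_mul]

theorem sU_zero (n : ℕ) : sU n (0 : Fin 3 → ZMod p) = 1 := by
  apply Subtype.ext
  rw [sU_coe, mN_zero, add_zero, Matrix.SpecialLinearGroup.coe_one]

theorem sT_mul_self (d : ℕ) : sT p d * sT p d = 1 := by
  apply Subtype.ext
  rw [Matrix.SpecialLinearGroup.coe_mul, sT_coe, mT_mul_self, Matrix.SpecialLinearGroup.coe_one]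

theorem sT_mul_sU (d : ℕ) (v : Fin 3 → ZMod p) : sT p d * sU _ v = sU _ (-v) * sT p d := by
  apply Subtype.ext
  rw [Matrix.SpecialLinearGroup.coe_mul, Matrix.SpecialLinearGroup.coe_mul, sT_coe, sU_coe, sU_coe,
    mT_mul_one_add_mN]

/-- the unipotent part of the embedding -/
def f1 (p n : ℕ) [Fact p.Prime] :
    Multiplicative (Fin 3 → ZMod p) →* Matrix.SpecialLinearGroup (Fin n) (ZMod p) where
  toFun v := sU n v.toAdd
  map_one' := sU_zero n
  map_mul' _ _ := (sU_mul n _ _).symm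

theorem f1_apply (n : ℕ) (v : Multiplicative (Fin 3 → ZMod p)) : f1 p n v = sU n v.toAdd := rfl

/-- the involution part of the embedding -/
def f2 (p d : ℕ) [Fact p.Prime] : ℤˣ →* Matrix.SpecialLinearGroup (Fin (4 * d + 1)) (ZMod p) where
  toFun ε := if ε = 1 then 1 else sT p d
  map_one' := by simp
  map_mul' a b := by
    have h2 : ¬ ((-1 : ℤˣ) = 1) := by decide
    rcases Int.units_eq_one_or a with rfl | rfl <;> rcases Int.units_eq_one_or b with rfl | rfl
    · simp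
    · simp
    · simp
    · have h1 : ((-1 : ℤˣ) * -1) = 1 := by simp
      rw [h1, if_pos rfl, if_neg h2, sT_mul_self]

theorem f2_one (d : ℕ) : f2 p d 1 = 1 := map_one _

theorem f2_neg_one (d : ℕ) : f2 p d (-1) = sT p d := by
  have h2 : ¬ ((-1 : ℤˣ) = 1) := by decide
  show (if (-1 : ℤˣ) = 1 then 1 else sT p d) = _
  rw [if_neg h2]

theorem lift_cond (d : ℕ) (g : ℤˣ) :
    (f1 p (4 * d + 1)).comp (psi p g).toMonoidHom
      = (MulAut.conj (f2 p d g)).toMonoidHom.comp (f1 p (4 * d + 1)) := by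
  apply MonoidHom.ext
  intro v
  rcases Int.units_eq_one_or g with rfl | rfl
  · simp
  · simp only [MonoidHom.comp_apply, MulEquiv.coe_toMonoidHom, MulAut.conj_apply]
    rw [eq_mul_inv_iff_mul_eq, f2_neg_one, f1_apply, f1_apply, sT_mul_sU, psi_apply]
    simp

/-- the group of order `2p³` -/
abbrev Hgrp (p : ℕ) [Fact p.Prime] : Type := Multiplicative (Fin 3 → ZMod p) ⋊[psi p] ℤˣ

/-- the lift to `SL` -/
noncomputable def Phi (p d : ℕ) [Fact p.Prime] : Hgrp p →* Matrix.SpecialLinearGroup (Fin (4 * d + 1)) (ZMod p) :=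
  SemidirectProduct.lift (f1 p (4 * d + 1)) (f2 p d) (lift_cond d)

theorem Phi_apply (d : ℕ) (x : Hgrp p) : Phi p d x = f1 p (4 * d + 1) x.1 * f2 p d x.2 := rfl

theorem card_Hgrp : Nat.card (Hgrp p) = 2 * p ^ 3 := by
  rw [SemidirectProduct.card]
  have h1 : Nat.card (Multiplicative (Fin 3 → ZMod p)) = p ^ 3 := by
    rw [Nat.card_eq_fintype_card]
    simp [ZMod.card]
  have h2 : Nat.card ℤˣ = 2 := by
    rw [Nat.card_eq_fintype_card]
    rfl
  rw [h1, h2, mul_comm]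


theorem mN_apply_eq_zero (n : ℕ) (v : Fin 3 → ZMod p) (j k : Fin n)
    (h : ¬ ((j : ℕ) % 2 = 0 ∧ (k : ℕ) % 2 = 1)) : mN n v j k = 0 := by
  by_contra h0
  exact h (EO_mN n v j k h0)

theorem mN_apply_01 (n : ℕ) (h : 1 < n) (v : Fin 3 → ZMod p) :
    mN n v ⟨0, by omega⟩ ⟨1, h⟩ = v 0 + v 2 := by
  simp [mN, mX, mY, mZ]

theorem mN_apply_23 (n : ℕ) (h : 3 < n) (v : Fin 3 → ZMod p) :
    mN n v ⟨2, by omega⟩ ⟨3, h⟩ = v 0 := by
  simp [mN, mX, mY, mZ]

theorem mN_apply_21 (n : ℕ) (h : 2 < n) (v : Fin 3 → ZMod p) :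
    mN n v ⟨2, h⟩ ⟨1, by omega⟩ = v 1 := by
  simp [mN, mX, mY, mZ]

theorem trace_mN (n : ℕ) (v : Fin 3 → ZMod p) : (mN n v).trace = 0 := by
  rw [Matrix.trace]
  apply Finset.sum_eq_zero
  intro j _
  rw [Matrix.diag_apply]
  apply mN_apply_eq_zero
  omega

theorem Phi_coe_one (d : ℕ) (v : Multiplicative (Fin 3 → ZMod p)) :
    ((Phi p d ⟨v, 1⟩ : Matrix.SpecialLinearGroup (Fin (4 * d + 1)) (ZMod p)) :
      Matrix (Fin (4 * d + 1)) (Fin (4 * d + 1)) (ZMod p)) = 1 + mN _ v.toAdd := by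
  rw [Phi_apply]
  simp only
  rw [f2_one, mul_one, f1_apply, sU_coe]

theorem Phi_coe_neg_one (d : ℕ) (v : Multiplicative (Fin 3 → ZMod p)) :
    ((Phi p d ⟨v, -1⟩ : Matrix.SpecialLinearGroup (Fin (4 * d + 1)) (ZMod p)) :
      Matrix (Fin (4 * d + 1)) (Fin (4 * d + 1)) (ZMod p)) = mT p _ - mN _ v.toAdd := by
  rw [Phi_apply]
  simp only
  rw [f2_neg_one, f1_apply, Matrix.SpecialLinearGroup.coe_mul, sU_coe, sT_coe, add_mul, one_mul,
    EO_mul_mT (EO_mN _ _), sub_eq_add_neg]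

theorem Phi_scalar (hp : p ≠ 2) (d : ℕ) (hd : 1 ≤ d) (x : Hgrp p) (r : ZMod p)
    (h : Matrix.scalar (Fin (4 * d + 1)) r = (Phi p d x).1) : x = 1 := by
  obtain ⟨v, ε⟩ := x
  have h00 := congrFun (congrFun h ⟨0, by omega⟩) ⟨0, by omega⟩
  have h11 := congrFun (congrFun h ⟨1, by omega⟩) ⟨1, by omega⟩
  have h01 := congrFun (congrFun h ⟨0, by omega⟩) ⟨1, by omega⟩
  have h23 := congrFun (congrFun h ⟨2, by omega⟩) ⟨3, by omega⟩
  have h21 := congrFun (congrFun h ⟨2, by omega⟩) ⟨1, by omega⟩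
  have n01 : (⟨0, by omega⟩ : Fin (4 * d + 1)) ≠ ⟨1, by omega⟩ := by
    intro h'
    exact absurd (congrArg Fin.val h') (by simp)
  have n23 : (⟨2, by omega⟩ : Fin (4 * d + 1)) ≠ ⟨3, by omega⟩ := by
    intro h'
    exact absurd (congrArg Fin.val h') (by simp)
  have n21 : (⟨2, by omega⟩ : Fin (4 * d + 1)) ≠ ⟨1, by omega⟩ := by
    intro h'
    exact absurd (congrArg Fin.val h') (by simp)
  rcases Int.units_eq_one_or ε with rfl | rfl
  · rw [Phi_coe_one] at h01 h23 h21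
    rw [Matrix.add_apply, mN_apply_01 _ (by omega), Matrix.one_apply_ne n01, Matrix.scalar_apply,
      Matrix.diagonal_apply_ne _ n01, zero_add] at h01
    rw [Matrix.add_apply, mN_apply_23 _ (by omega), Matrix.one_apply_ne n23, Matrix.scalar_apply,
      Matrix.diagonal_apply_ne _ n23, zero_add] at h23
    rw [Matrix.add_apply, mN_apply_21 _ (by omega), Matrix.one_apply_ne n21, Matrix.scalar_apply,
      Matrix.diagonal_apply_ne _ n21, zero_add] at h21
    have e0 : v.toAdd 0 = 0 := h23.symm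
    have e1 : v.toAdd 1 = 0 := h21.symm
    have e2 : v.toAdd 2 = 0 := by
      rw [e0, zero_add] at h01
      exact h01.symm
    have : v = 1 := by
      apply Multiplicative.toAdd.injective
      funext i
      fin_cases i
      · exact e0
      · exact e1
      · exact e2
    rw [this]
    rfl
  · exfalso
    rw [Phi_coe_neg_one] at h00 h11
    rw [Matrix.sub_apply, mN_apply_eq_zero _ _ _ _ (by simp)] at h00 h11
    simp [Matrix.scalar_apply, mT] at h00 h11
    apply two_ne_zero_zmod hp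
    rw [h00] at h11
    linear_combination (1 : ZMod p) * h11

theorem r_eq_one_of_trace {n : ℕ} (G G' A : Matrix (Fin n) (Fin n) (ZMod p)) (r : ZMod p)
    (hG : G * G' = 1) (h : G * A = r • (A * G)) (ht : A.trace = 1) : r = 1 := by
  have hG' : G' * G = 1 := mul_eq_one_comm.mp hG
  have h1 : (G' * (G * A)).trace = A.trace := by
    rw [← Matrix.mul_assoc, hG', Matrix.one_mul]
  have h2 : (G' * (r • (A * G))).trace = r * A.trace := by
    rw [Matrix.mul_smul, Matrix.trace_smul, Matrix.trace_mul_comm, Matrix.mul_assoc, hG, Matrix.mul_one,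
      smul_eq_mul]
  rw [h] at h1
  rw [h1, ht, mul_one] at h2
  exact h2.symm

theorem central_of_commute (hp : p ≠ 2) (d : ℕ) (hd : ((4 * d + 1 : ℕ) : ZMod p) = 1)
    (G : Matrix.SpecialLinearGroup (Fin (4 * d + 1)) (ZMod p))
    (h : ∀ x : Hgrp p, ∃ r : ZMod p, G.1 * (Phi p d x).1 = r • ((Phi p d x).1 * G.1)) :
    G ∈ Subgroup.center (Matrix.SpecialLinearGroup (Fin (4 * d + 1)) (ZMod p)) := by
  have hGG : G.1 * (G⁻¹).1 = 1 := by
    have := congrArg Subtype.val (mul_inv_cancel G)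
    rw [Matrix.SpecialLinearGroup.coe_mul] at this
    exact this
  have htr1 : ∀ v : Fin 3 → ZMod p, (1 + mN (4 * d + 1) v).trace = 1 := by
    intro v
    rw [Matrix.trace_add, trace_mN, add_zero, Matrix.trace_one, Fintype.card_fin, hd]
  have hN : ∀ v : Fin 3 → ZMod p, G.1 * mN _ v = mN _ v * G.1 := by
    intro v
    obtain ⟨r, hr⟩ := h ⟨Multiplicative.ofAdd v, 1⟩
    have e := Phi_coe_one d (Multiplicative.ofAdd v)
    rw [toAdd_ofAdd] at e
    change G.1 * (Phi p d ⟨Multiplicative.ofAdd v, 1⟩).1 = r • ((Phi p d ⟨Multiplicative.ofAdd v, 1⟩).1 * G.1) at hr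
    have e' : (Phi p d ⟨Multiplicative.ofAdd v, 1⟩).1 = 1 + mN (4 * d + 1) v := e
    rw [e'] at hr
    have hr1 := r_eq_one_of_trace _ _ _ r hGG hr (htr1 _)
    rw [hr1, one_smul, mul_add, add_mul, mul_one, one_mul] at hr
    exact add_left_cancel hr
  have hX : G.1 * mX p _ = mX p _ * G.1 := by
    have := hN (Pi.single 0 1)
    have e : mN (4 * d + 1) (Pi.single 0 1 : Fin 3 → ZMod p) = mX p _ := by
      simp [mN]
    rw [e] at this
    exact this
  have hY : G.1 * mY p _ = mY p _ * G.1 := by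
    have := hN (Pi.single 1 1)
    have e : mN (4 * d + 1) (Pi.single 1 1 : Fin 3 → ZMod p) = mY p _ := by
      simp [mN]
    rw [e] at this
    exact this
  have hT : G.1 * mT p _ = mT p _ * G.1 := by
    obtain ⟨r, hr⟩ := h ⟨1, -1⟩
    have e := Phi_coe_neg_one d (1 : Multiplicative (Fin 3 → ZMod p))
    rw [toAdd_one, mN_zero, sub_zero] at e
    have e' : (Phi p d ⟨1, -1⟩).1 = mT p (4 * d + 1) := e
    rw [e'] at hr
    have hr1 := r_eq_one_of_trace _ _ _ r hGG hr (trace_mT d)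
    rw [hr1, one_smul] at hr
    exact hr
  have key := commutant_scalar hp d _ hX hY hT
  rw [Matrix.SpecialLinearGroup.mem_center_iff]
  refine ⟨G.1 0 0, ?_, key.symm⟩
  have hdet := G.2
  rw [key] at hdet
  simpa [Matrix.scalar_apply, Matrix.det_diagonal] using hdet

end final

/-- For every odd prime `p` there is a finite group `H` of order `2p³` which, for infinitely many `n`, embeds in the projective special linear group `PSL(n, p)` as a subgroup with trivial centralizer. -/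
theorem result
    (p : ℕ) [Fact p.Prime] (hp : p ≠ 2) :
    ∃ (H : Type) (_ : Group H) (_ : Finite H), Nat.card H = 2 * p ^ 3 ∧
      ∀ N : ℕ, ∃ n, N ≤ n ∧ ∃ φ : H →* Matrix.ProjectiveSpecialLinearGroup (Fin n) (ZMod p),
        Function.Injective φ ∧ Subgroup.centralizer (φ.range : Set (Matrix.ProjectiveSpecialLinearGroup (Fin n) (ZMod p))) = ⊥ := by
  have hp0 : 0 < p := (Fact.out : p.Prime).pos
  have hfin : Finite (Hgrp p) := by
    apply Nat.finite_of_card_ne_zero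
    rw [card_Hgrp]
    positivity
  refine ⟨Hgrp p, inferInstance, hfin, card_Hgrp, ?_⟩
  intro N
  have hd1 : 1 ≤ p * (N + 1) := Nat.mul_pos hp0 (Nat.succ_pos N)
  have hdN : N ≤ 4 * (p * (N + 1)) + 1 := by
    have : N + 1 ≤ p * (N + 1) := Nat.le_mul_of_pos_left _ hp0
    omega
  have hcast : ((4 * (p * (N + 1)) + 1 : ℕ) : ZMod p) = 1 := by
    push_cast
    simp
  refine ⟨4 * (p * (N + 1)) + 1, hdN,
    (QuotientGroup.mk' (Subgroup.center (Matrix.SpecialLinearGroup (Fin (4 * (p * (N + 1)) + 1)) (ZMod p)))).comp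
      (Phi p (p * (N + 1))), ?_, ?_⟩
  · rw [injective_iff_map_eq_one]
    intro x hx
    rw [MonoidHom.comp_apply, QuotientGroup.mk'_apply, QuotientGroup.eq_one_iff,
      Matrix.SpecialLinearGroup.mem_center_iff] at hx
    obtain ⟨r, -, hr⟩ := hx
    exact Phi_scalar hp _ hd1 x r hr
  · rw [Subgroup.eq_bot_iff_forall]
    intro g hg
    obtain ⟨G, rfl⟩ := QuotientGroup.mk_surjective g
    rw [QuotientGroup.eq_one_iff]
    apply central_of_commute hp _ hcast
    intro x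
    have h1 := hg ((QuotientGroup.mk' _).comp (Phi p (p * (N + 1))) x) (by simp)
    rw [MonoidHom.comp_apply, QuotientGroup.mk'_apply, ← QuotientGroup.mk_mul, ← QuotientGroup.mk_mul,
      QuotientGroup.eq, Matrix.SpecialLinearGroup.mem_center_iff] at h1
    obtain ⟨r, -, hr⟩ := h1
    refine ⟨r, ?_⟩
    have h2 : (G * Phi p (p * (N + 1)) x)
        = (Phi p (p * (N + 1)) x * G) * ((Phi p (p * (N + 1)) x * G)⁻¹ * (G * Phi p (p * (N + 1)) x)) := by
      group
    have h3 := congrArg Subtype.val h2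
    rw [Matrix.SpecialLinearGroup.coe_mul, Matrix.SpecialLinearGroup.coe_mul (Phi p (p * (N + 1)) x * G),
      Matrix.SpecialLinearGroup.coe_mul (Phi p (p * (N + 1)) x) G] at h3
    have hr' : Matrix.scalar (Fin (4 * (p * (N + 1)) + 1)) r
        = ((Phi p (p * (N + 1)) x * G)⁻¹ * (G * Phi p (p * (N + 1)) x)).1 := hr
    rw [← hr'] at h3
    rw [h3, Matrix.scalar_apply, ← Matrix.smul_eq_mul_diagonal]

end Cfsg.Agent.S2533
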