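import Cfsg.Statements.S2534
-- import your own Cfsg.Agent.* helpers here
import Cfsg.Agent.H43.HallD

set_option autoImplicit false
open Cfsg

namespace Cfsg.Agent.S2534

/-- For `n ≥ 5` and a set of primes `π`, the alternating group of degree `n` satisfies the full Sylow analogue for `π` (its maximal `π`-subgroups are pairwise conjugate; for a finite group this says Hall `π`-subgroups exist, are all conjugate, and contain every `π`-subgroup up to conjugacy) if and only if either at most one prime of `π` divides its order or every prime dividing its order lies in `π`. -/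
theorem result (n : ℕ) (hn : 5 ≤ n) (π : Set ℕ) :
    Cfsg.IsDPiGroup π ↥(alternatingGroup (Fin n)) ↔
      ((∀ r s : ℕ, r.Prime → s.Prime → r ∈ π → s ∈ π → r ∣ Nat.card ↥(alternatingGroup (Fin n)) → s ∣ Nat.card ↥(alternatingGroup (Fin n)) → r = s) ∨
        ∀ r : ℕ, r.Prime → r ∣ Nat.card ↥(alternatingGroup (Fin n)) → r ∈ π) := by
  constructor
  · intro hD
    by_contra hcon
    rw [not_or] at hcon
    obtain ⟨h1, h2⟩ := hcon
    push Not at h1 h2
    obtain ⟨r, s, hr, hs, hrπ, hsπ, hrd, hsd, hrs⟩ := h1
    obtain ⟨t, ht, htd, htπ⟩ := h2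
    exact Cfsg.Agent.H43.dpi_alt_absurd n hn π hD hr hs hrπ hsπ hrd hsd hrs ht htd htπ
  · rintro (h | h)
    · exact Cfsg.Agent.H43.dpi_of_le_one h
    · exact Cfsg.Agent.H43.dpi_of_full h

end Cfsg.Agent.S2534
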