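import Cfsg.Statements.S2536
-- import your own Cfsg.Agent.* helpers here
import Cfsg.Agent.H43.HallExist

set_option autoImplicit false
open Cfsg

namespace Cfsg.Agent.S2536

/-- Let `π` be a set of primes and `n` a natural number such that at least two primes of `π` divide `n!` but not every prime dividing `n!` lies in `π`. Then the symmetric group of degree `n` has a Hall `π`-subgroup if and only if either `n` is prime and the primes of `π` dividing `n!` are exactly the primes smaller than `n` (a point stabilizer is then such a subgroup), or `n ∈ {7, 8}` and the primes of `π` dividing `n!` are exactly 2 and 3. -/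
theorem result (n : ℕ) (π : Set ℕ)
    (h2 : ∃ r s : ℕ, r.Prime ∧ s.Prime ∧ r ≠ s ∧ r ∈ π ∧ s ∈ π ∧ r ≤ n ∧ s ≤ n)
    (hns : ∃ r : ℕ, r.Prime ∧ r ≤ n ∧ r ∉ π) :
    Cfsg.IsEPiGroup π (Equiv.Perm (Fin n)) ↔
      ((n.Prime ∧ ∀ r : ℕ, r.Prime → r ≤ n → (r ∈ π ↔ r < n)) ∨
       ((n = 7 ∨ n = 8) ∧ ∀ r : ℕ, r.Prime → r ≤ n → (r ∈ π ↔ (r = 2 ∨ r = 3)))) := by
  obtain ⟨r, s, hr, hs, hrs, hrπ, hsπ, hrn, hsn⟩ := h2
  have hcard : Fintype.card (Fin n) = n := Fintype.card_fin n
  constructor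
  · rintro ⟨H, hH⟩
    have hH' := Cfsg.Agent.H43.isPiHall_top.mp hH
    have key : Cfsg.Agent.H43.HallConcl π ⊤ H := by
      rcases lt_or_gt_of_ne hrs with h | h
      · exact Cfsg.Agent.H43.hall_main n (Fin n) hcard π ⊤ H le_top hH' r s hr hs h hrπ hsπ hsn hns
      · exact Cfsg.Agent.H43.hall_main n (Fin n) hcard π ⊤ H le_top hH' s r hs hr h hsπ hrπ hrn hns
    rcases key with ⟨hp, hq, -⟩ | ⟨h7, hq, -⟩ | ⟨h8, hq, -⟩
    · left
      rw [hcard] at hp hq
      exact ⟨hp, hq⟩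
    · right
      rw [hcard] at h7
      subst h7
      exact ⟨Or.inl rfl, hq⟩
    · right
      rw [hcard] at h8
      subst h8
      exact ⟨Or.inr rfl, hq⟩
  · rintro (⟨hp, hq⟩ | ⟨h78, hq⟩)
    · have hn0 : 0 < n := hp.pos
      refine ⟨Cfsg.Agent.H43.colorStab (fun x : Fin n => decide (x = ⟨0, hn0⟩)),
        Cfsg.Agent.H43.isPiHall_top.mpr (Cfsg.Agent.H43.hall_point_stab _ ?_ ?_ ?_)⟩
      · rw [Cfsg.Agent.H43.card_fiber_eq_ncard _ true {(⟨0, hn0⟩ : Fin n)} (fun x => by simp)]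
        exact Set.ncard_singleton _
      · rw [hcard]; exact hp
      · rw [hcard]; exact hq
    · rcases h78 with rfl | rfl
      · refine ⟨Cfsg.Agent.H43.colorStab (fun x : Fin 7 => decide (x.val < 3)),
          Cfsg.Agent.H43.isPiHall_top.mpr (Cfsg.Agent.H43.hall_three_set _ ?_ hcard hq)⟩
        rw [Nat.card_eq_fintype_card]
        decide
      · refine ⟨Cfsg.Agent.H43.pairStab (fun x : Fin 8 => decide (x.val < 4)),
          Cfsg.Agent.H43.isPiHall_top.mpr (Cfsg.Agent.H43.hall_pair_stab _ ?_ hcard hq)⟩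
        rw [Nat.card_eq_fintype_card]
        decide

end Cfsg.Agent.S2536
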