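import Cfsg.Statements.S2541

set_option autoImplicit false
open Cfsg

namespace Cfsg.Agent.S2541

open Matrix in
/-- the diagonal embedding `u ↦ diag(u, 1)` into matrices -/
noncomputable def diagHom (F : Type*) [Field F] : Fˣ →* Matrix (Fin 2) (Fin 2) F where
  toFun u := Matrix.diagonal ![(u : F), 1]
  map_one' := by
    ext i j
    fin_cases i <;> fin_cases j <;> simp [Matrix.diagonal]
  map_mul' u v := by
    rw [Matrix.diagonal_mul_diagonal]
    congr 1
    ext i
    fin_cases i <;> simp

theorem perm6_orderOf_dvd (σ : Equiv.Perm (Fin 6)) : orderOf σ ∣ 60 := by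
  rw [← Equiv.Perm.lcm_cycleType, Multiset.lcm_dvd]
  intro n hn
  have h1 : n ≤ σ.cycleType.sum := Multiset.le_sum_of_mem hn
  have h2 : σ.cycleType.sum ≤ 6 := by
    rw [Equiv.Perm.sum_cycleType]
    simpa using Finset.card_le_univ σ.support
  have h3 : n ≤ 6 := h1.trans h2
  have h4 : 2 ≤ n := Equiv.Perm.two_le_of_mem_cycleType hn
  interval_cases n <;> decide

/-- Let F be a field with 9 elements. The symmetric group S_6 is not isomorphic to PGL_2(F) (although both have index-2 subgroups isomorphic to A_6). -/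
theorem result {F : Type*} [Field F] [Fintype F] (hF : Fintype.card F = 9) : ¬ Nonempty (Equiv.Perm (Fin 6) ≃* Matrix.ProjGenLinGroup (Fin 2) F) := by
  classical
  rintro ⟨e⟩
  let φ : Fˣ →* Matrix.ProjGenLinGroup (Fin 2) F :=
    Matrix.ProjGenLinGroup.mk.comp (diagHom F).toHomUnits
  have hφ : Function.Injective φ := by
    rw [injective_iff_map_eq_one]
    intro u hu
    have h1 : (diagHom F).toHomUnits u ∈ Subgroup.center (GL (Fin 2) F) := by
      simpa [φ] using hu
    rw [Matrix.GeneralLinearGroup.center_eq_range_scalar] at h1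
    obtain ⟨c, hc⟩ := h1
    have h2 := congrArg (fun g : GL (Fin 2) F => (g : Matrix (Fin 2) (Fin 2) F)) hc
    simp only [Matrix.GeneralLinearGroup.coe_scalar, MonoidHom.coe_toHomUnits] at h2
    have h00 := congrFun (congrFun h2 0) 0
    have h11 := congrFun (congrFun h2 1) 1
    simp [diagHom, Matrix.diagonal] at h00 h11
    ext
    rw [← h00, h11]
  obtain ⟨ζ, hζ⟩ := IsCyclic.exists_generator (α := Fˣ)
  have hord : orderOf ζ = 8 := by
    rw [orderOf_eq_card_of_forall_mem_zpowers hζ, Nat.card_eq_fintype_card, Fintype.card_units, hF]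
  have h8 : orderOf (e.symm (φ ζ)) = 8 := by
    rw [MulEquiv.orderOf_eq, orderOf_injective φ hφ, hord]
  have := perm6_orderOf_dvd (e.symm (φ ζ))
  rw [h8] at this
  omega

end Cfsg.Agent.S2541
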