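import Cfsg.Statements.S2543
import Cfsg.Agent.H98.A5L11

set_option autoImplicit false
open scoped Pointwise
open Cfsg

namespace Cfsg.Agent.S2543

/-- Let F be a field with 11 elements. PSL_2(F) has exactly 22 subgroups isomorphic to the alternating group A_5, and they form two conjugacy classes: there are two such subgroups that are not conjugate, and every such subgroup is conjugate to one of these two. -/
theorem result {F : Type*} [Field F] [Fintype F] (hF : Fintype.card F = 11) : Nat.card {H : Subgroup (Matrix.ProjectiveSpecialLinearGroup (Fin 2) F) // Nonempty (H ≃* alternatingGroup (Fin 5))} = 22 ∧ ∃ H K : Subgroup (Matrix.ProjectiveSpecialLinearGroup (Fin 2) F), Nonempty (H ≃* alternatingGroup (Fin 5)) ∧ Nonempty (K ≃* alternatingGroup (Fin 5)) ∧ (∀ g : Matrix.ProjectiveSpecialLinearGroup (Fin 2) F, MulAut.conj g • H ≠ K) ∧ ∀ L : Subgroup (Matrix.ProjectiveSpecialLinearGroup (Fin 2) F), Nonempty (L ≃* alternatingGroup (Fin 5)) → ∃ g : Matrix.ProjectiveSpecialLinearGroup (Fin 2) F, MulAut.conj g • L = H ∨ MulAut.conj g • L = K :=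
  Cfsg.Agent.H98.A5L11.main hF

end Cfsg.Agent.S2543
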