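import Cfsg.Statements.S2550
import Cfsg.Agent.H48.PSL34
import Cfsg.Agent.S0243

set_option autoImplicit false
open Cfsg

namespace Cfsg.Agent.S2550

open Cfsg.Agent.H48

/-- Let F be a field with 2 elements and K a field with 4 elements. PSL_4(F) and PSL_3(K) have the same order (20160) but are not isomorphic. -/
theorem result {F K : Type*} [Field F] [Fintype F] [Field K] [Fintype K] (hF : Fintype.card F = 2) (hK : Fintype.card K = 4) : Nat.card (Matrix.ProjectiveSpecialLinearGroup (Fin 4) F) = Nat.card (Matrix.ProjectiveSpecialLinearGroup (Fin 3) K) ∧ ¬ Nonempty (Matrix.ProjectiveSpecialLinearGroup (Fin 4) F ≃* Matrix.ProjectiveSpecialLinearGroup (Fin 3) K) := by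
  constructor
  · have h1 := Cfsg.Agent.S0243.result hF 4 (by norm_num)
    have h2 := Cfsg.Agent.S0243.result hK 3 (by norm_num)
    simp only [Fin.prod_univ_succ, Fin.val_zero, Fin.val_succ, Finset.univ_eq_empty,
      Finset.prod_empty] at h1 h2
    norm_num at h1 h2
    omega
  · rintro ⟨e⟩
    obtain ⟨x, hx⟩ := psl4_two_exists_order_six hF
    exact psl3_four_no_order_six hK (e x) (by rw [MulEquiv.orderOf_eq, hx])

end Cfsg.Agent.S2550
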