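import Cfsg.Statements.S2551
import Mathlib
import Cfsg.Agent.H6.A7GL

set_option autoImplicit false
open Cfsg

namespace Cfsg.Agent.S2551

/-- Let F be the field with 2 elements. GL_4(F) (≅ A_8) has a subgroup isomorphic to the alternating group A_7, and every such subgroup acts 2-transitively on the 15 non-zero vectors of F⁴: any ordered pair of distinct non-zero vectors is carried to any other by some element of the subgroup. -/
theorem result {F : Type*} [Field F] [Fintype F] (hF : Fintype.card F = 2) : (∃ H : Subgroup (Matrix.GeneralLinearGroup (Fin 4) F), Nonempty (H ≃* alternatingGroup (Fin 7))) ∧ ∀ H : Subgroup (Matrix.GeneralLinearGroup (Fin 4) F), Nonempty (H ≃* alternatingGroup (Fin 7)) → ∀ v w v' w' : Fin 4 → F, v ≠ 0 → w ≠ 0 → v ≠ w → v' ≠ 0 → w' ≠ 0 → v' ≠ w' → ∃ g ∈ H, (g : Matrix (Fin 4) (Fin 4) F).mulVec v = v' ∧ (g : Matrix (Fin 4) (Fin 4) F).mulVec w = w' := by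
  classical
  have : Fact (Nat.Prime 2) := ⟨by norm_num⟩
  let eF : ZMod 2 ≃+* F := ZMod.ringEquivOfPrime F (by norm_num) hF
  let θ : Cfsg.Agent.H6.A7.SL4 →* Matrix.GeneralLinearGroup (Fin 4) F :=
    Matrix.SpecialLinearGroup.toGL.comp (Cfsg.Agent.H6.slMapEquiv eF).toMonoidHom
  have hθ_apply : ∀ (g : Cfsg.Agent.H6.A7.SL4) (i j : Fin 4),
      (θ g : Matrix (Fin 4) (Fin 4) F) i j = eF (g.1 i j) := by
    intro g i j
    exact Cfsg.Agent.H6.slMapEquiv_apply eF g i j
  have hθ_inj : Function.Injective θ := by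
    intro a b hab
    apply Subtype.ext
    ext i j
    have h1 := congrArg (fun g : Matrix.GeneralLinearGroup (Fin 4) F =>
      (g : Matrix (Fin 4) (Fin 4) F) i j) hab
    simp only [hθ_apply] at h1
    exact eF.injective h1
  have hunit : ∀ u : Fˣ, u = 1 := by
    have h1 : Fintype.card Fˣ = 1 := by rw [Fintype.card_units, hF]
    intro u
    exact Fintype.card_le_one_iff.mp h1.le u 1
  have hθ_surj : Function.Surjective θ := by
    intro g
    have hdet : (g : Matrix (Fin 4) (Fin 4) F).det = 1 := by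
      have h2 := congrArg Units.val (hunit (Matrix.GeneralLinearGroup.det g))
      simpa using h2
    refine ⟨(Cfsg.Agent.H6.slMapEquiv eF).symm ⟨g.1, hdet⟩, ?_⟩
    apply Units.ext
    ext i j
    rw [hθ_apply]
    have h3 : Cfsg.Agent.H6.slMapEquiv eF
        ((Cfsg.Agent.H6.slMapEquiv eF).symm ⟨g.1, hdet⟩) = ⟨g.1, hdet⟩ :=
      MulEquiv.apply_symm_apply _ _
    have h4 := Cfsg.Agent.H6.slMapEquiv_apply eF
      ((Cfsg.Agent.H6.slMapEquiv eF).symm ⟨g.1, hdet⟩) i j
    rw [h3] at h4
    exact h4.symm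
  constructor
  · obtain ⟨f, hf⟩ := Cfsg.Agent.H6.A7.exists_alt7
    exact ⟨(θ.comp f).range, ⟨(MonoidHom.ofInjective (f := θ.comp f) (hθ_inj.comp hf)).symm⟩⟩
  · intro H hH v w v' w' hv hw hvw hv' hw' hvw'
    obtain ⟨e⟩ := hH
    have hbij : Function.Bijective (θ.subgroupComap H) := by
      constructor
      · intro a b hab
        apply Subtype.ext
        apply hθ_inj
        exact congrArg Subtype.val hab
      · intro h
        obtain ⟨g, hg⟩ := hθ_surj h.1
        exact ⟨⟨g, by rw [Subgroup.mem_comap, hg]; exact h.2⟩, Subtype.ext hg⟩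
    have hne : ∀ u : Fin 4 → F, u ≠ 0 → (fun i => eF.symm (u i)) ≠ 0 := by
      intro u hu h0
      apply hu
      funext i
      have := congrFun h0 i
      simpa using this
    have hne2 : ∀ u u' : Fin 4 → F, u ≠ u' →
        (fun i => eF.symm (u i)) ≠ (fun i => eF.symm (u' i)) := by
      intro u u' hu h0
      apply hu
      funext i
      exact eF.symm.injective (congrFun h0 i)
    obtain ⟨g, hgK, hgv, hgw⟩ := Cfsg.Agent.H6.A7.model (H.comap θ)
      ⟨(MulEquiv.ofBijective (θ.subgroupComap H) hbij).trans e⟩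
      (fun i => eF.symm (v i)) (fun i => eF.symm (w i)) (fun i => eF.symm (v' i))
      (fun i => eF.symm (w' i)) (hne v hv) (hne w hw) (hne2 v w hvw) (hne v' hv') (hne w' hw')
      (hne2 v' w' hvw')
    have key : ∀ u u' : Fin 4 → F, g.1.mulVec (fun i => eF.symm (u i)) = (fun i => eF.symm (u' i)) →
        (θ g : Matrix (Fin 4) (Fin 4) F).mulVec u = u' := by
      intro u u' huu
      funext i
      have h5 := congrFun huu i
      simp only [Matrix.mulVec, dotProduct] at h5 ⊢
      have h6 : ∀ j, (θ g : Matrix (Fin 4) (Fin 4) F) i j * u j =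
          eF (g.1 i j * eF.symm (u j)) := by
        intro j
        rw [hθ_apply, map_mul, RingEquiv.apply_symm_apply]
      simp only [h6]
      rw [← map_sum, h5, RingEquiv.apply_symm_apply]
    exact ⟨θ g, hgK, key v v' hgv, key w w' hgw⟩

end Cfsg.Agent.S2551
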