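import Cfsg.Statements.S2552
import Cfsg.Agent.H48.Dilation

set_option autoImplicit false
open Cfsg

namespace Cfsg.Agent.S2552

open Cfsg.Agent.H48 Module

/-- Let F be a finite field and n ≥ 1. For every k, the special linear group SL_n(F) acts transitively on the set of k-dimensional subspaces of F^n: any two subspaces of the same dimension are carried onto each other by some matrix of determinant 1. -/
theorem result {F : Type*} [Field F] [Fintype F] (n : ℕ) (hn : 1 ≤ n) (U₁ U₂ : Submodule F (Fin n → F)) (h : Module.finrank F U₁ = Module.finrank F U₂) : ∃ g : Matrix.SpecialLinearGroup (Fin n) F, U₁.map ((Matrix.SpecialLinearGroup.toLin' g : (Fin n → F) ≃ₗ[F] (Fin n → F)) : (Fin n → F) →ₗ[F] (Fin n → F)) = U₂ := by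
  classical
  by_cases hU : U₁ = ⊥
  · subst hU
    have h2 : U₂ = ⊥ := by
      rw [finrank_bot] at h
      exact Submodule.finrank_eq_zero.mp h.symm
    subst h2
    exact ⟨1, by simp⟩
  · obtain ⟨C₁, hC₁⟩ := Submodule.exists_isCompl U₁
    obtain ⟨C₂, hC₂⟩ := Submodule.exists_isCompl U₂
    have hfr1 := Submodule.finrank_add_eq_of_isCompl hC₁
    have hfr2 := Submodule.finrank_add_eq_of_isCompl hC₂
    have hC : finrank F C₁ = finrank F C₂ := by omega
    let eU : U₁ ≃ₗ[F] U₂ := LinearEquiv.ofFinrankEq _ _ h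
    let eC : C₁ ≃ₗ[F] C₂ := LinearEquiv.ofFinrankEq _ _ hC
    let e : (Fin n → F) ≃ₗ[F] (Fin n → F) :=
      (Submodule.prodEquivOfIsCompl U₁ C₁ hC₁).symm ≪≫ₗ (eU.prodCongr eC) ≪≫ₗ
        (Submodule.prodEquivOfIsCompl U₂ C₂ hC₂)
    have he : ∀ x ∈ U₁, e x ∈ U₂ := by
      intro x hx
      have : e x = (eU ⟨x, hx⟩ : Fin n → F) := by
        have h1 := Submodule.prodEquivOfIsCompl_symm_apply_left U₁ C₁ hC₁ ⟨x, hx⟩
        simp only [e, LinearEquiv.trans_apply]
        rw [show ((Submodule.prodEquivOfIsCompl U₁ C₁ hC₁).symm x) = (⟨x, hx⟩, 0) from h1]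
        simp
      rw [this]; exact (eU ⟨x, hx⟩).2
    set g₀ := LinearMap.toMatrix' (e : (Fin n → F) →ₗ[F] (Fin n → F)) with hg₀
    have hdet : g₀.det ≠ 0 := by
      rw [hg₀, LinearMap.det_toMatrix']
      exact (LinearEquiv.isUnit_det' e).ne_zero
    obtain ⟨v, hv, hv0⟩ := Submodule.exists_mem_ne_zero_of_ne_bot hU
    obtain ⟨j, hj⟩ : ∃ j, v j ≠ 0 := by
      by_contra hh
      exact hv0 (funext fun j => by_contra fun hj => hh ⟨j, hj⟩)
    let w : Fin n → F := Pi.single j (v j)⁻¹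
    have hwv : w ⬝ᵥ v = 1 := by simp [w, hj]
    let D := 1 + Matrix.vecMulVec ((g₀.det⁻¹ - 1) • v) w
    have hD : D.det = g₀.det⁻¹ := det_dilation v w hwv _
    let g : Matrix.SpecialLinearGroup (Fin n) F :=
      ⟨g₀ * D, by rw [Matrix.det_mul, hD, mul_inv_cancel₀ hdet]⟩
    refine ⟨g, ?_⟩
    apply Submodule.eq_of_le_of_finrank_eq
    · rintro _ ⟨x, hx, rfl⟩
      show (Matrix.SpecialLinearGroup.toLin' g) x ∈ U₂
      rw [Matrix.SpecialLinearGroup.toLin'_apply]
      show Matrix.toLin' (g₀ * D) x ∈ U₂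
      rw [Matrix.toLin'_mul, LinearMap.comp_apply, Matrix.toLin'_apply D, hg₀,
        Matrix.toLin'_toMatrix']
      apply he
      show (1 + Matrix.vecMulVec ((g₀.det⁻¹ - 1) • v) w).mulVec x ∈ U₁
      rw [dilation_mulVec]
      exact U₁.add_mem hx (U₁.smul_mem _ hv)
    · rw [LinearEquiv.finrank_map_eq, h]

end Cfsg.Agent.S2552
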