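import Cfsg.Statements.S2562
import Cfsg.Agent.H48.QuadF2c

set_option autoImplicit false
open Cfsg

namespace Cfsg.Agent.S2562

open Cfsg.Agent.H48

/-- The inclusion of the first `k` coordinates for the minus-type coordinates. -/
def inlMapM (k : ℕ) : (Fin k → ZMod 2) →ₗ[ZMod 2] ((Fin k ⊕ Fin k) ⊕ Fin 2 → ZMod 2) where
  toFun x := Sum.elim (Sum.elim x 0) 0
  map_add' x y := by
    funext j
    rcases j with (i | i) | i <;> simp
  map_smul' c x := by
    funext j
    rcases j with (i | i) | i <;> simp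

theorem inlMapM_injective (k : ℕ) : Function.Injective (inlMapM k) := by
  intro x y h
  funext i
  have := congrFun h (Sum.inl (Sum.inl i))
  simpa [inlMapM] using this

theorem minus_exists (k : ℕ) :
    ∃ U : Submodule (ZMod 2) ((Fin k ⊕ Fin k) ⊕ Fin 2 → ZMod 2),
      (∀ u ∈ U, Cfsg.quadFormMinus k (ZMod 2) 1 1 u = 0) ∧ Module.finrank (ZMod 2) ↥U = k := by
  refine ⟨LinearMap.range (inlMapM k), ?_, ?_⟩
  · rintro _ ⟨x, rfl⟩
    unfold Cfsg.quadFormMinus
    simp [inlMapM]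
  · rw [LinearMap.finrank_range_of_inj (inlMapM_injective k)]
    simp

theorem minus_bound (k : ℕ) (U : Submodule (ZMod 2) ((Fin k ⊕ Fin k) ⊕ Fin 2 → ZMod 2))
    (hU : ∀ u ∈ U, Cfsg.quadFormMinus k (ZMod 2) 1 1 u = 0) :
    Module.finrank (ZMod 2) ↥U ≤ k := by
  have hneg : charSum (k + 1) (minusT k) < 0 := by
    rw [charSum_minusT]
    have : (0 : ℤ) < 2 ^ (k + 1) := by positivity
    linarith
  have h := finrank_lt_of_charSum_neg (polarizes_minusT k) hneg
    (U.map (sigmaLin k).symm.toLinearMap) (by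
      rintro _ ⟨u', hu', rfl⟩
      unfold minusT
      simp only [LinearEquiv.coe_coe, LinearEquiv.apply_symm_apply]
      exact hU u' hu')
  rw [LinearEquiv.finrank_map_eq] at h
  omega

/-- Witt indices over the field of two elements, m ≥ 1: for the plus-type form Σ xᵢyᵢ in dimension 2m some m-dimensional subspace is totally singular and no totally singular subspace has larger dimension; for the minus-type form Σ xᵢyᵢ + (z₁² + z₁z₂ + z₂²) in dimension 2m the maximal dimension of a totally singular subspace is m − 1. -/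
theorem result (m : ℕ) (hm : 1 ≤ m) :
    (∃ U : Submodule (ZMod 2) (Fin m ⊕ Fin m → ZMod 2), (∀ u ∈ U, Cfsg.quadFormPlus m (ZMod 2) u = 0) ∧ Module.finrank (ZMod 2) ↥U = m) ∧
    (∀ U : Submodule (ZMod 2) (Fin m ⊕ Fin m → ZMod 2), (∀ u ∈ U, Cfsg.quadFormPlus m (ZMod 2) u = 0) → Module.finrank (ZMod 2) ↥U ≤ m) ∧
    (∃ U : Submodule (ZMod 2) ((Fin (m - 1) ⊕ Fin (m - 1)) ⊕ Fin 2 → ZMod 2), (∀ u ∈ U, Cfsg.quadFormMinus (m - 1) (ZMod 2) 1 1 u = 0) ∧ Module.finrank (ZMod 2) ↥U = m - 1) ∧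
    (∀ U : Submodule (ZMod 2) ((Fin (m - 1) ⊕ Fin (m - 1)) ⊕ Fin 2 → ZMod 2), (∀ u ∈ U, Cfsg.quadFormMinus (m - 1) (ZMod 2) 1 1 u = 0) → Module.finrank (ZMod 2) ↥U ≤ m - 1) := by
  refine ⟨⟨LinearMap.range (inlMap m), ?_, finrank_range_inlMap m⟩, ?_, minus_exists (m - 1),
    minus_bound (m - 1)⟩
  · rintro _ ⟨x, rfl⟩
    exact quadFormPlus_inlMap m x
  · intro U hU
    exact finrank_le_of_isotropic U (isotropic_of_singular (polarizes_plus m) U hU)

end Cfsg.Agent.S2562
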