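import Cfsg.Statements.S2563
import Cfsg.Agent.H48.SymOrth

set_option autoImplicit false
open Cfsg

namespace Cfsg.Agent.S2563

theorem result (k : ℕ) (hk : 1 ≤ k) :
    (Odd k → ∃ φ : Equiv.Perm (Fin (4 * k + 4)) →* ↥(Cfsg.isometryGroup (ZMod 2) (Cfsg.quadFormPlus (2 * k + 1) (ZMod 2))), Function.Injective φ) ∧
    (Even k → ∃ φ : Equiv.Perm (Fin (4 * k + 4)) →* ↥(Cfsg.isometryGroup (ZMod 2) (Cfsg.quadFormMinus (2 * k) (ZMod 2) 1 1)), Function.Injective φ) := by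
  have hcard : Fintype.card (Fin (4 * k + 2)) = 4 * k + 2 := Fintype.card_fin _
  have hκ : Even (Fintype.card (Fin (4 * k + 2))) := by
    rw [hcard]
    exact ⟨2 * k + 1, by ring⟩
  have h3 : 3 ≤ Fintype.card (Fin (4 * k + 2)) := by
    rw [hcard]
    omega
  let emb : Fin (4 * k + 4) ↪ Fin (4 * k + 2) ⊕ Fin 2 :=
    ((finCongr (by ring : 4 * k + 4 = 4 * k + 2 + 2)).trans finSumFinEquiv.symm).toEmbedding
  have hcase : 4 ∣ Fintype.card (Fin (4 * k + 2)) + 2 ∨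
      (Sum.inr 1 : Fin (4 * k + 2) ⊕ Fin 2) ∉ Set.range emb := by
    left
    rw [hcard]
    exact ⟨k + 1, by ring⟩
  constructor
  · intro hodd
    obtain ⟨h, hQ⟩ := Cfsg.Agent.H48.exists_weight_equiv_plus (Fin (4 * k + 2)) k hcard hodd
    exact Cfsg.Agent.H48.exists_perm_hom_of_weight (Fin (4 * k + 2)) hκ h3 emb hcase _ h hQ
  · intro heven
    obtain ⟨h, hQ⟩ := Cfsg.Agent.H48.exists_weight_equiv_minus (Fin (4 * k + 2)) k hcard heven
    exact Cfsg.Agent.H48.exists_perm_hom_of_weight (Fin (4 * k + 2)) hκ h3 emb hcase _ h hQ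

end Cfsg.Agent.S2563
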