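import Cfsg.Statements.S2564
import Cfsg.Agent.H48.QuadF2

set_option autoImplicit false
open Cfsg

namespace Cfsg.Agent.S2564

open Cfsg.Agent.H48

/-- On the 2m-dimensional space over the field of two elements (m ≥ 1) let f be the alternating form obtained by polarizing the plus-type form Σ xᵢyᵢ, and let q be any quadratic form polarizing to f. For a vector w, the function q + f(·, w) again polarizes to f, and it is equivalent to q under an invertible linear map (that is, has the same type) if and only if q(w) = 0. -/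
theorem result (m : ℕ) (hm : 1 ≤ m) (q : (Fin m ⊕ Fin m → ZMod 2) → ZMod 2) (hq : (∀ u v : (Fin m ⊕ Fin m → ZMod 2), q (u + v) = q u + q v + (Cfsg.quadFormPlus m (ZMod 2) (u + v) - Cfsg.quadFormPlus m (ZMod 2) u - Cfsg.quadFormPlus m (ZMod 2) v))) (w : (Fin m ⊕ Fin m → ZMod 2)) :
    (∀ u v : (Fin m ⊕ Fin m → ZMod 2), (q (u + v) + (Cfsg.quadFormPlus m (ZMod 2) (u + v + w) - Cfsg.quadFormPlus m (ZMod 2) (u + v) - Cfsg.quadFormPlus m (ZMod 2) w)) =
        (q u + (Cfsg.quadFormPlus m (ZMod 2) (u + w) - Cfsg.quadFormPlus m (ZMod 2) u - Cfsg.quadFormPlus m (ZMod 2) w)) + (q v + (Cfsg.quadFormPlus m (ZMod 2) (v + w) - Cfsg.quadFormPlus m (ZMod 2) v - Cfsg.quadFormPlus m (ZMod 2) w)) +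
        (Cfsg.quadFormPlus m (ZMod 2) (u + v) - Cfsg.quadFormPlus m (ZMod 2) u - Cfsg.quadFormPlus m (ZMod 2) v)) ∧
    ((∃ g : (Fin m ⊕ Fin m → ZMod 2) ≃ₗ[ZMod 2] (Fin m ⊕ Fin m → ZMod 2), ∀ v, q v + (Cfsg.quadFormPlus m (ZMod 2) (v + w) - Cfsg.quadFormPlus m (ZMod 2) v - Cfsg.quadFormPlus m (ZMod 2) w) = q (g v)) ↔ q w = 0) := by
  have hq' : Polarizes m q := hq
  refine ⟨fun u v => (hq'.add_pol w) u v, ?_, ?_⟩
  · rintro ⟨g, hg⟩
    by_contra hw
    have hw1 : q w = 1 := by
      rcases zmod2_eq_zero_or_one (q w) with h | h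
      · exact absurd h hw
      · exact h
    have h1 : charSum m (fun v => q v + pol m v w) = charSum m q := by
      have : (fun v => q v + pol m v w) = fun v => q (g.toEquiv v) := by
        funext v
        exact hg v
      rw [this]
      exact charSum_comp_equiv m q g.toEquiv
    have h2 : charSum m (fun v => q v + pol m v w) = - charSum m q := by
      have e : ∀ v, q v + pol m v w = q (v + w) + 1 := by
        intro v
        rw [hq' v w, hw1]
        have := zmod2_add_self (1 : ZMod 2)
        linear_combination (-1 : ZMod 2) * this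
      unfold charSum
      rw [← Fintype.sum_equiv (Equiv.addRight w) (fun v => chi (q (v + w)))
        (fun v => chi (q v)) (fun v => rfl), ← Finset.sum_neg_distrib]
      refine Finset.sum_congr rfl fun v _ => ?_
      show chi (q v + pol m v w) = -chi (q (v + w))
      rw [e v, chi_add, chi_one]; ring
    have h3 := charSum_ne_zero hq'
    omega
  · intro hw
    exact ⟨transv m w, fun v => (hq'.comp_transv w hw v).symm⟩

end Cfsg.Agent.S2564
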