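import Cfsg.Statements.S2565
import Cfsg.Agent.S0825

set_option autoImplicit false
open Cfsg

namespace Cfsg.Agent.S2565

theorem result :
    (Cfsg.Omega (ZMod 2) (Cfsg.quadFormPlus 3 (ZMod 2))).index = 2 ∧
    Nonempty (↥(Cfsg.Omega (ZMod 2) (Cfsg.quadFormPlus 3 (ZMod 2))) ≃* alternatingGroup (Fin 8)) := by
  classical
  obtain ⟨ψ⟩ := Cfsg.Agent.S0825.result (F := ZMod 2) (by decide)
  have hmap : (Cfsg.Omega (ZMod 2) (Cfsg.quadFormPlus 3 (ZMod 2))).map ψ.toMonoidHom =
      alternatingGroup (Fin 8) := by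
    show (commutator _).map ψ.toMonoidHom = _
    rw [commutator_def, Subgroup.map_commutator,
      Subgroup.map_top_of_surjective _ ψ.surjective, ← commutator_def,
      alternatingGroup.commutator_perm_eq (by rw [Nat.card_eq_fintype_card, Fintype.card_fin]; norm_num)]
  constructor
  · have h1 := Subgroup.index_map_equiv (Cfsg.Omega (ZMod 2) (Cfsg.quadFormPlus 3 (ZMod 2))) ψ
    have h2 : (Subgroup.map ψ.toMonoidHom
        (Cfsg.Omega (ZMod 2) (Cfsg.quadFormPlus 3 (ZMod 2)))).index =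
        (Cfsg.Omega (ZMod 2) (Cfsg.quadFormPlus 3 (ZMod 2))).index := h1
    rw [← h2, hmap]
    exact alternatingGroup.index_eq_two
  · exact ⟨(ψ.subgroupMap _).trans (MulEquiv.subgroupCongr hmap)⟩

end Cfsg.Agent.S2565
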