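import Cfsg.Statements.S2567

set_option autoImplicit false
open Cfsg

namespace Cfsg.Agent.S2567

/-- Lifting an element of prime order `r` from `G / Z(G)` when `|Z(G)|` is prime to `r`. -/
theorem exists_unique_lift {G : Type*} [Group G] [Finite (Subgroup.center G)] {r : ℕ}
    (hr : r.Prime) (hcop : (Nat.card (Subgroup.center G)).Coprime r)
    (x : G ⧸ Subgroup.center G) (hx : orderOf x = r) :
    ∃! g : G, (QuotientGroup.mk g : G ⧸ Subgroup.center G) = x ∧ orderOf g = r := by
  obtain ⟨g₀, rfl⟩ := QuotientGroup.mk_surjective x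
  have hxr : (QuotientGroup.mk g₀ : G ⧸ Subgroup.center G) ^ r = 1 := by
    rw [← hx]; exact pow_orderOf_eq_one _
  have hg₀r : g₀ ^ r ∈ Subgroup.center G := by
    rw [← QuotientGroup.eq_one_iff, QuotientGroup.mk_pow]; exact hxr
  have hx1 : (QuotientGroup.mk g₀ : G ⧸ Subgroup.center G) ≠ 1 := by
    intro h
    rw [h, orderOf_one] at hx
    exact hr.one_lt.ne hx
  -- solve z^r = (g₀^r)⁻¹ in the centre
  obtain ⟨z, hz⟩ := (powCoprime hcop).surjective (⟨g₀ ^ r, hg₀r⟩⁻¹ : Subgroup.center G)
  have hz' : (z : G) ^ r = (g₀ ^ r)⁻¹ := by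
    have := congrArg (fun w : Subgroup.center G => (w : G)) hz
    simpa using this
  have hzc : ∀ y : G, y * (z : G) = (z : G) * y := fun y => (Subgroup.mem_center_iff.mp z.2 y)
  have hcomm : Commute g₀ (z : G) := hzc g₀
  refine ⟨g₀ * z, ⟨?_, ?_⟩, ?_⟩
  · rw [QuotientGroup.mk_mul, (QuotientGroup.eq_one_iff (z : G)).mpr z.2, mul_one]
  · have hpow : (g₀ * z) ^ r = 1 := by
      rw [hcomm.mul_pow, hz', mul_inv_cancel]
    have hne : g₀ * (z : G) ≠ 1 := by
      intro h
      apply hx1
      have : (QuotientGroup.mk (g₀ * (z : G)) : G ⧸ Subgroup.center G) = 1 := by rw [h]; rfl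
      rwa [QuotientGroup.mk_mul, (QuotientGroup.eq_one_iff (z : G)).mpr z.2, mul_one] at this
    have hdvd := orderOf_dvd_of_pow_eq_one hpow
    rcases (Nat.dvd_prime hr).mp hdvd with h | h
    · exact absurd (orderOf_eq_one_iff.mp h) hne
    · exact h
  · rintro g' ⟨hg'1, hg'2⟩
    -- g' = g₀ z z'
    have hq : (g₀ * (z : G))⁻¹ * g' ∈ Subgroup.center G := by
      rw [← QuotientGroup.eq_one_iff, QuotientGroup.mk_mul, QuotientGroup.mk_inv,
        QuotientGroup.mk_mul, (QuotientGroup.eq_one_iff (z : G)).mpr z.2, mul_one, hg'1,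
        inv_mul_cancel]
    set z' : G := (g₀ * (z : G))⁻¹ * g' with hz'def
    have hg' : g' = (g₀ * (z : G)) * z' := by rw [hz'def, mul_inv_cancel_left]
    have hcomm' : Commute (g₀ * (z : G)) z' := (Subgroup.mem_center_iff.mp hq _)
    have hpow : (g₀ * (z : G)) ^ r = 1 := by
      rw [hcomm.mul_pow, hz', mul_inv_cancel]
    have hz'r : z' ^ r = 1 := by
      have h1 : g' ^ r = 1 := by rw [← hg'2]; exact pow_orderOf_eq_one _
      rw [hg', hcomm'.mul_pow, hpow, one_mul] at h1
      exact h1
    have hz'1 : z' = 1 := by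
      have h1 : orderOf (⟨z', hq⟩ : Subgroup.center G) ∣ r := by
        apply orderOf_dvd_of_pow_eq_one
        apply Subtype.ext
        simpa using hz'r
      have h2 : orderOf (⟨z', hq⟩ : Subgroup.center G) ∣ Nat.card (Subgroup.center G) :=
        orderOf_dvd_natCard _
      have h3 : orderOf (⟨z', hq⟩ : Subgroup.center G) = 1 :=
        Nat.eq_one_of_dvd_coprimes hcop h2 h1
      have h4 := orderOf_eq_one_iff.mp h3
      exact congrArg (fun w : Subgroup.center G => (w : G)) h4
    rw [hg', hz'1, mul_one]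

/-- Lifting elements of prime order from PGL to GL: let F be a finite field with q elements, r a prime not dividing q − 1, and x an element of order r in GL_n(F) modulo its centre (the scalar matrices). Then x has exactly one preimage in GL_n(F) of order r. -/
theorem result {F : Type*} [Field F] [Fintype F] {q n r : ℕ} (hF : Fintype.card F = q) (hr : r.Prime) (hdiv : ¬ r ∣ q - 1) (x : GL (Fin n) F ⧸ Subgroup.center (GL (Fin n) F)) (hx : orderOf x = r) : ∃! g : GL (Fin n) F, (QuotientGroup.mk g : GL (Fin n) F ⧸ Subgroup.center (GL (Fin n) F)) = x ∧ orderOf g = r := by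
  classical
  have hdvd : Nat.card (Subgroup.center (GL (Fin n) F)) ∣ q - 1 := by
    rw [Matrix.GeneralLinearGroup.center_eq_range_scalar]
    have h1 := Subgroup.card_range_dvd (Matrix.GeneralLinearGroup.scalar (Fin n) (R := F))
    have h2 : Nat.card Fˣ = q - 1 := by
      rw [Nat.card_eq_fintype_card, Fintype.card_units, hF]
    rwa [h2] at h1
  have hcop : (Nat.card (Subgroup.center (GL (Fin n) F))).Coprime r := by
    rw [Nat.coprime_comm, Nat.Prime.coprime_iff_not_dvd hr]
    intro h
    exact hdiv (h.trans hdvd)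
  exact exists_unique_lift hr hcop x hx

end Cfsg.Agent.S2567
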