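import Cfsg.Statements.S2568
import Cfsg.Agent.H48.PrimeOrd

set_option autoImplicit false
open Cfsg

namespace Cfsg.Agent.S2568

open Polynomial UniqueFactorizationMonoid

/-- Number of conjugacy classes of elements of a given prime order r, coprime to the characteristic, in GL_n(q): if i is the multiplicative order of q modulo r and t = (r − 1)/i, the classes correspond to the non-zero t-tuples of natural numbers (a_1, …, a_t) with i(a_1 + ⋯ + a_t) ≤ n (a_j is the multiplicity of the j-th Frobenius orbit of nontrivial r-th roots of unity among the eigenvalues), so there are exactly C(⌊n/i⌋ + t, t) − 1 of them. -/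
theorem result {F : Type*} [Field F] [Fintype F] {p q : ℕ} [Fact p.Prime] [CharP F p] (hF : Fintype.card F = q) (n r i t : ℕ) (hr : r.Prime) (hrp : r ≠ p) (hi : i = orderOf (q : ZMod r)) (ht : t * i = r - 1) : Nat.card {C : ConjClasses (GL (Fin n) F) // ∃ g : GL (Fin n) F, ConjClasses.mk g = C ∧ orderOf g = r} = Nat.choose (n / i + t) t - 1 := by
  classical
  have hp : p.Prime := Fact.out
  have : Fact r.Prime := ⟨hr⟩
  obtain ⟨k, -, hk⟩ := FiniteField.card F p
  have hcop : p.Coprime r := (Nat.coprime_primes hp hr).mpr (Ne.symm hrp)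
  have hrF : NeZero (r : F) := ⟨by
    intro h
    rw [CharP.cast_eq_zero_iff F p] at h
    exact hrp ((Nat.prime_dvd_prime_iff_eq hp hr).mp h).symm⟩
  have hcard := Polynomial.normalizedFactors_cyclotomic_card (K := F) (n := r) hk hcop
  obtain ⟨Φ, hΦdef⟩ : ∃ Φ : Finset F[X], Φ = (normalizedFactors (cyclotomic r F)).toFinset :=
    ⟨_, rfl⟩
  rw [← hΦdef] at hcard
  have hmem : ∀ P ∈ Φ, Irreducible P ∧ P.Monic ∧ P ∣ cyclotomic r F := by
    intro P hP
    rw [hΦdef, Multiset.mem_toFinset] at hP
    have h1 := irreducible_of_normalized_factor P hP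
    have h2 := normalize_normalized_factor P hP
    refine ⟨h1, ?_, dvd_of_mem_normalizedFactors hP⟩
    rw [← h2]
    exact monic_normalize h1.ne_zero
  have hord : orderOf (ZMod.unitOfCoprime (p ^ (k : ℕ)) (hcop.pow_left k)) = i := by
    rw [hi, ← orderOf_units, ZMod.coe_unitOfCoprime, ← hF, hk]
  rw [hord, Nat.totient_prime hr, ← ht] at hcard
  have hi0 : 0 < i := by
    rcases Nat.eq_zero_or_pos i with h | h
    · rw [h, mul_zero] at ht
      have := hr.two_le
      omega
    · exact h
  rw [Nat.mul_div_cancel _ hi0] at hcard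
  have hdeg : ∀ P ∈ Φ, P.natDegree = i := by
    intro P hP
    rw [← hord]
    exact Polynomial.natDegree_of_dvd_cyclotomic_of_irreducible hk hcop (hmem P hP).2.2
      (hmem P hP).1
  have hL : (X - 1 : F[X]) ∉ Φ := by
    intro h
    have h1 := (hmem _ h).2.2
    have h2 : (cyclotomic r F).eval 1 = 0 := by
      obtain ⟨w, hw⟩ := h1
      rw [hw]
      simp
    rw [eval_one_cyclotomic_prime] at h2
    exact hrF.out h2
  have hprod : (X - 1) * ∏ P ∈ Φ, P = (X ^ r - 1 : F[X]) := by
    rw [← cyclotomic_prime_mul_X_sub_one F r, mul_comm]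
    congr 1
    have hnodup : (normalizedFactors (cyclotomic r F)).Nodup :=
      (squarefree_iff_nodup_normalizedFactors (cyclotomic_ne_zero r F)).mp
        (squarefree_cyclotomic r F)
    have h1 : ∏ P ∈ Φ, P = (normalizedFactors (cyclotomic r F)).prod := by
      rw [Finset.prod_multiset_count, ← hΦdef]
      apply Finset.prod_congr rfl
      intro P hP
      rw [hΦdef] at hP
      rw [Multiset.count_eq_one_of_mem hnodup (Multiset.mem_toFinset.mp hP), pow_one]
    apply eq_of_monic_of_associated (monic_prod_of_monic _ _ (fun P hP => (hmem P hP).2.1))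
      (cyclotomic.monic r F)
    rw [h1]
    exact prod_normalizedFactors (cyclotomic_ne_zero r F)
  have hmain := Cfsg.Agent.H48.card_classes_prime_order p n r i hr hrp Φ
    (fun P hP => ⟨(hmem P hP).1, (hmem P hP).2.1⟩) hdeg hL hprod hi0
  rw [hcard] at hmain
  exact hmain

end Cfsg.Agent.S2568
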