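import Cfsg.Statements.S2569
import Cfsg.Agent.H48.Semisimple

set_option autoImplicit false
open Cfsg

namespace Cfsg.Agent.S2569

open Cfsg.Agent.H48 Polynomial

/-- In GL_n over a finite field of characteristic p, the conjugacy class of a semisimple element (an element of order prime to p) under the special linear group is its whole GL-conjugacy class: for every such x and every invertible g there is h of determinant one with h x h⁻¹ = g x g⁻¹. -/
theorem result {F : Type*} [Field F] [Fintype F] {p : ℕ} [Fact p.Prime] [CharP F p] {n : ℕ} (x g : GL (Fin n) F) (hx : (orderOf x).Coprime p) : ∃ h : GL (Fin n) F, (h : Matrix (Fin n) (Fin n) F).det = 1 ∧ h * x * h⁻¹ = g * x * g⁻¹ := by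
  classical
  rcases Nat.eq_zero_or_pos n with hn | hn
  · subst hn
    refine ⟨1, by simp, ?_⟩
    apply Units.ext
    exact Subsingleton.elim _ _
  have : NeZero n := ⟨by omega⟩
  have : Nontrivial (Fin n → F) := inferInstance
  set k := orderOf x with hk
  have hk0 : (k : F) ≠ 0 := by
    rw [Ne, CharP.cast_eq_zero_iff F p k]
    intro hdvd
    have h1 : p ∣ Nat.gcd k p := Nat.dvd_gcd hdvd dvd_rfl
    rw [Nat.Coprime] at hx
    rw [hx] at h1
    exact (Fact.out : p.Prime).one_lt.ne' (Nat.dvd_one.mp h1)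
  have hxk : (x : Matrix (Fin n) (Fin n) F) ^ k = 1 := by
    rw [← Units.val_pow_eq_pow_val, hk, pow_orderOf_eq_one, Units.val_one]
  set φ : Module.End F (Fin n → F) := Matrix.toLin' (x : Matrix (Fin n) (Fin n) F) with hφ
  have hφk : φ ^ k = 1 := by
    rw [hφ, ← Matrix.toLin'_pow, hxk, Matrix.toLin'_one]; rfl
  have hss : φ.IsSemisimple := by
    apply Module.End.isSemisimple_of_squarefree_aeval_eq_zero
      (separable_X_pow_sub_C (1 : F) hk0 one_ne_zero).squarefree
    rw [map_sub, map_pow, aeval_X, aeval_C, hφk, map_one, sub_self]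
  obtain ⟨c, hc, hdet⟩ := exists_commute_det_of_isSemisimple φ hss
    (g : Matrix (Fin n) (Fin n) F).det
  have hgdet : (g : Matrix (Fin n) (Fin n) F).det ≠ 0 := by
    have := (Matrix.isUnit_iff_isUnit_det _).mp g.isUnit
    exact this.ne_zero
  have hCdet : (LinearMap.toMatrix' c).det ≠ 0 := by
    rw [LinearMap.det_toMatrix', hdet]; exact hgdet
  obtain ⟨C, hC⟩ : ∃ C : GL (Fin n) F, (C : Matrix (Fin n) (Fin n) F) = LinearMap.toMatrix' c :=
    ⟨Matrix.GeneralLinearGroup.mkOfDetNeZero _ hCdet, rfl⟩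
  have hcomm : C * x = x * C := by
    apply Units.ext
    rw [Units.val_mul, Units.val_mul, hC]
    have h1 : c ∘ₗ φ = φ ∘ₗ c := LinearMap.ext hc
    have h2 := congrArg LinearMap.toMatrix' h1
    rw [LinearMap.toMatrix'_comp, LinearMap.toMatrix'_comp, hφ, LinearMap.toMatrix'_toLin'] at h2
    exact h2
  refine ⟨g * C⁻¹, ?_, ?_⟩
  · have h3 : ((C⁻¹ : GL (Fin n) F) : Matrix (Fin n) (Fin n) F).det *
        (C : Matrix (Fin n) (Fin n) F).det = 1 := by
      rw [← Matrix.det_mul, ← Units.val_mul, inv_mul_cancel, Units.val_one, Matrix.det_one]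
    rw [hC, LinearMap.det_toMatrix', hdet] at h3
    rw [Units.val_mul, Matrix.det_mul, mul_comm, h3]
  · have h4 : C⁻¹ * x * C = x := by
      rw [mul_assoc, ← hcomm, ← mul_assoc, inv_mul_cancel, one_mul]
    calc g * C⁻¹ * x * (g * C⁻¹)⁻¹ = g * (C⁻¹ * x * C) * g⁻¹ := by group
      _ = g * x * g⁻¹ := by rw [h4]
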