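import Cfsg.Statements.S2571
import Cfsg.Agent.H48.RegUnip

set_option autoImplicit false
open Cfsg

namespace Cfsg.Agent.S2571

open Cfsg.Agent.H48

theorem mem_centralizer_iff_commute_sub_one {F : Type*} [Field F] {ι : Type*} [Fintype ι]
    [DecidableEq ι] (u g : GL ι F) :
    g ∈ Subgroup.centralizer ({u} : Set (GL ι F)) ↔
      (g : Matrix ι ι F) * ((u : Matrix ι ι F) - 1) = ((u : Matrix ι ι F) - 1) * (g : Matrix ι ι F) := by
  rw [Subgroup.mem_centralizer_iff]
  constructor
  · intro h
    have h1 := h u rfl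
    have h2 : (u : Matrix ι ι F) * (g : Matrix ι ι F) = (g : Matrix ι ι F) * (u : Matrix ι ι F) := by
      rw [← Units.val_mul, ← Units.val_mul, h1]
    rw [mul_sub, sub_mul, mul_one, one_mul, h2]
  · intro h x hx
    rw [Set.mem_singleton_iff] at hx
    subst hx
    apply Units.ext
    rw [Units.val_mul, Units.val_mul]
    rw [mul_sub, sub_mul, mul_one, one_mul] at h
    exact (sub_left_injective h).symm

/-- Centraliser of a regular unipotent element in GL_n(q): if u is an invertible n × n matrix over the field with q elements, n ≥ 1, with (u − 1)^n = 0 and rank(u − 1) = n − 1 (a single unipotent Jordan block), then its centraliser in GL_n(q) has order (q − 1) q^(n−1). -/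
theorem result {F : Type*} [Field F] [Fintype F] {q n : ℕ} (hF : Fintype.card F = q) (hn : 1 ≤ n) (u : GL (Fin n) F) (hnil : ((u : Matrix (Fin n) (Fin n) F) - 1) ^ n = 0) (hreg : ((u : Matrix (Fin n) (Fin n) F) - 1).rank = n - 1) : Nat.card ↥(Subgroup.centralizer ({u} : Set (GL (Fin n) F))) = (q - 1) * q ^ (n - 1) := by
  have h := card_commutant_units ((u : Matrix (Fin n) (Fin n) F) - 1)
    (by rw [Fintype.card_fin]; exact hnil) (by rw [Fintype.card_fin]; exact hreg)
    (by rw [Fintype.card_fin]; exact hn)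
  rw [Fintype.card_fin, hF] at h
  rw [Nat.card_congr (Equiv.subtypeEquivRight (mem_centralizer_iff_commute_sub_one u)), h]
  obtain ⟨k, rfl⟩ : ∃ k, n = k + 1 := ⟨n - 1, by omega⟩
  rw [Nat.add_sub_cancel, pow_succ, Nat.sub_mul, one_mul, mul_comm]

end Cfsg.Agent.S2571
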