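import Cfsg.Statements.S2572
import Cfsg.Agent.H48.TransvCent

set_option autoImplicit false
open Cfsg

namespace Cfsg.Agent.S2572

open Cfsg.Agent.H48

/-- Centraliser of a transvection in GL_n(q), n ≥ 2: if t − 1 has rank one and square zero, the centraliser of t in GL_n(q) has order q^(2n−3) (q − 1) |GL_(n−2)(q)| (a group of order q^(2n−3) extended by GL_1(q) × GL_(n−2)(q)). -/
theorem result {F : Type*} [Field F] [Fintype F] {q n : ℕ} (hF : Fintype.card F = q) (hn : 2 ≤ n) (t : GL (Fin n) F) (ht : Cfsg.IsTransvection (t : Matrix (Fin n) (Fin n) F)) : Nat.card ↥(Subgroup.centralizer ({t} : Set (GL (Fin n) F))) = q ^ (2 * n - 3) * (q - 1) * ∏ i : Fin (n - 2), (q ^ (n - 2) - q ^ (i : ℕ)) := by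
  obtain ⟨v, w, hv, hw, hT⟩ := exists_vecMulVec_of_rank_one _ ht.1
  have hsq := ht.2
  rw [hT] at hsq
  have h := dotProduct_eq_zero_of_sq v w hv hw hsq
  have key := card_centralizer_mul v w hv hw h t hT
  rw [Matrix.card_GL_field, Fintype.card_fin, hF] at key
  obtain ⟨m, rfl⟩ : ∃ m, n = m + 2 := ⟨n - 2, by omega⟩
  have hq : 2 ≤ q := by rw [← hF]; exact Fintype.one_lt_card
  rw [prod_gl_succ, prod_gl_succ] at key
  change Nat.card _ * ((q ^ (m + 2) - 1) * (q ^ (m + 1) - 1)) =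
    (q - 1) * ((q ^ (m + 2) - 1) * q ^ (m + 1) *
      ((q ^ (m + 1) - 1) * q ^ m * ∏ i : Fin m, (q ^ m - q ^ (i : ℕ)))) at key
  change Nat.card _ = q ^ (2 * (m + 2) - 3) * (q - 1) * ∏ i : Fin m, (q ^ m - q ^ (i : ℕ))
  have h1 : 0 < q ^ (m + 2) - 1 := by
    have : 2 ^ (m + 2) ≤ q ^ (m + 2) := Nat.pow_le_pow_left hq _
    have : 2 ≤ 2 ^ (m + 2) := by
      calc 2 = 2 ^ 1 := by norm_num
        _ ≤ 2 ^ (m + 2) := Nat.pow_le_pow_right (by norm_num) (by omega)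
    omega
  have h2 : 0 < q ^ (m + 1) - 1 := by
    have : 2 ^ (m + 1) ≤ q ^ (m + 1) := Nat.pow_le_pow_left hq _
    have : 2 ≤ 2 ^ (m + 1) := by
      calc 2 = 2 ^ 1 := by norm_num
        _ ≤ 2 ^ (m + 1) := Nat.pow_le_pow_right (by norm_num) (by omega)
    omega
  apply Nat.eq_of_mul_eq_mul_right (Nat.mul_pos h1 h2)
  rw [key]
  have e : 2 * (m + 2) - 3 = (m + 1) + m := by omega
  rw [e, pow_add]
  ring
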