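import Cfsg.Statements.S2585

set_option autoImplicit false
open Cfsg

namespace Cfsg.Agent.S2585

open Matrix

theorem sympForm_eq {F : Type*} [CommRing F] (m : ℕ) (u v : Fin m ⊕ Fin m → F) :
    Cfsg.sympForm m F u v = ∑ i : Fin m, (u (Sum.inr i) * v (Sum.inl i) - u (Sum.inl i) * v (Sum.inr i)) := by
  unfold Cfsg.sympForm Matrix.J
  rw [Matrix.fromBlocks_mulVec]
  simp only [dotProduct, Fintype.sum_sum_type, Sum.elim_inl, Sum.elim_inr, Matrix.zero_mulVec,
    zero_add, add_zero, Matrix.neg_mulVec, Matrix.one_mulVec, Pi.neg_apply, Function.comp_apply]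
  rw [Finset.sum_sub_distrib]
  simp [Finset.sum_neg_distrib]
  ring

theorem symp_preserves {F : Type*} [CommRing F] (m : ℕ) (A : Matrix.symplecticGroup (Fin m) F)
    (u v : Fin m ⊕ Fin m → F) :
    Cfsg.sympForm m F ((A : Matrix (Fin m ⊕ Fin m) (Fin m ⊕ Fin m) F).mulVec u)
      ((A : Matrix (Fin m ⊕ Fin m) (Fin m ⊕ Fin m) F).mulVec v) = Cfsg.sympForm m F u v := by
  unfold Cfsg.sympForm
  have h := (SymplecticGroup.mem_iff'.mp A.2)
  rw [dotProduct_comm, Matrix.dotProduct_mulVec, ← Matrix.mulVec_transpose, dotProduct_comm,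
    Matrix.mulVec_mulVec, Matrix.mulVec_mulVec, h]

/-- The bilinear form `Σ u(inl i) v(inr i)`. -/
noncomputable def B0 (m : ℕ) (F : Type*) [Field F] : LinearMap.BilinMap F (Fin m ⊕ Fin m → F) F :=
  LinearMap.mk₂ F (fun u v => ∑ i : Fin m, u (Sum.inl i) * v (Sum.inr i))
    (by intros; simp [add_mul, Finset.sum_add_distrib])
    (by intros; simp [Finset.mul_sum, mul_assoc])
    (by intros; simp [mul_add, Finset.sum_add_distrib])
    (by intros; simp [Finset.mul_sum, mul_left_comm])

theorem B0_apply (m : ℕ) (F : Type*) [Field F] (u v : Fin m ⊕ Fin m → F) :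
    B0 m F u v = ∑ i : Fin m, u (Sum.inl i) * v (Sum.inr i) := rfl

/-- The standard quadratic form `Σ x_i y_i`. -/
noncomputable def Q0 (m : ℕ) (F : Type*) [Field F] : QuadraticForm F (Fin m ⊕ Fin m → F) :=
  (B0 m F).toQuadraticMap

theorem polar_Q0 {F : Type*} [Field F] [CharP F 2] (m : ℕ) (u v : Fin m ⊕ Fin m → F) :
    QuadraticMap.polar ⇑(Q0 m F) u v = Cfsg.sympForm m F u v := by
  unfold Q0
  rw [LinearMap.BilinMap.polar_toQuadraticMap, B0_apply, B0_apply, sympForm_eq,
    ← Finset.sum_add_distrib]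
  refine Finset.sum_congr rfl fun i _ => ?_
  rw [sub_eq_add_neg, CharTwo.neg_eq]
  ring

/-- factoring a functional through a linear map -/
theorem exists_factor {K V : Type*} [Field K] [AddCommGroup V] [Module K V]
    (T : V →ₗ[K] V) (l : V →ₗ[K] K) (h : ∀ v, T v = 0 → l v = 0) :
    ∃ μ : V →ₗ[K] K, ∀ v, l v = μ (T v) := by
  obtain ⟨g, hg⟩ := LinearMap.exists_rightInverse_of_surjective T.rangeRestrict
    (LinearMap.range_rangeRestrict T)
  obtain ⟨μ, hμ⟩ := LinearMap.exists_extend (l ∘ₗ g)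
  refine ⟨μ, fun v => ?_⟩
  have h1 : μ (T v) = l (g ⟨T v, LinearMap.mem_range_self T v⟩) := by
    have := congrArg (fun f => f ⟨T v, LinearMap.mem_range_self T v⟩) hμ
    simpa using this
  rw [h1]
  have h2 : T (g ⟨T v, LinearMap.mem_range_self T v⟩) = T v := by
    have := congrArg (fun f => (f ⟨T v, LinearMap.mem_range_self T v⟩ : V)) hg
    simpa using this
  have h3 : l (v - g ⟨T v, LinearMap.mem_range_self T v⟩) = 0 := by
    apply h
    rw [map_sub, h2, sub_self]
  rw [map_sub, sub_eq_zero] at h3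
  exact h3

theorem result {F : Type*} [Field F] [Fintype F] [CharP F 2] {m : ℕ} (A : Matrix.symplecticGroup (Fin m) F) : ∃ Q : QuadraticForm F (Fin m ⊕ Fin m → F), (∀ u v : Fin m ⊕ Fin m → F, QuadraticMap.polar ⇑Q u v = Cfsg.sympForm m F u v) ∧ ∀ v : Fin m ⊕ Fin m → F, Q ((A : Matrix (Fin m ⊕ Fin m) (Fin m ⊕ Fin m) F).mulVec v) = Q v := by
  classical
  set AM : Matrix (Fin m ⊕ Fin m) (Fin m ⊕ Fin m) F := (A : Matrix (Fin m ⊕ Fin m) (Fin m ⊕ Fin m) F) with hAM
  -- D v = Q0 (A v) - Q0 v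
  let D : (Fin m ⊕ Fin m → F) → F := fun v => Q0 m F (AM.mulVec v) - Q0 m F v
  have hDadd : ∀ u v, D (u + v) = D u + D v := by
    intro u v
    have h1 := polar_Q0 (F := F) m (AM.mulVec u) (AM.mulVec v)
    have h2 := polar_Q0 (F := F) m u v
    rw [symp_preserves] at h1
    rw [← h2] at h1
    simp only [QuadraticMap.polar] at h1
    simp only [D, Matrix.mulVec_add]
    linear_combination h1
  have hDsmul : ∀ (c : F) v, D (c • v) = c ^ 2 * D v := by
    intro c v
    simp only [D, Matrix.mulVec_smul, QuadraticMap.map_smul, smul_eq_mul]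
    ring
  -- square root
  let sq : F ≃+* F := (frobeniusEquiv F 2).symm
  have hsq : ∀ x : F, (sq x) ^ 2 = x := fun x => (frobeniusEquiv F 2).apply_symm_apply x
  have hsq' : ∀ x : F, sq (x ^ 2) = x := fun x => (frobeniusEquiv F 2).symm_apply_apply x
  let l : (Fin m ⊕ Fin m → F) →ₗ[F] F :=
    { toFun := fun v => sq (D v)
      map_add' := fun u v => by rw [hDadd, map_add]
      map_smul' := fun c v => by
        rw [hDsmul, map_mul, hsq']; rfl }
  have hl : ∀ v, (l v) ^ 2 = D v := fun v => hsq (D v)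
  obtain ⟨μ, hμ⟩ := exists_factor (Matrix.mulVecLin AM - LinearMap.id) l (by
    intro v hv
    have hv' : AM.mulVec v = v := by
      simpa [sub_eq_zero] using hv
    have : D v = 0 := by simp [D, hv']
    have h2 := hl v
    rw [this] at h2
    exact pow_eq_zero_iff (two_ne_zero) |>.mp h2)
  refine ⟨Q0 m F + QuadraticMap.linMulLin μ μ, ?_, ?_⟩
  · intro u v
    rw [← polar_Q0]
    simp only [QuadraticMap.polar, _root_.add_apply, QuadraticMap.linMulLin_apply, map_add]
    have h2 : (2 : F) = 0 := CharTwo.two_eq_zero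
    linear_combination (μ u * μ v) * h2
  · intro v
    have h1 := hl v
    rw [hμ v] at h1
    simp only [LinearMap.sub_apply, Matrix.mulVecLin_apply, LinearMap.id_apply, map_sub] at h1
    simp only [_root_.add_apply, QuadraticMap.linMulLin_apply]
    have h2 : (2 : F) = 0 := CharTwo.two_eq_zero
    simp only [D] at h1
    linear_combination (-1 : F) * h1 + (μ (AM.mulVec v) * μ (AM.mulVec v) - μ (AM.mulVec v) * μ v) * h2

end Cfsg.Agent.S2585
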