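import Cfsg.Statements.S2574
import Cfsg.Agent.H48.JordanBlock2
import Cfsg.Agent.S2585

set_option autoImplicit false
open Cfsg

namespace Cfsg.Agent.S2574

open Cfsg.Agent.H48 Matrix

theorem sympForm_sub_left {F : Type*} [CommRing F] (m : ℕ) (a b c : Fin m ⊕ Fin m → F) :
    Cfsg.sympForm m F (a - b) c = Cfsg.sympForm m F a c - Cfsg.sympForm m F b c := by
  unfold Cfsg.sympForm
  rw [sub_dotProduct]

theorem sympForm_sub_right {F : Type*} [CommRing F] (m : ℕ) (a b c : Fin m ⊕ Fin m → F) :
    Cfsg.sympForm m F a (b - c) = Cfsg.sympForm m F a b - Cfsg.sympForm m F a c := by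
  unfold Cfsg.sympForm
  rw [Matrix.mulVec_sub, dotProduct_sub]

theorem sympForm_zero_right {F : Type*} [CommRing F] (m : ℕ) (a : Fin m ⊕ Fin m → F) :
    Cfsg.sympForm m F a 0 = 0 := by
  unfold Cfsg.sympForm
  simp

/-- A regular unipotent element of the symplectic group has totally isotropic small invariant subspaces: over a finite field, if u ∈ Sp_2m(F) satisfies (u − 1)^(2m) = 0 and rank(u − 1) = 2m − 1, and W is a u-invariant subspace with 2 dim W ≤ 2m, then the alternating form vanishes identically on W. -/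
theorem result {F : Type*} [Field F] [Finite F] {m : ℕ} (u : Matrix.symplecticGroup (Fin m) F) (hnil : ((u : Matrix (Fin m ⊕ Fin m) (Fin m ⊕ Fin m) F) - 1) ^ (2 * m) = 0) (hreg : ((u : Matrix (Fin m ⊕ Fin m) (Fin m ⊕ Fin m) F) - 1).rank = 2 * m - 1) (W : Submodule F (Fin m ⊕ Fin m → F)) (hW : ∀ v ∈ W, (u : Matrix (Fin m ⊕ Fin m) (Fin m ⊕ Fin m) F).mulVec v ∈ W) (hdim : 2 * Module.finrank F W ≤ 2 * m) : ∀ v ∈ W, ∀ w ∈ W, Cfsg.sympForm m F v w = 0 := by
  classical
  set U : Matrix (Fin m ⊕ Fin m) (Fin m ⊕ Fin m) F := (u : Matrix (Fin m ⊕ Fin m) (Fin m ⊕ Fin m) F) with hU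
  set N : (Fin m ⊕ Fin m → F) →ₗ[F] (Fin m ⊕ Fin m → F) := Matrix.mulVecLin (U - 1) with hNdef
  have hcard : Module.finrank F (Fin m ⊕ Fin m → F) = 2 * m := by
    rw [Module.finrank_fintype_fun_eq_card]; simp; ring
  have hN1 : Module.finrank F (LinearMap.ker N) ≤ 1 := by
    rw [hNdef, finrank_ker_mulVecLin', hreg]; simp; omega
  have hNnil : N ^ Module.finrank F (Fin m ⊕ Fin m → F) = 0 := by
    rw [hcard, hNdef, ← mulVecLin_pow', hnil, Matrix.mulVecLin_zero]
  have hWN : ∀ v ∈ W, N v ∈ W := by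
    intro v hv
    rw [hNdef, Matrix.mulVecLin_apply, Matrix.sub_mulVec, Matrix.one_mulVec]
    exact W.sub_mem (hW v hv) hv
  have hWeq := eq_ker_pow_of_invariant N hN1 hNnil W hWN
  have hle := ker_pow_le_range_pow N hN1 hNnil (Module.finrank F W) (by rw [hcard]; exact hdim)
  -- adjoint relation
  have hNapp : ∀ a, N a = U.mulVec a - a := by
    intro a
    rw [hNdef, Matrix.mulVecLin_apply, Matrix.sub_mulVec, Matrix.one_mulVec]
  have hadj : ∀ a b, Cfsg.sympForm m F (N a) b = - Cfsg.sympForm m F (U.mulVec a) (N b) := by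
    intro a b
    rw [hNapp, hNapp, sympForm_sub_left, sympForm_sub_right, Cfsg.Agent.S2585.symp_preserves]
    ring
  have hcomm : ∀ k a, (N ^ k) (U.mulVec a) = U.mulVec ((N ^ k) a) := by
    intro k
    induction k with
    | zero => intro a; simp
    | succ k ih =>
      intro a
      rw [pow_succ, Module.End.mul_apply, Module.End.mul_apply]
      have : N (U.mulVec a) = U.mulVec (N a) := by
        rw [hNapp, hNapp, Matrix.mulVec_sub]
      rw [this, ih]
  have key : ∀ k a b, (N ^ k) b = 0 → Cfsg.sympForm m F ((N ^ k) a) b = 0 := by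
    intro k
    induction k with
    | zero =>
      intro a b hb
      have : b = 0 := by simpa using hb
      rw [this, sympForm_zero_right]
    | succ k ih =>
      intro a b hb
      rw [pow_succ', Module.End.mul_apply, hadj, ← hcomm, ih, neg_zero]
      rw [← Module.End.mul_apply, ← pow_succ]
      exact hb
  intro v hv w hw
  have hv' : v ∈ LinearMap.range (N ^ Module.finrank F W) := hle (hWeq ▸ hv)
  have hw' : (N ^ Module.finrank F W) w = 0 := by
    have : w ∈ LinearMap.ker (N ^ Module.finrank F W) := hWeq ▸ hw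
    exact this
  obtain ⟨a, rfl⟩ := hv'
  exact key _ a w hw'

end Cfsg.Agent.S2574
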