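import Cfsg.Statements.S2575
import Cfsg.Agent.H48.TwoAdic

set_option autoImplicit false
open Cfsg

namespace Cfsg.Agent.S2575

open Cfsg.Agent.H48

theorem prod_signs {F : Type*} [Field F] (n i : ℕ) (hi : i ≤ n) :
    ∏ j : Fin n, (if (j : ℕ) < i then (-1 : F) else 1) = (-1) ^ i := by
  rw [Fin.prod_univ_eq_prod_range (fun j => if j < i then (-1 : F) else 1) n,
    ← Finset.prod_range_mul_prod_Ico _ hi]
  have h1 : ∏ k ∈ Finset.range i, (if k < i then (-1 : F) else 1) = (-1) ^ i := by
    rw [Finset.prod_congr rfl (fun k hk => if_pos (Finset.mem_range.mp hk))]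
    simp
  have h2 : ∏ k ∈ Finset.Ico i n, (if k < i then (-1 : F) else 1) = 1 := by
    apply Finset.prod_eq_one
    intro k hk
    rw [if_neg (by have := (Finset.mem_Ico.mp hk).1; omega)]
  rw [h1, h2, mul_one]

theorem neg_one_ne_one_of_odd_card {F : Type*} [Field F] [Fintype F] (hq : Odd (Fintype.card F)) :
    (-1 : F) ≠ 1 := by
  apply Ring.neg_one_ne_one_of_char_ne_two
  intro h
  have := FiniteField.even_card_iff_char_two.mp h
  rcases hq with ⟨k, hk⟩
  omega

/-- Which diagonal involutions of PGL_n(q) lie in PSL_n(q), q odd: for the diagonal matrix t with i entries −1 and n − i entries 1, some non-zero scalar multiple of t has determinant one if and only if i is even or the 2-part of q − 1 exceeds the 2-part of n (that is, −1 is an n-th power in the field exactly in the latter case). -/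
theorem result {F : Type*} [Field F] [Fintype F] {q : ℕ} (hF : Fintype.card F = q) (hq : Odd q) {n : ℕ} (hn : 1 ≤ n) (i : ℕ) (hi : i ≤ n) : (∃ c : F, c ≠ 0 ∧ (c • Matrix.diagonal (fun j : Fin n => if (j : ℕ) < i then (-1 : F) else 1)).det = 1) ↔ (Even i ∨ padicValNat 2 n < padicValNat 2 (q - 1)) := by
  subst hF
  have hne := neg_one_ne_one_of_odd_card hq
  have hdet : ∀ c : F, (c • Matrix.diagonal (fun j : Fin n => if (j : ℕ) < i then (-1 : F) else 1)).det
      = c ^ n * (-1) ^ i := by
    intro c
    rw [Matrix.det_smul, Matrix.det_diagonal, prod_signs n i hi, Fintype.card_fin]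
  simp only [hdet]
  have hq3 : 3 ≤ Fintype.card F := by
    have h2 : 1 < Fintype.card F := Fintype.one_lt_card
    rcases hq with ⟨k, hk⟩
    omega
  have hN : Fintype.card F - 1 ≠ 0 := by omega
  have hn0 : n ≠ 0 := by omega
  by_cases hie : Even i
  · constructor
    · intro _; exact Or.inl hie
    · intro _
      exact ⟨1, one_ne_zero, by rw [one_pow, one_mul, hie.neg_one_pow]⟩
  · have hio : Odd i := Nat.not_even_iff_odd.mp hie
    rw [hio.neg_one_pow]
    have key := exists_pow_eq_iff_field (F := F) n (-1 : F) (neg_ne_zero.mpr one_ne_zero)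
    rw [neg_one_pow_eq_one_iff_even hne, even_div_gcd_iff _ _ hN hn0] at key
    constructor
    · rintro ⟨c, hc, hc1⟩
      right
      apply key.mp
      refine ⟨c, hc, ?_⟩
      have : c ^ n * (-1) * (-1) = 1 * (-1) := by rw [hc1]
      simpa using this
    · rintro (h | h)
      · exact absurd h hie
      · obtain ⟨c, hc, hc1⟩ := key.mpr h
        exact ⟨c, hc, by rw [hc1]; simp⟩

end Cfsg.Agent.S2575
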