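import Cfsg.Statements.S2576
import Cfsg.Agent.H48.TwoAdic

set_option autoImplicit false
open Cfsg

namespace Cfsg.Agent.S2576

open Cfsg.Agent.H48

theorem neg_one_ne_one_of_odd_card' {F : Type*} [Field F] [Fintype F] (hq : Odd (Fintype.card F)) :
    (-1 : F) ≠ 1 := by
  apply Ring.neg_one_ne_one_of_char_ne_two
  intro h
  have := FiniteField.even_card_iff_char_two.mp h
  rcases hq with ⟨k, hk⟩
  omega

theorem det_smul_blockDiagonal {F : Type*} [Field F] (m : ℕ) (μ c : F) :
    (c • Matrix.blockDiagonal (fun _ : Fin m => !![(0 : F), 1; μ, 0])).det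
      = c ^ (2 * m) * (-μ) ^ m := by
  rw [Matrix.det_smul, Matrix.det_blockDiagonal]
  simp [Matrix.det_fin_two_of]

/-- Which involutions of PGL_2m(q) coming from a scalar of the quadratic extension field lie in PSL_2m(q), q odd: let μ generate the Sylow 2-subgroup of the multiplicative group of the field with q elements (μ has order the 2-part of q − 1) and let t be the block-diagonal matrix with m diagonal blocks [[0, 1], [μ, 0]] (so t² is the scalar μ and t is an involution modulo scalars). Then some non-zero scalar multiple of t has determinant one if and only if q ≡ 3 (mod 4) or the 2-part of q − 1 is less than the 2-part of 2m. -/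
theorem result {F : Type*} [Field F] [Fintype F] {q : ℕ} (hF : Fintype.card F = q) (hq : Odd q) {m : ℕ} (hm : 1 ≤ m) (μ : F) (hμ : orderOf μ = 2 ^ padicValNat 2 (q - 1)) : (∃ c : F, c ≠ 0 ∧ (c • Matrix.blockDiagonal (fun _ : Fin m => !![(0 : F), 1; μ, 0])).det = 1) ↔ (q % 4 = 3 ∨ padicValNat 2 (q - 1) < padicValNat 2 (2 * m)) := by
  subst hF
  haveI : Fact (Nat.Prime 2) := ⟨Nat.prime_two⟩
  have hne := neg_one_ne_one_of_odd_card' hq
  simp only [det_smul_blockDiagonal]
  have hq3 : 3 ≤ Fintype.card F := by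
    have h2 : 1 < Fintype.card F := Fintype.one_lt_card
    rcases hq with ⟨k, hk⟩
    omega
  have hN : Fintype.card F - 1 ≠ 0 := by omega
  have hm0 : m ≠ 0 := by omega
  have h2m0 : 2 * m ≠ 0 := by omega
  have hμ0 : μ ≠ 0 := by
    intro h
    rw [h] at hμ
    have h1 : orderOf (0 : F) = 0 := by
      rw [orderOf_eq_zero_iff']
      intro n hn
      simp [hn.ne']
    rw [h1] at hμ
    exact absurd hμ.symm (by positivity)
  have hν0 : -μ ≠ 0 := neg_ne_zero.mpr hμ0
  set b := padicValNat 2 (Fintype.card F - 1) with hb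
  have hv2m : padicValNat 2 (2 * m) = padicValNat 2 m + 1 := by
    rw [padicValNat.mul (by norm_num) hm0, padicValNat.self (by norm_num)]; ring
  -- general criterion
  have key : (∃ c : F, c ≠ 0 ∧ c ^ (2 * m) * (-μ) ^ m = 1) ↔
      (-μ) ^ (m * ((Fintype.card F - 1) / (Fintype.card F - 1).gcd (2 * m))) = 1 := by
    have h := exists_pow_eq_iff_field (F := F) (2 * m) (((-μ) ^ m)⁻¹)
      (inv_ne_zero (pow_ne_zero _ hν0))
    rw [inv_pow, inv_eq_one, ← pow_mul] at h
    rw [← h]
    constructor
    · rintro ⟨c, hc, hc1⟩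
      exact ⟨c, hc, eq_inv_of_mul_eq_one_left hc1⟩
    · rintro ⟨c, hc, hc1⟩
      exact ⟨c, hc, by rw [hc1, inv_mul_cancel₀ (pow_ne_zero _ hν0)]⟩
  rw [key]
  have hqmod : Fintype.card F % 4 = 1 ∨ Fintype.card F % 4 = 3 := by
    rcases hq with ⟨k, hk⟩
    omega
  rcases hqmod with h1 | h3
  · -- q ≡ 1 mod 4 : b ≥ 2
    have hb2 : 2 ≤ b := by
      rw [hb, ← padicValNat_dvd_iff_le hN]
      exact (Nat.dvd_iff_mod_eq_zero).mpr (by omega)
    obtain ⟨b', hb'⟩ : ∃ b', b = b' + 2 := ⟨b - 2, by omega⟩
    have hμpow : μ ^ 2 ^ (b' + 1) = -1 := by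
      have hsq : (μ ^ 2 ^ (b' + 1)) ^ 2 = 1 := by
        rw [← pow_mul, ← pow_succ, ← hb', ← hμ]
        exact pow_orderOf_eq_one μ
      have hne1 : μ ^ 2 ^ (b' + 1) ≠ 1 := by
        intro h
        have hd := orderOf_dvd_of_pow_eq_one h
        rw [hμ, hb'] at hd
        have := Nat.le_of_dvd (by positivity) hd
        have h2 : 2 ^ (b' + 1) < 2 ^ (b' + 2) := Nat.pow_lt_pow_right (by norm_num) (by omega)
        omega
      rcases sq_eq_one_iff.mp hsq with h | h
      · exact absurd h hne1
      · exact h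
    have hνpow : (-μ) ^ 2 ^ (b' + 1) = -1 := by
      rw [neg_pow, hμpow]
      have : Even (2 ^ (b' + 1)) := by
        rw [pow_succ]; exact even_two.mul_left _
      rw [this.neg_one_pow, one_mul]
    have hνord : orderOf (-μ) = 2 ^ (b' + 2) := by
      apply orderOf_eq_prime_pow
      · rw [hνpow]; exact hne
      · rw [pow_succ 2 (b' + 1), pow_mul, hνpow]; simp
    rw [← orderOf_dvd_iff_pow_eq_one, hνord, ← hb',
      padicValNat_dvd_iff_le (mul_ne_zero hm0 (div_gcd_ne_zero _ _ hN)),
      padicValNat.mul hm0 (div_gcd_ne_zero _ _ hN), padicValNat_div_gcd 2 _ _ hN h2m0, hv2m, ← hb]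
    constructor
    · intro h; right; omega
    · rintro (h | h)
      · omega
      · omega
  · -- q ≡ 3 mod 4 : b = 1, μ = -1
    have hb1 : b = 1 := by
      have h1 : 1 ≤ b := by
        rw [hb, ← padicValNat_dvd_iff_le hN]
        exact (Nat.dvd_iff_mod_eq_zero).mpr (by omega)
      have h2 : ¬ 2 ≤ b := by
        rw [hb, ← padicValNat_dvd_iff_le hN]
        intro h
        have := (Nat.dvd_iff_mod_eq_zero).mp h
        omega
      omega
    have hμ2 : μ = -1 := by
      rw [hb1] at hμ
      have hsq : μ ^ 2 = 1 := by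
        have := pow_orderOf_eq_one μ
        rwa [hμ, pow_one] at this
      have hne1 : μ ≠ 1 := by
        intro h
        rw [h, orderOf_one] at hμ
        norm_num at hμ
      rcases sq_eq_one_iff.mp hsq with h | h
      · exact absurd h hne1
      · exact h
    constructor
    · intro _; left; exact h3
    · intro _
      rw [hμ2, neg_neg, one_pow]

end Cfsg.Agent.S2576
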