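import Cfsg.Statements.S2578
import Cfsg.Agent.H48.RegUnip2
import Cfsg.Agent.H48.ClassCount
import Cfsg.Agent.H48.JordanStd

set_option autoImplicit false
open Cfsg

namespace Cfsg.Agent.S2578

open Cfsg.Agent.H48 Matrix

theorem isRegNil_fin_iff {F : Type*} [Field F] {n : ℕ} (M : Matrix (Fin n) (Fin n) F) :
    IsRegNil M ↔ M ^ n = 0 ∧ M.rank = n - 1 := by
  unfold IsRegNil
  rw [Fintype.card_fin]

/-- Regular unipotent classes of SL_n(q): for n ≥ 2 over the field with q elements, the matrices u of determinant one with (u − 1)^n = 0 and rank(u − 1) = n − 1 form a single GL_n(q)-class which splits into exactly gcd(n, q − 1) conjugacy classes of SL_n(q). -/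
theorem result {F : Type*} [Field F] [Fintype F] {q : ℕ} (hF : Fintype.card F = q) {n : ℕ} (hn : 2 ≤ n) : Nat.card {C : ConjClasses (Matrix.SpecialLinearGroup (Fin n) F) // ∃ u : Matrix.SpecialLinearGroup (Fin n) F, ConjClasses.mk u = C ∧ ((u : Matrix (Fin n) (Fin n) F) - 1) ^ n = 0 ∧ ((u : Matrix (Fin n) (Fin n) F) - 1).rank = n - 1} = Nat.gcd n (q - 1) := by
  classical
  have : Nonempty (Fin n) := ⟨⟨0, by omega⟩⟩
  have hpos : 0 < Fintype.card (Fin n) := by rw [Fintype.card_fin]; omega
  let u₀ : Matrix.SpecialLinearGroup (Fin n) F := ⟨Cfsg.jordanBlock n F, det_jordanBlock n F⟩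
  have hu₀reg : IsRegNil ((u₀ : Matrix (Fin n) (Fin n) F) - 1) :=
    (isRegNil_fin_iff _).mpr ⟨jordanBlock_sub_one_pow n F, rank_jordanBlock_sub_one n F⟩
  have key := card_classes_eq_index (G := GL (Fin n) F) (S := Matrix.SpecialLinearGroup (Fin n) F)
    (A := Fˣ) Matrix.GeneralLinearGroup.det Matrix.GeneralLinearGroup.det_surjective
    Matrix.SpecialLinearGroup.toGL Matrix.SpecialLinearGroup.toGL_injective
    (by
      intro x hx
      have h1 : (x : Matrix (Fin n) (Fin n) F).det = 1 := by
        have := congrArg Units.val hx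
        simpa using this
      exact ⟨⟨(x : Matrix (Fin n) (Fin n) F), h1⟩, Units.ext rfl⟩)
    (fun s => Matrix.SpecialLinearGroup.coeToGL_det s)
    (fun x : GL (Fin n) F => ((x : Matrix (Fin n) (Fin n) F) - 1) ^ n = 0 ∧
      ((x : Matrix (Fin n) (Fin n) F) - 1).rank = n - 1)
    (by
      intro g x hx
      have := IsRegNil.conj g (x : Matrix (Fin n) (Fin n) F) ((isRegNil_fin_iff _).mpr hx)
      rw [isRegNil_fin_iff] at this
      simpa [Units.val_mul] using this)
    u₀ ⟨jordanBlock_sub_one_pow n F, rank_jordanBlock_sub_one n F⟩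
    (by
      intro x hx
      obtain ⟨g, hg⟩ := exists_gl_conj_of_regular ((u₀ : Matrix (Fin n) (Fin n) F) - 1)
        ((x : Matrix (Fin n) (Fin n) F) - 1) hu₀reg ((isRegNil_fin_iff _).mpr hx) hpos
      refine ⟨g, ?_⟩
      rw [mul_inv_eq_iff_eq_mul]
      apply Units.ext
      rw [Units.val_mul, Units.val_mul]
      rw [mul_sub, sub_mul, mul_one, one_mul] at hg
      exact sub_left_injective hg)
    (powMonoidHom n : Fˣ →* Fˣ).range
    (by
      intro k hk
      have hk' : (k : Matrix (Fin n) (Fin n) F) * ((u₀ : Matrix (Fin n) (Fin n) F) - 1)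
          = ((u₀ : Matrix (Fin n) (Fin n) F) - 1) * (k : Matrix (Fin n) (Fin n) F) := by
        have h2 := congrArg Units.val hk
        rw [Units.val_mul, Units.val_mul] at h2
        rw [mul_sub, sub_mul, mul_one, one_mul]
        congr 1
      obtain ⟨c, hc⟩ := det_commutant_eq_pow _ hu₀reg hpos _ hk'
      rw [Fintype.card_fin] at hc
      have hc0 : c ≠ 0 := by
        intro h0
        rw [h0, zero_pow (by omega)] at hc
        exact Matrix.GeneralLinearGroup.det_ne_zero k hc
      refine ⟨Units.mk0 c hc0, ?_⟩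
      apply Units.ext
      simp [hc])
    (by
      rintro d ⟨c, rfl⟩
      refine ⟨Matrix.GeneralLinearGroup.scalar (Fin n) c, ?_, ?_⟩
      · exact Matrix.GeneralLinearGroup.scalar_commute c _
      · rw [Matrix.GeneralLinearGroup.det_scalar, Fintype.card_fin]
        rfl)
  have hcard : Nat.card Fˣ = q - 1 := by
    rw [Nat.card_eq_fintype_card, Fintype.card_units, hF]
  rw [IsCyclic.index_powMonoidHom_range, hcard, Nat.gcd_comm] at key
  exact key

end Cfsg.Agent.S2578
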