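import Cfsg.Statements.S2582
import Cfsg.Agent.H48.JordanSp

set_option autoImplicit false
open Cfsg

namespace Cfsg.Agent.S2582

open Cfsg.Agent.H48 Module Matrix

/-- Which unipotent Jordan types occur in the finite symplectic group: over a finite field, a unipotent matrix with Jordan block sizes d_1, …, d_t (sum 2m, all at least 1) is similar to an element of Sp_2m(F) if and only if every odd block size occurs an even number of times. -/
theorem result {F : Type*} [Field F] [Fintype F] {m t : ℕ} (d : Fin t → ℕ) (hd : ∀ k, 1 ≤ d k) (hsum : ∑ k, d k = 2 * m) : (∃ e : ((k : Fin t) × Fin (d k)) ≃ (Fin m ⊕ Fin m), ∃ A : Matrix.symplecticGroup (Fin m) F, IsConj (Matrix.reindex e e (Cfsg.jordanTypeMatrix d F)) (A : Matrix (Fin m ⊕ Fin m) (Fin m ⊕ Fin m) F)) ↔ ∀ j : ℕ, Odd j → Even (Finset.univ.filter (fun k : Fin t => d k = j)).card := by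
  have hre : ∀ {m' : ℕ} (e : ((k : Fin t) × Fin (d k)) ≃ (Fin m' ⊕ Fin m')),
      Matrix.reindex e e (Cfsg.jordanTypeMatrix d F) - 1
        = Matrix.reindex e e (Cfsg.jordanTypeMatrix d F - 1) := by
    intro m' e
    ext a b
    rw [Matrix.reindex_apply, Matrix.reindex_apply, Matrix.sub_apply, Matrix.submatrix_apply,
      Matrix.submatrix_apply, Matrix.sub_apply, Matrix.one_apply, Matrix.one_apply]
    simp only [EmbeddingLike.apply_eq_iff_eq]
  constructor
  · rintro ⟨e, A, c, hc⟩ j hj
    have hc1 : (c : Matrix (Fin m ⊕ Fin m) (Fin m ⊕ Fin m) F)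
        * Matrix.reindex e e (Cfsg.jordanTypeMatrix d F)
        = (A : Matrix (Fin m ⊕ Fin m) (Fin m ⊕ Fin m) F)
          * (c : Matrix (Fin m ⊕ Fin m) (Fin m ⊕ Fin m) F) := hc
    have hc2 : (c : Matrix (Fin m ⊕ Fin m) (Fin m ⊕ Fin m) F)
        * Matrix.reindex e e (Cfsg.jordanTypeMatrix d F - 1)
        = ((A : Matrix (Fin m ⊕ Fin m) (Fin m ⊕ Fin m) F) - 1)
          * (c : Matrix (Fin m ⊕ Fin m) (Fin m ⊕ Fin m) F) := by
      rw [← hre, mul_sub, sub_mul, mul_one, one_mul, hc1]
    have hK : ∀ k, finrank F (LinearMap.ker ((Matrix.toLin'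
        ((A : Matrix (Fin m ⊕ Fin m) (Fin m ⊕ Fin m) F) - 1)) ^ k)) = ∑ i, min k (d i) := by
      intro k
      rw [← finrank_ker_pow_of_gl _ _ c hc2 k, finrank_ker_reindex_pow,
        finrank_ker_jordanType_pow]
    obtain ⟨i, rfl⟩ := hj
    have h1 := even_finrank_ker_pow A.1 A.2 i
    have h2 := even_finrank_ker_pow A.1 A.2 (i + 1)
    rw [hK] at h1 h2
    have hid : (Finset.univ.filter (fun k : Fin t => d k = 2 * i + 1)).card
        + ∑ k, min (2 * i) (d k) + ∑ k, min (2 * (i + 1)) (d k)
        = 2 * ∑ k, min (2 * i + 1) (d k) := by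
      rw [Finset.card_filter, ← Finset.sum_add_distrib, ← Finset.sum_add_distrib, Finset.mul_sum]
      refine Finset.sum_congr rfl fun k _ => ?_
      split_ifs <;> omega
    obtain ⟨a, ha⟩ := h1
    obtain ⟨b, hb⟩ := h2
    rw [Nat.even_iff]
    omega
  · intro hpar
    obtain ⟨m', hm', A, hA, hAk⟩ := exists_symplectic_of_type (F := F) _ (Finset.univ.val.map d) rfl
      (by
        intro a ha
        rw [Multiset.mem_map] at ha
        obtain ⟨k, _, rfl⟩ := ha
        exact hd k)
      (by
        intro j hj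
        rw [count_map_univ]
        exact hpar j hj)
    have hsum' : (Finset.univ.val.map d).sum = 2 * m := hsum
    obtain rfl : m' = m := by omega
    have hcard : Fintype.card ((k : Fin t) × Fin (d k)) = Fintype.card (Fin m' ⊕ Fin m') := by
      rw [Fintype.card_sigma, Fintype.card_sum, Fintype.card_fin]
      simp only [Fintype.card_fin]
      omega
    let e : ((k : Fin t) × Fin (d k)) ≃ (Fin m' ⊕ Fin m') := Fintype.equivOfCardEq hcard
    have hN : ∀ k, finrank F (LinearMap.ker ((Matrix.toLin'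
        (Matrix.reindex e e (Cfsg.jordanTypeMatrix d F) - 1)) ^ k))
        = kap (Finset.univ.val.map d) k := by
      intro k
      rw [hre, finrank_ker_reindex_pow, finrank_ker_jordanType_pow, kap_map_univ]
    have hcard2 : (Finset.univ.val.map d).sum = Fintype.card (Fin m' ⊕ Fin m') := by
      rw [Fintype.card_sum, Fintype.card_fin]; omega
    have hnil1 := isNilpotent_of_kap _ _ hN hcard2
    have hnil2 := isNilpotent_of_kap _ _ hAk hcard2
    obtain ⟨g, hg⟩ := exists_gl_conj_of_finrank_ker _ _ hnil1 hnil2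
      (fun k => (hN k).trans (hAk k).symm)
    refine ⟨e, ⟨A, hA⟩, g, ?_⟩
    show (g : Matrix (Fin m' ⊕ Fin m') (Fin m' ⊕ Fin m') F)
      * Matrix.reindex e e (Cfsg.jordanTypeMatrix d F)
      = A * (g : Matrix (Fin m' ⊕ Fin m') (Fin m' ⊕ Fin m') F)
    have := hg
    rw [mul_sub, sub_mul, mul_one, one_mul] at this
    exact sub_left_injective this

end Cfsg.Agent.S2582
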