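import Cfsg.Statements.S2583
import Cfsg.Agent.H48.JordanOrth3

set_option autoImplicit false
open Cfsg

namespace Cfsg.Agent.S2583

open Cfsg.Agent.H48 Module Matrix

/-- The quadratic form `x ↦ xᵀ G x` of a symmetric invertible matrix in odd characteristic:
its polar form is left-separating. -/
theorem exists_quadratic_of_gram {F : Type*} [Field F] {ι : Type*} [Fintype ι] [DecidableEq ι]
    (h2 : (2 : F) ≠ 0) (G : Matrix ι ι F) (hsym : Gᵀ = G) (hG : IsUnit G.det) :
    ∃ Q : QuadraticForm F (ι → F), (∀ x, Q x = x ⬝ᵥ G *ᵥ x) ∧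
      (∀ x, (∀ y, QuadraticMap.polar Q x y = 0) → x = 0) := by
  refine ⟨LinearMap.BilinMap.toQuadraticMap (Matrix.toLinearMap₂' F G), ?_, ?_⟩
  · intro x
    rw [LinearMap.BilinMap.toQuadraticMap_apply, Matrix.toLinearMap₂'_apply']
  · intro x hx
    have h1 : x ᵥ* G = 0 := by
      funext i
      have := hx (Pi.single i 1)
      rw [LinearMap.BilinMap.polar_toQuadraticMap, Matrix.toLinearMap₂'_apply',
        Matrix.toLinearMap₂'_apply'] at this
      have hs : Pi.single i (1 : F) ⬝ᵥ G *ᵥ x = x ⬝ᵥ G *ᵥ Pi.single i 1 := by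
        rw [Matrix.dotProduct_mulVec, ← Matrix.mulVec_transpose, hsym, dotProduct_comm]
      rw [hs, Matrix.dotProduct_mulVec, dotProduct_single_one] at this
      have h' : (2 : F) * (x ᵥ* G) i = 0 := by linear_combination this
      exact (mul_eq_zero.mp h').resolve_left h2
    have h3 : x = (x ᵥ* G) ᵥ* G⁻¹ := by
      rw [Matrix.vecMul_vecMul, Matrix.mul_nonsing_inv G hG, Matrix.vecMul_one]
    rw [h3, h1, Matrix.zero_vecMul]

/-- Transfer of a quadratic form with an isometry to `Fin n`. -/
theorem exists_isometry_transfer {F : Type*} [Field F] {ι : Type} [Fintype ι] [DecidableEq ι]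
    {n : ℕ} (σ : ι ≃ Fin n) (Q₀ : QuadraticForm F (ι → F))
    (hsep : ∀ x, (∀ y, QuadraticMap.polar Q₀ x y = 0) → x = 0) (A : Matrix ι ι F)
    (hA : IsUnit A) (hQA : ∀ x, Q₀ (A *ᵥ x) = Q₀ x) :
    ∃ Q : QuadraticForm F (Fin n → F), (QuadraticMap.polarBilin Q).Nondegenerate ∧
      ∃ A' : ↥(Cfsg.isometryGroup F ⇑Q),
        ((A' : Matrix.GeneralLinearGroup (Fin n) F) : Matrix (Fin n) (Fin n) F)
          = Matrix.reindex σ σ A := by
  let L : (Fin n → F) ≃ₗ[F] (ι → F) := LinearEquiv.funCongrLeft F F σ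
  have hL : ∀ x, L x = x ∘ σ := fun x => rfl
  let R : Matrix ι ι F ≃ₐ[F] Matrix (Fin n) (Fin n) F := Matrix.reindexAlgEquiv F F σ
  let A' : Matrix.GeneralLinearGroup (Fin n) F := Units.map (R : _ →* _) hA.unit
  have hA' : (A' : Matrix (Fin n) (Fin n) F) = Matrix.reindex σ σ A := rfl
  have hLA : ∀ x, L ((A' : Matrix (Fin n) (Fin n) F) *ᵥ x) = A *ᵥ (L x) := by
    intro x
    rw [hA', hL, hL, Matrix.reindex_apply, Matrix.submatrix_mulVec_equiv]
    funext i
    simp [Function.comp]
  refine ⟨Q₀.comp (L : (Fin n → F) →ₗ[F] (ι → F)), ?_, ⟨A', ?_⟩, hA'⟩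
  · have hp : ∀ x y, QuadraticMap.polarBilin
        (Q₀.comp (L : (Fin n → F) →ₗ[F] (ι → F))) x y
        = QuadraticMap.polar Q₀ (L x) (L y) := by
      intro x y
      show QuadraticMap.polar _ x y = _
      unfold QuadraticMap.polar
      simp only [QuadraticMap.comp_apply, LinearEquiv.coe_coe, map_add]
    constructor
    · intro x hx
      have : L x = 0 := by
        apply hsep
        intro y
        have := hx (L.symm y)
        rw [hp, L.apply_symm_apply] at this
        exact this
      exact L.map_eq_zero_iff.mp this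
    · intro y hy
      have : L y = 0 := by
        apply hsep
        intro x
        have := hy (L.symm x)
        rw [hp, L.apply_symm_apply] at this
        rw [QuadraticMap.polar_comm, this]
      exact L.map_eq_zero_iff.mp this
  · intro u v
    show Q₀ (L ((A' : Matrix (Fin n) (Fin n) F) *ᵥ u)) = Q₀ (L u)
    rw [hLA, hQA]

/-- Which unipotent Jordan types occur in a finite orthogonal group in odd characteristic: over a finite field of odd order, a unipotent matrix with Jordan block sizes d_1, …, d_t (sum n, all at least 1) is similar to an isometry of some quadratic form on F^n with non-degenerate polar form if and only if every even block size occurs an even number of times. -/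
theorem result {F : Type*} [Field F] [Fintype F] (h2 : (2 : F) ≠ 0) {n t : ℕ} (d : Fin t → ℕ) (hd : ∀ k, 1 ≤ d k) (hsum : ∑ k, d k = n) : (∃ Q : QuadraticForm F (Fin n → F), (QuadraticMap.polarBilin Q).Nondegenerate ∧ ∃ e : ((k : Fin t) × Fin (d k)) ≃ Fin n, ∃ A : ↥(Cfsg.isometryGroup F ⇑Q), IsConj (Matrix.reindex e e (Cfsg.jordanTypeMatrix d F)) ((A : Matrix.GeneralLinearGroup (Fin n) F) : Matrix (Fin n) (Fin n) F)) ↔ ∀ j : ℕ, Even j → 0 < j → Even (Finset.univ.filter (fun k : Fin t => d k = j)).card := by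
  have hre : ∀ {ι ι' : Type} [Fintype ι] [DecidableEq ι] [Fintype ι'] [DecidableEq ι']
      (e : ι ≃ ι') (M : Matrix ι ι F),
      Matrix.reindex e e M - 1 = Matrix.reindex e e (M - 1) := by
    intro ι ι' _ _ _ _ e M
    ext a b
    rw [Matrix.reindex_apply, Matrix.reindex_apply, Matrix.sub_apply, Matrix.submatrix_apply,
      Matrix.submatrix_apply, Matrix.sub_apply, Matrix.one_apply, Matrix.one_apply]
    simp only [EmbeddingLike.apply_eq_iff_eq]
  have hμsum : (Finset.univ.val.map d).sum = Fintype.card (Fin n) := by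
    rw [Fintype.card_fin]; exact hsum
  constructor
  · rintro ⟨Q, hQ, e, A, c, hc⟩
    obtain ⟨G, hG1, hG2⟩ := exists_gram Q
    have hGu := hG2 hQ
    set AM : Matrix (Fin n) (Fin n) F :=
      ((A : Matrix.GeneralLinearGroup (Fin n) F) : Matrix (Fin n) (Fin n) F) with hAM
    have hAQ : ∀ x, Q (AM *ᵥ x) = Q x := fun x => A.2 x x
    have hsym : Gᵀ = G := by
      apply gram_symm
      intro x y
      rw [← hG1, ← hG1, QuadraticMap.polar_comm]
    have hinv : AMᵀ * G * AM = G := by
      apply gram_invariant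
      intro x y
      rw [← hG1, ← hG1]
      unfold QuadraticMap.polar
      rw [← Matrix.mulVec_add, hAQ, hAQ, hAQ]
    have hc1 : (c : Matrix (Fin n) (Fin n) F)
        * Matrix.reindex e e (Cfsg.jordanTypeMatrix d F)
        = AM * (c : Matrix (Fin n) (Fin n) F) := hc
    have hc2 : (c : Matrix (Fin n) (Fin n) F)
        * Matrix.reindex e e (Cfsg.jordanTypeMatrix d F - 1)
        = (AM - 1) * (c : Matrix (Fin n) (Fin n) F) := by
      rw [← hre, mul_sub, sub_mul, mul_one, one_mul, hc1]
    have hK : ∀ k, finrank F (LinearMap.ker ((Matrix.toLin' (AM - 1)) ^ k))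
        = ∑ i, min k (d i) := by
      intro k
      rw [← finrank_ker_pow_of_gl _ _ c hc2 k, finrank_ker_reindex_pow,
        finrank_ker_jordanType_pow]
    have hnil : IsNilpotent (AM - 1) :=
      isNilpotent_of_kap _ (Finset.univ.val.map d)
        (fun k => by rw [hK, kap_map_univ]) hμsum
    refine even_card_filter_of_odd_ker d _ n hK (fun k hk => ?_)
    have h1 := even_rank_sub_one_pow_of_sym h2 G AM hsym hGu hinv hnil k hk
    have h3 := Matrix.rank_le_card_width ((AM - 1) ^ k)
    have h4 : finrank F (LinearMap.ker ((Matrix.toLin' (AM - 1)) ^ k))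
        = Fintype.card (Fin n) - ((AM - 1) ^ k).rank := by
      rw [← toLin'_pow', Matrix.toLin'_apply', finrank_ker_mulVecLin']
    rw [h4]
    rw [Fintype.card_fin] at h3 ⊢
    obtain ⟨r, hr⟩ := h1
    rw [Nat.even_iff]
    omega
  · intro hpar
    obtain ⟨ι, _, _, G, A, hcard, hsym, hGu, hiso, hAk⟩ :=
      exists_orth_of_type (F := F) h2 _ (Finset.univ.val.map d) rfl
      (by
        intro a ha
        rw [Multiset.mem_map] at ha
        obtain ⟨k, _, rfl⟩ := ha
        exact hd k)
      (by
        intro j hj hj0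
        rw [count_map_univ]
        exact hpar j hj hj0)
    have hcard' : Fintype.card ι = Fintype.card (Fin n) := hcard.trans hμsum
    let σ : ι ≃ Fin n := Fintype.equivOfCardEq hcard'
    obtain ⟨Q₀, hQ₀, hsep⟩ := exists_quadratic_of_gram h2 G hsym hGu
    have hAu : IsUnit A :=
      (Matrix.isUnit_iff_isUnit_det A).mpr (isUnit_det_of_transpose_mul_mul G A hGu hiso)
    have hQA : ∀ x, Q₀ (A *ᵥ x) = Q₀ x := by
      intro x
      rw [hQ₀, hQ₀, ← dot_transpose_mul_mul, hiso]
    obtain ⟨Q, hQnd, A', hA'⟩ := exists_isometry_transfer σ Q₀ hsep A hAu hQA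
    have hcard2 : Fintype.card ((k : Fin t) × Fin (d k)) = Fintype.card (Fin n) := by
      rw [Fintype.card_sigma, Fintype.card_fin]
      simp only [Fintype.card_fin]
      exact hsum
    let e : ((k : Fin t) × Fin (d k)) ≃ Fin n := Fintype.equivOfCardEq hcard2
    have hN1 : ∀ k, finrank F (LinearMap.ker ((Matrix.toLin'
        (Matrix.reindex e e (Cfsg.jordanTypeMatrix d F) - 1)) ^ k))
        = kap (Finset.univ.val.map d) k := by
      intro k
      rw [hre, finrank_ker_reindex_pow, finrank_ker_jordanType_pow, kap_map_univ]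
    have hN2 : ∀ k, finrank F (LinearMap.ker ((Matrix.toLin'
        (Matrix.reindex σ σ A - 1)) ^ k))
        = kap (Finset.univ.val.map d) k := by
      intro k
      rw [hre, finrank_ker_reindex_pow, hAk]
    have hnil1 := isNilpotent_of_kap _ _ hN1 hμsum
    have hnil2 := isNilpotent_of_kap _ _ hN2 hμsum
    obtain ⟨g, hg⟩ := exists_gl_conj_of_finrank_ker _ _ hnil1 hnil2
      (fun k => (hN1 k).trans (hN2 k).symm)
    refine ⟨Q, hQnd, e, A', g, ?_⟩
    show (g : Matrix (Fin n) (Fin n) F) * Matrix.reindex e e (Cfsg.jordanTypeMatrix d F)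
      = ((A' : Matrix.GeneralLinearGroup (Fin n) F) : Matrix (Fin n) (Fin n) F)
        * (g : Matrix (Fin n) (Fin n) F)
    rw [hA']
    have := hg
    rw [mul_sub, sub_mul, mul_one, one_mul] at this
    exact sub_left_injective this

end Cfsg.Agent.S2583
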