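import Cfsg.Statements.S2584
import Cfsg.Agent.H48.JordanOrth
import Cfsg.Agent.S2582
import Cfsg.Agent.S2585

set_option autoImplicit false
open Cfsg

namespace Cfsg.Agent.S2584

open Cfsg.Agent.H48 Module Matrix

theorem sympForm_sepLeft {F : Type*} [Field F] (m : ℕ) (x : Fin m ⊕ Fin m → F)
    (hx : ∀ y, Cfsg.sympForm m F x y = 0) : x = 0 := by
  have h1 : x ᵥ* J (Fin m) F = 0 := by
    funext i
    have := hx (Pi.single i 1)
    unfold Cfsg.sympForm at this
    rw [Matrix.dotProduct_mulVec, dotProduct_single_one] at this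
    exact this
  have h2 : x = (x ᵥ* J (Fin m) F) ᵥ* (-J (Fin m) F) := by
    rw [Matrix.vecMul_vecMul, mul_neg, J_squared, neg_neg, Matrix.vecMul_one]
  rw [h2, h1, Matrix.zero_vecMul]

/-- Which unipotent Jordan types occur in a finite orthogonal group in characteristic two: over a finite field of characteristic 2 and in even dimension 2m, a unipotent matrix with Jordan block sizes d_1, …, d_t (sum 2m, all at least 1) is similar to an isometry of some quadratic form on F^(2m) with non-degenerate polar form if and only if every odd block size occurs an even number of times (the same condition as for the symplectic group, which contains these orthogonal groups). -/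
theorem result {F : Type*} [Field F] [Fintype F] [CharP F 2] {m t : ℕ} (d : Fin t → ℕ) (hd : ∀ k, 1 ≤ d k) (hsum : ∑ k, d k = 2 * m) : (∃ Q : QuadraticForm F (Fin (2 * m) → F), (QuadraticMap.polarBilin Q).Nondegenerate ∧ ∃ e : ((k : Fin t) × Fin (d k)) ≃ Fin (2 * m), ∃ A : ↥(Cfsg.isometryGroup F ⇑Q), IsConj (Matrix.reindex e e (Cfsg.jordanTypeMatrix d F)) ((A : Matrix.GeneralLinearGroup (Fin (2 * m)) F) : Matrix (Fin (2 * m)) (Fin (2 * m)) F)) ↔ ∀ j : ℕ, Odd j → Even (Finset.univ.filter (fun k : Fin t => d k = j)).card := by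
  have hre : ∀ {ι : Type} [Fintype ι] [DecidableEq ι] (e : ((k : Fin t) × Fin (d k)) ≃ ι),
      Matrix.reindex e e (Cfsg.jordanTypeMatrix d F) - 1
        = Matrix.reindex e e (Cfsg.jordanTypeMatrix d F - 1) := by
    intro ι _ _ e
    ext a b
    rw [Matrix.reindex_apply, Matrix.reindex_apply, Matrix.sub_apply, Matrix.submatrix_apply,
      Matrix.submatrix_apply, Matrix.sub_apply, Matrix.one_apply, Matrix.one_apply]
    simp only [EmbeddingLike.apply_eq_iff_eq]
  constructor
  · rintro ⟨Q, hQ, e, A, c, hc⟩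
    obtain ⟨G, hG1, hG2⟩ := exists_gram Q
    have hGu := hG2 hQ
    set AM : Matrix (Fin (2 * m)) (Fin (2 * m)) F :=
      ((A : Matrix.GeneralLinearGroup (Fin (2 * m)) F) : Matrix (Fin (2 * m)) (Fin (2 * m)) F)
      with hAM
    have hAQ : ∀ x, Q (AM *ᵥ x) = Q x := fun x => A.2 x x
    have halt : ∀ x, x ⬝ᵥ G *ᵥ x = 0 := by
      intro x
      rw [← hG1, QuadraticMap.polar_self]
      have h2 : (2 : F) = 0 := CharTwo.two_eq_zero
      rw [two_nsmul, ← two_mul, h2, zero_mul]
    have hinv : AMᵀ * G * AM = G := by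
      apply gram_invariant
      intro x y
      rw [← hG1, ← hG1]
      unfold QuadraticMap.polar
      rw [← Matrix.mulVec_add, hAQ, hAQ, hAQ]
    have hc1 : (c : Matrix (Fin (2 * m)) (Fin (2 * m)) F)
        * Matrix.reindex e e (Cfsg.jordanTypeMatrix d F)
        = AM * (c : Matrix (Fin (2 * m)) (Fin (2 * m)) F) := hc
    have hc2 : (c : Matrix (Fin (2 * m)) (Fin (2 * m)) F)
        * Matrix.reindex e e (Cfsg.jordanTypeMatrix d F - 1)
        = (AM - 1) * (c : Matrix (Fin (2 * m)) (Fin (2 * m)) F) := by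
      rw [← hre, mul_sub, sub_mul, mul_one, one_mul, hc1]
    have hK : ∀ k, finrank F (LinearMap.ker ((Matrix.toLin' (AM - 1)) ^ k))
        = ∑ i, min k (d i) := by
      intro k
      rw [← finrank_ker_pow_of_gl _ _ c hc2 k, finrank_ker_reindex_pow,
        finrank_ker_jordanType_pow]
    exact even_card_filter_of_even_ker d _ hK
      (fun i => even_finrank_ker_pow_of_alt G AM halt hGu hinv i)
  · intro hpar
    obtain ⟨e₀, A, hconj⟩ := (Cfsg.Agent.S2582.result (F := F) d hd hsum).mpr hpar
    obtain ⟨Q₀, hpol, hQA⟩ := Cfsg.Agent.S2585.result A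
    let σ : Fin m ⊕ Fin m ≃ Fin (2 * m) := finSumFinEquiv.trans (finCongr (two_mul m).symm)
    let L : (Fin (2 * m) → F) ≃ₗ[F] (Fin m ⊕ Fin m → F) := LinearEquiv.funCongrLeft F F σ
    have hL : ∀ x, L x = x ∘ σ := fun x => rfl
    let R : Matrix (Fin m ⊕ Fin m) (Fin m ⊕ Fin m) F ≃ₐ[F] Matrix (Fin (2 * m)) (Fin (2 * m)) F :=
      Matrix.reindexAlgEquiv F F σ
    have hR : ∀ M, R M = Matrix.reindex σ σ M := fun M => rfl
    let uA : (Matrix (Fin m ⊕ Fin m) (Fin m ⊕ Fin m) F)ˣ :=
      ⟨A.1, (A⁻¹).1, congrArg Subtype.val (mul_inv_cancel A), congrArg Subtype.val (inv_mul_cancel A)⟩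
    let A' : Matrix.GeneralLinearGroup (Fin (2 * m)) F := Units.map (R : _ →* _) uA
    have hA' : (A' : Matrix (Fin (2 * m)) (Fin (2 * m)) F) = Matrix.reindex σ σ A.1 := rfl
    have hLA : ∀ x, L ((A' : Matrix (Fin (2 * m)) (Fin (2 * m)) F) *ᵥ x) = A.1 *ᵥ (L x) := by
      intro x
      rw [hA', hL, hL, Matrix.reindex_apply, Matrix.submatrix_mulVec_equiv]
      funext i
      simp [Function.comp]
    refine ⟨Q₀.comp (L : (Fin (2 * m) → F) →ₗ[F] (Fin m ⊕ Fin m → F)), ?_, e₀.trans σ,
      ⟨A', ?_⟩, ?_⟩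
    · have hp : ∀ x y, QuadraticMap.polarBilin
          (Q₀.comp (L : (Fin (2 * m) → F) →ₗ[F] (Fin m ⊕ Fin m → F))) x y
          = Cfsg.sympForm m F (L x) (L y) := by
        intro x y
        rw [← hpol]
        show QuadraticMap.polar _ x y = _
        unfold QuadraticMap.polar
        simp only [QuadraticMap.comp_apply, LinearEquiv.coe_coe, map_add]
      constructor
      · intro x hx
        have : L x = 0 := by
          apply sympForm_sepLeft
          intro y
          have := hx (L.symm y)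
          rw [hp, L.apply_symm_apply] at this
          exact this
        exact L.map_eq_zero_iff.mp this
      · intro y hy
        have : L y = 0 := by
          apply sympForm_sepLeft
          intro x
          have := hy (L.symm x)
          rw [hp, L.apply_symm_apply] at this
          rw [Cfsg.Agent.H17.sympForm_swap, this, neg_zero]
        exact L.map_eq_zero_iff.mp this
    · intro u v
      show Q₀ (L ((A' : Matrix (Fin (2 * m)) (Fin (2 * m)) F) *ᵥ u)) = Q₀ (L u)
      rw [hLA, hQA]
    · have h1 := MonoidHom.map_isConj (R : Matrix (Fin m ⊕ Fin m) (Fin m ⊕ Fin m) F →*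
        Matrix (Fin (2 * m)) (Fin (2 * m)) F) hconj
      have h2 : (R : Matrix (Fin m ⊕ Fin m) (Fin m ⊕ Fin m) F →*
          Matrix (Fin (2 * m)) (Fin (2 * m)) F) (Matrix.reindex e₀ e₀ (Cfsg.jordanTypeMatrix d F))
          = Matrix.reindex (e₀.trans σ) (e₀.trans σ) (Cfsg.jordanTypeMatrix d F) := by
        rfl
      rw [h2] at h1
      exact h1

end Cfsg.Agent.S2584
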