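import Cfsg.Statements.S2586
import Cfsg.Agent.H48.Transpose

set_option autoImplicit false
open Cfsg

namespace Cfsg.Agent.S2586

open Matrix

/-- Over a finite field, every element of the symplectic group Sp_2m(F) is conjugate by an invertible matrix to its inverse. -/
theorem result {F : Type*} [Field F] [Finite F] {m : ℕ} (A : Matrix.symplecticGroup (Fin m) F) : IsConj (A : Matrix (Fin m ⊕ Fin m) (Fin m ⊕ Fin m) F) ((A⁻¹ : Matrix.symplecticGroup (Fin m) F) : Matrix (Fin m ⊕ Fin m) (Fin m ⊕ Fin m) F) := by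
  have h1 := Cfsg.Agent.H48.isConj_transpose (A : Matrix (Fin m ⊕ Fin m) (Fin m ⊕ Fin m) F)
  refine h1.trans ?_
  rw [SymplecticGroup.coe_inv]
  have hJ : (-J (Fin m) F) * J (Fin m) F = 1 := by
    rw [Matrix.neg_mul, Matrix.J_squared, neg_neg]
  have hJ' : J (Fin m) F * (-J (Fin m) F) = 1 := by
    rw [Matrix.mul_neg, Matrix.J_squared, neg_neg]
  refine ⟨⟨-J (Fin m) F, J (Fin m) F, hJ, hJ'⟩, ?_⟩
  show (-J (Fin m) F) * (A : Matrix (Fin m ⊕ Fin m) (Fin m ⊕ Fin m) F)ᵀ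
    = (-J (Fin m) F) * (A : Matrix (Fin m ⊕ Fin m) (Fin m ⊕ Fin m) F)ᵀ * J (Fin m) F * (-J (Fin m) F)
  rw [Matrix.mul_assoc _ (J (Fin m) F) (-J (Fin m) F), hJ', Matrix.mul_one]

end Cfsg.Agent.S2586
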