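import Cfsg.Statements.S2589
-- import your own Cfsg.Agent.* helpers here
import Cfsg.Agent.H45.IsoSp

set_option autoImplicit false
open Cfsg

namespace Cfsg.Agent.S2589

open Cfsg.Agent.H45 in
theorem sp_pow_eq_one' {F : Type*} [Field F] (p : ℕ) [Fact p.Prime] (n : ℕ)
    (g : ↥(Matrix.symplecticGroup (Fin n) F)) (hg : (orderOf g).Coprime p) :
    ¬ p ∣ orderOf g ∧ (g : Matrix (Fin n ⊕ Fin n) (Fin n ⊕ Fin n) F) ^ orderOf g = 1 := by
  have hp : p.Prime := Fact.out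
  refine ⟨?_, ?_⟩
  · intro h
    have := Nat.Coprime.eq_one_of_dvd hg.symm h
    exact hp.one_lt.ne' this
  · rw [← SubmonoidClass.coe_pow, pow_orderOf_eq_one]
    rfl

/-- Two semisimple elements of the finite symplectic group Sp_2m(F) (elements of order prime to the characteristic) are conjugate in Sp_2m(F) if and only if they are conjugate in GL_2m(F). -/
theorem result {F : Type*} [Field F] [Fintype F] {p : ℕ} [Fact p.Prime] [CharP F p] {m : ℕ} (A B : Matrix.symplecticGroup (Fin m) F) (hA : (orderOf A).Coprime p) : IsConj A B ↔ IsConj (A : Matrix (Fin m ⊕ Fin m) (Fin m ⊕ Fin m) F) (B : Matrix (Fin m ⊕ Fin m) (Fin m ⊕ Fin m) F) := by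
  constructor
  · intro h
    rw [isConj_iff] at h
    obtain ⟨c, hc⟩ := h
    have hcu : IsUnit (c : Matrix (Fin m ⊕ Fin m) (Fin m ⊕ Fin m) F) := by
      refine ⟨⟨c, (c⁻¹ : Matrix.symplecticGroup (Fin m) F), ?_, ?_⟩, rfl⟩
      · rw [← Submonoid.coe_mul, mul_inv_cancel]
        rfl
      · rw [← Submonoid.coe_mul, inv_mul_cancel]
        rfl
    obtain ⟨u, hu⟩ := hcu
    refine ⟨u, ?_⟩
    rw [SemiconjBy, hu]
    have h1 : c * A = B * c := by
      rw [← hc]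
      group
    have h2 := congrArg (Subtype.val) h1
    exact h2
  · rintro ⟨u, hu⟩
    rw [SemiconjBy] at hu
    obtain ⟨hm, hAm⟩ := sp_pow_eq_one' p m A hA
    have hB : (B : Matrix (Fin m ⊕ Fin m) (Fin m ⊕ Fin m) F) =
        (u : Matrix (Fin m ⊕ Fin m) (Fin m ⊕ Fin m) F) * A * (u⁻¹ : (Matrix (Fin m ⊕ Fin m) (Fin m ⊕ Fin m) F)ˣ) := by
      rw [hu, mul_assoc, Units.mul_inv, mul_one]
    have hBm : (B : Matrix (Fin m ⊕ Fin m) (Fin m ⊕ Fin m) F) ^ orderOf A = 1 := by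
      have h1 : ∀ k : ℕ, (B : Matrix (Fin m ⊕ Fin m) (Fin m ⊕ Fin m) F) ^ k =
          (u : Matrix (Fin m ⊕ Fin m) (Fin m ⊕ Fin m) F) * (A : Matrix (Fin m ⊕ Fin m) (Fin m ⊕ Fin m) F) ^ k *
            (u⁻¹ : (Matrix (Fin m ⊕ Fin m) (Fin m ⊕ Fin m) F)ˣ) := by
        intro k
        induction k with
        | zero => rw [pow_zero, pow_zero, mul_one, Units.mul_inv]
        | succ k ih =>
          rw [pow_succ, ih, pow_succ, hB]
          simp only [mul_assoc, Units.inv_mul_cancel_left]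
      rw [h1, hAm, mul_one, Units.mul_inv]
    have hc : (A : Matrix (Fin m ⊕ Fin m) (Fin m ⊕ Fin m) F).charpoly =
        (B : Matrix (Fin m ⊕ Fin m) (Fin m ⊕ Fin m) F).charpoly := by
      rw [hB]
      have h2 : (u : Matrix (Fin m ⊕ Fin m) (Fin m ⊕ Fin m) F) * A *
          (u⁻¹ : (Matrix (Fin m ⊕ Fin m) (Fin m ⊕ Fin m) F)ˣ) =
          (u : Matrix (Fin m ⊕ Fin m) (Fin m ⊕ Fin m) F) * A *
          (u : Matrix (Fin m ⊕ Fin m) (Fin m ⊕ Fin m) F)⁻¹ := by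
        rw [Matrix.coe_units_inv]
      rw [h2, Matrix.charpoly_units_conj]
    obtain ⟨P, hP, hPA⟩ := Cfsg.Agent.H45.sp_conj p (A : Matrix (Fin m ⊕ Fin m) (Fin m ⊕ Fin m) F)
      (B : Matrix (Fin m ⊕ Fin m) (Fin m ⊕ Fin m) F) A.2 B.2 _ _ hm hAm hm hBm hc
    rw [isConj_iff]
    refine ⟨⟨P, hP⟩, ?_⟩
    rw [mul_inv_eq_iff_eq_mul]
    apply Subtype.ext
    exact hPA

end Cfsg.Agent.S2589
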