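import Cfsg.Statements.S2590
import Cfsg.Agent.H48.OrthSS

set_option autoImplicit false
open Cfsg

namespace Cfsg.Agent.S2590

open Cfsg.Agent.H48 Matrix

/-- Two semisimple elements of odd order of a finite orthogonal group (isometry group of a quadratic form on F^n with non-degenerate polar form, F finite of characteristic p; the elements have odd order prime to p) are conjugate in the orthogonal group if and only if they are conjugate in GL_n(F). -/
theorem result {F : Type*} [Field F] [Fintype F] {p : ℕ} [Fact p.Prime] [CharP F p] {n : ℕ} (Q : QuadraticForm F (Fin n → F)) (hQ : (QuadraticMap.polarBilin Q).Nondegenerate) (A B : ↥(Cfsg.isometryGroup F ⇑Q)) (hodd : Odd (orderOf A)) (hA : (orderOf A).Coprime p) : IsConj A B ↔ IsConj ((A : Matrix.GeneralLinearGroup (Fin n) F) : Matrix (Fin n) (Fin n) F) ((B : Matrix.GeneralLinearGroup (Fin n) F) : Matrix (Fin n) (Fin n) F) := by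
  classical
  have hp : p.Prime := Fact.out
  constructor
  · intro h
    rw [isConj_iff] at h
    obtain ⟨c, hc⟩ := h
    rw [mul_inv_eq_iff_eq_mul] at hc
    refine ⟨(c : GL (Fin n) F), ?_⟩
    show ((c : GL (Fin n) F) : Matrix (Fin n) (Fin n) F) * _
      = _ * ((c : GL (Fin n) F) : Matrix (Fin n) (Fin n) F)
    have h2 := congrArg
      (fun y : ↥(Cfsg.isometryGroup F ⇑Q) => ((y : GL (Fin n) F) : Matrix (Fin n) (Fin n) F)) hc
    exact h2
  · rintro ⟨u, hu⟩
    have hu' : (u : Matrix (Fin n) (Fin n) F) * ((A : GL (Fin n) F) : Matrix (Fin n) (Fin n) F)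
        = ((B : GL (Fin n) F) : Matrix (Fin n) (Fin n) F) * (u : Matrix (Fin n) (Fin n) F) := hu
    have hpm : ¬ p ∣ orderOf A := by
      intro h
      have h1 := Nat.Coprime.eq_one_of_dvd hA.symm h
      exact hp.one_lt.ne' h1
    have ham : (Matrix.toLin' ((A : GL (Fin n) F) : Matrix (Fin n) (Fin n) F)) ^ (orderOf A)
        = 1 := by
      have h1 := pow_orderOf_eq_one A
      have h2 : ((A : GL (Fin n) F) : Matrix (Fin n) (Fin n) F) ^ (orderOf A) = 1 := by
        have h3 : (A : GL (Fin n) F) ^ (orderOf A) = 1 := by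
          rw [← Subgroup.coe_pow, h1]
          rfl
        have h4 := congrArg Units.val h3
        rw [Units.val_pow_eq_pow_val, Units.val_one] at h4
        exact h4
      rw [← Matrix.toLin'_pow, h2, Matrix.toLin'_one]
      rfl
    let g : (Fin n → F) ≃ₗ[F] (Fin n → F) :=
      LinearEquiv.ofLinearMap (Matrix.toLin' (u : Matrix (Fin n) (Fin n) F))
        (Matrix.toLin' ((u⁻¹ : (Matrix (Fin n) (Fin n) F)ˣ) : Matrix (Fin n) (Fin n) F))
        (by rw [← Matrix.toLin'_mul, Units.mul_inv, Matrix.toLin'_one])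
        (by rw [← Matrix.toLin'_mul, Units.inv_mul, Matrix.toLin'_one])
    obtain ⟨h, hhQ, hh⟩ := orth_conj_of_linear_conj p Q hQ
      (Matrix.toLin' ((A : GL (Fin n) F) : Matrix (Fin n) (Fin n) F))
      (Matrix.toLin' ((B : GL (Fin n) F) : Matrix (Fin n) (Fin n) F))
      (fun v => by rw [Matrix.toLin'_apply]; exact A.2 v v)
      (fun v => by rw [Matrix.toLin'_apply]; exact B.2 v v)
      (orderOf A) hodd hpm ham g (fun v => by
        show Matrix.toLin' (u : Matrix (Fin n) (Fin n) F) (Matrix.toLin' _ v)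
          = Matrix.toLin' _ (Matrix.toLin' (u : Matrix (Fin n) (Fin n) F) v)
        rw [← Matrix.toLin'_mul_apply, ← Matrix.toLin'_mul_apply, hu'])
    have he1 : (h : (Fin n → F) →ₗ[F] (Fin n → F)) ∘ₗ (h.symm : (Fin n → F) →ₗ[F] (Fin n → F))
        = LinearMap.id := LinearMap.ext fun x => h.apply_symm_apply x
    have he2 : (h.symm : (Fin n → F) →ₗ[F] (Fin n → F)) ∘ₗ (h : (Fin n → F) →ₗ[F] (Fin n → F))
        = LinearMap.id := LinearMap.ext fun x => h.symm_apply_apply x
    let P : GL (Fin n) F := ⟨LinearMap.toMatrix' (h : (Fin n → F) →ₗ[F] (Fin n → F)),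
      LinearMap.toMatrix' (h.symm : (Fin n → F) →ₗ[F] (Fin n → F)),
      by rw [← LinearMap.toMatrix'_comp, he1, LinearMap.toMatrix'_id],
      by rw [← LinearMap.toMatrix'_comp, he2, LinearMap.toMatrix'_id]⟩
    have hPv : ∀ v, (P : Matrix (Fin n) (Fin n) F) *ᵥ v = h v := by
      intro v
      show LinearMap.toMatrix' (h : (Fin n → F) →ₗ[F] (Fin n → F)) *ᵥ v = h v
      rw [← Matrix.toLin'_apply, Matrix.toLin'_toMatrix']
      rfl
    have hPmem : P ∈ Cfsg.isometryGroup F ⇑Q := by
      intro x y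
      show Q ((P : Matrix (Fin n) (Fin n) F) *ᵥ x) = Q x
      rw [hPv, hhQ]
    rw [isConj_iff]
    refine ⟨⟨P, hPmem⟩, ?_⟩
    rw [mul_inv_eq_iff_eq_mul]
    apply Subtype.ext
    apply Units.ext
    show (P : Matrix (Fin n) (Fin n) F) * ((A : GL (Fin n) F) : Matrix (Fin n) (Fin n) F)
      = ((B : GL (Fin n) F) : Matrix (Fin n) (Fin n) F) * (P : Matrix (Fin n) (Fin n) F)
    apply Matrix.toLin'.injective
    apply LinearMap.ext
    intro v
    rw [Matrix.toLin'_mul_apply, Matrix.toLin'_mul_apply,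
      Matrix.toLin'_apply (P : Matrix (Fin n) (Fin n) F), hPv, hh v,
      Matrix.toLin'_apply (P : Matrix (Fin n) (Fin n) F), hPv]

end Cfsg.Agent.S2590
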