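import Cfsg.Statements.S2591
import Cfsg.Agent.H48.RegSp2

set_option autoImplicit false
open Cfsg

namespace Cfsg.Agent.S2591

open Matrix Cfsg.Agent.H48

/-- The regular unipotent classes of `Sp_2m(F)`, `F` of odd characteristic. -/
theorem card_regular_classes {F : Type*} [Field F] [Fintype F] (p : ℕ) [Fact p.Prime] [CharP F p]
    (hp : p ≠ 2) (m : ℕ) (hm : 1 ≤ m) :
    Nat.card {C : ConjClasses ↥(Matrix.symplecticGroup (Fin m) F) //
      ∃ u : Matrix.symplecticGroup (Fin m) F, ConjClasses.mk u = C ∧ IsRegNil (u.1 - 1)} = 2 := by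
  classical
  have h2 : (2 : F) ≠ 0 := by
    intro h
    have : ((2 : ℕ) : F) = 0 := by exact_mod_cast h
    rw [CharP.cast_eq_zero_iff F p] at this
    exact hp ((Nat.prime_dvd_prime_iff_eq (Fact.out : p.Prime) Nat.prime_two).mp this)
  have hchar : ringChar F ≠ 2 := by
    rw [ringChar.eq F p]; exact hp
  have hpos : 0 < Fintype.card (Fin m) := by simp; omega
  obtain ⟨U₀, hU₀, hreg₀⟩ := exists_regular_unipotent (F := F) m hm
  obtain ⟨μ, hμ⟩ := FiniteField.exists_nonsquare (F := F) hchar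
  have hμ0 : μ ≠ 0 := by
    rintro rfl
    exact hμ ⟨0, by ring⟩
  have hd := sadj_similitude (l := Fin m) μ
  obtain ⟨U₁, hU₁, hreg₁, hdU⟩ := exists_conj_similitude U₀ hU₀ hreg₀ _ μ hμ0 hd
  let u₀ : Matrix.symplecticGroup (Fin m) F := ⟨U₀, hU₀⟩
  let u₁ : Matrix.symplecticGroup (Fin m) F := ⟨U₁, hU₁⟩
  have hne : ConjClasses.mk u₀ ≠ ConjClasses.mk u₁ := by
    rw [Ne, ConjClasses.mk_eq_mk_iff_isConj]
    exact not_isConj_of_similitude h2 hpos u₀ u₁ hreg₀ _ hdU μ hμ hd
  have key : {C : ConjClasses ↥(Matrix.symplecticGroup (Fin m) F) |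
      ∃ u : Matrix.symplecticGroup (Fin m) F, ConjClasses.mk u = C ∧ IsRegNil (u.1 - 1)}
      = {ConjClasses.mk u₀, ConjClasses.mk u₁} := by
    ext C
    simp only [Set.mem_ofPred_eq, Set.mem_insert_iff, Set.mem_singleton_iff]
    constructor
    · rintro ⟨u, rfl, hu⟩
      obtain ⟨t, ht, h1 | h1⟩ := exists_similitude p hp hpos U₀ u.1 hU₀ u.2 hreg₀ hu μ hμ
      · left
        rw [ConjClasses.mk_eq_mk_iff_isConj]
        exact (isConj_of_sadj_mul_eq_one u₀ u t ht h1).symm
      · right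
        rw [ConjClasses.mk_eq_mk_iff_isConj]
        exact (isConj_of_similitudes u₀ u₁ u μ hμ0 _ t hdU ht hd h1).symm
    · rintro (rfl | rfl)
      · exact ⟨u₀, rfl, hreg₀⟩
      · exact ⟨u₁, rfl, hreg₁⟩
  show Nat.card ↥{C : ConjClasses ↥(Matrix.symplecticGroup (Fin m) F) |
      ∃ u : Matrix.symplecticGroup (Fin m) F, ConjClasses.mk u = C ∧ IsRegNil (u.1 - 1)} = 2
  rw [key, Nat.card_coe_set_eq, Set.ncard_pair hne]

/-- Over a finite field of odd order and for m ≥ 1, the regular unipotent elements of Sp_2m(F) (u − 1 nilpotent of rank 2m − 1, a single Jordan block) form exactly two conjugacy classes of Sp_2m(F) (one class under the similarity group, which splits in two). -/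
theorem result {F : Type*} [Field F] [Fintype F] {q : ℕ} (hF : Fintype.card F = q) (hq : Odd q) {m : ℕ} (hm : 1 ≤ m) : Nat.card {C : ConjClasses ↥(Matrix.symplecticGroup (Fin m) F) // ∃ u : Matrix.symplecticGroup (Fin m) F, ConjClasses.mk u = C ∧ ((u : Matrix (Fin m ⊕ Fin m) (Fin m ⊕ Fin m) F) - 1) ^ (2 * m) = 0 ∧ ((u : Matrix (Fin m ⊕ Fin m) (Fin m ⊕ Fin m) F) - 1).rank = 2 * m - 1} = 2 := by
  have hprime : (ringChar F).Prime := CharP.char_is_prime F (ringChar F)
  have : Fact (ringChar F).Prime := ⟨hprime⟩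
  have hp2 : ringChar F ≠ 2 := by
    intro h
    have := FiniteField.even_card_of_char_two h
    rw [hF] at this
    rcases hq with ⟨k, hk⟩
    omega
  have hcard : Fintype.card (Fin m ⊕ Fin m) = 2 * m := by simp [two_mul]
  refine Eq.trans ?_ (card_regular_classes (F := F) (ringChar F) hp2 m hm)
  apply Nat.card_congr
  apply Equiv.subtypeEquivRight
  intro C
  constructor
  · rintro ⟨u, hu, h1, h2⟩
    exact ⟨u, hu, by rw [hcard]; exact h1, by rw [hcard]; exact h2⟩
  · rintro ⟨u, hu, h1, h2⟩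
    rw [hcard] at h1 h2
    exact ⟨u, hu, h1, h2⟩

end Cfsg.Agent.S2591
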