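import Cfsg.Statements.S2594
import Cfsg.Agent.H50.SpTransv

set_option autoImplicit false
open Cfsg

namespace Cfsg.Agent.S2594

/-- Over a finite field with q elements, q even, an element t of Sp_2m(F) with rank(t − 1) = 1 (a symplectic transvection) has centraliser in Sp_2m(F) of order q^(2m−1) · |Sp_(2m−2)(q)| = q^(2m−1) · q^((m−1)²) · Π_(i=1)^(m−1) (q^(2i) − 1). -/
theorem result {F : Type*} [Field F] [Fintype F] [CharP F 2] {q : ℕ} (hF : Fintype.card F = q) {m : ℕ} (hm : 1 ≤ m) (t : Matrix.symplecticGroup (Fin m) F) (ht : ((t : Matrix (Fin m ⊕ Fin m) (Fin m ⊕ Fin m) F) - 1).rank = 1) : Nat.card ↥(Subgroup.centralizer ({t} : Set ↥(Matrix.symplecticGroup (Fin m) F))) = q ^ (2 * m - 1) * (q ^ ((m - 1) ^ 2) * ∏ i : Fin (m - 1), (q ^ (2 * ((i : ℕ) + 1)) - 1)) := by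
  obtain ⟨k, rfl⟩ : ∃ k, m = k + 1 := ⟨m - 1, by omega⟩
  obtain ⟨w, c, hw, hc, htw⟩ := H50.SpTransv.exists_transv t.1 t.2 ht
  have h1 : Nat.card ↥(Subgroup.centralizer ({t} : Set ↥(Matrix.symplecticGroup (Fin (k + 1)) F))) =
      Nat.card {g : ↥(Matrix.symplecticGroup (Fin (k + 1)) F) // Matrix.mulVec g.1 w = w} := by
    refine Nat.card_congr (Equiv.subtypeEquivRight ?_)
    intro g
    rw [Subgroup.mem_centralizer_singleton_iff]
    exact H50.SpTransv.comm_iff t g w c hw hc htw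
  rw [h1, H50.SpTransv.card_stab_vec hF k w hw]
  show _ = q ^ (2 * (k + 1) - 1) * (q ^ (k ^ 2) * ∏ i : Fin k, (q ^ (2 * ((i : ℕ) + 1)) - 1))
  rw [Fin.prod_univ_eq_prod_range (fun i => q ^ (2 * (i + 1)) - 1) k]

end Cfsg.Agent.S2594
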