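import Cfsg.Statements.S2599
import Cfsg.Agent.H49.Basic

set_option autoImplicit false
open Cfsg

namespace Cfsg.Agent.S2599

/-- An irreducible invariant subspace of a semisimple isometry is non-degenerate or totally singular: let Q be a quadratic form on F^n (F finite of characteristic p) with non-degenerate polar form f, x an isometry of Q of order prime to p, and U a non-zero x-invariant subspace containing no x-invariant subspace other than 0 and U. Then U meets its f-orthogonal trivially, or Q vanishes on U, or p = 2, U is a line spanned by a non-singular vector and x fixes U pointwise. -/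
theorem result {F : Type*} [Field F] [Fintype F] {p : ℕ} [Fact p.Prime] [CharP F p] {n : ℕ} (Q : QuadraticForm F (Fin n → F)) (hQ : (QuadraticMap.polarBilin Q).Nondegenerate) (x : ↥(Cfsg.isometryGroup F ⇑Q)) (hx : (orderOf x).Coprime p) (U : Submodule F (Fin n → F)) (hU0 : U ≠ ⊥) (hUx : ∀ u ∈ U, ((x : Matrix.GeneralLinearGroup (Fin n) F) : Matrix (Fin n) (Fin n) F).mulVec u ∈ U) (hirr : ∀ W : Submodule F (Fin n → F), W ≤ U → (∀ w ∈ W, ((x : Matrix.GeneralLinearGroup (Fin n) F) : Matrix (Fin n) (Fin n) F).mulVec w ∈ W) → W = ⊥ ∨ W = U) : U ⊓ LinearMap.BilinForm.orthogonal (QuadraticMap.polarBilin Q) U = ⊥ ∨ (∀ u ∈ U, Q u = 0) ∨ (p = 2 ∧ Module.finrank F U = 1 ∧ (∃ u ∈ U, Q u ≠ 0) ∧ ∀ u ∈ U, ((x : Matrix.GeneralLinearGroup (Fin n) F) : Matrix (Fin n) (Fin n) F).mulVec u = u) := by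
  classical
  set X : Matrix (Fin n) (Fin n) F :=
    ((x : Matrix.GeneralLinearGroup (Fin n) F) : Matrix (Fin n) (Fin n) F) with hX
  set B := QuadraticMap.polarBilin Q with hBdef
  have hQX : ∀ u, Q (X.mulVec u) = Q u := fun u => Cfsg.Agent.H49.isometry_apply x u
  have hBX : ∀ u v, B (X.mulVec u) (X.mulVec v) = B u v := by
    intro u v
    simp only [hBdef, QuadraticMap.polarBilin_apply_apply, QuadraticMap.polar]
    rw [← Matrix.mulVec_add, hQX, hQX, hQX]
  have hXinj : Function.Injective X.mulVec := by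
    intro a b hab
    have h := congrArg (((x⁻¹ : ↥(Cfsg.isometryGroup F ⇑Q)) : Matrix.GeneralLinearGroup (Fin n) F)
      : Matrix (Fin n) (Fin n) F).mulVec hab
    simp only [Matrix.mulVec_mulVec, hX] at h
    have e : (((x⁻¹ : ↥(Cfsg.isometryGroup F ⇑Q)) : Matrix.GeneralLinearGroup (Fin n) F)
      : Matrix (Fin n) (Fin n) F) * ((x : Matrix.GeneralLinearGroup (Fin n) F)
      : Matrix (Fin n) (Fin n) F) = 1 := by
      rw [← Units.val_mul, ← Subgroup.coe_mul, inv_mul_cancel]; rfl
    rw [e] at h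
    simpa using h
  have hsurj : ∀ u ∈ U, ∃ u' ∈ U, X.mulVec u' = u := by
    let f : U →ₗ[F] U := (Matrix.mulVecLin X).restrict hUx
    have hinj : Function.Injective f := by
      intro a b hab
      have : X.mulVec a = X.mulVec b := congrArg Subtype.val hab
      exact Subtype.ext (hXinj this)
    have hs := LinearMap.surjective_of_injective hinj
    intro u hu
    obtain ⟨u', hu'⟩ := hs ⟨u, hu⟩
    exact ⟨u', u'.2, congrArg Subtype.val hu'⟩
  have h1 := hirr (U ⊓ LinearMap.BilinForm.orthogonal B U) inf_le_left (by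
    intro w hw
    refine ⟨hUx w hw.1, LinearMap.BilinForm.mem_orthogonal_iff.mpr ?_⟩
    intro u hu
    obtain ⟨u', hu', rfl⟩ := hsurj u hu
    show B (X.mulVec u') (X.mulVec w) = 0
    rw [hBX]
    exact (LinearMap.BilinForm.mem_orthogonal_iff.mp hw.2) u' hu')
  rcases h1 with h1 | h1
  · left; exact h1
  right
  have hB0 : ∀ u ∈ U, ∀ v ∈ U, B u v = 0 := by
    intro u hu v hv
    have : v ∈ U ⊓ LinearMap.BilinForm.orthogonal B U := by rw [h1]; exact hv
    exact (LinearMap.BilinForm.mem_orthogonal_iff.mp this.2) u hu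
  have hadd : ∀ u ∈ U, ∀ v ∈ U, Q (u + v) = Q u + Q v := by
    intro u hu v hv
    have := hB0 u hu v hv
    simp only [hBdef, QuadraticMap.polarBilin_apply_apply, QuadraticMap.polar] at this
    linear_combination this
  let W : Submodule F (Fin n → F) :=
    { carrier := {u | u ∈ U ∧ Q u = 0}
      add_mem' := by
        rintro a b ⟨ha, ha0⟩ ⟨hb, hb0⟩
        exact ⟨U.add_mem ha hb, by rw [hadd a ha b hb, ha0, hb0, add_zero]⟩
      zero_mem' := ⟨U.zero_mem, by simp⟩
      smul_mem' := by
        rintro c a ⟨ha, ha0⟩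
        exact ⟨U.smul_mem c ha, by rw [QuadraticMap.map_smul, ha0, smul_zero]⟩ }
  have h2 := hirr W (fun u hu => hu.1) (by
    intro w hw
    exact ⟨hUx w hw.1, by rw [hQX]; exact hw.2⟩)
  rcases h2 with h2 | h2
  · right
    have hne : ∀ u ∈ U, Q u = 0 → u = 0 := by
      intro u hu h0
      have : u ∈ W := ⟨hu, h0⟩
      rw [h2] at this
      simpa using this
    obtain ⟨u0, hu0, hu0ne⟩ := Submodule.exists_mem_ne_zero_of_ne_bot hU0
    have hQu0 : Q u0 ≠ 0 := fun h => hu0ne (hne u0 hu0 h)
    have h2F : (2 : F) = 0 := by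
      have := hB0 u0 hu0 u0 hu0
      simp only [hBdef, QuadraticMap.polarBilin_apply_apply, QuadraticMap.polar_self] at this
      rcases mul_eq_zero.mp (by simpa [two_smul, two_mul] using this : (2 : F) * Q u0 = 0) with h | h
      · exact h
      · exact absurd h hQu0
    have hp2 : p = 2 := by
      have : ((2 : ℕ) : F) = 0 := by exact_mod_cast h2F
      have hdvd := (CharP.cast_eq_zero_iff F p 2).mp this
      exact (Nat.prime_dvd_prime_iff_eq (Fact.out) Nat.prime_two).mp hdvd
    have : CharP F 2 := hp2 ▸ ‹CharP F p›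
    have hkey : ∀ u ∈ U, ∀ v ∈ U, Q u = Q v → u = v := by
      intro u hu v hv huv
      have : Q (u - v) = 0 := by
        have e : u - v = u + v := by
          rw [sub_eq_add_neg, ← neg_one_smul F v, CharTwo.neg_eq (1 : F), one_smul]
        rw [e, hadd u hu v hv, huv, CharTwo.add_self_eq_zero]
      have := hne (u - v) (U.sub_mem hu hv) this
      exact sub_eq_zero.mp this
    refine ⟨hp2, ?_, ⟨u0, hu0, hQu0⟩, ?_⟩
    · have : ∀ w : U, ∃ c : F, c • (⟨u0, hu0⟩ : U) = w := by
        intro w
        obtain ⟨a, ha⟩ := FiniteField.isSquare_of_char_two (CharP.ringChar_of_prime_eq_zero Nat.prime_two h2F) (Q w / Q u0)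
        refine ⟨a, Subtype.ext ?_⟩
        apply hkey _ (U.smul_mem a hu0) _ w.2
        rw [QuadraticMap.map_smul, smul_eq_mul, ← ha]; field_simp
      exact (finrank_eq_one_iff_of_nonzero' (⟨u0, hu0⟩ : U)
        (by simpa [Subtype.ext_iff] using hu0ne)).mpr this
    · intro u hu
      exact hkey _ (hUx u hu) _ hu (hQX u)
  · left
    intro u hu
    have : u ∈ W := by rw [h2]; exact hu
    exact this.2

end Cfsg.Agent.S2599
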