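import Mathlib
import Cfsg.Statements.S2601
import Cfsg.Agent.H50.AutPSLOut

set_option autoImplicit false

open Cfsg

namespace Cfsg.Agent.S2601

/-- Structure of the outer automorphism group of PSL_n(q), n ≥ 3, q = p^f: it has a normal cyclic subgroup of order gcd(n, q − 1) (the diagonal automorphisms) whose quotient is the direct product of a cyclic group of order f (field automorphisms) and a group of order 2 (the inverse-transpose graph automorphism). -/
theorem result {F : Type*} [Field F] [Fintype F] {p f n : ℕ} [Fact p.Prime] (hf : 1 ≤ f) (hF : Fintype.card F = p ^ f) (hn : 3 ≤ n) : ∃ φ : Cfsg.Out (Matrix.ProjectiveSpecialLinearGroup (Fin n) F) →* Multiplicative (ZMod f × ZMod 2), Function.Surjective φ ∧ IsCyclic φ.ker ∧ Nat.card φ.ker = Nat.gcd n (p ^ f - 1) := by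
  haveI : NeZero n := ⟨by omega⟩
  exact Cfsg.Agent.H50.AutPSL.out_psl hf hF hn

end Cfsg.Agent.S2601
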