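import Cfsg.Statements.S2611
import Cfsg.Agent.H49.Levi

set_option autoImplicit false
open Cfsg

namespace Cfsg.Agent.S2611

/-- For the hyperbolic quadratic form Σ x_i y_i on F^(2m) (F finite, m ≥ 1, excluding m = 2 over the field of two elements) and an invertible m × m matrix A, the block-diagonal isometry diag(A, (A⁻¹)ᵀ), which stabilises the two maximal totally singular subspaces x = 0 and y = 0, lies in Ω⁺_2m(F) (the commutator subgroup of the orthogonal group) if and only if det A is a square in F. -/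
theorem result {F : Type*} [Field F] [Fintype F] {m : ℕ} (hm : 1 ≤ m) (h : Fintype.card F ≠ 2 ∨ m ≠ 2) (A : GL (Fin m) F) : (∃ g : ↥(Cfsg.isometryGroup F (Cfsg.quadFormPlus m F)), g ∈ Cfsg.Omega F (Cfsg.quadFormPlus m F) ∧ ((g : Matrix.GeneralLinearGroup (Fin m ⊕ Fin m) F) : Matrix (Fin m ⊕ Fin m) (Fin m ⊕ Fin m) F) = Matrix.fromBlocks (A : Matrix (Fin m) (Fin m) F) 0 0 ((A : Matrix (Fin m) (Fin m) F)⁻¹).transpose) ↔ IsSquare (A : Matrix (Fin m) (Fin m) F).det := by
  have hco : ((A : Matrix (Fin m) (Fin m) F)⁻¹)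
      = ((A⁻¹ : GL (Fin m) F) : Matrix (Fin m) (Fin m) F) := (Matrix.coe_units_inv A).symm
  have hg : ∀ g : ↥(Cfsg.isometryGroup F (Cfsg.quadFormPlus m F)),
      ((g : Matrix.GeneralLinearGroup (Fin m ⊕ Fin m) F) :
        Matrix (Fin m ⊕ Fin m) (Fin m ⊕ Fin m) F)
        = Matrix.fromBlocks (A : Matrix (Fin m) (Fin m) F) 0 0
          ((A : Matrix (Fin m) (Fin m) F)⁻¹).transpose → g = H49.leviO m F A := by
    intro g hgm
    apply Subtype.ext
    apply Units.ext
    rw [hgm, hco]
    rfl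
  by_cases h2 : (2 : F) = 0
  · have hmem := H49.leviO_mem_commutator_two m F h2 h A
    constructor
    · intro _
      obtain ⟨d, hd⟩ := H49.exists_sqrt_char_two h2 (A : Matrix (Fin m) (Fin m) F).det
      exact ⟨d, hd.symm⟩
    · intro _
      exact ⟨H49.leviO m F A, hmem, by rw [hco]; rfl⟩
  · have key := H49.leviO_mem_commutator_iff_odd m F h2 A
    constructor
    · rintro ⟨g, hg1, hg2⟩
      rw [hg g hg2] at hg1
      exact key.mp hg1
    · intro hsq
      exact ⟨H49.leviO m F A, key.mpr hsq, by rw [hco]; rfl⟩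

end Cfsg.Agent.S2611
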