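import Cfsg.Statements.S2612
import Cfsg.Agent.H49.SwapEven

set_option autoImplicit false
open Cfsg

namespace Cfsg.Agent.S2612

/-- For the hyperbolic quadratic form Σ x_i y_i on F^(2m) (F finite, m ≥ 1, excluding m = 2 over the field of two elements), Ω⁺_2m(F) (the commutator subgroup of the orthogonal group) contains an element interchanging the two complementary maximal totally singular subspaces {y = 0} and {x = 0} if and only if m is even (dimension divisible by 4). -/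
theorem result {F : Type*} [Field F] [Fintype F] {m : ℕ} (hm : 1 ≤ m) (h : Fintype.card F ≠ 2 ∨ m ≠ 2) : (∃ g : ↥(Cfsg.isometryGroup F (Cfsg.quadFormPlus m F)), g ∈ Cfsg.Omega F (Cfsg.quadFormPlus m F) ∧ (∀ v : Fin m ⊕ Fin m → F, (∀ i, v (Sum.inr i) = 0) → ∀ i, (((g : Matrix.GeneralLinearGroup (Fin m ⊕ Fin m) F) : Matrix (Fin m ⊕ Fin m) (Fin m ⊕ Fin m) F).mulVec v) (Sum.inl i) = 0) ∧ (∀ v : Fin m ⊕ Fin m → F, (∀ i, v (Sum.inl i) = 0) → ∀ i, (((g : Matrix.GeneralLinearGroup (Fin m ⊕ Fin m) F) : Matrix (Fin m ⊕ Fin m) (Fin m ⊕ Fin m) F).mulVec v) (Sum.inr i) = 0)) ↔ Even m := by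
  constructor
  · rintro ⟨g, hg, h1, h2⟩
    have he := Cfsg.Agent.H49.even_of_mem_commutator (Cfsg.Agent.H49.QP m F)
      (Cfsg.Agent.H49.QP_nondeg m F) (Cfsg.Agent.H49.finrank_plus m F) (Cfsg.Agent.H49.U0 m F)
      (Cfsg.Agent.H49.U0_ts m F) (Cfsg.Agent.H49.finrank_U0 m F) (g := g) hg
    have hbot : (Cfsg.Agent.H49.U0 m F ⊓ (Cfsg.Agent.H49.U0 m F).map (Matrix.mulVecLin
        ((g : Matrix.GeneralLinearGroup (Fin m ⊕ Fin m) F) :
          Matrix (Fin m ⊕ Fin m) (Fin m ⊕ Fin m) F))) = ⊥ := by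
      rw [eq_bot_iff, ← Cfsg.Agent.H49.U0_inf_U0' m F]
      apply inf_le_inf_left
      intro x hx
      obtain ⟨u, hu, rfl⟩ := Submodule.mem_map.mp hx
      rw [Cfsg.Agent.H49.mem_U0']
      exact h1 u (Cfsg.Agent.H49.mem_U0.mp hu)
    rw [hbot, finrank_bot] at he
    simpa using he
  · rintro ⟨k, rfl⟩
    obtain ⟨g, hg, hgv⟩ := Cfsg.Agent.H49.exists_swap_mem_commutator k F
    refine ⟨g, hg, ?_, ?_⟩
    · intro v hv i
      rw [hgv]; exact hv i
    · intro v hv i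
      rw [hgv]; exact hv i

end Cfsg.Agent.S2612
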