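import Cfsg.Statements.S2619


set_option autoImplicit false
open Cfsg

namespace Cfsg.Agent.S2619

/-- Over a finite field of characteristic two, given an alternating bilinear form B on a finite-dimensional space, a basis (v_i) and scalars (λ_i), there is exactly one quadratic form whose polar form is B and whose value at each v_i is λ_i. -/
theorem result {F V ι : Type*} [Field F] [Finite F] [CharP F 2] [AddCommGroup V] [Module F V] [Fintype ι] (b : Module.Basis ι F V) (B : LinearMap.BilinForm F V) (hB : B.IsAlt) (c : ι → F) : ∃! Q : QuadraticForm F V, QuadraticMap.polarBilin Q = B ∧ ∀ i, Q (b i) = c i := by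
  classical
  let _ : LinearOrder ι := IsWellOrder.linearOrder WellOrderingRel
  have hsymm : ∀ x y, B x y = B y x := by
    intro x y
    have := hB.neg_eq x y
    rw [← this]; exact (CharTwo.neg_eq _).symm
  let Bu : LinearMap.BilinForm F V := b.constr (S := F) fun i => b.constr (S := F) fun j =>
    if i = j then c i else if i < j then B (b i) (b j) else 0
  have hBu : ∀ i j, Bu (b i) (b j)
      = if i = j then c i else if i < j then B (b i) (b j) else 0 := by
    intro i j
    show (b.constr (S := F) (fun i => b.constr (S := F) fun j =>
      if i = j then c i else if i < j then B (b i) (b j) else 0) (b i)) (b j) = _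
    rw [Module.Basis.constr_basis, Module.Basis.constr_basis]
  refine ⟨LinearMap.BilinMap.toQuadraticMap Bu, ⟨?_, ?_⟩, ?_⟩
  · rw [LinearMap.BilinMap.polarBilin_toQuadraticMap]
    apply b.ext; intro i; apply b.ext; intro j
    simp only [LinearMap.add_apply, LinearMap.flip_apply, hBu]
    rcases lt_trichotomy i j with h | h | h
    · simp [h.ne, h, h.not_gt, h.ne']
    · subst h
      simp only [if_true]
      rw [hB (b i)]
      exact CharTwo.add_self_eq_zero _
    · simp [h.ne, h, h.not_gt, h.ne']
      exact hsymm _ _
  · intro i
    rw [LinearMap.BilinMap.toQuadraticMap_apply, hBu]; simp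
  · rintro Q ⟨hQ1, hQ2⟩
    have e1 := QuadraticMap.toQuadraticMap_toBilin Q b
    have e2 : Q.toBilin b = Bu := by
      apply b.ext; intro i; apply b.ext; intro j
      rw [QuadraticMap.toBilin_apply, hBu, hQ2]
      have : QuadraticMap.polar Q (b i) (b j) = B (b i) (b j) := by rw [← hQ1]; rfl
      rw [this]
    rw [← e1, e2]

end Cfsg.Agent.S2619
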