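import Cfsg.Statements.S2622
import Cfsg.Agent.H49.CharTwoOrtho

set_option autoImplicit false
open Cfsg

namespace Cfsg.Agent.S2622

/-- Over a finite field of characteristic two, a non-degenerate symmetric bilinear form that is not alternating (some vector v has B(v, v) ≠ 0) admits an orthonormal basis. -/
theorem result {F V : Type*} [Field F] [Finite F] [CharP F 2] [AddCommGroup V] [Module F V] [FiniteDimensional F V] {n : ℕ} (hV : Module.finrank F V = n) (B : LinearMap.BilinForm F V) (hS : B.IsSymm) (hB : B.Nondegenerate) (hna : ∃ v : V, B v v ≠ 0) : ∃ b : Module.Basis (Fin n) F V, ∀ i j, B (b i) (b j) = if i = j then 1 else 0 := by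
  exact Cfsg.Agent.H49.exists_orthonormal_basis_char_two n B hV hS hB (fun _ => hna)

end Cfsg.Agent.S2622
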