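import Cfsg.Statements.S2625

set_option autoImplicit false
open Cfsg

namespace Cfsg.Agent.S2625

/-- For a quadratic form Q on F^n with non-degenerate polar form, F finite and n odd (so |F| is odd), the multiplier of any similarity is a square: if g is an invertible linear map with Q(g v) = c·Q(v) for all v then c is a square. -/
theorem result {F : Type*} [Field F] [Fintype F] {n : ℕ} (hn : Odd n) (Q : QuadraticForm F (Fin n → F)) (hQ : (QuadraticMap.polarBilin Q).Nondegenerate) (g : (Fin n → F) ≃ₗ[F] (Fin n → F)) (c : F) (hg : ∀ v, Q (g v) = c * Q v) : IsSquare c := by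
  classical
  by_cases hc : c = 0
  · exact ⟨0, by simp [hc]⟩
  set B := QuadraticMap.polarBilin Q with hB
  set M := LinearMap.BilinForm.toMatrix' B with hM
  set G := LinearMap.toMatrix' (g : (Fin n → F) →ₗ[F] (Fin n → F)) with hG
  have hdet : M.det ≠ 0 := by
    rw [← Matrix.nondegenerate_iff_det_ne_zero]
    exact LinearMap.BilinForm.nondegenerate_toMatrix'_iff.mpr hQ
  have hpol : ∀ x y, B (g x) (g y) = c * B x y := by
    intro x y
    simp only [hB, QuadraticMap.polarBilin_apply_apply, QuadraticMap.polar]
    rw [← map_add, hg, hg, hg]; ring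
  have hcomp : LinearMap.BilinForm.comp B (g : (Fin n → F) →ₗ[F] (Fin n → F)) (g : (Fin n → F) →ₗ[F] (Fin n → F)) = c • B := by
    ext x y; simp [hpol]
  have hmat : G.transpose * M * G = c • M := by
    rw [hG, hM, ← LinearMap.BilinForm.toMatrix'_comp, hcomp]; simp
  have hdet2 : G.det ^ 2 * M.det = c ^ n * M.det := by
    have := congrArg Matrix.det hmat
    simp [Matrix.det_mul, Matrix.det_transpose, Matrix.det_smul] at this
    linear_combination this
  have h3 : G.det ^ 2 = c ^ n := mul_right_cancel₀ hdet hdet2
  obtain ⟨k, rfl⟩ := hn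
  refine ⟨G.det / c ^ k, ?_⟩
  field_simp
  rw [h3]; ring

end Cfsg.Agent.S2625
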