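import Cfsg.Statements.S2630
import Cfsg.Agent.H49.ClassTwo

set_option autoImplicit false
open Cfsg

namespace Cfsg.Agent.S2630

/-- For the hyperbolic form Σ x_i y_i on F^(2m) over a finite field of characteristic two (m ≥ 1, excluding m = 2 over the field of two elements), an isometry g preserves the class of the maximal totally singular subspace U₀ = {y = 0} (m − dim(U₀ ∩ gU₀) even) if and only if g lies in Ω (the commutator subgroup of the orthogonal group): the stabiliser of each class is Ω. -/
theorem result {F : Type*} [Field F] [Fintype F] [CharP F 2] {m : ℕ} (hm : 1 ≤ m) (h : Fintype.card F ≠ 2 ∨ m ≠ 2) (g : ↥(Cfsg.isometryGroup F (Cfsg.quadFormPlus m F))) : Even (m - Module.finrank F ↥(LinearMap.ker (LinearMap.funLeft F F (Sum.inr : Fin m → Fin m ⊕ Fin m)) ⊓ (LinearMap.ker (LinearMap.funLeft F F (Sum.inr : Fin m → Fin m ⊕ Fin m))).map (Matrix.mulVecLin ((g : Matrix.GeneralLinearGroup (Fin m ⊕ Fin m) F) : Matrix (Fin m ⊕ Fin m) (Fin m ⊕ Fin m) F)))) ↔ g ∈ Cfsg.Omega F (Cfsg.quadFormPlus m F)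 := by
  exact Cfsg.Agent.H49.even_iff_mem_commutator_plus_two CharTwo.two_eq_zero h g

end Cfsg.Agent.S2630
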