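import Cfsg.Statements.S2634
import Cfsg.Agent.H49.Omega2

set_option autoImplicit false
open Cfsg

namespace Cfsg.Agent.S2634

/-- Over a finite field of characteristic two, Ω (the commutator subgroup of the orthogonal group of a quadratic form Q on F^n with non-degenerate polar form; excluding dimension 4 over the field of two elements) acts transitively on the non-singular 1-spaces: for u, v with Q(u) ≠ 0 and Q(v) ≠ 0 some element of Ω carries the line through u to the line through v. -/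
theorem result {F : Type*} [Field F] [Fintype F] [CharP F 2] {n : ℕ} (h : Fintype.card F ≠ 2 ∨ n ≠ 4) (Q : QuadraticForm F (Fin n → F)) (hQ : (QuadraticMap.polarBilin Q).Nondegenerate) (u v : Fin n → F) (hu : Q u ≠ 0) (hv : Q v ≠ 0) : ∃ g : ↥(Cfsg.isometryGroup F ⇑Q), g ∈ Cfsg.Omega F ⇑Q ∧ (F ∙ ((g : Matrix.GeneralLinearGroup (Fin n) F) : Matrix (Fin n) (Fin n) F).mulVec u) = F ∙ v := by
  have h2 : (2 : F) = 0 := CharTwo.two_eq_zero
  obtain ⟨m, hm⟩ := Cfsg.Agent.H49.even_finrank_char_two h2 Q hQ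
  have hex : Fintype.card F ≠ 2 ∨ m ≠ 2 := by
    rcases h with h | h
    · left; exact h
    · right
      intro hm2
      apply h
      rw [Module.finrank_fin_fun] at hm
      omega
  obtain ⟨c, hc⟩ := Cfsg.Agent.H49.exists_sqrt_char_two h2 (Q u / Q v)
  have hc0 : c ≠ 0 := by
    rintro rfl
    rw [mul_zero] at hc
    exact (div_ne_zero hu hv) hc.symm
  have hQc : Q u = Q (c • v) := by
    rw [QuadraticMap.map_smul, hc, smul_eq_mul]
    field_simp
  have hne : Q (c • v) ≠ 0 := hQc ▸ hu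
  obtain ⟨h', -, hh, -⟩ := Cfsg.Agent.H49.cd2_step1 Q h2 hQ hm hex ⊥ (by simp) (c • v) u
    (by simp) (by simp) hQc hne
  rcases Cfsg.Agent.H49.mem_commutator_or_two Q h2 hQ hm hex h' with hmem | hmem
  · refine ⟨h', hmem, ?_⟩
    rw [hh]
    exact Submodule.span_singleton_smul_eq (IsUnit.mk0 c hc0) v
  · refine ⟨Cfsg.Agent.H49.reflG Q (c • v) * h', hmem _ ⟨c • v, hne, rfl⟩, ?_⟩
    rw [Cfsg.Agent.H49.coe_mul_mulVec, hh, Cfsg.Agent.H49.reflG_mulVec_self Q (c • v) hne,
      ← neg_smul]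
    exact Submodule.span_singleton_smul_eq (IsUnit.mk0 (-c) (neg_ne_zero.mpr hc0)) v

end Cfsg.Agent.S2634
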