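import Cfsg.Statements.S2635
import Cfsg.Agent.H49.Omega2

set_option autoImplicit false
open Cfsg

namespace Cfsg.Agent.S2635

/-- Over a finite field of characteristic two, for a quadratic form Q on F^n with non-degenerate polar form, n ≥ 2, other than dimension 4 over the field of two elements, Ω (the commutator subgroup of the orthogonal group) is exactly the subgroup generated by the products of two reflections (orthogonal transvections) x ↦ x − Q(v)⁻¹ f(x, v) v, Q(v) ≠ 0: the products of an even number of reflections. -/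
theorem result {F : Type*} [Field F] [Fintype F] [CharP F 2] {n : ℕ} (hn : 2 ≤ n) (h : Fintype.card F ≠ 2 ∨ n ≠ 4) (Q : QuadraticForm F (Fin n → F)) (hQ : (QuadraticMap.polarBilin Q).Nondegenerate) : Cfsg.Omega F ⇑Q = Subgroup.closure {g : ↥(Cfsg.isometryGroup F ⇑Q) | ∃ u v : Fin n → F, Q u ≠ 0 ∧ Q v ≠ 0 ∧ ((g : Matrix.GeneralLinearGroup (Fin n) F) : Matrix (Fin n) (Fin n) F) = Cfsg.reflectionMatrix ⇑Q u * Cfsg.reflectionMatrix ⇑Q v} := by
  have h2 : (2 : F) = 0 := CharTwo.two_eq_zero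
  obtain ⟨m, hm⟩ := Cfsg.Agent.H49.even_finrank_char_two h2 Q hQ
  have hex : Fintype.card F ≠ 2 ∨ m ≠ 2 := by
    rcases h with h | h
    · left; exact h
    · right
      intro hm2
      apply h
      rw [Module.finrank_fin_fun] at hm
      omega
  have e := Cfsg.Agent.H49.commutator_eq_evenSub_two Q h2 hQ hm hex
  show commutator _ = _
  rw [e, Cfsg.Agent.H49.evenSub]
  congr 1
  ext g
  constructor
  · rintro ⟨s, ⟨u, hu, rfl⟩, t, ⟨v, hv, rfl⟩, rfl⟩
    exact ⟨u, v, hu, hv, rfl⟩
  · rintro ⟨u, v, hu, hv, hg⟩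
    refine ⟨Cfsg.Agent.H49.reflG Q u, ⟨u, hu, rfl⟩, Cfsg.Agent.H49.reflG Q v, ⟨v, hv, rfl⟩, ?_⟩
    apply Subtype.ext
    apply Units.ext
    exact hg

end Cfsg.Agent.S2635
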