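import Cfsg.Statements.S2638
import Cfsg.Agent.H48.Singer

set_option autoImplicit false
open Cfsg

namespace Cfsg.Agent.S2638

/-- If an element x of GL_n(q), n ≥ 1, has prime order r and the multiplicative order of q modulo r is n (r is a primitive prime divisor of q^n − 1, so x acts irreducibly), then the centraliser of x in GL_n(q) is cyclic of order q^n − 1 (the multiplicative group of the field with q^n elements, a Singer cycle). -/
theorem result {F : Type*} [Field F] [Fintype F] {p q : ℕ} [Fact p.Prime] [CharP F p] (hF : Fintype.card F = q) {n r : ℕ} (hn : 1 ≤ n) (hr : r.Prime) (hrp : r ≠ p) (hi : orderOf (q : ZMod r) = n) (x : GL (Fin n) F) (hx : orderOf x = r) : IsCyclic ↥(Subgroup.centralizer ({x} : Set (GL (Fin n) F))) ∧ Nat.card ↥(Subgroup.centralizer ({x} : Set (GL (Fin n) F))) = q ^ n - 1 := by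
  classical
  subst hF
  have hp : p.Prime := Fact.out
  have hrF : (r : F) ≠ 0 := by
    intro h0
    rw [CharP.cast_eq_zero_iff F p r] at h0
    rcases (Nat.dvd_prime hr).mp h0 with h1 | h1
    · exact hp.one_lt.ne' h1
    · exact hrp h1.symm
  let φ : Module.End F (Fin n → F) := Matrix.toLinAlgEquiv' (x : Matrix (Fin n) (Fin n) F)
  have hφ : ∀ v, φ v = Matrix.mulVec (x : Matrix (Fin n) (Fin n) F) v := fun v => rfl
  have hxr : x ^ r = 1 := by rw [← hx]; exact pow_orderOf_eq_one x
  have hφr : φ ^ r = 1 := by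
    show Matrix.toLinAlgEquiv' (x : Matrix (Fin n) (Fin n) F) ^ r = 1
    rw [← map_pow, ← Units.val_pow_eq_pow_val, hxr, Units.val_one, map_one]
  have hφ1 : φ ≠ 1 := by
    intro h1
    have h2 : (x : Matrix (Fin n) (Fin n) F) = 1 := by
      apply Matrix.toLinAlgEquiv'.injective
      rw [map_one]
      exact h1
    have h3 : x = 1 := Units.ext h2
    rw [h3, orderOf_one] at hx
    exact hr.one_lt.ne' hx.symm
  have hord : orderOf ((Fintype.card F : ℕ) : ZMod r) = Module.finrank F (Fin n → F) := by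
    rw [Module.finrank_fin_fun]
    exact hi
  obtain ⟨f, hf, ψ, hψ⟩ :=
    Cfsg.Agent.H48.exists_adjoinRoot_equiv_of_prime_order φ r hr hrF hφr hφ1 hord
  refine Cfsg.Agent.H48.singer_centralizer x f hf ψ (fun μ => by rw [← hφ, hψ]) ?_
  intro g hg
  let γ : Module.End F (Fin n → F) := Matrix.toLinAlgEquiv' g
  have hγ : ∀ v, γ v = Matrix.mulVec g v := fun v => rfl
  obtain ⟨lam, hlam⟩ := Cfsg.Agent.H48.exists_mul_of_commute_root φ f ψ hψ γ (by
    intro v
    rw [hγ, hγ, hφ, hφ, Matrix.mulVec_mulVec, Matrix.mulVec_mulVec, hg])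
  exact ⟨lam, fun μ => by rw [← hγ, hlam]⟩

end Cfsg.Agent.S2638
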