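import Cfsg.Statements.S2642
import Cfsg.Agent.H97.NilpU
import Cfsg.Agent.H97.Herm2
import Cfsg.Agent.S2587
import Cfsg.Agent.S2588

set_option autoImplicit false
open Cfsg

namespace Cfsg.Agent.S2642

/-- Number of conjugacy classes of elements of order p in the general unitary group GU_n(q), q a power of p: every unipotent Jordan type occurs and the classes correspond to the partitions of n with all parts at most p other than the all-ones partition, exactly as in GL_n; so there are (number of partitions of n with parts ≤ p) − 1 classes. -/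
theorem result {K : Type*} [Field K] [Fintype K] {p q n : ℕ} [Fact p.Prime] [CharP K p] (hK : Fintype.card K = q ^ 2) : Nat.card {C : ConjClasses ↥(Cfsg.GU n K q) // ∃ g : ↥(Cfsg.GU n K q), ConjClasses.mk g = C ∧ orderOf g = p} = (Finset.univ.filter (fun μ : Nat.Partition n => ∀ a ∈ μ.parts, a ≤ p)).card - 1 := by
  have hp : p.Prime := Fact.out
  set T := Finset.univ.filter (fun μ : Nat.Partition n => ∀ a ∈ μ.parts, a ≤ p) with hT
  obtain ⟨hq0, σ, hσ, hσσ, ω₀, hω₀⟩ := Cfsg.Agent.H97.Herm.exists_sigma hK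
  have hmodel : ∀ μ : Nat.Partition n, (∀ a ∈ μ.parts, a ≤ p) → ∃ B : ↥(Cfsg.GU n K q),
      (((B : GL (Fin n) K) : Matrix (Fin n) (Fin n) K) - 1) ^ p = 0 ∧
      ∀ k, ((((B : GL (Fin n) K) : Matrix (Fin n) (Fin n) K) - 1) ^ k).rank =
        (μ.parts.map (fun b => b - k)).sum := by
    intro μ hμ
    obtain ⟨g, h1, h2⟩ := Cfsg.Agent.H97.Nilp.exists_gl_model (F := K) μ.parts μ.parts_sum p hμ
    have hconj : IsConj (g : Matrix (Fin n) (Fin n) K)
        (((g : Matrix (Fin n) (Fin n) K).map (fun x : K => x ^ q)).transpose)⁻¹ := by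
      have hfun : (fun x : K => x ^ q) = ⇑σ := funext (fun x => (hσ x).symm)
      have hadj : ((g : Matrix (Fin n) (Fin n) K).map (fun x : K => x ^ q)).transpose
          = Cfsg.Agent.H97.Herm.adj σ (g : Matrix (Fin n) (Fin n) K) := by rw [hfun]; rfl
      rw [hadj]
      have hAA : Cfsg.Agent.H97.Herm.adj σ (g : Matrix (Fin n) (Fin n) K)
          * Cfsg.Agent.H97.Herm.adj σ ((g⁻¹ : GL (Fin n) K) : Matrix (Fin n) (Fin n) K) = 1 := by
        rw [← Cfsg.Agent.H97.Herm.adj_mul, Units.inv_mul, Cfsg.Agent.H97.Herm.adj_one]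
      rw [Matrix.inv_eq_right_inv hAA]
      exact Cfsg.Agent.H97.Nilp.conj_adj_inv σ hσσ g ⟨p, h1⟩
    obtain ⟨B, hB⟩ := (Cfsg.Agent.S2588.result hK g).mpr hconj
    have hr : ∀ k, ((((B : GL (Fin n) K) : Matrix (Fin n) (Fin n) K) - 1) ^ k).rank =
        (μ.parts.map (fun b => b - k)).sum := fun k => by
      rw [← h2 k]
      exact (Cfsg.Agent.H97.Nilp.rank_of_gl_conj _ _ hB k).symm
    refine ⟨B, ?_, hr⟩
    apply Cfsg.Agent.H97.Nilp.mat_eq_zero_of_rank
    rw [hr p]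
    exact Cfsg.Agent.H65.JordanRank.mset_sum_sub_eq_zero μ.parts p p hμ le_rfl
  choose G hG1 hG2 using hmodel
  have hones : Cfsg.Agent.H97.Nilp.ones n ∈ T := by
    rw [hT, Finset.mem_filter]
    refine ⟨Finset.mem_univ _, fun a ha => ?_⟩
    have ha' : a ∈ Multiset.replicate n 1 := ha
    rw [Multiset.eq_of_mem_replicate ha']
    exact hp.one_lt.le
  rw [← Finset.card_erase_of_mem hones, ← Fintype.card_coe, ← Nat.card_eq_fintype_card]
  symm
  have hmemT : ∀ μ : {μ // μ ∈ T.erase (Cfsg.Agent.H97.Nilp.ones n)}, ∀ a ∈ μ.1.parts, a ≤ p :=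
    fun μ => (Finset.mem_filter.mp (Finset.mem_of_mem_erase μ.2)).2
  have hne : ∀ μ : {μ // μ ∈ T.erase (Cfsg.Agent.H97.Nilp.ones n)},
      μ.1 ≠ Cfsg.Agent.H97.Nilp.ones n := fun μ => Finset.ne_of_mem_erase μ.2
  have hord : ∀ μ : {μ // μ ∈ T.erase (Cfsg.Agent.H97.Nilp.ones n)},
      orderOf (G μ.1 (hmemT μ)) = p := by
    intro μ
    rw [← Subgroup.orderOf_coe]
    apply orderOf_eq_prime
    · have := Cfsg.Agent.H97.Nilp.order_of_nilp p (G μ.1 (hmemT μ) : GL (Fin n) K) 1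
        (by rw [pow_one]; exact hG1 μ.1 (hmemT μ))
      rwa [pow_one] at this
    · intro h1
      obtain ⟨b, hb, hb2⟩ := Cfsg.Agent.H97.Nilp.exists_two_le μ.1 (hne μ)
      have h3 := Cfsg.Agent.H65.JordanRank.mset_sum_sub_one_pos μ.1.parts b hb hb2
      have h4 := hG2 μ.1 (hmemT μ) 1
      rw [h1, Units.val_one, sub_self, pow_one, Matrix.rank_zero] at h4
      omega
  apply Nat.card_eq_of_bijective (fun μ : {μ // μ ∈ T.erase (Cfsg.Agent.H97.Nilp.ones n)} =>
    (⟨ConjClasses.mk (G μ.1 (hmemT μ)), G μ.1 (hmemT μ), rfl, hord μ⟩ :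
      {C : ConjClasses ↥(Cfsg.GU n K q) //
        ∃ g : ↥(Cfsg.GU n K q), ConjClasses.mk g = C ∧ orderOf g = p}))
  constructor
  · intro μ ν h
    have h1 : ConjClasses.mk (G μ.1 (hmemT μ)) = ConjClasses.mk (G ν.1 (hmemT ν)) :=
      congrArg Subtype.val h
    rw [ConjClasses.mk_eq_mk_iff_isConj, Cfsg.Agent.S2587.result hK] at h1
    apply Subtype.ext
    apply Nat.Partition.ext
    apply Cfsg.Agent.H97.Nilp.mset_eq_of_sums _ _ (fun b hb => μ.1.parts_pos hb)
      (fun b hb => ν.1.parts_pos hb)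
    intro k
    rw [← hG2 μ.1 (hmemT μ) k, ← hG2 ν.1 (hmemT ν) k]
    exact Cfsg.Agent.H97.Nilp.rank_of_gl_conj _ _ h1 k
  · rintro ⟨C, g, rfl, hg⟩
    have hgp : (g : GL (Fin n) K) ^ p = 1 := by
      rw [← Subgroup.coe_pow, ← hg, pow_orderOf_eq_one]
      rfl
    have hnil : (((g : GL (Fin n) K) : Matrix (Fin n) (Fin n) K) - 1) ^ p = 0 := by
      have := Cfsg.Agent.H97.Nilp.nilp_of_order p (g : GL (Fin n) K) 1
        (by rw [pow_one]; exact hgp)
      rwa [pow_one] at this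
    obtain ⟨μ, hμ1, hμ2⟩ :=
      Cfsg.Agent.H97.Nilp.exists_partition_of_nilp (g : GL (Fin n) K) p hnil
    have hμT : μ ∈ T.erase (Cfsg.Agent.H97.Nilp.ones n) := by
      rw [Finset.mem_erase]
      refine ⟨?_, Finset.mem_filter.mpr ⟨Finset.mem_univ _, hμ1⟩⟩
      intro hμ
      have h1 := hμ2 1
      rw [hμ, Cfsg.Agent.H97.Nilp.ones_sum_sub_one, pow_one] at h1
      have h2 := Cfsg.Agent.H97.Nilp.mat_eq_zero_of_rank _ h1
      have h3 : g = 1 := by
        apply Subtype.ext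
        apply Units.ext
        rw [sub_eq_zero] at h2
        exact h2
      rw [h3, orderOf_one] at hg
      exact hp.one_lt.ne hg
    refine ⟨⟨μ, hμT⟩, Subtype.ext ?_⟩
    show ConjClasses.mk (G μ _) = ConjClasses.mk g
    rw [ConjClasses.mk_eq_mk_iff_isConj, Cfsg.Agent.S2587.result hK]
    exact Cfsg.Agent.H97.Nilp.gl_conj_of_rank _ _ ⟨p, hG1 μ _⟩
      (fun k => by rw [hG2 μ _ k, hμ2 k])

end Cfsg.Agent.S2642
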