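import Cfsg.Statements.S2643
import Cfsg.Agent.H48.RegUnipU
import Cfsg.Agent.H48.ClassCount
import Cfsg.Agent.H48.JordanStd
import Cfsg.Agent.S2587
import Cfsg.Agent.S2588

set_option autoImplicit false
open Cfsg

namespace Cfsg.Agent.S2643

open Cfsg.Agent.H48 Matrix

theorem isRegNil_fin_iff' {F : Type*} [Field F] {n : ℕ} (M : Matrix (Fin n) (Fin n) F) :
    IsRegNil M ↔ M ^ n = 0 ∧ M.rank = n - 1 := by
  unfold IsRegNil
  rw [Fintype.card_fin]

/-- A regular unipotent element exists in the unitary group. -/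
theorem exists_regular_unipotent {K : Type*} [Field K] [Fintype K] {q n : ℕ}
    (hK : Fintype.card K = q ^ 2) (hn : 2 ≤ n) :
    ∃ u₀ : ↥(Cfsg.SU n K q),
      IsRegNil (((Matrix.SpecialLinearGroup.toGL u₀.1 : GL (Fin n) K) :
        Matrix (Fin n) (Fin n) K) - 1) := by
  classical
  obtain ⟨f, hf⟩ := Cfsg.Agent.H7.exists_frobQ hK
  have hpos : 0 < Fintype.card (Fin n) := by rw [Fintype.card_fin]; omega
  obtain ⟨J, hJ⟩ : ∃ J : GL (Fin n) K, (J : Matrix (Fin n) (Fin n) K) = Cfsg.jordanBlock n K :=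
    ⟨Matrix.SpecialLinearGroup.toGL ⟨Cfsg.jordanBlock n K, det_jordanBlock n K⟩, rfl⟩
  have hJreg : IsRegNil ((J : Matrix (Fin n) (Fin n) K) - 1) := by
    rw [hJ]
    exact (isRegNil_fin_iff' _).mpr ⟨jordanBlock_sub_one_pow n K, rank_jordanBlock_sub_one n K⟩
  have hconj : IsConj (J : Matrix (Fin n) (Fin n) K)
      (((J : Matrix (Fin n) (Fin n) K).map (fun x : K => x ^ q)).transpose)⁻¹ := by
    have hmap : (J : Matrix (Fin n) (Fin n) K).map (fun x : K => x ^ q)
        = f.mapMatrix (J : Matrix (Fin n) (Fin n) K) := by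
      ext i j
      simp [hf]
    have hA : IsRegNil (f.mapMatrix (J : Matrix (Fin n) (Fin n) K) - 1) := by
      have e : f.mapMatrix (J : Matrix (Fin n) (Fin n) K) - 1
          = f.mapMatrix ((J : Matrix (Fin n) (Fin n) K) - 1) := by
        rw [map_sub, map_one]
      rw [e]
      constructor
      · rw [← map_pow, hJreg.1, map_zero]
      · rw [RingHom.mapMatrix_apply, rank_map_field, hJreg.2]
    have hdet : IsUnit (f.mapMatrix (J : Matrix (Fin n) (Fin n) K)).det := by
      rw [← RingHom.map_det, hJ, det_jordanBlock, map_one]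
      exact isUnit_one
    have hreg' := isRegNil_inv_transpose _ hdet hA
    rw [Matrix.transpose_nonsing_inv] at hreg'
    obtain ⟨g, hg⟩ := exists_gl_conj_of_regular _ _ hJreg hreg' hpos
    rw [hmap]
    refine ⟨g, ?_⟩
    show (g : Matrix (Fin n) (Fin n) K) * (J : Matrix (Fin n) (Fin n) K)
      = _ * (g : Matrix (Fin n) (Fin n) K)
    rw [mul_sub, sub_mul, mul_one, one_mul] at hg
    exact sub_left_injective hg
  obtain ⟨B, hB⟩ := (Cfsg.Agent.S2588.result hK J).mpr hconj
  rw [isConj_iff] at hB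
  obtain ⟨c, hc⟩ := hB
  have hBval : ((B : GL (Fin n) K) : Matrix (Fin n) (Fin n) K)
      = (c : Matrix (Fin n) (Fin n) K) * (J : Matrix (Fin n) (Fin n) K)
        * ((c⁻¹ : GL (Fin n) K) : Matrix (Fin n) (Fin n) K) := by
    rw [← hc]
    rfl
  have hBreg : IsRegNil (((B : GL (Fin n) K) : Matrix (Fin n) (Fin n) K) - 1) := by
    rw [hBval]
    exact IsRegNil.conj c (J : Matrix (Fin n) (Fin n) K) hJreg
  have hBdet : ((B : GL (Fin n) K) : Matrix (Fin n) (Fin n) K).det = 1 := by
    rw [hBval, Matrix.det_units_conj, hJ, det_jordanBlock]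
  exact ⟨⟨⟨((B : GL (Fin n) K) : Matrix (Fin n) (Fin n) K), hBdet⟩, B.2⟩, hBreg⟩

/-- Regular unipotent classes of SU_n(q), n ≥ 2: the elements u of the special unitary group (isometries of Σ u_i v_i^q of determinant one over the field with q² elements) with (u − 1)^n = 0 and rank(u − 1) = n − 1 form exactly gcd(n, q + 1) conjugacy classes of SU_n(q). -/
theorem result {K : Type*} [Field K] [Fintype K] {q n : ℕ} (hK : Fintype.card K = q ^ 2) (hn : 2 ≤ n) : Nat.card {C : ConjClasses ↥(Cfsg.SU n K q) // ∃ u : ↥(Cfsg.SU n K q), ConjClasses.mk u = C ∧ (((u : GL (Fin n) K) : Matrix (Fin n) (Fin n) K) - 1) ^ n = 0 ∧ (((u : GL (Fin n) K) : Matrix (Fin n) (Fin n) K) - 1).rank = n - 1} = Nat.gcd n (q + 1) := by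
  classical
  have hq := Cfsg.Agent.H7.two_le_of_card_sq hK
  have hq0 : q ≠ 0 := by omega
  obtain ⟨f, hf⟩ := Cfsg.Agent.H7.exists_frobQ hK
  have : Nonempty (Fin n) := ⟨⟨0, by omega⟩⟩
  have hpos : 0 < Fintype.card (Fin n) := by rw [Fintype.card_fin]; omega
  obtain ⟨u₀, hu₀reg⟩ := exists_regular_unipotent hK hn
  -- the determinant onto the norm-one group
  let δ : ↥(GU n K q) →* ↥((powMonoidHom (q + 1) : Kˣ →* Kˣ).ker) :=
    (Matrix.GeneralLinearGroup.det.comp (GU n K q).subtype).codRestrict _ (by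
      intro g
      rw [MonoidHom.mem_ker, powMonoidHom_apply]
      apply Units.ext
      have h1 := Cfsg.Agent.H7.GUI_det_pow hK g.1 g.2
      simpa using h1)
  have hδval : ∀ g : ↥(GU n K q), (((δ g : ↥((powMonoidHom (q + 1) : Kˣ →* Kˣ).ker)) : Kˣ) : K)
      = ((g : GL (Fin n) K) : Matrix (Fin n) (Fin n) K).det := fun g => rfl
  let ι : ↥(SU n K q) →* ↥(GU n K q) :=
    { toFun := fun s => ⟨Matrix.SpecialLinearGroup.toGL s.1, s.2⟩
      map_one' := by
        apply Subtype.ext
        show Matrix.SpecialLinearGroup.toGL (1 : Matrix.SpecialLinearGroup (Fin n) K) = 1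
        exact map_one _
      map_mul' := by
        intro a b
        apply Subtype.ext
        show Matrix.SpecialLinearGroup.toGL (a.1 * b.1)
          = Matrix.SpecialLinearGroup.toGL a.1 * Matrix.SpecialLinearGroup.toGL b.1
        exact map_mul _ _ _ }
  have key := card_classes_eq_index (G := ↥(GU n K q)) (S := ↥(SU n K q))
    (A := ↥((powMonoidHom (q + 1) : Kˣ →* Kˣ).ker)) δ
    (by
      intro z
      have hz : ((z : Kˣ) : K) ^ (q + 1) = 1 := by
        have h1 := z.2
        rw [MonoidHom.mem_ker, powMonoidHom_apply] at h1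
        have h2 := congrArg Units.val h1
        simpa using h2
      refine ⟨⟨Cfsg.Agent.H7.glDiagOne (⟨0, by omega⟩ : Fin n) ((z : Kˣ) : K) (z : Kˣ).ne_zero,
        Cfsg.Agent.H7.GUI_glDiagOne_mem _ _ hz _⟩, ?_⟩
      apply Subtype.ext
      show Matrix.GeneralLinearGroup.det
        (Cfsg.Agent.H7.glDiagOne (⟨0, by omega⟩ : Fin n) ((z : Kˣ) : K) (z : Kˣ).ne_zero) = (z : Kˣ)
      rw [Cfsg.Agent.H7.det_glDiagOne]
      exact Units.ext rfl)
    ι
    (by
      intro a b hab
      have h1 : Matrix.SpecialLinearGroup.toGL a.1 = Matrix.SpecialLinearGroup.toGL b.1 :=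
        congrArg Subtype.val hab
      exact Subtype.ext (Matrix.SpecialLinearGroup.toGL_injective h1))
    (by
      intro x hx
      have h1 : ((x : GL (Fin n) K) : Matrix (Fin n) (Fin n) K).det = 1 := by
        rw [← hδval, hx]
        rfl
      exact ⟨⟨⟨((x : GL (Fin n) K) : Matrix (Fin n) (Fin n) K), h1⟩, x.2⟩,
        Subtype.ext (Units.ext rfl)⟩)
    (by
      intro s
      apply Subtype.ext
      apply Units.ext
      show ((Matrix.SpecialLinearGroup.toGL s.1 : GL (Fin n) K) : Matrix (Fin n) (Fin n) K).det = 1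
      exact s.1.2)
    (fun x : ↥(GU n K q) => (((x : GL (Fin n) K) : Matrix (Fin n) (Fin n) K) - 1) ^ n = 0 ∧
      (((x : GL (Fin n) K) : Matrix (Fin n) (Fin n) K) - 1).rank = n - 1)
    (by
      intro g x hx
      have h1 := IsRegNil.conj (g : GL (Fin n) K) ((x : GL (Fin n) K) : Matrix (Fin n) (Fin n) K)
        ((isRegNil_fin_iff' _).mpr hx)
      rw [isRegNil_fin_iff'] at h1
      exact h1)
    u₀ ((isRegNil_fin_iff' _).mp hu₀reg)
    (by
      intro x hx
      obtain ⟨g, hg⟩ := exists_gl_conj_of_regular _ _ hu₀reg ((isRegNil_fin_iff' _).mpr hx) hpos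
      have hconj : IsConj ((ι u₀ : ↥(GU n K q)) : GL (Fin n) K) (x : GL (Fin n) K) := by
        rw [isConj_iff]
        refine ⟨g, ?_⟩
        rw [mul_inv_eq_iff_eq_mul]
        apply Units.ext
        rw [Units.val_mul, Units.val_mul]
        rw [mul_sub, sub_mul, mul_one, one_mul] at hg
        exact sub_left_injective hg
      have h2 := (Cfsg.Agent.S2587.result hK (ι u₀) x).mpr hconj
      rw [isConj_iff] at h2
      exact h2)
    (powMonoidHom n : ↥((powMonoidHom (q + 1) : Kˣ →* Kˣ).ker) →* _).range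
    (by
      intro k hk
      have hk2 : ((k : GL (Fin n) K) : Matrix (Fin n) (Fin n) K)
          * ((Matrix.SpecialLinearGroup.toGL u₀.1 : GL (Fin n) K) : Matrix (Fin n) (Fin n) K)
          = ((Matrix.SpecialLinearGroup.toGL u₀.1 : GL (Fin n) K) : Matrix (Fin n) (Fin n) K)
            * ((k : GL (Fin n) K) : Matrix (Fin n) (Fin n) K) := by
        have h2 := congrArg (fun y : ↥(GU n K q) => ((y : GL (Fin n) K) : Matrix (Fin n) (Fin n) K)) hk
        exact h2
      have hk' : ((k : GL (Fin n) K) : Matrix (Fin n) (Fin n) K)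
          * (((Matrix.SpecialLinearGroup.toGL u₀.1 : GL (Fin n) K) : Matrix (Fin n) (Fin n) K) - 1)
          = (((Matrix.SpecialLinearGroup.toGL u₀.1 : GL (Fin n) K) : Matrix (Fin n) (Fin n) K) - 1)
            * ((k : GL (Fin n) K) : Matrix (Fin n) (Fin n) K) := by
        rw [mul_sub, sub_mul, mul_one, one_mul, hk2]
      obtain ⟨c, hc, hcnil⟩ := det_commutant_eq_pow' _ hu₀reg hpos _ hk'
      rw [Fintype.card_fin] at hc
      have hc0 : c ≠ 0 := by
        intro h0
        rw [h0, zero_pow (by omega)] at hc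
        exact Matrix.GeneralLinearGroup.det_ne_zero (k : GL (Fin n) K) hc
      have hc1 : c ^ (q + 1) = 1 :=
        pow_eq_one_of_unitary_nilpotent f q hf _
          (Cfsg.Agent.H7.GUI_transpose_mul_map hq0 (k : GL (Fin n) K) k.2) c hc0 hcnil
      refine ⟨⟨Units.mk0 c hc0, ?_⟩, ?_⟩
      · rw [MonoidHom.mem_ker, powMonoidHom_apply]
        apply Units.ext
        simpa using hc1
      · apply Subtype.ext
        apply Units.ext
        show (c : K) ^ n = ((k : GL (Fin n) K) : Matrix (Fin n) (Fin n) K).det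
        exact hc.symm)
    (by
      rintro d ⟨c, rfl⟩
      have hz : (((c : Kˣ) : K)) ^ (q + 1) = 1 := by
        have h1 := c.2
        rw [MonoidHom.mem_ker, powMonoidHom_apply] at h1
        have h2 := congrArg Units.val h1
        simpa using h2
      have hmem : Matrix.GeneralLinearGroup.scalar (Fin n) (c : Kˣ) ∈ GU n K q := by
        intro u v
        have hs : ∀ w : Fin n → K,
            (Units.coeHom (Matrix (Fin n) (Fin n) K)) (Matrix.GeneralLinearGroup.scalar (Fin n) (c : Kˣ)) *ᵥ w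
              = ((c : Kˣ) : K) • w := by
          intro w
          ext i
          simp [Matrix.mulVec_diagonal]
        rw [hs, hs]
        show Cfsg.Agent.H7.hermI (Fin n) K q _ _ = Cfsg.Agent.H7.hermI (Fin n) K q u v
        rw [Cfsg.Agent.H7.hermI_smul_left, Cfsg.Agent.H7.hermI_smul_right, ← mul_assoc,
          ← pow_succ', hz, one_mul]
      refine ⟨⟨Matrix.GeneralLinearGroup.scalar (Fin n) (c : Kˣ), hmem⟩, ?_, ?_⟩
      · apply Subtype.ext
        exact Matrix.GeneralLinearGroup.scalar_commute (c : Kˣ) _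
      · apply Subtype.ext
        show Matrix.GeneralLinearGroup.det (Matrix.GeneralLinearGroup.scalar (Fin n) (c : Kˣ)) = _
        rw [Matrix.GeneralLinearGroup.det_scalar, Fintype.card_fin]
        rfl)
  rw [IsCyclic.index_powMonoidHom_range, Cfsg.Agent.H7.card_norm_one_units hK, Nat.gcd_comm] at key
  exact key

end Cfsg.Agent.S2643
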