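import Cfsg.Statements.S2645
import Cfsg.Agent.H48.PrimeOrdSp

set_option autoImplicit false
open Cfsg

namespace Cfsg.Agent.S2645

/-- Number of conjugacy classes of elements of odd prime order r, r different from the characteristic, in the symplectic group Sp_2m(q): let i be the multiplicative order of q modulo r and t = (r − 1)/i. If i is odd the eigenvalue orbits pair off (Λ ≠ Λ⁻¹) and the classes correspond to the non-zero (t/2)-tuples (a_j) with 2i Σ a_j ≤ 2m, giving C(⌊m/i⌋ + t/2, t/2) − 1 classes; if i is even (Λ = Λ⁻¹) they correspond to the non-zero t-tuples with i Σ a_j ≤ 2m, giving C(⌊2m/i⌋ + t, t) − 1 classes. -/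
theorem result {F : Type*} [Field F] [Fintype F] {p q : ℕ} [Fact p.Prime] [CharP F p] (hF : Fintype.card F = q) (m r i t : ℕ) (hr : r.Prime) (hr2 : r ≠ 2) (hrp : r ≠ p) (hi : i = orderOf (q : ZMod r)) (ht : t * i = r - 1) : Nat.card {C : ConjClasses ↥(Matrix.symplecticGroup (Fin m) F) // ∃ g : Matrix.symplecticGroup (Fin m) F, ConjClasses.mk g = C ∧ orderOf g = r} = if Odd i then Nat.choose (m / i + t / 2) (t / 2) - 1 else Nat.choose (2 * m / i + t) t - 1 := by
  classical
  obtain ⟨Φ, hcard, hΦ, hdeg, hLΦ, hprod, hi0, hdvd, hmem⟩ :=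
    Cfsg.Agent.H48.exists_cyclo_factors (F := F) hF r i t hr hrp hi ht
  obtain ⟨star, hstar, hinv, hev, hodd⟩ :=
    Cfsg.Agent.H48.exists_star_cyclo hF r i hr hr2 hi hi0 Φ hΦ hdeg hLΦ hdvd hmem
  by_cases hio : Odd i
  · rw [if_pos hio]
    obtain ⟨-, hpar, hcount⟩ :=
      Cfsg.Agent.H48.card_invariant_tuples star hinv (hodd hio) i m hi0
    rw [Cfsg.Agent.H48.card_sp_classes_prime_order p m r i hr hrp Φ hΦ hdeg hLΦ hprod hi0 star
      hstar hinv (fun a ha => (hpar a ha).mul_left i), hcount, Fintype.card_coe, hcard]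
  · rw [if_neg hio]
    have hie : Even i := Nat.not_odd_iff_even.mp hio
    have hid := hev hie
    rw [Cfsg.Agent.H48.card_sp_classes_prime_order p m r i hr hrp Φ hΦ hdeg hLΦ hprod hi0 star
      hstar hinv (fun a _ => hie.mul_right _)]
    have e : {a : Φ → ℕ // (∀ P, a (star P) = a P) ∧ a ≠ 0 ∧ i * ∑ P, a P ≤ 2 * m} ≃
        {a : Φ → ℕ // a ≠ 0 ∧ ∑ P, a P ≤ 2 * m / i} :=
      Equiv.subtypeEquivRight (fun a => by
        rw [Nat.le_div_iff_mul_le hi0, mul_comm]
        constructor
        · intro h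
          exact h.2
        · intro h
          exact ⟨fun P => by rw [hid P], h⟩)
    rw [Nat.card_congr e, Cfsg.Agent.H48.card_sum_le_ne_zero, Fintype.card_coe, hcard]

end Cfsg.Agent.S2645
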