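-- Statement S2666 (abstract Shintani descent: the bijection).
import Cfsg.Statements.S2666
import Cfsg.Agent.H50.Shin

set_option autoImplicit false
open Cfsg

namespace Cfsg.Agent.S2666

/-- Shintani descent, in an abstract form. Let `σ` be an automorphism of a group `X` such that the maps `a ↦ a·σ(a)⁻¹` and `a ↦ a·σᵉ(a)⁻¹` are surjective on `X` (the Lang–Steinberg property, which holds when `X` is a connected algebraic group and `σ` a Steinberg endomorphism), where `e ≥ 1`. Write `G` for the subgroup of fixed points of `σᵉ` and `H` for the subgroup of fixed points of `σ`. The `G`-conjugacy classes in the coset `G σ` of the semidirect product of `G` by `σ` correspond to the orbits of `G` on itself under twisted conjugation `g ↦ k g σ(k)⁻¹`, and the `e`-th power of `g σ` has `G`-part the norm `g σ(g) ⋯ σ^(e-1)(g)`. For `g` in `G` and any `a` with `g = a σ(a)⁻¹`, put `x = σᵉ(a)⁻¹ a`. Then: (1) `x` lies in `H`,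 and `a⁻¹ · (g σ(g) ⋯ σ^(e-1)(g)) · a = x`; (2) for `g, g'` in `G` with such elements `a, b` and `x, x'`, the elements `g, g'` are twisted-conjugate under `G` if and only if `x, x'` are conjugate in `H`; (3) every element of `H` arises as such an `x`. So `g ↦ x` induces a well-defined bijection from the twisted `G`-classes of `G` onto the conjugacy classes of `H` (the Shintani map). -/
theorem result {X : Type*} [Group X] (σ : MulAut X) (e : ℕ) (he : 1 ≤ e)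
    (hL : ∀ g : X, ∃ a : X, g = a * (σ a)⁻¹) (hLe : ∀ g : X, ∃ a : X, g = a * ((σ ^ e) a)⁻¹) :
    (∀ g ∈ (MulEquiv.toMonoidHom (σ ^ e)).eqLocus (MonoidHom.id X), ∀ a : X, g = a * (σ a)⁻¹ →
        ((σ ^ e) a)⁻¹ * a ∈ (MulEquiv.toMonoidHom σ).eqLocus (MonoidHom.id X) ∧
          a⁻¹ * ((List.range e).map (fun i => (σ ^ i) g)).prod * a = ((σ ^ e) a)⁻¹ * a) ∧
    (∀ g ∈ (MulEquiv.toMonoidHom (σ ^ e)).eqLocus (MonoidHom.id X), ∀ g' ∈ (MulEquiv.toMonoidHom (σ ^ e)).eqLocus (MonoidHom.id X), ∀ a b : X,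
        g = a * (σ a)⁻¹ → g' = b * (σ b)⁻¹ →
          ((∃ k ∈ (MulEquiv.toMonoidHom (σ ^ e)).eqLocus (MonoidHom.id X), g' = k * g * (σ k)⁻¹) ↔
            (∃ h ∈ (MulEquiv.toMonoidHom σ).eqLocus (MonoidHom.id X), ((σ ^ e) b)⁻¹ * b = h * (((σ ^ e) a)⁻¹ * a) * h⁻¹))) ∧
    (∀ x ∈ (MulEquiv.toMonoidHom σ).eqLocus (MonoidHom.id X), ∃ g ∈ (MulEquiv.toMonoidHom (σ ^ e)).eqLocus (MonoidHom.id X), ∃ a : X,
        g = a * (σ a)⁻¹ ∧ ((σ ^ e) a)⁻¹ * a = x) := by
  simp only [H50.Shin.mem_fix_iff]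
  refine ⟨?_, ?_, ?_⟩
  · intro g hg a ha
    refine ⟨H50.Shin.x_fix σ e g a ha hg, ?_⟩
    rw [H50.Shin.norm_eq σ g a ha e]
    group
  · intro g hg g' hg' a b ha hb
    constructor
    · rintro ⟨k, hk, hkg⟩
      -- h = b⁻¹ k a
      have hfix : σ (b⁻¹ * k * a) = b⁻¹ * k * a := by
        rw [map_mul, map_mul, map_inv]
        have h1 : b * (σ b)⁻¹ = k * (a * (σ a)⁻¹) * (σ k)⁻¹ := by rw [← ha, ← hb]; exact hkg
        calc (σ b)⁻¹ * σ k * σ a = b⁻¹ * (b * (σ b)⁻¹) * σ k * σ a := by group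
          _ = b⁻¹ * (k * (a * (σ a)⁻¹) * (σ k)⁻¹) * σ k * σ a := by rw [h1]
          _ = b⁻¹ * k * a := by group
      refine ⟨b⁻¹ * k * a, hfix, ?_⟩
      have hτ := H50.Shin.pow_fix σ _ hfix e
      rw [map_mul, map_mul, map_inv, hk] at hτ
      calc ((σ ^ e) b)⁻¹ * b = (((σ ^ e) b)⁻¹ * k * (σ ^ e) a) * ((σ ^ e) a)⁻¹ * k⁻¹ * b := by group
        _ = (b⁻¹ * k * a) * ((σ ^ e) a)⁻¹ * k⁻¹ * b := by rw [hτ]
        _ = b⁻¹ * k * a * (((σ ^ e) a)⁻¹ * a) * (b⁻¹ * k * a)⁻¹ := by group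
    · rintro ⟨h, hh, hx⟩
      have hτh : (σ ^ e) h = h := H50.Shin.pow_fix σ _ hh e
      refine ⟨b * h * a⁻¹, ?_, ?_⟩
      · rw [map_mul, map_mul, map_inv, hτh]
        calc (σ ^ e) b * h * ((σ ^ e) a)⁻¹
            = (σ ^ e) b * (h * (((σ ^ e) a)⁻¹ * a) * h⁻¹) * h * a⁻¹ := by group
          _ = (σ ^ e) b * (((σ ^ e) b)⁻¹ * b) * h * a⁻¹ := by rw [hx]
          _ = b * h * a⁻¹ := by group
      · rw [hb, ha, map_mul, map_mul, map_inv, hh]
        group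
  · intro x hx
    obtain ⟨c, hc⟩ := hLe x⁻¹
    have hτc : (σ ^ e) c = x * c := by
      calc (σ ^ e) c = (c * ((σ ^ e) c)⁻¹)⁻¹ * c := by group
        _ = x * c := by rw [← hc, inv_inv]
    have hτx : (σ ^ e) x = x := H50.Shin.pow_fix σ _ hx e
    refine ⟨c⁻¹ * (σ c⁻¹)⁻¹, ?_, c⁻¹, rfl, ?_⟩
    · simp only [map_mul, map_inv, inv_inv]
      rw [H50.Shin.pow_comm_apply, hτc, map_mul, hx]
      group
    · rw [map_inv, hτc]
      group

end Cfsg.Agent.S2666
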