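-- Statement S2668 (abstract Shintani descent: powers).
import Cfsg.Statements.S2668
import Cfsg.Agent.H50.Shin

set_option autoImplicit false
open Cfsg

namespace Cfsg.Agent.S2668

/-- Shintani descent and powers (abstract form). Let `σ` be an automorphism of a group `X`, `e ≥ 1` and `d ≥ 1`, let `g` be fixed by `σᵉ` and let `a` satisfy `g = a σ(a)⁻¹`, so that the Shintani map of `(X, σ, e)` sends the class of `g σ` to the class of `x = σᵉ(a)⁻¹ a`. Put `h = g σ(g) ⋯ σ^(d-1)(g)`, the part in `X` of the `d`-th power `(g σ)^d = h σ^d`. Then `h = a σ^d(a)⁻¹` (so `a` also serves for `h` with respect to `σ^d`), `h` is fixed by `(σ^d)ᵉ`, and `(σ^d)ᵉ(a)⁻¹ a = x^d`: the Shintani map of `(X, σ^d, e)` sends the class of `(g σ)^d` to the class of `x^d`. (When `d` divides `e`, the Shintani map of `(X, σ^d, e/d)` sends it to the class of `x` itself, since `(σ^d)^(e/d) = σᵉ`.) -/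
theorem result {X : Type*} [Group X] (σ : MulAut X) (e d : ℕ) (he : 1 ≤ e) (hd : 1 ≤ d)
    (g : X) (hg : g ∈ (MulEquiv.toMonoidHom (σ ^ e)).eqLocus (MonoidHom.id X)) (a : X) (ha : g = a * (σ a)⁻¹) :
    ((List.range d).map (fun i => (σ ^ i) g)).prod = a * ((σ ^ d) a)⁻¹ ∧
      ((List.range d).map (fun i => (σ ^ i) g)).prod ∈ (MulEquiv.toMonoidHom ((σ ^ d) ^ e)).eqLocus (MonoidHom.id X) ∧
      (((σ ^ d) ^ e) a)⁻¹ * a = (((σ ^ e) a)⁻¹ * a) ^ d := by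
  rw [H50.Shin.mem_fix_iff] at hg
  rw [H50.Shin.mem_fix_iff, H50.Shin.norm_eq σ g a ha d]
  -- y = a⁻¹ τ(a) is σ-fixed, where τ = σ^e
  have hy := H50.Shin.y_fix σ (σ ^ e) (H50.Shin.pow_comm_apply σ e) g a ha hg
  have hyτ : (σ ^ e) (a⁻¹ * (σ ^ e) a) = a⁻¹ * (σ ^ e) a := H50.Shin.pow_fix σ _ hy e
  have hτa : (σ ^ e) a = a * (a⁻¹ * (σ ^ e) a) := by group
  have hpow : ((σ ^ d) ^ e) a = a * (a⁻¹ * (σ ^ e) a) ^ d := by
    rw [← pow_mul, mul_comm, pow_mul]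
    exact H50.Shin.pow_apply_of_eq_mul (σ ^ e) a _ hτa hyτ d
  have hyd : (σ ^ d) ((a⁻¹ * (σ ^ e) a) ^ d) = (a⁻¹ * (σ ^ e) a) ^ d :=
    H50.Shin.pow_fix σ _ (by rw [map_pow, hy]) d
  refine ⟨rfl, ?_, ?_⟩
  · have hc : ((σ ^ d) ^ e) ((σ ^ d) a) = (σ ^ d) (((σ ^ d) ^ e) a) :=
      H50.Shin.pow_comm_apply (σ ^ d) e a
    rw [map_mul, map_inv, hc, hpow, map_mul, hyd]
    group
  · rw [hpow]
    have h2 : ((σ ^ e) a)⁻¹ * a = (a⁻¹ * (σ ^ e) a)⁻¹ := by group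
    rw [h2, inv_pow]
    group

end Cfsg.Agent.S2668
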