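-- Statement S2669 (abstract Shintani descent: fixed points on cosets).
import Cfsg.Statements.S2669
import Cfsg.Agent.H50.ShinCount

set_option autoImplicit false
open Cfsg

namespace Cfsg.Agent.S2669

/-- Shintani descent preserves numbers of fixed points on coset spaces (abstract form). Let `σ` be an automorphism of a group `X` and `e ≥ 1`; write `G` for the fixed points of `σᵉ` and `H` for the fixed points of `σ`, and assume `G` is finite. Let `Y` be a `σ`-stable subgroup of `X` on which the maps `a ↦ a σ(a)⁻¹` and `a ↦ a σᵉ(a)⁻¹` are surjective (as for a closed connected `σ`-stable subgroup of an algebraic group). Let `g ∈ G`, let `a ∈ X` satisfy `g = a σ(a)⁻¹` and put `x = σᵉ(a)⁻¹ a` (the Shintani image, an element of `H`). The element `g σ` of the semidirect product acts on the cosets of `Y ∩ G` in `G` by `k (Y ∩ G) ↦ g σ(k) (Y ∩ G)`, fixing that coset exactly when `k⁻¹ g σ(k) ∈ Y`; and `x` fixes the coset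 `h (Y ∩ H)` of `H` exactly when `h⁻¹ x h ∈ Y`. Then the two numbers of fixed cosets agree; in cross-multiplied form, `#{k ∈ G : k⁻¹ g σ(k) ∈ Y} · |Y ∩ H| = #{h ∈ H : h⁻¹ x h ∈ Y} · |Y ∩ G|`. -/
theorem result {X : Type*} [Group X] (σ : MulAut X) (e : ℕ) (he : 1 ≤ e)
    [Finite ↥((MulEquiv.toMonoidHom (σ ^ e)).eqLocus (MonoidHom.id X))]
    (Y : Subgroup X) (hY : ∀ y : X, y ∈ Y ↔ σ y ∈ Y)
    (hYL : ∀ y ∈ Y, ∃ a ∈ Y, y = a * (σ a)⁻¹) (hYLe : ∀ y ∈ Y, ∃ a ∈ Y, y = a * ((σ ^ e) a)⁻¹)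
    (g : X) (hg : g ∈ (MulEquiv.toMonoidHom (σ ^ e)).eqLocus (MonoidHom.id X)) (a : X) (ha : g = a * (σ a)⁻¹) :
    Nat.card {k : ↥((MulEquiv.toMonoidHom (σ ^ e)).eqLocus (MonoidHom.id X)) // (k : X)⁻¹ * g * σ k ∈ Y} *
        Nat.card ↥(Y ⊓ (MulEquiv.toMonoidHom σ).eqLocus (MonoidHom.id X)) =
      Nat.card {h : ↥((MulEquiv.toMonoidHom σ).eqLocus (MonoidHom.id X)) // (h : X)⁻¹ * (((σ ^ e) a)⁻¹ * a) * h ∈ Y} *
        Nat.card ↥(Y ⊓ (MulEquiv.toMonoidHom (σ ^ e)).eqLocus (MonoidHom.id X)) :=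
  H50.Shin.shintani_count σ e Y hY hYL hYLe g a ha

end Cfsg.Agent.S2669
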