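import Cfsg.Statements.S2670
import Cfsg.Agent.H48.PGLPrime3

set_option autoImplicit false
open Cfsg

namespace Cfsg.Agent.S2670

open Cfsg.Agent.H48 Matrix

/-- Number of conjugacy classes of elements of prime order r in PGL_n(q) = GL_n(q)/scalars when r divides q − 1 (n ≥ 2): the classes of elements with a diagonalisable lift correspond to the orbits of the cyclic rotation on the r-tuples of eigenvalue multiplicities (a_0, …, a_(r−1)) summing to n with every a_j < n, and when r divides n there are r − 1 further classes (lifts acting irreducibly on blocks of size r); in all (C(n+r−1, r−1) − r − [r ∣ n])/r + r·[r ∣ n] classes. -/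
theorem result {F : Type*} [Field F] [Fintype F] {q : ℕ} (hF : Fintype.card F = q) {n r : ℕ} (hn : 2 ≤ n) (hr : r.Prime) (hrq : r ∣ q - 1) : Nat.card {C : ConjClasses (GL (Fin n) F ⧸ Subgroup.center (GL (Fin n) F)) // ∃ g : GL (Fin n) F ⧸ Subgroup.center (GL (Fin n) F), ConjClasses.mk g = C ∧ orderOf g = r} = (Nat.choose (n + r - 1) (r - 1) - r - (if r ∣ n then 1 else 0)) / r + r * (if r ∣ n then 1 else 0) := by
  classical
  subst hF
  haveI : Nonempty (Fin n) := ⟨⟨0, by omega⟩⟩
  haveI : Fact r.Prime := ⟨hr⟩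
  have hA := card_typeA (F := F) n r hn hr hrq
  have hB := card_typeB (F := F) n r hn hr hrq
  have hsplit : ∀ g : GL (Fin n) F ⧸ Subgroup.center (GL (Fin n) F),
      orderOf g = r ↔ (PA F n r g ∨ PB F n r g) := by
    intro g
    constructor
    · intro hg
      obtain ⟨x, rfl⟩ := QuotientGroup.mk_surjective g
      rw [orderOf_mk_eq_prime_iff] at hg
      obtain ⟨⟨l, hl⟩, hns⟩ := hg
      by_cases hb : ∃ b : F, b ^ r = l
      · left
        obtain ⟨b, rfl⟩ := hb
        have hb0 : b ≠ 0 := by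
          rintro rfl
          rw [zero_pow hr.ne_zero, zero_smul] at hl
          have hu : IsUnit ((x : Matrix (Fin n) (Fin n) F) ^ r) := (Units.isUnit x).pow r
          rw [hl] at hu
          exact not_isUnit_zero hu
        have hx' : (b⁻¹ • (x : Matrix (Fin n) (Fin n) F)) ^ r = 1 := by
          rw [_root_.smul_pow, hl, smul_smul, inv_pow, inv_mul_cancel₀ (pow_ne_zero _ hb0),
            one_smul]
        obtain ⟨y, hy⟩ := IsUnit.of_pow_eq_one hx' hr.ne_zero
        have hxb : (x : Matrix (Fin n) (Fin n) F) = b • (y : Matrix (Fin n) (Fin n) F) := by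
          rw [hy, smul_smul, mul_inv_cancel₀ hb0, one_smul]
        refine ⟨y, ?_, by rw [hy]; exact hx', ?_⟩
        · rw [QuotientGroup.eq, Cfsg.Agent.S2577.mem_center_iff_scalar]
          refine ⟨b, ?_⟩
          rw [Units.val_mul, hxb, Matrix.mul_smul, ← Units.val_mul, inv_mul_cancel, Units.val_one]
        · intro c hc
          apply hns (b * c)
          rw [hxb, hc, smul_smul]
      · right
        exact ⟨x, l, rfl, hl, fun b hb' => hb ⟨b, hb'⟩⟩
    · rintro (⟨x, rfl, hx, hns⟩ | ⟨x, l, rfl, hx, hl⟩)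
      · rw [orderOf_mk_eq_prime_iff]
        exact ⟨⟨1, by rw [hx, one_smul]⟩, hns⟩
      · rw [orderOf_mk_eq_prime_iff]
        refine ⟨⟨l, hx⟩, fun c hc => ?_⟩
        apply hl c
        rw [hc, _root_.smul_pow, one_pow] at hx
        have h3 := congrFun (congrFun hx ⟨0, by omega⟩) ⟨0, by omega⟩
        simpa using h3
  have hdisj : ∀ g g' : GL (Fin n) F ⧸ Subgroup.center (GL (Fin n) F),
      PA F n r g → PB F n r g' → ¬ IsConj g g' := by
    rintro g g' ⟨x, rfl, hx, -⟩ ⟨y, l, rfl, hy, hl⟩ hc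
    obtain ⟨k, c, hc0, hk⟩ := Cfsg.Agent.S2577.pconj_of_isConj_mk _ _ hc
    have h1 := pow_scalar_of_pconj k c hk r 1 l (by rw [hx, one_smul]) hy
    apply hl (c⁻¹)
    rw [inv_pow]
    exact inv_eq_of_mul_eq_one_right h1.symm
  have h1 : Nat.card {C : ConjClasses (GL (Fin n) F ⧸ Subgroup.center (GL (Fin n) F)) //
        ∃ g : GL (Fin n) F ⧸ Subgroup.center (GL (Fin n) F), ConjClasses.mk g = C ∧ orderOf g = r}
      = Nat.card {C : ConjClasses (GL (Fin n) F ⧸ Subgroup.center (GL (Fin n) F)) //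
        ∃ g, ConjClasses.mk g = C ∧ (PA F n r g ∨ PB F n r g)} := by
    apply Nat.card_congr
    apply Equiv.subtypeEquivRight
    intro C
    constructor
    · rintro ⟨g, hg, h⟩
      exact ⟨g, hg, (hsplit g).mp h⟩
    · rintro ⟨g, hg, h⟩
      exact ⟨g, hg, (hsplit g).mpr h⟩
  rw [h1, card_classes_or _ _ hdisj, hA, hB]
  have hr1 := hr.one_lt
  split_ifs with hrn
  · rw [mul_one]
    omega
  · omega

end Cfsg.Agent.S2670
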