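import Cfsg.Statements.S2671
import Cfsg.Agent.H48.PrimeOrdU2

set_option autoImplicit false
open Cfsg

namespace Cfsg.Agent.S2671

/-- Number of conjugacy classes of elements of odd prime order r in the general unitary group GU_n(q), for r not dividing q(q + 1): let i be the multiplicative order of q modulo r, b = i if i is odd and b = i/2 if i is even, and s = (r − 1)/b. If i ≢ 2 (mod 4) the eigenvalue orbits pair off into dual pairs of totally isotropic blocks and there are C(⌊n/(2b)⌋ + s/2, s/2) − 1 classes; if i ≡ 2 (mod 4) each orbit gives a non-degenerate block of dimension i/2 and there are C(⌊2n/i⌋ + s, s) − 1 classes. -/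
theorem result {K : Type*} [Field K] [Fintype K] {p q n r i b s : ℕ} [Fact p.Prime] [CharP K p] (hK : Fintype.card K = q ^ 2) (hr : r.Prime) (hr2 : r ≠ 2) (hrp : r ≠ p) (hi : i = orderOf (q : ZMod r)) (hi2 : i ≠ 2) (hb : b = if Odd i then i else i / 2) (hs : s * b = r - 1) : Nat.card {C : ConjClasses ↥(Cfsg.GU n K q) // ∃ g : ↥(Cfsg.GU n K q), ConjClasses.mk g = C ∧ orderOf g = r} = if i % 4 = 2 then Nat.choose (2 * n / i + s) s - 1 else Nat.choose (n / (2 * b) + s / 2) (s / 2) - 1 := by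
  classical
  obtain ⟨σ, hσdef⟩ : ∃ σ : K →+* K, σ = Cfsg.Agent.H17.frobHom hK := ⟨_, rfl⟩
  have hσq : ∀ x, σ x = x ^ q := by
    intro x
    rw [hσdef, Cfsg.Agent.H17.frobHom_apply]
  have hb' : b = orderOf ((q ^ 2 : ℕ) : ZMod r) := by
    have h1 : ((q ^ 2 : ℕ) : ZMod r) = (q : ZMod r) ^ 2 := by push_cast; rfl
    rw [h1, orderOf_pow' _ (by norm_num : (2 : ℕ) ≠ 0), ← hi, hb]
    split_ifs with hodd
    · have h2 : Nat.gcd i 2 = 1 := Nat.coprime_two_right.mpr hodd
      rw [h2, Nat.div_one]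
    · have h2 : Nat.gcd i 2 = 2 := Nat.gcd_eq_right (Nat.not_odd_iff_even.mp hodd).two_dvd
      rw [h2]
  obtain ⟨Φ, hcard, hΦ, hdeg, hLΦ, hprod, hb0, hdvd, hmem⟩ :=
    Cfsg.Agent.H48.exists_cyclo_factors (F := K) (p := p) hK r b s hr hrp hb' hs
  obtain ⟨star, hstar, hinv, h4, h4'⟩ :=
    Cfsg.Agent.H48.exists_star_cyclo_u hK σ hσq p r i b hr hr2 hrp hi hb' Φ hΦ hdeg hLΦ hdvd hmem
  rw [Cfsg.Agent.H48.card_gu_classes_prime_order hK σ hσq p n r b hr hrp Φ hΦ hdeg hLΦ hprod hb0
    star hstar hinv]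
  by_cases hmod : i % 4 = 2
  · rw [if_pos hmod]
    have hid := h4 hmod
    have hib : i = 2 * b := by
      have hne : ¬ Odd i := by
        rw [Nat.odd_iff]
        omega
      rw [if_neg hne] at hb
      omega
    have e : {a : Φ → ℕ // (∀ P, a (star P) = a P) ∧ a ≠ 0 ∧ b * ∑ P, a P ≤ n} ≃
        {a : Φ → ℕ // a ≠ 0 ∧ ∑ P, a P ≤ n / b} :=
      Equiv.subtypeEquivRight (fun a => by
        rw [Nat.le_div_iff_mul_le hb0, mul_comm]
        constructor
        · intro h
          exact h.2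
        · intro h
          exact ⟨fun P => by rw [hid P], h⟩)
    rw [Nat.card_congr e, Cfsg.Agent.H48.card_sum_le_ne_zero, Fintype.card_coe, hcard, hib,
      Nat.mul_div_mul_left n b (by norm_num : 0 < 2)]
  · rw [if_neg hmod]
    obtain ⟨-, hpar, hcount⟩ :=
      Cfsg.Agent.H48.card_invariant_tuples star hinv (h4' hmod) b (b * (n / (2 * b))) hb0
    have hD1 : 2 * b * (n / (2 * b)) ≤ n := Nat.mul_div_le n (2 * b)
    have hD2 : n < 2 * b * (n / (2 * b) + 1) := Nat.lt_mul_div_succ n (by omega)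
    have e : {a : Φ → ℕ // (∀ P, a (star P) = a P) ∧ a ≠ 0 ∧ b * ∑ P, a P ≤ n} ≃
        {a : Φ → ℕ // (∀ P, a (star P) = a P) ∧ a ≠ 0 ∧
          b * ∑ P, a P ≤ 2 * (b * (n / (2 * b)))} :=
      Equiv.subtypeEquivRight (fun a => by
        constructor
        · rintro ⟨h1, h2, h3⟩
          refine ⟨h1, h2, ?_⟩
          obtain ⟨t, ht⟩ := hpar a h1
          rw [ht] at h3 ⊢
          have htD : t ≤ n / (2 * b) := by
            by_contra hcon
            have h5 : n / (2 * b) + 1 ≤ t := by omega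
            have h6 : 2 * b * (n / (2 * b) + 1) ≤ 2 * b * t := Nat.mul_le_mul_left _ h5
            have h7 : b * (t + t) = 2 * b * t := by ring
            omega
          have h8 : b * t ≤ b * (n / (2 * b)) := Nat.mul_le_mul_left _ htD
          have h7 : b * (t + t) = 2 * (b * t) := by ring
          omega
        · rintro ⟨h1, h2, h3⟩
          refine ⟨h1, h2, ?_⟩
          have h7 : 2 * (b * (n / (2 * b))) = 2 * b * (n / (2 * b)) := by ring
          omega)
    rw [Nat.card_congr e, hcount, Fintype.card_coe, hcard, Nat.mul_div_cancel_left _ hb0]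

end Cfsg.Agent.S2671
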