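import Cfsg.Statements.S2672
import Cfsg.Agent.H48.PGUPrime3

set_option autoImplicit false
open Cfsg

namespace Cfsg.Agent.S2672

open Cfsg.Agent.H48 Matrix

/-- Number of conjugacy classes of elements of odd prime order r in PGU_n(q) = GU_n(q)/scalars (n ≥ 3) when r divides q + 1: as in the linear case with q − 1 replaced by q + 1, the classes correspond to the rotation orbits on r-tuples of eigenvalue multiplicities summing to n with every entry < n, plus r − 1 further classes when r divides n; in all (C(n+r−1, r−1) − r − [r ∣ n])/r + r·[r ∣ n]. -/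
theorem result {K : Type*} [Field K] [Fintype K] {q n r : ℕ} (hK : Fintype.card K = q ^ 2) (hn : 3 ≤ n) (hr : r.Prime) (hr2 : r ≠ 2) (hrq : r ∣ q + 1) : Nat.card {C : ConjClasses (↥(Cfsg.GU n K q) ⧸ Subgroup.center ↥(Cfsg.GU n K q)) // ∃ g : ↥(Cfsg.GU n K q) ⧸ Subgroup.center ↥(Cfsg.GU n K q), ConjClasses.mk g = C ∧ orderOf g = r} = (Nat.choose (n + r - 1) (r - 1) - r - (if r ∣ n then 1 else 0)) / r + r * (if r ∣ n then 1 else 0) := by
  classical
  have hn2 : 2 ≤ n := by omega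
  haveI : Nonempty (Fin n) := ⟨⟨0, by omega⟩⟩
  haveI : Fact r.Prime := ⟨hr⟩
  have hA := card_typeA_gu (K := K) hK hn2 hr hrq
  have hB := card_typeB_gu (K := K) hK hn2 hr hr2 hrq
  obtain ⟨η, hη1, hηgen, hηK⟩ := exists_eta hK r hr hr2 hrq
  have hsplit : ∀ g : ↥(Cfsg.GU n K q) ⧸ Subgroup.center ↥(Cfsg.GU n K q),
      orderOf g = r ↔ (PAU K q n r g ∨ PBU K q n r g) := by
    intro g
    constructor
    · intro hg
      obtain ⟨x, rfl⟩ := QuotientGroup.mk_surjective g
      rw [gu_orderOf_mk_eq_prime_iff hK hn2] at hg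
      obtain ⟨⟨l, hl⟩, hns⟩ := hg
      have hl1 : l ^ (q + 1) = 1 := gu_scalar_pow (by omega) (x ^ r) l (by rw [guMat_pow, hl])
      obtain ⟨k, hk⟩ := hηgen l hl1
      by_cases hrk : r ∣ k
      · left
        obtain ⟨t, ht⟩ := hrk
        have hb1 : ((η ^ t)⁻¹) ^ (q + 1) = 1 := by
          rw [inv_pow, ← pow_mul, mul_comm, pow_mul, hη1, one_pow, inv_one]
        have hbr : (η ^ t) ^ r = l := by rw [← pow_mul, mul_comm, ← ht, hk]
        have hη0 : η ≠ 0 := by
          rintro rfl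
          rw [zero_pow (by omega)] at hη1
          exact zero_ne_one hη1
        have hb0 : η ^ t ≠ 0 := pow_ne_zero _ hη0
        obtain ⟨s, hs1, hs2⟩ := Cfsg.Agent.H17.gu_scalar hK n ((η ^ t)⁻¹) hb1
        have hsx : guMat (s * x) = (η ^ t)⁻¹ • guMat x := by
          rw [guMat_mul]
          show (((s : GL (Fin n) K) : Matrix (Fin n) (Fin n) K)) * guMat x = _
          rw [hs2, Matrix.smul_mul, one_mul]
        refine ⟨s * x, ?_, ?_, ?_⟩
        · rw [QuotientGroup.mk_mul, (QuotientGroup.eq_one_iff s).mpr hs1, one_mul]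
        · rw [hsx, _root_.smul_pow, hl, smul_smul, inv_pow, hbr,
            inv_mul_cancel₀ (by rw [← hbr]; exact pow_ne_zero _ hb0), one_smul]
        · intro c hc
          apply hns (η ^ t * c)
          rw [hsx] at hc
          have h5 : guMat x = η ^ t • ((η ^ t)⁻¹ • guMat x) := by
            rw [smul_smul, mul_inv_cancel₀ hb0, one_smul]
          rw [h5, hc, smul_smul]
      · right
        refine ⟨x, l, rfl, hl, ?_⟩
        intro b hb
        apply hrk
        apply hηK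
        exact ⟨b, by rw [hb, hk]⟩
    · rintro (⟨x, rfl, hx, hns⟩ | ⟨x, l, rfl, hx, hl⟩)
      · rw [gu_orderOf_mk_eq_prime_iff hK hn2]
        exact ⟨⟨1, by rw [hx, one_smul]⟩, hns⟩
      · rw [gu_orderOf_mk_eq_prime_iff hK hn2]
        refine ⟨⟨l, hx⟩, fun c hc => ?_⟩
        apply hl c
        rw [hc, _root_.smul_pow, one_pow] at hx
        have h3 := congrFun (congrFun hx ⟨0, by omega⟩) ⟨0, by omega⟩
        simpa using h3
  have hdisj : ∀ g g' : ↥(Cfsg.GU n K q) ⧸ Subgroup.center ↥(Cfsg.GU n K q),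
      PAU K q n r g → PBU K q n r g' → ¬ IsConj g g' := by
    rintro g g' ⟨x, rfl, hx, -⟩ ⟨y, l, rfl, hy, hl⟩ hc
    rw [gu_isConj_mk_iff hK hn2] at hc
    obtain ⟨k, c, hc0, hk⟩ := hc
    have h1 := pow_scalar_of_pconj k c hk r 1 l (by rw [hx, one_smul]) hy
    apply hl (c⁻¹)
    rw [inv_pow]
    exact inv_eq_of_mul_eq_one_right h1.symm
  have h1 : Nat.card {C : ConjClasses (↥(Cfsg.GU n K q) ⧸ Subgroup.center ↥(Cfsg.GU n K q)) //
        ∃ g : ↥(Cfsg.GU n K q) ⧸ Subgroup.center ↥(Cfsg.GU n K q),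
          ConjClasses.mk g = C ∧ orderOf g = r}
      = Nat.card {C : ConjClasses (↥(Cfsg.GU n K q) ⧸ Subgroup.center ↥(Cfsg.GU n K q)) //
        ∃ g, ConjClasses.mk g = C ∧ (PAU K q n r g ∨ PBU K q n r g)} := by
    apply Nat.card_congr
    apply Equiv.subtypeEquivRight
    intro C
    constructor
    · rintro ⟨g, hg, h⟩
      exact ⟨g, hg, (hsplit g).mp h⟩
    · rintro ⟨g, hg, h⟩
      exact ⟨g, hg, (hsplit g).mpr h⟩
  rw [h1, card_classes_or _ _ hdisj, hA, hB]
  have hr1 := hr.one_lt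
  split_ifs with hrn
  · rw [mul_one]
    omega
  · omega

end Cfsg.Agent.S2672
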