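import Cfsg.Statements.S2673
import Cfsg.Agent.H48.OrthCount

set_option autoImplicit false
open Cfsg

namespace Cfsg.Agent.S2673

/-- Number of conjugacy classes of elements of odd prime order r ≠ p in the orthogonal group O_(2m+1)(q) of x_0² + Σ x_j y_j, q odd: with i the multiplicative order of q mod r and t = (r − 1)/i, there are C(⌊m/i⌋ + t/2, t/2) − 1 classes if i is odd (dual pairs of totally singular i-blocks) and C(⌊(2m+1)/i⌋ + t, t) − 1 if i is even (elliptic i-blocks). -/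
theorem result {F : Type*} [Field F] [Fintype F] {p q : ℕ} [Fact p.Prime] [CharP F p] (hF : Fintype.card F = q) (hq : Odd q) (m r i t : ℕ) (hr : r.Prime) (hr2 : r ≠ 2) (hrp : r ≠ p) (hi : i = orderOf (q : ZMod r)) (ht : t * i = r - 1) : Nat.card {C : ConjClasses ↥(Cfsg.isometryGroup F (Cfsg.quadFormOdd m F)) // ∃ g : ↥(Cfsg.isometryGroup F (Cfsg.quadFormOdd m F)), ConjClasses.mk g = C ∧ orderOf g = r} = if Odd i then Nat.choose (m / i + t / 2) (t / 2) - 1 else Nat.choose ((2 * m + 1) / i + t) t - 1 := by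
  classical
  subst hF
  have hp : p.Prime := Fact.out
  have h2F : (2 : F) ≠ 0 := by
    intro h
    have h3 : ((2 : ℕ) : F) = 0 := by
      push_cast
      exact h
    have h4 := (CharP.cast_eq_zero_iff F p 2).mp h3
    have h5 := (Nat.prime_dvd_prime_iff_eq hp Nat.prime_two).mp h4
    obtain ⟨k, -, hk⟩ := FiniteField.card F p
    rw [hk, h5] at hq
    have h6 : Even (2 ^ (k : ℕ)) := (Nat.even_pow' k.ne_zero).mpr even_two
    exact (Nat.not_odd_iff_even.mpr h6) hq
  obtain ⟨Φ, hcard, hΦ, hdeg, hLΦ, hprod, hi0, hdvd, hmem⟩ :=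
    Cfsg.Agent.H48.exists_cyclo_factors (F := F) rfl r i t hr hrp hi ht
  obtain ⟨star, hstar, hinv, hev, hodd⟩ :=
    Cfsg.Agent.H48.exists_star_cyclo rfl r i hr hr2 hi hi0 Φ hΦ hdeg hLΦ hdvd hmem
  have : Fact r.Prime := ⟨hr⟩
  have hcι : Fintype.card (Unit ⊕ (Fin m ⊕ Fin m)) = 2 * m + 1 := by
    simp
    omega
  have h1 := Cfsg.Agent.H48.card_orth_classes_prime_order p (Cfsg.Agent.H49.QOdd m F)
    (Cfsg.Agent.H49.QOdd_nondeg m h2F) r i hr hr2 hrp Φ hΦ hdeg hLΦ hprod hi0 star hstar hinv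
  rw [hcι] at h1
  refine Eq.trans h1 ?_
  have hcΦ : Fintype.card Φ = t := by rw [Fintype.card_coe, hcard]
  by_cases hio : Odd i
  · rw [if_pos hio]
    obtain ⟨-, hpar, hcount⟩ :=
      Cfsg.Agent.H48.card_invariant_tuples star hinv (hodd hio) i m hi0
    rw [hcΦ] at hcount
    rw [← hcount]
    apply Nat.card_congr
    apply Equiv.subtypeEquivRight
    intro b
    constructor
    · rintro ⟨h1, h2, h3, -⟩
      refine ⟨h1, h2, ?_⟩
      obtain ⟨s, hs⟩ := (hpar b h1).mul_left i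
      omega
    · rintro ⟨h1, h2, h3⟩
      have h3' : i * ∑ P, b P ≤ 2 * m + 1 := by omega
      exact ⟨h1, h2, h3', Cfsg.Agent.H48.orthReal_odd h2F p m r i hr hr2 hrp Φ hΦ hdeg hLΦ hprod
        hi0 star hstar hinv b h1 h2 ((hpar b h1).mul_left i) h3'⟩
  · rw [if_neg hio]
    have hie : Even i := Nat.not_odd_iff_even.mp hio
    have hid := hev hie
    rw [← hcΦ, ← Cfsg.Agent.H48.card_sum_le_ne_zero Φ ((2 * m + 1) / i)]
    apply Nat.card_congr
    apply Equiv.subtypeEquivRight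
    intro b
    rw [Nat.le_div_iff_mul_le hi0]
    constructor
    · rintro ⟨h1, h2, h3, -⟩
      exact ⟨h2, by rw [mul_comm]; exact h3⟩
    · rintro ⟨h2, h3⟩
      rw [mul_comm] at h3
      have h1 : ∀ P, b (star P) = b P := fun P => by rw [hid P]
      exact ⟨h1, h2, h3, Cfsg.Agent.H48.orthReal_odd h2F p m r i hr hr2 hrp Φ hΦ hdeg hLΦ hprod
        hi0 star hstar hinv b h1 h2 (hie.mul_right _) h3⟩

end Cfsg.Agent.S2673
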