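import Cfsg.Statements.S2674
import Cfsg.Agent.H48.OrthCount

set_option autoImplicit false
open Cfsg

namespace Cfsg.Agent.S2674

/-- Number of conjugacy classes of elements of odd prime order r ≠ p in the orthogonal group O⁺_2m(q) of Σ x_j y_j (m ≥ 1): with i the multiplicative order of q mod r and t = (r − 1)/i — if i is odd, C(⌊m/i⌋ + t/2, t/2) − 1; if i is even, C(⌊2m/i⌋ + t, t) − 1 minus, when i divides 2m with odd quotient, the C(2m/i + t − 1, t − 1) tuples using the whole space (an odd number of elliptic i-blocks fills an elliptic, not a hyperbolic, space). -/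
theorem result {F : Type*} [Field F] [Fintype F] {p q : ℕ} [Fact p.Prime] [CharP F p] (hF : Fintype.card F = q) (m r i t : ℕ) (hm : 1 ≤ m) (hr : r.Prime) (hr2 : r ≠ 2) (hrp : r ≠ p) (hi : i = orderOf (q : ZMod r)) (ht : t * i = r - 1) : Nat.card {C : ConjClasses ↥(Cfsg.isometryGroup F (Cfsg.quadFormPlus m F)) // ∃ g : ↥(Cfsg.isometryGroup F (Cfsg.quadFormPlus m F)), ConjClasses.mk g = C ∧ orderOf g = r} = if Odd i then Nat.choose (m / i + t / 2) (t / 2) - 1 else Nat.choose (2 * m / i + t) t - 1 - (if i ∣ 2 * m ∧ Odd (2 * m / i) then Nat.choose (2 * m / i + t - 1) (t - 1) else 0) := by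
  classical
  subst hF
  obtain ⟨Φ, hcard, hΦ, hdeg, hLΦ, hprod, hi0, hdvd, hmem⟩ :=
    Cfsg.Agent.H48.exists_cyclo_factors (F := F) rfl r i t hr hrp hi ht
  obtain ⟨star, hstar, hinv, hev, hodd⟩ :=
    Cfsg.Agent.H48.exists_star_cyclo rfl r i hr hr2 hi hi0 Φ hΦ hdeg hLΦ hdvd hmem
  have : Fact r.Prime := ⟨hr⟩
  have hcι : Fintype.card (Fin m ⊕ Fin m) = 2 * m := by
    simp
    ring
  have h1 := Cfsg.Agent.H48.card_orth_classes_prime_order p (Cfsg.Agent.H49.QP m F)
    (Cfsg.Agent.H49.QP_nondeg m F) r i hr hr2 hrp Φ hΦ hdeg hLΦ hprod hi0 star hstar hinv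
  rw [hcι] at h1
  refine Eq.trans h1 ?_
  have ht0 : 0 < t := by
    rcases Nat.eq_zero_or_pos t with h | h
    · rw [h, zero_mul] at ht
      have := hr.two_le
      omega
    · exact h
  have hcΦ : Fintype.card Φ = t := by rw [Fintype.card_coe, hcard]
  by_cases hio : Odd i
  · rw [if_pos hio]
    obtain ⟨-, hpar, hcount⟩ :=
      Cfsg.Agent.H48.card_invariant_tuples star hinv (hodd hio) i m hi0
    rw [hcΦ] at hcount
    rw [← hcount]
    apply Nat.card_congr
    apply Equiv.subtypeEquivRight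
    intro a
    constructor
    · rintro ⟨h1, h2, h3, -⟩
      exact ⟨h1, h2, h3⟩
    · rintro ⟨h1, h2, h3⟩
      refine ⟨h1, h2, h3, ?_⟩
      apply (Cfsg.Agent.H48.orthReal_plus_iff p m r i hr hr2 hrp Φ hΦ hdeg hLΦ hprod hi0 star
        hstar hinv a h1 h2 ((hpar a h1).mul_left i) h3).mpr
      intro hfull
      have hd : i ∣ 2 * m := ⟨_, hfull.symm⟩
      have hd' : i ∣ m := Nat.Coprime.dvd_of_dvd_mul_left (Nat.coprime_two_right.mpr hio) hd
      rw [hi] at hd'
      exact orderOf_dvd_iff_pow_eq_one.mp hd'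
  · rw [if_neg hio]
    have hie : Even i := Nat.not_odd_iff_even.mp hio
    have hid := hev hie
    have hc := Cfsg.Agent.H48.card_tuples_excl Φ i (2 * m) hi0 (by omega) (by rw [hcΦ]; exact ht0)
      (¬ (((Fintype.card F : ℕ) : ZMod r) ^ m = 1))
    rw [hcΦ] at hc
    have hpow : ∀ K : ℕ, i * K = 2 * m →
        (((Fintype.card F : ℕ) : ZMod r) ^ m = 1 ↔ Even K) := by
      intro K hK
      rw [Cfsg.Agent.H48.pow_of_even_order r _ i hi hi0 hie m K hK]
      constructor
      · intro h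
        by_contra hodd
        rw [Nat.not_even_iff_odd] at hodd
        rw [hodd.neg_one_pow] at h
        exact Cfsg.Agent.H48.one_ne_neg_one_zmod r hr hr2 h.symm
      · intro h
        exact h.neg_one_pow
    have hgoal : (if i ∣ 2 * m ∧ ¬ (((Fintype.card F : ℕ) : ZMod r) ^ m = 1)
          then (2 * m / i + t - 1).choose (t - 1) else 0)
        = (if i ∣ 2 * m ∧ Odd (2 * m / i) then (2 * m / i + t - 1).choose (t - 1) else 0) := by
      by_cases hb : i ∣ 2 * m ∧ Odd (2 * m / i)
      · rw [if_pos hb, if_pos]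
        refine ⟨hb.1, ?_⟩
        rw [hpow (2 * m / i) (Nat.mul_div_cancel' hb.1), Nat.not_even_iff_odd]
        exact hb.2
      · rw [if_neg hb, if_neg]
        rintro ⟨hd, hne⟩
        apply hb
        refine ⟨hd, ?_⟩
        rw [hpow (2 * m / i) (Nat.mul_div_cancel' hd), Nat.not_even_iff_odd] at hne
        exact hne
    rw [hgoal] at hc
    rw [← hc]
    apply Nat.card_congr
    apply Equiv.subtypeEquivRight
    intro a
    constructor
    · rintro ⟨h1, h2, h3, h4⟩
      refine ⟨h2, h3, ?_⟩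
      intro hfull
      rw [not_not]
      exact (Cfsg.Agent.H48.orthReal_plus_iff p m r i hr hr2 hrp Φ hΦ hdeg hLΦ hprod hi0 star
        hstar hinv a h1 h2 (hie.mul_right _) h3).mp h4 hfull
    · rintro ⟨h2, h3, h4⟩
      have h1 : ∀ P, a (star P) = a P := fun P => by rw [hid P]
      refine ⟨h1, h2, h3, ?_⟩
      apply (Cfsg.Agent.H48.orthReal_plus_iff p m r i hr hr2 hrp Φ hΦ hdeg hLΦ hprod hi0 star
        hstar hinv a h1 h2 (hie.mul_right _) h3).mpr
      intro hfull
      exact not_not.mp (h4 hfull)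

end Cfsg.Agent.S2674
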