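import Cfsg.Statements.S2675
import Cfsg.Agent.H48.OrthCount

set_option autoImplicit false
open Cfsg

namespace Cfsg.Agent.S2675

/-- Number of conjugacy classes of elements of odd prime order r ≠ p in the orthogonal group O⁻_2m(q) of an elliptic form Σ_(j<m−1) x_j y_j + z₁² + a z₁z₂ + c z₂² (binary part anisotropic, m ≥ 1): with i the multiplicative order of q mod r and t = (r − 1)/i — if i is odd, C(⌊m/i⌋ + t/2, t/2) − 1 minus, when i divides m, the C(m/i + t/2 − 1, t/2 − 1) tuples filling the whole space (dual pairs of totally singular blocks fill a hyperbolic space); if i is even, C(⌊2m/i⌋ + t, t) − 1 minus, when i divides 2m with even quotient, the C(2m/i + t − 1, t − 1) tuples filling the whole space with an even number of elliptic blocks. -/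
theorem result {F : Type*} [Field F] [Fintype F] {p q : ℕ} [Fact p.Prime] [CharP F p] (hF : Fintype.card F = q) (m r i t : ℕ) (hm : 1 ≤ m) (a c : F) (hac : ∀ z₁ z₂ : F, z₁ ^ 2 + a * z₁ * z₂ + c * z₂ ^ 2 = 0 → z₁ = 0 ∧ z₂ = 0) (hr : r.Prime) (hr2 : r ≠ 2) (hrp : r ≠ p) (hi : i = orderOf (q : ZMod r)) (ht : t * i = r - 1) : Nat.card {C : ConjClasses ↥(Cfsg.isometryGroup F (Cfsg.quadFormMinus (m - 1) F a c)) // ∃ g : ↥(Cfsg.isometryGroup F (Cfsg.quadFormMinus (m - 1) F a c)), ConjClasses.mk g = C ∧ orderOf g = r} = if Odd i then Nat.choose (m / i + t / 2) (t / 2) - 1 - (if i ∣ m then Nat.choose (m / i + t / 2 - 1) (t / 2 - 1) else 0) else Nat.choose (2 * m / i + t) t - 1 - (if i ∣ 2 * m ∧ Even (2 * m / i) then Nat.choose (2 * m / i + t - 1) (t - 1) else 0) := by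
  classical
  subst hF
  obtain ⟨Φ, hcard, hΦ, hdeg, hLΦ, hprod, hi0, hdvd, hmem⟩ :=
    Cfsg.Agent.H48.exists_cyclo_factors (F := F) rfl r i t hr hrp hi ht
  obtain ⟨star, hstar, hinv, hev, hodd⟩ :=
    Cfsg.Agent.H48.exists_star_cyclo rfl r i hr hr2 hi hi0 Φ hΦ hdeg hLΦ hdvd hmem
  have : Fact r.Prime := ⟨hr⟩
  have hm1 : m - 1 + 1 = m := by omega
  have hcι : Fintype.card ((Fin (m - 1) ⊕ Fin (m - 1)) ⊕ Fin 2) = 2 * m := by
    simp
    omega
  have h1 := Cfsg.Agent.H48.card_orth_classes_prime_order p (Cfsg.Agent.H49.QMin (m - 1) F a c)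
    (Cfsg.Agent.H49.QMin_nondeg (m - 1) a c (Cfsg.Agent.H49.disc_ne_zero_of_aniso a c hac))
    r i hr hr2 hrp Φ hΦ hdeg hLΦ hprod hi0 star hstar hinv
  rw [hcι] at h1
  refine Eq.trans h1 ?_
  have hreal : ∀ b : Φ → ℕ, (∀ P, b (star P) = b P) → b ≠ 0 → Even (i * ∑ P, b P) →
      i * ∑ P, b P ≤ 2 * m →
      (Cfsg.Agent.H48.OrthReal (Cfsg.quadFormMinus (m - 1) F a c) r Φ i b ↔
        (i * ∑ P, b P = 2 * m → ((Fintype.card F : ℕ) : ZMod r) ^ m = -1)) := by
    intro b hb1 hb2 hb3 hb4
    have h := Cfsg.Agent.H48.orthReal_minus_iff p (m - 1) a c hac r i hr hr2 hrp Φ hΦ hdeg hLΦ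
      hprod hi0 star hstar hinv b hb1 hb2 hb3 (by rw [hm1]; exact hb4)
    rw [hm1] at h
    exact h
  have ht0 : 0 < t := by
    rcases Nat.eq_zero_or_pos t with h | h
    · rw [h, zero_mul] at ht
      have := hr.two_le
      omega
    · exact h
  have hcΦ : Fintype.card Φ = t := by rw [Fintype.card_coe, hcard]
  by_cases hio : Odd i
  · rw [if_pos hio]
    obtain ⟨hteven, hpar, hcount⟩ :=
      Cfsg.Agent.H48.card_invariant_tuples star hinv (hodd hio) i (m - 1) hi0
    rw [hcΦ] at hcount hteven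
    have ht2 : 1 ≤ t / 2 := by
      obtain ⟨s, hs⟩ := hteven
      omega
    have hsucc := Nat.succ_div (a := m - 1) (b := i)
    rw [hm1] at hsucc
    have hnum : ((m - 1) / i + t / 2).choose (t / 2) - 1
        = (m / i + t / 2).choose (t / 2) - 1
          - (if i ∣ m then (m / i + t / 2 - 1).choose (t / 2 - 1) else 0) := by
      by_cases hd : i ∣ m
      · rw [if_pos hd] at hsucc
        rw [if_pos hd]
        have e : (m - 1) / i = m / i - 1 := by rw [hsucc, Nat.add_sub_cancel]
        rw [e]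
        exact Cfsg.Agent.H48.choose_pascal_sub (m / i) (t / 2)
          (Nat.div_pos (Nat.le_of_dvd (by omega) hd) hi0) ht2
      · rw [if_neg hd] at hsucc
        rw [if_neg hd, Nat.sub_zero, hsucc, Nat.add_zero]
    rw [← hnum, ← hcount]
    apply Nat.card_congr
    apply Equiv.subtypeEquivRight
    intro b
    constructor
    · rintro ⟨h1, h2, h3, h4⟩
      refine ⟨h1, h2, ?_⟩
      have hne : i * ∑ P, b P ≠ 2 * m := by
        intro hfull
        exact Cfsg.Agent.H48.pow_ne_neg_one_of_odd_order r hr2 _ i hi hio m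
          ((hreal b h1 h2 ((hpar b h1).mul_left i) h3).mp h4 hfull)
      obtain ⟨s, hs⟩ := (hpar b h1).mul_left i
      omega
    · rintro ⟨h1, h2, h3⟩
      have h3' : i * ∑ P, b P ≤ 2 * m := by omega
      refine ⟨h1, h2, h3', ?_⟩
      apply (hreal b h1 h2 ((hpar b h1).mul_left i) h3').mpr
      intro hfull
      omega
  · rw [if_neg hio]
    have hie : Even i := Nat.not_odd_iff_even.mp hio
    have hid := hev hie
    have hc := Cfsg.Agent.H48.card_tuples_excl Φ i (2 * m) hi0 (by omega) (by rw [hcΦ]; exact ht0)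
      (¬ (((Fintype.card F : ℕ) : ZMod r) ^ m = -1))
    rw [hcΦ] at hc
    have hpow : ∀ K : ℕ, i * K = 2 * m →
        (((Fintype.card F : ℕ) : ZMod r) ^ m = -1 ↔ Odd K) := by
      intro K hK
      rw [Cfsg.Agent.H48.pow_of_even_order r _ i hi hi0 hie m K hK]
      constructor
      · intro h
        by_contra hodd
        rw [Nat.not_odd_iff_even] at hodd
        rw [hodd.neg_one_pow] at h
        exact Cfsg.Agent.H48.one_ne_neg_one_zmod r hr hr2 h
      · intro h
        exact h.neg_one_pow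
    have hgoal : (if i ∣ 2 * m ∧ ¬ (((Fintype.card F : ℕ) : ZMod r) ^ m = -1)
          then (2 * m / i + t - 1).choose (t - 1) else 0)
        = (if i ∣ 2 * m ∧ Even (2 * m / i) then (2 * m / i + t - 1).choose (t - 1) else 0) := by
      by_cases hb : i ∣ 2 * m ∧ Even (2 * m / i)
      · rw [if_pos hb, if_pos]
        refine ⟨hb.1, ?_⟩
        rw [hpow (2 * m / i) (Nat.mul_div_cancel' hb.1), Nat.not_odd_iff_even]
        exact hb.2
      · rw [if_neg hb, if_neg]
        rintro ⟨hd, hne⟩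
        apply hb
        refine ⟨hd, ?_⟩
        rw [hpow (2 * m / i) (Nat.mul_div_cancel' hd), Nat.not_odd_iff_even] at hne
        exact hne
    rw [hgoal] at hc
    rw [← hc]
    apply Nat.card_congr
    apply Equiv.subtypeEquivRight
    intro b
    constructor
    · rintro ⟨h1, h2, h3, h4⟩
      refine ⟨h2, h3, ?_⟩
      intro hfull
      rw [not_not]
      exact (hreal b h1 h2 (hie.mul_right _) h3).mp h4 hfull
    · rintro ⟨h2, h3, h4⟩
      have h1 : ∀ P, b (star P) = b P := fun P => by rw [hid P]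
      refine ⟨h1, h2, h3, ?_⟩
      apply (hreal b h1 h2 (hie.mul_right _) h3).mpr
      intro hfull
      exact not_not.mp (h4 hfull)

end Cfsg.Agent.S2675
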