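import Cfsg.Statements.S2677
import Cfsg.Agent.H50.GUFix
import Cfsg.Agent.S0277

set_option autoImplicit false
open Cfsg

namespace Cfsg.Agent.S2677

/-- Centraliser of a field automorphism of odd prime order in PGU_n(q): let q = q₀^r with r an odd prime, K the field with q² elements and σ a field automorphism of K of order r (fixed field of order q₀²). The elements g of GU_n(q) whose entrywise image under σ is a scalar multiple of g — those whose coset modulo the q + 1 unitary scalars is fixed by σ — number (q + 1)/(q₀ + 1) · |GU_n(q₀)|; equivalently the centraliser in PGU_n(q) of the induced automorphism has the order of PGU_n(q₀). -/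
theorem result {K : Type*} [Field K] [Fintype K] {q₀ q r n : ℕ} (hr : r.Prime) (hr2 : r ≠ 2) (hn : 1 ≤ n) (hq : q = q₀ ^ r) (hK : Fintype.card K = q ^ 2) (σ : K ≃+* K) (hσ : orderOf σ = r) : (Nat.card {g : ↥(Cfsg.GU n K q) // ∃ c : K, c ≠ 0 ∧ ((g : GL (Fin n) K) : Matrix (Fin n) (Fin n) K).map σ = c • ((g : GL (Fin n) K) : Matrix (Fin n) (Fin n) K)} : ℤ) = ((q + 1) / (q₀ + 1) : ℕ) * ((q₀ : ℤ) ^ (n * (n - 1) / 2) * ∏ i : Fin n, ((q₀ : ℤ) ^ ((i : ℕ) + 1) - (-1) ^ ((i : ℕ) + 1))) := by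
  classical
  have hodd : Odd r := hr.odd_of_ne_two hr2
  let _ : Fintype ↥(H50.GUFix.fixK σ) := Fintype.ofFinite _
  have hK' : Fintype.card K = (q₀ ^ r) ^ 2 := by rw [← hq]; exact hK
  have hK₀ : Fintype.card ↥(H50.GUFix.fixK σ) = q₀ ^ 2 :=
    H50.GUFix.card_fixK σ hr.ne_zero hσ hK'
  have hq₀ : 2 ≤ q₀ := H7.two_le_of_card_sq hK₀
  have hmain := H50.GUFix.card_main hodd hn hq hK σ hσ
  have hGU := S0277.result hK₀ n
  have hdvd : q₀ + 1 ∣ q + 1 := by
    have := Odd.nat_add_dvd_pow_add_pow q₀ 1 hodd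
    rw [one_pow, ← hq] at this
    exact this
  obtain ⟨m, hm⟩ := hdvd
  have hdiv : (q + 1) / (q₀ + 1) = m := by
    rw [hm]; exact Nat.mul_div_cancel_left m (by omega)
  rw [hdiv]
  rw [hm, hGU] at hmain
  have h1 : Nat.card {g : ↥(Cfsg.GU n K q) // ∃ c : K, c ≠ 0 ∧ ((g : GL (Fin n) K) : Matrix (Fin n) (Fin n) K).map σ = c • ((g : GL (Fin n) K) : Matrix (Fin n) (Fin n) K)} = m * (q₀ ^ (n * (n - 1) / 2) * ∏ i ∈ Finset.range n, (if Even i then q₀ ^ (i + 1) + 1 else q₀ ^ (i + 1) - 1)) := by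
    have h2 : (q₀ + 1) * m * (q₀ ^ (n * (n - 1) / 2) * ∏ i ∈ Finset.range n, (if Even i then q₀ ^ (i + 1) + 1 else q₀ ^ (i + 1) - 1)) = (m * (q₀ ^ (n * (n - 1) / 2) * ∏ i ∈ Finset.range n, (if Even i then q₀ ^ (i + 1) + 1 else q₀ ^ (i + 1) - 1))) * (q₀ + 1) := by ring
    rw [h2] at hmain
    exact Nat.eq_of_mul_eq_mul_right (by omega) hmain
  rw [h1]
  push_cast
  congr 2
  rw [Fin.prod_univ_eq_prod_range (fun i => (q₀ : ℤ) ^ (i + 1) - (-1) ^ (i + 1)) n]
  apply Finset.prod_congr rfl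
  intro i _
  have hpos : 1 ≤ q₀ ^ (i + 1) := Nat.one_le_pow _ _ (by omega)
  split_ifs with he
  · have : (-1 : ℤ) ^ (i + 1) = -1 := Odd.neg_one_pow (Even.add_one he)
    rw [this]; push_cast; ring
  · have ho : Odd i := Nat.not_even_iff_odd.mp he
    have : (-1 : ℤ) ^ (i + 1) = 1 := Even.neg_one_pow (Odd.add_one ho)
    rw [this]; push_cast [hpos]; ring

end Cfsg.Agent.S2677
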