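-- Statement S2678 (Sp_2a(q²) embeds in Sp_4a(q)).
import Cfsg.Statements.S2678
import Cfsg.Agent.H50.SpExt

set_option autoImplicit false
open scoped MatrixGroups
open Cfsg

namespace Cfsg.Agent.S2678

/-- Field-extension embedding of symplectic groups: for a field K with q² elements and a field F with q elements there is an injective homomorphism Sp_2a(K) → Sp_4a(F). -/
theorem result {K F : Type*} [Field K] [Fintype K] [Field F] [Fintype F] {q : ℕ} (hK : Fintype.card K = q ^ 2) (hF : Fintype.card F = q) (a : ℕ) : ∃ φ : ↥(Matrix.symplecticGroup (Fin a) K) →* ↥(Matrix.symplecticGroup (Fin (2 * a)) F), Function.Injective φ := by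
  classical
  -- an embedding `F → K`
  obtain ⟨p, hp⟩ := CharP.exists F
  haveI : Fact p.Prime := ⟨CharP.char_is_prime F p⟩
  let E := FiniteField.Extension F p 2
  letI : Fintype E := Fintype.ofFinite E
  have hcardE : Fintype.card E = q ^ 2 := by
    rw [Fintype.card_eq_nat_card, FiniteField.natCard_extension, ← Fintype.card_eq_nat_card, hF]
  let ψ : E ≃+* K := FiniteField.ringEquivOfCardEq (hcardE.trans hK.symm)
  letI : Algebra F K := ((ψ : E →+* K).comp (algebraMap F E)).toAlgebra
  have hq : 2 ≤ q := by rw [← hF]; exact Fintype.one_lt_card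
  have hrank : Module.finrank F K = 2 := by
    have h := Module.card_eq_pow_finrank (K := F) (V := K)
    rw [hK, hF] at h
    exact (Nat.pow_right_injective hq h).symm
  let b : Module.Basis (Fin 2) F K := Module.finBasisOfFinrankEq F K hrank
  let e : Fin a × Fin 2 ≃ Fin (2 * a) := (Equiv.prodComm _ _).trans finProdFinEquiv
  refine ⟨(H50.SpExt.spReindex e).comp (H50.SpExt.spHom b (Fin a)), ?_⟩
  exact (H50.SpExt.spReindex_injective e).comp (H50.SpExt.spHom_injective b (Fin a))

end Cfsg.Agent.S2678
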