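-- Statement S2679 (O⁻_2m(q) embeds in O⁺_2m(q²)).
import Cfsg.Statements.S2679
import Cfsg.Agent.H50.OMinus
import Cfsg.Agent.H50.QuadExt

set_option autoImplicit false
open scoped MatrixGroups
open Cfsg

namespace Cfsg.Agent.S2679

/-- An elliptic orthogonal group embeds in the hyperbolic orthogonal group of the same dimension over the quadratic extension: for a field F with q elements and a field K with q² elements there is an injective homomorphism from O⁻_2m(F) (isometries of Σ_(j<m−1) x_j y_j + z₁² + a z₁z₂ + c z₂², binary part anisotropic) to O⁺_2m(K) (isometries of Σ_(j<m) x_j y_j over K). -/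
theorem result {F K : Type*} [Field F] [Fintype F] [Field K] [Fintype K] {q : ℕ} (hF : Fintype.card F = q) (hK : Fintype.card K = q ^ 2) {m : ℕ} (hm : 1 ≤ m) (a c : F) (hac : ∀ z₁ z₂ : F, z₁ ^ 2 + a * z₁ * z₂ + c * z₂ ^ 2 = 0 → z₁ = 0 ∧ z₂ = 0) : ∃ φ : ↥(Cfsg.isometryGroup F (Cfsg.quadFormMinus (m - 1) F a c)) →* ↥(Cfsg.isometryGroup K (Cfsg.quadFormPlus m K)), Function.Injective φ := by
  obtain ⟨n, rfl⟩ : ∃ n, m = n + 1 := ⟨m - 1, by omega⟩
  obtain ⟨φ, α, β, hαβ, ha, hc⟩ := H50.QuadExt.exists_roots hF hK a c hac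
  exact H50.OMinus.exists_hom φ n a c α β hαβ ha hc

end Cfsg.Agent.S2679
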