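import Cfsg.Statements.S2694
import Cfsg.Agent.H49.AutInst

set_option autoImplicit false
open Cfsg

namespace Cfsg.Agent.S2694

/-- For m ≥ 3 and a finite field F of odd order, the automorphism group of the orthogonal group Ω_{2m+1}(F) (realised as PΩ of the form x₀² + Σ xᵢ yᵢ, whose centre is trivial) is generated by the automorphisms induced by the semisimilarities v ↦ g σ(v) of the form (the image of the projective semisimilarity group); there are no graph or graph-field automorphisms. -/
theorem result {F : Type*} [Field F] [Fintype F] (hodd : Odd (Fintype.card F)) {m : ℕ} (hm : 3 ≤ m) :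
    Cfsg.gammaPOmega F (Cfsg.quadFormOdd m F) = ⊤ := by
  exact Cfsg.Agent.H49.gamma_top_odd hodd hm

end Cfsg.Agent.S2694
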