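import Cfsg.Statements.S2700
import Cfsg.Agent.H50.GraphAutOdd2

set_option autoImplicit false

open Cfsg

namespace Cfsg.Agent.S2700

open Cfsg.Agent.H50.GraphAut Cfsg.Agent in
/-- Let T = PSL_n(F) over a finite field of odd order with n = 2m ≥ 4 even, and G = Inndiag(T) the image of PGL_n(F). The involutory graph automorphisms of T fall into exactly three G-classes, with representatives γ₁, γ₂, γ₃ whose centralizers in G are isomorphic respectively to the projective conformal symplectic group PGSp_n(F), the projective conformal orthogonal group of the plus-type form Σ xᵢ yᵢ, and that of a minus-type form Σ xᵢ yᵢ + z₁² + a z₁ z₂ + b z₂² (anisotropic binary part) in dimension n. -/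
theorem result {F : Type*} [Field F] [Fintype F] (hodd : Odd (Fintype.card F)) {n m : ℕ} (hm : 2 ≤ m) (hnm : n = 2 * m) :
    ∃ (γ₁ γ₂ γ₃ : MulAut (Matrix.ProjectiveSpecialLinearGroup (Fin n) F)) (a b : F), (∀ z₁ z₂ : F, z₁ ^ 2 + a * z₁ * z₂ + b * z₂ ^ 2 = 0 → z₁ = 0 ∧ z₂ = 0) ∧ Cfsg.IsGraphAutClassPSL γ₁ ∧ orderOf γ₁ = 2 ∧ Cfsg.IsGraphAutClassPSL γ₂ ∧ orderOf γ₂ = 2 ∧ Cfsg.IsGraphAutClassPSL γ₃ ∧ orderOf γ₃ = 2 ∧ ¬ Cfsg.IsConjUnder (Cfsg.inndiagPSL n F) γ₁ γ₂ ∧ ¬ Cfsg.IsConjUnder (Cfsg.inndiagPSL n F) γ₁ γ₃ ∧ ¬ Cfsg.IsConjUnder (Cfsg.inndiagPSL n F) γ₂ γ₃ ∧ (∀ γ : MulAut (Matrix.ProjectiveSpecialLinearGroup (Fin n) F), Cfsg.IsGraphAutClassPSL γ → orderOf γ = 2 → Cfsg.IsConjUnder (Cfsg.inndiagPSL n F) γ₁ γ ∨ Cfsg.IsConjUnder (Cfsg.inndiagPSL n F) γ₂ γ ∨ Cfsg.IsConjUnder (Cfsg.inndiagPSL n F) γ₃ γ) ∧ Nonempty (↥(Cfsg.inndiagPSL n F ⊓ Subgroup.centralizer {γ₁}) ≃* Cfsg.PGSp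 m F) ∧ Nonempty (↥(Cfsg.inndiagPSL n F ⊓ Subgroup.centralizer {γ₂}) ≃* Cfsg.PGO F (Cfsg.quadFormPlus m F)) ∧ Nonempty (↥(Cfsg.inndiagPSL n F ⊓ Subgroup.centralizer {γ₃}) ≃* Cfsg.PGO F (Cfsg.quadFormMinus (m - 1) F a b)) := by
  classical
  have h2 : (2 : F) ≠ 0 := H49.two_ne_zero_of_odd_card hodd
  have hn : 3 ≤ n := by omega
  obtain ⟨ν, hν⟩ := FiniteField.exists_nonsquare (F := F) (H49.ringChar_ne_two_of_odd_card hodd)
  have hν0 : ν ≠ 0 := by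
    rintro rfl
    exact hν ⟨0, by simp⟩
  let e : Fin m ⊕ Fin m ≃ Fin n := Fintype.equivFinOfCardEq (by simp [hnm]; ring)
  let e' : (Fin (m - 1) ⊕ Fin (m - 1)) ⊕ Fin 2 ≃ Fin n :=
    Fintype.equivFinOfCardEq (by simp [hnm]; omega)
  have hd₁ : (reM e (Matrix.J (Fin m) F)).det ≠ 0 := by
    rw [reM_det]
    exact (Matrix.isUnit_det_J (Fin m) F).ne_zero
  have hd₂ : (reM e (H49.hypGram m F)).det ≠ 0 := by
    rw [reM_det, H49.det_hypGram]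
    exact pow_ne_zero _ (neg_ne_zero.mpr one_ne_zero)
  have hdet₃ : (H49.minusGram (m - 1) F 0 (-ν)).det = (-1) ^ (m - 1) * (4 * (-ν) - 0 ^ 2) :=
    H49.det_minusGram _ _ _ _
  have hd₃ : (reM e' (H49.minusGram (m - 1) F 0 (-ν))).det ≠ 0 := by
    rw [reM_det, hdet₃]
    refine mul_ne_zero (pow_ne_zero _ (neg_ne_zero.mpr one_ne_zero)) ?_
    have h4 : (4 : F) ≠ 0 := by
      have : (4 : F) = 2 * 2 := by norm_num
      rw [this]
      exact mul_ne_zero h2 h2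
    have : (4 * (-ν) - 0 ^ 2 : F) = -(4 * ν) := by ring
    rw [this]
    exact neg_ne_zero.mpr (mul_ne_zero h4 hν0)
  have hs₂ : Matrix.transpose (glOf _ hd₂).1 = (glOf _ hd₂).1 := by
    rw [glOf_val, reM_transpose, hypGram_transpose]
  have hs₃ : Matrix.transpose (glOf _ hd₃).1 = (glOf _ hd₃).1 := by
    rw [glOf_val, reM_transpose, minusGram_transpose]
  have hs₁ : Matrix.transpose (glOf _ hd₁).1 = -(glOf _ hd₁).1 := by
    rw [glOf_val, reM_transpose, Matrix.J_transpose]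
    rfl
  have hns : ¬ IsSquare ((glOf _ hd₂).1.det * (glOf _ hd₃).1.det) := by
    rw [glOf_val, glOf_val, reM_det, reM_det, H49.det_hypGram, hdet₃]
    have h5 : (-1 : F) ^ m * ((-1) ^ (m - 1) * (4 * (-ν) - 0 ^ 2)) = 2 ^ 2 * ν := by
      obtain ⟨k, rfl⟩ : ∃ k, m = k + 1 := ⟨m - 1, by omega⟩
      simp only [Nat.add_sub_cancel]
      rw [pow_succ]
      have h6 : ((-1 : F) ^ k) * ((-1 : F) ^ k) = 1 := by
        rw [← mul_pow]
        simp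
      linear_combination (4 * ν) * h6
    rw [h5, H49.isSquare_sq_mul_iff h2]
    exact hν
  refine ⟨Gam (glOf _ hd₁), Gam (glOf _ hd₂), Gam (glOf _ hd₃), 0, -ν, ?_, ?_, ?_, ?_, ?_, ?_, ?_,
    ?_, ?_, ?_, ?_, ?_, ?_, ?_⟩
  · intro z₁ z₂ hz
    have hz2 : z₂ = 0 := by
      by_contra hne
      apply hν
      refine ⟨z₁ / z₂, ?_⟩
      field_simp
      linear_combination -hz
    subst hz2
    refine ⟨?_, rfl⟩
    simpa using hz
  · exact (isGraphAut_iff hn _).mpr ⟨_, rfl⟩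
  · refine (orderOf_Gam_iff hn _).mpr ⟨-1, ?_⟩
    rw [hs₁]
    simp
  · exact (isGraphAut_iff hn _).mpr ⟨_, rfl⟩
  · refine (orderOf_Gam_iff hn _).mpr ⟨1, ?_⟩
    rw [hs₂, Units.val_one, one_smul]
  · exact (isGraphAut_iff hn _).mpr ⟨_, rfl⟩
  · refine (orderOf_Gam_iff hn _).mpr ⟨1, ?_⟩
    rw [hs₃, Units.val_one, one_smul]
  · exact not_conj_skew_symm h2 (by omega) _ _ hs₁ hs₂
  · exact not_conj_skew_symm h2 (by omega) _ _ hs₁ hs₃
  · exact not_conj_disc hnm _ _ hns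
  · intro γ hγ hγ2
    exact class_odd h2 hn hnm _ _ _ e rfl hs₂ hs₃ hns γ hγ hγ2
  · obtain ⟨φ⟩ := cent_iso_of_square e (glOf _ hd₁) (Matrix.J (Fin m) F) 1 (by simp)
      (by rw [glOf_val]; simp)
    exact ⟨φ.trans (pgspEquiv m)⟩
  · obtain ⟨φ⟩ := cent_iso_of_square e (glOf _ hd₂) (H49.hypGram m F) 1 (by simp)
      (by rw [glOf_val]; simp)
    exact ⟨φ.trans (pgoPlusEquiv h2 m)⟩
  · obtain ⟨φ⟩ := cent_iso_of_square e' (glOf _ hd₃) (H49.minusGram (m - 1) F 0 (-ν)) 1 (by simp)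
      (by rw [glOf_val]; simp)
    exact ⟨φ.trans (pgoMinusEquiv h2 (m - 1) 0 (-ν))⟩

end Cfsg.Agent.S2700
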