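import Cfsg.Statements.S2701
import Cfsg.Agent.H50.GraphAutChar2

set_option autoImplicit false

open Cfsg

namespace Cfsg.Agent.S2701

open Cfsg.Agent.H50.GraphAut Cfsg.Agent.H50 Cfsg.Agent in
/-- Let T = PSL_n(F) over a finite field of characteristic 2 with n = 2m ≥ 4 even, and G = Inndiag(T) the image of PGL_n(F). The involutory graph automorphisms of T fall into exactly two G-classes, with representatives γ₁ and γ₃ whose centralizers in G are isomorphic respectively to the symplectic group Sp_n(F) and to the centralizer in Sp_n(F) of a symplectic transvection. -/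
theorem result {F : Type*} [Field F] [Fintype F] [CharP F 2] {n m : ℕ} (hm : 2 ≤ m) (hnm : n = 2 * m) :
    ∃ (γ₁ γ₃ : MulAut (Matrix.ProjectiveSpecialLinearGroup (Fin n) F)) (t : ↥(Matrix.symplecticGroup (Fin m) F)), Cfsg.IsTransvection (t : Matrix (Fin m ⊕ Fin m) (Fin m ⊕ Fin m) F) ∧ Cfsg.IsGraphAutClassPSL γ₁ ∧ orderOf γ₁ = 2 ∧ Cfsg.IsGraphAutClassPSL γ₃ ∧ orderOf γ₃ = 2 ∧ ¬ Cfsg.IsConjUnder (Cfsg.inndiagPSL n F) γ₁ γ₃ ∧ (∀ γ : MulAut (Matrix.ProjectiveSpecialLinearGroup (Fin n) F), Cfsg.IsGraphAutClassPSL γ → orderOf γ = 2 → Cfsg.IsConjUnder (Cfsg.inndiagPSL n F) γ₁ γ ∨ Cfsg.IsConjUnder (Cfsg.inndiagPSL n F) γ₃ γ) ∧ Nonempty (↥(Cfsg.inndiagPSL n F ⊓ Subgroup.centralizer {γ₁}) ≃* ↥(Matrix.symplecticGroup (Fin m) F)) ∧ Nonempty (↥(Cfsg.inndiagPSL n F ⊓ Subgroup.centralizer {γ₃}) ≃* ↥(Subgroup.centralizer ({t} : Set ↥(Matrix.symplecticGroup (Fin m) F)))) := by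
  classical
  have hn : 3 ≤ n := by omega
  have hsq := exists_mul_self_char2 (F := F)
  have htr := t0_isTransvection (F := F) (m := m) ⟨0, by omega⟩
  obtain ⟨w, c, hw, hc, ht⟩ := SpTransv.exists_transv
    (t0 (F := F) (m := m) ⟨0, by omega⟩).1 (t0 (F := F) (m := m) ⟨0, by omega⟩).2 htr.1
  let e : Fin m ⊕ Fin m ≃ Fin n := Fintype.equivFinOfCardEq (by simp [hnm]; ring)
  have hne : Nonempty (Fin m ⊕ Fin m) := ⟨Sum.inl ⟨0, by omega⟩⟩
  have hdJ : (Matrix.J (Fin m) F).det ≠ 0 := (Matrix.isUnit_det_J (Fin m) F).ne_zero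
  have hd₁ : (reM e (Matrix.J (Fin m) F)).det ≠ 0 := by
    rw [reM_det]
    exact hdJ
  have hM₃inv : InvCent.Bc w * InvCent.Bc (Matrix.mulVec (Matrix.J (Fin m) F) w) = 1 :=
    InvCent.Bc_mul_inv w
  have hdM₃ : (InvCent.Bc (Matrix.mulVec (Matrix.J (Fin m) F) w)).det ≠ 0 := by
    intro h
    have h1 := congrArg Matrix.det hM₃inv
    rw [Matrix.det_mul, h, mul_zero, Matrix.det_one] at h1
    exact zero_ne_one h1
  have hd₃ : (reM e (InvCent.Bc (Matrix.mulVec (Matrix.J (Fin m) F) w))).det ≠ 0 := by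
    rw [reM_det]
    exact hdM₃
  have hJw : Matrix.mulVec (Matrix.J (Fin m) F) w ≠ 0 := by
    intro h
    apply hw
    have h1 := congrArg (fun v => Matrix.mulVec (Matrix.J (Fin m) F) v) h
    simp only [Matrix.mulVec_mulVec, Matrix.J_squared, Matrix.neg_mulVec, Matrix.one_mulVec,
      Matrix.mulVec_zero] at h1
    exact neg_eq_zero.mp h1
  obtain ⟨j, hj⟩ : ∃ j, Matrix.mulVec (Matrix.J (Fin m) F) w j ≠ 0 := by
    by_contra hcon
    push Not at hcon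
    exact hJw (funext hcon)
  have hna₃ : ∃ i, (glOf _ hd₃).1 i i ≠ 0 :=
    ⟨e j, by rw [glOf_val, reM_apply, InvCent.Bc_diag]; exact mul_self_ne_zero.mpr hj⟩
  have hs₃ : Matrix.transpose (glOf _ hd₃).1 = (glOf _ hd₃).1 := by
    rw [glOf_val, reM_transpose, InvCent.Bc_transpose]
  have hs₁ : Matrix.transpose (glOf _ hd₁).1 = (glOf _ hd₁).1 := by
    rw [glOf_val, reM_transpose, Matrix.J_transpose, InvCent.neg_J_char2]
  have halt₁ : IsAltM (glOf _ hd₁).1 := altM_reM e _ (altM_J m)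
  have hJ0 : Matrix.J (Fin m) F ≠ 0 := by
    intro h
    apply hdJ
    rw [h]
    simp
  have hM₃0 : InvCent.Bc (Matrix.mulVec (Matrix.J (Fin m) F) w) ≠ 0 := by
    intro h
    apply hdM₃
    rw [h]
    simp
  refine ⟨Gam (glOf _ hd₁), Gam (glOf _ hd₃), t0 ⟨0, by omega⟩, htr, ?_, ?_, ?_, ?_, ?_, ?_, ?_, ?_⟩
  · exact (isGraphAut_iff hn _).mpr ⟨_, rfl⟩
  · refine (orderOf_Gam_iff hn _).mpr ⟨1, ?_⟩
    rw [hs₁, Units.val_one, one_smul]
  · exact (isGraphAut_iff hn _).mpr ⟨_, rfl⟩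
  · refine (orderOf_Gam_iff hn _).mpr ⟨1, ?_⟩
    rw [hs₃, Units.val_one, one_smul]
  · exact not_conj_alt _ _ halt₁ hna₃
  · intro γ hγ hγ2
    exact class_char2 hn hnm _ _ e rfl hs₃ hna₃ γ hγ hγ2
  · obtain ⟨φ⟩ := cent_iso_of_square e (glOf _ hd₁) (Matrix.J (Fin m) F) 1 (by simp)
      (by rw [glOf_val]; simp)
    exact ⟨φ.trans ((isomProjEquiv hsq (Matrix.J (Fin m) F) hJ0).symm.trans isomJEquiv)⟩
  · obtain ⟨φ⟩ := cent_iso_of_square e (glOf _ hd₃)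
      (InvCent.Bc (Matrix.mulVec (Matrix.J (Fin m) F) w)) 1 (by simp) (by rw [glOf_val]; simp)
    exact ⟨φ.trans ((isomProjEquiv hsq _ hM₃0).symm.trans
      (isomBcEquiv (t0 ⟨0, by omega⟩) w c hw hc ht))⟩

end Cfsg.Agent.S2701
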