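import Cfsg.Statements.S2702
import Cfsg.Agent.H50.GraphAutSplit4

set_option autoImplicit false
open Cfsg

namespace Cfsg.Agent.S2702

open Cfsg.Agent.H50.GraphAut Cfsg.Agent.H50 Cfsg.Agent in
/-- Let T = PSL_n(F) over the field with q = p^f elements, n ≥ 3, G = Inndiag(T) the image of PGL_n(F), and γ an involutory graph automorphism of T. The G-class of γ is the union of exactly c T-classes, where: if n is even and q is odd, c = gcd(n/2, q − 1) when C_G(γ) is isomorphic to the projective conformal symplectic group PGSp_n(F) (symplectic type) and c = gcd(n, q − 1)/2 otherwise; and c = gcd(n, q − 1) when n is odd or q is even. -/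
theorem result {F : Type*} [Field F] [Fintype F] {p f : ℕ} [Fact p.Prime] (hF : Fintype.card F = p ^ f) (hf : 1 ≤ f) {n : ℕ} (hn : 3 ≤ n) (γ : MulAut (Matrix.ProjectiveSpecialLinearGroup (Fin n) F)) (hγ : Cfsg.IsGraphAutClassPSL γ) (hγ2 : orderOf γ = 2) :
    ((Even n ∧ Odd p ∧ Nonempty (↥(Cfsg.inndiagPSL n F ⊓ Subgroup.centralizer {γ}) ≃* Cfsg.PGSp (n / 2) F)) → Cfsg.splitClassCount (Cfsg.inndiagPSL n F) (Cfsg.Inn (Matrix.ProjectiveSpecialLinearGroup (Fin n) F)) γ = Nat.gcd (n / 2) (p ^ f - 1)) ∧ ((Even n ∧ Odd p ∧ ¬ Nonempty (↥(Cfsg.inndiagPSL n F ⊓ Subgroup.centralizer {γ}) ≃* Cfsg.PGSp (n / 2) F)) → Cfsg.splitClassCount (Cfsg.inndiagPSL n F) (Cfsg.Inn (Matrix.ProjectiveSpecialLinearGroup (Fin n) F)) γ = Nat.gcd n (p ^ f - 1) / 2) ∧ (¬ (Even n ∧ Odd p) → Cfsg.splitClassCount (Cfsg.inndiagPSL n F) (Cfsg.Inn (Matrix.ProjectiveSpecialLinearGroup (Fin n) F)) γ = Nat.gcd n (p ^ f - 1)) := by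
  classical
  obtain ⟨b, rfl⟩ := (isGraphAut_iff hn γ).mp hγ
  obtain ⟨c, hc⟩ := (orderOf_Gam_iff hn b).mp hγ2
  have : NeZero n := ⟨by omega⟩
  have : Nonempty (Fin n) := ⟨⟨0, by omega⟩⟩
  rw [splitClassCount_Gam b]
  have hq1 : Fintype.card F - 1 = p ^ f - 1 := by rw [hF]
  have key : Even n → Odd p →
      ((detSim b).index = Nat.gcd (n / 2) (p ^ f - 1) ∧
        Nonempty (↥(Cfsg.inndiagPSL n F ⊓ Subgroup.centralizer {Gam b}) ≃* Cfsg.PGSp (n / 2) F)) ∨
      ((detSim b).index = Nat.gcd n (p ^ f - 1) / 2 ∧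
        ¬ Nonempty (↥(Cfsg.inndiagPSL n F ⊓ Subgroup.centralizer {Gam b}) ≃*
          Cfsg.PGSp (n / 2) F)) := by
    intro hev hp
    obtain ⟨m, hm⟩ := id hev
    have hnm : n = 2 * m := by omega
    have hodd : Odd (Fintype.card F) := by
      rw [hF]
      exact hp.pow
    have h2 : (2 : F) ≠ 0 := H49.two_ne_zero_of_odd_card hodd
    have hdiv : n / 2 = m := by omega
    rw [hdiv]
    rcases sq_eq_one_of_transpose b.1 (gl_ne_zero b) c hc with h | h
    · rw [h, one_smul] at hc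
      right
      refine ⟨?_, not_iso_pgsp_of_symm hodd (by omega) hnm b hc⟩
      rw [detSim_symm h2 hnm (by omega) b hc, index_comap_pow hodd hev, hq1, Nat.gcd_comm]
    · rw [h, neg_smul, one_smul] at hc
      left
      have halt : IsAltM b.1 := by
        rw [altM_iff]
        refine ⟨hc, fun i => ?_⟩
        have h3 := congrFun (congrFun hc i) i
        rw [Matrix.transpose_apply, Matrix.neg_apply] at h3
        have h4 : (2 : F) * b.1 i i = 0 := by linear_combination h3
        rcases mul_eq_zero.mp h4 with h5 | h5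
        · exact absurd h5 h2
        · exact h5
      refine ⟨?_, ?_⟩
      · rw [detSim_alt hnm b halt, index_pow, hq1, Nat.gcd_comm]
      · obtain ⟨R, R', h1, h1', h3⟩ := exists_rect_alt (by rw [Fintype.card_fin, hnm]) b.1
          (gl_det_ne_zero b) halt
        obtain ⟨φ⟩ := cent_iso_of_rect b (Matrix.J (Fin m) F) 1 R R' h1 h1'
          (by rw [h3, Units.val_one, one_smul])
        exact ⟨φ.trans (pgspEquiv m)⟩
  refine ⟨?_, ?_, ?_⟩
  · rintro ⟨hev, hp, hiso⟩
    rcases key hev hp with ⟨h, -⟩ | ⟨-, h⟩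
    · exact h
    · exact absurd hiso h
  · rintro ⟨hev, hp, hiso⟩
    rcases key hev hp with ⟨-, h⟩ | ⟨h, -⟩
    · exact absurd h hiso
    · exact h
  · intro hne
    by_cases hev : Even n
    · have hp2 : ¬ Odd p := fun h => hne ⟨hev, h⟩
      have hp2' : p = 2 := (Nat.Prime.eq_two_or_odd' (Fact.out)).resolve_right hp2
      have h20 : (2 : F) = 0 := by
        have h3 : ((Fintype.card F : ℕ) : F) = 0 := Nat.cast_card_eq_zero F
        rw [hF, hp2'] at h3
        push_cast at h3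
        exact (pow_eq_zero_iff (by omega)).mp h3
      have : CharP F 2 := CharTwo.of_one_ne_zero_of_two_eq_zero one_ne_zero h20
      rw [detSim_char2 b, index_pow, hq1, Nat.gcd_comm]
    · rw [detSim_odd (Nat.not_even_iff_odd.mp hev) b, index_pow, hq1, Nat.gcd_comm]

end Cfsg.Agent.S2702
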