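import Cfsg.Statements.S2703
import Cfsg.Agent.H50.GraphAutOdd

set_option autoImplicit false

open Cfsg

namespace Cfsg.Agent.S2703

open Cfsg.Agent.H50.GraphAut Cfsg.Agent in
/-- Let T = PSL_n(F) over the field with q elements, q odd, n = 2m ≥ 4 even, and ι the inverse-transpose automorphism. Its centralizer in G = Inndiag(T) (the image of PGL_n(F)) is isomorphic to the projective conformal orthogonal group of the plus-type form Σ xᵢ yᵢ in dimension n when n(q − 1)/4 is even, and to that of a minus-type form (Σ xᵢ yᵢ + z₁² + a z₁ z₂ + b z₂² with anisotropic binary part) when n(q − 1)/4 is odd. -/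
theorem result {F : Type*} [Field F] [Fintype F] (hodd : Odd (Fintype.card F)) {n m : ℕ} (hm : 2 ≤ m) (hnm : n = 2 * m) (ι : MulAut (Matrix.ProjectiveSpecialLinearGroup (Fin n) F)) (hι : Cfsg.IsInverseTransposeAutPSL ι) :
    (Even (n * (Fintype.card F - 1) / 4) → Nonempty (↥(Cfsg.inndiagPSL n F ⊓ Subgroup.centralizer {ι}) ≃* Cfsg.PGO F (Cfsg.quadFormPlus m F))) ∧ (¬ Even (n * (Fintype.card F - 1) / 4) → ∃ a b : F, (∀ z₁ z₂ : F, z₁ ^ 2 + a * z₁ * z₂ + b * z₂ ^ 2 = 0 → z₁ = 0 ∧ z₂ = 0) ∧ Nonempty (↥(Cfsg.inndiagPSL n F ⊓ Subgroup.centralizer {ι}) ≃* Cfsg.PGO F (Cfsg.quadFormMinus (m - 1) F a b))) := by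
  classical
  have hι' : ι = iota := (isInvT_iff ι).mp hι
  have hG : ι = Gam (1 : GL (Fin n) F) := by rw [hι', Gam_one]
  rw [hG]
  have h2 : (2 : F) ≠ 0 := H49.two_ne_zero_of_odd_card hodd
  have hq2 : Fintype.card F % 2 = 1 := Nat.odd_iff.mp hodd
  have hdiv : n * (Fintype.card F - 1) / 4 = m * (Fintype.card F - 1) / 2 := by
    rw [hnm, mul_assoc, show (4 : ℕ) = 2 * 2 from rfl, Nat.mul_div_mul_left _ _ (by norm_num)]
  rw [hdiv, H49.even_half_iff hodd m]
  have hsym1 : Matrix.transpose ((1 : GL (Fin n) F) : Matrix (Fin n) (Fin n) F) =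
      ((1 : GL (Fin n) F) : Matrix (Fin n) (Fin n) F) := by
    simp
  constructor
  · intro hev
    have hsq : IsSquare ((-1 : F) ^ m) := by
      rw [H49.isSquare_neg_one_pow_iff]
      rcases hev with h | h
      · exact Or.inl h
      · right; omega
    let e : Fin m ⊕ Fin m ≃ Fin n := Fintype.equivFinOfCardEq (by simp [hnm]; ring)
    obtain ⟨P, hP, hPb⟩ := exists_congr_of_disc h2 (reM e (H49.hypGram m F))
      ((1 : GL (Fin n) F) : Matrix (Fin n) (Fin n) F)
      (by rw [reM_transpose, hypGram_transpose]) hsym1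
      (by rw [reM_det, H49.det_hypGram]; exact pow_ne_zero _ (neg_ne_zero.mpr one_ne_zero))
      (by simp)
      (by rw [reM_det, H49.det_hypGram, Units.val_one, Matrix.det_one, mul_one]; exact hsq)
    obtain ⟨φ⟩ := cent_iso_of_square e 1 (H49.hypGram m F) P hP hPb
    exact ⟨φ.trans (pgoPlusEquiv h2 m)⟩
  · intro hev
    have hm1 : ¬ Even m := fun h => hev (Or.inl h)
    have hq4 : Fintype.card F % 4 = 3 := by
      have : ¬ Fintype.card F % 4 = 1 := fun h => hev (Or.inr h)
      omega
    have hns : ¬ IsSquare (-1 : F) := by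
      have := H49.isSquare_neg_one_pow_iff (F := F) 1
      rw [pow_one] at this
      rw [this]
      rintro (h | h)
      · exact absurd h (by decide)
      · exact h hq4
    refine ⟨0, 1, ?_, ?_⟩
    · intro z₁ z₂ hz
      have hz2 : z₂ = 0 := by
        by_contra hne
        apply hns
        refine ⟨z₁ / z₂, ?_⟩
        field_simp
        linear_combination -hz
      subst hz2
      refine ⟨?_, rfl⟩
      simpa using hz
    · have hmk : Even (m - 1) := by
        rcases Nat.even_or_odd m with h | h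
        · exact absurd h hm1
        · obtain ⟨k, rfl⟩ := h
          exact ⟨k, by omega⟩
      let e : (Fin (m - 1) ⊕ Fin (m - 1)) ⊕ Fin 2 ≃ Fin n :=
        Fintype.equivFinOfCardEq (by simp [hnm]; omega)
      have hdet : (H49.minusGram (m - 1) F 0 1).det = 2 ^ 2 := by
        rw [H49.det_minusGram, hmk.neg_one_pow]
        ring
      obtain ⟨P, hP, hPb⟩ := exists_congr_of_disc h2 (reM e (H49.minusGram (m - 1) F 0 1))
        ((1 : GL (Fin n) F) : Matrix (Fin n) (Fin n) F)
        (by rw [reM_transpose, minusGram_transpose]) hsym1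
        (by rw [reM_det, hdet]; exact pow_ne_zero _ h2)
        (by simp)
        (by rw [reM_det, hdet, Units.val_one, Matrix.det_one, mul_one]; exact ⟨2, by ring⟩)
      obtain ⟨φ⟩ := cent_iso_of_square e 1 (H49.minusGram (m - 1) F 0 1) P hP hPb
      exact ⟨φ.trans (pgoMinusEquiv h2 (m - 1) 0 1)⟩

end Cfsg.Agent.S2703
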