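import Cfsg.Statements.S2706
import Cfsg.Agent.H50.GraphAutUTransfer
import Cfsg.Agent.H50.GraphAutOddDim3

set_option autoImplicit false
open Cfsg

namespace Cfsg.Agent.S2706

open Cfsg.Agent.H50.GraphAut Cfsg.Agent.H50.GraphAutU Cfsg.Agent.H50 Cfsg.Agent in
/-- Let T = PSU_n(q) be simple with n = 2m + 1 ≥ 3 odd, realised over the field F with q² elements, and G = Inndiag(T) the image of PGU_n(q). Every involutory graph automorphism γ of T (an inner-diagonal automorphism times a standard field automorphism of even order, of order 2) has centralizer C_G(γ) isomorphic to the projective conformal orthogonal group of the form x₀² + Σ xᵢ yᵢ in dimension n over a field F₀ with q elements, and any two involutory graph automorphisms of T are G-conjugate. -/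
theorem result {F : Type*} [Field F] [Fintype F] {p f q : ℕ} [Fact p.Prime] (hq : q = p ^ f) (hf : 1 ≤ f) (hF : Fintype.card F = q ^ 2) {n : ℕ} (hn : 3 ≤ n) (hs : ¬ (n = 3 ∧ q = 2)) {m : ℕ} (hnm : n = 2 * m + 1) (F₀ : Type*) [Field F₀] [Fintype F₀] (hF₀ : Fintype.card F₀ = q) (γ γ' : MulAut (Cfsg.PSU n F q)) (hγ : Cfsg.IsGraphAutClassPSU γ) (hγ2 : orderOf γ = 2) (hγ' : Cfsg.IsGraphAutClassPSU γ') (hγ'2 : orderOf γ' = 2) :
    Nonempty (↥(Cfsg.inndiagPSU n F q ⊓ Subgroup.centralizer {γ}) ≃* Cfsg.PGO F₀ (Cfsg.quadFormOdd m F₀)) ∧ Cfsg.IsConjUnder (Cfsg.inndiagPSU n F q) γ γ' := by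
  classical
  obtain ⟨j, hj⟩ := exists_emb hF F₀ hF₀
  obtain ⟨b, rfl, c, hc⟩ := (isGraphAutU_iff hF hn hs γ).mp ⟨hγ, hγ2⟩
  obtain ⟨b', rfl, c', hc'⟩ := (isGraphAutU_iff hF hn hs γ').mp ⟨hγ', hγ'2⟩
  have : Nonempty (Fin n) := ⟨⟨0, by omega⟩⟩
  have hsym : ∀ (b : ↥(Cfsg.GU n F q)) (c : Fˣ), b.1.1.transpose = (c : F) • b.1.1 → b.1.1.transpose = b.1.1 := by
    intro b c hc
    rcases sq_eq_one_of_transpose b.1.1 (gl_ne_zero b.1) c hc with h | h
    · rw [h, one_smul] at hc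
      exact hc
    · rw [h, neg_smul, one_smul] at hc
      by_cases h2 : (2 : F) = 0
      · rw [hc]
        ext a a'
        rw [Matrix.neg_apply]
        exact neg_eq_iff_add_eq_zero.mpr (by rw [← two_mul, h2, zero_mul])
      · exact (not_skew_odd h2 hnm b.1.1 (gl_det_ne_zero b.1) hc).elim
  obtain ⟨P, S₀, D, hS⟩ := exists_datum_symm hF j hj b (hsym b c hc)
  obtain ⟨P', S₀', D', hS'⟩ := exists_datum_symm hF j hj b' (hsym b' c' hc')
  have hG : ∀ S₀ : GL (Fin n) F₀, S₀.1.transpose = S₀.1 →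
      Cfsg.IsGraphAutClassPSL (Gam S₀) ∧ orderOf (Gam S₀) = 2 :=
    fun S₀ hS => ⟨(isGraphAut_iff hn _).mpr ⟨S₀, rfl⟩,
      (orderOf_Gam_iff hn S₀).mpr ⟨1, by rw [hS, Units.val_one, one_smul]⟩⟩
  obtain ⟨⟨φ⟩, hconj⟩ := graph_odd_dim hn hnm (Gam S₀) (Gam S₀') (hG S₀ hS).1 (hG S₀ hS).2
    (hG S₀' hS').1 (hG S₀' hS').2
  obtain ⟨ψ⟩ := cent_iso' hn hs hj one_ne_zero D
  exact ⟨⟨ψ.trans φ⟩, (conj_iff hn hs hj one_ne_zero D D').mpr hconj⟩

end Cfsg.Agent.S2706
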