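import Cfsg.Statements.S2707
import Cfsg.Agent.H50.GraphAutUReps

set_option autoImplicit false
open Cfsg

namespace Cfsg.Agent.S2707

open Cfsg.Agent.H50.GraphAut Cfsg.Agent.H50.GraphAutU Cfsg.Agent.H50 Cfsg.Agent in
/-- Let T = PSU_n(q) with n = 2m ≥ 4 even and q odd, realised over the field F with q² elements, and G = Inndiag(T) the image of PGU_n(q). The involutory graph automorphisms of T fall into exactly three G-classes, with representatives whose centralizers in G are isomorphic respectively to the projective conformal symplectic group PGSp_n(F₀), the projective conformal orthogonal group of the plus-type form Σ xᵢ yᵢ, and that of a minus-type form Σ xᵢ yᵢ + z₁² + a z₁ z₂ + b z₂² (anisotropic binary part) in dimension n, all over a field F₀ with q elements. -/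
theorem result {F : Type*} [Field F] [Fintype F] {q : ℕ} (hodd : Odd q) (hF : Fintype.card F = q ^ 2) {n m : ℕ} (hm : 2 ≤ m) (hnm : n = 2 * m) (F₀ : Type*) [Field F₀] [Fintype F₀] (hF₀ : Fintype.card F₀ = q) :
    ∃ (γ₁ γ₂ γ₃ : MulAut (Cfsg.PSU n F q)) (a b : F₀), (∀ z₁ z₂ : F₀, z₁ ^ 2 + a * z₁ * z₂ + b * z₂ ^ 2 = 0 → z₁ = 0 ∧ z₂ = 0) ∧ Cfsg.IsGraphAutClassPSU γ₁ ∧ orderOf γ₁ = 2 ∧ Cfsg.IsGraphAutClassPSU γ₂ ∧ orderOf γ₂ = 2 ∧ Cfsg.IsGraphAutClassPSU γ₃ ∧ orderOf γ₃ = 2 ∧ ¬ Cfsg.IsConjUnder (Cfsg.inndiagPSU n F q) γ₁ γ₂ ∧ ¬ Cfsg.IsConjUnder (Cfsg.inndiagPSU n F q) γ₁ γ₃ ∧ ¬ Cfsg.IsConjUnder (Cfsg.inndiagPSU n F q) γ₂ γ₃ ∧ (∀ γ : MulAut (Cfsg.PSU n F q), Cfsg.IsGraphAutClassPSU γ → orderOf γ = 2 → Cfsg.IsConjUnder (Cfsg.inndiagPSU n F q) γ₁ γ ∨ Cfsg.IsConjUnder (Cfsg.inndiagPSU n F q) γ₂ γ ∨ Cfsg.IsConjUnder (Cfsg.inndiagPSU n F q) γ₃ γ) ∧ Nonempty (↥(Cfsg.inndiagPSU n F q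 ⊓ Subgroup.centralizer {γ₁}) ≃* Cfsg.PGSp m F₀) ∧ Nonempty (↥(Cfsg.inndiagPSU n F q ⊓ Subgroup.centralizer {γ₂}) ≃* Cfsg.PGO F₀ (Cfsg.quadFormPlus m F₀)) ∧ Nonempty (↥(Cfsg.inndiagPSU n F q ⊓ Subgroup.centralizer {γ₃}) ≃* Cfsg.PGO F₀ (Cfsg.quadFormMinus (m - 1) F₀ a b)) := by
  classical
  have hn : 3 ≤ n := by omega
  have hs : ¬ (n = 3 ∧ q = 2) := by omega
  obtain ⟨j, hj⟩ := exists_emb hF F₀ hF₀
  have : Nonempty (Fin n) := ⟨⟨0, by omega⟩⟩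
  have hodd₀ : Odd (Fintype.card F₀) := by rw [hF₀]; exact hodd
  have h2 : (2 : F₀) ≠ 0 := H49.two_ne_zero_of_odd_card hodd₀
  have h2F : (2 : F) ≠ 0 := by
    have h := (map_ne_zero j).mpr h2
    rwa [map_ofNat] at h
  obtain ⟨κ, hκ0, hκ⟩ := H17.exists_eps hF
  have hd : -κ⁻¹ ≠ 0 := neg_ne_zero.mpr (inv_ne_zero hκ0)
  obtain ⟨ν, hν⟩ := FiniteField.exists_nonsquare (F := F₀)
    (H49.ringChar_ne_two_of_odd_card hodd₀)
  have hν0 : ν ≠ 0 := by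
    rintro rfl
    exact hν ⟨0, by simp⟩
  let e : Fin m ⊕ Fin m ≃ Fin n := Fintype.equivFinOfCardEq (by simp [hnm]; ring)
  let e' : (Fin (m - 1) ⊕ Fin (m - 1)) ⊕ Fin 2 ≃ Fin n :=
    Fintype.equivFinOfCardEq (by simp [hnm]; omega)
  have hd₁ : (reM e (Matrix.J (Fin m) F₀)).det ≠ 0 := by
    rw [reM_det]
    exact (Matrix.isUnit_det_J (Fin m) F₀).ne_zero
  have hd₂ : (reM e (H49.hypGram m F₀)).det ≠ 0 := by
    rw [reM_det, H49.det_hypGram]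
    exact pow_ne_zero _ (neg_ne_zero.mpr one_ne_zero)
  have hdet₃ : (H49.minusGram (m - 1) F₀ 0 (-ν)).det = (-1) ^ (m - 1) * (4 * (-ν) - 0 ^ 2) :=
    H49.det_minusGram _ _ _ _
  have hd₃ : (reM e' (H49.minusGram (m - 1) F₀ 0 (-ν))).det ≠ 0 := by
    rw [reM_det, hdet₃]
    refine mul_ne_zero (pow_ne_zero _ (neg_ne_zero.mpr one_ne_zero)) ?_
    have h4 : (4 : F₀) ≠ 0 := by
      have : (4 : F₀) = 2 * 2 := by norm_num
      rw [this]
      exact mul_ne_zero h2 h2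
    have : (4 * (-ν) - 0 ^ 2 : F₀) = -(4 * ν) := by ring
    rw [this]
    exact neg_ne_zero.mpr (mul_ne_zero h4 hν0)
  let z : Fin n := ⟨0, by omega⟩
  have hupd : ∀ δ : F₀, δ ≠ 0 → ∀ i, Function.update (fun _ : Fin n => (1 : F₀)) z δ i ≠ 0 := by
    intro δ hδ i
    by_cases h : i = z
    · rw [h, Function.update_self]
      exact hδ
    · rw [Function.update_of_ne h]
      exact one_ne_zero
  have hprod : ∀ δ : F₀, (Matrix.diagonal (Function.update (fun _ : Fin n => (1 : F₀)) z δ)).det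
      = δ := by
    intro δ
    rw [Matrix.det_diagonal, Finset.prod_update_of_mem (Finset.mem_univ z)]
    simp
  obtain ⟨b₂, P₂, S₂, D₂, hb₂s, hS₂⟩ := exists_diag_datum hF j hj _ (hupd _ hd₂)
  obtain ⟨b₃, P₃, S₃, D₃, hb₃s, hS₃⟩ := exists_diag_datum hF j hj _ (hupd _ hd₃)
  have hdetS₂ : S₂.1.det = (reM e (H49.hypGram m F₀)).det := by rw [hS₂, hprod]
  have hdetS₃ : S₃.1.det = (reM e' (H49.minusGram (m - 1) F₀ 0 (-ν))).det := by rw [hS₃, hprod]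
  have hS₂s : S₂.1.transpose = S₂.1 := by rw [hS₂, Matrix.diagonal_transpose]
  have hS₃s : S₃.1.transpose = S₃.1 := by rw [hS₃, Matrix.diagonal_transpose]
  let b₁ : ↥(Cfsg.GU n F q) := guOf hF _ (J_unitary hF m e)
  have hb₁s : b₁.1.1.transpose = -b₁.1.1 := by
    rw [guOf_val, reM_transpose, Matrix.J_transpose]
    rfl
  obtain ⟨P₁, S₁, c₁, D₁, hS₁⟩ := exists_datum_alt hF j hj κ hκ0 hκ b₁ hb₁s
  have halt : ∀ S : GL (Fin n) F₀, S.1.transpose = -S.1 → IsAltM S.1 := by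
    intro S hS
    rw [altM_iff]
    refine ⟨hS, fun i => ?_⟩
    have h3 := congrFun (congrFun hS i) i
    rw [Matrix.transpose_apply, Matrix.neg_apply] at h3
    have h4 : (2 : F₀) * S.1 i i = 0 := by linear_combination h3
    rcases mul_eq_zero.mp h4 with h5 | h5
    · exact absurd h5 h2
    · exact h5
  have hS₁a := halt S₁ hS₁
  have hns : ¬ IsSquare (S₂.1.det * S₃.1.det) := by
    rw [hdetS₂, hdetS₃, reM_det, reM_det, H49.det_hypGram, hdet₃]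
    have h5 : (-1 : F₀) ^ m * ((-1) ^ (m - 1) * (4 * (-ν) - 0 ^ 2)) = 2 ^ 2 * ν := by
      obtain ⟨k, rfl⟩ : ∃ k, m = k + 1 := ⟨m - 1, by omega⟩
      simp only [Nat.add_sub_cancel]
      rw [pow_succ]
      have h6 : ((-1 : F₀) ^ k) * ((-1 : F₀) ^ k) = 1 := by
        rw [← mul_pow]
        simp
      linear_combination (4 * ν) * h6
    rw [h5, H49.isSquare_sq_mul_iff h2]
    exact hν
  have hG : ∀ S : GL (Fin n) F₀, S.1.transpose = S.1 →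
      Cfsg.IsGraphAutClassPSL (Gam S) ∧ orderOf (Gam S) = 2 :=
    fun S hS => ⟨(isGraphAut_iff hn _).mpr ⟨S, rfl⟩,
      (orderOf_Gam_iff hn S).mpr ⟨1, by rw [hS, Units.val_one, one_smul]⟩⟩
  have hg₁ := (isGraphAutU_iff hF hn hs (GamU hF b₁)).mpr
    ⟨b₁, rfl, -1, by rw [hb₁s]; simp⟩
  have hg₂ := (isGraphAutU_iff hF hn hs (GamU hF b₂)).mpr
    ⟨b₂, rfl, 1, by rw [hb₂s, Units.val_one, one_smul]⟩
  have hg₃ := (isGraphAutU_iff hF hn hs (GamU hF b₃)).mpr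
    ⟨b₃, rfl, 1, by rw [hb₃s, Units.val_one, one_smul]⟩
  have hcard : Fintype.card (Fin n) = 2 * m := by rw [Fintype.card_fin, hnm]
  refine ⟨GamU hF b₁, GamU hF b₂, GamU hF b₃, 0, -ν, ?_, hg₁.1, hg₁.2, hg₂.1, hg₂.2, hg₃.1, hg₃.2,
    ?_, ?_, ?_, ?_, ?_, ?_, ?_⟩
  · intro z₁ z₂ hz
    have hz2 : z₂ = 0 := by
      by_contra hne
      apply hν
      refine ⟨z₁ / z₂, ?_⟩
      field_simp
      linear_combination -hz
    subst hz2
    refine ⟨?_, rfl⟩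
    simpa using hz
  · exact not_conjU_skew_symm hF hn hs h2F b₁ b₂ hb₁s hb₂s
  · exact not_conjU_skew_symm hF hn hs h2F b₁ b₃ hb₁s hb₃s
  · intro h
    exact not_conj_disc hnm S₂ S₃ hns ((conj_iff hn hs hj one_ne_zero D₂ D₃).mp h)
  · intro γ hγ hγ2
    obtain ⟨b, rfl, c, hc⟩ := (isGraphAutU_iff hF hn hs γ).mp ⟨hγ, hγ2⟩
    rcases sq_eq_one_of_transpose b.1.1 (gl_ne_zero b.1) c hc with h | h
    · rw [h, one_smul] at hc
      obtain ⟨P, S, D, hS⟩ := exists_datum_symm hF j hj b hc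
      rcases class_odd h2 hn hnm (glOf _ hd₁) S₂ S₃ e rfl hS₂s hS₃s hns (Gam S) (hG S hS).1
        (hG S hS).2 with h' | h' | h'
      · refine absurd h' (not_conj_skew_symm h2 (by omega) (glOf _ hd₁) S ?_ hS)
        rw [glOf_val, reM_transpose, Matrix.J_transpose]
        rfl
      · right; left
        exact (conj_iff hn hs hj one_ne_zero D₂ D).mpr h'
      · right; right
        exact (conj_iff hn hs hj one_ne_zero D₃ D).mpr h'
    · rw [h, neg_smul, one_smul] at hc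
      obtain ⟨P, S, c', D, hS⟩ := exists_datum_alt hF j hj κ hκ0 hκ b hc
      left
      apply (conj_iff hn hs hj hd D₁ D).mpr
      obtain ⟨R₁, R₁', h1, h1', h3⟩ := exists_rect_alt hcard S₁.1 (gl_det_ne_zero S₁) hS₁a
      obtain ⟨R₂, R₂', g1, g1', g3⟩ := exists_rect_alt hcard S.1 (gl_det_ne_zero S) (halt S hS)
      exact conj_of_rect S₁ S (Matrix.J (Fin m) F₀) 1 R₁ R₁' h1 h1' R₂ R₂' g1 g1' h3
        (by rw [g3, Units.val_one, one_smul])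
  · obtain ⟨φ⟩ := cent_iso hn hs hj hd D₁
    obtain ⟨R, R', h1, h1', h3⟩ := exists_rect_alt hcard S₁.1 (gl_det_ne_zero S₁) hS₁a
    exact ⟨φ.trans ((simBCongr R R' h1 h1' S₁.1 (Matrix.J (Fin m) F₀) 1
      (by rw [h3, Units.val_one, one_smul])).trans (pgspEquiv m))⟩
  · obtain ⟨φ⟩ := cent_iso' hn hs hj one_ne_zero D₂
    obtain ⟨P, hP, hPb⟩ := exists_congr_of_disc h2 (reM e (H49.hypGram m F₀)) S₂.1
      (by rw [reM_transpose, hypGram_transpose]) hS₂s hd₂ (gl_det_ne_zero S₂)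
      (by rw [hdetS₂]; exact ⟨_, rfl⟩)
    obtain ⟨φ'⟩ := cent_iso_of_square e S₂ (H49.hypGram m F₀) P hP hPb
    exact ⟨φ.trans (φ'.trans (pgoPlusEquiv h2 m))⟩
  · obtain ⟨φ⟩ := cent_iso' hn hs hj one_ne_zero D₃
    obtain ⟨P, hP, hPb⟩ := exists_congr_of_disc h2 (reM e' (H49.minusGram (m - 1) F₀ 0 (-ν))) S₃.1
      (by rw [reM_transpose, minusGram_transpose]) hS₃s hd₃ (gl_det_ne_zero S₃)
      (by rw [hdetS₃]; exact ⟨_, rfl⟩)
    obtain ⟨φ'⟩ := cent_iso_of_square e' S₃ (H49.minusGram (m - 1) F₀ 0 (-ν)) P hP hPb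
    exact ⟨φ.trans (φ'.trans (pgoMinusEquiv h2 (m - 1) 0 (-ν)))⟩

end Cfsg.Agent.S2707
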