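import Cfsg.Statements.S2708
import Cfsg.Agent.H50.GraphAutUReps
import Cfsg.Agent.H50.GraphAutChar2

set_option autoImplicit false
open Cfsg

namespace Cfsg.Agent.S2708

open Cfsg.Agent.H50.GraphAut Cfsg.Agent.H50.GraphAutU Cfsg.Agent.H50 Cfsg.Agent in
/-- Let T = PSU_n(q) with n = 2m ≥ 4 even and q even, realised over the field F (of characteristic 2) with q² elements, and G = Inndiag(T) the image of PGU_n(q). The involutory graph automorphisms of T fall into exactly two G-classes, with representatives whose centralizers in G are isomorphic respectively to the symplectic group Sp_n(F₀) and to the centralizer in Sp_n(F₀) of a symplectic transvection, F₀ a field with q elements. -/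
theorem result {F : Type*} [Field F] [Fintype F] [CharP F 2] {q : ℕ} (hF : Fintype.card F = q ^ 2) {n m : ℕ} (hm : 2 ≤ m) (hnm : n = 2 * m) (F₀ : Type*) [Field F₀] [Fintype F₀] (hF₀ : Fintype.card F₀ = q) :
    ∃ (γ₁ γ₃ : MulAut (Cfsg.PSU n F q)) (t : ↥(Matrix.symplecticGroup (Fin m) F₀)), Cfsg.IsTransvection (t : Matrix (Fin m ⊕ Fin m) (Fin m ⊕ Fin m) F₀) ∧ Cfsg.IsGraphAutClassPSU γ₁ ∧ orderOf γ₁ = 2 ∧ Cfsg.IsGraphAutClassPSU γ₃ ∧ orderOf γ₃ = 2 ∧ ¬ Cfsg.IsConjUnder (Cfsg.inndiagPSU n F q) γ₁ γ₃ ∧ (∀ γ : MulAut (Cfsg.PSU n F q), Cfsg.IsGraphAutClassPSU γ → orderOf γ = 2 → Cfsg.IsConjUnder (Cfsg.inndiagPSU n F q) γ₁ γ ∨ Cfsg.IsConjUnder (Cfsg.inndiagPSU n F q) γ₃ γ) ∧ Nonempty (↥(Cfsg.inndiagPSU n F q ⊓ Subgroup.centralizer {γ₁}) ≃* ↥(Matrix.symplecticGroup (Fin m) F₀)) ∧ Nonempty (↥(Cfsg.inndiagPSU n F q ⊓ Subgroup.centralizer {γ₃}) ≃* ↥(Subgroup.centralizer ({t} : Set ↥(Matrix.symplecticGroup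 (Fin m) F₀)))) := by
  classical
  have hn : 3 ≤ n := by omega
  have hs : ¬ (n = 3 ∧ q = 2) := by omega
  obtain ⟨j, hj⟩ := exists_emb hF F₀ hF₀
  have : CharP F₀ 2 := RingHom.charP j j.injective 2
  have : Nonempty (Fin n) := ⟨⟨0, by omega⟩⟩
  have hsq := exists_mul_self_char2 (F := F₀)
  have htr := t0_isTransvection (F := F₀) (m := m) ⟨0, by omega⟩
  obtain ⟨w, c, hw, hc, ht⟩ := SpTransv.exists_transv
    (t0 (F := F₀) (m := m) ⟨0, by omega⟩).1 (t0 (F := F₀) (m := m) ⟨0, by omega⟩).2 htr.1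
  let e : Fin m ⊕ Fin m ≃ Fin n := Fintype.equivFinOfCardEq (by simp [hnm]; ring)
  have hne : Nonempty (Fin m ⊕ Fin m) := ⟨Sum.inl ⟨0, by omega⟩⟩
  have hdJ : (Matrix.J (Fin m) F₀).det ≠ 0 := (Matrix.isUnit_det_J (Fin m) F₀).ne_zero
  have hd₁ : (reM e (Matrix.J (Fin m) F₀)).det ≠ 0 := by
    rw [reM_det]
    exact hdJ
  have hM₃inv : InvCent.Bc w * InvCent.Bc (Matrix.mulVec (Matrix.J (Fin m) F₀) w) = 1 :=
    InvCent.Bc_mul_inv w
  have hdM₃ : (InvCent.Bc (Matrix.mulVec (Matrix.J (Fin m) F₀) w)).det ≠ 0 := by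
    intro h
    have h1 := congrArg Matrix.det hM₃inv
    rw [Matrix.det_mul, h, mul_zero, Matrix.det_one] at h1
    exact zero_ne_one h1
  have hJw : Matrix.mulVec (Matrix.J (Fin m) F₀) w ≠ 0 := by
    intro h
    apply hw
    have h1 := congrArg (fun v => Matrix.mulVec (Matrix.J (Fin m) F₀) v) h
    simp only [Matrix.mulVec_mulVec, Matrix.J_squared, Matrix.neg_mulVec, Matrix.one_mulVec,
      Matrix.mulVec_zero] at h1
    exact neg_eq_zero.mp h1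
  obtain ⟨jj, hjj⟩ : ∃ jj, Matrix.mulVec (Matrix.J (Fin m) F₀) w jj ≠ 0 := by
    by_contra hcon
    push Not at hcon
    exact hJw (funext hcon)
  have hJ0 : Matrix.J (Fin m) F₀ ≠ 0 := by
    intro h
    apply hdJ
    rw [h]
    simp
  have hM₃0 : InvCent.Bc (Matrix.mulVec (Matrix.J (Fin m) F₀) w) ≠ 0 := by
    intro h
    apply hdM₃
    rw [h]
    simp
  let b₁ : ↥(Cfsg.GU n F q) := guOf hF _ (J_unitary hF m e)
  have hb₁s : b₁.1.1.transpose = b₁.1.1 := by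
    rw [guOf_val, reM_transpose, Matrix.J_transpose, InvCent.neg_J_char2]
  have hb₁a : IsAltM b₁.1.1 := altM_reM e _ (altM_J m)
  obtain ⟨P₁, S₁, D₁, hS₁⟩ := exists_datum_symm hF j hj b₁ hb₁s
  have hS₁a : IsAltM S₁.1 := datum_alt D₁ hb₁a
  have D₃ := datum_one (n := n) hF j
  have hone : ∃ i, (1 : GL (Fin n) F₀).1 i i ≠ 0 := ⟨⟨0, by omega⟩, by simp⟩
  have hone_s : (1 : GL (Fin n) F₀).1.transpose = (1 : GL (Fin n) F₀).1 := by simp
  have hG : ∀ S : GL (Fin n) F₀, S.1.transpose = S.1 →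
      Cfsg.IsGraphAutClassPSL (Gam S) ∧ orderOf (Gam S) = 2 :=
    fun S hS => ⟨(isGraphAut_iff hn _).mpr ⟨S, rfl⟩,
      (orderOf_Gam_iff hn S).mpr ⟨1, by rw [hS, Units.val_one, one_smul]⟩⟩
  have hnc : ¬ Cfsg.IsConjUnder (Cfsg.inndiagPSL n F₀) (Gam S₁) (Gam 1) :=
    not_conj_alt S₁ 1 hS₁a hone
  have hc1 : Cfsg.IsConjUnder (Cfsg.inndiagPSL n F₀) (Gam (glOf _ hd₁)) (Gam S₁) := by
    rcases class_char2 hn hnm (glOf _ hd₁) 1 e rfl hone_s hone (Gam S₁) (hG S₁ hS₁).1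
      (hG S₁ hS₁).2 with h | h
    · exact h
    · exact absurd (conjUnder_symm _ h) hnc
  have hg₁ := (isGraphAutU_iff hF hn hs (GamU hF b₁)).mpr
    ⟨b₁, rfl, 1, by rw [hb₁s, Units.val_one, one_smul]⟩
  have hg₃ := (isGraphAutU_iff hF hn hs (GamU hF (1 : ↥(Cfsg.GU n F q)))).mpr
    ⟨1, rfl, 1, by simp⟩
  refine ⟨GamU hF b₁, GamU hF 1, t0 ⟨0, by omega⟩, htr, hg₁.1, hg₁.2, hg₃.1, hg₃.2, ?_, ?_, ?_, ?_⟩
  · intro h
    exact hnc ((conj_iff hn hs hj one_ne_zero D₁ D₃).mp h)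
  · intro γ hγ hγ2
    obtain ⟨b, rfl, c, hc⟩ := (isGraphAutU_iff hF hn hs γ).mp ⟨hγ, hγ2⟩
    have hbs : b.1.1.transpose = b.1.1 := by
      rcases sq_eq_one_of_transpose b.1.1 (gl_ne_zero b.1) c hc with h | h
      · rw [h, one_smul] at hc
        exact hc
      · rw [h, neg_smul, one_smul] at hc
        rw [hc]
        exact CharTwo.neg_eq _
    obtain ⟨P, S, D, hS⟩ := exists_datum_symm hF j hj b hbs
    rcases class_char2 hn hnm (glOf _ hd₁) 1 e rfl hone_s hone (Gam S) (hG S hS).1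
      (hG S hS).2 with h | h
    · left
      exact (conj_iff hn hs hj one_ne_zero D₁ D).mpr
        (conjUnder_trans _ (conjUnder_symm _ hc1) h)
    · right
      exact (conj_iff hn hs hj one_ne_zero D₃ D).mpr h
  · obtain ⟨φ⟩ := cent_iso hn hs hj one_ne_zero D₁
    obtain ⟨R, R', h1, h1', h3⟩ := exists_rect_alt (by rw [Fintype.card_fin, hnm]) S₁.1
      (gl_det_ne_zero S₁) hS₁a
    exact ⟨φ.trans ((simBCongr R R' h1 h1' S₁.1 (Matrix.J (Fin m) F₀) 1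
      (by rw [h3, Units.val_one, one_smul])).trans
      ((isomProjEquiv hsq (Matrix.J (Fin m) F₀) hJ0).symm.trans isomJEquiv))⟩
  · obtain ⟨φ⟩ := cent_iso hn hs hj one_ne_zero D₃
    obtain ⟨R, R', h1, h1', h3⟩ := exists_rect_onb hsq
      (by simp [hnm]; ring : Fintype.card (Fin m ⊕ Fin m) = n)
      (InvCent.Bc (Matrix.mulVec (Matrix.J (Fin m) F₀) w)) (InvCent.Bc_transpose _) hdM₃
      ⟨jj, by rw [InvCent.Bc_diag]; exact mul_self_ne_zero.mpr hjj⟩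
    exact ⟨φ.trans ((simBCongr R R' h1 h1' _ (1 : Matrix (Fin n) (Fin n) F₀) 1
      (by rw [h3, Units.val_one, one_smul])).symm.trans
      ((isomProjEquiv hsq _ hM₃0).symm.trans (isomBcEquiv (t0 ⟨0, by omega⟩) w c hw hc ht)))⟩

end Cfsg.Agent.S2708
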