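import Cfsg.Statements.S2709
import Cfsg.Agent.H50.GraphAutUSplit2

set_option autoImplicit false
open Cfsg

namespace Cfsg.Agent.S2709

open Cfsg.Agent.H50.GraphAut Cfsg.Agent.H50.GraphAutU Cfsg.Agent.H50 Cfsg.Agent in
/-- Let T = PSU_n(q) be simple (n ≥ 3, (n,q) ≠ (3,2), q = p^f), realised over the field F with q² elements, G = Inndiag(T) the image of PGU_n(q), and γ an involutory graph automorphism of T. The G-class of γ is the union of exactly c T-classes, where: if n is even and q is odd, c = gcd(n/2, q + 1) when C_G(γ) is isomorphic to PGSp_n(F₀) for a field F₀ with q elements (symplectic type) and c = gcd(n, q + 1)/2 otherwise; and c = gcd(n, q + 1) when n is odd or q is even. -/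
theorem result {F : Type*} [Field F] [Fintype F] {p f q : ℕ} [Fact p.Prime] (hq : q = p ^ f) (hf : 1 ≤ f) (hF : Fintype.card F = q ^ 2) {n : ℕ} (hn : 3 ≤ n) (hs : ¬ (n = 3 ∧ q = 2)) (F₀ : Type*) [Field F₀] [Fintype F₀] (hF₀ : Fintype.card F₀ = q) (γ : MulAut (Cfsg.PSU n F q)) (hγ : Cfsg.IsGraphAutClassPSU γ) (hγ2 : orderOf γ = 2) :
    ((Even n ∧ Odd q ∧ Nonempty (↥(Cfsg.inndiagPSU n F q ⊓ Subgroup.centralizer {γ}) ≃* Cfsg.PGSp (n / 2) F₀)) → Cfsg.splitClassCount (Cfsg.inndiagPSU n F q) (Cfsg.Inn (Cfsg.PSU n F q)) γ = Nat.gcd (n / 2) (q + 1)) ∧ ((Even n ∧ Odd q ∧ ¬ Nonempty (↥(Cfsg.inndiagPSU n F q ⊓ Subgroup.centralizer {γ}) ≃* Cfsg.PGSp (n / 2) F₀)) → Cfsg.splitClassCount (Cfsg.inndiagPSU n F q) (Cfsg.Inn (Cfsg.PSU n F q)) γ = Nat.gcd n (q + 1) / 2) ∧ (¬ (Even n ∧ Odd q) → Cfsg.splitClassCount (Cfsg.inndiagPSU n F q) (Cfsg.Inn (Cfsg.PSU n F q)) γ = Nat.gcd n (q + 1)) := by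
  classical
  obtain ⟨j, hj⟩ := exists_emb hF F₀ hF₀
  obtain ⟨b, rfl, c, hc⟩ := (isGraphAutU_iff hF hn hs γ).mp ⟨hγ, hγ2⟩
  have : Nonempty (Fin n) := ⟨⟨0, by omega⟩⟩
  rw [splitClassCount_GamU hF hn hs b]
  have key : Even n → Odd q →
      ((detSimU hF b).index = Nat.gcd (n / 2) (q + 1) ∧
        Nonempty (↥(Cfsg.inndiagPSU n F q ⊓ Subgroup.centralizer {GamU hF b}) ≃*
          Cfsg.PGSp (n / 2) F₀)) ∨
      ((detSimU hF b).index = Nat.gcd n (q + 1) / 2 ∧
        ¬ Nonempty (↥(Cfsg.inndiagPSU n F q ⊓ Subgroup.centralizer {GamU hF b}) ≃*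
          Cfsg.PGSp (n / 2) F₀)) := by
    intro hev hqodd
    obtain ⟨m, hm⟩ := id hev
    have hnm : n = 2 * m := by omega
    have hodd₀ : Odd (Fintype.card F₀) := by rw [hF₀]; exact hqodd
    have h2 : (2 : F₀) ≠ 0 := H49.two_ne_zero_of_odd_card hodd₀
    have h2F : (2 : F) ≠ 0 := by
      have h := (map_ne_zero j).mpr h2
      rwa [map_ofNat] at h
    have hdiv : n / 2 = m := by omega
    rw [hdiv]
    rcases sq_eq_one_of_transpose b.1.1 (gl_ne_zero b.1) c hc with h | h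
    · rw [h, one_smul] at hc
      right
      obtain ⟨P, S₀, D, hS⟩ := exists_datum_symm hF j hj b hc
      refine ⟨?_, ?_⟩
      · rw [detSimU_symm hj h2 hnm (by omega) D hS, index_comap_powC hF hqodd hev, Nat.gcd_comm]
      · rintro ⟨φ⟩
        obtain ⟨ψ⟩ := cent_iso' hn hs hj one_ne_zero D
        exact not_iso_pgsp_of_symm hodd₀ (by omega) hnm S₀ hS ⟨ψ.symm.trans φ⟩
    · rw [h, neg_smul, one_smul] at hc
      left
      obtain ⟨κ, hκ0, hκ⟩ := H17.exists_eps hF
      obtain ⟨P, S₀, c', D, hS⟩ := exists_datum_alt hF j hj κ hκ0 hκ b hc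
      have halt : IsAltM b.1.1 := by
        rw [altM_iff]
        refine ⟨hc, fun i => ?_⟩
        have h3 := congrFun (congrFun hc i) i
        rw [Matrix.transpose_apply, Matrix.neg_apply] at h3
        have h4 : (2 : F) * b.1.1 i i = 0 := by linear_combination h3
        rcases mul_eq_zero.mp h4 with h5 | h5
        · exact absurd h5 h2F
        · exact h5
      refine ⟨?_, ?_⟩
      · rw [detSimU_alt hj hnm (by omega) D halt, index_powC hF, Nat.gcd_comm]
      · obtain ⟨φ⟩ := cent_iso hn hs hj (neg_ne_zero.mpr (inv_ne_zero hκ0)) D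
        have hS₀a := datum_alt D halt
        obtain ⟨R, R', h1, h1', h3⟩ := exists_rect_alt (by rw [Fintype.card_fin, hnm]) S₀.1
          (gl_det_ne_zero S₀) hS₀a
        exact ⟨φ.trans ((simBCongr R R' h1 h1' S₀.1 (Matrix.J (Fin m) F₀) 1
          (by rw [h3, Units.val_one, one_smul])).trans (pgspEquiv m))⟩
  refine ⟨?_, ?_, ?_⟩
  · rintro ⟨hev, hp, hiso⟩
    rcases key hev hp with ⟨h, -⟩ | ⟨-, h⟩
    · exact h
    · exact absurd hiso h
  · rintro ⟨hev, hp, hiso⟩
    rcases key hev hp with ⟨-, h⟩ | ⟨h, -⟩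
    · exact absurd h hiso
    · exact h
  · intro hne
    by_cases hev : Even n
    · have hq2 : ¬ Odd q := fun h => hne ⟨hev, h⟩
      have hqe : Even q := Nat.not_odd_iff_even.mp hq2
      have hp2 : p = 2 := by
        rw [hq] at hqe
        have h1 : Even p := (Nat.even_pow.mp hqe).1
        exact (Nat.Prime.even_iff Fact.out).mp h1
      have h20 : (2 : F) = 0 := by
        have h3 : ((Fintype.card F : ℕ) : F) = 0 := Nat.cast_card_eq_zero F
        rw [hF, hq, hp2] at h3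
        push_cast at h3
        exact (pow_eq_zero_iff (by omega)).mp ((pow_eq_zero_iff (by norm_num)).mp h3)
      have : CharP F 2 := CharTwo.of_one_ne_zero_of_two_eq_zero one_ne_zero h20
      obtain ⟨m, hm⟩ := id hev
      rw [detSimU_char2 hF (by omega : n = 2 * m) (by omega) hqe b, index_powC hF, Nat.gcd_comm]
    · rw [detSimU_odd hF (Nat.not_even_iff_odd.mp hev) b, index_powC hF, Nat.gcd_comm]

end Cfsg.Agent.S2709
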