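import Cfsg.Statements.S2710
import Cfsg.Agent.H50.GraphAutUTransfer
import Cfsg.Agent.S2703

set_option autoImplicit false
open Cfsg

namespace Cfsg.Agent.S2710

open Cfsg.Agent.H50.GraphAut Cfsg.Agent.H50.GraphAutU Cfsg.Agent.H50 Cfsg.Agent in
/-- Let T = PSU_n(q) with n ≥ 4 divisible by 4 (n = 2m) and q odd, realised over the field F with q² elements, G = Inndiag(T) the image of PGU_n(q), and φ the standard field automorphism of T attached to the q-th power map of F (it induces inverse-transpose on the unitary matrices and is a graph automorphism). Its centralizer in G is isomorphic to the projective conformal orthogonal group of the plus-type form Σ xᵢ yᵢ in dimension n over a field F₀ with q elements. (Dimensions n ≡ 2 (mod 4) are not covered.) -/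
theorem result {F : Type*} [Field F] [Fintype F] {q : ℕ} (hodd : Odd q) (hF : Fintype.card F = q ^ 2) {n m : ℕ} (hm : 2 ≤ m) (hnm : n = 2 * m) (h4 : 4 ∣ n) (F₀ : Type*) [Field F₀] [Fintype F₀] (hF₀ : Fintype.card F₀ = q) (σ : F ≃+* F) (hσ : ∀ a : F, σ a = a ^ q) (φ : MulAut (Cfsg.PSU n F q)) (hφ : Cfsg.IsFieldAutPSUOf σ φ) :
    Nonempty (↥(Cfsg.inndiagPSU n F q ⊓ Subgroup.centralizer {φ}) ≃* Cfsg.PGO F₀ (Cfsg.quadFormPlus m F₀)) := by
  classical
  have hn : 3 ≤ n := by omega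
  have hs : ¬ (n = 3 ∧ q = 2) := by omega
  obtain ⟨j, hj⟩ := exists_emb hF F₀ hF₀
  have hσ' : σ = frobE hF := RingEquiv.ext (fun a => by rw [hσ, frobE_apply])
  have hφ' : φ = GamU hF 1 := by
    rw [(isFieldAutU_iff hF σ φ).mp hφ, hσ', ← iotaU_eq_phiU, GamU, inv_one, deltaU_one, one_mul]
  rw [hφ']
  have D : IsDatum hF j 1 (1 : ↥(Cfsg.GU n F q)) 1 1 1 :=
    ⟨by simp, by simp⟩
  obtain ⟨ψ⟩ := cent_iso' hn hs hj one_ne_zero D
  have hodd₀ : Odd (Fintype.card F₀) := by rw [hF₀]; exact hodd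
  have hι : Cfsg.IsInverseTransposeAutPSL (Gam (1 : GL (Fin n) F₀)) := (isInvT_iff _).mpr Gam_one
  obtain ⟨φ'⟩ := (Cfsg.Agent.S2703.result hodd₀ hm hnm _ hι).1 (by
    obtain ⟨k, hk⟩ := h4
    rw [hk, mul_assoc, Nat.mul_div_cancel_left _ (by norm_num)]
    exact Even.mul_left (Nat.Odd.sub_odd hodd₀ odd_one) _)
  exact ⟨ψ.trans φ'⟩

end Cfsg.Agent.S2710
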