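import Cfsg.Statements.S2716
import Cfsg.Agent.H49.MinusCentMain

set_option autoImplicit false
open Cfsg

namespace Cfsg.Agent.S2716

/-- Let T = PΩ⁻_{2m+2}(F) (m ≥ 3, |F| = p^f; the form Σ xᵢ yᵢ + z₁² + a z₁ z₂ + b z₂² with anisotropic binary part), G = Inndiag(T), and x a field automorphism of T of prime order r. Then r is odd and divides f; C_G(x) is isomorphic to Inndiag(PΩ⁻_{2m+2}(F₀)) for a field F₀ with p^(f/r) elements and some anisotropic binary part over F₀; and the G-class of x is a single T-class. -/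
theorem result {F : Type*} [Field F] [Fintype F] {p f : ℕ} [Fact p.Prime] (hF : Fintype.card F = p ^ f) (hf : 1 ≤ f) {m : ℕ} (hm : 3 ≤ m) (a b : F) (hab : (∀ z₁ z₂ : F, z₁ ^ 2 + a * z₁ * z₂ + b * z₂ ^ 2 = 0 → z₁ = 0 ∧ z₂ = 0)) (x : MulAut (Cfsg.POmega F (Cfsg.quadFormMinus m F a b))) (hx : Cfsg.IsFieldAutClassPOmegaMinus m x) {r : ℕ} (hr : r.Prime) (hxr : orderOf x = r) (F₀ : Type*) [Field F₀] [Fintype F₀] (hF₀ : Fintype.card F₀ = p ^ (f / r)) :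
    Odd r ∧ r ∣ f ∧ (∃ a₀ b₀ : F₀, (∀ z₁ z₂ : F₀, z₁ ^ 2 + a₀ * z₁ * z₂ + b₀ * z₂ ^ 2 = 0 → z₁ = 0 ∧ z₂ = 0) ∧ Nonempty (↥(Cfsg.inndiagPOmegaMinus m F a b ⊓ Subgroup.centralizer {x}) ≃* ↥(Cfsg.inndiagPOmegaMinus m F₀ a₀ b₀))) ∧ Cfsg.splitClassCount (Cfsg.inndiagPOmegaMinus m F a b) (Cfsg.Inn (Cfsg.POmega F (Cfsg.quadFormMinus m F a b))) x = 1 := by
  exact Cfsg.Agent.H49.minus_field_cent hF hf hm a b hab x hx hr hxr F₀ hF₀

end Cfsg.Agent.S2716
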