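import Cfsg.Statements.S2738

set_option autoImplicit false
open Cfsg

namespace Cfsg.Agent.S2738

open Matrix

theorem transvection_mul_apply' {ι F : Type*} [Fintype ι] [DecidableEq ι] [CommRing F] (i j : ι) (c : F) (M : Matrix ι ι F) (a b : ι) :
    (Matrix.transvection i j c * M) a b = M a b + (if a = i then c * M j b else 0) := by
  by_cases h : a = i
  · subst h; simp
  · simp [h]

theorem transvection_apply' {ι F : Type*} [DecidableEq ι] [CommRing F] (i j : ι) (c : F) (a b : ι) :
    (Matrix.transvection i j c) a b = (if a = b then 1 else 0) + (if a = i ∧ b = j then c else 0) := by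
  simp [Matrix.transvection, Matrix.one_apply, Matrix.single_apply, eq_comm]

theorem diag2n_eq_prod {ι F : Type*} [Fintype ι] [DecidableEq ι] [Field F] {i j : ι} (hij : i ≠ j) (a : F) (ha : a ≠ 0) :
    Matrix.SpecialLinearGroup.diag2n hij a ha =
      SpecialLinearGroup.transvection hij a *
      (SpecialLinearGroup.transvection hij.symm (- a⁻¹) *
      (SpecialLinearGroup.transvection hij a *
      (SpecialLinearGroup.transvection hij (-1) *
      (SpecialLinearGroup.transvection hij.symm 1 *
      SpecialLinearGroup.transvection hij (-1))))) := by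
  apply Subtype.ext
  simp only [SpecialLinearGroup.diag2n_coe]
  change _ = Matrix.transvection i j a * (Matrix.transvection j i (-a⁻¹) * (Matrix.transvection i j a *
    (Matrix.transvection i j (-1) * (Matrix.transvection j i 1 * Matrix.transvection i j (-1)))))
  ext k l
  simp only [transvection_mul_apply', transvection_apply', Matrix.diagonal_apply]
  have hji := hij.symm
  by_cases hki : k = i
  · subst hki
    by_cases hlk : l = k
    · subst hlk
      simp [hij, hji, inv_mul_cancel₀ ha]
    · by_cases hlj : l = j
      · subst hlj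
        simp [hij, hji, mul_inv_cancel₀ ha]
      · simp [hij, hji, hlj, Ne.symm hlk, Ne.symm hlj]
  · by_cases hkj : k = j
    · subst hkj
      by_cases hlk : l = k
      · subst hlk
        simp [hij, hji]
      · by_cases hli : l = i
        · subst hli
          simp [hij, hji, inv_mul_cancel₀ ha]
        · simp [hij, hji, hlk, Ne.symm hlk, Ne.symm hli]
    · simp [hki, hkj]

/-- The special linear group SL(3, 4) has centre of order 3 and does not split over it: no subgroup is a complement to the centre (so SL(3, 4) is a non-split central extension of PSL(3, 4) by a group of order 3). -/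
theorem result (F : Type*) [Field F] [Fintype F] (hF : Fintype.card F = 4) : Nat.card ↥(Subgroup.center (Matrix.SpecialLinearGroup (Fin 3) F)) = 3 ∧ ¬ ∃ K : Subgroup (Matrix.SpecialLinearGroup (Fin 3) F), Subgroup.IsComplement' (Subgroup.center (Matrix.SpecialLinearGroup (Fin 3) F)) K := by
  classical
  have hunits : Fintype.card Fˣ = 3 := by rw [Fintype.card_units, hF]
  have hcard : Nat.card ↥(Subgroup.center (Matrix.SpecialLinearGroup (Fin 3) F)) = 3 := by
    rw [Nat.card_congr (Matrix.SpecialLinearGroup.center_equiv_rootsOfUnity' (0 : Fin 3)).toEquiv]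
    have htop : rootsOfUnity (Fintype.card (Fin 3)) F = ⊤ := by
      ext u
      simp only [mem_rootsOfUnity, Subgroup.mem_top, iff_true, Fintype.card_fin]
      rw [← hunits]
      exact pow_card_eq_one
    rw [htop, Subgroup.card_top, Nat.card_eq_fintype_card, hunits]
  refine ⟨hcard, ?_⟩
  rintro ⟨K, hK⟩
  -- characteristic two
  have h4 : (4 : F) = 0 := by
    have := card_nsmul_eq_zero (G := F) (x := 1)
    rw [hF] at this
    simpa using this
  have h2 : (2 : F) = 0 := by
    have : (2 : F) * 2 = 0 := by rw [← h4]; norm_num
    exact mul_self_eq_zero.1 this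
  have hbb : ∀ b : F, b + b = 0 := fun b => by rw [← two_mul, h2, zero_mul]
  -- elements of order two lie in K
  have hinv : ∀ t : Matrix.SpecialLinearGroup (Fin 3) F, t * t = 1 → t ∈ K := by
    intro t ht
    obtain ⟨⟨z, k⟩, hzk, -⟩ := hK.existsUnique t
    simp only at hzk
    have hzc : ∀ g, g * (z : Matrix.SpecialLinearGroup (Fin 3) F) = z * g :=
      fun g => Subgroup.mem_center_iff.1 z.2 g
    have h1 : (z : Matrix.SpecialLinearGroup (Fin 3) F) * z * (k * k) = 1 := by
      rw [← ht, ← hzk]
      calc (z : Matrix.SpecialLinearGroup (Fin 3) F) * z * (k * k) = z * (z * k) * k := by group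
        _ = z * (k * z) * k := by rw [hzc k]
        _ = z * k * (z * k) := by group
    have h2' : (z : Matrix.SpecialLinearGroup (Fin 3) F) * z ∈ K := by
      have : (z : Matrix.SpecialLinearGroup (Fin 3) F) * z = ((k : Matrix.SpecialLinearGroup (Fin 3) F) * k)⁻¹ :=
        eq_inv_of_mul_eq_one_left h1
      rw [this]
      exact K.inv_mem (K.mul_mem k.2 k.2)
    have h3 : (z : Matrix.SpecialLinearGroup (Fin 3) F) * z = 1 := by
      have hmem : (z : Matrix.SpecialLinearGroup (Fin 3) F) * z ∈
          Subgroup.center (Matrix.SpecialLinearGroup (Fin 3) F) ⊓ K :=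
        ⟨Subgroup.mul_mem _ z.2 z.2, h2'⟩
      rw [hK.disjoint.eq_bot, Subgroup.mem_bot] at hmem
      exact hmem
    have h4' : (z : Matrix.SpecialLinearGroup (Fin 3) F) ^ 3 = 1 := by
      have := pow_card_eq_one' (G := ↥(Subgroup.center (Matrix.SpecialLinearGroup (Fin 3) F))) (x := z)
      rw [hcard] at this
      have := congrArg Subtype.val this
      simpa using this
    have h5 : (z : Matrix.SpecialLinearGroup (Fin 3) F) = 1 := by
      have : (z : Matrix.SpecialLinearGroup (Fin 3) F) ^ 3 = z * z * z := by
        rw [pow_succ, pow_two]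
      rw [this, h3, one_mul] at h4'
      exact h4'
    rw [← hzk, h5, one_mul]
    exact k.2
  have htrans : ∀ (i j : Fin 3) (hij : i ≠ j) (b : F),
      Matrix.SpecialLinearGroup.transvection hij b ∈ K := by
    intro i j hij b
    apply hinv
    rw [← Matrix.SpecialLinearGroup.transvection_add, hbb]
    exact Matrix.SpecialLinearGroup.transvection_coeff_zero hij
  have htop : ∀ M : Matrix.SpecialLinearGroup (Fin 3) F, M ∈ K := by
    intro M
    refine Matrix.SpecialLinearGroup.diagonal_transvection_induction' (fun M => M ∈ K) M ?_ htrans ?_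
    · intro i j hij c hc
      rw [diag2n_eq_prod hij c hc]
      exact K.mul_mem (htrans _ _ _ _) (K.mul_mem (htrans _ _ _ _) (K.mul_mem (htrans _ _ _ _)
        (K.mul_mem (htrans _ _ _ _) (K.mul_mem (htrans _ _ _ _) (htrans _ _ _ _)))))
    · intro A B hA hB
      exact K.mul_mem hA hB
  have hZ : Subgroup.center (Matrix.SpecialLinearGroup (Fin 3) F) = ⊥ := by
    have := hK.disjoint.eq_bot
    rw [eq_bot_iff]
    intro z hz
    rw [← this]
    exact ⟨hz, htop z⟩
  rw [hZ] at hcard
  simp at hcard

end Cfsg.Agent.S2738
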