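import Cfsg.Statements.S2739
import Cfsg.Agent.H51.PSL34

set_option autoImplicit false
open scoped Pointwise
open Cfsg

namespace Cfsg.Agent.S2739

/-- In the projective special linear group PSL(3, 4) all subgroups of order 3 are conjugate. -/
theorem result (F : Type*) [Field F] [Fintype F] (hF : Fintype.card F = 4) (X Y : Subgroup (Matrix.ProjectiveSpecialLinearGroup (Fin 3) F)) (hX : Nat.card ↥X = 3) (hY : Nat.card ↥Y = 3) : ∃ g : Matrix.ProjectiveSpecialLinearGroup (Fin 3) F, MulAut.conj g • X = Y := by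
  obtain ⟨c, hc⟩ := Cfsg.Agent.H51.psl3_f4_conj_subgroups hF X Y hX hY
  refine ⟨c, ?_⟩
  rw [Subgroup.pointwise_smul_def]
  exact hc

end Cfsg.Agent.S2739
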