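import Cfsg.Statements.S2760
import Cfsg.Agent.H51.CharP

set_option autoImplicit false
open Cfsg

namespace Cfsg.Agent.S2760

open Cfsg.Agent.H51

/-- Let G be a finite group with C_G(O₂(G)) ≤ O₂(G) and H a subgroup of G such that H is normal in G, or the subgroup O²(H) generated by the elements of H of odd order is normal in G. Then C_H(O₂(H)) ≤ O₂(H). -/
theorem result {G : Type*} [Group G] [Finite G] (hchar : Subgroup.centralizer (Cfsg.pCore 2 G : Set G) ≤ Cfsg.pCore 2 G) (H : Subgroup G) (hH : H.Normal ∨ ((Cfsg.pResidual 2 ↥H).map H.subtype).Normal) : Subgroup.centralizer (Cfsg.pCore 2 ↥H : Set ↥H) ≤ Cfsg.pCore 2 ↥H := by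
  haveI : Fact (Nat.Prime 2) := ⟨Nat.prime_two⟩
  apply charp_subtype_of
  rcases hH with hH | hH
  · exact charp_of_normal hchar hH
  · have hA := charp_of_normal hchar hH
    have hle : (Cfsg.pResidual 2 ↥H).map H.subtype ≤ H := Subgroup.map_subtype_le _
    have hRn := pCoreOf_normal_of_normal 2 hH
    have hR : Cfsg.pCoreOf 2 ((Cfsg.pResidual 2 ↥H).map H.subtype) ≤ Cfsg.pCoreOf 2 H := by
      apply le_pCoreOf 2 ((pCoreOf_le 2 _).trans hle)
      · rw [Subgroup.normalizer_eq_top_iff.2 hRn]; exact le_top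
      · exact pCoreOf_isPGroup 2 _
    apply charp_of_coprime_trivial
    intro c hc hcop
    obtain ⟨hcH, hcR⟩ := Subgroup.mem_inf.1 hc
    have hc0 : c ∈ (Cfsg.pResidual 2 ↥H).map H.subtype := by
      refine ⟨⟨c, hcH⟩, ?_, rfl⟩
      apply Subgroup.subset_closure
      show Nat.Coprime (orderOf (⟨c, hcH⟩ : ↥H)) 2
      rw [Subgroup.orderOf_mk]
      exact hcop
    have hc1 := hA (Subgroup.mem_inf.2 ⟨hc0, Subgroup.centralizer_le hR hcR⟩)
    obtain ⟨k, hk⟩ := (pCoreOf_isPGroup 2 _) ⟨c, hc1⟩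
    have hk' : c ^ (2 ^ k) = 1 := by
      have := congrArg Subtype.val hk
      simpa using this
    exact eq_one_of_pow_coprime hk' (pow_orderOf_eq_one c) hcop

end Cfsg.Agent.S2760
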