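import Mathlib
import Cfsg.Statements.S2779
import Cfsg.Agent.H65.NatSL2

set_option autoImplicit false
open Cfsg

namespace Cfsg.Agent.S2779

/-- Let L act on the elementary abelian p-group V (inside a finite group, by conjugation, faithfully) as SL₂(F) on its natural module, F a field with p^n elements, and let S be a Sylow p-subgroup of L. Then [V, S, S] = 1; |V| = p^(2n) and |C_V(S)| = p^n; and for every nonidentity s ∈ S and every v ∈ V outside C_V(S): C_V(s) = C_V(S) = [V, S] = [V, s] = the subgroup generated by the commutators [v, t], t ∈ S. -/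
theorem result {G : Type*} [Group G] [Finite G] {p : ℕ} [Fact p.Prime] {F : Type*} [Field F] [Fintype F] (n : ℕ) (hF : Fintype.card F = p ^ n) (V L : Subgroup G) (hnat : Cfsg.IsNaturalSL2Module F V L) (hf : L ⊓ Subgroup.centralizer (V : Set G) = ⊥) (S : Sylow p ↥L) (T : Subgroup G) (hT : T = ((S : Subgroup ↥L).map L.subtype)) : ⁅⁅V, T⁆, T⁆ = ⊥ ∧ Nat.card V = p ^ (2 * n) ∧ Nat.card ↥(V ⊓ Subgroup.centralizer ((T : Subgroup G) : Set G)) = p ^ n ∧ ∀ s ∈ T, s ≠ 1 → (V ⊓ Subgroup.centralizer ({s} : Set G)) = (V ⊓ Subgroup.centralizer ((T : Subgroup G) : Set G)) ∧ ⁅V, T⁆ = (V ⊓ Subgroup.centralizer ((T : Subgroup G) : Set G)) ∧ ⁅V, Subgroup.zpowers s⁆ = (V ⊓ Subgroup.centralizer ((T : Subgroup G) : Set G)) ∧ ∀ v ∈ V, v ∉ Subgroup.centralizer (T : Set G) → Subgroup.closure {x : G | ∃ t ∈ T, x = v * t * v⁻¹ * t⁻¹} = (V ⊓ Subgroup.centralizer ((T : Subgroup G) : Set G)) := by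
  obtain ⟨M⟩ := Cfsg.Agent.H65.NatSL2.exists_model n hF V L hnat hf S T hT
  have hV0 := M.comm_le
  refine ⟨?_, ?_, ?_, ?_⟩
  · exact Subgroup.commutator_eq_bot_iff_le_centralizer.2 (le_trans hV0 inf_le_right)
  · rw [M.card_V, hF, ← pow_mul, mul_comm]
  · rw [M.card_V0, hF]
  · intro s hs hs1
    have hsL := M.T_le hs
    have hb := M.ρ01_ne_zero ⟨s, hsL⟩ hs hs1
    refine ⟨M.cent_s_eq ⟨s, hsL⟩ hs hs1, ?_, ?_, ?_⟩
    · refine le_antisymm hV0 (fun x hx => ?_)
      obtain ⟨v, rfl⟩ := M.exists_comm_of_s ⟨s, hsL⟩ hs hb hx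
      exact Subgroup.commutator_mem_commutator v.2 hs
    · refine le_antisymm
        (le_trans (Subgroup.commutator_mono le_rfl (Subgroup.zpowers_le.2 hs)) hV0)
        (fun x hx => ?_)
      obtain ⟨v, rfl⟩ := M.exists_comm_of_s ⟨s, hsL⟩ hs hb hx
      exact Subgroup.commutator_mem_commutator v.2 (Subgroup.mem_zpowers s)
    · intro v hv hvc
      have hv1 : M.φ ⟨v, hv⟩ 1 ≠ 0 := fun h => hvc ((M.mem_V0_iff v).2 ⟨hv, h⟩).2
      refine le_antisymm ?_ (fun x hx => ?_)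
      · rw [Subgroup.closure_le]
        rintro x ⟨t, ht, rfl⟩
        exact hV0 (Subgroup.commutator_mem_commutator hv ht)
      · obtain ⟨t, ht, rfl⟩ := M.exists_comm_of_v ⟨v, hv⟩ hv1 hx
        exact Subgroup.subset_closure ⟨t, ht, rfl⟩

end Cfsg.Agent.S2779
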