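import Cfsg.Statements.S2781
import Cfsg.Agent.H52.Averaging

set_option autoImplicit false
open Cfsg
open scoped commutatorElement

namespace Cfsg.Agent.S2781

/-- Let H act faithfully by conjugation on the elementary abelian p-subgroup V of a finite group, let O^p(H) be the subgroup of H generated by its elements of order prime to p, and T a Sylow p-subgroup of O^p(H). If V is generated by the H-conjugates of C_V(T) (V is the smallest H-invariant subgroup containing C_V(T)), then V = [V, O^p(H)]·C_V(O^p(H)). -/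
theorem result {G : Type*} [Group G] [Finite G] {p : ℕ} [Fact p.Prime] (V H : Subgroup G) (hV : Cfsg.IsElementaryAbelian p V) (hHV : H ≤ Subgroup.normalizer (V : Set G)) (hf : H ⊓ Subgroup.centralizer (V : Set G) = ⊥) (R : Subgroup G) (hR : R = (Cfsg.pResidual p ↥H).map H.subtype) (S : Sylow p ↥R) (T : Subgroup G) (hT : T = ((S : Subgroup ↥R).map R.subtype)) (hgen : ∀ W : Subgroup G, H ≤ Subgroup.normalizer (W : Set G) → (V ⊓ Subgroup.centralizer ((T : Subgroup G) : Set G)) ≤ W → V ≤ W) : ⁅V, R⁆ ⊔ (V ⊓ Subgroup.centralizer ((R : Subgroup G) : Set G)) = V := by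
  have hp : p.Prime := Fact.out
  have hRH : R ≤ H := by rw [hR]; exact Subgroup.map_subtype_le _
  have hRV : R ≤ Subgroup.normalizer (V : Set G) := hRH.trans hHV
  have hHR : H ≤ Subgroup.normalizer (R : Set G) := by
    apply Cfsg.Agent.H52.le_normalizer_of_conj_mem
    intro h hh r hr
    rw [hR] at hr ⊢
    obtain ⟨r', hr', rfl⟩ := Subgroup.mem_map.mp hr
    exact ⟨⟨h, hh⟩ * r' * ⟨h, hh⟩⁻¹,
      (inferInstance : (Cfsg.pResidual p ↥H).Normal).conj_mem r' hr' ⟨h, hh⟩, rfl⟩
  have hcomV : ⁅V, R⁆ ≤ V := by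
    rw [Subgroup.commutator_le]
    intro v hv r hr
    have h1 : r * v⁻¹ * r⁻¹ ∈ V := (hRV hr v⁻¹).mp (V.inv_mem hv)
    have h2 := V.mul_mem hv h1
    convert h2 using 1; simp only [commutatorElement_def]; group
  apply le_antisymm
  · exact sup_le hcomV inf_le_left
  · apply hgen
    · apply Cfsg.Agent.H52.le_normalizer_of_conj_mem
      intro h hh w hw
      refine Cfsg.Agent.H52.conj_mem_sup ?_ ?_ hw
      · intro a ha
        exact Cfsg.Agent.H52.conj_mem_commutator_of_mem_normalizer (hHV hh) (hHR hh) ha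
      · intro b hb
        exact ⟨(hHV hh b).mp hb.1, Cfsg.Agent.H52.conj_mem_centralizer (hHR hh) hb.2⟩
    · rintro v ⟨hvV, hvT⟩
      have hVc : ∀ a ∈ V, ∀ b ∈ V, a * b = b * a := by
        intro a ha b hb
        have := hV.1
        exact congrArg Subtype.val (mul_comm' (⟨a, ha⟩ : ↥V) ⟨b, hb⟩)
      have h1 := Cfsg.Agent.H52.pow_index_mem_comm_sup_cent V R T hVc hRV hvV hvT
      have h2 : T.subgroupOf R = (S : Subgroup ↥R) := by
        rw [hT]
        exact Subgroup.comap_map_eq_self_of_injective (Subgroup.subtype_injective R) _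
      rw [h2] at h1
      have h3 : ¬ p ∣ (S : Subgroup ↥R).index := Sylow.not_dvd_index S
      have hcop : IsCoprime ((S : Subgroup ↥R).index : ℤ) (p : ℤ) := by
        rw [Int.isCoprime_iff_gcd_eq_one, Int.gcd_comm]
        have := (Nat.Prime.coprime_iff_not_dvd hp).mpr h3
        simpa [Int.gcd, Nat.Coprime] using this
      obtain ⟨a, b, hab⟩ := hcop
      have hvp : v ^ p = 1 := hV.2 v hvV
      have e : v = (v ^ (S : Subgroup ↥R).index) ^ a := by
        calc v = v ^ (1 : ℤ) := (zpow_one v).symm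
          _ = v ^ (a * ((S : Subgroup ↥R).index : ℤ) + b * p) := by rw [hab]
          _ = (v ^ ((S : Subgroup ↥R).index : ℤ)) ^ a * (v ^ (p : ℤ)) ^ b := by
              rw [zpow_add, mul_comm a, zpow_mul, mul_comm b (p : ℤ), zpow_mul]
          _ = (v ^ (S : Subgroup ↥R).index) ^ a := by
              rw [zpow_natCast, zpow_natCast, hvp, one_zpow, mul_one]
      rw [e]
      exact Subgroup.zpow_mem _ h1 a

end Cfsg.Agent.S2781
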