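import Cfsg.Statements.S2791
import Cfsg.Agent.Helper55.StrongFusion

set_option autoImplicit false
open Cfsg

namespace Cfsg.Agent.S2791

open Cfsg.Agent.Helper55 in
/-- Let S be a Sylow p-subgroup of the finite group G and A an abelian subgroup of S that is strongly closed in S with respect to G. Then A controls strong fusion in G: for some Sylow p-subgroup T containing A, whenever a subset of T is conjugated into T by an element of G, the same elementwise conjugation is induced by an element of N_G(A). -/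
theorem result {G : Type*} [Group G] [Finite G] {p : ℕ} [Fact p.Prime] (S : Sylow p G) (A : Subgroup G) (hA : IsMulCommutative ↥A) (hsc : Cfsg.IsStronglyClosed A (S : Subgroup G)) : Cfsg.ControlsStrongFusion p A := by
  have hA' : ∀ a ∈ A, ∀ b ∈ A, a * b = b * a := by
    intro a ha b hb
    have := mul_comm' (⟨a, ha⟩ : ↥A) ⟨b, hb⟩
    exact congrArg Subtype.val this
  refine ⟨S, hsc.1, ?_⟩
  intro B hB
  refine ⟨hB, ?_⟩
  intro g hg
  have h1 : Subgroup.closure B ≤ (S : Subgroup G).map (MulAut.conj g⁻¹).toMonoidHom := by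
    rw [Subgroup.closure_le]
    intro b hb
    rw [SetLike.mem_coe, mem_map_conj_iff]
    rw [inv_inv]
    exact hg ⟨b, hb, rfl⟩
  have h2 : Subgroup.closure B ≤ (S : Subgroup G).map (MulAut.conj 1).toMonoidHom := by
    rw [Subgroup.closure_le]
    intro b hb
    rw [SetLike.mem_coe, mem_map_conj_iff]
    have e : (1 : G)⁻¹ * b * 1 = b := by group
    rw [e]
    exact hB hb
  obtain ⟨c, hc, hceq⟩ := sc_main S hA' hsc (Subgroup.closure B) g⁻¹ 1 h1 h2
  have hA1 : A.map (MulAut.conj (1 : G)).toMonoidHom = A := by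
    ext z; rw [mem_map_conj_iff]; simp
  rw [hA1] at hceq
  have hy : c * g⁻¹ ∈ Subgroup.normalizer (A : Set G) := by
    intro z
    constructor
    · intro hz
      have h3 : (c * g⁻¹) * z * (c * g⁻¹)⁻¹ ∈ A.map (MulAut.conj (c * g⁻¹)).toMonoidHom := by
        rw [mem_map_conj_iff]; simpa [mul_assoc] using hz
      rw [hceq] at h3; exact h3
    · intro hz
      have h3 : (c * g⁻¹) * z * (c * g⁻¹)⁻¹ ∈ A.map (MulAut.conj (c * g⁻¹)).toMonoidHom := by
        rw [hceq]; exact hz
      rw [mem_map_conj_iff] at h3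
      simpa [mul_assoc] using h3
  refine ⟨g * c⁻¹, ?_, ?_⟩
  · have := Subgroup.inv_mem _ hy
    simpa using this
  · intro b hb
    have hcb : b * c = c * b := (Subgroup.mem_centralizer_iff.mp hc) b (Subgroup.subset_closure hb)
    have e : g * c⁻¹ * b * (g * c⁻¹)⁻¹ = g * (c⁻¹ * (b * c)) * g⁻¹ := by group
    rw [e, hcb]; group

end Cfsg.Agent.S2791
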