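import Cfsg.Statements.S2794
import Cfsg.Agent.H38.QdStable
import Cfsg.Agent.H38.QdZJ
import Cfsg.Agent.H38.ZJFunctor
import Cfsg.Agent.S1969

set_option autoImplicit false
open Cfsg

namespace Cfsg.Agent.S2794

/-- For an odd prime p and a finite group G, the group Qd(p) is not involved in G if and only if in every section K/R of G, for every Sylow p-subgroup S* of K/R, the centre of J(S*) (J generated by the abelian subgroups of largest order) controls strong fusion in K/R. -/
theorem result {G : Type*} [Group G] [Finite G] {p : ℕ} [Fact p.Prime] (hp : p ≠ 2) : ¬ Cfsg.Involves ↥(Cfsg.qd p) G ↔ ∀ (K R : Subgroup G) [hR : (R.subgroupOf K).Normal], ∀ T : Sylow p (K ⧸ R.subgroupOf K), Cfsg.ControlsStrongFusion p (Cfsg.centerThompsonAOf (T : Subgroup (K ⧸ R.subgroupOf K))) := by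
  constructor
  · intro hfree K R hR T
    have hloc : ∀ (K R : Subgroup G) [hR : (R.subgroupOf K).Normal],
        Subgroup.centralizer ((Cfsg.pCore p (↥K ⧸ R.subgroupOf K) :
          Subgroup (↥K ⧸ R.subgroupOf K)) : Set (↥K ⧸ R.subgroupOf K))
          ≤ Cfsg.pCore p (↥K ⧸ R.subgroupOf K) →
        ∀ T : Sylow p (↥K ⧸ R.subgroupOf K),
          (Cfsg.inducedFunctor (G := (↥K ⧸ R.subgroupOf K)) Cfsg.Agent.H38.zjFun
            ((T : Subgroup (↥K ⧸ R.subgroupOf K)))).Normal := by
      intro K R hR hc T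
      rw [Cfsg.Agent.H38.inducedFunctor_zjFun, Cfsg.Agent.H29.centerThompsonAOf_eq]
      have hst : Cfsg.IsNormalizerPStable p (↥K ⧸ R.subgroupOf K) :=
        Cfsg.Agent.H38.isNormalizerPStable_of_not_involves_qd hp
          (fun h => hfree (Cfsg.Agent.H38.involves_of_section K R h))
      exact Cfsg.Agent.H29.nZ_normal hp 0 hc (Cfsg.Agent.H29.qstab_of_isNormalizerPStable hst) T T
        (Cfsg.Agent.H29.isStronglyClosed_self _)
    have h := Cfsg.Agent.S1969.result (G := G) (p := p) Cfsg.Agent.H38.zjFun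
      Cfsg.Agent.H38.isCharPFunctor_zjFun hloc K R T
    rwa [Cfsg.Agent.H38.inducedFunctor_zjFun] at h
  · intro hall
    rintro ⟨K, R, hR, ⟨e⟩⟩
    obtain ⟨T⟩ : Nonempty (Sylow p (↥K ⧸ R.subgroupOf K)) := inferInstance
    exact Cfsg.Agent.H38.not_controls_zj_of_equiv_qd hp e T (hall K R T)

end Cfsg.Agent.S2794
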