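import Cfsg.Statements.S2799
import Cfsg.Agent.H52.WcG
import Cfsg.Agent.H71.WcGR

set_option autoImplicit false
open Cfsg

namespace Cfsg.Agent.S2799

/-- Let S be a Sylow p-subgroup of the finite group G, J(S) the subgroup generated by the abelian subgroups of S of largest order, and x an element of S lying in the centre of N_G(J(S)). Assume that p is odd, or that x is a p-th power of an element of Z(S), or that the symmetric group of degree 4 is not involved in G. Then x is weakly closed in S with respect to G: every G-conjugate of x that lies in S equals x. -/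
theorem result {G : Type*} [Group G] [Finite G] {p : ℕ} [Fact p.Prime] (S : Sylow p G) (x : G) (hxS : x ∈ (S : Subgroup G)) (hxZ : x ∈ (Subgroup.center ↥(Subgroup.normalizer ((Cfsg.thompsonSubgroupAOf (S : Subgroup G)) : Set G))).map (Subgroup.normalizer ((Cfsg.thompsonSubgroupAOf (S : Subgroup G)) : Set G)).subtype) (h : p ≠ 2 ∨ (∃ z ∈ (S : Subgroup G) ⊓ Subgroup.centralizer ((S : Subgroup G) : Set G), z ^ p = x) ∨ ¬ Cfsg.Involves (Equiv.Perm (Fin 4)) G) : ∀ g : G, g * x * g⁻¹ ∈ (S : Subgroup G) → g * x * g⁻¹ = x := by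
  have hLT := @Cfsg.Agent.H52.Wc.local_thm G _ _ p _
  unfold Cfsg.Agent.H52.Wc.LocalThm at hLT
  have hxZ' : ∀ n ∈ Subgroup.normalizer ((Cfsg.thompsonSubgroupAOf (S : Subgroup G) : Subgroup G) : Set G),
      n * x = x * n := by
    obtain ⟨c, hc, rfl⟩ := hxZ
    intro n hn
    have h1 := (Subgroup.mem_center_iff.mp hc) ⟨n, hn⟩
    have h2 := congrArg Subtype.val h1
    simpa using h2
  have h' : p ≠ 2 ∨ (∃ z ∈ (S : Subgroup G), (∀ s ∈ (S : Subgroup G), z * s = s * z) ∧ z ^ p = x) ∨
      ¬ Cfsg.Involves (Equiv.Perm (Fin 4)) G := by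
    rcases h with h | h | h
    · exact Or.inl h
    · obtain ⟨z, hz, hzx⟩ := h
      refine Or.inr (Or.inl ⟨z, hz.1, fun s hs => ?_, hzx⟩)
      exact ((Subgroup.mem_centralizer_iff.mp hz.2) s hs).symm
    · exact Or.inr (Or.inr h)
  exact Cfsg.Agent.H71.WcGR.wc_of_local hLT S x hxS hxZ' h'

end Cfsg.Agent.S2799
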