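import Cfsg.Statements.S3085
import Cfsg.Agent.H91.ESSplit
import Cfsg.Agent.S5432

set_option autoImplicit false
open Cfsg

namespace Cfsg.Agent.S3085

open Cfsg.Agent.H91 Cfsg.Agent.S5396 Cfsg.Agent.S3763

/-- Let Q be an extraspecial 2-group of order 2^(2n+1) with n ≥ 3 that is of plus type (it contains an elementary abelian subgroup of order 2^(n+1)). Then the group of inner automorphisms of Q has no complement in the full automorphism group of Q: the extension of the inner automorphism group (elementary abelian of order 2^(2n)) by the outer automorphism group (the orthogonal group of plus type) does not split. -/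
theorem result {Q : Type*} [Group Q] [Finite Q] (n : ℕ) (hn : 3 ≤ n) (hQ : Cfsg.IsExtraspecial 2 Q) (hcard : Nat.card Q = 2 ^ (2 * n + 1)) (hplus : ∃ E : Subgroup Q, Cfsg.IsElementaryAbelian 2 E ∧ Nat.card ↥E = 2 ^ (n + 1)) (L : Subgroup (MulAut Q)) : ¬ (Cfsg.Inn Q).IsComplement' L := by
  obtain ⟨m, s, rfl, ⟨e⟩⟩ := classify' hQ n hcard
  have hs : s = 0 := by
    obtain ⟨E, hE, hEc⟩ := hplus
    rcases z2_cases s with rfl | rfl
    · rfl
    · exfalso
      obtain ⟨h1, h2⟩ := Cfsg.Agent.S5432.elab_map e.symm E hE
      exact minus_no_big m _ h1 (by rw [h2, hEc])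
  subst hs
  have f : ESG m 0 ≃* MG (Aplus (m + 1)) := esgMG (ePlus m) (ePlus_cocycle m)
  have hc := card_center_of_equiv f
  intro hL
  exact no_complement_plus hc hn _ (complement_congr (e.symm.trans f) L hL)

end Cfsg.Agent.S3085
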