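import Cfsg.Statements.S3103
import Cfsg.Agent.H28.EmbA8

set_option autoImplicit false
open Cfsg

namespace Cfsg.Agent.S3103

/-- Let X be a finite 2-constrained group with no nontrivial normal subgroup of odd order such that O₂(X) has sectional 2-rank at most 4. Then X/O₂(X) is isomorphic to a subgroup of the alternating group of degree 8. -/
theorem result {X : Type*} [Group X] [Finite X] (hc : Cfsg.IsPConstrained 2 X) (hO : Cfsg.oddCore X = ⊥)
    (h4 : Cfsg.SectionalPRankLE 2 4 ↥(Cfsg.pCore 2 X)) :
    ∃ f : X ⧸ Cfsg.pCore 2 X →* ↥(alternatingGroup (Fin 8)), Function.Injective f := by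
  exact Cfsg.Agent.H28.EmbA8.quotient_pCore_embeds (Cfsg.Agent.H28.C2T.charP_of_isPConstrained 2 hc hO) h4

end Cfsg.Agent.S3103
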