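import Cfsg.Statements.S3356
import Mathlib
import Cfsg.Agent.H71.HalfTransC

set_option autoImplicit false
open Cfsg

namespace Cfsg.Agent.S3356

/-- Let G be a finite 3/2-transitive permutation group: G acts faithfully and transitively on a finite set, the point stabilizers are non-trivial, and for each point a all orbits of G_a on the remaining points have the same size. Suppose G has a regular normal subgroup N and G is not a Frobenius group (some two-point stabilizer is non-trivial). Then N is an elementary abelian p-group for some prime p, and every non-trivial normal subgroup of G contains N (so N is the unique minimal normal subgroup). -/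
theorem result {G Ω : Type*} [Group G] [Finite G]
    [MulAction G Ω] [FaithfulSMul G Ω] [Finite Ω] (htrans : MulAction.IsPretransitive G Ω)
    (hne : ∀ a : Ω, MulAction.stabilizer G a ≠ ⊥)
    (hhalf : ∀ a b c : Ω, b ≠ a → c ≠ a →
      Nat.card (MulAction.orbit (MulAction.stabilizer G a) b) = Nat.card (MulAction.orbit (MulAction.stabilizer G a) c))
    (N : Subgroup G) [hN : N.Normal] (hNt : MulAction.IsPretransitive N Ω) (hNr : ∀ a : Ω, MulAction.stabilizer N a = ⊥)
    (hnotF : ∃ a b : Ω, a ≠ b ∧ MulAction.stabilizer G a ⊓ MulAction.stabilizer G b ≠ ⊥) :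
    (∃ p : ℕ, p.Prime ∧ IsMulCommutative N ∧ ∀ x ∈ N, x ^ p = 1) ∧
    (∀ M : Subgroup G, M.Normal → M ≠ ⊥ → N ≤ M) := by
  classical
  obtain ⟨a, b, hab, hst⟩ := hnotF
  have hreg : ∀ c : Ω, ∀ n ∈ N, n • c = c → n = 1 := by
    intro c n hn hnc
    have h1 : (⟨n, hn⟩ : N) ∈ MulAction.stabilizer N c := MulAction.mem_stabilizer_iff.mpr hnc
    rw [hNr c, Subgroup.mem_bot] at h1
    exact congrArg Subtype.val h1
  have htr : ∀ c d : Ω, ∃ n ∈ N, n • c = d := by
    intro c d
    obtain ⟨g, hg⟩ := hNt.exists_smul_eq c d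
    exact ⟨g.1, g.2, hg⟩
  have hfaith : ∀ g : G, (∀ c : Ω, g • c = c) → g = 1 := by
    intro g hg
    apply FaithfulSMul.eq_of_smul_eq_smul (α := Ω)
    intro c
    rw [hg c, one_smul]
  have key : ∀ c d e : Ω, d ≠ c → e ≠ c →
      Nat.card ↥(MulAction.stabilizer G c ⊓ MulAction.stabilizer G d) =
        Nat.card ↥(MulAction.stabilizer G c ⊓ MulAction.stabilizer G e) := by
    intro c d e hd he
    have h1 := hhalf c d e hd he
    have f : ∀ t : Ω, Nat.card (MulAction.orbit (MulAction.stabilizer G c) t) *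
        Nat.card ↥(MulAction.stabilizer G c ⊓ MulAction.stabilizer G t) =
          Nat.card (MulAction.stabilizer G c) := by
      intro t
      rw [← Cfsg.Agent.H71.ht_card_stab_sub, Nat.card_coe_set_eq, ← MulAction.index_stabilizer]
      exact Subgroup.index_mul_card _
    have h2 := (f d).trans (f e).symm
    rw [h1] at h2
    have hne : Nonempty (MulAction.orbit (MulAction.stabilizer G c) e) :=
      (MulAction.nonempty_orbit e).to_subtype
    exact Nat.eq_of_mul_eq_mul_left Nat.card_pos h2
  have hS : ∀ c d : Ω, c ≠ d →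
      Nat.card ↥(MulAction.stabilizer G c ⊓ MulAction.stabilizer G d) =
        Nat.card ↥(MulAction.stabilizer G a ⊓ MulAction.stabilizer G b) := by
    intro c d hcd
    by_cases hcb : c = b
    · rw [hcb] at hcd ⊢
      rw [key b d a hcd.symm hab, inf_comm]
    · rw [key c d b hcd.symm (Ne.symm hcb), inf_comm, key b c a hcb hab, inf_comm]
  have h1s : 1 < Nat.card ↥(MulAction.stabilizer G a ⊓ MulAction.stabilizer G b) :=
    (Subgroup.one_lt_card_iff_ne_bot _).mpr hst
  have hHT : Cfsg.Agent.H71.HT G Ω N
      (Nat.card ↥(MulAction.stabilizer G a ⊓ MulAction.stabilizer G b)) :=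
    ⟨hreg, htr, hfaith, hS, h1s⟩
  refine ⟨?_, ?_⟩
  · obtain ⟨p, hp, hpe⟩ := hHT.exists_prime_exp a b hab
    exact ⟨p, hp, ⟨⟨fun x y => Subtype.ext (hHT.comm_N a x.2 y.2)⟩⟩, hpe⟩
  · intro M hM hM1
    exact hHT.le_of_normal a M hM1

end Cfsg.Agent.S3356
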