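import Cfsg.Statements.S3361
import Cfsg.Agent.H3.RegPBR
import Cfsg.Agent.H53.RegPF
import Cfsg.Agent.H77.RegPB
import Cfsg.Agent.H53.RegPC
import Cfsg.Agent.H3.RegPU
import Cfsg.Agent.H3.RegPN
import Cfsg.Agent.H13.RegInv
import Cfsg.Agent.H6.Q8SL

set_option autoImplicit false
open Cfsg

namespace Cfsg.Agent.S3361

open Cfsg.Agent.H77.Reg Cfsg.Agent.H53.Reg Cfsg.Agent.H3.Reg

/-- Let q be a prime and V a non-trivial finite vector space over the field with q elements, and let G be a finite solvable group acting faithfully and linearly on V and regularly on the non-zero vectors (transitively, with only the identity fixing a non-zero vector). Then either V can be identified with the additive group of a finite field F so that every element of G acts as x ↦ a·σ(x) (a ∈ F, σ a field automorphism), or V has 5^2, 7^2, 11^2 or 23^2 elements. Moreover, if q ≠ 2 then G has a normal subgroup of index 2, except that when V has 25 elements G may be isomorphic to SL(2,3) and when V has 121 elements G may be isomorphic to SL(2,3) × C₅. -/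
theorem result
    (q : ℕ) [Fact q.Prime] {V : Type*} [AddCommGroup V] [Module (ZMod q) V] [Finite V] [Nontrivial V]
    {G : Type*} [Group G] [Finite G] (hsol : Group.IsSolvable G)
    (ρ : G →* (V ≃ₗ[ZMod q] V)) (hρ : Function.Injective ρ)
    (htrans : ∀ v w : V, v ≠ 0 → w ≠ 0 → ∃ g : G, ρ g v = w)
    (hreg : ∀ v : V, v ≠ 0 → ∀ g : G, ρ g v = v → g = 1) :
    ((∃ (F : Type) (_ : Field F) (_ : Fintype F) (e : V ≃+ F),
        ∀ g : G, ∃ (a : F) (σ : F ≃+* F), ∀ v : V, e (ρ g v) = a * σ (e v)) ∨
      Nat.card V ∈ ({25, 49, 121, 529} : Set ℕ)) ∧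
    (q ≠ 2 → (∃ N : Subgroup G, N.Normal ∧ N.index = 2) ∨
      (Nat.card V = 25 ∧ Nonempty (G ≃* Matrix.SpecialLinearGroup (Fin 2) (ZMod 3))) ∨
      (Nat.card V = 121 ∧ Nonempty (G ≃* Matrix.SpecialLinearGroup (Fin 2) (ZMod 3) × Multiplicative (ZMod 5)))) := by
  classical
  have hp1 : (∃ (F : Type) (_ : Field F) (_ : Fintype F) (e : V ≃+ F),
        ∀ g : G, ∃ (a : F) (σ : F ≃+* F), ∀ v : V, e (ρ g v) = a * σ (e v)) ∨
      (Nat.card V = 25 ∨ Nat.card V = 49 ∨ Nat.card V = 121 ∨ Nat.card V = 529) := by
    by_cases h : ∃ A : Subgroup G, A.Normal ∧ IsCyclic A ∧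
        ∀ W : Submodule (ZMod q) V, (∀ a ∈ A, ∀ v ∈ W, ρ a v ∈ W) → W = ⊥ ∨ W = ⊤
    · obtain ⟨A, hAn, hAc, hirr⟩ := h
      left
      refine semilinear_of_irred q ρ A hAn ?_ hirr
      intro a ha b hb
      obtain ⟨g, hg⟩ := hAc.exists_generator
      obtain ⟨i, hi⟩ := Subgroup.mem_zpowers_iff.mp (hg ⟨a, ha⟩)
      obtain ⟨j, hj⟩ := Subgroup.mem_zpowers_iff.mp (hg ⟨b, hb⟩)
      have hi' : (g : G) ^ i = a := by
        have := congrArg Subtype.val hi
        simpa using this
      have hj' : (g : G) ^ j = b := by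
        have := congrArg Subtype.val hj
        simpa using this
      rw [← hi', ← hj', ← zpow_add, ← zpow_add, add_comm]
    · right
      refine bridge q hsol ρ hρ htrans hreg ?_
      intro A hAn hAc
      by_contra hno
      apply h
      refine ⟨A, hAn, hAc, ?_⟩
      intro W hW
      by_contra hW2
      apply hno
      exact ⟨W, fun h0 => hW2 (Or.inl h0), fun h0 => hW2 (Or.inr h0), hW⟩
  refine ⟨?_, fun hq => ?_⟩
  · rcases hp1 with h | h
    · exact Or.inl h
    · right
      simp only [Set.mem_insert_iff, Set.mem_singleton_iff]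
      exact h
  · rcases hp1 with ⟨F, hF, hFt, e, hsl⟩ | hcard
    · left
      exact @index_two_of_semilinear q _ hq V _ _ _ _ G _ _ ρ htrans F hF hFt e hsl
    · have hcardG := card_add_one q ρ htrans hreg
      obtain ⟨z, hz1, hz2, huniq⟩ := unique_invol q hq ρ htrans hreg
      rcases Cfsg.Agent.H13.Reg.invol_solvable hsol z hz1 hz2 huniq with h | ⟨N, hNn, hNodd, ⟨eN⟩⟩
      · left; exact h
      · right
        have h24 : Nat.card G = Nat.card N * 24 := by
          rw [← Subgroup.card_mul_index N, Subgroup.index_eq_card, Nat.card_congr eN.toEquiv,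
            Cfsg.Agent.H6.card_sl2_zmod3]
        rcases hcard with h | h | h | h
        · left
          have hN1 : Nat.card N = 1 := by omega
          have hNbot : N = ⊥ := Subgroup.card_eq_one.mp hN1
          refine ⟨h, ⟨?_⟩⟩
          subst hNbot
          exact (QuotientGroup.quotientBot (G := G)).symm.trans eN
        · exfalso
          have hN2 : Nat.card N = 2 := by omega
          rw [hN2] at hNodd
          exact absurd hNodd (by decide)
        · right
          have hN5 : Nat.card N = 5 := by omega
          exact ⟨h, sl23_times_c5 N hN5 ⟨eN⟩⟩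
        · exfalso
          have hN22 : Nat.card N = 22 := by omega
          rw [hN22] at hNodd
          exact absurd hNodd (by decide)

end Cfsg.Agent.S3361
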