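import Cfsg.Statements.S3362
import Cfsg.Agent.H61.SchreierSims

set_option autoImplicit false
open Cfsg

namespace Cfsg.Agent.S3362

/-- images of the 12 points under the eight generators `s, t, u, v, w, x₁, x₂, x₃` -/
def tab : Fin 8 → Fin 12 → Fin 12 :=
  ![![0, 1, 2, 4, 5, 3, 7, 8, 6, 10, 11, 9], ![0, 1, 2, 6, 7, 8, 9, 10, 11, 3, 4, 5], ![0, 1, 2, 3, 6, 9, 5, 8, 11, 4, 7, 10], ![0, 1, 2, 3, 7, 11, 10, 5, 6, 8, 9, 4], ![0, 1, 2, 3, 10, 8, 11, 6, 4, 7, 5, 9], ![3, 1, 2, 0, 4, 5, 7, 6, 10, 11, 8, 9], ![1, 0, 2, 3, 4, 5, 9, 10, 11, 6, 7, 8], ![0, 2, 1, 3, 4, 5, 11, 9, 10, 7, 8, 6]]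

/-- the base `2, 1, 0, 3, 4` -/
def bp : Fin 5 → Fin 12 := ![2, 1, 0, 3, 4]

/-- generators of the `i`-th group of the stabilizer chain -/
def inS (i : ℕ) (g : Fin 8) : Bool :=
  match i with
  | 0 => true
  | 1 => decide (g.val < 7)
  | 2 => decide (g.val < 6)
  | 3 => decide (g.val < 5)
  | 4 => decide (2 ≤ g.val) && decide (g.val < 5)
  | _ => false

/-- the `i`-th basic orbit -/
def inO (i : ℕ) (p : Fin 12) : Bool :=
  match i with
  | 0 => true
  | 1 => decide (p ≠ 2)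
  | 2 => decide (p ≠ 2) && decide (p ≠ 1)
  | 3 => decide (p ≠ 2) && decide (p ≠ 1) && decide (p ≠ 0)
  | 4 => decide (p ≠ 2) && decide (p ≠ 1) && decide (p ≠ 0) && decide (p ≠ 3)
  | _ => false

/-- transversal words -/
def Tw : Fin 5 → Fin 12 → List (Fin 8) :=
  ![![[6, 7], [7], [], [5, 6, 7], [0, 5, 6, 7], [0, 0, 5, 6, 7], [1, 5, 6, 7], [1, 0, 5, 6, 7], [1, 0, 0, 5, 6, 7], [1, 1, 5, 6, 7], [4, 0, 5, 6, 7], [4, 1, 5, 6, 7]], ![[6], [], [], [5, 6], [0, 5, 6], [0, 0, 5, 6], [1, 5, 6], [1, 0, 5, 6], [1, 0, 0, 5, 6], [1, 1, 5, 6], [4, 0, 5, 6], [4, 1, 5, 6]], ![[], [], [], [5], [0, 5], [0, 0, 5], [1, 5], [1, 0, 5], [1, 0, 0, 5], [1, 1, 5], [4, 0, 5], [4, 1, 5]], ![[], [], [], [], [0], [0, 0], [1], [1, 0], [1, 0, 0], [1, 1], [4, 0], [4, 1]], ![[], [], [], [], [], [2, 2], [2], [3], [2, 3], [3, 4], [4], [4, 2]]]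

/-- sifting certificates -/
def cert : Fin 5 → Fin 8 → Fin 12 → List (Fin 8) :=
  ![![![[0], [0], [0], [], [], [], [], [], [], [3, 4], [], [2]], ![[1, 0], [4, 1, 2, 3], [1], [], [], [], [], [3, 4], [3, 4], [], [2], [2]], ![[3], [4, 2], [2], [2, 3], [2, 3], [2, 3], [2, 3], [2, 3], [3], [2, 3], [3], [4]], ![[2, 3], [3, 4], [3], [3], [3], [4], [4], [3], [3], [3], [4], [4]], ![[3, 4], [2, 3], [4], [2], [], [2], [], [2], [2], [2], [2, 2], [2, 2]], ![[], [5], [5], [], [0, 0, 2, 2], [0, 2, 2], [4, 1, 3], [4, 0, 4, 2], [0, 0, 3, 4], [4, 0, 2, 3], [1, 2], [1, 0, 0]], ![[], [], [6], [5], [5], [5], [5], [5, 4, 2], [5, 4, 2], [5], [5, 2], [5, 2]], ![[6], [], [], [6], [6], [6], [6, 2], [6], [6, 2], [6], [6, 2], [6, 2]]], ![![[0], [0], [], [], [], [], [], [], [], [3], [], [4, 2]], ![[1, 1], [1], [], [], [], [], [], [3], [3], [], [4, 2], [4, 2]], ![[3, 4], [2], [], [4], [4], [4], [4], [4], [3, 4], [4], [3, 4], [2, 3]], ![[4], [3], [], [3, 4],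 [3, 4], [2, 3], [2, 3], [3, 4], [3, 4], [3, 4], [2, 3], [2, 3]], ![[3], [4], [], [4, 2], [], [4, 2], [], [4, 2], [4, 2], [4, 2], [2, 2], [2, 2]], ![[], [5], [], [], [0, 0, 2, 2], [0, 2, 2], [1, 4, 2], [1, 0, 0, 3], [0, 0, 3], [1, 0, 0], [4, 1, 2], [4, 0, 2, 3]], ![[], [], [], [5], [5], [5], [5], [5, 2], [5, 2], [5], [5, 4, 2], [5, 4, 2]], ![[], [], [], [], [], [], [], [], [], [], [], []]], ![![[0], [], [], [], [], [], [], [], [], [4], [], [2, 3]], ![[1], [], [], [], [], [], [], [4], [4], [], [2, 3], [2, 3]], ![[2], [], [], [3], [3], [3], [3], [3], [2], [3], [2], [4, 2]], ![[3], [], [], [2], [2], [4, 2], [4, 2], [2], [2], [2], [4, 2], [4, 2]], ![[4], [], [], [2, 3], [], [2, 3], [], [2, 3], [2, 3], [2, 3], [2, 2], [2, 2]], ![[], [], [], [], [0, 0, 2, 2], [0, 2, 2], [1, 1, 2, 3], [4, 1], [0, 0, 4], [4, 1, 2, 3], [1, 0, 0, 2, 3], [1, 0]], ![[], [], [], [], [], [], [], [], [], [], [], []], ![[], [], [], [], [], [], [], [], [], [], [],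 []]], ![![[], [], [], [], [], [], [], [], [], [2, 3], [], [4]], ![[], [], [], [], [], [], [], [2, 3], [2, 3], [], [4], [4]], ![[], [], [], [2], [2], [2], [2], [2], [3], [2], [3], [3, 4]], ![[], [], [], [3], [3], [3, 4], [3, 4], [3], [3], [3], [3, 4], [3, 4]], ![[], [], [], [4], [], [4], [], [4], [4], [4], [2, 2], [2, 2]], ![[], [], [], [], [], [], [], [], [], [], [], []], ![[], [], [], [], [], [], [], [], [], [], [], []], ![[], [], [], [], [], [], [], [], [], [], [], []]], ![![[], [], [], [], [], [], [], [], [], [], [], []], ![[], [], [], [], [], [], [], [], [], [], [], []], ![[], [], [], [], [], [], [], [], [], [], [], []], ![[], [], [], [], [], [], [], [], [], [], [], []], ![[], [], [], [], [], [], [], [], [], [], [], []], ![[], [], [], [], [], [], [], [], [], [], [], []], ![[], [], [], [], [], [], [], [], [], [], [], []], ![[], [], [], [], [], [], [], [], [], [], [], []]]]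

/-- action of a word on a point -/
def wp (l : List (Fin 8)) (q : Fin 12) : Fin 12 := l.foldr (fun g q => tab g q) q

theorem F1 : ∀ i : Fin 5, ∀ p : Fin 12, inO i.val p = true →
    (∀ c ∈ Tw i p, inS i.val c = true) ∧ wp (Tw i p) (bp i) = p := by decide +kernel

theorem F2 : ∀ i : Fin 5, Tw i (bp i) = [] ∧ inO i.val (bp i) = true := by decide +kernel

theorem F3 : ∀ i : Fin 5, ∀ g : Fin 8, inS (i.val + 1) g = true →
    inS i.val g = true ∧ tab g (bp i) = bp i := by decide +kernel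

theorem F3' : ∀ k : Fin 6, ∀ g : Fin 8, inS k.val g = true →
    ∀ j : Fin 5, j.val < k.val → tab g (bp j) = bp j := by decide +kernel

theorem F4 : ∀ i : Fin 5, ∀ g : Fin 8, ∀ p : Fin 12, inS i.val g = true → inO i.val p = true →
    inO i.val (tab g p) = true ∧ (∀ c ∈ cert i g p, inS (i.val + 1) c = true) ∧
    ∀ q : Fin 12, tab g (wp (Tw i p) q) = wp (Tw i (tab g p)) (wp (cert i g p) q) := by
  decide +kernel

theorem F5 : ∀ k : Fin 5, ∀ p : Fin 12, (∀ j : Fin 5, j.val < k.val → p ≠ bp j) →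
    inO k.val p = true := by decide +kernel

theorem F6 : ∀ g : Fin 8, inS 5 g = false := by decide +kernel

/-- the eight generators as permutations -/
def gs : Fin 8 → Equiv.Perm (Fin 12) :=
  ![Equiv.swap (3 : Fin 12) 5 * Equiv.swap (3 : Fin 12) 4 * Equiv.swap (6 : Fin 12) 8 * Equiv.swap (6 : Fin 12) 7 * Equiv.swap (9 : Fin 12) 11 * Equiv.swap (9 : Fin 12) 10,
    Equiv.swap (3 : Fin 12) 9 * Equiv.swap (3 : Fin 12) 6 * Equiv.swap (4 : Fin 12) 10 * Equiv.swap (4 : Fin 12) 7 * Equiv.swap (5 : Fin 12) 11 * Equiv.swap (5 : Fin 12) 8,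
    Equiv.swap (4 : Fin 12) 9 * Equiv.swap (4 : Fin 12) 5 * Equiv.swap (4 : Fin 12) 6 * Equiv.swap (7 : Fin 12) 10 * Equiv.swap (7 : Fin 12) 11 * Equiv.swap (7 : Fin 12) 8,
    Equiv.swap (4 : Fin 12) 11 * Equiv.swap (4 : Fin 12) 5 * Equiv.swap (4 : Fin 12) 7 * Equiv.swap (6 : Fin 12) 8 * Equiv.swap (6 : Fin 12) 9 * Equiv.swap (6 : Fin 12) 10,
    Equiv.swap (4 : Fin 12) 8 * Equiv.swap (4 : Fin 12) 5 * Equiv.swap (4 : Fin 12) 10 * Equiv.swap (6 : Fin 12) 7 * Equiv.swap (6 : Fin 12) 9 * Equiv.swap (6 : Fin 12) 11,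
    Equiv.swap (0 : Fin 12) 3 * Equiv.swap (6 : Fin 12) 7 * Equiv.swap (8 : Fin 12) 10 * Equiv.swap (9 : Fin 12) 11,
    Equiv.swap (0 : Fin 12) 1 * Equiv.swap (6 : Fin 12) 9 * Equiv.swap (7 : Fin 12) 10 * Equiv.swap (8 : Fin 12) 11,
    Equiv.swap (1 : Fin 12) 2 * Equiv.swap (6 : Fin 12) 11 * Equiv.swap (7 : Fin 12) 9 * Equiv.swap (8 : Fin 12) 10]

theorem gs_tab : ∀ g : Fin 8, ∀ q : Fin 12, gs g q = tab g q := by decide +kernel

/-- the permutation of a word -/
def Gp (l : List (Fin 8)) : Equiv.Perm (Fin 12) := (l.map gs).prod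

theorem Gp_apply (l : List (Fin 8)) (q : Fin 12) : Gp l q = wp l q := by
  induction l with
  | nil => rfl
  | cons g l ih =>
    show ((gs g) * (l.map gs).prod) q = tab g (wp l q)
    rw [Equiv.Perm.mul_apply, gs_tab]
    exact congrArg (tab g) ih

/-- generating set of the `i`-th group -/
def HS (i : ℕ) : Set (Equiv.Perm (Fin 12)) := gs '' {g | inS i g = true}

/-- the `i`-th group of the chain -/
def H (i : ℕ) : Subgroup (Equiv.Perm (Fin 12)) := Subgroup.closure (HS i)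

theorem Gp_mem (i : ℕ) (l : List (Fin 8)) (h : ∀ c ∈ l, inS i c = true) : Gp l ∈ H i := by
  induction l with
  | nil => exact (H i).one_mem
  | cons g l ih =>
    show (gs g) * (l.map gs).prod ∈ H i
    apply Subgroup.mul_mem
    · exact Subgroup.subset_closure ⟨g, h g List.mem_cons_self, rfl⟩
    · exact ih (fun c hc => h c (List.mem_cons_of_mem _ hc))

theorem level (i : Fin 5) :
    (∀ x ∈ H i.val, ∃ p ∈ {p : Fin 12 | inO i.val p = true}, ∃ h ∈ H (i.val + 1),
      x = Gp (Tw i p) * h) ∧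
    H i.val ⊓ MulAction.stabilizer (Equiv.Perm (Fin 12)) (bp i) = H (i.val + 1) ∧
    Nat.card (H i.val) = Nat.card {p : Fin 12 | inO i.val p = true} * Nat.card (H (i.val + 1)) := by
  apply Cfsg.Agent.H61.level_step (HS i.val) (HS (i.val + 1)) (bp i) (fun p => Gp (Tw i p))
    {p : Fin 12 | inO i.val p = true}
  · exact (F2 i).2
  · show Gp (Tw i (bp i)) = 1
    rw [(F2 i).1]
    rfl
  · intro p hp
    exact Gp_mem i.val _ (F1 i p hp).1
  · intro p hp
    show Gp (Tw i p) (bp i) = p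
    rw [Gp_apply]
    exact (F1 i p hp).2
  · rintro _ ⟨g, hg, rfl⟩
    exact ⟨g, (F3 i g hg).1, rfl⟩
  · rintro _ ⟨g, hg, rfl⟩
    rw [gs_tab]
    exact (F3 i g hg).2
  · rintro _ ⟨g, hg, rfl⟩ p hp
    obtain ⟨h1, h2, h3⟩ := F4 i g p hg hp
    refine ⟨?_, Gp (cert i g p), Gp_mem (i.val + 1) _ h2, ?_⟩
    · show inO i.val (gs g p) = true
      rw [gs_tab]
      exact h1
    · apply Equiv.ext
      intro q
      show (gs g * Gp (Tw i p)) q = (Gp (Tw i (gs g p)) * Gp (cert i g p)) q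
      rw [Equiv.Perm.mul_apply, Equiv.Perm.mul_apply, gs_tab, gs_tab, Gp_apply, Gp_apply, Gp_apply]
      exact h3 q

theorem H_le_zero (k : ℕ) : H k ≤ H 0 := by
  apply Subgroup.closure_mono
  rintro _ ⟨g, _, rfl⟩
  exact ⟨g, rfl, rfl⟩

theorem H_fix (k : ℕ) (hk : k ≤ 5) (x : Equiv.Perm (Fin 12)) (hx : x ∈ H k) (j : Fin 5)
    (hj : j.val < k) : x (bp j) = bp j := by
  have : H k ≤ MulAction.stabilizer (Equiv.Perm (Fin 12)) (bp j) := by
    rw [H, Subgroup.closure_le]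
    rintro _ ⟨g, hg, rfl⟩
    show gs g (bp j) = bp j
    rw [gs_tab]
    exact F3' ⟨k, by omega⟩ g hg j hj
  exact this hx

theorem H_five : H 5 = ⊥ := by
  have : HS 5 = ∅ := by
    ext x
    constructor
    · rintro ⟨g, hg, rfl⟩
      have hg' : inS 5 g = true := hg
      rw [F6 g] at hg'
      exact absurd hg' (by decide)
    · intro h
      exact absurd h (Set.notMem_empty x)
  rw [H, this, Subgroup.closure_empty]

/-- every injective 5-tuple can be moved to the base by an element of the group -/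
theorem move_to_base (y : Fin 5 ↪ Fin 12) : ∀ k : ℕ, k ≤ 5 →
    ∃ g ∈ H 0, ∀ j : Fin 5, j.val < k → g (y j) = bp j := by
  intro k
  induction k with
  | zero =>
    intro _
    exact ⟨1, (H 0).one_mem, fun j hj => absurd hj (Nat.not_lt_zero _)⟩
  | succ k ih =>
    intro hk
    obtain ⟨g, hg, hgy⟩ := ih (by omega)
    have hk5 : k < 5 := by omega
    obtain ⟨i, hi⟩ : ∃ i : Fin 5, i.val = k := ⟨⟨k, hk5⟩, rfl⟩
    have hp : inO i.val (g (y i)) = true := by
      apply F5 i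
      intro j hj hpj
      have hj' : j.val < k := by omega
      rw [← hgy j hj'] at hpj
      have := y.injective (g.injective hpj)
      rw [this] at hj
      exact lt_irrefl _ hj
    have ht : Gp (Tw i (g (y i))) ∈ H i.val := Gp_mem i.val _ (F1 i _ hp).1
    have htβ : Gp (Tw i (g (y i))) (bp i) = g (y i) := by
      rw [Gp_apply]
      exact (F1 i _ hp).2
    refine ⟨(Gp (Tw i (g (y i))))⁻¹ * g, ?_, ?_⟩
    · exact (H 0).mul_mem ((H 0).inv_mem (H_le_zero _ ht)) hg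
    · intro j hj
      rw [Equiv.Perm.mul_apply]
      by_cases hjk : j.val < k
      · rw [hgy j hjk, Equiv.Perm.inv_eq_iff_eq]
        exact (H_fix i.val (by omega) _ ht j (by omega)).symm
      · have hji : j = i := Fin.ext (by omega)
        subst hji
        rw [Equiv.Perm.inv_eq_iff_eq]
        exact htβ.symm

/-- an element of the group fixing the base is trivial -/
theorem eq_one_of_fix (x : Equiv.Perm (Fin 12)) (hx : x ∈ H 0) (hfix : ∀ j : Fin 5, x (bp j) = bp j) :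
    x = 1 := by
  have key : ∀ k : ℕ, k ≤ 5 → x ∈ H k := by
    intro k
    induction k with
    | zero => intro _; exact hx
    | succ k ih =>
      intro hk
      have h1 := ih (by omega)
      have h2 := (level ⟨k, by omega⟩).2.1
      have h3 : x ∈ H k ⊓ MulAction.stabilizer (Equiv.Perm (Fin 12)) (bp ⟨k, by omega⟩) :=
        ⟨h1, hfix _⟩
      rw [h2] at h3
      exact h3
  have h5 := key 5 le_rfl
  rw [H_five, Subgroup.mem_bot] at h5
  exact h5

theorem card_orbit (i : Fin 5) : Nat.card {p : Fin 12 | inO i.val p = true} = 12 - i.val := by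
  rw [Nat.card_eq_fintype_card]
  revert i
  decide +kernel

theorem card_H0 : Nat.card (H 0) = 95040 := by
  have h0 := (level 0).2.2
  have h1 := (level 1).2.2
  have h2 := (level 2).2.2
  have h3 := (level 3).2.2
  have h4 := (level 4).2.2
  rw [card_orbit] at h0 h1 h2 h3 h4
  have h5 : Nat.card (H 5) = 1 := by rw [H_five]; exact Subgroup.card_bot
  simp only [Fin.val_zero, Fin.val_one] at h0 h1
  have e2 : ((2 : Fin 5) : ℕ) = 2 := rfl
  have e3 : ((3 : Fin 5) : ℕ) = 3 := rfl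
  have e4 : ((4 : Fin 5) : ℕ) = 4 := rfl
  rw [e2] at h2
  rw [e3] at h3
  rw [e4] at h4
  rw [h0, h1, h2, h3, h4, h5]

theorem card_H1 : Nat.card (H 1) = 7920 := by
  have h1 := (level 1).2.2
  have h2 := (level 2).2.2
  have h3 := (level 3).2.2
  have h4 := (level 4).2.2
  rw [card_orbit] at h1 h2 h3 h4
  have h5 : Nat.card (H 5) = 1 := by rw [H_five]; exact Subgroup.card_bot
  simp only [Fin.val_one] at h1
  have e2 : ((2 : Fin 5) : ℕ) = 2 := rfl
  have e3 : ((3 : Fin 5) : ℕ) = 3 := rfl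
  have e4 : ((4 : Fin 5) : ℕ) = 4 := rfl
  rw [e2] at h2
  rw [e3] at h3
  rw [e4] at h4
  rw [h1, h2, h3, h4, h5]

/-- An explicit construction of the Mathieu groups of degrees 11 and 12. On the points 0, …, 11 let s = (3 4 5)(6 7 8)(9 10 11), t = (3 6 9)(4 7 10)(5 8 11), u = (4 6 5 9)(7 8 11 10), v = (4 7 5 11)(6 10 9 8), w = (4 10 5 8)(6 11 9 7), x₁ = (0 3)(6 7)(8 10)(9 11), x₂ = (0 1)(6 9)(7 10)(8 11), x₃ = (1 2)(6 11)(7 9)(8 10) (each written as a product of transpositions). Then the group M₁₂ generated by all eight permutations is sharply 5-transitive on the 12 points and has order 95040, and the group M₁₁ generated by the first seven has order 7920 and is the stabilizer of the point 2 in M₁₂. -/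
theorem result
    (s t u v w x₁ x₂ x₃ : Equiv.Perm (Fin 12))
    (hs : s = Equiv.swap (3 : Fin 12) 5 * Equiv.swap (3 : Fin 12) 4 * Equiv.swap (6 : Fin 12) 8 * Equiv.swap (6 : Fin 12) 7 * Equiv.swap (9 : Fin 12) 11 * Equiv.swap (9 : Fin 12) 10) (ht : t = Equiv.swap (3 : Fin 12) 9 * Equiv.swap (3 : Fin 12) 6 * Equiv.swap (4 : Fin 12) 10 * Equiv.swap (4 : Fin 12) 7 * Equiv.swap (5 : Fin 12) 11 * Equiv.swap (5 : Fin 12) 8)
    (hu : u = Equiv.swap (4 : Fin 12) 9 * Equiv.swap (4 : Fin 12) 5 * Equiv.swap (4 : Fin 12) 6 * Equiv.swap (7 : Fin 12) 10 * Equiv.swap (7 : Fin 12) 11 * Equiv.swap (7 : Fin 12) 8) (hv : v = Equiv.swap (4 : Fin 12) 11 * Equiv.swap (4 : Fin 12) 5 * Equiv.swap (4 : Fin 12) 7 * Equiv.swap (6 : Fin 12) 8 * Equiv.swap (6 : Fin 12) 9 * Equiv.swap (6 : Fin 12) 10) (hw : w = Equiv.swap (4 : Fin 12) 8 * Equiv.swap (4 : Fin 12) 5 * Equiv.swap (4 : Fin 12) 10 * Equiv.swap (6 : Fin 12) 7 * Equiv.swap (6 : Fin 12) 9 * Equiv.swap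 (6 : Fin 12) 11)
    (hx₁ : x₁ = Equiv.swap (0 : Fin 12) 3 * Equiv.swap (6 : Fin 12) 7 * Equiv.swap (8 : Fin 12) 10 * Equiv.swap (9 : Fin 12) 11) (hx₂ : x₂ = Equiv.swap (0 : Fin 12) 1 * Equiv.swap (6 : Fin 12) 9 * Equiv.swap (7 : Fin 12) 10 * Equiv.swap (8 : Fin 12) 11)
    (hx₃ : x₃ = Equiv.swap (1 : Fin 12) 2 * Equiv.swap (6 : Fin 12) 11 * Equiv.swap (7 : Fin 12) 9 * Equiv.swap (8 : Fin 12) 10)
    (M₁₂ M₁₁ : Subgroup (Equiv.Perm (Fin 12))) (hM₁₂ : M₁₂ = Subgroup.closure {s, t, u, v, w, x₁, x₂, x₃})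
    (hM₁₁ : M₁₁ = Subgroup.closure {s, t, u, v, w, x₁, x₂}) :
    MulAction.IsMultiplyPretransitive M₁₂ (Fin 12) 5 ∧ (∀ y : Fin 5 ↪ Fin 12, MulAction.stabilizer M₁₂ y = ⊥) ∧
    Nat.card M₁₂ = 95040 ∧ Nat.card M₁₁ = 7920 ∧
    M₁₁ = M₁₂ ⊓ MulAction.stabilizer (Equiv.Perm (Fin 12)) (2 : Fin 12) := by
  have e12 : M₁₂ = H 0 := by
    rw [hM₁₂, H]
    congr 1
    ext x
    constructor
    · intro hx
      simp only [Set.mem_insert_iff, Set.mem_singleton_iff] at hx
      rcases hx with rfl | rfl | rfl | rfl | rfl | rfl | rfl | rfl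
      · exact ⟨0, rfl, hs.symm⟩
      · exact ⟨1, rfl, ht.symm⟩
      · exact ⟨2, rfl, hu.symm⟩
      · exact ⟨3, rfl, hv.symm⟩
      · exact ⟨4, rfl, hw.symm⟩
      · exact ⟨5, rfl, hx₁.symm⟩
      · exact ⟨6, rfl, hx₂.symm⟩
      · exact ⟨7, rfl, hx₃.symm⟩
    · rintro ⟨g, -, rfl⟩
      simp only [Set.mem_insert_iff, Set.mem_singleton_iff]
      fin_cases g
      · left; exact hs.symm
      · right; left; exact ht.symm
      · right; right; left; exact hu.symm
      · right; right; right; left; exact hv.symm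
      · right; right; right; right; left; exact hw.symm
      · right; right; right; right; right; left; exact hx₁.symm
      · right; right; right; right; right; right; left; exact hx₂.symm
      · right; right; right; right; right; right; right; exact hx₃.symm
  have e11 : M₁₁ = H 1 := by
    rw [hM₁₁, H]
    congr 1
    ext x
    constructor
    · intro hx
      simp only [Set.mem_insert_iff, Set.mem_singleton_iff] at hx
      rcases hx with rfl | rfl | rfl | rfl | rfl | rfl | rfl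
      · exact ⟨0, rfl, hs.symm⟩
      · exact ⟨1, rfl, ht.symm⟩
      · exact ⟨2, rfl, hu.symm⟩
      · exact ⟨3, rfl, hv.symm⟩
      · exact ⟨4, rfl, hw.symm⟩
      · exact ⟨5, rfl, hx₁.symm⟩
      · exact ⟨6, rfl, hx₂.symm⟩
    · rintro ⟨g, hg, rfl⟩
      simp only [Set.mem_insert_iff, Set.mem_singleton_iff]
      fin_cases g
      · left; exact hs.symm
      · right; left; exact ht.symm
      · right; right; left; exact hu.symm
      · right; right; right; left; exact hv.symm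
      · right; right; right; right; left; exact hw.symm
      · right; right; right; right; right; left; exact hx₁.symm
      · right; right; right; right; right; right; exact hx₂.symm
      · exact absurd hg (by decide)
  subst e12 e11
  refine ⟨?_, ?_, card_H0, card_H1, ?_⟩
  · rw [MulAction.isMultiplyPretransitive_iff]
    intro x y
    obtain ⟨gx, hgx, hx⟩ := move_to_base x 5 le_rfl
    obtain ⟨gy, hgy, hy⟩ := move_to_base y 5 le_rfl
    refine ⟨⟨gy⁻¹ * gx, (H 0).mul_mem ((H 0).inv_mem hgy) hgx⟩, ?_⟩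
    refine Function.Embedding.ext (fun j => ?_)
    show (gy⁻¹ * gx) (x j) = y j
    rw [Equiv.Perm.mul_apply, hx j j.isLt, Equiv.Perm.inv_eq_iff_eq]
    exact (hy j j.isLt).symm
  · intro y
    rw [eq_bot_iff]
    rintro ⟨σ, hσ⟩ hmem
    have hσy : ∀ j, σ (y j) = y j := by
      intro j
      have h1 : (⟨σ, hσ⟩ : H 0) • y = y := hmem
      exact congrArg (fun f : Fin 5 ↪ Fin 12 => f j) h1
    obtain ⟨g, hg, hgy⟩ := move_to_base y 5 le_rfl
    have h1 : g * σ * g⁻¹ = 1 := by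
      apply eq_one_of_fix _ ((H 0).mul_mem ((H 0).mul_mem hg hσ) ((H 0).inv_mem hg))
      intro j
      rw [Equiv.Perm.mul_apply, Equiv.Perm.mul_apply]
      have h2 : g⁻¹ (bp j) = y j := by
        rw [Equiv.Perm.inv_eq_iff_eq]
        exact (hgy j j.isLt).symm
      rw [h2, hσy j, hgy j j.isLt]
    have h2 : σ = 1 := by
      have : σ = g⁻¹ * (g * σ * g⁻¹) * g := by group
      rw [this, h1]
      group
    rw [Subgroup.mem_bot]
    exact Subtype.ext h2
  · exact ((level 0).2.1).symm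

end Cfsg.Agent.S3362
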