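import Cfsg.Statements.S3370
import Cfsg.Agent.H61.TransLin
import Cfsg.Agent.H61.SpecAn

set_option autoImplicit false
open Cfsg

namespace Cfsg.Agent.S3370

/-- Let q be a prime, V a non-trivial finite vector space over the field with q elements, and G a non-trivial finite p-group (p prime) acting faithfully and linearly on V and transitively on the non-zero vectors. Then either q = 2 and G has prime order p = |V| − 1; or p = 2, V has q elements with q = 2^m + 1 and G is cyclic of order 2^m; or p = 2, q = 3, V has 9 elements and G is cyclic of order 8, quaternion of order 8, or semidihedral of order 16. -/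
theorem result (q : ℕ) [Fact q.Prime] {V : Type*} [AddCommGroup V] [Module (ZMod q) V] [Finite V] [Nontrivial V]
    {G : Type*} [Group G] [Finite G] [Nontrivial G] (p : ℕ) [Fact p.Prime] (hG : IsPGroup p G)
    (ρ : G →* (V ≃ₗ[ZMod q] V)) (hρ : Function.Injective ρ)
    (htrans : ∀ v w : V, v ≠ 0 → w ≠ 0 → ∃ g : G, ρ g v = w) :
    (q = 2 ∧ p = Nat.card V - 1 ∧ Nat.card G = p) ∨
    (p = 2 ∧ Nat.card V = q ∧ (∃ m : ℕ, q = 2 ^ m + 1 ∧ Nat.card G = 2 ^ m) ∧ IsCyclic G) ∨
    (p = 2 ∧ q = 3 ∧ Nat.card V = 9 ∧
      ((IsCyclic G ∧ Nat.card G = 8) ∨ Nonempty (G ≃* QuaternionGroup 2) ∨ (Cfsg.IsQuasiDihedral G ∧ Nat.card G = 16))) := by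
  classical
  have hq : q.Prime := Fact.out
  have hp : p.Prime := Fact.out
  letI act : MulAction G V :=
    { smul := fun g v => ρ g v
      one_smul := fun v => by show ρ 1 v = v; rw [map_one]; rfl
      mul_smul := fun g h v => by show ρ (g * h) v = ρ g (ρ h v); rw [map_mul]; rfl }
  have hsmul : ∀ (g : G) (v : V), g • v = ρ g v := fun _ _ => rfl
  -- orbits
  have horb : ∀ v : V, v ≠ 0 → MulAction.orbit G v = ({0}ᶜ : Set V) := by
    intro v hv
    ext w
    simp only [MulAction.mem_orbit_iff, Set.mem_compl_iff, Set.mem_singleton_iff]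
    constructor
    · rintro ⟨g, rfl⟩ h0
      rw [hsmul] at h0
      exact hv ((ρ g).map_eq_zero_iff.mp h0)
    · intro hw
      obtain ⟨g, hg⟩ := htrans v w hv hw
      exact ⟨g, hg⟩
  have hVpos : 0 < Nat.card V := Nat.card_pos
  have hcardeq : ∀ v : V, v ≠ 0 →
      Nat.card G = (Nat.card V - 1) * Nat.card (MulAction.stabilizer G v) := by
    intro v hv
    have h1 := MulAction.index_stabilizer G v
    rw [horb v hv, Set.ncard_compl, Set.ncard_singleton] at h1
    rw [← h1, mul_comm]
    exact (Subgroup.card_mul_index _).symm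
  obtain ⟨v0, hv0⟩ := exists_ne (0 : V)
  obtain ⟨k, hk⟩ := (IsPGroup.iff_card).mp hG
  have hGcard1 : 1 < Nat.card G := Finite.one_lt_card
  have hk1 : 1 ≤ k := by
    rcases Nat.eq_zero_or_pos k with h | h
    · rw [h, pow_zero] at hk; omega
    · exact h
  have h0 := hcardeq v0 hv0
  obtain ⟨a, -, ha⟩ := (Nat.dvd_prime_pow hp).mp (hk ▸ Dvd.intro _ h0.symm)
  -- a ≥ 1
  have ha1 : 1 ≤ a := by
    rcases Nat.eq_zero_or_pos a with h | h
    · exfalso
      rw [h, pow_zero] at ha
      have hsub : (MulAction.orbit G v0).Subsingleton := by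
        rw [← Set.ncard_le_one_iff_subsingleton, horb v0 hv0, Set.ncard_compl, Set.ncard_singleton]
        omega
      have hall : ∀ w : V, w ≠ 0 → w = v0 := by
        intro w hw
        apply hsub
        · rw [horb v0 hv0]; exact hw
        · exact MulAction.mem_orbit_self v0
      obtain ⟨g, hg⟩ := exists_ne (1 : G)
      apply hg
      apply hρ
      rw [map_one]
      ext w
      by_cases hw : w = 0
      · rw [hw]; simp
      · have h2 : ρ g w ≠ 0 := fun h0 => hw ((ρ g).map_eq_zero_iff.mp h0)
        rw [hall _ h2]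
        exact (hall w hw).symm
    · exact h
  have hVd : Nat.card V = q ^ Module.finrank (ZMod q) V := by
    have := Module.natCard_eq_pow_finrank (K := ZMod q) (V := V)
    rwa [Nat.card_zmod] at this
  have hd1 : 1 ≤ Module.finrank (ZMod q) V := Module.finrank_pos
  have hVa : Nat.card V = p ^ a + 1 := by omega
  rcases Cfsg.Agent.H61.nt q _ p a hq hp hd1 ha1 (hVd ▸ hVa) with ⟨hq2, ha'⟩ | ⟨hp2, hd'⟩ | ⟨hp2, hq3, hd'⟩
  · -- q = 2, a = 1
    left
    rw [ha', pow_one] at ha hVa
    refine ⟨hq2, ha.symm, ?_⟩
    have hinj : Function.Injective (MulAction.toPermHom G V) := by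
      intro g h hgh
      apply hρ
      ext w
      have := congrArg (fun σ : Equiv.Perm V => σ w) hgh
      exact this
    have hdvd : Nat.card G ∣ (p + 1).factorial := by
      have := Subgroup.card_dvd_of_injective _ hinj
      rwa [Nat.card_perm, hVa] at this
    rw [hk] at hdvd ⊢
    have hle := (hp.pow_dvd_iff_le_factorization (Nat.factorial_ne_zero _)).mp hdvd
    have hp2 := hp.two_le
    rw [Cfsg.Agent.H61.factorization_factorial_eq_one (p + 1) p hp (by omega) (by omega)] at hle
    have : k = 1 := by omega
    rw [this, pow_one]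
  · -- p = 2, d = 1
    right; left
    rw [hd', pow_one] at hVd
    have hspan := (finrank_eq_one_iff_of_nonzero' v0 hv0).mp hd'
    have hstab : MulAction.stabilizer G v0 = ⊥ := by
      rw [Subgroup.eq_bot_iff_forall]
      intro g hg
      have hg' : ρ g v0 = v0 := hg
      apply hρ
      rw [map_one]
      ext w
      obtain ⟨c, rfl⟩ := hspan w
      rw [map_smul, hg']; rfl
    have hGa : Nat.card G = 2 ^ a := by
      rw [h0, ha, hstab, Subgroup.card_bot, mul_one, hp2]
    refine ⟨hp2, hVd, ⟨a, ?_, hGa⟩, ?_⟩
    · rw [← hVd, hVa, hp2]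
    · choose c hc using fun g : G => hspan (ρ g v0)
      have hsi := smul_left_injective (ZMod q) hv0
      let f : G →* ZMod q :=
        { toFun := c
          map_one' := by
            apply hsi
            show c 1 • v0 = (1 : ZMod q) • v0
            rw [hc, map_one, one_smul]; rfl
          map_mul' := by
            intro g h
            apply hsi
            show c (g * h) • v0 = (c g * c h) • v0
            rw [hc, map_mul, mul_comm, mul_smul, hc g]
            show ρ g (ρ h v0) = c h • ρ g v0
            rw [← hc h, map_smul] }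
      have hf : Function.Injective f := by
        intro g h hgh
        have hgh' : c g = c h := hgh
        have h1 : ρ g v0 = ρ h v0 := by rw [← hc g, ← hc h, hgh']
        apply hρ
        ext w
        obtain ⟨e, rfl⟩ := hspan w
        rw [map_smul, map_smul, h1]
      exact isCyclic_of_injective_ringHom f hf
  · -- p = 2, q = 3, d = 2
    right; right
    subst hp2
    subst hq3
    rw [hd'] at hVd
    have hV9 : Nat.card V = 9 := by rw [hVd]; norm_num
    refine ⟨rfl, rfl, hV9, ?_⟩
    have ha8 : (2 : ℕ) ^ a = 8 := by omega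
    let b : Module.Basis (Fin 2) (ZMod 3) V := Module.finBasisOfFinrankEq _ _ hd'
    let Φ : (V ≃ₗ[ZMod 3] V) ≃* GL (Fin 2) (ZMod 3) :=
      ((Matrix.GeneralLinearGroup.toLin' b).trans
        (LinearMap.GeneralLinearGroup.generalLinearEquiv (ZMod 3) V)).symm
    let f : G →* GL (Fin 2) (ZMod 3) := Φ.toMonoidHom.comp ρ
    have hf : Function.Injective f := Φ.injective.comp hρ
    have hdvd : Nat.card G ∣ 48 := by
      have := Subgroup.card_dvd_of_injective f hf
      rwa [Cfsg.Agent.H61.card_GL23] at this
    have hG8 : ∀ v : V, v ≠ 0 → Nat.card G = 8 * Nat.card (MulAction.stabilizer G v) := by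
      intro v hv
      have := hcardeq v hv
      rw [hV9] at this
      exact this
    have hk34 : k = 3 ∨ k = 4 := by
      have hk4 : k ≤ 4 := by
        by_contra hk5
        have h1 : (2 : ℕ) ^ 5 ∣ 2 ^ k := Nat.pow_dvd_pow 2 (by omega)
        have h2 : (2 : ℕ) ^ 5 ∣ 48 := h1.trans (hk ▸ hdvd)
        omega
      have hk3 : 3 ≤ k := by
        have h1 : (8 : ℕ) ∣ 2 ^ k := by
          rw [← hk]; exact Dvd.intro _ (hG8 v0 hv0).symm
        have h2 : (2 : ℕ) ^ 3 ∣ 2 ^ k := h1
        exact (Nat.pow_dvd_pow_iff_le_right (by norm_num)).mp h2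
      omega
    rcases hk34 with rfl | rfl
    · -- order 8
      have hcard8 : Nat.card G = 8 := by rw [hk]; norm_num
      have hstab : ∀ v : V, v ≠ 0 → ∀ g : G, ρ g v = v → g = 1 := by
        intro v hv g hg
        have h1 := hG8 v hv
        have h2 : Nat.card (MulAction.stabilizer G v) = 1 := by omega
        have h3 := Subgroup.card_eq_one.mp h2
        have h4 : g ∈ MulAction.stabilizer G v := hg
        rw [h3] at h4
        exact Subgroup.mem_bot.mp h4
      have hneg : ∀ s : G, orderOf s = 2 → ∀ v : V, ρ s v = -v := by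
        intro s hs v
        have hs2 : s * s = 1 := by
          rw [← pow_two, ← hs]; exact pow_orderOf_eq_one s
        have hfix : ρ s (v + ρ s v) = v + ρ s v := by
          rw [map_add]
          have : ρ s (ρ s v) = v := by
            have h1 : ρ (s * s) v = ρ s (ρ s v) := by rw [map_mul]; rfl
            rw [← h1, hs2, map_one]; rfl
          rw [this, add_comm]
        by_contra hne
        have hw : v + ρ s v ≠ 0 := by
          intro h0
          apply hne
          exact (neg_eq_of_add_eq_zero_right h0).symm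
        have := hstab _ hw s hfix
        rw [this, orderOf_one] at hs
        omega
      have hinv : ∀ s t : G, orderOf s = 2 → orderOf t = 2 → s = t := by
        intro s t hs ht
        apply hρ
        ext v
        rw [hneg s hs v, hneg t ht v]
      rcases Cfsg.Agent.H61.cyclic_or_quaternion hcard8 hinv with h | h
      · exact Or.inl ⟨h, hcard8⟩
      · exact Or.inr (Or.inl h)
    · -- order 16
      have hcard16 : Nat.card G = 16 := by rw [hk]; norm_num
      obtain ⟨x, y, hx, hy, hxy⟩ := Cfsg.Agent.H61.quasiDihedral_of_card_sixteen hcard16 f hf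
      refine Or.inr (Or.inr ⟨⟨3, le_refl 3, ?_, x, y, ?_, hy, ?_⟩, hcard16⟩)
      · rw [hcard16]; norm_num
      · rw [hx]; norm_num
      · rw [hxy]; norm_num

end Cfsg.Agent.S3370
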