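import Cfsg.Statements.S3379

set_option autoImplicit false
open Cfsg

namespace Cfsg.Agent.S3379

/-- Let G be a finite group all of whose Sylow subgroups are cyclic. Then G is generated by two elements x and y of coprime orders n and m with x⁻¹yx = y^r, where gcd(r − 1, m) = 1 and r^n ≡ 1 (mod m). -/
theorem result {G : Type*} [Group G] [Finite G]
    (hZ : ∀ (p : ℕ) [Fact p.Prime] (P : Sylow p G), IsCyclic (P : Subgroup G)) :
    ∃ (x y : G) (n m r : ℕ), Subgroup.closure {x, y} = ⊤ ∧ orderOf x = n ∧ orderOf y = m ∧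
      x⁻¹ * y * x = y ^ r ∧ Nat.Coprime (r - 1) m ∧ Nat.Coprime n m ∧ 1 ≤ r ∧ r ^ n % m = 1 % m := by
  have hZG : IsZGroup G := ⟨fun p hp P => by have := Fact.mk hp; exact hZ p P⟩
  have hcop := IsZGroup.coprime_commutator_index G
  obtain ⟨H, hH⟩ := Subgroup.exists_right_complement'_of_coprime hcop
  have hNcyc : IsCyclic (commutator G) := IsZGroup.isCyclic_commutator G
  have hHcyc : IsCyclic H := by
    have h1 : Abelianization G ≃* H := hH.symm.QuotientMulEquiv
    exact isCyclic_of_surjective _ h1.surjective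
  have hNn : (commutator G).Normal := inferInstance
  obtain ⟨gy, hgy⟩ := IsCyclic.exists_generator (α := commutator G)
  obtain ⟨gx, hgx⟩ := IsCyclic.exists_generator (α := H)
  have hyN : (gy : G) ∈ commutator G := gy.2
  have hNpow : ∀ a ∈ commutator G, ∃ k : ℕ, (gy : G) ^ k = a := by
    intro a ha
    have h1 := hgy ⟨a, ha⟩
    have h2 : a ∈ Subgroup.zpowers (gy : G) := by
      obtain ⟨k, hk⟩ := Subgroup.mem_zpowers_iff.1 h1
      refine Subgroup.mem_zpowers_iff.2 ⟨k, ?_⟩
      have := congrArg Subtype.val hk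
      simpa using this
    rw [← mem_powers_iff_mem_zpowers] at h2
    exact (Submonoid.mem_powers_iff _ _).1 h2
  have hHpow : ∀ a ∈ H, ∃ k : ℕ, (gx : G) ^ k = a := by
    intro a ha
    have h1 := hgx ⟨a, ha⟩
    have h2 : a ∈ Subgroup.zpowers (gx : G) := by
      obtain ⟨k, hk⟩ := Subgroup.mem_zpowers_iff.1 h1
      refine Subgroup.mem_zpowers_iff.2 ⟨k, ?_⟩
      have := congrArg Subtype.val hk
      simpa using this
    rw [← mem_powers_iff_mem_zpowers] at h2
    exact (Submonoid.mem_powers_iff _ _).1 h2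
  have hordy : orderOf (gy : G) = Nat.card (commutator G) := by
    rw [Subgroup.orderOf_coe]; exact orderOf_eq_card_of_forall_mem_zpowers hgy
  have hordx : orderOf (gx : G) = Nat.card H := by
    rw [Subgroup.orderOf_coe]; exact orderOf_eq_card_of_forall_mem_zpowers hgx
  generalize hy : (gy : G) = y at *
  generalize hx : (gx : G) = x at *
  have hmpos : 0 < orderOf y := orderOf_pos y
  -- generation
  have hclos : Subgroup.closure {x, y} = ⊤ := by
    rw [eq_top_iff, ← hH.sup_eq_top]
    apply sup_le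
    · intro a ha
      obtain ⟨k, rfl⟩ := hNpow a ha
      exact Subgroup.pow_mem _ (Subgroup.subset_closure (by simp)) k
    · intro a ha
      obtain ⟨k, rfl⟩ := hHpow a ha
      exact Subgroup.pow_mem _ (Subgroup.subset_closure (by simp)) k
  -- the exponent r
  have hconj : x⁻¹ * y * x ∈ commutator G := by
    have := hNn.conj_mem y hyN x⁻¹
    simpa using this
  obtain ⟨r₁, hr₁⟩ := hNpow _ hconj
  set r := r₁ + orderOf y with hrdef
  have hr : x⁻¹ * y * x = y ^ r := by
    rw [hrdef, pow_add, pow_orderOf_eq_one, mul_one, hr₁]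
  have hr1 : 1 ≤ r := by omega
  -- conjugation of powers
  have hconjpow : ∀ (g : G) (k : ℕ), g⁻¹ * y ^ k * g = (g⁻¹ * y * g) ^ k := by
    intro g k
    have := conj_pow (a := g⁻¹) (b := y) (i := k)
    simp only [inv_inv] at this
    exact this.symm
  have hpowconj : ∀ j : ℕ, (x ^ j)⁻¹ * y * x ^ j = y ^ (r ^ j) := by
    intro j
    induction j with
    | zero => simp
    | succ j ih =>
      have e1 : (x ^ (j + 1))⁻¹ * y * x ^ (j + 1) = x⁻¹ * ((x ^ j)⁻¹ * y * x ^ j) * x := by
        rw [pow_succ]; group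
      rw [e1, ih, hconjpow, hr, ← pow_mul, pow_succ, mul_comm]
  have hmod : r ^ orderOf x ≡ 1 [MOD orderOf y] := by
    have h1 := hpowconj (orderOf x)
    rw [pow_orderOf_eq_one] at h1
    simp only [inv_one, one_mul, mul_one] at h1
    rw [← pow_eq_pow_iff_modEq, pow_one]
    exact h1.symm
  -- coprimality of the orders
  have hcopnm : Nat.Coprime (orderOf x) (orderOf y) := by
    rw [hordx, hordy, ← hH.symm.index_eq_card]
    exact hcop.symm
  -- gcd (r - 1, m) = 1
  have hcopr : Nat.Coprime (r - 1) (orderOf y) := by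
    set M := Subgroup.zpowers (y ^ (r - 1)) with hMdef
    have hMn : M.Normal := by
      constructor
      intro a ha g
      rw [hMdef, ← mem_powers_iff_mem_zpowers] at ha
      obtain ⟨j, rfl⟩ := (Submonoid.mem_powers_iff _ _).1 ha
      obtain ⟨t, ht⟩ := hNpow (g * y * g⁻¹) (hNn.conj_mem y hyN g)
      have e : g * (y ^ (r - 1)) ^ j * g⁻¹ = (y ^ (r - 1)) ^ (t * j) := by
        rw [← pow_mul, ← conj_pow, ← ht, ← pow_mul, ← pow_mul]
        congr 1
        ring
      rw [e]
      exact Subgroup.pow_mem _ (Subgroup.mem_zpowers _) _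
    have hxy : (x * y)⁻¹ * (y * x) ∈ M := by
      have e : (x * y)⁻¹ * (y * x) = y ^ (r - 1) := by
        have e1 : (x * y)⁻¹ * (y * x) = y⁻¹ * (x⁻¹ * y * x) := by group
        rw [e1, hr]
        have e2 : y ^ r = y * y ^ (r - 1) := by
          rw [← pow_succ']
          congr 1
          omega
        rw [e2, inv_mul_cancel_left]
      rw [e]
      exact Subgroup.mem_zpowers _
    have hgen : (QuotientGroup.mk x : G ⧸ M) * QuotientGroup.mk y = QuotientGroup.mk y * QuotientGroup.mk x := by
      rw [← QuotientGroup.mk_mul, ← QuotientGroup.mk_mul]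
      exact QuotientGroup.eq.2 hxy
    have hk : Subgroup.closure ({(QuotientGroup.mk x : G ⧸ M), QuotientGroup.mk y} : Set (G ⧸ M)) = ⊤ := by
      have h1 := MonoidHom.map_closure (QuotientGroup.mk' M) {x, y}
      rw [hclos, Set.image_pair, ← MonoidHom.range_eq_map,
        MonoidHom.range_eq_top.2 (QuotientGroup.mk'_surjective M)] at h1
      exact h1.symm
    have hcommk : IsMulCommutative (Subgroup.closure ({(QuotientGroup.mk x : G ⧸ M), QuotientGroup.mk y} : Set (G ⧸ M))) := by
      apply Subgroup.isMulCommutative_closure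
      intro a ha b hb
      rcases ha with rfl | rfl <;> rcases hb with rfl | rfl
      · rfl
      · exact hgen
      · exact hgen.symm
      · rfl
    have hQcomm : ∀ a b : G ⧸ M, a * b = b * a := by
      intro a b
      have ha : a ∈ Subgroup.closure ({(QuotientGroup.mk x : G ⧸ M), QuotientGroup.mk y} : Set (G ⧸ M)) := by
        rw [hk]; trivial
      have hb : b ∈ Subgroup.closure ({(QuotientGroup.mk x : G ⧸ M), QuotientGroup.mk y} : Set (G ⧸ M)) := by
        rw [hk]; trivial
      have := hcommk.is_comm.comm ⟨a, ha⟩ ⟨b, hb⟩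
      exact congrArg Subtype.val this
    have hle : commutator G ≤ M := by
      rw [commutator_def, Subgroup.commutator_le]
      intro g₁ _ g₂ _
      rw [← QuotientGroup.eq_one_iff, commutatorElement_def]
      simp only [QuotientGroup.mk_mul, QuotientGroup.mk_inv]
      rw [hQcomm (QuotientGroup.mk g₁) (QuotientGroup.mk g₂)]
      group
    have hyM : y ∈ M := hle hyN
    rw [hMdef, ← mem_powers_iff_mem_zpowers] at hyM
    obtain ⟨j, hj⟩ := (Submonoid.mem_powers_iff _ _).1 hyM
    have h1 : y ^ ((r - 1) * j) = y ^ 1 := by rw [pow_mul, hj, pow_one]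
    rw [pow_eq_pow_iff_modEq] at h1
    exact Nat.coprime_of_mul_modEq_one j h1
  exact ⟨x, y, orderOf x, orderOf y, r, hclos, rfl, rfl, hr, hcopr, hcopnm, hr1, hmod⟩

end Cfsg.Agent.S3379
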