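import Cfsg.Statements.S3380
import Cfsg.Agent.H76.Imprim
import Cfsg.Agent.H11.AbNormalCyclic

set_option autoImplicit false
open Cfsg

namespace Cfsg.Agent.S3380

/-- Let a finite p-group G act faithfully and irreducibly on a non-trivial finite vector space V over the field with q elements (q prime), and suppose G is not cyclic, generalized quaternion, dihedral or semidihedral. Then G has a subgroup H of index p and V is the direct sum of p subspaces, each invariant under H, on none of which H acts faithfully, and which every element of G outside H permutes in a single p-cycle. -/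
theorem result
    (q : ℕ) [Fact q.Prime] {V : Type*} [AddCommGroup V] [Module (ZMod q) V] [Finite V] [Nontrivial V]
    {G : Type*} [Group G] [Finite G] (p : ℕ) [Fact p.Prime] (hG : IsPGroup p G)
    (ρ : G →* (V ≃ₗ[ZMod q] V)) (hρ : Function.Injective ρ)
    (hirr : ∀ W : Submodule (ZMod q) V, (∀ g : G, ∀ w ∈ W, ρ g w ∈ W) → W = ⊥ ∨ W = ⊤)
    (hnc : ¬ IsCyclic G) (hnq : ∀ n : ℕ, ¬ Nonempty (G ≃* QuaternionGroup n))
    (hnd : ∀ n : ℕ, ¬ Nonempty (G ≃* DihedralGroup n)) (hnsd : ¬ Cfsg.IsQuasiDihedral G) :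
    ∃ (H : Subgroup G) (W : Fin p → Submodule (ZMod q) V), H.index = p ∧
      iSup W = ⊤ ∧ iSupIndep W ∧
      (∀ h ∈ H, ∀ i, ∀ w ∈ W i, ρ h w ∈ W i) ∧
      (∀ i, ∃ h ∈ H, h ≠ 1 ∧ ∀ w ∈ W i, ρ h w = w) ∧
      ∀ g : G, g ∉ H → ∃ σ : Equiv.Perm (Fin p), orderOf σ = p ∧ ∀ i, (W i).map (ρ g : V →ₗ[ZMod q] V) = W (σ i) := by
  classical
  have hp : p.Prime := Fact.out
  have hq : q.Prime := Fact.out
  let ρ' : G →* Module.End (ZMod q) V :=
    { toFun := fun g => (ρ g : V →ₗ[ZMod q] V)
      map_one' := by rw [map_one]; rfl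
      map_mul' := fun a b => by rw [map_mul]; rfl }
  have hinj : Function.Injective ρ' := by
    intro a b hab
    apply hρ
    ext w
    exact congrArg (fun f : Module.End (ZMod q) V => f w) hab
  have hirr' : Cfsg.Agent.H76.LinDer.Irr ρ' := fun W hW => hirr W hW
  have hpq : (p : ZMod q) ≠ 0 := by
    intro h0
    have hdvd : q ∣ p := (ZMod.natCast_eq_zero_iff p q).mp h0
    have hqp : q = p := (Nat.prime_dvd_prime_iff_eq hq hp).mp hdvd
    subst hqp
    letI : MulAction G V := MulAction.compHom V ρ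
    have hcard : q ∣ Nat.card V := by
      have h1 := Module.natCard_eq_pow_finrank (K := ZMod q) (V := V)
      rw [Nat.card_zmod] at h1
      rw [h1]
      exact dvd_pow_self q (Module.finrank_pos (R := ZMod q) (M := V)).ne'
    have h0' : (0 : V) ∈ MulAction.fixedPoints G V := by
      intro g
      show ρ g 0 = 0
      exact map_zero _
    obtain ⟨b, hb, hb0⟩ := hG.exists_fixed_point_of_prime_dvd_card_of_fixed_point V hcard h0'
    let Fx : Submodule (ZMod q) V :=
      { carrier := {w | ∀ g : G, ρ g w = w}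
        add_mem' := fun {x y} hx hy g => by rw [map_add, hx g, hy g]
        zero_mem' := fun g => map_zero _
        smul_mem' := fun c x hx g => by rw [map_smul, hx g] }
    have hbF : b ∈ Fx := fun g => hb g
    have hFx : Fx = ⊤ := by
      rcases hirr Fx (fun g w hw => by rw [hw g]; exact hw) with h | h
      · exfalso
        rw [h, Submodule.mem_bot] at hbF
        exact hb0 hbF.symm
      · exact h
    apply hnc
    have hsub : Subsingleton G := by
      constructor
      intro a b'
      apply hρ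
      ext w
      have hw : w ∈ Fx := hFx ▸ Submodule.mem_top
      rw [hw a, hw b']
    exact isCyclic_of_subsingleton
  have hex : ∃ A : Subgroup G, A.Normal ∧ IsMulCommutative A ∧ ¬ IsCyclic A := by
    by_contra hcon
    push Not at hcon
    obtain ⟨-, h | h | h⟩ := Cfsg.Agent.H11.abelian_normal_cyclic_main p hG hcon hnc
    · obtain ⟨n, hn⟩ := h
      exact hnq n hn
    · obtain ⟨n, -, hn⟩ := h
      exact hnd n hn
    · exact hnsd h
  obtain ⟨A, hAn, hAc, hAnc⟩ := hex
  obtain ⟨H, W, h1, h2, h3, h4, h5, h6⟩ := Cfsg.Agent.H76.Imprim.imprim_main p hG hpq ρ' hinj hirr'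
    A hAn (fun a ha b hb => congrArg Subtype.val (hAc.is_comm.comm (⟨a, ha⟩ : A) ⟨b, hb⟩)) hAnc
  refine ⟨H, W, h1, h2, h3, h4, h5, ?_⟩
  intro g hg
  obtain ⟨σ, hσ, hσW⟩ := h6 g hg
  refine ⟨σ, hσ, fun i => ?_⟩
  ext w
  rw [Submodule.mem_map]
  exact (hσW i w).symm

end Cfsg.Agent.S3380
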