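import Cfsg.Statements.S3381

set_option autoImplicit false
open Cfsg

namespace Cfsg.Agent.S3381

section
variable {q : ℕ} [Fact q.Prime] {V : Type*} [AddCommGroup V] [Module (ZMod q) V]
  {G : Type*} [Group G] (ρ : G →* (V ≃ₗ[ZMod q] V))

/-- the fixed space of `g`, as an additive subgroup -/
def fixSub (g : G) : AddSubgroup V where
  carrier := {v | ρ g v = v}
  add_mem' := by
    intro a b ha hb
    simp only [Set.mem_ofPred_eq] at *
    rw [map_add, ha, hb]
  zero_mem' := by simp
  neg_mem' := by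
    intro a ha
    simp only [Set.mem_ofPred_eq] at *
    rw [map_neg, ha]

theorem mem_fixSub (g : G) (v : V) : v ∈ fixSub ρ g ↔ ρ g v = v := Iff.rfl

theorem rho_mul (g h : G) (v : V) : ρ (g * h) v = ρ g (ρ h v) := by
  rw [map_mul]; rfl

theorem rho_one (v : V) : ρ 1 v = v := by
  rw [map_one]; rfl

end

theorem card_ne_add_one (α : Type*) [Finite α] (a : α) : Nat.card {b : α // b ≠ a} + 1 = Nat.card α := by
  classical
  rw [← Finite.card_option, Nat.card_congr (Equiv.optionSubtypeNe a)]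

/-- two additive subgroups meeting trivially: product of orders at most the order of the group -/
theorem card_mul_card_le {V : Type*} [AddCommGroup V] [Finite V] (A B : AddSubgroup V)
    (h : ∀ v : V, v ∈ A → v ∈ B → v = 0) : Nat.card A * Nat.card B ≤ Nat.card V := by
  rw [← Nat.card_prod]
  apply Nat.card_le_card_of_injective (fun p : A × B => (p.1 : V) + (p.2 : V))
  rintro ⟨a, b⟩ ⟨a', b'⟩ e
  simp only at e
  have h1 : (a : V) - a' = b' - b := by
    rw [sub_eq_sub_iff_add_eq_add]; exact e.trans (add_comm _ _)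
  have h2 : (a : V) - a' = 0 := by
    apply h
    · exact A.sub_mem a.2 a'.2
    · rw [h1]; exact B.sub_mem b'.2 b.2
  have h3 : (b' : V) - b = 0 := by rw [← h1, h2]
  have ha : a = a' := Subtype.ext (sub_eq_zero.1 h2)
  have hb : b = b' := Subtype.ext (sub_eq_zero.1 h3).symm
  rw [ha, hb]

/-- Let G be a finite group acting faithfully and linearly on a non-trivial finite vector space V over the field with q elements (q prime) so that every non-zero vector has a stabilizer of order 2, and suppose G has a central involution. Then V has q^(2r) elements for some r and G contains exactly q^r + 1 non-central involutions. -/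
theorem result
    (q : ℕ) [Fact q.Prime] {V : Type*} [AddCommGroup V] [Module (ZMod q) V] [Finite V] [Nontrivial V]
    {G : Type*} [Group G] [Finite G] (ρ : G →* (V ≃ₗ[ZMod q] V)) (hρ : Function.Injective ρ)
    (hstab : ∀ v : V, v ≠ 0 → Nat.card {g : G // ρ g v = v} = 2)
    (z : G) (hz : orderOf z = 2) (hzc : z ∈ Subgroup.center G) :
    ∃ r : ℕ, Nat.card V = q ^ (2 * r) ∧
      Nat.card {g : G // orderOf g = 2 ∧ g ∉ Subgroup.center G} = q ^ r + 1 := by
  have hq : q.Prime := Fact.out
  -- basic consequences of the stabilizer hypothesis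
  have S1 : ∀ v : V, v ≠ 0 → ∃ t : G, t ≠ 1 ∧ ρ t v = v := by
    intro v hv
    obtain ⟨y, hy, -⟩ := (Nat.card_eq_two_iff' (⟨1, rho_one ρ v⟩ : {g : G // ρ g v = v})).1 (hstab v hv)
    refine ⟨y.1, ?_, y.2⟩
    intro h
    exact hy (Subtype.ext h)
  have S2 : ∀ v : V, v ≠ 0 → ∀ s t : G, s ≠ 1 → t ≠ 1 → ρ s v = v → ρ t v = v → s = t := by
    intro v hv s t hs ht hsv htv
    obtain ⟨y, hy, huniq⟩ := (Nat.card_eq_two_iff' (⟨1, rho_one ρ v⟩ : {g : G // ρ g v = v})).1 (hstab v hv)
    have h1 := huniq ⟨s, hsv⟩ (fun h => hs (congrArg Subtype.val h))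
    have h2 := huniq ⟨t, htv⟩ (fun h => ht (congrArg Subtype.val h))
    exact congrArg Subtype.val (h1.trans h2.symm)
  have S3 : ∀ v : V, v ≠ 0 → ∀ t : G, ρ t v = v → t * t = 1 := by
    intro v hv t htv
    by_contra htt
    by_cases ht : t = 1
    · apply htt; rw [ht, mul_one]
    · have h1 : ρ (t * t) v = v := by rw [rho_mul, htv, htv]
      have := S2 v hv (t * t) t htt ht h1 htv
      apply ht
      have h2 : t * t = t * 1 := by rw [mul_one]; exact this
      exact mul_left_cancel h2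
  -- faithful
  have hfaith : ∀ g h : G, (∀ v : V, ρ g v = ρ h v) → g = h := by
    intro g h hgh
    apply hρ
    ext v
    exact hgh v
  -- Lemma A
  have LA : ∀ c : G, c ≠ 1 → (∀ g : G, g * c = c * g) → ∀ w₀ : V, w₀ ≠ 0 → ρ c w₀ = w₀ →
      ∀ t : G, t ≠ 1 → t ≠ c → t * t = 1 → ρ t w₀ = -w₀ := by
    intro c hc1 hcc w₀ hw₀ hcw t ht1 htc htt
    by_contra hne
    have hw' : w₀ + ρ t w₀ ≠ 0 := by
      intro h
      apply hne
      exact (eq_neg_of_add_eq_zero_right h)
    have h1 : ρ t (w₀ + ρ t w₀) = w₀ + ρ t w₀ := by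
      rw [map_add, ← rho_mul, htt, rho_one, add_comm]
    have h2 : ρ c (w₀ + ρ t w₀) = w₀ + ρ t w₀ := by
      rw [map_add, ← rho_mul, ← hcc t, rho_mul, hcw]
    exact htc (S2 _ hw' t c ht1 hc1 h1 h2)
  -- Lemma B: a central involution fixes no nonzero vector
  have LB : ∀ c : G, c ≠ 1 → c * c = 1 → (∀ g : G, g * c = c * g) → ∀ w₀ : V, ρ c w₀ = w₀ → w₀ = 0 := by
    intro c hc1 hcsq hcc w₀ hcw
    by_contra hw₀
    obtain ⟨v, hv⟩ : ∃ v : V, ρ c v ≠ v := by
      by_contra hall
      rw [not_exists] at hall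
      apply hc1
      apply hfaith
      intro v
      rw [rho_one]
      exact not_not.1 (hall v)
    have hv0 : v ≠ 0 := by
      rintro rfl
      exact hv (map_zero _)
    set u := v - ρ c v with hudef
    have hu : u ≠ 0 := sub_ne_zero.2 (Ne.symm hv)
    have hcu : ρ c u = -u := by
      rw [hudef, map_sub, ← rho_mul, hcsq, rho_one, neg_sub]
    -- the case where -1 = 1
    have hchar2 : (∀ w : V, -w = w) → False := by
      intro hneg
      obtain ⟨t', ht'1, ht'v⟩ := S1 v hv0
      have ht'c : t' ≠ c := by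
        rintro rfl
        exact hv ht'v
      have h1 := LA c hc1 hcc w₀ hw₀ hcw t' ht'1 ht'c (S3 v hv0 t' ht'v)
      rw [hneg] at h1
      exact ht'c (S2 w₀ hw₀ t' c ht'1 hc1 h1 hcw)
    have two_of : ∀ w : V, w ≠ 0 → w + w = 0 → False := by
      intro w hw hww
      apply hchar2
      have h2 : (2 : ZMod q) • w = 0 := by rw [two_smul]; exact hww
      have h3 : (2 : ZMod q) = 0 := by
        rcases smul_eq_zero.1 h2 with h | h
        · exact h
        · exact absurd h hw
      intro w'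
      have : w' + w' = 0 := by rw [← two_smul (ZMod q), h3, zero_smul]
      exact (eq_neg_of_add_eq_zero_left this).symm
    have C1 : ρ c u ≠ u := by
      intro h
      rw [hcu] at h
      apply two_of u hu
      nth_rewrite 1 [← h]
      exact neg_add_cancel u
    obtain ⟨t, ht1, htu⟩ := S1 u hu
    have htc : t ≠ c := by
      rintro rfl
      exact C1 htu
    set x := u + w₀ with hxdef
    have hx : x ≠ 0 := by
      intro h
      apply C1
      have : u = -w₀ := eq_neg_of_add_eq_zero_left h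
      rw [this, map_neg, hcw]
    obtain ⟨s, hs1, hsx⟩ := S1 x hx
    have hsc : s ≠ c := by
      rintro rfl
      apply C1
      rw [hxdef, map_add, hcw] at hsx
      exact add_right_cancel hsx
    have hsw := LA c hc1 hcc w₀ hw₀ hcw s hs1 hsc (S3 x hx s hsx)
    have hsu : ρ s u = u + w₀ + w₀ := by
      rw [hxdef, map_add, hsw] at hsx
      have : ρ s u = u + w₀ - (-w₀) := eq_sub_of_add_eq hsx
      rw [this, sub_neg_eq_add]
    have h4 : ρ c (ρ s u) = -(u + w₀ + w₀) := by
      rw [← rho_mul, ← hcc s, rho_mul, hcu, map_neg, hsu]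
    have h5 : ρ c (ρ s u) = -u + w₀ + w₀ := by
      rw [hsu, map_add, map_add, hcu, hcw]
    have h6 : (w₀ + w₀) + (w₀ + w₀) = 0 := by
      have := h4.symm.trans h5
      have e : (w₀ + w₀) + (w₀ + w₀) = (-u + w₀ + w₀) - (-(u + w₀ + w₀)) := by abel
      rw [e, ← this, sub_self]
    by_cases hww : w₀ + w₀ = 0
    · exact two_of w₀ hw₀ hww
    · exact two_of (w₀ + w₀) hww h6
  -- facts about z
  have hz1 : z ≠ 1 := by
    rintro rfl
    rw [orderOf_one] at hz
    omega
  have hzsq : z * z = 1 := by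
    have := pow_orderOf_eq_one z
    rw [hz, pow_two] at this
    exact this
  have hzcomm : ∀ g : G, g * z = z * g := Subgroup.mem_center_iff.1 hzc
  -- central involutions act as -1
  have hnegc : ∀ c : G, c ≠ 1 → c * c = 1 → (∀ g : G, g * c = c * g) → ∀ v : V, ρ c v = -v := by
    intro c hc1 hcsq hcc v
    have h1 : ρ c (v + ρ c v) = v + ρ c v := by
      rw [map_add, ← rho_mul, hcsq, rho_one, add_comm]
    have := LB c hc1 hcsq hcc _ h1
    exact eq_neg_of_add_eq_zero_right this
  have hzneg := hnegc z hz1 hzsq hzcomm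
  have hzfix : ∀ v : V, ρ z v = v → v = 0 := LB z hz1 hzsq hzcomm
  -- no 2-torsion
  have hnot2 : ∀ v : V, v + v = 0 → v = 0 := by
    intro v hv
    apply hzfix
    rw [hzneg]
    exact (eq_neg_of_add_eq_zero_left hv).symm
  -- characterisation of the non-central involutions
  have hI : ∀ g : G, (orderOf g = 2 ∧ g ∉ Subgroup.center G) ↔ (g ≠ 1 ∧ g * g = 1 ∧ g ≠ z) := by
    intro g
    constructor
    · rintro ⟨h2, hnc⟩
      refine ⟨?_, ?_, ?_⟩
      · rintro rfl
        rw [orderOf_one] at h2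
        omega
      · have := pow_orderOf_eq_one g
        rw [h2, pow_two] at this
        exact this
      · rintro rfl
        exact hnc hzc
    · rintro ⟨h1, hsq, hgz⟩
      have h2 : orderOf g = 2 := orderOf_eq_prime (by rw [pow_two]; exact hsq) h1
      refine ⟨h2, ?_⟩
      intro hc
      apply hgz
      apply hfaith
      intro v
      rw [hnegc g h1 hsq (Subgroup.mem_center_iff.1 hc) v, hzneg]
  -- t * z
  have htz : ∀ t : G, (t ≠ 1 ∧ t * t = 1 ∧ t ≠ z) → (t * z ≠ 1 ∧ (t * z) * (t * z) = 1 ∧ t * z ≠ z) := by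
    rintro t ⟨h1, hsq, htz⟩
    refine ⟨?_, ?_, ?_⟩
    · intro h
      apply htz
      have : t * z = z * z := by rw [h, hzsq]
      exact mul_right_cancel this
    · calc t * z * (t * z) = t * (z * t) * z := by group
        _ = t * (t * z) * z := by rw [hzcomm t]
        _ = (t * t) * (z * z) := by group
        _ = 1 := by rw [hsq, hzsq, mul_one]
    · intro h
      apply h1
      have : t * z = 1 * z := by rw [one_mul]; exact h
      exact mul_right_cancel this
  have hfixtz : ∀ (t : G) (v : V), ρ (t * z) v = -(ρ t v) := by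
    intro t v
    rw [rho_mul, hzneg, map_neg]
  set N := Nat.card V with hNdef
  have hNpos : 0 < N := Nat.card_pos
  -- P1
  have P1 : ∀ s t : G, (s ≠ 1 ∧ s * s = 1 ∧ s ≠ z) → (t ≠ 1 ∧ t * t = 1 ∧ t ≠ z) → s ≠ t →
      Nat.card (fixSub ρ s) * Nat.card (fixSub ρ t) ≤ N := by
    intro s t hs ht hst
    apply card_mul_card_le
    intro v hvs hvt
    by_contra hv
    exact hst (S2 v hv s t hs.1 ht.1 hvs hvt)
  -- P2
  have P2 : ∀ t : G, (t ≠ 1 ∧ t * t = 1 ∧ t ≠ z) →
      Nat.card (fixSub ρ t) * Nat.card (fixSub ρ (t * z)) = N := by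
    intro t ht
    apply le_antisymm
    · apply P1 t (t * z) ht (htz t ht)
      intro h
      apply hz1
      have : t * 1 = t * z := by rw [mul_one]; exact h
      exact (mul_left_cancel this).symm
    · rw [← Nat.card_prod]
      apply Nat.card_le_card_of_injective
        (fun v : V => ((⟨v + ρ t v, by
            rw [mem_fixSub, map_add, ← rho_mul, ht.2.1, rho_one, add_comm]⟩ : fixSub ρ t),
          (⟨v - ρ t v, by
            rw [mem_fixSub, hfixtz, map_sub, ← rho_mul, ht.2.1, rho_one, neg_sub]⟩ : fixSub ρ (t * z))))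
      intro v v' e
      have e1 : v + ρ t v = v' + ρ t v' := congrArg (fun p => (p.1 : V)) e
      have e2 : v - ρ t v = v' - ρ t v' := congrArg (fun p => (p.2 : V)) e
      have e3 : (v - v') + (v - v') = 0 := by
        have : (v - v') + (v - v') = (v + ρ t v) + (v - ρ t v) - ((v' + ρ t v') + (v' - ρ t v')) := by abel
        rw [this, e1, e2, sub_self]
      exact sub_eq_zero.1 (hnot2 _ e3)
  -- P3
  have P3 : ∀ t : G, (t ≠ 1 ∧ t * t = 1 ∧ t ≠ z) → ∃ v : V, v ≠ 0 ∧ ρ t v = v := by
    intro t ht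
    by_contra hno
    rw [not_exists] at hno
    apply ht.2.2
    apply hfaith
    intro v
    rw [hzneg]
    have h1 : ρ t (v + ρ t v) = v + ρ t v := by
      rw [map_add, ← rho_mul, ht.2.1, rho_one, add_comm]
    have h2 : v + ρ t v = 0 := by
      by_contra h
      exact hno _ ⟨h, h1⟩
    exact eq_neg_of_add_eq_zero_right h2
  -- P4
  have P4 : ∀ t : G, (t ≠ 1 ∧ t * t = 1 ∧ t ≠ z) →
      ∃ s : G, (s ≠ 1 ∧ s * s = 1 ∧ s ≠ z) ∧ s ≠ t ∧ s ≠ t * z := by
    intro t ht
    obtain ⟨a, ha0, hta⟩ := P3 t ht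
    obtain ⟨b, hb0, htb'⟩ := P3 (t * z) (htz t ht)
    have htb : ρ t b = -b := by
      rw [hfixtz] at htb'
      exact neg_eq_iff_eq_neg.1 htb'
    have hv : a + b ≠ 0 := by
      intro h
      apply hb0
      apply hnot2
      have h1 : a = -b := eq_neg_of_add_eq_zero_left h
      have h2 : ρ t a = b := by rw [h1, map_neg, htb, neg_neg]
      rw [hta, h1] at h2
      nth_rewrite 1 [← h2]
      exact neg_add_cancel b
    have htv : ρ t (a + b) = a - b := by rw [map_add, hta, htb, sub_eq_add_neg]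
    obtain ⟨s, hs1, hsv⟩ := S1 _ hv
    have hss := S3 _ hv s hsv
    have hsz : s ≠ z := by
      rintro rfl
      exact hv (hzfix _ hsv)
    refine ⟨s, ⟨hs1, hss, hsz⟩, ?_, ?_⟩
    · rintro rfl
      apply hb0
      apply hnot2
      rw [htv] at hsv
      have : b + b = (a + b) - (a - b) := by abel
      rw [this, hsv, sub_self]
    · rintro rfl
      apply ha0
      apply hnot2
      rw [hfixtz, htv] at hsv
      have : a + a = (a + b) - (-(a - b)) := by abel
      rw [this, hsv, sub_self]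
  -- P5
  have P5 : ∀ t : G, (t ≠ 1 ∧ t * t = 1 ∧ t ≠ z) → Nat.card (fixSub ρ t) * Nat.card (fixSub ρ t) = N := by
    have key : ∀ s t : G, (s ≠ 1 ∧ s * s = 1 ∧ s ≠ z) → (t ≠ 1 ∧ t * t = 1 ∧ t ≠ z) → s ≠ t → s * z ≠ t →
        Nat.card (fixSub ρ t) * Nat.card (fixSub ρ t) ≤ N := by
      intro s t hs ht hst hszt
      have h1 := P1 s t hs ht hst
      have h2 := P1 (s * z) t (htz s hs) ht hszt
      have h3 := P2 s hs
      have a1 : N * (Nat.card (fixSub ρ t) * Nat.card (fixSub ρ t)) ≤ N * N := by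
        calc N * (Nat.card (fixSub ρ t) * Nat.card (fixSub ρ t))
            = (Nat.card (fixSub ρ s) * Nat.card (fixSub ρ t)) *
              (Nat.card (fixSub ρ (s * z)) * Nat.card (fixSub ρ t)) := by rw [← h3]; ring
          _ ≤ N * N := Nat.mul_le_mul h1 h2
      exact Nat.le_of_mul_le_mul_left a1 hNpos
    intro t ht
    obtain ⟨s, hs, hst, hstz⟩ := P4 t ht
    have hszt : s * z ≠ t := by
      intro h
      apply hstz
      rw [← h, mul_assoc, hzsq, mul_one]
    have hsztz : s * z ≠ t * z := by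
      intro h
      exact hst (mul_right_cancel h)
    have a2 := key s t hs ht hst hszt
    have b2 := key s (t * z) hs (htz t ht) hstz hsztz
    have h4 := P2 t ht
    apply le_antisymm a2
    by_contra hlt
    rw [not_le] at hlt
    have hpos : 0 < Nat.card (fixSub ρ t) := Nat.card_pos
    have h5 : Nat.card (fixSub ρ t) < Nat.card (fixSub ρ (t * z)) := by
      rw [← h4] at hlt
      exact Nat.lt_of_mul_lt_mul_left hlt
    have h6 : N < Nat.card (fixSub ρ (t * z)) * Nat.card (fixSub ρ (t * z)) := by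
      rw [← h4]
      exact Nat.mul_lt_mul_of_pos_right h5 (by omega)
    omega
  -- a non-central involution exists
  obtain ⟨v₀, hv₀⟩ := exists_ne (0 : V)
  obtain ⟨t₀, ht₀1, ht₀v⟩ := S1 v₀ hv₀
  have ht₀ : t₀ ≠ 1 ∧ t₀ * t₀ = 1 ∧ t₀ ≠ z := by
    refine ⟨ht₀1, S3 v₀ hv₀ t₀ ht₀v, ?_⟩
    rintro rfl
    exact hv₀ (hzfix _ ht₀v)
  set n := Nat.card (fixSub ρ t₀) with hndef
  have hnn : n * n = N := P5 t₀ ht₀
  have hn_all : ∀ t : G, (t ≠ 1 ∧ t * t = 1 ∧ t ≠ z) → Nat.card (fixSub ρ t) = n := by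
    intro t ht
    have h1 := P5 t ht
    rw [← hnn] at h1
    exact Nat.mul_self_inj.1 h1
  have hn2 : 2 ≤ n := by
    have : Nontrivial (fixSub ρ t₀) := ⟨⟨⟨v₀, ht₀v⟩, 0, fun h => hv₀ (congrArg Subtype.val h)⟩⟩
    exact Finite.one_lt_card
  -- the map from nonzero vectors to non-central involutions
  have hτ : ∀ x : {v : V // v ≠ 0}, ∃ t : {g : G // orderOf g = 2 ∧ g ∉ Subgroup.center G},
      ρ t.1 x.1 = x.1 := by
    intro x
    obtain ⟨t, ht1, htx⟩ := S1 x.1 x.2
    refine ⟨⟨t, (hI t).2 ⟨ht1, S3 x.1 x.2 t htx, ?_⟩⟩, htx⟩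
    rintro rfl
    exact x.2 (hzfix _ htx)
  choose τ hτspec using hτ
  have hτuniq : ∀ (x : {v : V // v ≠ 0}) (t : {g : G // orderOf g = 2 ∧ g ∉ Subgroup.center G}),
      ρ t.1 x.1 = x.1 → τ x = t := by
    intro x t htx
    apply Subtype.ext
    exact S2 x.1 x.2 _ _ ((hI _).1 (τ x).2).1 ((hI _).1 t.2).1 (hτspec x) htx
  have hfiber : ∀ t : {g : G // orderOf g = 2 ∧ g ∉ Subgroup.center G},
      Nat.card {x : {v : V // v ≠ 0} // τ x = t} + 1 = n := by
    intro t
    rw [← hn_all t.1 ((hI _).1 t.2), ← card_ne_add_one (fixSub ρ t.1) 0]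
    congr 1
    apply Nat.card_congr
    exact
      { toFun := fun x => ⟨⟨x.1.1, by
            have := hτspec x.1
            rw [x.2] at this
            exact this⟩, fun h => x.1.2 (congrArg Subtype.val h)⟩
        invFun := fun a => ⟨⟨a.1.1, fun h => a.2 (Subtype.ext h)⟩, hτuniq _ _ a.1.2⟩
        left_inv := fun x => rfl
        right_inv := fun a => rfl }
  have hcount : Nat.card {v : V // v ≠ 0} =
      Nat.card {g : G // orderOf g = 2 ∧ g ∉ Subgroup.center G} * (n - 1) := by
    have := Fintype.ofFinite {g : G // orderOf g = 2 ∧ g ∉ Subgroup.center G}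
    rw [← Nat.card_congr (Equiv.sigmaFiberEquiv τ), Nat.card_sigma]
    have : ∀ t : {g : G // orderOf g = 2 ∧ g ∉ Subgroup.center G},
        Nat.card {x : {v : V // v ≠ 0} // τ x = t} = n - 1 := by
      intro t
      have := hfiber t
      omega
    simp only [this, Finset.sum_const, Finset.card_univ, smul_eq_mul, Nat.card_eq_fintype_card]
  have hV1 : Nat.card {v : V // v ≠ 0} + 1 = N := card_ne_add_one V 0
  have hIcard : Nat.card {g : G // orderOf g = 2 ∧ g ∉ Subgroup.center G} = n + 1 := by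
    have h1 : Nat.card {v : V // v ≠ 0} = n * n - 1 := by omega
    rw [h1] at hcount
    have h2 : n * n - 1 = (n + 1) * (n - 1) := by
      obtain ⟨a, ha⟩ : ∃ a, n = a + 2 := ⟨n - 2, by omega⟩
      rw [ha]
      have h3 : a + 2 - 1 = a + 1 := by omega
      have : (a + 2) * (a + 2) = (a + 2 + 1) * (a + 2 - 1) + 1 := by
        rw [h3]; ring
      omega
    rw [h2] at hcount
    exact (Nat.eq_of_mul_eq_mul_right (by omega) hcount).symm
  -- n is a power of q
  have hNpow : N = q ^ Module.finrank (ZMod q) V := by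
    rw [hNdef, Module.natCard_eq_pow_finrank (K := ZMod q), Nat.card_zmod]
  obtain ⟨r, -, hr⟩ := (Nat.dvd_prime_pow hq).1 (Dvd.intro n (hnn.trans hNpow))
  refine ⟨r, ?_, ?_⟩
  · rw [← hnn, hr, ← pow_add, two_mul]
  · rw [hIcard, hr]

end Cfsg.Agent.S3381
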