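-- Statement S3382: the automorphism group of the monomial 2-group of (ZMod q)², q = 2^m + 1 ≠ 5, is a 2-group.
import Cfsg.Statements.S3382
import Cfsg.Agent.H61.AutChain
import Cfsg.Agent.H61.Monomial2

set_option autoImplicit false
open Cfsg

namespace Cfsg.Agent.S3382

open Cfsg.Agent.H61 Cfsg.Agent.H61.Mono

variable {q : ℕ} [Fact q.Prime]

/-- The defining property of the group `T` of the statement. -/
def Spec (T : Subgroup (L q)) : Prop :=
  ∀ f, f ∈ T ↔ ∃ a s : ZMod q, a ≠ 0 ∧ (s = 1 ∨ s = -1) ∧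
      ((∀ v, f v = ![a * v 0, s * a⁻¹ * v 1]) ∨ (∀ v, f v = ![s * a⁻¹ * v 1, a * v 0]))

theorem ne_of_prod {a b : ZMod q} (hab : a * b = 1 ∨ a * b = -1) : a ≠ 0 ∧ b ≠ 0 := by
  have h : a * b ≠ 0 := by
    rcases hab with h | h <;> rw [h]
    · exact one_ne_zero
    · exact neg_ne_zero.mpr one_ne_zero
  exact ⟨left_ne_zero_of_mul h, right_ne_zero_of_mul h⟩

section basics

variable {T : Subgroup (L q)} (hT : Spec T)
include hT

theorem cases (x : T) : ∃ a b : ZMod q, (a * b = 1 ∨ a * b = -1) ∧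
    (IsD a b (x : L q) ∨ IsW a b (x : L q)) := by
  obtain ⟨a, s, ha, hs, h⟩ := (hT x).mp x.2
  refine ⟨a, s * a⁻¹, ?_, h⟩
  have : a * (s * a⁻¹) = s := by field_simp
  rw [this]; exact hs

theorem memD {a b : ZMod q} (hab : a * b = 1 ∨ a * b = -1) {f : L q} (hf : IsD a b f) : f ∈ T := by
  rw [hT]
  have ha := hf.ne_zero.1
  refine ⟨a, a * b, ha, hab, Or.inl ?_⟩
  have : a * b * a⁻¹ = b := by field_simp
  rw [this]; exact hf

theorem memW {a b : ZMod q} (hab : a * b = 1 ∨ a * b = -1) {f : L q} (hf : IsW a b f) : f ∈ T := by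
  rw [hT]
  have ha := hf.ne_zero.1
  refine ⟨a, a * b, ha, hab, Or.inr ?_⟩
  have : a * b * a⁻¹ = b := by field_simp
  rw [this]; exact hf

theorem prodD (x : T) {a b : ZMod q} (h : IsD a b (x : L q)) : a * b = 1 ∨ a * b = -1 := by
  obtain ⟨c, d, hcd, h' | h'⟩ := cases hT x
  · obtain ⟨rfl, rfl⟩ := h.unique h'; exact hcd
  · exact (h.not_isW h').elim

theorem prodW (x : T) {a b : ZMod q} (h : IsW a b (x : L q)) : a * b = 1 ∨ a * b = -1 := by
  obtain ⟨c, d, hcd, h' | h'⟩ := cases hT x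
  · exact (h'.not_isW h).elim
  · obtain ⟨rfl, rfl⟩ := h.unique h'; exact hcd

theorem exD {a b : ZMod q} (hab : a * b = 1 ∨ a * b = -1) : ∃ x : T, IsD a b (x : L q) :=
  ⟨⟨dEquiv a b (ne_of_prod hab).1 (ne_of_prod hab).2,
      memD hT hab (isD_dEquiv a b (ne_of_prod hab).1 (ne_of_prod hab).2)⟩,
    isD_dEquiv a b (ne_of_prod hab).1 (ne_of_prod hab).2⟩

theorem exW {a b : ZMod q} (hab : a * b = 1 ∨ a * b = -1) : ∃ x : T, IsW a b (x : L q) :=
  ⟨⟨wEquiv a b (ne_of_prod hab).1 (ne_of_prod hab).2,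
      memW hT hab (isW_wEquiv a b (ne_of_prod hab).1 (ne_of_prod hab).2)⟩,
    isW_wEquiv a b (ne_of_prod hab).1 (ne_of_prod hab).2⟩

/-- Squares are diagonal with square first entry (when `-1` is a square). -/
theorem sq_isD (hneg : IsSquare (-1 : ZMod q)) (w : T) :
    ∃ c d : ZMod q, IsSquare c ∧ IsD c d ((w ^ 2 : T) : L q) := by
  obtain ⟨c, d, hcd, hw | hw⟩ := cases hT w
  · refine ⟨c ^ 2, d ^ 2, ⟨c, pow_two c⟩, ?_⟩
    rw [Subgroup.coe_pow]; exact hw.pow 2
  · refine ⟨d * c, c * d, ?_, ?_⟩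
    · rw [mul_comm]
      rcases hcd with h | h <;> rw [h]
      · exact ⟨1, (mul_one 1).symm⟩
      · exact hneg
    · rw [Subgroup.coe_pow]; exact hw.sq

end basics

/-! ### The chain for `q ≥ 17` -/

/-- The diagonal elements. -/
def subA (T : Subgroup (L q)) : Subgroup T where
  carrier := {x | ∃ a b : ZMod q, IsD a b (x : L q)}
  mul_mem' := by rintro x y ⟨a, b, hx⟩ ⟨c, d, hy⟩; exact ⟨_, _, hx.mul hy⟩
  one_mem' := ⟨1, 1, isD_one⟩
  inv_mem' := by rintro x ⟨a, b, hx⟩; exact ⟨_, _, hx.inv⟩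

/-- The diagonal elements with square first entry. -/
def subB (T : Subgroup (L q)) : Subgroup T where
  carrier := {x | ∃ a b : ZMod q, IsSquare a ∧ IsD a b (x : L q)}
  mul_mem' := by rintro x y ⟨a, b, ha, hx⟩ ⟨c, d, hc, hy⟩; exact ⟨_, _, ha.mul hc, hx.mul hy⟩
  one_mem' := ⟨1, 1, ⟨1, (mul_one 1).symm⟩, isD_one⟩
  inv_mem' := by rintro x ⟨a, b, ha, hx⟩; exact ⟨_, _, ha.inv, hx.inv⟩

/-- The `2^k`-th powers `diag(c^(2^k), c^(-2^k))`. -/
def subP (T : Subgroup (L q)) (k : ℕ) : Subgroup T where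
  carrier := {x | ∃ c : ZMod q, IsD (c ^ (2 ^ k)) (c⁻¹ ^ (2 ^ k)) (x : L q)}
  mul_mem' := by
    rintro x y ⟨c, hx⟩ ⟨d, hy⟩
    refine ⟨c * d, (hx.mul hy).congr (mul_pow _ _ _).symm ?_⟩
    rw [mul_inv, mul_pow]
  one_mem' := ⟨1, by simpa using (isD_one (q := q))⟩
  inv_mem' := by
    rintro x ⟨c, hx⟩
    refine ⟨c⁻¹, hx.inv.congr (inv_pow _ _).symm ?_⟩
    simp

/-- The chain `T ≥ A ≥ B ≥ P 1 ≥ P 2 ≥ …`. -/
def chainS (T : Subgroup (L q)) : ℕ → Subgroup T
  | 0 => ⊤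
  | 1 => subA T
  | 2 => subB T
  | (k + 3) => subP T (k + 1)

section main

variable {T : Subgroup (L q)} (hT : Spec T)
include hT

theorem A_iff (h2 : (2 : ZMod q) ≠ 0) (h15 : (15 : ZMod q) ≠ 0) (hneg : IsSquare (-1 : ZMod q))
    (x : T) : x ∈ subA T ↔ ∀ w : T, x * w ^ 2 = w ^ 2 * x := by
  constructor
  · rintro ⟨a, b, hx⟩ w
    obtain ⟨c, d, _, hw⟩ := sq_isD hT hneg w
    apply Subtype.ext
    exact ((hx.mul hw).congr (mul_comm _ _) (mul_comm _ _)).ext (hw.mul hx)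
  · intro h
    obtain ⟨a, b, hab, hx | hx⟩ := cases hT x
    · exact ⟨a, b, hx⟩
    · exfalso
      obtain ⟨w, hw⟩ := exD hT (a := 2) (b := 2⁻¹) (Or.inl (mul_inv_cancel₀ h2))
      have hw2 : IsD ((2 : ZMod q) ^ 2) ((2 : ZMod q)⁻¹ ^ 2) ((w ^ 2 : T) : L q) := by
        rw [Subgroup.coe_pow]; exact hw.pow 2
      have h1 : IsW (a * 2 ^ 2) (b * (2 : ZMod q)⁻¹ ^ 2) ((x * w ^ 2 : T) : L q) := hx.mulD hw2
      have h2' : IsW ((2 : ZMod q)⁻¹ ^ 2 * a) (2 ^ 2 * b) ((w ^ 2 * x : T) : L q) := hw2.mulW hx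
      rw [h w] at h1
      have e0 := (h1.unique h2').1
      have e1 : a * 2 ^ 2 * 2 ^ 2 = a := by rw [e0]; field_simp
      have e2 : a * 15 = 0 := by linear_combination e1
      rcases mul_eq_zero.mp e2 with h' | h'
      · exact hx.ne_zero.1 h'
      · exact h15 h'

theorem center_form (h2 : (2 : ZMod q) ≠ 0) (h3 : (3 : ZMod q) ≠ 0) (z : T)
    (hz : z ∈ Subgroup.center T) :
    ∃ a : ZMod q, (a * a = 1 ∨ a * a = -1) ∧ IsD a a (z : L q) := by
  rw [Subgroup.mem_center_iff] at hz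
  obtain ⟨a, b, hab, hx | hx⟩ := cases hT z
  · obtain ⟨w, hw⟩ := exW hT (a := 1) (b := 1) (Or.inl (mul_one 1))
    have h1 : IsW (b * 1) (a * 1) ((z * w : T) : L q) := hx.mulW hw
    have h2' : IsW (1 * a) (1 * b) ((w * z : T) : L q) := hw.mulD hx
    rw [hz w] at h2'
    have e0 := (h1.unique h2').1
    have e1 : b = a := by simpa using e0
    subst e1
    exact ⟨b, hab, hx⟩
  · exfalso
    obtain ⟨w, hw⟩ := exD hT (a := 2) (b := 2⁻¹) (Or.inl (mul_inv_cancel₀ h2))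
    have h1 : IsW (a * 2) (b * (2 : ZMod q)⁻¹) ((z * w : T) : L q) := hx.mulD hw
    have h2' : IsW ((2 : ZMod q)⁻¹ * a) (2 * b) ((w * z : T) : L q) := hw.mulW hx
    rw [hz w] at h2'
    have e0 := (h1.unique h2').1
    have e1 : a * 2 * 2 = a := by rw [e0]; field_simp
    have e2 : a * 3 = 0 := by linear_combination e1
    rcases mul_eq_zero.mp e2 with h' | h'
    · exact hx.ne_zero.1 h'
    · exact h3 h'

theorem B_iff (h2 : (2 : ZMod q) ≠ 0) (h3 : (3 : ZMod q) ≠ 0)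
    (hi : ∃ i : ZMod q, i * i = -1 ∧ IsSquare i) (h4 : ∀ a : ZMod q, a ^ 4 = 1 → IsSquare a)
    (x : T) : x ∈ subB T ↔ ∃ z ∈ Subgroup.center T, ∃ w : T, x = z * w ^ 2 := by
  obtain ⟨i, hi, j, hj⟩ := hi
  have hneg : IsSquare (-1 : ZMod q) := ⟨i, hi.symm⟩
  constructor
  · rintro ⟨e, f, ⟨r, rfl⟩, hx⟩
    have hr : r ≠ 0 := fun h => hx.ne_zero.1 (by rw [h, mul_zero])
    rcases prodD hT x hx with h1 | h1
    · obtain ⟨w, hw⟩ := exD hT (a := r) (b := r⁻¹) (Or.inl (mul_inv_cancel₀ hr))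
      refine ⟨1, Subgroup.one_mem _, w, ?_⟩
      apply Subtype.ext
      have hw2 : IsD (r ^ 2) (r⁻¹ ^ 2) ((1 * w ^ 2 : T) : L q) := by
        rw [one_mul, Subgroup.coe_pow]; exact hw.pow 2
      refine hx.ext (hw2.congr (pow_two r) ?_)
      field_simp
      linear_combination -h1
    · have hi0 : i ≠ 0 := by
        rintro rfl
        rw [mul_zero] at hi
        exact (neg_ne_zero.mpr one_ne_zero) hi.symm
      have hj0 : j ≠ 0 := by
        rintro rfl
        rw [mul_zero] at hj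
        exact hi0 hj
      obtain ⟨z, hz⟩ := exD hT (a := i) (b := i) (Or.inr hi)
      have hzc : z ∈ Subgroup.center T := by
        rw [Subgroup.mem_center_iff]
        intro g
        apply Subtype.ext
        obtain ⟨c, d, _, hg | hg⟩ := cases hT g
        · exact ((hg.mul hz).congr (mul_comm _ _) (mul_comm _ _)).ext (hz.mul hg)
        · exact ((hg.mulD hz).congr (mul_comm _ _) (mul_comm _ _)).ext (hz.mulW hg)
      have ht0 : r * j⁻¹ ≠ 0 := mul_ne_zero hr (inv_ne_zero hj0)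
      obtain ⟨w, hw⟩ := exD hT (a := r * j⁻¹) (b := (r * j⁻¹)⁻¹) (Or.inl (mul_inv_cancel₀ ht0))
      refine ⟨z, hzc, w, ?_⟩
      apply Subtype.ext
      have hw2 : IsD (i * (r * j⁻¹) ^ 2) (i * (r * j⁻¹)⁻¹ ^ 2) ((z * w ^ 2 : T) : L q) := by
        have : IsD ((r * j⁻¹) ^ 2) ((r * j⁻¹)⁻¹ ^ 2) ((w ^ 2 : T) : L q) := by
          rw [Subgroup.coe_pow]; exact hw.pow 2
        exact hz.mul this
      refine hx.ext (hw2.congr ?_ ?_)
      · rw [hj]; field_simp
      · rw [hj]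
        field_simp
        rw [hj] at hi
        linear_combination hi - h1
  · rintro ⟨z, hz, w, rfl⟩
    obtain ⟨a, ha, hza⟩ := center_form hT h2 h3 z hz
    obtain ⟨c, d, hc, hw⟩ := sq_isD hT hneg w
    refine ⟨a * c, a * d, IsSquare.mul (h4 a ?_) hc, hza.mul hw⟩
    have : a ^ 4 = (a * a) ^ 2 := by ring
    rw [this]
    rcases ha with h | h <;> rw [h] <;> ring

theorem P_iff (hi : ∃ i : ZMod q, i * i = -1) (k : ℕ) (x : T) :
    x ∈ subP T (k + 1) ↔ ∃ w : T, x = w ^ (2 ^ (k + 1)) := by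
  obtain ⟨i, hi⟩ := hi
  constructor
  · rintro ⟨c, hx⟩
    have hc : c ≠ 0 := by
      rintro rfl
      exact hx.ne_zero.1 (zero_pow (by positivity))
    obtain ⟨w, hw⟩ := exD hT (a := c) (b := c⁻¹) (Or.inl (mul_inv_cancel₀ hc))
    refine ⟨w, ?_⟩
    apply Subtype.ext
    rw [Subgroup.coe_pow]
    exact hx.ext (hw.pow _)
  · rintro ⟨w, rfl⟩
    obtain ⟨a, b, hab, hw | hw⟩ := cases hT w
    · refine ⟨a, ?_⟩
      rw [Subgroup.coe_pow]
      refine (hw.pow _).congr rfl ?_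
      have h1 : (a * b) ^ (2 ^ (k + 1)) = 1 := by
        rw [pow_succ, pow_mul']
        have : (a * b) ^ 2 = 1 := by rcases hab with h | h <;> rw [h] <;> ring
        rw [this, one_pow]
      rw [mul_pow] at h1
      rw [inv_pow]
      exact eq_inv_of_mul_eq_one_right h1
    · have hw2 : IsD ((b * a) ^ (2 ^ k)) ((a * b) ^ (2 ^ k)) ((w ^ (2 ^ (k + 1)) : T) : L q) := by
        rw [Subgroup.coe_pow, pow_succ, pow_mul']
        exact hw.sq.pow _
      rcases hab with h | h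
      · refine ⟨1, hw2.congr ?_ ?_⟩
        · rw [mul_comm, h, one_pow, one_pow]
        · rw [h, inv_one, one_pow, one_pow]
      · refine ⟨i, hw2.congr ?_ ?_⟩
        · rw [mul_comm, h, pow_succ, pow_mul', pow_two, hi]
        · rw [h, pow_succ, pow_mul', pow_two, ← mul_inv, hi, inv_neg, inv_one]

end main

theorem pow_two_pow_succ (c : ZMod q) (k : ℕ) : c ^ 2 ^ (k + 1) = (c * c) ^ 2 ^ k := by
  rw [pow_succ, pow_mul', pow_two]

theorem main_case {T : Subgroup (L q)} (hT : Spec T) (m : ℕ)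
    (h2 : (2 : ZMod q) ≠ 0) (h3 : (3 : ZMod q) ≠ 0) (h15 : (15 : ZMod q) ≠ 0)
    (hi : ∃ i : ZMod q, i * i = -1 ∧ IsSquare i) (h4 : ∀ a : ZMod q, a ^ 4 = 1 → IsSquare a)
    (hns : ∀ a b : ZMod q, a ≠ 0 → b ≠ 0 → ¬ IsSquare a → ¬ IsSquare b → IsSquare (b * a⁻¹))
    (hm : ∀ c : ZMod q, c ≠ 0 → c ^ (2 ^ (m + 1)) = 1) :
    IsPGroup 2 (MulAut T) := by
  obtain ⟨j0, hii, hisq⟩ := hi
  have hneg : IsSquare (-1 : ZMod q) := ⟨j0, hii.symm⟩
  apply isPGroup_two_mulAut_of_chain (chainS T) (m + 3) rfl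
  · show subP T (m + 1) = ⊥
    rw [Subgroup.eq_bot_iff_forall]
    rintro x ⟨c, hx⟩
    have hc : c ≠ 0 := by rintro rfl; exact hx.ne_zero.1 (zero_pow (by positivity))
    rw [hm c hc, hm c⁻¹ (inv_ne_zero hc)] at hx
    exact Subtype.ext (hx.ext isD_one)
  · intro i
    match i with
    | 0 => exact le_top
    | 1 => rintro x ⟨a, b, _, hx⟩; exact ⟨a, b, hx⟩
    | 2 =>
      rintro x ⟨c, hx⟩
      exact ⟨_, _, ⟨c, by norm_num [pow_two]⟩, hx⟩
    | (k + 3) =>
      rintro x ⟨c, hx⟩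
      refine ⟨c * c, hx.congr (pow_two_pow_succ c (k + 1)) ?_⟩
      rw [mul_inv]
      exact pow_two_pow_succ c⁻¹ (k + 1)
  · intro α i x hx
    match i, hx with
    | 0, _ => trivial
    | 1, hx =>
      show α x ∈ subA T
      have hx' : x ∈ subA T := hx
      rw [A_iff hT h2 h15 hneg] at hx' ⊢
      intro w
      have h' := congrArg α (hx' (α.symm w))
      simpa using h'
    | 2, hx =>
      show α x ∈ subB T
      have hx' : x ∈ subB T := hx
      rw [B_iff hT h2 h3 ⟨j0, hii, hisq⟩ h4] at hx' ⊢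
      obtain ⟨z, hz, w, rfl⟩ := hx'
      refine ⟨α z, ?_, α w, by simp⟩
      rw [Subgroup.mem_center_iff] at hz ⊢
      intro g
      have h' := congrArg α (hz (α.symm g))
      simpa using h'
    | (k + 3), hx =>
      show α x ∈ subP T (k + 1)
      have hx' : x ∈ subP T (k + 1) := hx
      rw [P_iff hT ⟨j0, hii⟩] at hx' ⊢
      obtain ⟨w, rfl⟩ := hx'
      exact ⟨α w, by simp⟩
  · intro i x y hx hy hx1 hy1
    match i, hx, hy, hx1, hy1 with
    | 0, _, _, hx1, hy1 =>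
      obtain ⟨a, b, hab, hxa | hxa⟩ := cases hT x
      · exact (hx1 ⟨a, b, hxa⟩).elim
      obtain ⟨c, d, hcd, hyc | hyc⟩ := cases hT y
      · exact (hy1 ⟨c, d, hyc⟩).elim
      exact ⟨_, _, hyc.mul hxa.inv⟩
    | 1, hx, hy, hx1, hy1 =>
      obtain ⟨a, b, hxa⟩ := hx
      obtain ⟨c, d, hyc⟩ := hy
      have ha : ¬ IsSquare a := fun h => hx1 ⟨a, b, h, hxa⟩
      have hc : ¬ IsSquare c := fun h => hy1 ⟨c, d, h, hyc⟩
      exact ⟨_, _, hns a c hxa.ne_zero.1 hyc.ne_zero.1 ha hc, hyc.mul hxa.inv⟩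
    | 2, hx, hy, hx1, hy1 =>
      obtain ⟨a, b, ⟨r, rfl⟩, hxa⟩ := hx
      obtain ⟨c, d, ⟨r', rfl⟩, hyc⟩ := hy
      have hr : r ≠ 0 := fun h => hxa.ne_zero.1 (by rw [h, mul_zero])
      have hr' : r' ≠ 0 := fun h => hyc.ne_zero.1 (by rw [h, mul_zero])
      have key : ∀ (u : T) (s e : ZMod q), IsD (s * s) e (u : L q) → u ∉ subP T (0 + 1) →
          s * s * e = -1 := by
        intro u s e hu hu1
        rcases prodD hT u hu with h | h
        · exfalso
          apply hu1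
          refine ⟨s, hu.congr (by norm_num [pow_two]) ?_⟩
          have h' : e = (s * s)⁻¹ := eq_inv_of_mul_eq_one_right h
          rw [h']
          norm_num [pow_two]
        · exact h
      have hab := key x r b hxa hx1
      have hcd := key y r' d hyc hy1
      have hb0 : b ≠ 0 := hxa.ne_zero.2
      refine ⟨r' * r⁻¹, (hyc.mul hxa.inv).congr ?_ ?_⟩
      · norm_num
        field_simp
      · norm_num
        field_simp
        linear_combination hcd - hab
    | (k + 3), hx, hy, hx1, hy1 =>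
      obtain ⟨c, hxc⟩ := hx
      obtain ⟨d, hyd⟩ := hy
      have hc0 : c ≠ 0 := by rintro rfl; exact hxc.ne_zero.1 (zero_pow (by positivity))
      have hd0 : d ≠ 0 := by rintro rfl; exact hyd.ne_zero.1 (zero_pow (by positivity))
      have key : ∀ (u : T) (e : ZMod q), IsD (e ^ 2 ^ (k + 1)) (e⁻¹ ^ 2 ^ (k + 1)) (u : L q) →
          u ∉ subP T (k + 2) → ¬ IsSquare e := by
        rintro u e hu hu1 ⟨r, rfl⟩
        apply hu1
        refine ⟨r, hu.congr (pow_two_pow_succ r (k + 1)).symm ?_⟩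
        rw [mul_inv]
        exact (pow_two_pow_succ r⁻¹ (k + 1)).symm
      obtain ⟨t, ht⟩ := hns c d hc0 hd0 (key x c hxc hx1) (key y d hyd hy1)
      refine ⟨t, (hyd.mul hxc.inv).congr ?_ ?_⟩
      · rw [pow_two_pow_succ t (k + 1), ← ht, mul_pow, inv_pow]
      · rw [pow_two_pow_succ t⁻¹ (k + 1), ← mul_inv, ← ht, mul_inv, inv_inv, mul_pow, inv_pow,
          inv_pow, inv_inv]

/-- Number theory in `ZMod q`, `q = 2^m + 1` with `m ≥ 3`. -/
theorem facts (q m : ℕ) [Fact q.Prime] (hq : q = 2 ^ m + 1) (hm : 3 ≤ m) :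
    (2 : ZMod q) ≠ 0 ∧ (3 : ZMod q) ≠ 0 ∧ (15 : ZMod q) ≠ 0 ∧
    (∃ i : ZMod q, i * i = -1 ∧ IsSquare i) ∧
    (∀ a : ZMod q, a ^ 4 = 1 → IsSquare a) ∧
    (∀ a b : ZMod q, a ≠ 0 → b ≠ 0 → ¬ IsSquare a → ¬ IsSquare b → IsSquare (b * a⁻¹)) ∧
    (∀ c : ZMod q, c ≠ 0 → c ^ (2 ^ m) = 1) := by
  have hp : q.Prime := Fact.out
  obtain ⟨n, rfl⟩ : ∃ n, m = n + 3 := ⟨m - 3, by omega⟩
  have hpow : 2 ^ (n + 3) = 8 * 2 ^ n := by ring
  have hN : 1 ≤ 2 ^ n := Nat.one_le_two_pow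
  have hq17 : 17 ≤ q := by
    rcases Nat.eq_zero_or_pos n with h0 | h0
    · subst h0
      exfalso
      have : q = 9 := by rw [hq]; norm_num
      rw [this] at hp
      norm_num at hp
    · have : 2 ≤ 2 ^ n := by
        calc 2 = 2 ^ 1 := by norm_num
          _ ≤ 2 ^ n := Nat.pow_le_pow_right (by norm_num) h0
      omega
  have hne : ∀ k : ℕ, 0 < k → k < 17 → ((k : ℕ) : ZMod q) ≠ 0 := by
    intro k hk0 hk
    rw [Ne, ZMod.natCast_eq_zero_iff]
    intro hdvd
    have := Nat.le_of_dvd hk0 hdvd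
    omega
  have h2 : (2 : ZMod q) ≠ 0 := by simpa using hne 2 (by norm_num) (by norm_num)
  have h3 : (3 : ZMod q) ≠ 0 := by simpa using hne 3 (by norm_num) (by norm_num)
  have h15 : (15 : ZMod q) ≠ 0 := by simpa using hne 15 (by norm_num) (by norm_num)
  have hhalf : q / 2 = 4 * 2 ^ n := by omega
  have h4 : ∀ a : ZMod q, a ^ 4 = 1 → IsSquare a := by
    intro a ha
    have ha0 : a ≠ 0 := by
      rintro rfl
      norm_num at ha
    rw [ZMod.euler_criterion q ha0, hhalf, pow_mul, ha, one_pow]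
  have hi : ∃ i : ZMod q, i * i = -1 ∧ IsSquare i := by
    have hneg : IsSquare (-1 : ZMod q) := by
      rw [ZMod.euler_criterion q (neg_ne_zero.mpr one_ne_zero), hhalf, pow_mul]
      norm_num
    obtain ⟨i, hi⟩ := hneg
    refine ⟨i, hi.symm, h4 i ?_⟩
    have : i ^ 4 = (i * i) ^ 2 := by ring
    rw [this, ← hi]; norm_num
  refine ⟨h2, h3, h15, hi, h4, ?_, ?_⟩
  · intro a b ha hb hna hnb
    have hba : b * a⁻¹ ≠ 0 := mul_ne_zero hb (inv_ne_zero ha)
    have ea : a ^ (q / 2) = -1 := by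
      rcases ZMod.pow_div_two_eq_neg_one_or_one q ha with h | h
      · exact absurd ((ZMod.euler_criterion q ha).mpr h) hna
      · exact h
    have eb : b ^ (q / 2) = -1 := by
      rcases ZMod.pow_div_two_eq_neg_one_or_one q hb with h | h
      · exact absurd ((ZMod.euler_criterion q hb).mpr h) hnb
      · exact h
    rw [ZMod.euler_criterion q hba, mul_pow, inv_pow, ea, eb]
    norm_num
  · intro c hc
    have h1 := ZMod.pow_card_sub_one_eq_one hc
    have h2 : q - 1 = 2 ^ (n + 3) := by omega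
    rwa [h2] at h1

/-! ### `q = 2` -/

theorem zmod2_eq_one : ∀ a : ZMod 2, a ≠ 0 → a = 1 := by decide

theorem zmod3_cases : ∀ a : ZMod 3, a ≠ 0 → a = 1 ∨ a = -1 := by decide

theorem zmod3_sq : ∀ a : ZMod 3, a ≠ 0 → a * a = 1 := by decide

theorem zmod3_ne : (-1 : ZMod 3) ≠ 1 := by decide

theorem case2 [Fact (Nat.Prime 2)] {T : Subgroup (L 2)} (hT : Spec T) : IsPGroup 2 (MulAut T) := by
  have z : ∀ a : ZMod 2, a ≠ 0 → a = 1 := zmod2_eq_one
  intro α
  refine ⟨0, ?_⟩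
  rw [pow_zero, pow_one]
  apply MulEquiv.ext
  intro x
  rw [MulAut.one_apply]
  obtain ⟨a, b, hab, hx | hx⟩ := cases hT x
  · obtain rfl := z a hx.ne_zero.1
    obtain rfl := z b hx.ne_zero.2
    have : x = 1 := Subtype.ext (hx.ext isD_one)
    rw [this, map_one]
  · obtain rfl := z a hx.ne_zero.1
    obtain rfl := z b hx.ne_zero.2
    obtain ⟨c, d, hcd, hy | hy⟩ := cases hT (α x)
    · exfalso
      obtain rfl := z c hy.ne_zero.1
      obtain rfl := z d hy.ne_zero.2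
      have h1 : α x = 1 := Subtype.ext (hy.ext isD_one)
      have h2 : x = 1 := by
        have := congrArg α.symm h1
        simpa using this
      rw [h2] at hx
      exact (isD_one (q := 2)).not_isW hx
    · obtain rfl := z c hy.ne_zero.1
      obtain rfl := z d hy.ne_zero.2
      exact Subtype.ext (hy.ext hx)

/-! ### `q = 3` -/

/-- The elements of determinant one. -/
def subS1 (T : Subgroup (L q)) : Subgroup T where
  carrier := {x | (∃ a b : ZMod q, a * b = 1 ∧ IsD a b (x : L q)) ∨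
    (∃ a b : ZMod q, a * b = -1 ∧ IsW a b (x : L q))}
  mul_mem' := by
    rintro x y (⟨a, b, h1, hx⟩ | ⟨a, b, h1, hx⟩) (⟨c, d, h2, hy⟩ | ⟨c, d, h2, hy⟩)
    · exact Or.inl ⟨_, _, by linear_combination (c * d) * h1 + h2, hx.mul hy⟩
    · exact Or.inr ⟨_, _, by linear_combination (c * d) * h1 + h2, hx.mulW hy⟩
    · exact Or.inr ⟨_, _, by linear_combination (c * d) * h1 - h2, hx.mulD hy⟩
    · exact Or.inl ⟨_, _, by linear_combination (c * d) * h1 - h2, hx.mul hy⟩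
  one_mem' := Or.inl ⟨1, 1, mul_one 1, isD_one⟩
  inv_mem' := by
    rintro x (⟨a, b, h1, hx⟩ | ⟨a, b, h1, hx⟩)
    · exact Or.inl ⟨_, _, by rw [← mul_inv, h1, inv_one], hx.inv⟩
    · exact Or.inr ⟨_, _, by rw [← mul_inv, mul_comm, h1, inv_neg, inv_one], hx.inv⟩

/-- The scalar elements. -/
def subS2 (T : Subgroup (L q)) : Subgroup T where
  carrier := {x | ∃ a : ZMod q, IsD a a (x : L q)}
  mul_mem' := by rintro x y ⟨a, hx⟩ ⟨c, hy⟩; exact ⟨_, hx.mul hy⟩
  one_mem' := ⟨1, isD_one⟩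
  inv_mem' := by rintro x ⟨a, hx⟩; exact ⟨_, hx.inv⟩

/-- The chain for `q = 3`. -/
def chain3 (T : Subgroup (L q)) : ℕ → Subgroup T
  | 0 => ⊤
  | 1 => subS1 T
  | 2 => subS2 T
  | (_ + 3) => ⊥

theorem case3 [Fact (Nat.Prime 3)] {T : Subgroup (L 3)} (hT : Spec T) : IsPGroup 2 (MulAut T) := by
  have z1 : ∀ a : ZMod 3, a ≠ 0 → a * a = 1 := zmod3_sq
  have z2 : ∀ a : ZMod 3, a ≠ 0 → a⁻¹ = a := fun a ha => inv_eq_of_mul_eq_one_right (z1 a ha)
  have z3 : ∀ a : ZMod 3, a ≠ 0 → a = 1 ∨ a = -1 := zmod3_cases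
  have z4 : (-1 : ZMod 3) ≠ 1 := zmod3_ne
  -- squares are scalar
  have sq3 : ∀ w : T, ∃ a : ZMod 3, IsD a a ((w ^ 2 : T) : L 3) := by
    intro w
    obtain ⟨c, d, hcd, hw | hw⟩ := cases hT w
    · refine ⟨1, ?_⟩
      rw [Subgroup.coe_pow]
      refine (hw.pow 2).congr ?_ ?_
      · rw [pow_two]; exact z1 c hw.ne_zero.1
      · rw [pow_two]; exact z1 d hw.ne_zero.2
    · refine ⟨c * d, ?_⟩
      rw [Subgroup.coe_pow]
      exact hw.sq.congr (mul_comm _ _) rfl
  have S2_iff : ∀ x : T, x ∈ subS2 T ↔ ∃ w : T, x = w ^ 2 := by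
    intro x
    constructor
    · rintro ⟨a, hx⟩
      rcases z3 a hx.ne_zero.1 with rfl | rfl
      · exact ⟨1, by rw [one_pow]; exact Subtype.ext (hx.ext isD_one)⟩
      · obtain ⟨w, hw⟩ := exW hT (a := 1) (b := -1) (Or.inr (one_mul _))
        refine ⟨w, Subtype.ext ?_⟩
        rw [Subgroup.coe_pow]
        exact hx.ext (hw.sq.congr (by ring) (by ring))
    · rintro ⟨w, rfl⟩
      exact sq3 w
  have S1_iff : ∀ x : T, x ∈ subS1 T ↔ (x ^ 2 ≠ 1 ∨ ∃ w : T, x = w ^ 2) := by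
    intro x
    constructor
    · rintro (⟨a, b, h1, hx⟩ | ⟨a, b, h1, hx⟩)
      · right
        rw [← S2_iff]
        have hb : b = a := by
          have := z1 a hx.ne_zero.1
          linear_combination a * h1 - b * this
        subst hb
        exact ⟨b, hx⟩
      · left
        intro h
        have h2 : IsD (b * a) (a * b) ((x ^ 2 : T) : L 3) := by
          rw [Subgroup.coe_pow]; exact hx.sq
        rw [h] at h2
        have := (h2.unique (isD_one (q := 3))).2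
        rw [h1] at this
        exact z4 this
    · rintro (h | ⟨w, rfl⟩)
      · obtain ⟨a, b, hab, hx | hx⟩ := cases hT x
        · exfalso
          apply h
          apply Subtype.ext
          rw [Subgroup.coe_pow]
          refine ((hx.pow 2).congr ?_ ?_).ext isD_one
          · rw [pow_two]; exact z1 a hx.ne_zero.1
          · rw [pow_two]; exact z1 b hx.ne_zero.2
        · rcases hab with h1 | h1
          · exfalso
            apply h
            apply Subtype.ext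
            rw [Subgroup.coe_pow]
            exact (hx.sq.congr (by rw [mul_comm, h1]) h1).ext isD_one
          · exact Or.inr ⟨a, b, h1, hx⟩
      · obtain ⟨a, ha⟩ := sq3 w
        exact Or.inl ⟨a, a, z1 a ha.ne_zero.1, ha⟩
  apply isPGroup_two_mulAut_of_chain (chain3 T) 3 rfl rfl
  · intro i
    match i with
    | 0 => exact le_top
    | 1 => rintro x ⟨a, hx⟩; exact Or.inl ⟨a, a, z1 a hx.ne_zero.1, hx⟩
    | 2 => exact bot_le
    | (k + 3) => exact le_rfl
  · intro α i x hx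
    match i, hx with
    | 0, _ => trivial
    | 1, hx =>
      show α x ∈ subS1 T
      have hx' : x ∈ subS1 T := hx
      rw [S1_iff] at hx' ⊢
      rcases hx' with h | ⟨w, rfl⟩
      · left
        intro h'
        apply h
        have := congrArg α.symm h'
        simpa using this
      · right
        exact ⟨α w, by simp⟩
    | 2, hx =>
      show α x ∈ subS2 T
      have hx' : x ∈ subS2 T := hx
      rw [S2_iff] at hx' ⊢
      obtain ⟨w, rfl⟩ := hx'
      exact ⟨α w, by simp⟩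
    | (k + 3), hx =>
      show α x ∈ (⊥ : Subgroup T)
      have hx' : x ∈ (⊥ : Subgroup T) := hx
      rw [Subgroup.mem_bot] at hx' ⊢
      rw [hx', map_one]
  · intro i x y hx hy hx1 hy1
    match i, hx, hy, hx1, hy1 with
    | 0, _, _, hx1, hy1 =>
      have key : ∀ u : T, u ∉ subS1 T → (∃ a b : ZMod 3, a * b = -1 ∧ IsD a b (u : L 3)) ∨
          (∃ a b : ZMod 3, a * b = 1 ∧ IsW a b (u : L 3)) := by
        intro u hu
        obtain ⟨a, b, hab, hu' | hu'⟩ := cases hT u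
        · rcases hab with h | h
          · exact (hu (Or.inl ⟨a, b, h, hu'⟩)).elim
          · exact Or.inl ⟨a, b, h, hu'⟩
        · rcases hab with h | h
          · exact Or.inr ⟨a, b, h, hu'⟩
          · exact (hu (Or.inr ⟨a, b, h, hu'⟩)).elim
      have e1 : ∀ a b c d : ZMod 3, a * b = -1 → c * d = -1 → c * a⁻¹ * (d * b⁻¹) = 1 := by
        intro a b c d h1 h2
        rw [mul_mul_mul_comm, ← mul_inv, h1, h2]; norm_num
      have e2 : ∀ a b c d : ZMod 3, a * b = -1 → c * d = 1 → c * a⁻¹ * (d * b⁻¹) = -1 := by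
        intro a b c d h1 h2
        rw [mul_mul_mul_comm, ← mul_inv, h1, h2]; norm_num
      have e3 : ∀ a b c d : ZMod 3, a * b = 1 → c * d = -1 → d * b⁻¹ * (c * a⁻¹) = -1 := by
        intro a b c d h1 h2
        rw [mul_mul_mul_comm, ← mul_inv, mul_comm d c, mul_comm b a, h1, h2]; norm_num
      have e4 : ∀ a b c d : ZMod 3, a * b = 1 → c * d = 1 → d * b⁻¹ * (c * a⁻¹) = 1 := by
        intro a b c d h1 h2
        rw [mul_mul_mul_comm, ← mul_inv, mul_comm d c, mul_comm b a, h1, h2]; norm_num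
      show y * x⁻¹ ∈ subS1 T
      rcases key x hx1 with ⟨a, b, h1, hxa⟩ | ⟨a, b, h1, hxa⟩ <;>
        rcases key y hy1 with ⟨c, d, h2, hyc⟩ | ⟨c, d, h2, hyc⟩
      · exact Or.inl ⟨_, _, e1 a b c d h1 h2, hyc.mul hxa.inv⟩
      · exact Or.inr ⟨_, _, e2 a b c d h1 h2, hyc.mulD hxa.inv⟩
      · exact Or.inr ⟨_, _, e3 a b c d h1 h2, hyc.mulW hxa.inv⟩
      · exact Or.inl ⟨_, _, e4 a b c d h1 h2, hyc.mul hxa.inv⟩
    | 1, hx, hy, hx1, hy1 =>
      have key : ∀ u : T, u ∈ subS1 T → u ∉ subS2 T →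
          ∃ a b : ZMod 3, b = -a ∧ IsW a b (u : L 3) := by
        rintro u (⟨a, b, h1, hu⟩ | ⟨a, b, h1, hu⟩) hu2
        · exfalso
          apply hu2
          have hb : b = a := by
            have := z1 a hu.ne_zero.1
            linear_combination a * h1 - b * this
          subst hb
          exact ⟨b, hu⟩
        · refine ⟨a, b, ?_, hu⟩
          have := z1 a hu.ne_zero.1
          linear_combination a * h1 - b * this
      obtain ⟨a, b, rfl, hxa⟩ := key x hx hx1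
      obtain ⟨c, d, rfl, hyc⟩ := key y hy hy1
      show y * x⁻¹ ∈ subS2 T
      refine ⟨c * a, (hyc.mul hxa.inv).congr ?_ ?_⟩
      · rw [z2 (-a) hxa.ne_zero.2]; ring
      · rw [z2 a hxa.ne_zero.1]
    | 2, hx, hy, hx1, hy1 =>
      have key : ∀ u : T, u ∈ subS2 T → u ∉ (⊥ : Subgroup T) → IsD (-1 : ZMod 3) (-1) (u : L 3) := by
        rintro u ⟨a, hu⟩ hu2
        rcases z3 a hu.ne_zero.1 with rfl | rfl
        · exfalso
          apply hu2
          rw [Subgroup.mem_bot]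
          exact Subtype.ext (hu.ext isD_one)
        · exact hu
      have h1 := key x hx hx1
      have h2 := key y hy hy1
      have : y = x := Subtype.ext (h2.ext h1)
      show y * x⁻¹ ∈ (⊥ : Subgroup T)
      rw [this, mul_inv_cancel]
      exact Subgroup.one_mem _
    | (k + 3), hx, _, hx1, _ =>
      exact (hx1 hx).elim

/-- Let q = 2^m + 1 be a prime other than 5. Then the automorphism group of the group of linear maps of F_q² of the forms (x, y) ↦ (a x, ± a⁻¹ y) and (x, y) ↦ (± a⁻¹ y, a x) with a ≠ 0 is itself a 2-group. -/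
theorem result (q m : ℕ) [Fact q.Prime] (hq : q = 2 ^ m + 1) (hq5 : q ≠ 5)
    (T : Subgroup ((Fin 2 → ZMod q) ≃ₗ[ZMod q] (Fin 2 → ZMod q)))
    (hT : ∀ f, f ∈ T ↔ ∃ a s : ZMod q, a ≠ 0 ∧ (s = 1 ∨ s = -1) ∧
      ((∀ v, f v = ![a * v 0, s * a⁻¹ * v 1]) ∨ (∀ v, f v = ![s * a⁻¹ * v 1, a * v 0]))) :
    IsPGroup 2 (MulAut T) := by
  have hS : Spec T := hT
  rcases Nat.lt_or_ge m 3 with hm | hm
  · interval_cases m
    · obtain rfl : q = 2 := by rw [hq]; norm_num
      exact case2 hS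
    · obtain rfl : q = 3 := by rw [hq]; norm_num
      exact case3 hS
    · exact (hq5 (by rw [hq]; norm_num)).elim
  · obtain ⟨h2, h3, h15, hi, h4, hns, hpow⟩ := facts q m hq hm
    obtain ⟨m', rfl⟩ : ∃ m', m = m' + 1 := ⟨m - 1, by omega⟩
    exact main_case hS m' h2 h3 h15 hi h4 hns hpow

end Cfsg.Agent.S3382
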