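import Cfsg.Statements.S3383

set_option autoImplicit false
open Cfsg

namespace Cfsg.Agent.S3383

open scoped Pointwise

theorem mem_conj_smul {L : Type*} [Group L] (H : Subgroup L) (g x : L) :
    x ∈ MulAut.conj g • H ↔ g⁻¹ * x * g ∈ H := by
  rw [Subgroup.mem_pointwise_smul_iff_inv_smul_mem]
  rfl

/-- Let H be a Frobenius complement in a finite group L and K the Frobenius kernel (as a subgroup). Then K is characteristic in L, and every normal subgroup of L either contains K or is contained in K. -/
theorem result {L : Type*} [Group L] [Finite L]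
    (H : Subgroup L) (hH : Cfsg.IsFrobeniusComplement H)
    (K : Subgroup L) (hK : (K : Set L) = Cfsg.frobeniusKernel H) :
    K.Characteristic ∧ ∀ N : Subgroup L, N.Normal → K ≤ N ∨ N ≤ K := by
  obtain ⟨hHbot, hHtop, hHfrob⟩ := hH
  have hmemK : ∀ x : L, x ∈ K ↔ x = 1 ∨ ∀ g : L, g⁻¹ * x * g ∉ H := by
    intro x
    have h1 : x ∈ (K : Set L) ↔ x ∈ Cfsg.frobeniusKernel H := by rw [hK]
    have h2 : x ∈ Cfsg.frobeniusKernel H ↔ x = 1 ∨ ∀ g : L, x ∉ MulAut.conj g • H := Iff.rfl
    rw [← SetLike.mem_coe, h1, h2]
    simp only [mem_conj_smul]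
  -- K is normal
  have hKn : K.Normal := by
    constructor
    intro x hx a
    rw [hmemK] at hx ⊢
    rcases hx with rfl | hx
    · left; simp
    · right
      intro g
      have := hx (a⁻¹ * g)
      intro hc
      apply this
      convert hc using 1
      group
  -- K ∩ H = 1
  have hKH : ∀ x : L, x ∈ K → x ∈ H → x = 1 := by
    intro x hxK hxH
    rcases (hmemK x).1 hxK with h | h
    · exact h
    · exfalso
      apply h 1
      simpa using hxH
  -- a nontrivial element of H commutes with no nontrivial element of K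
  have hfree : ∀ h : L, h ∈ H → h ≠ 1 → ∀ k : L, k ∈ K → h * k = k * h → k = 1 := by
    intro h hh hh1 k hk hcomm
    by_contra hk1
    have hkH : k ∉ H := fun hc => hk1 (hKH k hk hc)
    have hbot := hHfrob k hkH
    have hmem : h ∈ H ⊓ MulAut.conj k • H := by
      have hconj : h ∈ MulAut.conj k • H := by
        rw [mem_conj_smul]
        have : k⁻¹ * h * k = h := by
          rw [mul_assoc, hcomm, ← mul_assoc, inv_mul_cancel, one_mul]
        rw [this]
        exact hh
      exact ⟨hh, hconj⟩
    rw [hbot, Subgroup.mem_bot] at hmem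
    exact hh1 hmem
  -- comparability
  have hcomp : ∀ N : Subgroup L, N.Normal → K ≤ N ∨ N ≤ K := by
    intro N hN
    by_cases hNK : N ≤ K
    · right; exact hNK
    · left
      rw [SetLike.not_le_iff_exists] at hNK
      obtain ⟨n, hnN, hnK⟩ := hNK
      rw [hmemK] at hnK
      rw [not_or] at hnK
      obtain ⟨hn1, hn2⟩ := hnK
      rw [not_forall] at hn2
      obtain ⟨g, hg⟩ := hn2
      rw [not_not] at hg
      set h := g⁻¹ * n * g with hhdef
      have hhN : h ∈ N := by
        have := hN.conj_mem n hnN g⁻¹
        simpa [hhdef] using this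
      have hh1 : h ≠ 1 := by
        intro hc
        apply hn1
        have : n = g * h * g⁻¹ := by rw [hhdef]; group
        rw [this, hc]; group
      -- the commutator map k ↦ h k h⁻¹ k⁻¹ is an injection K → K with image in N
      let c : K → K := fun k => ⟨h * k * h⁻¹ * (k : L)⁻¹,
        K.mul_mem (hKn.conj_mem k k.2 h) (K.inv_mem k.2)⟩
      have hcinj : Function.Injective c := by
        intro k k' e
        have e' : h * k * h⁻¹ * (k : L)⁻¹ = h * k' * h⁻¹ * (k' : L)⁻¹ := congrArg Subtype.val e
        have hcomm : h * ((k' : L)⁻¹ * k) = ((k' : L)⁻¹ * k) * h := by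
          have e1 : (k : L) * h⁻¹ * (k : L)⁻¹ = k' * h⁻¹ * (k' : L)⁻¹ := by
            have := congrArg (fun x => h⁻¹ * x) e'
            simpa [mul_assoc] using this
          have e2 : (k' : L)⁻¹ * k * h⁻¹ = h⁻¹ * ((k' : L)⁻¹ * k) := by
            have := congrArg (fun x => (k' : L)⁻¹ * x * k) e1
            simpa [mul_assoc] using this
          have := congrArg (fun x => h * x * h) e2
          simp only [mul_assoc, inv_mul_cancel, mul_one, mul_inv_cancel_left] at this
          simpa [mul_assoc] using this
        have := hfree h hg hh1 _ (K.mul_mem (K.inv_mem k'.2) k.2) hcomm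
        apply Subtype.ext
        exact (inv_mul_eq_one.1 this).symm
      have hcsurj : Function.Surjective c := Finite.injective_iff_surjective.1 hcinj
      intro x hx
      obtain ⟨k, hk⟩ := hcsurj ⟨x, hx⟩
      have hx' : x = h * k * h⁻¹ * (k : L)⁻¹ := (congrArg Subtype.val hk).symm
      rw [hx']
      have h3 : (k : L) * h⁻¹ * (k : L)⁻¹ ∈ N := hN.conj_mem _ (N.inv_mem hhN) k
      have h4 := N.mul_mem hhN h3
      convert h4 using 1
      group
  refine ⟨?_, hcomp⟩
  rw [Subgroup.characteristic_iff_map_le]
  intro ϕ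
  have hnorm : (K.map ϕ.toMonoidHom).Normal := hKn.map _ ϕ.surjective
  rcases hcomp _ hnorm with h | h
  · have hcard : Nat.card (K.map ϕ.toMonoidHom) = Nat.card K :=
      Subgroup.card_map_of_injective ϕ.injective
    have := Subgroup.eq_of_le_of_card_ge h hcard.le
    exact this.symm.le
  · exact h

end Cfsg.Agent.S3383
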