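import Cfsg.Statements.S3419
import Cfsg.Agent.H61.SolvTwoPrimes

set_option autoImplicit false
open Cfsg

namespace Cfsg.Agent.S3419

/-- Let n ≥ 5 and let G be a finite group with the same order and the same set of element orders as the alternating group of degree n. Then G is not solvable. -/
theorem result {G : Type*} [Group G] [Finite G] (n : ℕ) (hn : 5 ≤ n)
    (hcard : Nat.card G = Nat.card ↥(alternatingGroup (Fin n)))
    (hspec : Set.range (orderOf : G → ℕ) = Set.range (orderOf : ↥(alternatingGroup (Fin n)) → ℕ)) :
    ¬ Group.IsSolvable G := by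
  intro hsolv
  have hn2 : 2 ≤ n := by omega
  have hc2 := Cfsg.Agent.H61.two_mul_card_alt n hn2
  rw [← hcard] at hc2
  have hno : ∀ p q : ℕ, p.Prime → q.Prime → p ≠ q → n < p + q → ∀ g : G, orderOf g ≠ p * q := by
    intro p q hp hq hpq hlt g hg
    have hmem : p * q ∈ Set.range (orderOf : G → ℕ) := ⟨g, hg⟩
    rw [hspec] at hmem
    obtain ⟨σ, hσ⟩ := hmem
    exact Cfsg.Agent.H61.alternating_no_orderOf n p q hp hq hpq hlt σ hσ
  have key : ∀ p q a m : ℕ, p.Prime → q.Prime → p ≠ q → n < p + q → p ∣ Nat.card G →
      ¬ p ^ 2 ∣ Nat.card G → Nat.card G = q ^ a * m → ¬ q ∣ m →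
      q ^ a ∣ p - 1 ∨ ∃ b, 1 ≤ b ∧ b ≤ a ∧ p ∣ q ^ b - 1 :=
    fun p q a m hp hq hpq hlt h1 h2 h3 h4 =>
      Cfsg.Agent.H61.solvable_two_primes' p q hp hq hpq G hsolv h1 h2 (hno p q hp hq hpq hlt)
        a m h3 h4
  by_cases h11 : 11 ≤ n
  · obtain ⟨p, q, hp, hq, hpq, hqn, hnp⟩ := Cfsg.Agent.H61.exists_two_primes_half n h11
    have hodd : ∀ p : ℕ, p.Prime → n < 2 * p → 7 ≤ p ∧ p % 2 = 1 := by
      intro p hp h
      have h7 : 7 ≤ p := by
        by_contra hlt
        have h6 : p = 6 := by omega
        rw [h6] at hp
        exact absurd hp (by decide)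
      refine ⟨h7, ?_⟩
      rcases hp.eq_two_or_odd with h | h
      · omega
      · exact h
    have hp7 := hodd p hp hnp
    have hq7 := hodd q hq (by omega)
    have hpd := Cfsg.Agent.H61.prime_dvd_card_alt n p hp (by omega) (by omega) hnp
    have hqd := Cfsg.Agent.H61.prime_dvd_card_alt n q hq (by omega) hqn (by omega)
    rw [← hcard] at hpd hqd
    obtain ⟨m, hm⟩ := hqd.1
    have hqm : ¬ q ∣ m := by
      rintro ⟨c, rfl⟩
      apply hqd.2
      rw [hm]
      exact ⟨c, by ring⟩
    rcases key p q 1 m hp hq hpq.ne (by omega) hpd.1 hpd.2 (by rw [hm, pow_one]) hqm with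
      h | ⟨b, hb1, hb2, hb⟩
    · rw [pow_one] at h
      have := Nat.le_of_dvd (by omega) h
      omega
    · have hb' : b = 1 := by omega
      subst hb'
      rw [pow_one] at hb
      obtain ⟨c, hc⟩ := hb
      have hc1 : c = 1 := by
        rcases c with _ | _ | c
        · omega
        · rfl
        · exfalso
          have : p * (c + 1 + 1) = p * c + 2 * p := by ring
          omega
      rw [hc1, mul_one] at hc
      omega
  · have hn' : n = 5 ∨ n = 6 ∨ n = 7 ∨ n = 8 ∨ n = 9 ∨ n = 10 := by omega
    rcases hn' with rfl | rfl | rfl | rfl | rfl | rfl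
    · have hc : Nat.card G = 60 := by
        have : (5).factorial = 120 := by decide
        omega
      rcases key 5 3 1 20 (by norm_num) (by norm_num) (by norm_num) (by norm_num)
        (by rw [hc]; norm_num) (by rw [hc]; norm_num) (by rw [hc]; norm_num) (by norm_num) with
        h | ⟨b, hb1, hb2, hb⟩
      · norm_num at h
      · interval_cases b
        norm_num at hb
    · have hc : Nat.card G = 360 := by
        have : (6).factorial = 720 := by decide
        omega
      rcases key 5 3 2 40 (by norm_num) (by norm_num) (by norm_num) (by norm_num)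
        (by rw [hc]; norm_num) (by rw [hc]; norm_num) (by rw [hc]; norm_num) (by norm_num) with
        h | ⟨b, hb1, hb2, hb⟩
      · norm_num at h
      · interval_cases b <;> norm_num at hb
    · have hc : Nat.card G = 2520 := by
        have : (7).factorial = 5040 := by decide
        omega
      rcases key 7 5 1 504 (by norm_num) (by norm_num) (by norm_num) (by norm_num)
        (by rw [hc]; norm_num) (by rw [hc]; norm_num) (by rw [hc]; norm_num) (by norm_num) with
        h | ⟨b, hb1, hb2, hb⟩
      · norm_num at h
      · interval_cases b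
        norm_num at hb
    · have hc : Nat.card G = 20160 := by
        have : (8).factorial = 40320 := by decide
        omega
      rcases key 7 5 1 4032 (by norm_num) (by norm_num) (by norm_num) (by norm_num)
        (by rw [hc]; norm_num) (by rw [hc]; norm_num) (by rw [hc]; norm_num) (by norm_num) with
        h | ⟨b, hb1, hb2, hb⟩
      · norm_num at h
      · interval_cases b
        norm_num at hb
    · have hc : Nat.card G = 181440 := by
        have : (9).factorial = 362880 := by decide
        omega
      rcases key 7 5 1 36288 (by norm_num) (by norm_num) (by norm_num) (by norm_num)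
        (by rw [hc]; norm_num) (by rw [hc]; norm_num) (by rw [hc]; norm_num) (by norm_num) with
        h | ⟨b, hb1, hb2, hb⟩
      · norm_num at h
      · interval_cases b
        norm_num at hb
    · have hc : Nat.card G = 1814400 := by
        have : (10).factorial = 3628800 := by decide
        omega
      rcases key 7 5 2 72576 (by norm_num) (by norm_num) (by norm_num) (by norm_num)
        (by rw [hc]; norm_num) (by rw [hc]; norm_num) (by rw [hc]; norm_num) (by norm_num) with
        h | ⟨b, hb1, hb2, hb⟩
      · norm_num at h
      · interval_cases b <;> norm_num at hb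

end Cfsg.Agent.S3419
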