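import Cfsg.Statements.S3420
import Cfsg.Agent.H61.SpecAn

set_option autoImplicit false
open Cfsg

namespace Cfsg.Agent.S3420

/-- Let n ≥ 11 and let G be a finite group with the same order and the same set of element orders as the alternating group of degree n. Then G has normal subgroups N < H such that H/N is a non-abelian simple group whose order is divisible by every prime p with n/2 < p ≤ n. -/
theorem result {G : Type*} [Group G] [Finite G] (n : ℕ) (hn : 11 ≤ n)
    (hcard : Nat.card G = Nat.card ↥(alternatingGroup (Fin n)))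
    (hspec : Set.range (orderOf : G → ℕ) = Set.range (orderOf : ↥(alternatingGroup (Fin n)) → ℕ)) :
    ∃ (N H : Subgroup G) (_ : N.Normal), H.Normal ∧ N < H ∧
      IsSimpleGroup (↥H ⧸ N.subgroupOf H) ∧ ¬ IsMulCommutative (↥H ⧸ N.subgroupOf H) ∧
      ∀ p : ℕ, p.Prime → n < 2 * p → p ≤ n → p ∣ Nat.card (↥H ⧸ N.subgroupOf H) := by
  have hodd : ∀ p : ℕ, p.Prime → n < 2 * p → 7 ≤ p := by
    intro p hp h
    by_contra hlt
    have h6 : p = 6 := by omega
    rw [h6] at hp
    exact absurd hp (by decide)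
  have hodd' : ∀ p : ℕ, p.Prime → 7 ≤ p → p % 2 = 1 := by
    intro p hp h7
    rcases hp.eq_two_or_odd with h | h
    · omega
    · exact h
  obtain ⟨N, H, hN, hH, hlt, hs, hnc, hd⟩ :=
    Cfsg.Agent.H61.exists_simple_section {p : ℕ | p.Prime ∧ n < 2 * p ∧ p ≤ n}
      (fun p hp => hp.1)
      (by
        rintro p ⟨hp, hp1, hp2⟩ q ⟨hq, hq1, hq2⟩ hpq ⟨c, hc⟩
        have hp7 := hodd p hp hp1
        have hq7 := hodd q hq hq1
        have hpo := hodd' p hp hp7
        have hqo := hodd' q hq hq7
        have hc1 : c = 1 := by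
          rcases c with _ | _ | c
          · omega
          · rfl
          · exfalso
            have : q * (c + 1 + 1) = q * c + 2 * q := by ring
            omega
        rw [hc1, mul_one] at hc
        omega)
      (by
        obtain ⟨p, q, hp, hq, hpq, hqn, hnp⟩ := Cfsg.Agent.H61.exists_two_primes_half n hn
        exact ⟨p, ⟨hp, hnp, by omega⟩, q, ⟨hq, by omega, hqn⟩, hpq.ne⟩)
      (Nat.card G) G rfl
      (by
        rintro p ⟨hp, hp1, hp2⟩
        rw [hcard]
        have hp7 := hodd p hp hp1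
        exact Cfsg.Agent.H61.prime_dvd_card_alt n p hp (by omega) hp2 hp1)
      (by
        rintro p ⟨hp, hp1, hp2⟩ q ⟨hq, hq1, hq2⟩ hpq g hg
        have hmem : p * q ∈ Set.range (orderOf : G → ℕ) := ⟨g, hg⟩
        rw [hspec] at hmem
        obtain ⟨σ, hσ⟩ := hmem
        exact Cfsg.Agent.H61.alternating_no_orderOf n p q hp hq hpq (by omega) σ hσ)
  exact ⟨N, H, hN, hH, hlt, hs, hnc, fun p hp h1 h2 => hd p ⟨hp, h1, h2⟩⟩

end Cfsg.Agent.S3420
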