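import Cfsg.Statements.S4422

set_option autoImplicit false
open Cfsg

namespace Cfsg.Agent.S4422

/-- Primitive divisors of `q^e - 1` are congruent to 1 modulo `e`. -/
theorem result (q e m : ℕ) (hq : 2 ≤ q) (he : 1 ≤ e)
    (hm : m ∣ q ^ e - 1) (hcop : ∀ i : ℕ, 1 ≤ i → i < e → Nat.Coprime m (q ^ i - 1)) :
    m % e = 1 % e := by
  have hqe : 2 ≤ q ^ e := by
    calc 2 ≤ q := hq
      _ = q ^ 1 := (pow_one q).symm
      _ ≤ q ^ e := Nat.pow_le_pow_right (by omega) he
  have hm0 : m ≠ 0 := by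
    rintro rfl
    have := Nat.eq_zero_of_zero_dvd hm
    omega
  have key : ∀ p : ℕ, p.Prime → p ∣ m → p ≡ 1 [MOD e] := by
    intro p hp hpm
    haveI := Fact.mk hp
    have hpq : p ∣ q ^ e - 1 := hpm.trans hm
    have h1 : (q : ZMod p) ^ e = 1 := by
      have h2 : ((q ^ e - 1 : ℕ) : ZMod p) = 0 := (ZMod.natCast_eq_zero_iff _ _).mpr hpq
      rw [Nat.cast_sub (by omega)] at h2
      push_cast at h2
      exact sub_eq_zero.mp h2
    have hq0 : (q : ZMod p) ≠ 0 := by
      intro h0
      rw [h0, zero_pow (by omega)] at h1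
      exact zero_ne_one h1
    have hord : orderOf (q : ZMod p) = e := by
      have hdvd : orderOf (q : ZMod p) ∣ e := orderOf_dvd_of_pow_eq_one h1
      have hpos : 0 < orderOf (q : ZMod p) := Nat.pos_of_dvd_of_pos hdvd he
      by_contra hne
      have hlt : orderOf (q : ZMod p) < e := lt_of_le_of_ne (Nat.le_of_dvd he hdvd) hne
      have hc := hcop _ hpos hlt
      have h3 : (q : ZMod p) ^ orderOf (q : ZMod p) = 1 := pow_orderOf_eq_one _
      have hqi : 1 ≤ q ^ orderOf (q : ZMod p) := Nat.one_le_pow _ _ (by omega)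
      have h4 : ((q ^ orderOf (q : ZMod p) - 1 : ℕ) : ZMod p) = 0 := by
        rw [Nat.cast_sub hqi]
        push_cast
        rw [h3, sub_self]
      have h5 : p ∣ q ^ orderOf (q : ZMod p) - 1 := (ZMod.natCast_eq_zero_iff _ _).mp h4
      have h6 : p ∣ Nat.gcd m (q ^ orderOf (q : ZMod p) - 1) := Nat.dvd_gcd hpm h5
      rw [hc] at h6
      exact hp.one_lt.ne' (Nat.dvd_one.mp h6)
    have hdiv : e ∣ p - 1 := by
      rw [← hord]
      exact ZMod.orderOf_dvd_card_sub_one hq0
    have hp1 : 1 ≤ p := hp.one_lt.le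
    exact ((Nat.modEq_iff_dvd' hp1).mpr hdiv).symm
  have main : ∀ d : ℕ, d ∣ m → d ≡ 1 [MOD e] := by
    intro d
    induction d using Nat.recOnMul with
    | zero => intro h; exact absurd (Nat.eq_zero_of_zero_dvd h) hm0
    | one => intro _; rfl
    | prime p hp => intro h; exact key p hp h
    | mul a b iha ihb =>
      intro h
      have ha := iha ((Dvd.intro _ rfl).trans h)
      have hb := ihb ((Dvd.intro_left _ rfl).trans h)
      simpa using ha.mul hb
  exact main m dvd_rfl

end Cfsg.Agent.S4422
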