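import Cfsg.Statements.S3430
import Cfsg.Agent.H77.ZsigCor
import Cfsg.Agent.S4422

set_option autoImplicit false
open Cfsg

namespace Cfsg.Agent.S3430

open Cfsg.Agent in
/-- Let q, n ≥ 2 be integers. Unless (n = 2 and q + 1 = 2^s·3^t for some s ≥ 0 and t ≤ 1), or (q = 2 and n ∈ {4, 6, 10, 12, 18}), or (q = 3 and n ∈ {4, 6}), or (q, n) = (5, 6), there is a prime p dividing q^n − 1 but no q^i − 1 with 1 ≤ i < n (a primitive prime divisor), such that p > n + 1 or p² divides q^n − 1. -/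
theorem result (q n : ℕ) (hq : 2 ≤ q) (hn : 2 ≤ n)
    (h1 : ¬ (n = 2 ∧ ∃ s t : ℕ, t ≤ 1 ∧ q + 1 = 2 ^ s * 3 ^ t))
    (h2 : ¬ (q = 2 ∧ (n = 4 ∨ n = 6 ∨ n = 10 ∨ n = 12 ∨ n = 18)))
    (h3 : ¬ (q = 3 ∧ (n = 4 ∨ n = 6))) (h4 : ¬ (q = 5 ∧ n = 6)) :
    ∃ p : ℕ, p.Prime ∧ p ∣ q ^ n - 1 ∧ (∀ i : ℕ, 1 ≤ i → i < n → ¬ p ∣ q ^ i - 1) ∧ (n + 1 < p ∨ p ^ 2 ∣ q ^ n - 1) := by
  by_cases hn2 : n = 2
  · subst hn2
    obtain ⟨s, u, hu, hqu⟩ : ∃ s u, ¬ 2 ∣ u ∧ q + 1 = 2 ^ s * u :=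
      Nat.exists_eq_pow_mul_and_not_dvd (by omega) 2 (by norm_num)
    have hu0 : u ≠ 0 := by
      rintro rfl
      simp at hqu
    obtain ⟨t, w, hw, huw⟩ : ∃ t w, ¬ 3 ∣ w ∧ u = 3 ^ t * w :=
      Nat.exists_eq_pow_mul_and_not_dvd hu0 3 (by norm_num)
    have hsq : q ^ 2 - 1 = (q + 1) * (q - 1) := by
      obtain ⟨b, rfl⟩ : ∃ b, q = b + 1 := ⟨q - 1, by omega⟩
      simp only [Nat.add_sub_cancel]
      ring_nf
      omega
    have hprim : ∀ p : ℕ, p.Prime → p ∣ q + 1 → p ≠ 2 →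
        ∀ i : ℕ, 1 ≤ i → i < 2 → ¬ p ∣ q ^ i - 1 := by
      intro p hp hpq hp2 i hi hi2
      have hi1 : i = 1 := by omega
      subst hi1
      rw [pow_one]
      intro hdvd
      have h5 : p ∣ (q + 1) - (q - 1) := Nat.dvd_sub hpq hdvd
      have h6 : (q + 1) - (q - 1) = 2 := by omega
      rw [h6] at h5
      exact hp2 ((Nat.prime_dvd_prime_iff_eq hp Nat.prime_two).mp h5)
    by_cases hw1 : w = 1
    · subst hw1
      have ht : 2 ≤ t := by
        by_contra hlt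
        exact h1 ⟨rfl, s, t, by omega, by rw [hqu, huw, mul_one]⟩
      have h9 : 3 ^ 2 ∣ q + 1 := by
        rw [hqu, huw, mul_one]
        exact Dvd.dvd.mul_left (pow_dvd_pow 3 ht) _
      have h3q : 3 ∣ q + 1 := (dvd_pow_self 3 (by norm_num)).trans h9
      refine ⟨3, Nat.prime_three, ?_, hprim 3 Nat.prime_three h3q (by norm_num), Or.inr ?_⟩
      · rw [hsq]; exact Dvd.dvd.mul_right h3q _
      · rw [hsq]; exact Dvd.dvd.mul_right h9 _
    · obtain ⟨p, hp, hpw⟩ := Nat.exists_prime_and_dvd hw1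
      have hpu : p ∣ u := by rw [huw]; exact Dvd.dvd.mul_left hpw _
      have hp2 : p ≠ 2 := by
        rintro rfl
        exact hu hpu
      have hp3 : p ≠ 3 := by
        rintro rfl
        exact hw hpw
      have hpq : p ∣ q + 1 := by rw [hqu]; exact Dvd.dvd.mul_left hpu _
      refine ⟨p, hp, ?_, hprim p hp hpq hp2, Or.inl ?_⟩
      · rw [hsq]; exact Dvd.dvd.mul_right hpq _
      · have := hp.two_le
        have h4' : p ≠ 4 := by
          rintro rfl
          exact absurd hp (by decide)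
        omega
  · have hn3 : 3 ≤ n := by omega
    by_cases hexc : (q, n) ∈ H77.excList
    · obtain ⟨e1, e2, e3, e4, e5, e6, e7, e8, e9, e10, e11, e12⟩ := H77.isPrimPrime_exc
      simp only [H77.excList, List.mem_cons, Prod.mk.injEq, List.not_mem_nil, or_false] at hexc
      rcases hexc with ⟨rfl, rfl⟩ | ⟨rfl, rfl⟩ | ⟨rfl, rfl⟩ | ⟨rfl, rfl⟩ | ⟨rfl, rfl⟩ | ⟨rfl, rfl⟩ |
        ⟨rfl, rfl⟩ | ⟨rfl, rfl⟩ | ⟨rfl, rfl⟩ | ⟨rfl, rfl⟩ | ⟨rfl, rfl⟩ | ⟨rfl, rfl⟩ | ⟨rfl, rfl⟩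
      · exact absurd ⟨rfl, by norm_num⟩ h2
      · exact absurd ⟨rfl, by norm_num⟩ h2
      · exact absurd ⟨rfl, by norm_num⟩ h2
      · exact absurd ⟨rfl, by norm_num⟩ h2
      · exact absurd ⟨rfl, by norm_num⟩ h2
      · exact absurd ⟨rfl, by norm_num⟩ h3
      · exact absurd ⟨rfl, by norm_num⟩ h3
      · exact absurd ⟨rfl, rfl⟩ h4
      · exact ⟨7, e8.1, e8.2.1, fun i hi hin => e8.2.2 i hi hin, Or.inl (by norm_num)⟩
      · exact ⟨17, e9.1, e9.2.1, fun i hi hin => e9.2.2 i hi hin, Or.inl (by norm_num)⟩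
      · exact ⟨41, e10.1, e10.2.1, fun i hi hin => e10.2.2 i hi hin, Or.inl (by norm_num)⟩
      · exact ⟨7, e11.1, e11.2.1, fun i hi hin => e11.2.2 i hi hin, Or.inl (by norm_num)⟩
      · exact ⟨13, e12.1, e12.2.1, fun i hi hin => e12.2.2 i hi hin, Or.inl (by norm_num)⟩
    · obtain ⟨m, hm, hc, hbig⟩ := H77.hasLargePrimDiv hq hn3 hexc
      have hprime : ∀ p : ℕ, p.Prime → p ∣ m → (H77.IsPrimPrime q n p ∧ n + 1 ≤ p) := by
        intro p hp hpm
        have hpp := H77.isPrimPrime_of_dvd hm hc hp hpm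
        refine ⟨hpp, ?_⟩
        have hmod := Cfsg.Agent.S4422.result q n p hq (by omega) hpp.2.1
          (fun i hi hin => (Nat.Prime.coprime_iff_not_dvd hp).mpr (hpp.2.2 i hi hin))
        rw [Nat.mod_eq_of_lt (by omega : 1 < n)] at hmod
        have hdm := Nat.div_add_mod p n
        have hp1 := hp.one_lt
        have hdiv : 1 ≤ p / n := by
          by_contra h0
          have h00 : p / n = 0 := Nat.lt_one_iff.mp (not_le.mp h0)
          rw [h00] at hdm
          omega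
        have : n * 1 ≤ n * (p / n) := Nat.mul_le_mul_left n hdiv
        omega
      by_cases hex : ∃ p, p.Prime ∧ p ∣ m ∧ n + 1 < p
      · obtain ⟨p, hp, hpm, hlt⟩ := hex
        have hpp := (hprime p hp hpm).1
        exact ⟨p, hp, hpp.2.1, fun i hi hin => hpp.2.2 i hi hin, Or.inl hlt⟩
      · push Not at hex
        have hall : ∀ {d : ℕ}, d.Prime → d ∣ m → d = n + 1 := by
          intro d hd hdm
          have := (hprime d hd hdm).2
          have := hex d hd hdm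
          omega
        have hm0 : m ≠ 0 := by omega
        have hmpow := Nat.eq_prime_pow_of_unique_prime_dvd hm0 hall
        have hj : 2 ≤ m.primeFactorsList.length := by
          by_contra hlt
          have hcases : m.primeFactorsList.length = 0 ∨ m.primeFactorsList.length = 1 := by omega
          rcases hcases with h | h
          · rw [h, pow_zero] at hmpow; omega
          · rw [h, pow_one] at hmpow; omega
        obtain ⟨p, hp, hpm⟩ := Nat.exists_prime_and_dvd (by omega : m ≠ 1)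
        have hpn : p = n + 1 := hall hp hpm
        have hpp := (hprime p hp hpm).1
        refine ⟨p, hp, hpp.2.1, fun i hi hin => hpp.2.2 i hi hin, Or.inr ?_⟩
        have hsq : p ^ 2 ∣ m := by
          rw [hpn]
          conv_rhs => rw [hmpow]
          exact pow_dvd_pow _ hj
        exact hsq.trans hm

end Cfsg.Agent.S3430
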