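import Mathlib
import Cfsg.Statements.S3704

set_option autoImplicit false
open Cfsg

namespace Cfsg.Agent.S3704

open Matrix

section
variable {G Ω : Type*} [Group G] [MulAction G Ω] (H : Subgroup G)

open scoped Classical in
/-- incidence matrix attached to an `H`-invariant set `S` -/
noncomputable def Amat (S : Set Ω) : Matrix Ω (G ⧸ H) ℚ :=
  fun ω γ => if (γ.out)⁻¹ • ω ∈ S then 1 else 0

/-- `S` is `H`-invariant -/
def Hinv (S : Set Ω) : Prop := ∀ h : G, h ∈ H → ∀ ω, h • ω ∈ S ↔ ω ∈ S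

/-- the all-ones matrix -/
def Jm (Ω : Type*) : Matrix Ω Ω ℚ := fun _ _ => 1

variable {H}

open scoped Classical in
lemma Amat_mk {S : Set Ω} (hS : Hinv H S) (ω : Ω) (g : G) :
    Amat H S ω (QuotientGroup.mk g) = if g⁻¹ • ω ∈ S then 1 else 0 := by
  obtain ⟨h, hh⟩ := QuotientGroup.mk_out_eq_mul H g
  unfold Amat
  rw [hh, _root_.mul_inv_rev, mul_smul]
  have : (h : G)⁻¹ • g⁻¹ • ω ∈ S ↔ g⁻¹ • ω ∈ S := hS _ (H.inv_mem h.2) _
  simp only [this]

lemma Amat_smul {S : Set Ω} (hS : Hinv H S) (x : G) (ω : Ω) (γ : G ⧸ H) :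
    Amat H S (x • ω) (x • γ) = Amat H S ω γ := by
  induction γ using QuotientGroup.induction_on with
  | H g =>
    rw [MulAction.Quotient.smul_mk, Amat_mk hS, Amat_mk hS]
    have : (x • g)⁻¹ • x • ω = g⁻¹ • ω := by
      rw [smul_eq_mul, _root_.mul_inv_rev, mul_smul, inv_smul_smul]
    rw [this]

lemma Amat_zero_or_one (S : Set Ω) (ω : Ω) (γ : G ⧸ H) :
    Amat H S ω γ = 0 ∨ Amat H S ω γ = 1 := by
  unfold Amat; split_ifs <;> simp

lemma Amat_nonneg (S : Set Ω) (ω : Ω) (γ : G ⧸ H) : 0 ≤ Amat H S ω γ := by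
  rcases Amat_zero_or_one (H := H) S ω γ with h | h <;> rw [h] <;> norm_num

lemma Amat_one_of_mem {S : Set Ω} (hS : Hinv H S) {ω : Ω} (hω : ω ∈ S) :
    Amat H S ω (QuotientGroup.mk 1) = 1 := by
  rw [Amat_mk hS]; simp [hω]

lemma Amat_zero_of_notMem {S : Set Ω} (hS : Hinv H S) {ω : Ω} (hω : ω ∉ S) :
    Amat H S ω (QuotientGroup.mk 1) = 0 := by
  rw [Amat_mk hS]; simp [hω]

lemma hinv_orbit (ω0 : Ω) : Hinv H (MulAction.orbit H ω0) := by
  intro h hh ω
  have : h • ω = (⟨h, hh⟩ : H) • ω := rfl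
  rw [this, ← MulAction.orbit_eq_iff, MulAction.orbit_smul, MulAction.orbit_eq_iff]

variable [Fintype Ω] [Fintype (G ⧸ H)]

lemma gram_smul {S T : Set Ω} (hS : Hinv H S) (hT : Hinv H T) (x : G) (ω ω' : Ω) :
    (Amat H S * (Amat H T)ᵀ) (x • ω) (x • ω') = (Amat H S * (Amat H T)ᵀ) ω ω' := by
  simp only [Matrix.mul_apply, Matrix.transpose_apply]
  rw [← Equiv.sum_comp (MulAction.toPerm x : G ⧸ H ≃ G ⧸ H)]
  apply Finset.sum_congr rfl
  intro γ _
  simp only [MulAction.toPerm_apply]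
  rw [Amat_smul hS, Amat_smul hT]

lemma form_of_invariant [DecidableEq Ω] (h2 : MulAction.IsMultiplyPretransitive G Ω 2)
    (P : Matrix Ω Ω ℚ) (hP : ∀ (x : G) (ω ω' : Ω), P (x • ω) (x • ω') = P ω ω')
    (a b : Ω) (hab : a ≠ b) :
    P = (P a a - P a b) • (1 : Matrix Ω Ω ℚ) + P a b • Jm Ω := by
  have h2' : ∀ {a b c d : Ω}, a ≠ b → c ≠ d → ∃ g : G, g • a = c ∧ g • b = d :=
    MulAction.is_two_pretransitive_iff.mp h2
  have : MulAction.IsPretransitive G Ω := MulAction.isPretransitive_of_is_two_pretransitive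
  ext ω ω'
  by_cases h : ω = ω'
  · subst h
    obtain ⟨g, hg⟩ := MulAction.exists_smul_eq G a ω
    simp only [Matrix.add_apply, Matrix.smul_apply, Matrix.one_apply_eq, Jm, smul_eq_mul, mul_one]
    rw [← hg, hP]; ring
  · obtain ⟨g, hg, hg'⟩ := h2' hab h
    simp only [Matrix.add_apply, Matrix.smul_apply, Matrix.one_apply_ne h, Jm, smul_eq_mul,
      mul_one, mul_zero, zero_add]
    rw [← hg, ← hg', hP]

lemma cancel [DecidableEq Ω] [DecidableEq (G ⧸ H)]
    (hcard : Fintype.card Ω = Fintype.card (G ⧸ H)) (A : Matrix Ω (G ⧸ H) ℚ) (d l : ℚ)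
    (hd : 0 < d) (hl : 0 ≤ l) (hB : A * Aᵀ = d • (1 : Matrix Ω Ω ℚ) + l • Jm Ω)
    (Z : Matrix Ω (G ⧸ H) ℚ) (hZ : Z * Aᵀ = 0) : Z = 0 := by
  have hinj : Function.Injective (A * Aᵀ).mulVec := by
    intro v w hvw
    have h0 : (A * Aᵀ).mulVec (v - w) = 0 := by rw [Matrix.mulVec_sub, hvw, sub_self]
    set u := v - w with hu
    have hs : ∀ ω, d * u ω + l * ∑ ω', u ω' = 0 := by
      intro ω
      have := congrFun h0 ω
      rw [hB] at this
      simp only [Matrix.mulVec, dotProduct, Matrix.add_apply, Matrix.smul_apply,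
        Matrix.one_apply, Jm, smul_eq_mul, mul_one, Pi.zero_apply, add_mul,
        Finset.sum_add_distrib, mul_ite, mul_zero, ite_mul, zero_mul, Finset.sum_ite_eq,
        Finset.mem_univ, if_true, ← Finset.mul_sum] at this
      exact this
    have hsum : ∑ ω', u ω' = 0 := by
      have h1 : ∑ ω, (d * u ω + l * ∑ ω', u ω') = 0 := Finset.sum_eq_zero (fun ω _ => hs ω)
      rw [Finset.sum_add_distrib, ← Finset.mul_sum, Finset.sum_const, Finset.card_univ,
        nsmul_eq_mul] at h1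
      have hpos : 0 < d + (Fintype.card Ω : ℚ) * l := by positivity
      have h2 : (d + (Fintype.card Ω : ℚ) * l) * ∑ ω', u ω' = 0 := by linarith
      exact (mul_eq_zero.mp h2).resolve_left hpos.ne'
    have hu0 : u = 0 := by
      funext ω
      have := hs ω
      rw [hsum, mul_zero, add_zero] at this
      exact (mul_eq_zero.mp this).resolve_left hd.ne'
    exact sub_eq_zero.mp hu0
  have hunit : IsUnit (A * Aᵀ) := Matrix.mulVec_injective_iff_isUnit.mp hinj
  obtain ⟨Binv, hBinv⟩ := hunit.exists_right_inv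
  have h1 : A * (Aᵀ * Binv) = 1 := by rw [← Matrix.mul_assoc]; exact hBinv
  have h2 : (Aᵀ * Binv) * A = 1 := (Matrix.mul_eq_one_comm_of_equiv (Fintype.equivOfCardEq hcard)).mp h1
  calc Z = Z * (1 : Matrix (G ⧸ H) (G ⧸ H) ℚ)ᵀ := by simp
    _ = Z * ((Aᵀ * Binv) * A)ᵀ := by rw [h2]
    _ = (Z * Aᵀ) * (Aᵀ * Binv)ᵀ := by rw [Matrix.transpose_mul, Matrix.mul_assoc]
    _ = 0 := by rw [hZ, Matrix.zero_mul]

theorem no_three (h2 : MulAction.IsMultiplyPretransitive G Ω 2)
    (hcard : Fintype.card Ω = Fintype.card (G ⧸ H))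
    (ω1 ω2 ω3 : Ω) (h12 : ω2 ∉ MulAction.orbit H ω1) (h13 : ω3 ∉ MulAction.orbit H ω1)
    (h23 : ω3 ∉ MulAction.orbit H ω2) : False := by
  classical
  have h32 : ω2 ∉ MulAction.orbit H ω3 := by
    intro h
    apply h23
    rw [← MulAction.orbit_eq_iff] at h ⊢
    exact h.symm
  have hab : ω1 ≠ ω2 := by
    rintro rfl
    exact h12 (MulAction.mem_orbit_self _)
  have hS1 := hinv_orbit (H := H) ω1
  have hS2 := hinv_orbit (H := H) ω2
  have hS3 := hinv_orbit (H := H) ω3
  set A := Amat H (MulAction.orbit H ω1) with hA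
  set A2 := Amat H (MulAction.orbit H ω2) with hA2
  set A3 := Amat H (MulAction.orbit H ω3) with hA3
  let e : G ⧸ H := QuotientGroup.mk 1
  have e11 : A ω1 e = 1 := Amat_one_of_mem hS1 (MulAction.mem_orbit_self _)
  have e12 : A ω2 e = 0 := Amat_zero_of_notMem hS1 h12
  have e13 : A ω3 e = 0 := Amat_zero_of_notMem hS1 h13
  have e22 : A2 ω2 e = 1 := Amat_one_of_mem hS2 (MulAction.mem_orbit_self _)
  have e23 : A2 ω3 e = 0 := Amat_zero_of_notMem hS2 h23
  have e32 : A3 ω2 e = 0 := Amat_zero_of_notMem hS3 h32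
  have e33 : A3 ω3 e = 1 := Amat_one_of_mem hS3 (MulAction.mem_orbit_self _)
  have hB := form_of_invariant h2 (A * Aᵀ) (gram_smul hS1 hS1) ω1 ω2 hab
  have hC2 := form_of_invariant h2 (A2 * Aᵀ) (gram_smul hS2 hS1) ω1 ω2 hab
  have hC3 := form_of_invariant h2 (A3 * Aᵀ) (gram_smul hS3 hS1) ω1 ω2 hab
  have hl : 0 ≤ (A * Aᵀ) ω1 ω2 := by
    simp only [Matrix.mul_apply, Matrix.transpose_apply]
    exact Finset.sum_nonneg (fun γ _ => mul_nonneg (Amat_nonneg _ _ _) (Amat_nonneg _ _ _))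
  have hd : 0 < (A * Aᵀ) ω1 ω1 - (A * Aᵀ) ω1 ω2 := by
    simp only [Matrix.mul_apply, Matrix.transpose_apply]
    rw [← Finset.sum_sub_distrib]
    have hterm : ∀ γ ∈ (Finset.univ : Finset (G ⧸ H)), 0 ≤ A ω1 γ * A ω1 γ - A ω1 γ * A ω2 γ := by
      intro γ _
      rcases Amat_zero_or_one (H := H) (MulAction.orbit H ω1) ω1 γ with h | h <;>
      rcases Amat_zero_or_one (H := H) (MulAction.orbit H ω1) ω2 γ with h' | h' <;>
      simp only [hA, h, h'] <;> norm_num
    have := Finset.single_le_sum hterm (Finset.mem_univ e)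
    rw [e11, e12] at this
    linarith
  set d := (A * Aᵀ) ω1 ω1 - (A * Aᵀ) ω1 ω2 with hd_def
  set l := (A * Aᵀ) ω1 ω2 with hl_def
  set x2 := (A2 * Aᵀ) ω1 ω1 - (A2 * Aᵀ) ω1 ω2 with hx2
  set y2 := (A2 * Aᵀ) ω1 ω2 with hy2
  set x3 := (A3 * Aᵀ) ω1 ω1 - (A3 * Aᵀ) ω1 ω2 with hx3
  set y3 := (A3 * Aᵀ) ω1 ω2 with hy3
  have hD2 : (d • A2 - x2 • A) * Aᵀ = (d * y2 - x2 * l) • Jm Ω := by
    rw [Matrix.sub_mul, Matrix.smul_mul, Matrix.smul_mul, hC2, hB]
    module
  have hD3 : (d • A3 - x3 • A) * Aᵀ = (d * y3 - x3 * l) • Jm Ω := by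
    rw [Matrix.sub_mul, Matrix.smul_mul, Matrix.smul_mul, hC3, hB]
    module
  set c2 := d * y2 - x2 * l with hc2
  set c3 := d * y3 - x3 * l with hc3
  have hZ : (c3 • (d • A2 - x2 • A) - c2 • (d • A3 - x3 • A)) * Aᵀ = 0 := by
    rw [Matrix.sub_mul, Matrix.smul_mul, Matrix.smul_mul, hD2, hD3]
    module
  have hZ0 := cancel hcard A d l hd hl hB _ hZ
  have hz2 := congrFun (congrFun hZ0 ω2) e
  have hz3 := congrFun (congrFun hZ0 ω3) e
  simp only [Matrix.sub_apply, Matrix.smul_apply, smul_eq_mul, e12, e22, e32, e13, e23, e33,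
    Matrix.zero_apply] at hz2 hz3
  have hc3z : c3 = 0 := by
    have : c3 * d = 0 := by linarith
    exact (mul_eq_zero.mp this).resolve_right hd.ne'
  have hc2z : c2 = 0 := by
    have : c2 * d = 0 := by linarith
    exact (mul_eq_zero.mp this).resolve_right hd.ne'
  rw [hc2z, zero_smul] at hD2
  have hD20 := cancel hcard A d l hd hl hB _ hD2
  have hz := congrFun (congrFun hD20 ω2) e
  simp only [Matrix.sub_apply, Matrix.smul_apply, smul_eq_mul, e12, e22,
    Matrix.zero_apply] at hz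
  linarith

end

/-- Let G be a finite group acting faithfully and 2-transitively on a finite set Ω of size n, and let H be a subgroup of index n in G which is not transitive on Ω and fixes no point of Ω. Then H has exactly two orbits on Ω. -/
theorem result {G Ω : Type*} [Group G] [Finite G] [MulAction G Ω] [FaithfulSMul G Ω] [Finite Ω] (h2 : MulAction.IsMultiplyPretransitive G Ω 2) (H : Subgroup G) (hidx : H.index = Nat.card Ω) (hnt : ¬ MulAction.IsPretransitive H Ω) (hfix : ∀ a : Ω, ∃ h : H, h • a ≠ a) : Nat.card (MulAction.orbitRel.Quotient H Ω) = 2 := by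
  classical
  have : Fintype Ω := Fintype.ofFinite Ω
  have : Fintype (G ⧸ H) := Fintype.ofFinite _
  have hcard : Fintype.card Ω = Fintype.card (G ⧸ H) := by
    rw [← Nat.card_eq_fintype_card, ← Nat.card_eq_fintype_card, ← hidx]
    rfl
  have hfin : Finite (MulAction.orbitRel.Quotient H Ω) := Quotient.finite _
  have : Fintype (MulAction.orbitRel.Quotient H Ω) := Fintype.ofFinite _
  apply le_antisymm
  · by_contra hgt
    push Not at hgt
    rw [Nat.card_eq_fintype_card] at hgt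
    obtain ⟨q1, q2, q3, h12, h13, h23⟩ := Fintype.two_lt_card_iff.mp hgt
    induction q1 using Quotient.inductionOn' with | h ω1 => ?_
    induction q2 using Quotient.inductionOn' with | h ω2 => ?_
    induction q3 using Quotient.inductionOn' with | h ω3 => ?_
    refine no_three (H := H) h2 hcard ω1 ω2 ω3 ?_ ?_ ?_
    · intro h; exact h12 (Quotient.sound' ((MulAction.orbitRel_apply).mpr h)).symm
    · intro h; exact h13 (Quotient.sound' ((MulAction.orbitRel_apply).mpr h)).symm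
    · intro h; exact h23 (Quotient.sound' ((MulAction.orbitRel_apply).mpr h)).symm
  · by_contra hlt
    push Not at hlt
    have : Subsingleton (MulAction.orbitRel.Quotient H Ω) :=
      (Finite.card_le_one_iff_subsingleton).mp (by omega)
    exact hnt ((MulAction.pretransitive_iff_subsingleton_quotient H Ω).mpr this)

end Cfsg.Agent.S3704
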