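import Mathlib
import Cfsg.Statements.S3707

set_option autoImplicit false
open Cfsg

namespace Cfsg.Agent.S3707

open scoped Pointwise

section
variable {G Ω : Type*} [Group G] [MulAction G Ω]

/-- `J` is a Jordan set: the pointwise stabilizer of the complement is transitive on `J`. -/
def IsJ (G : Type*) {Ω : Type*} [Group G] [MulAction G Ω] (J : Set Ω) : Prop :=
  ∀ x ∈ J, ∀ y ∈ J, ∃ g : G, (∀ z ∉ J, g • z = z) ∧ g • x = y

lemma IsJ.smul {J : Set Ω} (h : IsJ G J) (g : G) : IsJ G (g • J) := by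
  rintro _ ⟨x, hx, rfl⟩ _ ⟨y, hy, rfl⟩
  obtain ⟨k, hk, hkx⟩ := h x hx y hy
  refine ⟨g * k * g⁻¹, ?_, ?_⟩
  · intro z hz
    have : g⁻¹ • z ∉ J := fun h' => hz ⟨g⁻¹ • z, h', smul_inv_smul g z⟩
    rw [mul_smul, mul_smul, hk _ this, smul_inv_smul]
  · rw [mul_smul, mul_smul, inv_smul_smul, hkx]

lemma IsJ.union {J1 J2 : Set Ω} (h1 : IsJ G J1) (h2 : IsJ G J2) (hne : (J1 ∩ J2).Nonempty) :
    IsJ G (J1 ∪ J2) := by
  obtain ⟨c, hc1, hc2⟩ := hne
  have key : ∀ x ∈ J1 ∪ J2, ∃ g : G, (∀ z ∉ J1 ∪ J2, g • z = z) ∧ g • x = c := by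
    rintro x (hx | hx)
    · obtain ⟨g, hg, hgx⟩ := h1 x hx c hc1
      exact ⟨g, fun z hz => hg z (fun h => hz (Or.inl h)), hgx⟩
    · obtain ⟨g, hg, hgx⟩ := h2 x hx c hc2
      exact ⟨g, fun z hz => hg z (fun h => hz (Or.inr h)), hgx⟩
  intro x hx y hy
  obtain ⟨g, hg, hgx⟩ := key x hx
  obtain ⟨k, hk, hky⟩ := key y hy
  refine ⟨k⁻¹ * g, ?_, ?_⟩
  · intro z hz
    rw [mul_smul, hg z hz, inv_smul_eq_iff, hk z hz]
  · rw [mul_smul, hgx, inv_smul_eq_iff, hky]

lemma mem_smul_of_mem {S : Set Ω} (g : G) {s : Ω} (hs : s ∈ S) : g • s ∈ g • S :=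
  ⟨s, hs, rfl⟩

lemma notMem_smul_of_notMem {S : Set Ω} (g : G) {s : Ω} (hs : s ∉ S) : g • s ∉ g • S := by
  rintro ⟨t, ht, hts⟩
  exact hs ((MulAction.injective g hts) ▸ ht)

lemma three_trans (h2 : ∀ a b c d : Ω, a ≠ b → c ≠ d → ∃ g : G, g • a = c ∧ g • b = d)
    (J : Set Ω) (hJ : IsJ G J) (α β : Ω) (hαβ : α ≠ β) (hJc : ∀ z, z ∉ J ↔ z = α ∨ z = β) :
    MulAction.IsMultiplyPretransitive G Ω 3 := by
  rw [MulAction.isMultiplyPretransitive_iff]
  intro x y
  have hx01 : x 0 ≠ x 1 := fun h => by simpa using x.injective h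
  have hx02 : x 0 ≠ x 2 := fun h => by simpa using x.injective h
  have hx12 : x 1 ≠ x 2 := fun h => by simpa using x.injective h
  have hy01 : y 0 ≠ y 1 := fun h => by simpa using y.injective h
  have hy02 : y 0 ≠ y 2 := fun h => by simpa using y.injective h
  have hy12 : y 1 ≠ y 2 := fun h => by simpa using y.injective h
  obtain ⟨g1, hg10, hg11⟩ := h2 (x 0) (x 1) α β hx01 hαβ
  obtain ⟨g2, hg20, hg21⟩ := h2 (y 0) (y 1) α β hy01 hαβ
  have hx2 : g1 • x 2 ∈ J := by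
    by_contra h
    rcases (hJc _).mp h with h | h
    · exact hx02 (MulAction.injective g1 (hg10.trans h.symm))
    · exact hx12 (MulAction.injective g1 (hg11.trans h.symm))
  have hy2 : g2 • y 2 ∈ J := by
    by_contra h
    rcases (hJc _).mp h with h | h
    · exact hy02 (MulAction.injective g2 (hg20.trans h.symm))
    · exact hy12 (MulAction.injective g2 (hg21.trans h.symm))
  obtain ⟨k, hk, hk2⟩ := hJ _ hx2 _ hy2
  have hkα : k • α = α := hk α ((hJc α).mpr (Or.inl rfl))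
  have hkβ : k • β = β := hk β ((hJc β).mpr (Or.inr rfl))
  refine ⟨g2⁻¹ * k * g1, ?_⟩
  ext i
  rw [Function.Embedding.smul_apply, mul_smul, mul_smul, inv_smul_eq_iff]
  fin_cases i
  · show k • g1 • x 0 = g2 • y 0
    rw [hg10, hkα, hg20]
  · show k • g1 • x 1 = g2 • y 1
    rw [hg11, hkβ, hg21]
  · show k • g1 • x 2 = g2 • y 2
    exact hk2

omit [Group G] [MulAction G Ω] in
lemma ncard_add_two_le [Finite Ω] (U : Set Ω) (z1 z2 : Ω) (h : z1 ≠ z2) (h1 : z1 ∉ U)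
    (h2 : z2 ∉ U) : U.ncard + 2 ≤ Nat.card Ω := by
  have hsub : ({z1, z2} : Set Ω) ⊆ Uᶜ := by
    rintro z (rfl | rfl)
    · exact h1
    · exact h2
  have := Set.ncard_le_ncard hsub
  rw [Set.ncard_pair h] at this
  have h3 := Set.ncard_add_ncard_compl U
  omega

omit [Group G] [MulAction G Ω] in
lemma ncard_add_one_le [Finite Ω] (U : Set Ω) (z : Ω) (h1 : z ∉ U) :
    U.ncard + 1 ≤ Nat.card Ω := by
  have hsub : ({z} : Set Ω) ⊆ Uᶜ := by
    rintro z rfl
    exact h1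
  have := Set.ncard_le_ncard hsub
  rw [Set.ncard_singleton] at this
  have h3 := Set.ncard_add_ncard_compl U
  omega

/-- The key combinatorial statement: there is a Jordan set whose complement has two points. -/
theorem exists_big_jordan [Finite Ω]
    (h2T : ∀ a b c d : Ω, a ≠ b → c ≠ d → ∃ g : G, g • a = c ∧ g • b = d)
    (Γ : Set Ω) (hΓ : IsJ G Γ) (h1 : 1 < Γ.ncard) (h2 : 2 * Γ.ncard ≤ Nat.card Ω) :
    ∃ J : Set Ω, IsJ G J ∧ J.ncard + 2 = Nat.card Ω := by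
  classical
  set n := Nat.card Ω with hn
  set m := Γ.ncard with hm
  let 𝒥 : Set (Set Ω) := {J | IsJ G J ∧ J.ncard + 2 ≤ n}
  have h𝒥ne : 𝒥.Nonempty := ⟨Γ, hΓ, by omega⟩
  obtain ⟨S, hS, hSmax⟩ := Set.exists_max_image 𝒥 Set.ncard (Set.toFinite 𝒥) h𝒥ne
  by_contra hcon
  set k := S.ncard with hk
  have hSJ : IsJ G S := hS.1
  have hk3 : k + 3 ≤ n := by
    have := hS.2
    by_contra h
    exact hcon ⟨S, hS.1, by omega⟩
  have hmk : m ≤ k := hSmax Γ ⟨hΓ, by omega⟩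
  have hcard_smul : ∀ g : G, (g • S).ncard = k := fun g => Set.ncard_smul_set g S
  have hJsmul : ∀ g : G, IsJ G (g • S) := fun g => hSJ.smul g
  -- maximality
  have hM : ∀ (g : G) (J : Set Ω), IsJ G J → (J ∩ g • S).Nonempty →
      J ⊆ g • S ∨ n ≤ (J ∪ g • S).ncard + 1 := by
    intro g J hJ hne
    by_contra hc
    push Not at hc
    obtain ⟨hnsub, hlt⟩ := hc
    have hU : IsJ G (J ∪ g • S) := hJ.union (hJsmul g) hne
    have hle : (J ∪ g • S).ncard ≤ k := hSmax (J ∪ g • S) ⟨hU, by omega⟩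
    have heq : g • S = J ∪ g • S :=
      Set.eq_of_subset_of_ncard_le Set.subset_union_right (by rw [hcard_smul]; exact hle)
    apply hnsub
    rw [heq]; exact Set.subset_union_left
  -- points
  obtain ⟨α, γ, hα, hγ, hαγ⟩ := (Set.one_lt_ncard_iff).mp (show 1 < S.ncard by omega)
  have hcompl : Sᶜ.ncard = n - k := Set.ncard_compl S
  obtain ⟨δ1, δ2, δ3, hδ1, hδ2, hδ3, hδ12, hδ13, hδ23⟩ :=
    (Set.two_lt_ncard_iff).mp (show 2 < Sᶜ.ncard by omega)
  rcases Nat.lt_or_ge n (2 * k) with hB | hA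
  · -- Case B : n < 2 k
    -- two translates missing two common points coincide
    have hB1 : ∀ g g' : G, ∀ z1 z2 : Ω, z1 ≠ z2 → z1 ∉ g • S → z2 ∉ g • S → z1 ∉ g' • S →
        z2 ∉ g' • S → g • S = g' • S := by
      intro g g' z1 z2 hz h1 h2' h3 h4
      have hne : (g • S ∩ g' • S).Nonempty := by
        rw [← Set.ncard_pos]
        have e1 := Set.ncard_union_add_ncard_inter (g • S) (g' • S)
        have e2 := Set.ncard_le_card (g • S ∪ g' • S)
        rw [hcard_smul, hcard_smul] at e1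
        omega
      rcases hM g' (g • S) (hJsmul g) hne with h | h
      · exact Set.eq_of_subset_of_ncard_le h (by rw [hcard_smul, hcard_smul])
      · exfalso
        have := ncard_add_two_le (g • S ∪ g' • S) z1 z2 hz
          (fun hh => hh.elim h1 h3) (fun hh => hh.elim h2' h4)
        omega
    -- n ≤ m + k
    have hB2 : n ≤ m + k := by
      obtain ⟨x, x', hx, hx', hxx'⟩ := (Set.one_lt_ncard_iff).mp h1
      obtain ⟨g, hg1, hg2⟩ := h2T δ1 α x x' (fun h => hδ1 (h ▸ hα)) hxx'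
      have hxn : x ∉ g • S := hg1 ▸ notMem_smul_of_notMem g hδ1
      have hx'm : x' ∈ g • S := hg2 ▸ mem_smul_of_mem g hα
      rcases hM g Γ hΓ ⟨x', hx', hx'm⟩ with h | h
      · exact absurd (h hx) hxn
      · have e1 := Set.ncard_union_add_ncard_inter Γ (g • S)
        have e2 : 0 < (Γ ∩ g • S).ncard := (Set.ncard_pos).mpr ⟨x', hx', hx'm⟩
        rw [hcard_smul] at e1
        omega
    have hB3 : ∀ g : G, (∃ x ∈ Γ, x ∉ g • S) → ∀ y y' : Ω, y ∉ Γ → y ∉ g • S → y' ∉ Γ →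
        y' ∉ g • S → y = y' := by
      rintro g ⟨x, hx, hxg⟩ y y' hy hyg hy' hy'g
      by_contra hne
      by_cases hint : (Γ ∩ g • S).Nonempty
      · rcases hM g Γ hΓ hint with h | h
        · exact hxg (h hx)
        · have := ncard_add_two_le (Γ ∪ g • S) y y' hne
            (fun hh => hh.elim hy hyg) (fun hh => hh.elim hy' hy'g)
          omega
      · have e1 := Set.ncard_union_add_ncard_inter Γ (g • S)
        rw [Set.not_nonempty_iff_eq_empty] at hint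
        rw [hint, Set.ncard_empty, hcard_smul] at e1
        have := ncard_add_one_le (Γ ∪ g • S) y (fun hh => hh.elim hy hyg)
        omega
    obtain ⟨x, hx⟩ : Γ.Nonempty := by
      rw [← Set.ncard_pos]; omega
    have hex : ∀ y : Ω, y ∉ Γ → ∃ z : Ω, ∃ g : G, x ∉ g • S ∧ y ∉ g • S ∧ z ∉ g • S ∧
        z ≠ x ∧ z ≠ y := by
      intro y hy
      have hxy : x ≠ y := fun h => hy (h ▸ hx)
      obtain ⟨g, hg1, hg2⟩ := h2T δ1 δ2 x y hδ12 hxy
      have hxn : x ∉ g • S := hg1 ▸ notMem_smul_of_notMem g hδ1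
      have hyn : y ∉ g • S := hg2 ▸ notMem_smul_of_notMem g hδ2
      have hc : (g • S)ᶜ.ncard = n - k := by
        rw [Set.ncard_compl, hcard_smul]
      have hlt : ({x, y} : Set Ω).ncard < (g • S)ᶜ.ncard := by
        rw [Set.ncard_pair hxy, hc]; omega
      obtain ⟨z, hz, hzn⟩ := Set.exists_mem_notMem_of_ncard_lt_ncard hlt
      refine ⟨z, g, hxn, hyn, hz, ?_, ?_⟩
      · intro h; exact hzn (by rw [h]; simp)
      · intro h; exact hzn (by rw [h]; simp)
    choose f gf hf1 hf2 hf3 hf4 hf5 using hex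
    have hfΓ : ∀ (y : Ω) (hy : y ∉ Γ), f y hy ∈ Γ := by
      intro y hy
      by_contra hz
      exact hf5 y hy (hB3 (gf y hy) ⟨x, hx, hf1 y hy⟩ _ _ hz (hf3 y hy) hy (hf2 y hy))
    let f' : Ω → Ω := fun y => if hy : y ∉ Γ then f y hy else x
    have hle : Γᶜ.ncard ≤ (Γ \ {x}).ncard := by
      apply Set.ncard_le_ncard_of_injOn f'
      · intro y hy
        have hy' : y ∉ Γ := hy
        show f' y ∈ Γ \ {x}
        simp only [f', dif_pos hy']
        exact ⟨hfΓ y hy', hf4 y hy'⟩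
      · intro y hy y' hy' hyy'
        have hy1 : y ∉ Γ := hy
        have hy2 : y' ∉ Γ := hy'
        simp only [f', dif_pos hy1, dif_pos hy2] at hyy'
        have heq : gf y hy1 • S = gf y' hy2 • S :=
          hB1 _ _ x (f y hy1) (Ne.symm (hf4 y hy1)) (hf1 y hy1) (hf3 y hy1) (hf1 y' hy2)
            (hyy' ▸ hf3 y' hy2)
        exact hB3 (gf y hy1) ⟨x, hx, hf1 y hy1⟩ y y' hy1 (hf2 y hy1) hy2
          (heq ▸ hf2 y' hy2)
    rw [Set.ncard_compl, Set.ncard_sdiff_singleton_of_mem hx] at hle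
    omega
  · -- Case A : 2 k ≤ n
    have hA1 : ∀ g g' : G, (g • S ∩ g' • S).Nonempty → ¬ (g • S ⊆ g' • S) →
        (g • S ∩ g' • S).ncard = 1 ∧ 2 * k = n ∧ (g • S ∪ g' • S).ncard + 1 = n := by
      intro g g' hne hns
      rcases hM g' (g • S) (hJsmul g) hne with h | h
      · exact absurd h hns
      · have e1 := Set.ncard_union_add_ncard_inter (g • S) (g' • S)
        have e2 : 0 < (g • S ∩ g' • S).ncard := (Set.ncard_pos).mpr hne
        rw [hcard_smul, hcard_smul] at e1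
        omega
    have hone : (1 : G) • S = S := one_smul G S
    obtain ⟨g1, hg1α, hg1γ⟩ := h2T α γ α δ1 hαγ (fun h => hδ1 (h ▸ hα))
    have hα1 : α ∈ g1 • S := hg1α ▸ mem_smul_of_mem g1 hα
    have hδ1' : δ1 ∈ g1 • S := hg1γ ▸ mem_smul_of_mem g1 hγ
    obtain ⟨hc1, hkn, hu1⟩ := hA1 g1 1 ⟨α, hα1, by rw [hone]; exact hα⟩
      (fun h => hδ1 (by have := h hδ1'; rwa [hone] at this))
    rw [hone] at hc1 hu1
    have hint1 : ∀ z, z ∈ g1 • S → z ∈ S → z = α := by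
      intro z hz1 hz2
      obtain ⟨a, ha⟩ := Set.ncard_eq_one.mp hc1
      have h1 : z ∈ ({a} : Set Ω) := ha ▸ ⟨hz1, hz2⟩
      have h2 : α ∈ ({a} : Set Ω) := ha ▸ ⟨hα1, hα⟩
      rw [Set.mem_singleton_iff] at h1 h2
      rw [h1, h2]
    -- the unique point outside the union
    have hcu : (g1 • S ∪ S)ᶜ.ncard = 1 := by
      rw [Set.ncard_compl]; omega
    obtain ⟨ω, hω⟩ := Set.ncard_eq_one.mp hcu
    have hω1 : ω ∉ g1 • S ∪ S := by
      have : ω ∈ (g1 • S ∪ S)ᶜ := by rw [hω]; rfl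
      exact this
    have hωuniq : ∀ z, z ∉ g1 • S → z ∉ S → z = ω := by
      intro z hz1 hz2
      have : z ∈ (g1 • S ∪ S)ᶜ := fun hh => hh.elim hz1 hz2
      rw [hω] at this
      exact this
    have hωS : ω ∉ S := fun h => hω1 (Or.inr h)
    have hωg1 : ω ∉ g1 • S := fun h => hω1 (Or.inl h)
    obtain ⟨g2, hg2α, hg2γ⟩ := h2T α γ α ω hαγ (fun h => hωS (h ▸ hα))
    have hα2 : α ∈ g2 • S := hg2α ▸ mem_smul_of_mem g2 hα
    have hω2 : ω ∈ g2 • S := hg2γ ▸ mem_smul_of_mem g2 hγ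
    obtain ⟨hc2, -, -⟩ := hA1 g2 1 ⟨α, hα2, by rw [hone]; exact hα⟩
      (fun h => hωS (by have := h hω2; rwa [hone] at this))
    rw [hone] at hc2
    obtain ⟨hc3, -, -⟩ := hA1 g2 g1 ⟨α, hα2, hα1⟩ (fun h => hωg1 (h hω2))
    have hint2 : ∀ z, z ∈ g2 • S → z ∈ S → z = α := by
      intro z hz1 hz2
      obtain ⟨a, ha⟩ := Set.ncard_eq_one.mp hc2
      have h1 : z ∈ ({a} : Set Ω) := ha ▸ ⟨hz1, hz2⟩
      have h2 : α ∈ ({a} : Set Ω) := ha ▸ ⟨hα2, hα⟩
      rw [Set.mem_singleton_iff] at h1 h2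
      rw [h1, h2]
    have hint3 : ∀ z, z ∈ g2 • S → z ∈ g1 • S → z = α := by
      intro z hz1 hz2
      obtain ⟨a, ha⟩ := Set.ncard_eq_one.mp hc3
      have h1 : z ∈ ({a} : Set Ω) := ha ▸ ⟨hz1, hz2⟩
      have h2 : α ∈ ({a} : Set Ω) := ha ▸ ⟨hα2, hα1⟩
      rw [Set.mem_singleton_iff] at h1 h2
      rw [h1, h2]
    have hsub : g2 • S ⊆ ({α, ω} : Set Ω) := by
      intro z hz
      by_cases hzS : z ∈ S
      · exact Or.inl (hint2 z hz hzS)
      · by_cases hzg : z ∈ g1 • S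
        · exact Or.inl (hint3 z hz hzg)
        · exact Or.inr (hωuniq z hzg hzS)
    have hle := Set.ncard_le_ncard hsub
    rw [hcard_smul] at hle
    have hpair : ({α, ω} : Set Ω).ncard ≤ 2 := by
      have := Set.ncard_insert_le α ({ω} : Set Ω)
      rw [Set.ncard_singleton] at this
      exact this
    omega

end

/-- Let G be a finite primitive permutation group on Ω of degree n and Γ ⊂ Ω a subset with 1 < #Γ ≤ n/2 such that the pointwise stabilizer of Ω ∖ Γ is transitive on Γ. Then G is 3-transitive on Ω. -/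
theorem result {G Ω : Type*} [Group G] [Finite G] [MulAction G Ω] [FaithfulSMul G Ω] [Finite Ω] (hprim : MulAction.IsPreprimitive G Ω) (Γ : Set Ω) (h1 : 1 < Γ.ncard) (h2 : 2 * Γ.ncard ≤ Nat.card Ω) (htr : ∀ x ∈ Γ, ∀ y ∈ Γ, ∃ g : G, (∀ z ∉ Γ, g • z = z) ∧ g • x = y) : MulAction.IsMultiplyPretransitive G Ω 3 := by
  classical
  have h2T : MulAction.IsMultiplyPretransitive G Ω 2 := by
    have hc := Set.ncard_add_ncard_compl Γ
    have hs : (Γᶜ).ncard = (Nat.card Ω - Γ.ncard - 1) + 1 := by omega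
    refine hprim.is_two_pretransitive hs (by omega) ?_
    constructor
    rintro ⟨x, hx⟩ ⟨y, hy⟩
    have hx' : x ∈ Γ := by
      by_contra h; exact hx h
    have hy' : y ∈ Γ := by
      by_contra h; exact hy h
    obtain ⟨g, hg, hgx⟩ := htr x hx' y hy'
    refine ⟨⟨g, ?_⟩, ?_⟩
    · rw [mem_fixingSubgroup_iff]; intro z hz; exact hg z hz
    · apply Subtype.ext; exact hgx
  have h2' : ∀ a b c d : Ω, a ≠ b → c ≠ d → ∃ g : G, g • a = c ∧ g • b = d :=
    fun a b c d hab hcd => MulAction.is_two_pretransitive_iff.mp h2T hab hcd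
  obtain ⟨J, hJ, hJn⟩ := exists_big_jordan h2' Γ htr h1 h2
  have hc := Set.ncard_add_ncard_compl J
  have hJc2 : Jᶜ.ncard = 2 := by omega
  obtain ⟨α, β, hαβ, hJc⟩ := Set.ncard_eq_two.mp hJc2
  refine three_trans h2' J hJ α β hαβ ?_
  intro z
  have : z ∉ J ↔ z ∈ Jᶜ := Iff.rfl
  rw [this, hJc]
  simp

end Cfsg.Agent.S3707
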