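import Mathlib
import Cfsg.Statements.S3733

set_option autoImplicit false
open Cfsg

namespace Cfsg.Agent.S3733

section
variable {G : Type*} [Group G] (V : Subgroup G)

/-- conjugation by a normalizing element as a monoid hom of `V` -/
def cjHom (a : G) (ha : a ∈ Subgroup.normalizer (V : Set G)) : V →* V where
  toFun v := ⟨a * v * a⁻¹, (Subgroup.mem_normalizer_iff.mp ha v).mp v.2⟩
  map_one' := by ext; simp
  map_mul' x y := by ext; simp [mul_assoc]

open scoped Classical in
/-- conjugation, totalized -/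
noncomputable def cj (a : G) : V →* V :=
  if ha : a ∈ Subgroup.normalizer (V : Set G) then cjHom V a ha else MonoidHom.id V

lemma cj_coe (a : G) (ha : a ∈ Subgroup.normalizer (V : Set G)) (v : V) :
    (cj V a v : G) = a * v * a⁻¹ := by
  unfold cj; rw [dif_pos ha]; rfl

lemma cj_one (v : V) : cj V 1 v = v := by
  apply Subtype.ext
  rw [cj_coe V 1 (Subgroup.one_mem _)]; simp

lemma cj_mul (a b : G) (ha : a ∈ Subgroup.normalizer (V : Set G))
    (hb : b ∈ Subgroup.normalizer (V : Set G)) (v : V) :
    cj V (a * b) v = cj V a (cj V b v) := by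
  apply Subtype.ext
  rw [cj_coe V _ (Subgroup.mul_mem _ ha hb), cj_coe V a ha, cj_coe V b hb]
  simp [mul_assoc]

end

open scoped IsMulCommutative in
open scoped Classical in
theorem main {G : Type*} [Group G] [Fintype G] (A V : Subgroup G) (hVab : IsMulCommutative V)
    (hAV : A ≤ Subgroup.normalizer (V : Set G)) (𝒜 : Finset (Subgroup G)) (hne : 𝒜.Nonempty)
    (hprop : ∀ B ∈ 𝒜, B < A) (hpart : ∀ a ∈ A, a ≠ 1 → ∃! B, B ∈ 𝒜 ∧ a ∈ B)
    (hcon : ∀ B ∈ 𝒜, V ⊓ Subgroup.centralizer (B : Set G) = ⊥) (v : V) :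
    v ^ (𝒜.card - 1) = 1 := by
  -- the trace
  let T : Subgroup G → V := fun B => ∏ b ∈ Finset.univ.filter (· ∈ B), cj V b v
  -- Claim 1
  have claim1 : ∀ B : Subgroup G, B ≤ A → ∀ x ∈ B, cj V x (T B) = T B := by
    intro B hBA x hx
    show cj V x (∏ b ∈ Finset.univ.filter (· ∈ B), cj V b v) = _
    rw [map_prod]
    refine Finset.prod_equiv (Equiv.mulLeft x) ?_ ?_
    · intro b
      simp only [Finset.mem_filter, Finset.mem_univ, true_and, Equiv.coe_mulLeft]
      exact ⟨fun hb => B.mul_mem hx hb, fun hb => (Subgroup.mul_mem_cancel_left B hx).mp hb⟩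
    · intro b hb
      simp only [Finset.mem_filter, Finset.mem_univ, true_and] at hb
      simp only [Equiv.coe_mulLeft]
      exact (cj_mul V x b (hAV (hBA hx)) (hAV (hBA hb)) v).symm
  -- Claim 2
  have claim2 : ∀ B : Subgroup G, B ≤ A → V ⊓ Subgroup.centralizer (B : Set G) = ⊥ → T B = 1 := by
    intro B hBA hB
    have hmem : (T B : G) ∈ V ⊓ Subgroup.centralizer (B : Set G) := by
      refine Subgroup.mem_inf.mpr ⟨(T B).2, ?_⟩
      rw [Subgroup.mem_centralizer_iff]
      intro x hx
      have h1 := congrArg (Subtype.val) (claim1 B hBA x hx)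
      rw [cj_coe V x (hAV (hBA hx))] at h1
      calc x * (T B : G) = x * (T B : G) * x⁻¹ * x := by group
        _ = (T B : G) * x := by rw [h1]
    rw [hB, Subgroup.mem_bot] at hmem
    exact Subtype.ext hmem
  -- Claim 3
  have claim3 : ∏ B ∈ 𝒜, T B = T A * v ^ (𝒜.card - 1) := by
    have hT : ∀ B : Subgroup G, T B = ∏ b : G, if b ∈ B then cj V b v else 1 := by
      intro B
      show ∏ b ∈ Finset.univ.filter (· ∈ B), cj V b v = _
      rw [Finset.prod_filter]
    have hv : v ^ (𝒜.card - 1) = ∏ b : G, if b = 1 then v ^ (𝒜.card - 1) else 1 := by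
      rw [Finset.prod_ite_eq' Finset.univ (1 : G) (fun _ => v ^ (𝒜.card - 1))]
      simp
    rw [Finset.prod_congr rfl (fun B _ => hT B), Finset.prod_comm, hT A, hv,
      ← Finset.prod_mul_distrib]
    apply Finset.prod_congr rfl
    intro b _
    by_cases hb1 : b = 1
    · subst hb1
      simp only [Subgroup.one_mem, if_true, cj_one, Finset.prod_const]
      rw [← pow_succ']
      congr 1
      have := Finset.card_pos.mpr hne
      omega
    · rw [if_neg hb1, mul_one]
      by_cases hbA : b ∈ A
      · rw [if_pos hbA]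
        obtain ⟨B0, ⟨hB0, hbB0⟩, huniq⟩ := hpart b hbA hb1
        rw [Finset.prod_eq_single B0]
        · rw [if_pos hbB0]
        · intro B hB hne'
          rw [if_neg]
          intro hbB
          exact hne' (huniq B ⟨hB, hbB⟩)
        · intro h; exact absurd hB0 h
      · rw [if_neg hbA]
        apply Finset.prod_eq_one
        intro B hB
        rw [if_neg]
        intro hbB
        exact hbA ((hprop B hB).le hbB)
  obtain ⟨B0, hB0⟩ := hne
  have hA0 : V ⊓ Subgroup.centralizer (A : Set G) = ⊥ := by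
    rw [eq_bot_iff, ← hcon B0 hB0]
    exact inf_le_inf_left _ (Subgroup.centralizer_le (hprop B0 hB0).le)
  rw [claim2 A le_rfl hA0, one_mul,
    Finset.prod_eq_one (fun B hB => claim2 B (hprop B hB).le (hcon B hB))] at claim3
  exact claim3.symm

/-- Let A and V be subgroups of a finite group with V abelian and nontrivial and A normalizing V. Suppose a nonempty finite family of proper subgroups of A partitions A: every non-identity element of A lies in exactly one member. If the number of members minus one is coprime to the order of V, then some member B of the family has a non-identity fixed point on V, that is V ∩ C(B) ≠ 1. -/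
theorem result {G : Type*} [Group G] [Finite G] (A V : Subgroup G) (hVab : IsMulCommutative V) (hV : V ≠ ⊥) (hAV : A ≤ Subgroup.normalizer (V : Set G)) (𝒜 : Finset (Subgroup G)) (hne : 𝒜.Nonempty) (hprop : ∀ B ∈ 𝒜, B < A) (hpart : ∀ a ∈ A, a ≠ 1 → ∃! B, B ∈ 𝒜 ∧ a ∈ B) (hk : (𝒜.card - 1).Coprime (Nat.card V)) : ∃ B ∈ 𝒜, V ⊓ Subgroup.centralizer (B : Set G) ≠ ⊥ := by
  by_contra hcon
  push Not at hcon
  have : Fintype G := Fintype.ofFinite G
  apply hV
  rw [Subgroup.eq_bot_iff_forall]
  intro x hx
  have h1 := main A V hVab hAV 𝒜 hne hprop hpart hcon ⟨x, hx⟩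
  have h2 : orderOf (⟨x, hx⟩ : V) ∣ 𝒜.card - 1 := orderOf_dvd_of_pow_eq_one h1
  have h3 : orderOf (⟨x, hx⟩ : V) ∣ Nat.card V := orderOf_dvd_natCard _
  have h4 : orderOf (⟨x, hx⟩ : V) = 1 := Nat.eq_one_of_dvd_coprimes hk h2 h3
  have h5 := orderOf_eq_one_iff.mp h4
  exact congrArg Subtype.val h5

end Cfsg.Agent.S3733
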