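import Cfsg.Statements.S3735

set_option autoImplicit false
open Cfsg

namespace Cfsg.Agent.S3735

variable {G : Type*} [Group G]

/-- `X` is invariant under conjugation by `K`. -/
def Inv (K X : Subgroup G) : Prop := ∀ k ∈ K, ∀ x ∈ X, k * x * k⁻¹ ∈ X

lemma inv_iff (K X : Subgroup G) : K ≤ Subgroup.normalizer (X : Set G) ↔ Inv K X :=
  Subgroup.le_normalizer_iff

lemma Inv.sup {K X Y : Subgroup G} (hX : Inv K X) (hY : Inv K Y) : Inv K (X ⊔ Y) := by
  intro k hk
  have h : X ⊔ Y ≤ (X ⊔ Y).comap (MulAut.conj k).toMonoidHom := by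
    refine sup_le (fun x hx => ?_) (fun x hx => ?_)
    · simpa using Subgroup.mem_sup_left (hX k hk x hx)
    · simpa using Subgroup.mem_sup_right (hY k hk x hx)
  intro x hx
  simpa using h hx

lemma Inv.inf {K X Y : Subgroup G} (hX : Inv K X) (hY : Inv K Y) : Inv K (X ⊓ Y) :=
  fun k hk x hx => ⟨hX k hk x hx.1, hY k hk x hx.2⟩

lemma Inv.mono {K K' X : Subgroup G} (h : K' ≤ K) (hX : Inv K X) : Inv K' X :=
  fun k hk x hx => hX k (h hk) x hx

lemma Inv.conj {H A : Subgroup G} (hAn : Inv H A) {h : G} (hh : h ∈ H) {M : Subgroup G}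
    (hM : Inv A M) : Inv A (M.map (MulAut.conj h).toMonoidHom) := by
  rintro a ha _ ⟨x, hx, rfl⟩
  refine ⟨(h⁻¹ * a * h) * x * (h⁻¹ * a * h)⁻¹, hM _ ?_ x hx, ?_⟩
  · have := hAn h⁻¹ (H.inv_mem hh) a ha
    simpa using this
  · simp only [MulEquiv.coe_toMonoidHom, MulAut.conj_apply]
    group

/-- minimal nontrivial `A`-invariant subgroup -/
def IsMin (A M : Subgroup G) : Prop :=
  M ≠ ⊥ ∧ Inv A M ∧ ∀ M' : Subgroup G, M' ≤ M → Inv A M' → M' = ⊥ ∨ M' = M

lemma exists_min [Finite G] (A W : Subgroup G) (hW : W ≠ ⊥) (hAW : Inv A W) :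
    ∃ M, M ≤ W ∧ IsMin A M := by
  classical
  let S : Set (Subgroup G) := {M | M ≤ W ∧ M ≠ ⊥ ∧ Inv A M}
  have hne : S.Nonempty := ⟨W, le_rfl, hW, hAW⟩
  obtain ⟨M, hM, hmin⟩ := S.toFinite.exists_minimal hne
  refine ⟨M, hM.1, hM.2.1, hM.2.2, ?_⟩
  intro M' hM'le hM'A
  by_cases h0 : M' = ⊥
  · exact Or.inl h0
  · right
    have hM'S : M' ∈ S := ⟨hM'le.trans hM.1, h0, hM'A⟩
    exact le_antisymm hM'le (hmin hM'S hM'le)

lemma mem_sup_of_comm {V W M : Subgroup G} (hVab : IsMulCommutative V) (hWV : W ≤ V) (hMV : M ≤ V)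
    {x : G} (hx : x ∈ W ⊔ M) : ∃ w ∈ W, ∃ m ∈ M, x = w * m := by
  have hcomm : ∀ a ∈ V, ∀ b ∈ V, a * b = b * a := by
    intro a ha b hb
    have := hVab.is_comm.comm ⟨a, ha⟩ ⟨b, hb⟩
    exact congrArg Subtype.val this
  have hLE : W ≤ Subgroup.normalizer (M : Set G) := by
    rw [Subgroup.le_normalizer_iff]
    intro w hw m hm
    have : w * m * w⁻¹ = m := by
      rw [hcomm w (hWV hw) m (hMV hm)]; group
    rw [this]; exact hm
  have h := Subgroup.coe_mul_of_left_le_normalizer_right W M hLE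
  have hx' : x ∈ ((W ⊔ M : Subgroup G) : Set G) := hx
  rw [h] at hx'
  obtain ⟨w, hw, m, hm, rfl⟩ := hx'
  exact ⟨w, hw, m, hm, rfl⟩

theorem main [Finite G] (H A V : Subgroup G) (hVab : IsMulCommutative V) (hHV : Inv H V)
    (hAH : A ≤ H) (hAn : Inv H A)
    (hss : ∀ U : Subgroup G, U ≤ V → Inv H U →
      ∃ W : Subgroup G, W ≤ V ∧ Inv H W ∧ U ⊓ W = ⊥ ∧ U ⊔ W = V)
    (U : Subgroup G) (hUV : U ≤ V) (hAU : Inv A U) :
    ∃ W : Subgroup G, W ≤ V ∧ Inv A W ∧ U ⊓ W = ⊥ ∧ U ⊔ W = V := by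
  classical
  -- Step 1: `V` is generated by minimal `A`-invariant subgroups
  set 𝒮 : Set (Subgroup G) := {M | M ≤ V ∧ IsMin A M} with h𝒮
  set S := sSup 𝒮 with hS
  have hSV : S ≤ V := sSup_le (fun M hM => hM.1)
  have hconj : ∀ h ∈ H, ∀ M ∈ 𝒮, M.map (MulAut.conj h).toMonoidHom ∈ 𝒮 := by
    rintro h hh M ⟨hMV, hM0, hMA, hMmin⟩
    refine ⟨?_, ?_, hAn.conj hh hMA, ?_⟩
    · rintro _ ⟨x, hx, rfl⟩
      simpa using hHV h hh x (hMV hx)
    · intro hbot
      apply hM0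
      exact (Subgroup.map_eq_bot_iff_of_injective _ (MulAut.conj h).injective).mp hbot
    · intro M' hM'le hM'A
      have hinv : ∀ y : G, (MulAut.conj h⁻¹) ((MulAut.conj h) y) = y := by
        intro y; simp only [MulAut.conj_apply]; group
      have hinv' : ∀ y : G, (MulAut.conj h) ((MulAut.conj h⁻¹) y) = y := by
        intro y; simp only [MulAut.conj_apply]; group
      have h1 : M'.map (MulAut.conj h⁻¹).toMonoidHom ≤ M := by
        rintro _ ⟨y, hy, rfl⟩
        obtain ⟨x, hx, rfl⟩ := hM'le hy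
        simp only [MulEquiv.coe_toMonoidHom]
        rw [hinv]; exact hx
      have h2 : Inv A (M'.map (MulAut.conj h⁻¹).toMonoidHom) := hAn.conj (H.inv_mem hh) hM'A
      rcases hMmin _ h1 h2 with h3 | h3
      · left
        exact (Subgroup.map_eq_bot_iff_of_injective _ (MulAut.conj h⁻¹).injective).mp h3
      · right
        rw [← h3]
        ext y
        constructor
        · intro hy
          refine ⟨(MulAut.conj h⁻¹) y, ⟨y, hy, rfl⟩, ?_⟩
          simp only [MulEquiv.coe_toMonoidHom]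
          exact hinv' y
        · rintro ⟨_, ⟨z, hz, rfl⟩, rfl⟩
          simp only [MulEquiv.coe_toMonoidHom]
          rw [hinv']; exact hz
  have hSinv : Inv H S := by
    intro h hh
    have : S ≤ S.comap (MulAut.conj h).toMonoidHom := by
      apply sSup_le
      intro M hM
      rw [← Subgroup.map_le_iff_le_comap]
      exact le_sSup (hconj h hh M hM)
    intro x hx
    simpa using this hx
  obtain ⟨W0, hW0V, hW0H, hSW0, hSW0V⟩ := hss S hSV hSinv
  have hW0 : W0 = ⊥ := by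
    by_contra hne
    obtain ⟨M, hMW, hMmin⟩ := exists_min A W0 hne (hW0H.mono hAH)
    have hMS : M ≤ S := le_sSup ⟨hMW.trans hW0V, hMmin⟩
    have : M ≤ S ⊓ W0 := le_inf hMS hMW
    rw [hSW0] at this
    exact hMmin.1 (le_bot_iff.mp this)
  have hSeq : S = V := by rw [hW0, sup_bot_eq] at hSW0V; exact hSW0V
  -- Step 2: maximal complement
  let 𝒯 : Set (Subgroup G) := {W | W ≤ V ∧ Inv A W ∧ U ⊓ W = ⊥}
  have hne : 𝒯.Nonempty := ⟨⊥, bot_le, fun k _ x hx => by
    rw [Subgroup.mem_bot] at hx ⊢; subst hx; group, inf_bot_eq _⟩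
  obtain ⟨W, hW, hmax⟩ := 𝒯.toFinite.exists_maximal hne
  obtain ⟨hWV, hWA, hUW⟩ := hW
  refine ⟨W, hWV, hWA, hUW, ?_⟩
  apply le_antisymm (sup_le hUV hWV)
  rw [← hSeq]
  apply sSup_le
  rintro M ⟨hMV, hM0, hMA, hMmin⟩
  by_contra hnot
  have h1 : M ⊓ (U ⊔ W) = ⊥ := by
    rcases hMmin (M ⊓ (U ⊔ W)) inf_le_left (hMA.inf (hAU.sup hWA)) with h | h
    · exact h
    · exact absurd (h ▸ inf_le_right) hnot
  have h2 : W ⊔ M ∈ 𝒯 := by
    refine ⟨sup_le hWV hMV, hWA.sup hMA, ?_⟩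
    rw [eq_bot_iff]
    rintro x ⟨hxU, hxWM⟩
    obtain ⟨w, hw, m, hm, rfl⟩ := mem_sup_of_comm hVab hWV hMV hxWM
    have hmUW : m ∈ U ⊔ W := by
      have : m = w⁻¹ * (w * m) := by group
      rw [this]
      exact Subgroup.mul_mem _ (Subgroup.mem_sup_right (W.inv_mem hw)) (Subgroup.mem_sup_left hxU)
    have hm1 : m = 1 := by
      have : m ∈ M ⊓ (U ⊔ W) := ⟨hm, hmUW⟩
      rw [h1] at this
      exact this
    subst hm1
    rw [mul_one] at hxU ⊢
    have : w ∈ U ⊓ W := ⟨hxU, hw⟩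
    rw [hUW] at this
    exact this
  have h3 : W ⊔ M ≤ W := hmax h2 le_sup_left
  exact hnot ((le_sup_right.trans h3).trans le_sup_right)

/-- Clifford's Theorem for actions on finite abelian groups, first part. Let H and V be subgroups of a finite group with V abelian and H normalizing V, and let A be a normal subgroup of H. If every H-invariant subgroup of V has an H-invariant complement in V, then every A-invariant subgroup of V has an A-invariant complement in V. -/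
theorem result {G : Type*} [Group G] [Finite G] (H A V : Subgroup G) (hVab : IsMulCommutative V) (hHV : H ≤ Subgroup.normalizer (V : Set G)) (hAH : A ≤ H) (hAn : H ≤ Subgroup.normalizer (A : Set G)) (hss : ∀ U : Subgroup G, U ≤ V → H ≤ Subgroup.normalizer (U : Set G) → ∃ W : Subgroup G, W ≤ V ∧ H ≤ Subgroup.normalizer (W : Set G) ∧ U ⊓ W = ⊥ ∧ U ⊔ W = V) (U : Subgroup G) (hUV : U ≤ V) (hAU : A ≤ Subgroup.normalizer (U : Set G)) : ∃ W : Subgroup G, W ≤ V ∧ A ≤ Subgroup.normalizer (W : Set G) ∧ U ⊓ W = ⊥ ∧ U ⊔ W = V := by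
  simp only [inv_iff] at *
  exact main H A V hVab hHV hAH hAn hss U hUV hAU

end Cfsg.Agent.S3735
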