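import Mathlib
import Cfsg.Statements.S3737
import Cfsg.Agent.H1.PQLemma
import Cfsg.Agent.H1.Frattini
import Cfsg.Agent.H65.Baer

set_option autoImplicit false
open Cfsg

namespace Cfsg.Agent.S3737

open scoped commutatorElement
open Cfsg.Agent.H65

variable {X : Type*} [Group X]

/-- The class two case, by the Baer trick. -/
theorem class_two [Finite X] {p : ℕ} [Fact p.Prime] (hp : p ≠ 2) (P Q G : Subgroup X)
    (hP : IsPGroup p P) (hQ : (Nat.card Q).Coprime p)
    (hPQ : P ≤ Subgroup.normalizer (Q : Set X)) (hG : IsPGroup p G)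
    (hPG : P ≤ Subgroup.normalizer (G : Set X)) (hQG : Q ≤ Subgroup.normalizer (G : Set X))
    (hC : G ⊓ Subgroup.centralizer (P : Set X) ≤ Subgroup.centralizer (Q : Set X))
    (hcl : ⁅G, G⁆ ≤ Subgroup.centralizer (G : Set X)) :
    Q ≤ Subgroup.centralizer (G : Set X) := by
  classical
  have hp' : p.Prime := Fact.out
  obtain ⟨n, hn⟩ := IsPGroup.iff_card.mp hG
  have hodd : Odd (Nat.card G) := by
    rw [hn]; exact Odd.pow (hp'.odd_of_ne_two hp)
  obtain ⟨k0, hk0⟩ := hodd
  let d : BaerData ↥G :=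
    { k := k0 + 1
      hk := fun g => by
        have h : 2 * (k0 + 1) = Nat.card G + 1 := by omega
        rw [h, pow_succ, pow_card_eq_one', one_mul]
      hc := fun x y z => by
        apply Subtype.ext
        have h1 : ⁅(x : X), (y : X)⁆ ∈ ⁅G, G⁆ := Subgroup.commutator_mem_commutator x.2 y.2
        have h2 := Subgroup.mem_centralizer_iff.mp (hcl h1) z z.2
        exact h2.symm }
  have fq : Fintype Q := Fintype.ofFinite Q
  let cjQ : Q → (↥G →* ↥G) := fun q => (Cfsg.Agent.H1.conjNormalizer G q (hQG q.2)).toMonoidHom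
  let cjP : P → (↥G →* ↥G) := fun x => (Cfsg.Agent.H1.conjNormalizer G x (hPG x.2)).toMonoidHom
  let val : Baer d → X := fun w => (((toBaer d).symm w : ↥G) : X)
  have hvalinj : ∀ w w' : Baer d, val w = val w' → w = w' := fun w w' h => Subtype.ext h
  have hvalG : ∀ w : Baer d, val w ∈ G := fun w => ((toBaer d).symm w : ↥G).2
  have hvalQ : ∀ (q : Q) (w : Baer d), val (baerHom d (cjQ q) w) = q * val w * (q : X)⁻¹ :=
    fun q w => rfl
  have hvalP : ∀ (x : P) (w : Baer d), val (baerHom d (cjP x) w) = x * val w * (x : X)⁻¹ :=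
    fun x w => rfl
  let τ : Baer d →+ Baer d := ∑ q : Q, baerHom d (cjQ q)
  have hτ : ∀ w, τ w = ∑ q : Q, baerHom d (cjQ q) w := fun w =>
    AddMonoidHom.finsetSum_apply _ _ _
  let W : AddSubgroup (Baer d) := τ.ker
  have hinvW : ∀ (x : P) (w : Baer d), w ∈ W → baerHom d (cjP x) w ∈ W := by
    intro x w hw
    rw [AddMonoidHom.mem_ker] at hw ⊢
    rw [hτ]
    let e : Q ≃ Q :=
      { toFun := fun q => ⟨(x : X)⁻¹ * q * x, by
          have := (Subgroup.mem_normalizer_iff.mp (Subgroup.inv_mem _ (hPQ x.2)) q).mp q.2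
          simpa using this⟩
        invFun := fun q => ⟨(x : X) * q * (x : X)⁻¹,
          (Subgroup.mem_normalizer_iff.mp (hPQ x.2) q).mp q.2⟩
        left_inv := fun q => by apply Subtype.ext; simp [mul_assoc]
        right_inv := fun q => by apply Subtype.ext; simp [mul_assoc] }
    have h1 : ∀ q : Q, baerHom d (cjQ q) (baerHom d (cjP x) w) =
        baerHom d (cjP x) (baerHom d (cjQ (e q)) w) := by
      intro q
      apply hvalinj
      rw [hvalQ, hvalP, hvalP, hvalQ]
      show (q : X) * (x * val w * (x : X)⁻¹) * (q : X)⁻¹ =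
        x * (((x : X)⁻¹ * q * x) * val w * ((x : X)⁻¹ * q * x)⁻¹) * (x : X)⁻¹
      group
    rw [Finset.sum_congr rfl (fun q _ => h1 q), ← map_sum,
      Equiv.sum_comp e (fun q => baerHom d (cjQ q) w), ← hτ, hw, map_zero]
  letI act : MulAction ↥P ↥W :=
    { smul := fun x w => ⟨baerHom d (cjP x) w.1, hinvW x w.1 w.2⟩
      one_smul := fun w => by
        apply Subtype.ext
        apply hvalinj
        show val (baerHom d (cjP 1) w.1) = val w.1
        rw [hvalP]
        simp
      mul_smul := fun x y w => by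
        apply Subtype.ext
        apply hvalinj
        show val (baerHom d (cjP (x * y)) w.1) =
          val (baerHom d (cjP x) (baerHom d (cjP y) w.1))
        rw [hvalP, hvalP, hvalP]
        simp [mul_assoc] }
  have hsmul : ∀ (x : P) (w : W), ((x • w : W) : Baer d) = baerHom d (cjP x) w.1 :=
    fun x w => rfl
  have hcardB : Nat.card (Baer d) = p ^ n := by rw [card_baer, hn]
  by_cases hW : W = ⊥
  · -- τ is injective, so Q acts trivially
    intro q hq
    rw [Subgroup.mem_centralizer_iff]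
    intro g hg
    have h1 : τ (baerHom d (cjQ ⟨q, hq⟩) (toBaer d ⟨g, hg⟩)) = τ (toBaer d ⟨g, hg⟩) := by
      rw [hτ, hτ]
      rw [← Equiv.sum_comp (Equiv.mulRight (⟨q, hq⟩ : Q))
        (fun a : Q => baerHom d (cjQ a) (toBaer d ⟨g, hg⟩))]
      apply Finset.sum_congr rfl
      intro a _
      apply hvalinj
      rw [hvalQ, hvalQ, hvalQ]
      show (a : X) * (q * val (toBaer d ⟨g, hg⟩) * q⁻¹) * (a : X)⁻¹ =
        ((a : X) * q) * val (toBaer d ⟨g, hg⟩) * ((a : X) * q)⁻¹
      group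
    have h2 : baerHom d (cjQ ⟨q, hq⟩) (toBaer d ⟨g, hg⟩) - toBaer d ⟨g, hg⟩ ∈ W := by
      rw [AddMonoidHom.mem_ker, map_sub, h1, sub_self]
    rw [hW, AddSubgroup.mem_bot, sub_eq_zero] at h2
    have h3 := congrArg val h2
    rw [hvalQ] at h3
    have h4 : q * g * q⁻¹ = g := h3
    calc g * q = (q * g * q⁻¹) * q := by rw [h4]
      _ = q * g := by group
  · exfalso
    have h1 : Nat.card W ∣ p ^ n := hcardB ▸ AddSubgroup.card_addSubgroup_dvd_card W
    obtain ⟨j, hj, hcardW⟩ := (Nat.dvd_prime_pow hp').mp h1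
    have hj0 : j ≠ 0 := by
      rintro rfl
      rw [pow_zero] at hcardW
      exact hW (AddSubgroup.card_eq_one.mp hcardW)
    have h2 := hP.card_modEq_card_fixedPoints ↥W
    have h3 : p ∣ Nat.card (MulAction.fixedPoints ↥P ↥W) := by
      have h4 : p ∣ Nat.card W := by rw [hcardW]; exact dvd_pow_self p hj0
      exact (Nat.modEq_zero_iff_dvd.mp (h2.symm.trans (Nat.modEq_zero_iff_dvd.mpr h4)))
    have h5 : ∃ w : W, w ∈ MulAction.fixedPoints ↥P ↥W ∧ w ≠ 0 := by
      by_contra hcon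
      push Not at hcon
      have hsub : Subsingleton (MulAction.fixedPoints ↥P ↥W) :=
        ⟨fun a b => Subtype.ext ((hcon a.1 a.2).trans (hcon b.1 b.2).symm)⟩
      have hne : Nonempty (MulAction.fixedPoints ↥P ↥W) := by
        refine ⟨⟨0, ?_⟩⟩
        intro x
        apply Subtype.ext
        rw [hsmul]
        exact map_zero _
      have hc1 : Nat.card (MulAction.fixedPoints ↥P ↥W) = 1 :=
        Nat.card_eq_one_iff_unique.mpr ⟨hsub, hne⟩
      rw [hc1] at h3
      exact hp'.one_lt.ne' (Nat.dvd_one.mp h3)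
    obtain ⟨w, hwfix, hw0⟩ := h5
    have hwP : val w.1 ∈ Subgroup.centralizer (P : Set X) := by
      rw [Subgroup.mem_centralizer_iff]
      intro x hx
      have h6 := congrArg Subtype.val (hwfix ⟨x, hx⟩)
      rw [hsmul] at h6
      have h7 := congrArg val h6
      rw [hvalP] at h7
      have h8 : x * val w.1 * x⁻¹ = val w.1 := h7
      calc x * val w.1 = (x * val w.1 * x⁻¹) * x := by group
        _ = val w.1 * x := by rw [h8]
    have hwQ := Subgroup.mem_centralizer_iff.mp (hC ⟨hvalG w.1, hwP⟩)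
    have h9 : ∀ q : Q, baerHom d (cjQ q) w.1 = w.1 := by
      intro q
      apply hvalinj
      rw [hvalQ, hwQ q q.2, mul_inv_cancel_right]
    have h10 : Nat.card Q • (w.1 : Baer d) = 0 := by
      have h11 : τ w.1 = 0 := w.2
      rw [hτ, Finset.sum_congr rfl (fun q _ => h9 q), Finset.sum_const, Finset.card_univ,
        ← Nat.card_eq_fintype_card] at h11
      exact h11
    have h12 : addOrderOf (w.1 : Baer d) ∣ Nat.gcd (Nat.card Q) (p ^ n) :=
      Nat.dvd_gcd (addOrderOf_dvd_of_nsmul_eq_zero h10) (hcardB ▸ addOrderOf_dvd_natCard _)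
    rw [Nat.Coprime.pow_right n hQ] at h12
    have h13 : (w.1 : Baer d) = 0 := AddMonoid.addOrderOf_eq_one_iff.mp (Nat.dvd_one.mp h12)
    exact hw0 (Subtype.ext h13)

/-- Thompson's strengthening of the P × Q lemma for odd primes. Let p be an odd prime and let P, Q and G be subgroups of a finite group with P a p-group, Q of order prime to p and normalized by P, and G a p-group normalized by both P and Q. If every element of G centralized by P is centralized by Q, then Q centralizes G. -/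
theorem result {X : Type*} [Group X] [Finite X] {p : ℕ} [Fact p.Prime] (hp : p ≠ 2) (P Q G : Subgroup X) (hP : IsPGroup p P) (hQ : (Nat.card Q).Coprime p) (hPQ : P ≤ Subgroup.normalizer (Q : Set X)) (hG : IsPGroup p G) (hPG : P ≤ Subgroup.normalizer (G : Set X)) (hQG : Q ≤ Subgroup.normalizer (G : Set X)) (hC : G ⊓ Subgroup.centralizer (P : Set X) ≤ Subgroup.centralizer (Q : Set X)) : Q ≤ Subgroup.centralizer (G : Set X) := by
  suffices H : ∀ n : ℕ, ∀ G : Subgroup X, Nat.card G = n → IsPGroup p G →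
      P ≤ Subgroup.normalizer (G : Set X) → Q ≤ Subgroup.normalizer (G : Set X) →
      G ⊓ Subgroup.centralizer (P : Set X) ≤ Subgroup.centralizer (Q : Set X) →
      Q ≤ Subgroup.centralizer (G : Set X) from H _ G rfl hG hPG hQG hC
  intro n
  induction n using Nat.strong_induction_on with
  | _ n ih =>
  intro G hn hG hPG hQG hC
  by_cases hbot : G = ⊥
  · subst hbot
    intro q _
    rw [Subgroup.mem_centralizer_iff]
    intro g hg
    rw [SetLike.mem_coe, Subgroup.mem_bot] at hg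
    rw [hg, one_mul, mul_one]
  have hcop : (Nat.card Q).Coprime (Nat.card G) := by
    obtain ⟨k, hk⟩ := IsPGroup.iff_card.mp hG
    rw [hk]
    exact Nat.Coprime.pow_right k hQ
  have hnil : Group.IsNilpotent ↥G := hG.isNilpotent
  have hsolv : Group.IsSolvable Q ∨ Group.IsSolvable G := Or.inr inferInstance
  have hD : ⁅G, G⁆ < G :=
    Cfsg.Agent.H1.commutator_lt_of_pgroup p G G hG hG Subgroup.le_normalizer hbot
  have hDP : P ≤ Subgroup.normalizer ((⁅G, G⁆ : Subgroup X) : Set X) :=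
    Cfsg.Agent.H1.le_normalizer_commutator P G G hPG hPG
  have hDQ : Q ≤ Subgroup.normalizer ((⁅G, G⁆ : Subgroup X) : Set X) :=
    Cfsg.Agent.H1.le_normalizer_commutator Q G G hQG hQG
  have hDc : Q ≤ Subgroup.centralizer ((⁅G, G⁆ : Subgroup X) : Set X) :=
    ih _ (hn ▸ Cfsg.Agent.H1.card_lt_card_of_lt hD) ⁅G, G⁆ rfl (hG.to_le hD.le) hDP hDQ
      ((inf_le_inf_right _ hD.le).trans hC)
  have hEG : ⁅G, Q⁆ ≤ G := Cfsg.Agent.H1.commutator_le_of_le_normalizer Q G hQG
  by_cases hE : ⁅G, Q⁆ = G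
  · apply class_two hp P Q G hP hQ hPQ hG hPG hQG hC
    rw [← Subgroup.commutator_eq_bot_iff_le_centralizer]
    have hQD : ⁅Q, ⁅G, G⁆⁆ = ⊥ := Subgroup.commutator_eq_bot_iff_le_centralizer.mpr hDc
    have h1 : ⁅⁅Q, ⁅G, G⁆⁆, G⁆ = ⊥ := by
      rw [hQD]; exact Subgroup.commutator_bot_left G
    have h2 : ⁅⁅⁅G, G⁆, G⁆, Q⁆ = ⊥ := by
      have h3 : ⁅⁅G, G⁆, G⁆ ≤ ⁅G, G⁆ :=
        Cfsg.Agent.H1.commutator_le_of_le_normalizer G ⁅G, G⁆
          (Subgroup.normalizer_commutator_ge_left G G)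
      have h4 : ⁅⁅G, G⁆, Q⁆ = ⊥ := by rw [Subgroup.commutator_comm]; exact hQD
      exact le_bot_iff.mp (h4 ▸ Subgroup.commutator_mono h3 le_rfl)
    have h5 := Subgroup.commutator_commutator_eq_bot_of_rotate h1 h2
    rw [hE] at h5
    rw [Subgroup.commutator_comm]
    exact h5
  · have hlt : ⁅G, Q⁆ < G := lt_of_le_of_ne hEG hE
    have hEP : P ≤ Subgroup.normalizer ((⁅G, Q⁆ : Subgroup X) : Set X) :=
      Cfsg.Agent.H1.le_normalizer_commutator P G Q hPG hPQ
    have hEQ : Q ≤ Subgroup.normalizer ((⁅G, Q⁆ : Subgroup X) : Set X) :=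
      Subgroup.normalizer_commutator_ge_right G Q
    have hEc := ih _ (hn ▸ Cfsg.Agent.H1.card_lt_card_of_lt hlt) ⁅G, Q⁆ rfl (hG.to_le hEG)
      hEP hEQ ((inf_le_inf_right _ hEG).trans hC)
    have h1 : ⁅⁅G, Q⁆, Q⁆ = ⊥ := by
      rw [Subgroup.commutator_comm]
      exact Subgroup.commutator_eq_bot_iff_le_centralizer.mpr hEc
    have h2 := Cfsg.Agent.H1.coprime_commutator_commutator Q G hQG hcop hsolv
    rw [h1] at h2
    have h3 : ⁅Q, G⁆ = ⊥ := by rw [Subgroup.commutator_comm]; exact h2.symm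
    exact Subgroup.commutator_eq_bot_iff_le_centralizer.mp h3

end Cfsg.Agent.S3737
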