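import Mathlib
import Cfsg.Statements.S3738
import Cfsg.Agent.S3736

set_option autoImplicit false
open Cfsg

namespace Cfsg.Agent.S3738

open scoped commutatorElement

/-- A free action of a finite group: the order of the group divides the size of the set. -/
theorem card_dvd_of_free {H S : Type*} [Group H] [MulAction H S] [Finite H] [Finite S]
    (hfree : ∀ (h : H) (s : S), h • s = s → h = 1) : Nat.card H ∣ Nat.card S := by
  classical
  have : Fintype (Quotient (MulAction.orbitRel H S)) := Fintype.ofFinite _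
  rw [Nat.card_congr (MulAction.selfEquivSigmaOrbitsQuotientStabilizer H S), Nat.card_sigma]
  apply Finset.dvd_sum
  intro ω _
  have h1 : MulAction.stabilizer H (Quotient.out ω) = ⊥ := by
    ext h
    rw [MulAction.mem_stabilizer_iff, Subgroup.mem_bot]
    exact ⟨hfree h _, fun h1 => h1 ▸ one_smul _ _⟩
  rw [← Subgroup.index_eq_card, h1, Subgroup.index_bot]

variable {X : Type*} [Group X]

/-- Existence of a non-central involution in a large 2-group of class two with small centre. -/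
theorem exists_involution [Finite X] (G Z : Subgroup X) (hZG : Z ≤ G)
    (hZc : Z ≤ Subgroup.centralizer (G : Set X))
    (hsq : ∀ g ∈ G, g ^ 2 ∈ Z) (hcomm : ∀ g ∈ G, ∀ h ∈ G, ⁅g, h⁆ ∈ Z)
    (hZ2 : ∀ z ∈ Z, z ^ 2 = 1) (hZcard : Nat.card Z ≤ 4) (hG : 128 < Nat.card G) :
    ∃ g ∈ G, g ∉ Z ∧ g ^ 2 = 1 := by
  classical
  by_contra hno
  have hno' : ∀ g ∈ G, g ^ 2 = 1 → g ∈ Z := by
    intro g hg h2
    by_contra hgZ
    exact hno ⟨g, hg, hgZ, h2⟩
  -- central elements commute with G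
  have hcen : ∀ c ∈ Z, ∀ h ∈ G, h * c = c * h := fun c hc h hh =>
    (Subgroup.mem_centralizer_iff.mp (hZc hc)) h hh
  obtain ⟨g, hgG, hgZ⟩ : ∃ g ∈ G, g ∉ Z := by
    by_contra hcon
    push Not at hcon
    have : Nat.card G ≤ Nat.card Z := Subgroup.card_le_of_le (fun g hg => hcon g hg)
    omega
  set a : X := g ^ 2 with ha
  have haZ : a ∈ Z := hsq g hgG
  have ha1 : a ≠ 1 := fun h => hgZ (hno' g hgG h)
  have haa : a * a = 1 := by rw [← sq]; exact hZ2 a haZ
  have hainv : a⁻¹ = a := inv_eq_of_mul_eq_one_left haa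
  -- (F2)
  have hF2 : ∀ u ∈ Z, ∀ v ∈ Z, ¬ (u = 1 ∨ u = a) → ¬ (v = 1 ∨ v = a) → (u * v = 1 ∨ u * v = a) := by
    intro u hu v hv hu' hv'
    push Not at hu' hv'
    have huu : u * u = 1 := by rw [← sq]; exact hZ2 u hu
    by_cases h1 : v = u
    · left; rw [h1, huu]
    by_cases h2 : v = u * a
    · right; rw [h2, ← mul_assoc, huu, one_mul]
    exfalso
    have hsub : (({1, a, u, u * a, v} : Finset X) : Set X) ⊆ (Z : Set X) := by
      intro w hw
      simp only [Finset.coe_insert, Finset.coe_singleton, Set.mem_insert_iff,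
        Set.mem_singleton_iff] at hw
      rcases hw with rfl | rfl | rfl | rfl | rfl
      · exact Z.one_mem
      · exact haZ
      · exact hu
      · exact Z.mul_mem hu haZ
      · exact hv
    have hcard : ({1, a, u, u * a, v} : Finset X).card = 5 := by
      have e1 : u * a ≠ v := fun h => h2 h.symm
      have e2 : u ≠ u * a := fun h => ha1 (by simpa using h.symm)
      have e3 : u ≠ v := fun h => h1 h.symm
      have e4 : a ≠ u := fun h => hu'.2 h.symm
      have e5 : a ≠ u * a := fun h => hu'.1 (by simpa using h.symm)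
      have e6 : a ≠ v := fun h => hv'.2 h.symm
      have e7 : (1 : X) ≠ a := fun h => ha1 h.symm
      have e8 : (1 : X) ≠ u := fun h => hu'.1 h.symm
      have e9 : (1 : X) ≠ u * a := by
        intro h
        apply hu'.2
        have : u = a⁻¹ := eq_inv_of_mul_eq_one_left h.symm
        rw [this, hainv]
      have e10 : (1 : X) ≠ v := fun h => hv'.1 h.symm
      rw [Finset.card_insert_of_notMem, Finset.card_insert_of_notMem,
        Finset.card_insert_of_notMem, Finset.card_insert_of_notMem, Finset.card_singleton]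
      · simp [e1]
      · simp [e2, e3]
      · simp [e4, e5, e6]
      · simp [e7, e8, e9, e10]
    have h5 := Set.ncard_le_ncard hsub (Set.toFinite _)
    rw [Set.ncard_coe_finset, hcard] at h5
    have h6 : (Z : Set X).ncard = Nat.card Z := (Nat.card_coe_set_eq _).symm
    omega
  have hIZ : ∀ w : X, (w = 1 ∨ w = a) → w ∈ Z := by
    rintro w (rfl | rfl)
    · exact Z.one_mem
    · exact haZ
  have hImul : ∀ u v : X, (u = 1 ∨ u = a) → (v = 1 ∨ v = a) → (u * v = 1 ∨ u * v = a) := by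
    rintro u v (rfl | rfl) (rfl | rfl)
    · left; simp
    · right; simp
    · right; simp
    · left; exact haa
  have hIinv : ∀ u : X, (u = 1 ∨ u = a) → (u⁻¹ = 1 ∨ u⁻¹ = a) := by
    rintro u (rfl | rfl)
    · left; simp
    · right; exact hainv
  -- bimultiplicativity of commutators
  have hmulL : ∀ h ∈ G, ∀ h' ∈ G, ∀ k ∈ G, ⁅h * h', k⁆ = ⁅h, k⁆ * ⁅h', k⁆ := by
    intro h hh h' hh' k hk
    have h1 : ⁅h * h', k⁆ = h * ⁅h', k⁆ * h⁻¹ * ⁅h, k⁆ := by
      simp only [commutatorElement_def]; group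
    have h2 := hcen _ (hcomm h' hh' k hk) h hh
    have h3 := hcen _ (hcomm h' hh' k hk) _ (hZG (hcomm h hh k hk))
    rw [h1, h2, mul_inv_cancel_right, h3]
  have hmulR : ∀ k ∈ G, ∀ h ∈ G, ∀ h' ∈ G, ⁅k, h * h'⁆ = ⁅k, h⁆ * ⁅k, h'⁆ := by
    intro k hk h hh h' hh'
    have h1 : ⁅k, h * h'⁆ = ⁅k, h⁆ * (h * ⁅k, h'⁆ * h⁻¹) := by
      simp only [commutatorElement_def]; group
    have h2 := hcen _ (hcomm k hk h' hh') h hh
    rw [h1, h2, mul_inv_cancel_right]
  -- the centralizer of g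
  set C : Subgroup X := G ⊓ Subgroup.centralizer {g} with hC
  have hCG : C ≤ G := inf_le_left
  have hCg : ∀ w ∈ C, w * g = g * w := fun w hw =>
    Subgroup.mem_centralizer_singleton_iff.mp hw.2
  have hcardC : Nat.card G ≤ 4 * Nat.card C := by
    let φ : ↥G →* ↥Z :=
      { toFun := fun h => ⟨⁅(h : X), g⁆, hcomm h h.2 g hgG⟩
        map_one' := Subtype.ext (commutatorElement_one_left g)
        map_mul' := fun h h' => Subtype.ext (hmulL h h.2 h' h'.2 g hgG) }
    have h1 : Nat.card φ.ker * Nat.card φ.range = Nat.card G := by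
      rw [← Subgroup.index_ker]; exact Subgroup.card_mul_index _
    have h2 : Nat.card φ.range ≤ 4 := (Subgroup.card_le_card_group _).trans hZcard
    have h3 : Nat.card φ.ker ≤ Nat.card C := by
      rw [← Subgroup.card_subtype G φ.ker]
      apply Subgroup.card_le_of_le
      rintro _ ⟨h, hh, rfl⟩
      refine ⟨h.2, Subgroup.mem_centralizer_singleton_iff.mpr ?_⟩
      have h4 : ⁅(h : X), g⁆ = 1 := congrArg Subtype.val (MonoidHom.mem_ker.mp hh)
      exact (commutatorElement_eq_one_iff_mul_comm.mp h4)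
    calc Nat.card G = Nat.card φ.ker * Nat.card φ.range := h1.symm
      _ ≤ Nat.card C * 4 := Nat.mul_le_mul h3 h2
      _ = 4 * Nat.card C := Nat.mul_comm _ _
  -- (*)
  have hstar : ∀ w ∈ C, (w ^ 2 = 1 ∨ w ^ 2 = a) → (w ∈ Z ∨ w * g⁻¹ ∈ Z) := by
    rintro w hw (h | h)
    · left; exact hno' w (hCG hw) h
    · right
      apply hno' _ (G.mul_mem (hCG hw) (G.inv_mem hgG))
      have hc : Commute w g⁻¹ := (Commute.inv_right (hCg w hw))
      rw [hc.mul_pow, h, inv_pow, ← ha, mul_inv_cancel]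
  have hZn : (Z : Set X).ncard ≤ 4 := by rw [← Nat.card_coe_set_eq]; exact hZcard
  have hCn : (C : Set X).ncard = Nat.card C := (Nat.card_coe_set_eq _).symm
  -- choose x
  obtain ⟨x, hxC, hxbad⟩ : ∃ x ∈ (C : Set X), x ∉ (Z : Set X) ∪ (fun c => c * g) '' (Z : Set X) := by
    apply Set.exists_mem_notMem_of_ncard_lt_ncard _ (Set.toFinite _)
    have h1 := Set.ncard_union_le (Z : Set X) ((fun c => c * g) '' (Z : Set X))
    have h2 := Set.ncard_image_le (f := fun c => c * g) (Set.toFinite (Z : Set X))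
    omega
  have hxZ : x ∉ Z := fun h => hxbad (Or.inl h)
  have hxgZ : x * g⁻¹ ∉ Z := fun h => hxbad (Or.inr ⟨x * g⁻¹, h, by simp⟩)
  have hxG : x ∈ G := hCG hxC
  have hx2 : ¬ (x ^ 2 = 1 ∨ x ^ 2 = a) := fun h => (hstar x hxC h).elim hxZ hxgZ
  -- the set K
  set K : Set X := {y | y ∈ C ∧ (⁅x, y⁆ = 1 ∨ ⁅x, y⁆ = a)} with hK
  have hCK : (C : Set X).ncard ≤ 2 * K.ncard := by
    by_cases hsub : (C : Set X) ⊆ K
    · have := Set.ncard_le_ncard hsub (Set.toFinite _)
      omega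
    · obtain ⟨y₀, hy₀C, hy₀K⟩ := Set.not_subset.mp hsub
      have hy₀ : ¬ (⁅x, y₀⁆ = 1 ∨ ⁅x, y₀⁆ = a) := fun h => hy₀K ⟨hy₀C, h⟩
      have hy₀' : ¬ (⁅x, y₀⁻¹⁆ = 1 ∨ ⁅x, y₀⁻¹⁆ = a) := by
        intro h
        apply hy₀
        have h1 := hmulR x hxG y₀⁻¹ (G.inv_mem (hCG hy₀C)) y₀ (hCG hy₀C)
        rw [inv_mul_cancel, commutatorElement_one_right] at h1
        have h2 : ⁅x, y₀⁆ = (⁅x, y₀⁻¹⁆)⁻¹ := eq_inv_of_mul_eq_one_right h1.symm
        rw [h2]
        exact hIinv _ h
      have h1 : ((C : Set X) \ K).ncard ≤ K.ncard := by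
        apply Set.ncard_le_ncard_of_injOn (fun y => y₀⁻¹ * y) _ _ (Set.toFinite _)
        · rintro y ⟨hyC, hyK⟩
          have hy : ¬ (⁅x, y⁆ = 1 ∨ ⁅x, y⁆ = a) := fun h => hyK ⟨hyC, h⟩
          refine ⟨C.mul_mem (C.inv_mem hy₀C) hyC, ?_⟩
          rw [hmulR x hxG y₀⁻¹ (G.inv_mem (hCG hy₀C)) y (hCG hyC)]
          exact hF2 _ (hcomm x hxG _ (G.inv_mem (hCG hy₀C))) _ (hcomm x hxG y (hCG hyC)) hy₀' hy
        · intro y _ y' _ h
          exact mul_left_cancel h
      have h2 := Set.ncard_le_ncard_sdiff_add_ncard (C : Set X) K (Set.toFinite _)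
      omega
  -- choose y
  obtain ⟨y, hyK, hybad⟩ : ∃ y ∈ K, y ∉ ((Z : Set X) ∪ (fun c => c * g) '' (Z : Set X)) ∪
      ((fun c => x⁻¹ * c) '' (Z : Set X) ∪ (fun c => x⁻¹ * c * g) '' (Z : Set X)) := by
    apply Set.exists_mem_notMem_of_ncard_lt_ncard _ (Set.toFinite _)
    have h1 := Set.ncard_union_le (Z : Set X) ((fun c => c * g) '' (Z : Set X))
    have h2 := Set.ncard_image_le (f := fun c => c * g) (Set.toFinite (Z : Set X))
    have h3 := Set.ncard_union_le ((fun c => x⁻¹ * c) '' (Z : Set X))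
      ((fun c => x⁻¹ * c * g) '' (Z : Set X))
    have h4 := Set.ncard_image_le (f := fun c => x⁻¹ * c) (Set.toFinite (Z : Set X))
    have h5 := Set.ncard_image_le (f := fun c => x⁻¹ * c * g) (Set.toFinite (Z : Set X))
    have h6 := Set.ncard_union_le ((Z : Set X) ∪ (fun c => c * g) '' (Z : Set X))
      ((fun c => x⁻¹ * c) '' (Z : Set X) ∪ (fun c => x⁻¹ * c * g) '' (Z : Set X))
    omega
  obtain ⟨hyC, hyx⟩ := hyK
  have hyG : y ∈ G := hCG hyC
  have hyZ : y ∉ Z := fun h => hybad (Or.inl (Or.inl h))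
  have hygZ : y * g⁻¹ ∉ Z := fun h => hybad (Or.inl (Or.inr ⟨y * g⁻¹, h, by simp⟩))
  have hxyZ : x * y ∉ Z := fun h => hybad (Or.inr (Or.inl ⟨x * y, h, by simp⟩))
  have hxygZ : x * y * g⁻¹ ∉ Z := fun h =>
    hybad (Or.inr (Or.inr ⟨x * y * g⁻¹, h, by simp [mul_assoc]⟩))
  have hy2 : ¬ (y ^ 2 = 1 ∨ y ^ 2 = a) := fun h => (hstar y hyC h).elim hyZ hygZ
  have hxy2 : ¬ ((x * y) ^ 2 = 1 ∨ (x * y) ^ 2 = a) := fun h =>
    (hstar (x * y) (C.mul_mem hxC hyC) h).elim hxyZ hxygZ
  apply hxy2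
  have h1 : (x * y) ^ 2 = ⁅y, x⁆ * (x ^ 2 * y ^ 2) := by
    have h2 := hcen _ (hcomm y hyG x hxG) x hxG
    have h3 : y * x = ⁅y, x⁆ * x * y := by rw [commutatorElement_def]; group
    calc (x * y) ^ 2 = x * (y * x) * y := by rw [sq]; group
      _ = x * (⁅y, x⁆ * x * y) * y := by rw [h3]
      _ = (x * ⁅y, x⁆) * x * y * y := by group
      _ = (⁅y, x⁆ * x) * x * y * y := by rw [h2]
      _ = ⁅y, x⁆ * (x ^ 2 * y ^ 2) := by rw [sq, sq]; group
  rw [h1]
  apply hImul
  · rw [← commutatorElement_inv]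
    exact hIinv _ hyx
  · exact hF2 _ (hsq x hxG) _ (hsq y hyG) hx2 hy2

/-- The image of the Frattini subgroup of a nontrivial subgroup is proper. -/
theorem frattini_map_lt [Finite X] (P : Subgroup X) (hP : P ≠ ⊥) :
    (frattini ↥P).map P.subtype < P := by
  refine lt_of_le_of_ne (Subgroup.map_subtype_le _) ?_
  intro h
  have h1 : frattini ↥P = ⊤ := by
    apply Subgroup.map_injective P.subtype_injective
    rw [h, ← MonoidHom.range_eq_map, Subgroup.range_subtype]
  have hnt' : Nontrivial ↥P := (Subgroup.nontrivial_iff_ne_bot P).mpr hP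
  rcases IsCoatomic.eq_top_or_exists_le_coatom (⊥ : Subgroup ↥P) with h2 | ⟨M, hM, -⟩
  · exact bot_ne_top h2
  · have h3 : frattini ↥P ≤ M := frattini_le_coatom hM
    rw [h1] at h3
    exact hM.1 (top_le_iff.mp h3)

/-- In a cyclic `3`-group `⟨d⟩` of order `3 ^ n`, every nontrivial element has the element
`d ^ (3 ^ (n - 1))` among its powers: anything commuting with `b` commutes with it. -/
theorem commute_bottom (d : X) (n : ℕ) (hn : 1 ≤ n) (hd : orderOf d = 3 ^ n) (b : X)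
    (hb : b ∈ Subgroup.zpowers d) (hb1 : b ≠ 1) (s : X) (hbs : Commute b s) :
    Commute (d ^ (3 ^ (n - 1))) s := by
  have hfin : IsOfFinOrder d := by
    rw [← orderOf_pos_iff, hd]; positivity
  obtain ⟨i, rfl⟩ := (hfin.mem_powers_iff_mem_zpowers.mpr hb)
  have hi : ¬ 3 ^ n ∣ i := by
    intro h
    apply hb1
    rw [← hd] at h
    exact orderOf_dvd_iff_pow_eq_one.mp h
  obtain ⟨a, ha, hga⟩ := (Nat.dvd_prime_pow Nat.prime_three).mp (Nat.gcd_dvd_right i (3 ^ n))
  have ha' : a < n := by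
    rcases Nat.lt_or_ge a n with h | h
    · exact h
    · exfalso
      have : a = n := le_antisymm ha h
      rw [this] at hga
      exact hi (hga ▸ Nat.gcd_dvd_left i (3 ^ n))
  -- d ^ (3 ^ a) is a power of d ^ i
  have h1 : Commute (d ^ (3 ^ a)) s := by
    have hbez := Nat.gcd_eq_gcd_ab i (3 ^ n)
    rw [hga] at hbez
    have h2 : d ^ (3 ^ a) = (d ^ i) ^ (Nat.gcdA i (3 ^ n)) := by
      have h3 : (d ^ (3 ^ n)) = 1 := by rw [← hd]; exact pow_orderOf_eq_one d
      have h4 : d ^ ((3 ^ a : ℕ) : ℤ) = d ^ ((i : ℤ) * Nat.gcdA i (3 ^ n) +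
          ((3 ^ n : ℕ) : ℤ) * Nat.gcdB i (3 ^ n)) := by
        rw [← hbez]
      rw [zpow_natCast, zpow_add, zpow_mul, zpow_mul, zpow_natCast, zpow_natCast, h3, one_zpow,
        mul_one] at h4
      exact h4
    rw [h2]
    exact hbs.zpow_left _
  have h5 : d ^ (3 ^ (n - 1)) = (d ^ (3 ^ a)) ^ (3 ^ (n - 1 - a)) := by
    rw [← pow_mul, ← pow_add]
    congr 2
    omega
  rw [h5]
  exact h1.pow_left _

/-- Let d be a non-identity 3-element of a finite group and P a 2-subgroup normalized by d on which ⟨d⟩ acts faithfully (no non-identity power of d centralizes P) and without non-identity fixed points (C_P(d) = 1). If every abelian subgroup of P has 2-rank at most 2, then d has order 3. -/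
theorem result {X : Type*} [Group X] [Finite X] (d : X) (n : ℕ) (hn : 1 ≤ n) (hd : orderOf d = 3 ^ n) (P : Subgroup X) (hP : IsPGroup 2 P) (hdP : d ∈ Subgroup.normalizer (P : Set X)) (hfaith : Subgroup.zpowers d ⊓ Subgroup.centralizer (P : Set X) = ⊥) (hfpf : P ⊓ Subgroup.centralizer {d} = ⊥) (hrank : ∀ V : Subgroup X, V ≤ P → IsMulCommutative V → Cfsg.PRankLE 2 2 V) : orderOf d = 3 := by
  classical
  by_contra hne
  have hn2 : 2 ≤ n := by
    by_contra h
    have : n = 1 := by omega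
    rw [this, pow_one] at hd
    exact hne hd
  haveI : Fact (Nat.Prime 2) := ⟨Nat.prime_two⟩
  set z : X := d ^ (3 ^ (n - 1)) with hz
  have hz3 : orderOf z = 3 := by
    rw [hz, orderOf_pow' _ (by positivity), hd,
      Nat.gcd_eq_right (pow_dvd_pow 3 (Nat.sub_le n 1)), Nat.pow_div (Nat.sub_le n 1) (by norm_num)]
    have : n - (n - 1) = 1 := by omega
    rw [this, pow_one]
  have hz1 : z ≠ 1 := by
    intro h; rw [h, orderOf_one] at hz3; omega
  set B : Subgroup X := Subgroup.zpowers d with hB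
  set A : Subgroup X := Subgroup.zpowers z with hA
  have hzB : z ∈ B := Subgroup.pow_mem _ (Subgroup.mem_zpowers d) _
  have hAB : A ≤ B := Subgroup.zpowers_le.mpr hzB
  have hBcomm : ∀ b ∈ B, Commute b z := by
    intro b hb
    obtain ⟨k, rfl⟩ := Subgroup.mem_zpowers_iff.mp hb
    exact ((Commute.refl d).zpow_left k).pow_right _
  have hBcentA : B ≤ Subgroup.centralizer (A : Set X) := by
    intro b hb
    rw [Subgroup.mem_centralizer_iff]
    intro a ha
    obtain ⟨k, rfl⟩ := Subgroup.mem_zpowers_iff.mp ha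
    exact ((hBcomm b hb).symm.zpow_left k).eq
  have hBA : B ≤ Subgroup.normalizer (A : Set X) :=
    hBcentA.trans (Subgroup.centralizer_le_normalizer _)
  have hAcard : Nat.card A = 3 := by rw [hA, Nat.card_zpowers, hz3]
  have hAp : (Nat.card A).Coprime 2 := by rw [hAcard]; norm_num
  have hBP : B ≤ Subgroup.normalizer (P : Set X) := Subgroup.zpowers_le.mpr hdP
  have hPA : ⁅P, A⁆ ≠ ⊥ := by
    intro h
    rw [Subgroup.commutator_comm, Subgroup.commutator_eq_bot_iff_le_centralizer] at h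
    have : z ∈ Subgroup.zpowers d ⊓ Subgroup.centralizer (P : Set X) :=
      ⟨hzB, h (Subgroup.mem_zpowers z)⟩
    rw [hfaith, Subgroup.mem_bot] at this
    exact hz1 this
  -- a minimal B-invariant subgroup on which A acts nontrivially
  let S : Set (Subgroup X) :=
    {U | U ≤ P ∧ B ≤ Subgroup.normalizer (U : Set X) ∧ ⁅U, A⁆ ≠ ⊥}
  have hSne : S.Nonempty := ⟨P, le_rfl, hBP, hPA⟩
  obtain ⟨P₁, hP₁S, hP₁min⟩ := S.toFinite.exists_minimal hSne
  obtain ⟨hP₁P, hBP₁, hP₁A⟩ := hP₁S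
  have hmin : ∀ U : Subgroup X, U < P₁ → B ≤ Subgroup.normalizer (U : Set X) → ⁅U, A⁆ = ⊥ := by
    intro U hU hBU
    by_contra hUA
    exact (lt_irrefl U) (lt_of_lt_of_le hU (hP₁min ⟨hU.le.trans hP₁P, hBU, hUA⟩ hU.le))
  have hP₁2 : IsPGroup 2 P₁ := hP.to_le hP₁P
  obtain ⟨h1, h2, h3, -⟩ := Cfsg.Agent.S3736.result B A P₁ hP₁2 hBP₁ hAB hBA hAp hP₁A hmin
  have hAP₁ : A ≤ Subgroup.normalizer (P₁ : Set X) := hAB.trans hBP₁
  have hP₁ne : P₁ ≠ ⊥ := by
    rintro rfl
    exact hP₁A (Subgroup.commutator_bot_left A)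
  set Φ : Subgroup X := (frattini ↥P₁).map P₁.subtype with hΦdef
  have hΦlt : Φ < P₁ := frattini_map_lt P₁ hP₁ne
  have hΦP₁ : Φ ≤ P₁ := hΦlt.le
  have hNΦ : Subgroup.normalizer (P₁ : Set X) ≤ Subgroup.normalizer (Φ : Set X) :=
    Cfsg.Agent.H1.normalizer_le_normalizer_map_of_characteristic P₁ (frattini ↥P₁)
  have hBΦ : B ≤ Subgroup.normalizer (Φ : Set X) := hBP₁.trans hNΦ
  have hΦA : ⁅Φ, A⁆ = ⊥ := hmin Φ hΦlt hBΦ
  have hΦz : ∀ c ∈ Φ, Commute z c := by
    intro c hc
    have := Subgroup.commutator_eq_bot_iff_le_centralizer.mp hΦA hc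
    exact (Subgroup.mem_centralizer_iff.mp this) z (Subgroup.mem_zpowers z)
  have hcop : (Nat.card A).Coprime (Nat.card P₁) := by
    obtain ⟨k, hk⟩ := IsPGroup.iff_card.mp hP₁2
    rw [hk]
    exact Nat.Coprime.pow_right k hAp
  have hCΦ : ∀ w ∈ P₁, Commute z w → w ∈ Φ := by
    intro w hw hzw
    have hwA : w ∈ Subgroup.centralizer (A : Set X) := by
      rw [Subgroup.mem_centralizer_iff]
      intro a ha
      obtain ⟨k, rfl⟩ := Subgroup.mem_zpowers_iff.mp ha
      exact (hzw.zpow_left k).eq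
    have h4 := Cfsg.Agent.S3736.fixed_le_commutator P₁ A hAP₁ hcop h1 ⟨hw, hwA⟩
    rw [← Subgroup.map_subtype_commutator] at h4
    exact Subgroup.map_mono (Cfsg.Agent.H3.commutator_le_frattini hP₁2) h4
  -- the free action of B on P₁ \ Φ
  have hconjP₁ : ∀ b ∈ B, ∀ w ∈ P₁, b * w * b⁻¹ ∈ P₁ := fun b hb w hw =>
    (Subgroup.mem_normalizer_iff.mp (hBP₁ hb) w).mp hw
  have hconjΦ : ∀ b ∈ B, ∀ w : X, b * w * b⁻¹ ∈ Φ → w ∈ Φ := fun b hb w hw =>
    (Subgroup.mem_normalizer_iff.mp (hBΦ hb) w).mpr hw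
  let T : Type _ := {w : X // w ∈ P₁ ∧ w ∉ Φ}
  letI act : MulAction ↥B T :=
    { smul := fun b w => ⟨b * w.1 * (b : X)⁻¹, hconjP₁ b b.2 w.1 w.2.1,
        fun h => w.2.2 (hconjΦ b b.2 w.1 h)⟩
      one_smul := fun w => by
        apply Subtype.ext
        show (1 : X) * w.1 * (1 : X)⁻¹ = w.1
        simp
      mul_smul := fun b b' w => by
        apply Subtype.ext
        show ((b : X) * b') * w.1 * ((b : X) * b')⁻¹ = b * (b' * w.1 * (b' : X)⁻¹) * (b : X)⁻¹
        group }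
  have hfree : ∀ (b : ↥B) (w : T), b • w = w → b = 1 := by
    intro b w hbw
    by_contra hb1
    have hb1' : (b : X) ≠ 1 := fun h => hb1 (Subtype.ext h)
    have h4 : (b : X) * w.1 * (b : X)⁻¹ = w.1 := congrArg Subtype.val hbw
    have h5 : Commute (b : X) w.1 := by
      show (b : X) * w.1 = w.1 * b
      calc (b : X) * w.1 = ((b : X) * w.1 * (b : X)⁻¹) * b := by group
        _ = w.1 * b := by rw [h4]
    have h6 := commute_bottom d n hn hd b b.2 hb1' w.1 h5
    exact w.2.2 (hCΦ w.1 w.2.1 h6)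
  have hdvd : 3 ^ n ∣ Nat.card T := by
    have := card_dvd_of_free hfree
    rwa [hB, Nat.card_zpowers, hd] at this
  have hcardT : Nat.card T + Nat.card Φ = Nat.card P₁ := by
    have e1 : Nat.card T = ((P₁ : Set X) \ (Φ : Set X)).ncard := by
      rw [← Nat.card_coe_set_eq]
      rfl
    have e2 : Nat.card Φ = (Φ : Set X).ncard := Nat.card_coe_set_eq _
    have e3 : Nat.card P₁ = (P₁ : Set X).ncard := Nat.card_coe_set_eq _
    rw [e1, e2, e3]
    exact Set.ncard_sdiff_add_ncard_of_subset (fun x hx => hΦP₁ hx) (Set.toFinite _)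
  have hTpos : 0 < Nat.card T := by
    have := Cfsg.Agent.H1.card_lt_card_of_lt hΦlt
    omega
  have h9 : 9 ∣ Nat.card T := by
    refine Dvd.dvd.trans ?_ hdvd
    exact (show (9 : ℕ) = 3 ^ 2 by norm_num) ▸ pow_dvd_pow 3 hn2
  rcases h2 with hEA | hSp
  · -- elementary abelian: too small
    have htop : IsMulCommutative (⊤ : Subgroup ↥P₁) :=
      ⟨⟨fun a b => Subtype.ext (hEA.1.is_comm.comm a.1 b.1)⟩⟩
    have h5 := (hrank P₁ hP₁P hEA.1) ⊤ htop (fun a _ => Subtype.ext (hEA.2 a.1 a.2))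
    rw [Subgroup.card_top] at h5
    have h6 := Nat.le_of_dvd hTpos h9
    omega
  · -- special
    have hΦcenter : Φ = P₁ ⊓ Subgroup.centralizer (P₁ : Set X) := by
      rw [hΦdef, hSp.2.1, Cfsg.Agent.S3736.map_center_subtype]
    have hΦc : Φ ≤ Subgroup.centralizer (P₁ : Set X) := hΦcenter ▸ inf_le_right
    have hcen : ∀ c ∈ Φ, ∀ h ∈ P₁, h * c = c * h := fun c hc h hh =>
      (Subgroup.mem_centralizer_iff.mp (hΦc hc)) h hh
    have hsq : ∀ g ∈ P₁, g ^ 2 ∈ Φ := fun g hg =>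
      ⟨⟨g, hg⟩ ^ 2, Cfsg.Agent.H3.pow_mem_frattini hP₁2 ⟨g, hg⟩, rfl⟩
    have hD : ⁅P₁, P₁⁆ = Φ := by
      rw [← Subgroup.map_subtype_commutator, hSp.2.2, ← hSp.2.1]
    have hcomm : ∀ g ∈ P₁, ∀ h ∈ P₁, ⁅g, h⁆ ∈ Φ := fun g hg h hh =>
      hD ▸ Subgroup.commutator_mem_commutator hg hh
    have hcomm2 : ∀ g ∈ P₁, ∀ h ∈ P₁, ⁅g, h⁆ ^ 2 = 1 := by
      intro g hg h hh
      have e1 : ⁅g * g, h⁆ = g * ⁅g, h⁆ * g⁻¹ * ⁅g, h⁆ := by
        simp only [commutatorElement_def]; group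
      have e2 := hcen _ (hcomm g hg h hh) g hg
      have e3 : ⁅g * g, h⁆ = 1 := by
        rw [commutatorElement_eq_one_iff_mul_comm]
        have := hcen _ (hsq g hg) h hh
        rw [sq] at this
        exact this.symm
      rw [e3, e2, mul_inv_cancel_right] at e1
      rw [sq]; exact e1.symm
    have hΦ2 : ∀ c ∈ Φ, c ^ 2 = 1 := by
      intro c hc
      rw [← hD, Subgroup.commutator_def] at hc
      induction hc using Subgroup.closure_induction with
      | mem x hx =>
        obtain ⟨g, hg, h, hh, rfl⟩ := hx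
        exact hcomm2 g hg h hh
      | one => exact one_pow 2
      | mul x y hx hy ihx ihy =>
        have hxΦ : x ∈ Φ := by rw [← hD, Subgroup.commutator_def]; exact hx
        have hyΦ : y ∈ Φ := by rw [← hD, Subgroup.commutator_def]; exact hy
        have hc : Commute x y := (hcen y hyΦ x (hΦP₁ hxΦ))
        rw [hc.mul_pow, ihx, ihy, one_mul]
      | inv x hx ih => rw [inv_pow, ih, inv_one]
    have hΦcomm : IsMulCommutative Φ :=
      ⟨⟨fun a b => Subtype.ext (hcen b.1 b.2 a.1 (hΦP₁ a.2))⟩⟩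
    have hΦtop : IsMulCommutative (⊤ : Subgroup ↥Φ) :=
      ⟨⟨fun a b => Subtype.ext (Subtype.ext (hcen b.1.1 b.1.2 a.1.1 (hΦP₁ a.1.2)))⟩⟩
    have hΦle4 : Nat.card Φ ≤ 4 := by
      have h5 := (hrank Φ (hΦP₁.trans hP₁P) hΦcomm) ⊤ hΦtop
        (fun a _ => Subtype.ext (hΦ2 a.1 a.2))
      rw [Subgroup.card_top] at h5
      exact h5
    have hΦne : Φ ≠ ⊥ := by
      intro h
      have hnt' : Nontrivial ↥P₁ := (Subgroup.nontrivial_iff_ne_bot P₁).mpr hP₁ne
      have h5 : Nontrivial (Subgroup.center ↥P₁) := hP₁2.center_nontrivial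
      have h6 : Subgroup.center ↥P₁ = ⊥ := by
        rw [← hSp.2.1]
        exact (Subgroup.map_eq_bot_iff_of_injective _ P₁.subtype_injective).mp h
      exact ((Subgroup.nontrivial_iff_ne_bot _).mp h5) h6
    obtain ⟨⟨c, hcΦ⟩, hc1'⟩ := (Subgroup.ne_bot_iff_exists_ne_one).mp hΦne
    have hc1 : c ≠ 1 := fun h => hc1' (Subtype.ext h)
    have hΦ3 : 3 ≤ Nat.card Φ := by
      have hdB : d ∈ B := Subgroup.mem_zpowers d
      have hdc : d * c * d⁻¹ ∈ Φ := (Subgroup.mem_normalizer_iff.mp (hBΦ hdB) c).mp hcΦ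
      have hdc1 : d * c * d⁻¹ ≠ 1 := by
        intro h
        apply hc1
        have : c = d⁻¹ * (d * c * d⁻¹) * d := by group
        rw [this, h]; group
      have hdcc : d * c * d⁻¹ ≠ c := by
        intro h
        apply hc1
        have hmem : c ∈ P ⊓ Subgroup.centralizer {d} := by
          refine ⟨hP₁P (hΦP₁ hcΦ), Subgroup.mem_centralizer_singleton_iff.mpr ?_⟩
          calc c * d = (d * c * d⁻¹) * d := by rw [h]
            _ = d * c := by group
        rw [hfpf, Subgroup.mem_bot] at hmem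
        exact hmem
      have hsub : (({1, c, d * c * d⁻¹} : Finset X) : Set X) ⊆ (Φ : Set X) := by
        intro w hw
        simp only [Finset.coe_insert, Finset.coe_singleton, Set.mem_insert_iff,
          Set.mem_singleton_iff] at hw
        rcases hw with rfl | rfl | rfl
        · exact Φ.one_mem
        · exact hcΦ
        · exact hdc
      have hcard : ({1, c, d * c * d⁻¹} : Finset X).card = 3 := by
        rw [Finset.card_insert_of_notMem, Finset.card_insert_of_notMem, Finset.card_singleton]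
        · simp [hdcc.symm]
        · simp [Ne.symm hc1, Ne.symm hdc1]
      have h5 := Set.ncard_le_ncard hsub (Set.toFinite _)
      rw [Set.ncard_coe_finset, hcard] at h5
      have h6 : (Φ : Set X).ncard = Nat.card Φ := (Nat.card_coe_set_eq _).symm
      omega
    have hΦ4 : Nat.card Φ = 4 := by
      obtain ⟨k, hk⟩ := IsPGroup.iff_card.mp (hP₁2.to_le hΦP₁)
      rw [hk] at hΦle4 hΦ3 ⊢
      have hk2 : k < 3 := by
        by_contra h
        have : 2 ^ 3 ≤ 2 ^ k := Nat.pow_le_pow_right (by norm_num) (by omega)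
        omega
      interval_cases k <;> omega
    have hP₁big : 128 < Nat.card P₁ := by
      obtain ⟨k, hk⟩ := IsPGroup.iff_card.mp hP₁2
      obtain ⟨m, hm⟩ := h9
      rw [hk, hΦ4] at hcardT
      rw [hk]
      by_contra h
      have hk7 : k < 8 := by
        by_contra h'
        have : 2 ^ 8 ≤ 2 ^ k := Nat.pow_le_pow_right (by norm_num) (by omega)
        omega
      interval_cases k <;> omega
    obtain ⟨g, hgP₁, hgΦ, hg2⟩ :=
      exists_involution P₁ Φ hΦP₁ hΦc hsq hcomm hΦ2 hΦle4 hP₁big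
    set E : Subgroup X := Φ ⊔ Subgroup.zpowers g with hE
    have hE1 : E ≤ P₁ ⊓ Subgroup.centralizer {g} := by
      refine sup_le (fun c hc => ⟨hΦP₁ hc, Subgroup.mem_centralizer_singleton_iff.mpr
        (hcen c hc g hgP₁).symm⟩) ?_
      rw [Subgroup.zpowers_le]
      exact ⟨hgP₁, Subgroup.mem_centralizer_singleton_iff.mpr rfl⟩
    have hEcomm : ∀ e ∈ E, ∀ e' ∈ E, e * e' = e' * e := by
      intro e he e' he'
      have hle : E ≤ Subgroup.centralizer {e} := by
        refine sup_le (fun c hc => Subgroup.mem_centralizer_singleton_iff.mpr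
          (hcen c hc e (hE1 he).1).symm) ?_
        rw [Subgroup.zpowers_le]
        exact Subgroup.mem_centralizer_singleton_iff.mpr
          (Subgroup.mem_centralizer_singleton_iff.mp (hE1 he).2).symm
      exact (Subgroup.mem_centralizer_singleton_iff.mp (hle he')).symm
    have hE2 : ∀ e ∈ E, e ^ 2 = 1 := by
      let T₂ : Subgroup X :=
        { carrier := {e | e ∈ E ∧ e ^ 2 = 1}
          mul_mem' := by
            rintro x y ⟨hx, hx2⟩ ⟨hy, hy2⟩
            have hc : Commute x y := hEcomm x hx y hy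
            exact ⟨E.mul_mem hx hy, by rw [hc.mul_pow, hx2, hy2, one_mul]⟩
          one_mem' := ⟨E.one_mem, one_pow 2⟩
          inv_mem' := by
            rintro x ⟨hx, hx2⟩
            exact ⟨E.inv_mem hx, by rw [inv_pow, hx2, inv_one]⟩ }
      have hle : E ≤ T₂ := by
        refine sup_le (fun c hc => ⟨Subgroup.mem_sup_left hc, hΦ2 c hc⟩) ?_
        rw [Subgroup.zpowers_le]
        exact ⟨Subgroup.mem_sup_right (Subgroup.mem_zpowers g), hg2⟩
      exact fun e he => (hle he).2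
    have hEc : IsMulCommutative E :=
      ⟨⟨fun a b => Subtype.ext (hEcomm a.1 a.2 b.1 b.2)⟩⟩
    have hEtop : IsMulCommutative (⊤ : Subgroup ↥E) :=
      ⟨⟨fun a b => Subtype.ext (Subtype.ext (hEcomm a.1.1 a.1.2 b.1.1 b.1.2))⟩⟩
    have h5 := (hrank E ((hE1.trans inf_le_left).trans hP₁P) hEc) ⊤ hEtop
      (fun a _ => Subtype.ext (hE2 a.1 a.2))
    rw [Subgroup.card_top] at h5
    have hlt : Φ < E := by
      refine lt_of_le_of_ne le_sup_left ?_
      intro h
      exact hgΦ (h ▸ Subgroup.mem_sup_right (Subgroup.mem_zpowers g))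
    have h6 := Cfsg.Agent.H1.card_lt_card_of_lt hlt
    omega

end Cfsg.Agent.S3738
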