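import Cfsg.Statements.S3739
import Cfsg.Agent.H73.R2

set_option autoImplicit false
open Cfsg

namespace Cfsg.Agent.S3739

/-- Let G be a finite group with C_G(O₂(G)) ≤ O₂(G) containing an element of order 6, and let d be a non-identity 3-element of G normalizing a nontrivial elementary abelian 2-subgroup W with C_W(d) = 1. Then G has an elementary abelian subgroup of order 8. -/
theorem result {G : Type*} [Group G] [Finite G] (hchar : Subgroup.centralizer (Cfsg.pCore 2 G : Set G) ≤ Cfsg.pCore 2 G) (hsix : ∃ g : G, orderOf g = 6) (d : G) (hd1 : d ≠ 1) (hd : IsPGroup 3 ↥(Subgroup.zpowers d)) (W : Subgroup G) (hW : Cfsg.IsElementaryAbelian 2 W) (hW1 : W ≠ ⊥) (hdW : d ∈ Subgroup.normalizer (W : Set G)) (hfpf : W ⊓ Subgroup.centralizer {d} = ⊥) : ∃ E : Subgroup G, Cfsg.IsElementaryAbelian 2 E ∧ Nat.card E = 8 := by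
  by_contra hcon
  push Not at hcon
  obtain ⟨g, hg⟩ := hsix
  have hno : Cfsg.Agent.H73.R2.NoE8 G := by
    intro E hEc hE2 hE8
    exact hcon E ⟨⟨⟨fun a b => Subtype.ext (hEc a a.2 b b.2)⟩⟩, hE2⟩ hE8
  have hQn : (Cfsg.pCore 2 G).Normal := Subgroup.sSup_normal _ (fun _ hH => hH.1)
  have hQ2 : IsPGroup 2 (Cfsg.pCore 2 G) :=
    Sylow.sSup_of_normal _ (fun _ hH => hH.2) (fun _ hH => hH.1)
  refine Cfsg.Agent.H73.R2.main (Cfsg.pCore 2 G) hQn hQ2 hchar g hg d hd1 hd W ?_ hW.2 hW1 ?_ ?_ hno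
  · intro a ha b hb
    exact congrArg Subtype.val (hW.1.is_comm.comm ⟨a, ha⟩ ⟨b, hb⟩)
  · intro w hw
    exact (Subgroup.mem_normalizer_iff.1 hdW w).1 hw
  · intro w hw hfix
    have hcen : w ∈ Subgroup.centralizer ({d} : Set G) := by
      rw [Subgroup.mem_centralizer_iff]
      intro y hy
      rw [Set.mem_singleton_iff] at hy
      rw [hy]
      exact (Cfsg.Agent.H73.R2.cj_eq_iff d w).1 hfix
    have hmem : w ∈ W ⊓ Subgroup.centralizer {d} := Subgroup.mem_inf.2 ⟨hw, hcen⟩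
    rw [hfpf, Subgroup.mem_bot] at hmem
    exact hmem

end Cfsg.Agent.S3739
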