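import Mathlib
import Cfsg.Statements.S3741

set_option autoImplicit false
open Cfsg

namespace Cfsg.Agent.S3741

open scoped commutatorElement

section
variable {G : Type*} [Group G] [Finite G] {p : ℕ} [hp : Fact p.Prime]

omit [Finite G] in
lemma comm_calc (a b b0 : G) (h : ⁅a, b⁆ = ⁅a, b0⁆) : a * (b0⁻¹ * b) = (b0⁻¹ * b) * a := by
  rw [commutatorElement_def, commutatorElement_def] at h
  calc a * (b0⁻¹ * b) = b0⁻¹ * ((a * b0 * a⁻¹ * b0⁻¹)⁻¹ * (a * b * a⁻¹ * b⁻¹)) * b * a := by group
    _ = b0⁻¹ * ((a * b0 * a⁻¹ * b0⁻¹)⁻¹ * (a * b0 * a⁻¹ * b0⁻¹)) * b * a := by rw [h]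
    _ = (b0⁻¹ * b) * a := by group

open scoped Classical in
lemma fiber_bound (A B : Subgroup G) (a : G) (ha : a ∈ A) :
    Nat.card B ≤ Nat.card ((Subgroup.centralizer {a}).subgroupOf B) * Nat.card ↥⁅A, B⁆ := by
  have : Fintype B := Fintype.ofFinite _
  have : Fintype ↥⁅A, B⁆ := Fintype.ofFinite _
  set C := (Subgroup.centralizer {a}).subgroupOf B with hC
  let f : B → ↥⁅A, B⁆ := fun b => ⟨⁅a, (b:G)⁆, Subgroup.commutator_mem_commutator ha b.2⟩
  have h1 := Finset.card_le_mul_card_image (f := f) (Finset.univ : Finset B) (Nat.card C) (by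
    intro z hz
    obtain ⟨b0, -, rfl⟩ := Finset.mem_image.mp hz
    have : Nat.card C = (Finset.univ.filter (fun c : B => c ∈ C)).card := by
      rw [Nat.card_eq_fintype_card, Fintype.card_subtype]
    rw [this]
    apply Finset.card_le_card_of_injOn (fun b => b0⁻¹ * b)
    · intro b hb
      simp only [Finset.coe_filter, Finset.mem_univ, true_and, Set.mem_ofPred_eq] at hb ⊢
      rw [hC, Subgroup.mem_subgroupOf, Subgroup.mem_centralizer_iff]
      intro x hx
      rw [Set.mem_singleton_iff] at hx
      subst hx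
      have h2 : ⁅x, (b:G)⁆ = ⁅x, (b0:G)⁆ := congrArg Subtype.val hb
      exact comm_calc _ _ _ h2
    · intro b _ b' _ h
      exact mul_left_cancel h)
  calc Nat.card B = (Finset.univ : Finset B).card := by
        rw [Nat.card_eq_fintype_card, Finset.card_univ]
    _ ≤ Nat.card C * (Finset.univ.image f).card := h1
    _ ≤ Nat.card C * Nat.card ↥⁅A, B⁆ := by
        apply Nat.mul_le_mul_left
        rw [Nat.card_eq_fintype_card]
        exact Finset.card_le_univ _

lemma fiber_card (hG : IsPGroup p G) (A B : Subgroup G) (hcard : Nat.card ↥⁅A, B⁆ ≤ p) (a : G)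
    (ha : a ∈ A) (hna : a ∉ Subgroup.centralizer (B : Set G)) :
    p * Nat.card ((Subgroup.centralizer {a}).subgroupOf B) = Nat.card B := by
  set C := (Subgroup.centralizer {a}).subgroupOf B with hC
  obtain ⟨m, hm⟩ := IsPGroup.iff_card.mp (hG.to_subgroup B)
  have hdvd : Nat.card C ∣ p ^ m := hm ▸ Subgroup.card_subgroup_dvd_card C
  obtain ⟨j, hj, hCj⟩ := (Nat.dvd_prime_pow hp.out).mp hdvd
  have hle := fiber_bound A B a ha
  have hne : C ≠ ⊤ := by
    intro htop
    apply hna
    rw [Subgroup.mem_centralizer_iff]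
    intro b hb
    have : (⟨b, hb⟩ : B) ∈ C := by rw [htop]; trivial
    rw [hC, Subgroup.mem_subgroupOf, Subgroup.mem_centralizer_iff] at this
    exact (this a rfl).symm
  have hlt : Nat.card C < Nat.card B := by
    apply lt_of_le_of_ne (Nat.le_of_dvd Nat.card_pos (Subgroup.card_subgroup_dvd_card C))
    intro h; exact hne (Subgroup.eq_top_of_card_eq _ h)
  rw [← hC] at hle
  rw [hm, hCj] at hlt hle
  rw [hm, hCj]
  have h1 : j < m := (Nat.pow_lt_pow_iff_right hp.out.one_lt).mp hlt
  have h2 : p ^ m ≤ p ^ (j+1) := by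
    calc p ^ m ≤ p ^ j * Nat.card ↥⁅A, B⁆ := hle
      _ ≤ p ^ j * p := Nat.mul_le_mul_left _ hcard
      _ = p ^ (j+1) := (pow_succ p j).symm
  have h3 : m ≤ j + 1 := (Nat.pow_le_pow_iff_right hp.out.one_lt).mp h2
  have : m = j + 1 := by omega
  rw [this, pow_succ, mul_comm]

open scoped Classical in
lemma half (hG : IsPGroup p G) (A B : Subgroup G) (hcard : Nat.card ↥⁅A, B⁆ ≤ p)
    [Fintype A] [Fintype B] :
    p * (∑ a : A, ∑ b : B, if (a:G) * b = b * a then 1 else 0)
        + Nat.card ((Subgroup.centralizer (B : Set G)).subgroupOf A) * Nat.card B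
      = Nat.card ((Subgroup.centralizer (B : Set G)).subgroupOf A) * (p * Nat.card B)
        + Nat.card A * Nat.card B := by
  set CA := (Subgroup.centralizer (B : Set G)).subgroupOf A with hCA
  have hinner : ∀ a : A, p * (∑ b : B, if (a:G) * b = b * a then 1 else 0)
      = if a ∈ CA then p * Nat.card B else Nat.card B := by
    intro a
    have h0 : (∑ b : B, if (a:G) * b = b * a then 1 else 0)
        = Nat.card ((Subgroup.centralizer {(a:G)}).subgroupOf B) := by
      rw [Nat.card_eq_fintype_card, Fintype.card_subtype, Finset.card_filter]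
      apply Finset.sum_congr rfl
      intro b _
      have : (b ∈ (Subgroup.centralizer {(a:G)}).subgroupOf B) ↔ (a:G) * b = b * a := by
        rw [Subgroup.mem_subgroupOf, Subgroup.mem_centralizer_iff]
        simp
      simp only [this]
    rw [h0]
    split_ifs with h
    · have : (Subgroup.centralizer {(a:G)}).subgroupOf B = ⊤ := by
        rw [Subgroup.subgroupOf_eq_top]
        intro b hb
        rw [Subgroup.mem_centralizer_iff]
        intro x hx
        rw [Set.mem_singleton_iff] at hx; subst hx
        rw [hCA, Subgroup.mem_subgroupOf, Subgroup.mem_centralizer_iff] at h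
        exact (h b hb).symm
      rw [this, Subgroup.card_top]
    · exact fiber_card hG A B hcard a a.2 (by rwa [hCA, Subgroup.mem_subgroupOf] at h)
  rw [Finset.mul_sum, Finset.sum_congr rfl (fun a _ => hinner a), Finset.sum_ite,
    Finset.sum_const, Finset.sum_const, smul_eq_mul, smul_eq_mul]
  have h1 : (Finset.univ.filter (fun a : A => a ∈ CA)).card = Nat.card CA := by
    rw [Nat.card_eq_fintype_card, Fintype.card_subtype]
  have h2 : (Finset.univ.filter (fun a : A => a ∈ CA)).card
      + (Finset.univ.filter (fun a : A => ¬ a ∈ CA)).card = Nat.card A := by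
    rw [Finset.card_filter_add_card_filter_not, Finset.card_univ,
      Nat.card_eq_fintype_card]
  rw [h1] at h2 ⊢
  rw [← h2]
  ring

end

/-- Let A and B be subgroups of a finite p-group with [A, B] ≤ A ∩ B and [A, B] of order at most p. Then |A : C_A(B)| = |B : C_B(A)|. -/
theorem result {G : Type*} [Group G] [Finite G] {p : ℕ} [Fact p.Prime] (hG : IsPGroup p G) (A B : Subgroup G) (hAB : ⁅A, B⁆ ≤ A ⊓ B) (hcard : Nat.card ↥⁅A, B⁆ ≤ p) : (A ⊓ Subgroup.centralizer (B : Set G)).relIndex A = (B ⊓ Subgroup.centralizer (A : Set G)).relIndex B := by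
  classical
  have : Fintype A := Fintype.ofFinite _
  have : Fintype B := Fintype.ofFinite _
  have hA := half hG A B hcard
  have hcard' : Nat.card ↥⁅B, A⁆ ≤ p := by rwa [Subgroup.commutator_comm]
  have hB := half hG B A hcard'
  have hswap : (∑ a : A, ∑ b : B, if (a:G) * b = b * a then 1 else 0)
      = ∑ b : B, ∑ a : A, if (b:G) * a = a * b then 1 else 0 := by
    rw [Finset.sum_comm]
    apply Finset.sum_congr rfl; intro b _
    apply Finset.sum_congr rfl; intro a _
    simp only [eq_comm]
  rw [hswap] at hA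
  have hidxA : Nat.card ((Subgroup.centralizer (B : Set G)).subgroupOf A)
      * (A ⊓ Subgroup.centralizer (B : Set G)).relIndex A = Nat.card A := by
    rw [Subgroup.inf_relIndex_left]; exact Subgroup.card_mul_index _
  have hidxB : Nat.card ((Subgroup.centralizer (A : Set G)).subgroupOf B)
      * (B ⊓ Subgroup.centralizer (A : Set G)).relIndex B = Nat.card B := by
    rw [Subgroup.inf_relIndex_left]; exact Subgroup.card_mul_index _
  have hcA : 0 < Nat.card ((Subgroup.centralizer (B : Set G)).subgroupOf A) := Nat.card_pos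
  have hcB : 0 < Nat.card ((Subgroup.centralizer (A : Set G)).subgroupOf B) := Nat.card_pos
  generalize Nat.card ((Subgroup.centralizer (B : Set G)).subgroupOf A) = cA at *
  generalize Nat.card ((Subgroup.centralizer (A : Set G)).subgroupOf B) = cB at *
  generalize (A ⊓ Subgroup.centralizer (B : Set G)).relIndex A = iA at *
  generalize (B ⊓ Subgroup.centralizer (A : Set G)).relIndex B = iB at *
  generalize (∑ b : B, ∑ a : A, if (b:G) * a = a * b then 1 else 0) = S at *
  have hp2 : 2 ≤ p := (Fact.out : p.Prime).two_le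
  obtain ⟨q, rfl⟩ : ∃ q, p = q + 1 := ⟨p - 1, by omega⟩
  have key : q * (cA * Nat.card B) = q * (cB * Nat.card A) := by
    have e1 : (q + 1) * S + cA * Nat.card B = q * (cA * Nat.card B) + cA * Nat.card B
        + Nat.card A * Nat.card B := by rw [hA]; ring
    have e2 : (q + 1) * S + cB * Nat.card A = q * (cB * Nat.card A) + cB * Nat.card A
        + Nat.card A * Nat.card B := by rw [hB]; ring
    omega
  have key2 : cA * Nat.card B = cB * Nat.card A := Nat.eq_of_mul_eq_mul_left (by omega) key
  rw [← hidxA, ← hidxB] at key2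
  have key3 : cA * cB * iA = cA * cB * iB := by
    calc cA * cB * iA = cB * (cA * iA) := by ring
      _ = cA * (cB * iB) := key2.symm
      _ = cA * cB * iB := by ring
  exact Nat.eq_of_mul_eq_mul_left (Nat.mul_pos hcA hcB) key3

end Cfsg.Agent.S3741
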