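import Mathlib
import Cfsg.Agent.H38.PiCore
import Cfsg.Statements.S3743

set_option autoImplicit false
open Cfsg

namespace Cfsg.Agent.S3743

/-- every finite group is generated by its Sylow subgroups: if a subgroup contains all Sylow
subgroups it is everything. -/
theorem eq_top_of_sylow_le {A : Type*} [Group A] [Finite A] (S : Subgroup A)
    (h : ∀ (p : ℕ) [Fact p.Prime] (P : Sylow p A), (P : Subgroup A) ≤ S) : S = ⊤ := by
  apply Subgroup.eq_top_of_card_eq
  apply Nat.dvd_antisymm (Subgroup.card_subgroup_dvd_card S)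
  rw [← Nat.factorization_prime_le_iff_dvd Nat.card_pos.ne' Nat.card_pos.ne']
  intro p hp
  haveI : Fact p.Prime := ⟨hp⟩
  obtain ⟨P⟩ : Nonempty (Sylow p A) := inferInstance
  have h1 : Nat.card (P : Subgroup A) ∣ Nat.card S := Subgroup.card_dvd_of_le (h p P)
  rw [Sylow.card_eq_multiplicity] at h1
  exact (hp.pow_dvd_iff_le_factorization Nat.card_pos.ne').mp h1

theorem nilp_part {G : Type*} [Group G] [Finite G] (A : Subgroup G) (hA : A.IsSubnormal)
    (hn : Group.IsNilpotent A) : A ≤ Cfsg.fittingSubgroup G := by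
  have key : ∀ (p : ℕ) [Fact p.Prime] (P : Sylow p A),
      (P : Subgroup A) ≤ (Cfsg.fittingSubgroup G).subgroupOf A := by
    intro p hp P
    have hPn : (P : Subgroup A).Normal :=
      Sylow.normal_of_normalizerCondition (Group.normalizerCondition_of_isNilpotent) P
    have hsub : ((P : Subgroup A).map A.subtype).IsSubnormal :=
      Subgroup.IsSubnormal.trans' hPn.isSubnormal hA
    have hpi : H38.PiNat {p} (Nat.card ((P : Subgroup A).map A.subtype)) := by
      rw [Subgroup.card_map_of_injective (Subgroup.subtype_injective _)]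
      obtain ⟨n, hn⟩ := IsPGroup.iff_card.mp P.isPGroup'
      rw [hn]
      intro q hq hqd
      exact (Nat.prime_dvd_prime_iff_eq hq hp.out).mp (hq.dvd_of_dvd_pow hqd)
    have h1 := H38.le_piCore_of_isSubnormal {p} hsub hpi
    have h2 : Cfsg.piCore {p} G ≤ Cfsg.fittingSubgroup G := by
      apply le_sSup
      refine ⟨inferInstance, ?_⟩
      have hpg : IsPGroup p (Cfsg.piCore {p} G) := by
        rw [← H38.pCore_eq_piCore hp.out]
        exact H38.isPGroup_pCore p
      exact hpg.isNilpotent
    intro x hx
    rw [Subgroup.mem_subgroupOf]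
    exact h2 (h1 (Subgroup.mem_map_of_mem _ hx))
  have htop := eq_top_of_sylow_le ((Cfsg.fittingSubgroup G).subgroupOf A) key
  intro x hx
  have : (⟨x, hx⟩ : A) ∈ (Cfsg.fittingSubgroup G).subgroupOf A := by rw [htop]; trivial
  exact Subgroup.mem_subgroupOf.mp this

/-- In a finite group G, every subnormal nilpotent subgroup lies in the Fitting subgroup F(G), and, for a set of primes π, every subnormal subgroup all of whose prime divisors lie in π lies in O_π(G). -/
theorem result {G : Type*} [Group G] [Finite G] (A : Subgroup G) (hA : A.IsSubnormal) : (Group.IsNilpotent A → A ≤ Cfsg.fittingSubgroup G) ∧ ∀ π : Set ℕ, (∀ p : ℕ, p.Prime → p ∣ Nat.card A → p ∈ π) → A ≤ Cfsg.piCore π G := by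
  refine ⟨nilp_part A hA, ?_⟩
  intro π h
  exact H38.le_piCore_of_isSubnormal π hA h

end Cfsg.Agent.S3743
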