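import Cfsg.Statements.S3746
import Cfsg.Agent.H27.Comp

set_option autoImplicit false
open Cfsg

namespace Cfsg.Agent.S3746

/-- Let Z ≤ Z(G) be a central subgroup of a finite group G and E a subgroup of G containing Z whose image E/Z is a component of G/Z (subnormal and quasisimple). Then the derived subgroup [E, E] is a component of G. -/
theorem result {G : Type*} [Group G] [Finite G] (Z : Subgroup G) (hZ : Z ≤ Subgroup.center G) [Z.Normal] (E : Subgroup G) (hZE : Z ≤ E) (hE : Cfsg.IsComponent (E.map (QuotientGroup.mk' Z))) : Cfsg.IsComponent ⁅E, E⁆ := by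
  obtain ⟨hsub, hq⟩ := hE
  have hperf : ⁅E.map (QuotientGroup.mk' Z), E.map (QuotientGroup.mk' Z)⁆
      = E.map (QuotientGroup.mk' Z) := H27.isComponent_perfect ⟨hsub, hq⟩
  have hmapD : (⁅E, E⁆).map (QuotientGroup.mk' Z) = E.map (QuotientGroup.mk' Z) := by
    rw [Subgroup.map_commutator, hperf]
  have hEsub : E.IsSubnormal := by
    have h1 := hsub.comap (QuotientGroup.mk' Z)
    rwa [Subgroup.comap_map_eq, QuotientGroup.ker_mk', sup_eq_left.mpr hZE] at h1
  have hDE : ⁅E, E⁆ ≤ E := H27.commutator_self_le E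
  have hDsub : (⁅E, E⁆ : Subgroup G).IsSubnormal := by
    refine Subgroup.IsSubnormal.step _ E hDE hEsub ?_
    exact (Subgroup.normal_subgroupOf_iff_le_normalizer hDE).2
      (H27.le_normalizer_commutator_self E)
  refine ⟨hDsub, ?_⟩
  have hdz : ∀ x ∈ E, ∃ d ∈ ⁅E, E⁆, ∃ z ∈ Z, d * z = x := by
    intro x hx
    have : QuotientGroup.mk' Z x ∈ (⁅E, E⁆).map (QuotientGroup.mk' Z) := by
      rw [hmapD]; exact Subgroup.mem_map_of_mem _ hx
    obtain ⟨d, hd, hdx⟩ := this
    refine ⟨d, hd, d⁻¹ * x, ?_, by group⟩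
    exact QuotientGroup.eq.mp hdx
  have hDperf : ⁅(⁅E, E⁆ : Subgroup G), ⁅E, E⁆⁆ = ⁅E, E⁆ := by
    apply le_antisymm (H27.commutator_self_le _)
    rw [Subgroup.commutator_le]
    intro a ha b hb
    obtain ⟨d, hd, z, hz, rfl⟩ := hdz a ha
    obtain ⟨d', hd', z', hz', rfl⟩ := hdz b hb
    rw [H27.commElem_mul_left_of_comm _ _ _ (Subgroup.mem_center_iff.1 (hZ hz) _).symm,
      H27.commElem_mul_right_of_comm _ _ _ (Subgroup.mem_center_iff.1 (hZ hz') _).symm]
    exact Subgroup.commutator_mem_commutator hd hd'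
  have hq' : IsQuasisimple ↥((⁅E, E⁆ : Subgroup G).map (QuotientGroup.mk' Z)) := by
    rw [hmapD]; exact hq
  refine H27.quasisimple_of_central_ker ((QuotientGroup.mk' Z).subgroupMap ⁅E, E⁆)
    (MonoidHom.subgroupMap_surjective _ _) ?_ (Subgroup.isPerfect_iff.2 hDperf) hq'
  intro x hx
  rw [MonoidHom.mem_ker] at hx
  have hx1 : QuotientGroup.mk' Z (x : G) = 1 := congrArg Subtype.val hx
  have hxZ : (x : G) ∈ Z := (QuotientGroup.eq_one_iff _).1 hx1
  rw [Subgroup.mem_center_iff]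
  intro g
  apply Subtype.ext
  exact Subgroup.mem_center_iff.1 (hZ hxZ) g

end Cfsg.Agent.S3746
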