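import Cfsg.Statements.S3747
import Cfsg.Agent.H66.MinNormal

set_option autoImplicit false
open Cfsg
open scoped Pointwise

namespace Cfsg.Agent.S3747

open Cfsg.Agent.H66

/-- Let G be a finite group. (a) If K is a component of G with trivial centre, then the normal closure of K in G is a minimal normal subgroup of G. (b) If the Fitting subgroup of G is trivial, then the layer E(G) is generated by the minimal normal subgroups of G. -/
theorem result {G : Type*} [Group G] [Finite G] : (∀ K : Subgroup G, Cfsg.IsComponent K → Subgroup.center ↥K = ⊥ → (Subgroup.normalClosure (K : Set G) ≠ ⊥ ∧ ∀ N : Subgroup G, N.Normal → N ≤ Subgroup.normalClosure (K : Set G) → N = ⊥ ∨ N = Subgroup.normalClosure (K : Set G))) ∧ (Cfsg.fittingSubgroup G = ⊥ → sSup {N : Subgroup G | N ≠ ⊥ ∧ N.Normal ∧ ∀ N' : Subgroup G, N'.Normal → N' ≤ N → N' = ⊥ ∨ N' = N} = Cfsg.layer G) := by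
  refine ⟨fun K hK hZ => normalClosure_component_isMin hK hZ, ?_⟩
  intro hF
  apply le_antisymm
  · apply sSup_le
    rintro N ⟨hNb, hNn, hNmin⟩
    obtain ⟨L, ⟨hLsub, hLN, hLb⟩, hLmin⟩ := Set.exists_min_image
      {L : Subgroup G | L.IsSubnormal ∧ L ≤ N ∧ L ≠ ⊥} (fun L => Nat.card L) (Set.toFinite _)
      ⟨N, hNn.isSubnormal, le_rfl, hNb⟩
    have hLsimple : ∀ R : Subgroup L, R.Normal → R ≠ ⊤ → R = ⊥ := by
      intro R hR hRtop
      by_contra hRb
      have h1 : (R.map L.subtype).IsSubnormal := hR.isSubnormal.trans' hLsub
      have h2 : R.map L.subtype ≤ N := (Subgroup.map_subtype_le R).trans hLN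
      have h3 : R.map L.subtype ≠ ⊥ := by
        rwa [Ne, Subgroup.map_eq_bot_iff_of_injective _ L.subtype_injective]
      have h4 := hLmin _ ⟨h1, h2, h3⟩
      apply hRtop
      apply Subgroup.eq_top_of_le_card
      rw [Nat.card_congr (R.equivMapOfInjective L.subtype L.subtype_injective).toEquiv]
      exact h4
    have hLnt : Nontrivial L := (Subgroup.nontrivial_iff_ne_bot L).2 hLb
    have hLperf : Group.IsPerfect L := by
      rw [Group.isPerfect_def]
      by_contra hne
      have h1 := hLsimple (commutator L) inferInstance hne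
      have hc : Subgroup.center L = ⊤ := (commutator_eq_bot_iff_center_eq_top L).1 h1
      have hnil : Group.IsNilpotent L := ⟨⟨1, by rw [Subgroup.upperCentralSeries_one]; exact hc⟩⟩
      have := le_fitting_of_isSubnormal hLsub hnil
      rw [hF] at this
      exact hLb (le_bot_iff.mp this)
    have hLq : IsQuasisimple L := H27.quasisimple_of_normal_central hLperf
      (fun R hR hRt => by rw [hLsimple R hR hRt]; exact bot_le)
    have hLc : IsComponent L := ⟨hLsub, hLq⟩
    have hLZ : Subgroup.center L = ⊥ :=
      hLsimple _ inferInstance (H27.quasisimple_center_ne_top hLq)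
    obtain ⟨hCb, -⟩ := normalClosure_component_isMin hLc hLZ
    have hCN : Subgroup.normalClosure (L : Set G) ≤ N := Subgroup.normalClosure_le_normal hLN
    have hCn : (Subgroup.normalClosure (L : Set G)).Normal := Subgroup.normalClosure_normal
    rcases hNmin _ hCn hCN with h | h
    · exact absurd h hCb
    · rw [← h]
      have : (layer G).Normal := layer_normal
      exact Subgroup.normalClosure_le_normal (component_le_layer hLc)
  · apply sSup_le
    intro K hK
    have hZ : Subgroup.center ↥K = ⊥ := by
      have h1 : ((Subgroup.center ↥K).map K.subtype).IsSubnormal :=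
        (Subgroup.Normal.isSubnormal inferInstance).trans' hK.1
      have h2 : Group.IsNilpotent ((Subgroup.center ↥K).map K.subtype) :=
        (Group.isNilpotent_congr
          ((Subgroup.center ↥K).equivMapOfInjective K.subtype K.subtype_injective)).1
          ⟨⟨1, by rw [Subgroup.upperCentralSeries_one]
                  exact Subgroup.center_eq_top_iff.2 inferInstance⟩⟩
      have h3 := le_fitting_of_isSubnormal h1 h2
      rw [hF, le_bot_iff, Subgroup.map_eq_bot_iff_of_injective _ K.subtype_injective] at h3
      exact h3
    obtain ⟨hCb, hCmin⟩ := normalClosure_component_isMin hK hZ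
    exact Subgroup.le_normalClosure.trans (le_sSup ⟨hCb, Subgroup.normalClosure_normal, hCmin⟩)

end Cfsg.Agent.S3747
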