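import Cfsg.Statements.S3748
import Cfsg.Agent.H27.Rad
import Cfsg.Agent.H67.Subnormal
import Cfsg.Agent.H1.Basic

set_option autoImplicit false
open Cfsg
open scoped Pointwise

namespace Cfsg.Agent.S3748

open Cfsg.Agent.H1

theorem conj_smul_iSup {G : Type*} [Group G] {ι : Sort*} (g : G) (f : ι → Subgroup G) :
    MulAut.conj g • (⨆ i, f i) = ⨆ i, MulAut.conj g • f i := by
  simp only [Subgroup.pointwise_smul_def]
  exact Subgroup.map_iSup _ _

/-- Call a proper subgroup M of G primitive when M = N_G(N) for every non-trivial normal subgroup N of M. If M is a primitive subgroup of the finite group G, then no non-trivial subnormal subgroup of G is contained in M; in particular M ∩ F(G) = 1. -/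
theorem result {G : Type*} [Group G] [Finite G] (M : Subgroup G) (hM : M ≠ ⊤) (hprim : ∀ N : Subgroup G, N ≤ M → M ≤ Subgroup.normalizer (N : Set G) → N ≠ ⊥ → Subgroup.normalizer (N : Set G) = M) : (∀ L : Subgroup G, L.IsSubnormal → L ≤ M → L = ⊥) ∧ M ⊓ Cfsg.fittingSubgroup G = ⊥ := by
  have hG : (⊤ : Subgroup G) ≠ ⊥ := by
    intro h
    apply hM
    have : M ≤ ⊥ := h ▸ le_top
    rw [h]; exact le_bot_iff.mp this
  constructor
  · intro L hL hLM
    by_contra hLb
    have hLN : L ≤ ⨆ m : M, MulAut.conj (m : G) • L := by
      have := le_iSup (fun m : M => MulAut.conj (m : G) • L) 1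
      simpa [conj_one_smul] using this
    have hNM : (⨆ m : M, MulAut.conj (m : G) • L) ≤ M := by
      apply iSup_le
      intro m x hx
      rw [mem_conj_smul_iff] at hx
      have := hLM hx
      have h2 := M.mul_mem (M.mul_mem m.2 this) (M.inv_mem m.2)
      simpa [mul_assoc] using h2
    have hNb : (⨆ m : M, MulAut.conj (m : G) • L) ≠ ⊥ := fun h => hLb (le_bot_iff.mp (h ▸ hLN))
    have hMN : M ≤ Subgroup.normalizer
        ((⨆ m : M, MulAut.conj (m : G) • L : Subgroup G) : Set G) := by
      rw [le_normalizer_iff_conj_smul]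
      intro m' hm'
      have hle : MulAut.conj m' • (⨆ m : M, MulAut.conj (m : G) • L)
          ≤ ⨆ m : M, MulAut.conj (m : G) • L := by
        rw [conj_smul_iSup]
        apply iSup_le
        intro m
        have := le_iSup (fun m : M => MulAut.conj (m : G) • L) (⟨m', hm'⟩ * m)
        rw [← conj_mul_smul]
        exact this
      exact Subgroup.eq_of_le_of_card_ge hle (by rw [card_conj_smul])
    have hnorm := hprim _ hNM hMN hNb
    obtain ⟨A, hA, -, hAb⟩ := H67.exists_isMinNormal_le (⊤ : Subgroup G) inferInstance hG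
    have hAN : A ≤ Subgroup.normalizer
        ((⨆ m : M, MulAut.conj (m : G) • L : Subgroup G) : Set G) := by
      rw [le_normalizer_iff_conj_smul]
      intro a ha
      rw [conj_smul_iSup]
      congr 1
      funext m
      have h1 : A ≤ Subgroup.normalizer ((MulAut.conj (m : G) • L : Subgroup G) : Set G) :=
        hA.le_normalizer_of_isSubnormal (hL.smul _)
      exact (le_normalizer_iff_conj_smul _ _).mp h1 a ha
    have hAM : A ≤ M := hnorm ▸ hAN
    haveI := hA.1
    have h1 := hprim A hAM (by rw [Subgroup.normalizer_eq_top]; exact le_top) hAb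
    rw [Subgroup.normalizer_eq_top] at h1
    exact hM h1.symm
  · by_contra hQ
    haveI hFn : (Cfsg.fittingSubgroup G).Normal := Subgroup.sSup_normal _ (fun _ h => h.1)
    have hnil : Group.IsNilpotent (Cfsg.fittingSubgroup G) := H27.fitting_nilpotent
    have hMQ : M ≤ Subgroup.normalizer ((M ⊓ Cfsg.fittingSubgroup G : Subgroup G) : Set G) :=
      le_normalizer_inf M M _ Subgroup.le_normalizer
        (by rw [Subgroup.normalizer_eq_top]; exact le_top)
    have hnorm := hprim (M ⊓ Cfsg.fittingSubgroup G) inf_le_left hMQ hQ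
    have hself : Subgroup.normalizer
        (((M ⊓ Cfsg.fittingSubgroup G).subgroupOf (Cfsg.fittingSubgroup G) :
          Subgroup (Cfsg.fittingSubgroup G)) : Set (Cfsg.fittingSubgroup G))
        = (M ⊓ Cfsg.fittingSubgroup G).subgroupOf (Cfsg.fittingSubgroup G) := by
      apply le_antisymm
      · intro y hy
        have h1 := H67.coe_mem_normalizer_of_mem_normalizer_subgroupOf
          (inf_le_right : M ⊓ Cfsg.fittingSubgroup G ≤ Cfsg.fittingSubgroup G) y hy
        rw [hnorm] at h1
        rw [Subgroup.mem_subgroupOf]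
        exact ⟨h1, y.2⟩
      · exact Subgroup.le_normalizer
    have htop := (normalizerCondition_iff_only_full_group_self_normalizing.mp
      Group.normalizerCondition_of_isNilpotent) _ hself
    have hFM : Cfsg.fittingSubgroup G ≤ M := by
      have := Subgroup.subgroupOf_eq_top.mp htop
      exact this.trans inf_le_left
    have hFb : Cfsg.fittingSubgroup G ≠ ⊥ := by
      intro h
      apply hQ
      rw [h]; exact inf_bot_eq _
    have h1 := hprim _ hFM (by rw [Subgroup.normalizer_eq_top]; exact le_top) hFb
    rw [Subgroup.normalizer_eq_top] at h1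
    exact hM h1.symm

end Cfsg.Agent.S3748
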