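import Cfsg.Statements.S3749
import Cfsg.Agent.H66.PAct

set_option autoImplicit false
open Cfsg

namespace Cfsg.Agent.S3749
open Cfsg.Agent.H66

theorem mem_smul_sylow_map {G : Type*} [Group G] {q : ℕ} (N : Subgroup G) [N.Normal] (g : G)
    (Q : Sylow q N) (h : G) :
    h ∈ ((MulAut.conjNormal (H := N) g • Q : Sylow q N) : Subgroup N).map N.subtype ↔
      g⁻¹ * h * g ∈ (Q : Subgroup N).map N.subtype := by
  rw [Sylow.pointwise_smul_def, Subgroup.mem_map, Subgroup.mem_map]
  constructor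
  · rintro ⟨y, hy, rfl⟩
    rw [Subgroup.mem_pointwise_smul_iff_inv_smul_mem] at hy
    refine ⟨_, hy, ?_⟩
    rw [← map_inv]
    simp [MulAut.smul_def]
  · rintro ⟨y, hy, hyeq⟩
    refine ⟨MulAut.conjNormal (H := N) g y, ?_, ?_⟩
    · exact Subgroup.smul_mem_pointwise_smul _ _ _ hy
    · simp only [Subgroup.coe_subtype, MulAut.conjNormal_apply] at hyeq ⊢
      rw [hyeq]; group

/-- `L` fixes the Sylow subgroup `Q` of the normal subgroup `N` iff `L` normalizes its image. -/
theorem fix_iff_le_normalizer {G : Type*} [Group G] {q : ℕ} (N : Subgroup G) [N.Normal]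
    (L : Subgroup G) (Q : Sylow q N) :
    (∀ x ∈ L, (MulAut.conjNormal (H := N) x • Q : Sylow q N) = Q) ↔
      L ≤ Subgroup.normalizer ((Q : Subgroup N).map N.subtype : Set G) := by
  constructor
  · intro hfix x hx
    rw [Subgroup.mem_normalizer_iff]
    intro h
    have h1 := hfix x⁻¹ (L.inv_mem hx)
    have h2 := mem_smul_sylow_map N x⁻¹ Q h
    rw [h1, inv_inv] at h2
    exact h2
  · intro hle x hx
    apply Sylow.ext
    apply Subgroup.map_injective N.subtype_injective
    ext h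
    rw [mem_smul_sylow_map]
    have h1 := hle (L.inv_mem hx)
    rw [Subgroup.mem_normalizer_iff] at h1
    have h2 := h1 h
    rw [inv_inv] at h2
    exact h2.symm

/-- Call a proper subgroup M of G primitive when M = N_G(N) for every non-trivial normal subgroup N of M. Let M be a primitive subgroup of the finite group G, p a prime with O_p(M) ≠ 1, and N a normal subgroup of G with M ∩ N = 1. Then p does not divide the order of N; for every prime q there is exactly one Sylow q-subgroup of N normalized by M; and if the order of N has at least two prime divisors then M is not a maximal subgroup of G. -/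
theorem result {G : Type*} [Group G] [Finite G] (M : Subgroup G) (hM : M ≠ ⊤) (hprim : ∀ N : Subgroup G, N ≤ M → M ≤ Subgroup.normalizer (N : Set G) → N ≠ ⊥ → Subgroup.normalizer (N : Set G) = M) {p : ℕ} [Fact p.Prime] (hOp : Cfsg.pCore p ↥M ≠ ⊥) (N : Subgroup G) [N.Normal] (hMN : M ⊓ N = ⊥) : ¬ p ∣ Nat.card N ∧ (∀ q : ℕ, [Fact q.Prime] → ∃! Q : Sylow q ↥N, M ≤ Subgroup.normalizer ((Q : Subgroup ↥N).map N.subtype : Set G)) ∧ ((∃ q r : ℕ, q.Prime ∧ r.Prime ∧ q ≠ r ∧ q ∣ Nat.card N ∧ r ∣ Nat.card N) → ¬ IsCoatom M) := by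
  classical
  -- Step 0: a nontrivial normal p-subgroup P of M
  obtain ⟨K, ⟨hKn, hKp⟩, hKne⟩ : ∃ K : Subgroup M, (K.Normal ∧ IsPGroup p K) ∧ K ≠ ⊥ := by
    by_contra hcon
    apply hOp
    unfold Cfsg.pCore
    rw [sSup_eq_bot]
    intro K hK
    by_contra hne
    exact hcon ⟨K, hK, hne⟩
  obtain ⟨P, hPdef⟩ : ∃ P : Subgroup G, P = K.map M.subtype := ⟨_, rfl⟩
  have hPM : P ≤ M := by rw [hPdef]; exact Subgroup.map_subtype_le K
  have hPp : IsPGroup p P := by rw [hPdef]; exact hKp.map M.subtype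
  have hPne : P ≠ ⊥ := by
    intro h; apply hKne
    rw [hPdef] at h
    exact (Subgroup.map_eq_bot_iff_of_injective K M.subtype_injective).mp h
  have hMP : M ≤ Subgroup.normalizer (P : Set G) := by
    intro m hm
    rw [Subgroup.mem_normalizer_iff]
    intro h
    rw [hPdef]
    constructor
    · rintro ⟨k, hk, rfl⟩
      exact ⟨⟨m, hm⟩ * k * ⟨m, hm⟩⁻¹, hKn.conj_mem k hk ⟨m, hm⟩, rfl⟩
    · rintro ⟨k, hk, hkeq⟩
      refine ⟨⟨m, hm⟩⁻¹ * k * ⟨m, hm⟩, ?_, ?_⟩
      · have := hKn.conj_mem k hk (⟨m, hm⟩⁻¹)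
        simpa using this
      · simp only [Subgroup.coe_subtype, Subgroup.coe_mul, Subgroup.coe_inv] at hkeq ⊢
        rw [hkeq]; group
  have hNP : Subgroup.normalizer (P : Set G) = M := hprim P hPM hMP hPne
  -- Step 1: C_N(P) = 1
  have hfix : ∀ n ∈ N, (∀ x ∈ P, x * n * x⁻¹ = n) → n = 1 := by
    intro n hn hx
    have hcomm : ∀ x ∈ P, n * x * n⁻¹ = x := by
      intro x hxP
      have := hx x hxP
      calc n * x * n⁻¹ = (x * n * x⁻¹) * x * n⁻¹ := by rw [this]
        _ = x := by group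
    have hnM : n ∈ M := by
      rw [← hNP, Subgroup.mem_normalizer_iff]
      intro h
      constructor
      · intro hh
        rw [hcomm h hh]; exact hh
      · intro hh
        have h3 := hcomm _ hh
        have h4 : h = n * h * n⁻¹ := by
          have : n * (n * h * n⁻¹) * n⁻¹ = n * h * n⁻¹ := h3
          have h5 : n⁻¹ * (n * (n * h * n⁻¹) * n⁻¹) * n = n⁻¹ * (n * h * n⁻¹) * n := by rw [this]
          have h6 : n⁻¹ * (n * (n * h * n⁻¹) * n⁻¹) * n = n * h * n⁻¹ := by group
          have h7 : n⁻¹ * (n * h * n⁻¹) * n = h := by group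
          rw [h6, h7] at h5
          exact h5.symm
        rw [h4]; exact hh
    have : n ∈ M ⊓ N := ⟨hnM, hn⟩
    rw [hMN] at this
    exact Subgroup.mem_bot.mp this
  -- Step 2: p does not divide |N|
  have hpN : ¬ p ∣ Nat.card N := by
    intro hdvd
    have hS : ∀ x ∈ P, ∀ s ∈ (N : Set G), x * s * x⁻¹ ∈ (N : Set G) := by
      intro x _ s hs
      exact Subgroup.Normal.conj_mem inferInstance s hs x
    obtain ⟨b, hbN, hb1, hbfix⟩ := exists_fixed_ne_of_dvd P hPp (N : Set G) hS hdvd 1 N.one_mem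
      (by intro x _; simp)
    exact hb1 (hfix b hbN hbfix)
  -- Step 3: Sylow subgroups
  have hSyl : ∀ q : ℕ, [Fact q.Prime] →
      (∀ Q₁ Q₂ : Sylow q N, (∀ x ∈ P, (MulAut.conjNormal (H := N) x • Q₁ : Sylow q N) = Q₁) →
        (∀ x ∈ P, (MulAut.conjNormal (H := N) x • Q₂ : Sylow q N) = Q₂) → Q₁ = Q₂) ∧
      (∃ Q : Sylow q N, ∀ x ∈ P, (MulAut.conjNormal (H := N) x • Q : Sylow q N) = Q) := by
    intro q _
    constructor
    · intro Q₁ Q₂ h1 h2
      obtain ⟨n, hn⟩ := MulAction.exists_smul_eq N Q₁ Q₂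
      have hn' : (MulAut.conjNormal (H := N) (n : G) • Q₁ : Sylow q N) = Q₂ := by
        have e : MulAut.conjNormal (H := N) (n : G) = MulAut.conj n := by
          ext y; simp [MulAut.conjNormal_apply]
        rw [← hn, Sylow.smul_def, e]
      let T : Set G := {t | t ∈ N ∧ (MulAut.conjNormal (H := N) t • Q₁ : Sylow q N) = Q₂}
      let S₀ : Subgroup G := N ⊓ (MulAction.stabilizer (MulAut N) Q₁).comap (MulAut.conjNormal (H := N))
      have hTinv : ∀ x ∈ P, ∀ t ∈ T, x * t * x⁻¹ ∈ T := by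
        intro x hx t ht
        refine ⟨Subgroup.Normal.conj_mem inferInstance t ht.1 x, ?_⟩
        rw [map_mul, map_mul, mul_smul, mul_smul, h1 x⁻¹ (P.inv_mem hx), ht.2, h2 x hx]
      have hcard : Nat.card T = Nat.card S₀ := by
        symm
        refine Nat.card_congr ⟨fun s => ⟨(n : G) * s.1, ?_⟩, fun t => ⟨(n : G)⁻¹ * t.1, ?_⟩, ?_, ?_⟩
        · refine ⟨N.mul_mem n.2 s.2.1, ?_⟩
          have hs : (MulAut.conjNormal (H := N) (s : G) • Q₁ : Sylow q N) = Q₁ := s.2.2
          rw [map_mul, mul_smul, hs, hn']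
        · refine ⟨N.mul_mem (N.inv_mem n.2) t.2.1, ?_⟩
          show (MulAut.conjNormal (H := N) ((n : G)⁻¹ * t.1) • Q₁ : Sylow q N) = Q₁
          rw [map_mul, mul_smul, t.2.2, ← hn', ← mul_smul, ← map_mul, inv_mul_cancel, map_one,
            one_smul]
        · intro s; apply Subtype.ext; simp
        · intro t; apply Subtype.ext; simp
      have hTp : ¬ p ∣ Nat.card T := by
        rw [hcard]
        intro hdvd
        have : Nat.card S₀ ∣ Nat.card N := Subgroup.card_dvd_of_le inf_le_left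
        exact hpN (hdvd.trans this)
      obtain ⟨t, ht, htfix⟩ := exists_fixed_of_not_dvd P hPp T hTinv hTp
      have ht1 : t = 1 := hfix t ht.1 htfix
      have := ht.2
      rw [ht1, map_one, one_smul] at this
      exact this
    · let ψ : P →* MulAut N := (MulAut.conjNormal (H := N)).comp P.subtype
      let _ : MulAction P (Sylow q N) := MulAction.compHom _ ψ
      have hcard : ¬ p ∣ Nat.card (Sylow q N) := by
        intro hdvd
        obtain ⟨Q0⟩ : Nonempty (Sylow q N) := inferInstance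
        have h1 : Nat.card (Sylow q N) ∣ (Q0 : Subgroup N).index := Sylow.card_dvd_index Q0
        have h2 : (Q0 : Subgroup N).index ∣ Nat.card N := Subgroup.index_dvd_card _
        exact hpN (hdvd.trans (h1.trans h2))
      obtain ⟨Q, hQ⟩ := hPp.nonempty_fixed_point_of_prime_not_dvd_card (Sylow q N) hcard
      refine ⟨Q, fun x hx => ?_⟩
      exact hQ ⟨x, hx⟩
  have hSylM : ∀ q : ℕ, [Fact q.Prime] → ∀ Q : Sylow q N,
      (∀ x ∈ P, (MulAut.conjNormal (H := N) x • Q : Sylow q N) = Q) →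
      (∀ m ∈ M, (MulAut.conjNormal (H := N) m • Q : Sylow q N) = Q) := by
    intro q _ Q hQ m hm
    apply (hSyl q).1 _ _ _ hQ
    intro x hx
    have hmx : m⁻¹ * x * m ∈ P := by
      have h1 := hMP (M.inv_mem hm)
      rw [Subgroup.mem_normalizer_iff] at h1
      have h2 := (h1 x).mp hx
      rwa [inv_inv] at h2
    have e : x * m = m * (m⁻¹ * x * m) := by group
    rw [← mul_smul, ← map_mul, e, map_mul, mul_smul, hQ _ hmx]
  refine ⟨hpN, ?_, ?_⟩
  · intro q _
    obtain ⟨Q, hQ⟩ := (hSyl q).2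
    refine ⟨Q, ?_, ?_⟩
    · exact (fix_iff_le_normalizer N M Q).mp (hSylM q Q hQ)
    · intro Q₂ hQ₂
      apply (hSyl q).1 _ _ _ hQ
      exact (fix_iff_le_normalizer N P Q₂).mpr (hPM.trans hQ₂)
  · rintro ⟨q, r, hq, hr, hqr, hqN, hrN⟩ hco
    have : Fact q.Prime := ⟨hq⟩
    obtain ⟨Q, hQ⟩ := (hSyl q).2
    have hMQ := (fix_iff_le_normalizer N M Q).mp (hSylM q Q hQ)
    obtain ⟨Q', hQ'def⟩ : ∃ Q' : Subgroup G, Q' = (Q : Subgroup N).map N.subtype := ⟨_, rfl⟩
    rw [← hQ'def] at hMQ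
    have hQ'N : Q' ≤ N := by rw [hQ'def]; exact Subgroup.map_subtype_le _
    have hQ'ne : Q' ≠ ⊥ := by
      rw [hQ'def]
      intro h
      have := (Subgroup.map_eq_bot_iff_of_injective _ N.subtype_injective).mp h
      exact Sylow.ne_bot_of_dvd_card Q hqN this
    have hlt : M < M ⊔ Q' := by
      apply lt_of_le_of_ne le_sup_left
      intro h
      have hQM : Q' ≤ M := by rw [h]; exact le_sup_right
      have : Q' ≤ M ⊓ N := le_inf hQM hQ'N
      rw [hMN] at this
      exact hQ'ne (le_bot_iff.mp this)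
    have htop : M ⊔ Q' = ⊤ := hco.2 _ hlt
    have hQ'normal : Q'.Normal := by
      have h1 : M ⊔ Q' ≤ Subgroup.normalizer (Q' : Set G) := sup_le hMQ Subgroup.le_normalizer
      rw [htop] at h1
      exact Subgroup.normalizer_eq_top_iff.mp (top_le_iff.mp h1)
    have hNQ : N ≤ Q' := by
      intro n hn
      have hmem : n ∈ M ⊔ Q' := by rw [htop]; exact Subgroup.mem_top n
      rw [Subgroup.mem_sup_of_normal_right] at hmem
      obtain ⟨m, hm, y, hy, rfl⟩ := hmem
      have hmN : m ∈ N := by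
        have : m = (m * y) * y⁻¹ := by group
        rw [this]
        exact N.mul_mem hn (N.inv_mem (hQ'N hy))
      have : m ∈ M ⊓ N := ⟨hm, hmN⟩
      rw [hMN] at this
      rw [Subgroup.mem_bot.mp this, one_mul]
      exact hy
    have hNeq : N = Q' := le_antisymm hNQ hQ'N
    have hNq : IsPGroup q N := by
      have h1 : IsPGroup q Q' := by rw [hQ'def]; exact Q.isPGroup'.map N.subtype
      rw [hNeq]; exact h1
    obtain ⟨k, hk⟩ := hNq.exists_card_eq
    rw [hk] at hrN
    have := (Nat.prime_dvd_prime_iff_eq hr hq).mp (hr.dvd_of_dvd_pow hrN)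
    exact hqr this.symm

end Cfsg.Agent.S3749
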