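import Cfsg.Statements.S3750
import Cfsg.Agent.H66.Layer
import Cfsg.Agent.S3748

set_option autoImplicit false
open Cfsg
open scoped Pointwise

namespace Cfsg.Agent.S3750

open Cfsg.Agent.H66

/-- Call a proper subgroup M of G primitive when M = N_G(N) for every non-trivial normal subgroup N of M. Let M be a primitive subgroup of the finite group G and N a normal subgroup of G with M ∩ F*(N) ≠ 1. Then F(G) = 1 and F*(N) = F*(G) = E(G); in particular every minimal normal subgroup of G is contained in N. -/
theorem result {G : Type*} [Group G] [Finite G] (M : Subgroup G) (hM : M ≠ ⊤) (hprim : ∀ N : Subgroup G, N ≤ M → M ≤ Subgroup.normalizer (N : Set G) → N ≠ ⊥ → Subgroup.normalizer (N : Set G) = M) (N : Subgroup G) [N.Normal] (hMF : M ⊓ (Cfsg.generalizedFittingSubgroup ↥N).map N.subtype ≠ ⊥) : Cfsg.fittingSubgroup G = ⊥ ∧ (Cfsg.generalizedFittingSubgroup ↥N).map N.subtype = Cfsg.generalizedFittingSubgroup G ∧ Cfsg.generalizedFittingSubgroup G = Cfsg.layer G ∧ ∀ K : Subgroup G, K.Normal → K ≠ ⊥ → (∀ K' : Subgroup G, K'.Normal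 → K' ≤ K → K' = ⊥ ∨ K' = K) → K ≤ N := by
  obtain ⟨hsn, hF0⟩ := S3748.result M hM hprim
  have hNsub : N.IsSubnormal := Subgroup.Normal.isSubnormal inferInstance
  have hFsN_eq := map_generalizedFitting_eq N
  have hFsN_normal : ((Cfsg.generalizedFittingSubgroup ↥N).map N.subtype).Normal :=
    map_generalizedFitting_normal N
  have hFsN_le : (Cfsg.generalizedFittingSubgroup ↥N).map N.subtype ≤ N :=
    Subgroup.map_subtype_le _
  have hMX : M ≤ Subgroup.normalizer
      ((M ⊓ (Cfsg.generalizedFittingSubgroup ↥N).map N.subtype : Subgroup G) : Set G) :=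
    H1.le_normalizer_inf M M _ Subgroup.le_normalizer
      (by rw [Subgroup.normalizer_eq_top]; exact le_top)
  have hnorm := hprim _ inf_le_left hMX hMF
  have hcent : ∀ C : Subgroup G, C ≤ Subgroup.centralizer
      (((Cfsg.generalizedFittingSubgroup ↥N).map N.subtype : Subgroup G) : Set G) → C ≤ M := by
    intro C hC
    refine le_trans ?_ hnorm.le
    refine hC.trans ((Subgroup.centralizer_le ?_).trans (Subgroup.centralizer_le_normalizer _))
    exact (inf_le_right : M ⊓ (Cfsg.generalizedFittingSubgroup ↥N).map N.subtype ≤ _)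
  -- Step 1: `F(G) = 1`
  have hF : Cfsg.fittingSubgroup G = ⊥ := by
    by_contra hFne
    have hnil : Group.IsNilpotent (Cfsg.fittingSubgroup G) := H27.fitting_nilpotent
    have hnt : Nontrivial (Cfsg.fittingSubgroup G) :=
      (Subgroup.nontrivial_iff_ne_bot _).2 hFne
    have hZne : Subgroup.center (Cfsg.fittingSubgroup G) ≠ ⊥ :=
      Group.IsNilpotent.center_ne_bot _
    obtain ⟨z, hz1⟩ := (Subgroup.ne_bot_iff_exists_ne_one).1 hZne
    have hzF : Subgroup.zpowers ((z : Cfsg.fittingSubgroup G) : G)
        ≤ Subgroup.centralizer (Cfsg.fittingSubgroup G : Set G) := by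
      rw [Subgroup.zpowers_le, Subgroup.mem_centralizer_iff]
      intro f hf
      have := Subgroup.mem_center_iff.1 z.2 ⟨f, hf⟩
      exact congrArg Subtype.val this
    have hzF' : Subgroup.zpowers ((z : Cfsg.fittingSubgroup G) : G) ≤ Cfsg.fittingSubgroup G := by
      rw [Subgroup.zpowers_le]; exact (z : Cfsg.fittingSubgroup G).2
    have h1 : (Cfsg.generalizedFittingSubgroup ↥N).map N.subtype
        ≤ Subgroup.centralizer
          ((Subgroup.zpowers ((z : Cfsg.fittingSubgroup G) : G) : Subgroup G) : Set G) := by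
      rw [hFsN_eq]
      apply sup_le
      · exact (map_layer_le_layer N hNsub).trans
          (layer_le_centralizer_fitting.trans (Subgroup.centralizer_le hzF'))
      · exact (map_fitting_le_fitting N).trans (Subgroup.le_centralizer_iff.mp hzF)
    have h2 := hcent _ (Subgroup.le_centralizer_iff.mp h1)
    have h3 : ((z : Cfsg.fittingSubgroup G) : G) ∈ M ⊓ Cfsg.fittingSubgroup G :=
      ⟨h2 (Subgroup.mem_zpowers _), (z : Cfsg.fittingSubgroup G).2⟩
    rw [hF0, Subgroup.mem_bot] at h3
    apply hz1
    apply Subtype.ext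
    apply Subtype.ext
    exact h3
  -- Step 2: every component of `G` lies in `N`
  have hcompN : ∀ K : Subgroup G, IsComponent K → K ≤ N := by
    intro K hK
    rcases H27.component_normal_le_or_comm K N hK with h | h
    · exact h
    · exfalso
      have h1 : K ≤ Subgroup.centralizer (N : Set G) :=
        Subgroup.commutator_eq_bot_iff_le_centralizer.mp h
      have h2 : K ≤ M := hcent K (h1.trans (Subgroup.centralizer_le hFsN_le))
      exact H27.isComponent_ne_bot hK (hsn K hK.1 h2)
  have hFN : (Cfsg.fittingSubgroup ↥N).map N.subtype = ⊥ := by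
    rw [eq_bot_iff, ← hF]; exact map_fitting_le_fitting N
  have hEN : (Cfsg.layer ↥N).map N.subtype = Cfsg.layer G := by
    rw [map_layer_eq N hNsub]
    unfold Cfsg.layer
    congr 1
    ext L
    exact ⟨fun h => h.1, fun h => ⟨h, hcompN L h⟩⟩
  have hFsG : Cfsg.generalizedFittingSubgroup G = Cfsg.layer G := by
    unfold Cfsg.generalizedFittingSubgroup
    rw [hF, sup_bot_eq]
  refine ⟨hF, ?_, hFsG, ?_⟩
  · rw [hFsN_eq, hFN, sup_bot_eq, hEN, hFsG]
  · intro K hKn hKb hKmin
    have hKN : (K ⊓ N).Normal := Subgroup.normal_inf_normal _ _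
    rcases hKmin (K ⊓ N) hKN inf_le_left with h | h
    · exfalso
      have hcomm : K ≤ Subgroup.centralizer (N : Set G) := by
        intro k hk
        rw [Subgroup.mem_centralizer_iff]
        intro n hn
        exact (Subgroup.commute_of_normal_of_disjoint K N hKn inferInstance
          (disjoint_iff.mpr h) k n hk hn).symm
      have h2 : K ≤ M := hcent K (hcomm.trans (Subgroup.centralizer_le hFsN_le))
      exact hKb (hsn K hKn.isSubnormal h2)
    · exact inf_eq_left.mp h

end Cfsg.Agent.S3750
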