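import Cfsg.Statements.S3751
import Cfsg.Agent.H27.Rad
import Cfsg.Agent.H67.Subnormal
import Cfsg.Agent.H1.Basic

set_option autoImplicit false
open Cfsg

namespace Cfsg.Agent.S3751

universe u

section

variable {G : Type u} [Group G]

theorem op_isPGroup (p : ℕ) [Fact p.Prime] (M : Subgroup G) :
    IsPGroup p ((pCore p ↥M).map M.subtype) :=
  (H60.isPGroup_pCore (G := ↥M) p).map _

theorem normalizer_le_normalizer_op (p : ℕ) (M : Subgroup G) :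
    Subgroup.normalizer (M : Set G)
      ≤ Subgroup.normalizer (((pCore p ↥M).map M.subtype : Subgroup G) : Set G) :=
  H27.normalizer_le_normalizer_radIn (H27.isoInv_pGroup p) M

theorem le_op {p : ℕ} {T M : Subgroup G} (hT : IsPGroup p T) (hTM : T ≤ M)
    (hn : M ≤ Subgroup.normalizer (T : Set G)) : T ≤ (pCore p ↥M).map M.subtype := by
  have h1 : (T.subgroupOf M).Normal := (Subgroup.normal_subgroupOf_iff_le_normalizer hTM).2 hn
  have h2 : IsPGroup p (T.subgroupOf M) := hT.comap_subtype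
  have h3 := H60.le_pCore h1 h2
  have h4 := Subgroup.map_mono (f := M.subtype) h3
  rwa [Subgroup.map_subgroupOf_eq_of_le hTM] at h4

theorem op_conj (p : ℕ) (M : Subgroup G) (g : G) :
    (pCore p ↥(M.map (MulAut.conj g).toMonoidHom)).map
        (M.map (MulAut.conj g).toMonoidHom).subtype
      = ((pCore p ↥M).map M.subtype).map (MulAut.conj g).toMonoidHom :=
  H27.radIn_conj (H27.isoInv_pGroup p) M g

/-- `p`-local subgroups. -/
def PLoc (p : ℕ) (M : Subgroup G) : Prop :=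
  ∃ T : Subgroup G, IsPGroup p T ∧ T ≠ ⊥ ∧ M = Subgroup.normalizer (T : Set G)

/-- maximal `p`-local subgroups. -/
def MaxPLoc (p : ℕ) (M : Subgroup G) : Prop :=
  PLoc p M ∧ ∀ L : Subgroup G, PLoc p L → M ≤ L → L = M

theorem ploc_normalizer {p : ℕ} {T : Subgroup G} (hT : IsPGroup p T) (hTb : T ≠ ⊥) :
    PLoc p (Subgroup.normalizer (T : Set G)) := ⟨T, hT, hTb, rfl⟩

theorem exists_maxPLoc_ge [Finite G] {p : ℕ} {L : Subgroup G} (hL : PLoc p L) :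
    ∃ M, MaxPLoc p M ∧ L ≤ M := by
  obtain ⟨M, ⟨hM1, hM2⟩, hmax⟩ := Set.exists_max_image {M : Subgroup G | PLoc p M ∧ L ≤ M}
    (fun M => Nat.card M) (Set.toFinite _) ⟨L, hL, le_rfl⟩
  refine ⟨M, ⟨hM1, fun L' hL' hML' => ?_⟩, hM2⟩
  exact (Subgroup.eq_of_le_of_card_ge hML' (hmax L' ⟨hL', hM2.trans hML'⟩)).symm

theorem maxPLoc_primitive [Finite G] {p : ℕ} [Fact p.Prime] (hloc : IsOfLocalCharacteristic p G)
    {M : Subgroup G} (hM : MaxPLoc p M) {A : Subgroup G} (hA : A ≠ ⊥) (hAM : A ≤ M)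
    (hMA : M ≤ Subgroup.normalizer (A : Set G)) : Subgroup.normalizer (A : Set G) = M := by
  have hchar : Subgroup.centralizer (pCore p ↥M : Set ↥M) ≤ pCore p ↥M := by
    obtain ⟨⟨T, hT, hTb, hMT⟩, -⟩ := hM
    subst hMT
    exact hloc.2 T hT hTb
  have hAn : (A.subgroupOf M).Normal := (Subgroup.normal_subgroupOf_iff_le_normalizer hAM).2 hMA
  have hQn : (pCore p ↥M).Normal := Subgroup.sSup_normal _ (fun _ h => h.1)
  have hD : A.subgroupOf M ⊓ pCore p ↥M ≠ ⊥ := by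
    intro h
    have hcomm : A.subgroupOf M ≤ Subgroup.centralizer (pCore p ↥M : Set ↥M) := by
      intro a ha
      rw [Subgroup.mem_centralizer_iff]
      intro q hq
      exact (Subgroup.commute_of_normal_of_disjoint _ _ hAn hQn (disjoint_iff.mpr h) a q ha hq).symm
    have h2 : A.subgroupOf M ≤ A.subgroupOf M ⊓ pCore p ↥M := le_inf le_rfl (hcomm.trans hchar)
    rw [h, le_bot_iff, Subgroup.subgroupOf_eq_bot] at h2
    exact hA (by have := h2.eq_bot; rwa [inf_eq_left.mpr hAM] at this)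
  have hDb : (A.subgroupOf M ⊓ pCore p ↥M).map M.subtype ≠ ⊥ := by
    rwa [Ne, Subgroup.map_eq_bot_iff_of_injective _ M.subtype_injective]
  have hDp : IsPGroup p ((A.subgroupOf M ⊓ pCore p ↥M).map M.subtype) :=
    ((H60.isPGroup_pCore (G := ↥M) p).to_le inf_le_right).map _
  have hDA : (A.subgroupOf M ⊓ pCore p ↥M).map M.subtype ≤ A := by
    rintro _ ⟨x, hx, rfl⟩
    exact hx.1
  have hDn : M ≤ Subgroup.normalizer
      (((A.subgroupOf M ⊓ pCore p ↥M).map M.subtype : Subgroup G) : Set G) := by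
    have hn : (A.subgroupOf M ⊓ pCore p ↥M).Normal := Subgroup.normal_inf_normal _ _
    intro m hm
    rw [Subgroup.mem_normalizer_iff]
    intro h
    constructor
    · rintro ⟨x, hx, rfl⟩
      exact ⟨⟨m, hm⟩ * x * ⟨m, hm⟩⁻¹, hn.conj_mem x hx ⟨m, hm⟩, rfl⟩
    · rintro ⟨x, hx, hxe⟩
      refine ⟨⟨m, hm⟩⁻¹ * x * ⟨m, hm⟩, ?_, ?_⟩
      · have := hn.conj_mem x hx ⟨m, hm⟩⁻¹; simpa using this
      · have hxe' : (x : G) = m * h * m⁻¹ := hxe
        show m⁻¹ * (x : G) * m = h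
        rw [hxe']; group
  have hB : (A.subgroupOf M ⊓ pCore p ↥M).map M.subtype ≤ (pCore p ↥A).map A.subtype :=
    le_op hDp hDA (hAM.trans hDn)
  have hBb : (pCore p ↥A).map A.subtype ≠ ⊥ := fun h => hDb (le_bot_iff.mp (h ▸ hB))
  have hNB := hM.2 _ (ploc_normalizer (op_isPGroup p A) hBb)
    (hMA.trans (normalizer_le_normalizer_op p A))
  exact le_antisymm (hNB ▸ normalizer_le_normalizer_op p A) hMA

theorem maxPLoc_char {p : ℕ} (hloc : IsOfLocalCharacteristic p G)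
    {M : Subgroup G} (hM : MaxPLoc p M) :
    Subgroup.centralizer (pCore p ↥M : Set ↥M) ≤ pCore p ↥M := by
  obtain ⟨⟨T, hT, hTb, hMT⟩, -⟩ := hM
  subst hMT
  exact hloc.2 T hT hTb

theorem maxPLoc_ne_bot {p : ℕ} {M : Subgroup G} (hM : MaxPLoc p M) : M ≠ ⊥ := by
  obtain ⟨⟨T, hT, hTb, hMT⟩, -⟩ := hM
  intro h
  apply hTb
  have : T ≤ M := hMT ▸ Subgroup.le_normalizer
  rw [h] at this
  exact le_bot_iff.mp this

theorem maxPLoc_selfNormalizing [Finite G] {p : ℕ} [Fact p.Prime]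
    (hloc : IsOfLocalCharacteristic p G) {M : Subgroup G} (hM : MaxPLoc p M) :
    Subgroup.normalizer (M : Set G) = M :=
  maxPLoc_primitive hloc hM (maxPLoc_ne_bot hM) le_rfl Subgroup.le_normalizer

theorem maxPLoc_conj {p : ℕ} {M : Subgroup G} (hM : MaxPLoc p M) (g : G) :
    MaxPLoc p (M.map (MulAut.conj g).toMonoidHom) := by
  have hploc : ∀ L : Subgroup G, PLoc p L → ∀ g : G,
      PLoc p (L.map (MulAut.conj g).toMonoidHom) := by
    rintro L ⟨T, hT, hTb, rfl⟩ g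
    refine ⟨T.map (MulAut.conj g).toMonoidHom, hT.map _, ?_,
      Subgroup.map_equiv_normalizer_eq T (MulAut.conj g)⟩
    rwa [Ne, Subgroup.map_eq_bot_iff_of_injective _ (MulAut.conj g).injective]
  refine ⟨hploc M hM.1 g, fun L hL hML => ?_⟩
  have h1 : M ≤ L.map (MulAut.conj g⁻¹).toMonoidHom := by
    have := H67.map_conj_mono hML g⁻¹
    rwa [H67.map_conj_inv_map_conj] at this
  have h2 := hM.2 _ (hploc L hL g⁻¹) h1
  rw [← h2, H67.map_conj_map_conj_inv]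

theorem core [Finite G] {p : ℕ} [Fact p.Prime] (hloc : IsOfLocalCharacteristic p G)
    {M : Subgroup G} (hM : MaxPLoc p M) (g : G) (hg : g ∉ M)
    (hdvd : p ∣ Nat.card ↥(M ⊓ M.map (MulAut.conj g).toMonoidHom)) :
    ∃ M₁ M₂ : Subgroup G, MaxPLoc p M₁ ∧ MaxPLoc p M₂ ∧ M₁ ≠ M₂ ∧
      (pCore p ↥M₁).map M₁.subtype ⊔ (pCore p ↥M₂).map M₂.subtype ≤ M₁ ⊓ M₂ := by
  -- a first good `p`-subgroup
  have hex : ∃ T₀ : Subgroup G, IsPGroup p T₀ ∧ T₀ ≠ ⊥ ∧ ∃ M₁ M₂ : Subgroup G,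
      MaxPLoc p M₁ ∧ MaxPLoc p M₂ ∧ M₁ ≠ M₂ ∧ T₀ ≤ M₁ ⊓ M₂ := by
    obtain ⟨x, hx⟩ := exists_prime_orderOf_dvd_card' (G := ↥(M ⊓ M.map (MulAut.conj g).toMonoidHom))
      p hdvd
    have hxo : orderOf (x : G) = p := by rw [Subgroup.orderOf_coe]; exact hx
    refine ⟨Subgroup.zpowers (x : G), ?_, ?_, M, M.map (MulAut.conj g).toMonoidHom, hM,
      maxPLoc_conj hM g, ?_, ?_⟩
    · apply IsPGroup.of_card (n := 1)
      rw [Nat.card_zpowers, hxo, pow_one]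
    · intro h
      rw [Subgroup.zpowers_eq_bot] at h
      rw [h, orderOf_one] at hxo
      exact (Fact.out : p.Prime).one_lt.ne hxo
    · intro h
      have hgn : g ∈ Subgroup.normalizer (M : Set G) :=
        (H67.mem_normalizer_iff_map_conj M g).2 h.symm
      rw [maxPLoc_selfNormalizing hloc hM] at hgn
      exact hg hgn
    · rw [Subgroup.zpowers_le]; exact x.2
  obtain ⟨T, ⟨hTp, hTb, M₁, M₂, hM₁, hM₂, hne, hTle⟩, hTmax⟩ := Set.exists_max_image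
    {T : Subgroup G | IsPGroup p T ∧ T ≠ ⊥ ∧ ∃ M₁ M₂ : Subgroup G,
      MaxPLoc p M₁ ∧ MaxPLoc p M₂ ∧ M₁ ≠ M₂ ∧ T ≤ M₁ ⊓ M₂} (fun T => Nat.card T)
    (Set.toFinite _) hex
  have hTM₁ : T ≤ M₁ := hTle.trans inf_le_left
  have hTM₂ : T ≤ M₂ := hTle.trans inf_le_right
  have grow : ∀ M' : Subgroup G, T ≤ M' → ¬ (pCore p ↥M').map M'.subtype ≤ T →
      ∃ x ∈ M', x ∈ Subgroup.normalizer (T : Set G) ∧ x ∉ T ∧
        IsPGroup p (T ⊔ Subgroup.zpowers x : Subgroup G) := by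
    intro M' hTM' hQ
    have hQn : M' ≤ Subgroup.normalizer (((pCore p ↥M').map M'.subtype : Subgroup G) : Set G) :=
      Subgroup.le_normalizer.trans (normalizer_le_normalizer_op p M')
    have hP : IsPGroup p (T ⊔ (pCore p ↥M').map M'.subtype : Subgroup G) :=
      IsPGroup.to_sup_of_normal_right' hTp (op_isPGroup p M') (hTM'.trans hQn)
    have hPM : T ⊔ (pCore p ↥M').map M'.subtype ≤ M' := sup_le hTM' (Subgroup.map_subtype_le _)
    have hnil : Group.IsNilpotent ↥(T ⊔ (pCore p ↥M').map M'.subtype : Subgroup G) :=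
      hP.isNilpotent
    have hlt : T.subgroupOf (T ⊔ (pCore p ↥M').map M'.subtype) < ⊤ := by
      rw [lt_top_iff_ne_top, Ne, Subgroup.subgroupOf_eq_top]
      intro h
      exact hQ (le_sup_right.trans h)
    have h2 := Group.normalizerCondition_of_isNilpotent _ hlt
    obtain ⟨y, hy, hyT⟩ := SetLike.exists_of_lt h2
    refine ⟨(y : G), hPM y.2, ?_, ?_, ?_⟩
    · exact H67.coe_mem_normalizer_of_mem_normalizer_subgroupOf le_sup_left y hy
    · intro h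
      exact hyT (Subgroup.mem_subgroupOf.2 h)
    · exact hP.to_le (sup_le le_sup_left (by rw [Subgroup.zpowers_le]; exact y.2))
  have noBigger : ∀ M₁' M₂' : Subgroup G, MaxPLoc p M₁' → MaxPLoc p M₂' → ∀ x : G,
      x ∉ T → IsPGroup p (T ⊔ Subgroup.zpowers x : Subgroup G) → T ≤ M₁' → T ≤ M₂' →
      x ∈ M₁' → x ∈ M₂' → M₁' = M₂' := by
    intro M₁' M₂' h1 h2 x hxT hxp hT1 hT2 hx1 hx2
    by_contra hne'
    have hgood : IsPGroup p (T ⊔ Subgroup.zpowers x : Subgroup G) ∧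
        (T ⊔ Subgroup.zpowers x : Subgroup G) ≠ ⊥ ∧ ∃ M₁ M₂ : Subgroup G,
        MaxPLoc p M₁ ∧ MaxPLoc p M₂ ∧ M₁ ≠ M₂ ∧ T ⊔ Subgroup.zpowers x ≤ M₁ ⊓ M₂ := by
      refine ⟨hxp, fun h => hTb (le_bot_iff.mp (h ▸ le_sup_left)), M₁', M₂', h1, h2, hne', ?_⟩
      exact sup_le (le_inf hT1 hT2) (by rw [Subgroup.zpowers_le]; exact ⟨hx1, hx2⟩)
    have hle := hTmax _ hgood
    have hlt : T < T ⊔ Subgroup.zpowers x := by
      refine lt_of_le_of_ne le_sup_left (fun h => hxT ?_)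
      rw [h]
      exact (le_sup_right : Subgroup.zpowers x ≤ T ⊔ Subgroup.zpowers x) (Subgroup.mem_zpowers x)
    exact absurd (H1.card_lt_card_of_lt hlt) (not_lt.mpr hle)
  obtain ⟨L, hL, hNL⟩ := exists_maxPLoc_ge (ploc_normalizer hTp hTb)
  have hTL : T ≤ L := Subgroup.le_normalizer.trans hNL
  have hor : (pCore p ↥M₁).map M₁.subtype ≤ T ∨ (pCore p ↥M₂).map M₂.subtype ≤ T := by
    by_contra hcon
    push Not at hcon
    obtain ⟨x₁, hx₁M, hx₁N, hx₁T, hx₁p⟩ := grow M₁ hTM₁ hcon.1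
    obtain ⟨x₂, hx₂M, hx₂N, hx₂T, hx₂p⟩ := grow M₂ hTM₂ hcon.2
    have e1 : M₁ = L := noBigger M₁ L hM₁ hL x₁ hx₁T hx₁p hTM₁ hTL hx₁M (hNL hx₁N)
    have e2 : M₂ = L := noBigger M₂ L hM₂ hL x₂ hx₂T hx₂p hTM₂ hTL hx₂M (hNL hx₂N)
    exact hne (e1.trans e2.symm)
  have final : ∀ M₁ M₂ : Subgroup G, MaxPLoc p M₁ → MaxPLoc p M₂ → M₁ ≠ M₂ → T ≤ M₁ → T ≤ M₂ →
      (pCore p ↥M₁).map M₁.subtype ≤ T →
      ∃ M₁ M₂ : Subgroup G, MaxPLoc p M₁ ∧ MaxPLoc p M₂ ∧ M₁ ≠ M₂ ∧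
        (pCore p ↥M₁).map M₁.subtype ⊔ (pCore p ↥M₂).map M₂.subtype ≤ M₁ ⊓ M₂ := by
    intro M₁ M₂ hM₁ hM₂ hne hTM₁ hTM₂ hQ₁
    by_cases hQ₂ : (pCore p ↥M₂).map M₂.subtype ≤ T
    · exact ⟨M₁, M₂, hM₁, hM₂, hne, (sup_le hQ₁ hQ₂).trans (le_inf hTM₁ hTM₂)⟩
    · obtain ⟨x, hxM, hxN, hxT, hxp⟩ := grow M₂ hTM₂ hQ₂
      have hxM₁ : x ∉ M₁ := fun h =>
        hne (noBigger M₁ M₂ hM₁ hM₂ x hxT hxp hTM₁ hTM₂ h hxM)
      have hTx : T.map (MulAut.conj x).toMonoidHom = T :=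
        (H67.mem_normalizer_iff_map_conj T x).1 hxN
      have hTM₁x : T ≤ M₁.map (MulAut.conj x).toMonoidHom := by
        have := H67.map_conj_mono hTM₁ x; rwa [hTx] at this
      refine ⟨M₁, M₁.map (MulAut.conj x).toMonoidHom, hM₁, maxPLoc_conj hM₁ x, ?_, ?_⟩
      · intro h
        have hxn : x ∈ Subgroup.normalizer (M₁ : Set G) :=
          (H67.mem_normalizer_iff_map_conj M₁ x).2 h.symm
        rw [maxPLoc_selfNormalizing hloc hM₁] at hxn
        exact hxM₁ hxn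
      · rw [op_conj]
        apply sup_le
        · exact hQ₁.trans (le_inf hTM₁ hTM₁x)
        · have := H67.map_conj_mono hQ₁ x
          rw [hTx] at this
          exact this.trans (le_inf hTM₁ hTM₁x)
  rcases hor with h | h
  · exact final M₁ M₂ hM₁ hM₂ hne hTM₁ hTM₂ h
  · exact final M₂ M₁ hM₂ hM₁ hne.symm hTM₂ hTM₁ h

end

/-- Two distinct subgroups M₁, M₂ of G form a primitive pair when, for {i, j} = {1, 2}, every non-trivial normal subgroup A of M_i contained in M₁ ∩ M₂ satisfies N_{M_j}(A) = M₁ ∩ M₂; the pair has characteristic p when moreover C_{M_i}(O_p(M_i)) ≤ O_p(M_i) for both i and O_p(M₁)O_p(M₂) ≤ M₁ ∩ M₂. Let G be a finite group, p a prime dividing its order, with O_p(G) = 1 and every p-local subgroup of characteristic p. Then either G has a primitive pair of characteristic p, or every maximal p-local subgroup M of G is strongly p-embedded in G: M is a proper subgroup, p divides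 its order, and for every g ∉ M the order of M ∩ gMg⁻¹ is prime to p. -/
theorem result {G : Type*} [Group G] [Finite G] {p : ℕ} [Fact p.Prime] (hloc : Cfsg.IsOfLocalCharacteristic p G) (hOp : Cfsg.pCore p G = ⊥) : (∃ M₁ M₂ : Subgroup G, M₁ ≠ M₂ ∧ (∀ A : Subgroup G, A ≠ ⊥ → A ≤ M₁ ⊓ M₂ → (M₁ ≤ Subgroup.normalizer (A : Set G) → M₂ ⊓ Subgroup.normalizer (A : Set G) = M₁ ⊓ M₂) ∧ (M₂ ≤ Subgroup.normalizer (A : Set G) → M₁ ⊓ Subgroup.normalizer (A : Set G) = M₁ ⊓ M₂)) ∧ Subgroup.centralizer (Cfsg.pCore p ↥M₁ : Set ↥M₁) ≤ Cfsg.pCore p ↥M₁ ∧ Subgroup.centralizer (Cfsg.pCore p ↥M₂ : Set ↥M₂) ≤ Cfsg.pCore p ↥M₂ ∧ (Cfsg.pCore p ↥M₁).map M₁.subtype ⊔ (Cfsg.pCore p ↥M₂).map M₂.subtype ≤ M₁ ⊓ M₂) ∨ (∀ M : Subgroup G, (∃ T : Subgroup G, IsPGroup p T ∧ T ≠ ⊥ ∧ M = Subgroup.normalizer (T : Set G)) → (∀ L : Subgroup G, (∃ T : Subgroup G, IsPGroup p T ∧ T ≠ ⊥ ∧ L = Subgroup.normalizer (T : Set G)) → M ≤ L →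 L = M) → M ≠ ⊤ ∧ p ∣ Nat.card M ∧ ∀ g : G, g ∉ M → ¬ p ∣ Nat.card ↥(M ⊓ M.map (MulAut.conj g).toMonoidHom)) := by
  by_cases hall : (∀ M : Subgroup G, (∃ T : Subgroup G, IsPGroup p T ∧ T ≠ ⊥ ∧ M = Subgroup.normalizer (T : Set G)) → (∀ L : Subgroup G, (∃ T : Subgroup G, IsPGroup p T ∧ T ≠ ⊥ ∧ L = Subgroup.normalizer (T : Set G)) → M ≤ L → L = M) → M ≠ ⊤ ∧ p ∣ Nat.card M ∧ ∀ g : G, g ∉ M → ¬ p ∣ Nat.card ↥(M ⊓ M.map (MulAut.conj g).toMonoidHom))
  · exact Or.inr hall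
  · left
    push Not at hall
    obtain ⟨M, hMloc, hMmax, hfail⟩ := hall
    have hM : MaxPLoc p M := ⟨hMloc, hMmax⟩
    obtain ⟨T, hT, hTb, hMT⟩ := hMloc
    have hTM : T ≤ M := hMT ▸ Subgroup.le_normalizer
    have hMtop : M ≠ ⊤ := by
      intro h
      rw [hMT, Subgroup.normalizer_eq_top_iff] at h
      have := H60.le_pCore h hT
      rw [hOp] at this
      exact hTb (le_bot_iff.mp this)
    have hpM : p ∣ Nat.card M := by
      obtain ⟨k, hk⟩ := IsPGroup.iff_card.mp hT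
      have hk0 : k ≠ 0 := by
        intro h0
        rw [h0, pow_zero] at hk
        exact hTb (Subgroup.eq_bot_of_card_eq T hk)
      exact (dvd_pow_self p hk0).trans (hk ▸ Subgroup.card_dvd_of_le hTM)
    obtain ⟨g, hg, hdvd⟩ := hfail hMtop hpM
    obtain ⟨M₁, M₂, hM₁, hM₂, hne, hO⟩ := core hloc hM g hg hdvd
    refine ⟨M₁, M₂, hne, ?_, maxPLoc_char hloc hM₁, maxPLoc_char hloc hM₂, hO⟩
    intro A hA hAle
    constructor
    · intro hn
      rw [maxPLoc_primitive hloc hM₁ hA (hAle.trans inf_le_left) hn, inf_comm]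
    · intro hn
      rw [maxPLoc_primitive hloc hM₂ hA (hAle.trans inf_le_right) hn]

end Cfsg.Agent.S3751
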