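import Cfsg.Statements.S3760

set_option autoImplicit false
open Cfsg

namespace Cfsg.Agent.S3760

theorem mem_map_conj_iff {G : Type*} [Group G] (K : Subgroup G) (g y : G) :
    y ∈ K.map (MulAut.conj g).toMonoidHom ↔ g⁻¹ * y * g ∈ K := by
  constructor
  · rintro ⟨k, hk, rfl⟩
    simpa [MulAut.conj_apply, mul_assoc] using hk
  · intro h
    refine ⟨g⁻¹ * y * g, h, ?_⟩
    simp [MulAut.conj_apply, mul_assoc]

/-- Let the group G act transitively on a set X, let x ∈ X with stabilizer H = G_x, and let K ≤ H. Then N_G(K) acts transitively on the set of fixed points of K if and only if every G-conjugate of K contained in H is already an H-conjugate of K. -/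
theorem result {G : Type*} [Group G] {X : Type*} [MulAction G X] (htrans : ∀ a b : X, ∃ g : G, g • a = b) (x : X) (K : Subgroup G) (hK : K ≤ MulAction.stabilizer G x) : (∀ a b : X, (∀ k ∈ K, k • a = a) → (∀ k ∈ K, k • b = b) → ∃ g ∈ Subgroup.normalizer (K : Set G), g • a = b) ↔ ∀ g : G, K.map (MulAut.conj g).toMonoidHom ≤ MulAction.stabilizer G x → ∃ h ∈ MulAction.stabilizer G x, K.map (MulAut.conj g).toMonoidHom = K.map (MulAut.conj h).toMonoidHom := by
  have hKx : ∀ k ∈ K, k • x = x := fun k hk => MulAction.mem_stabilizer_iff.mp (hK hk)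
  constructor
  · intro H1 g hg
    have hfix : ∀ k ∈ K, k • (g⁻¹ • x) = g⁻¹ • x := by
      intro k hk
      have h1 : g * k * g⁻¹ ∈ K.map (MulAut.conj g).toMonoidHom := by
        rw [mem_map_conj_iff]
        simpa [mul_assoc] using hk
      have h2 := MulAction.mem_stabilizer_iff.mp (hg h1)
      have h3 : g⁻¹ • ((g * k * g⁻¹) • x) = g⁻¹ • x := by rw [h2]
      rw [mul_smul, mul_smul, inv_smul_smul] at h3
      exact h3
    obtain ⟨n, hn, hnx⟩ := H1 x (g⁻¹ • x) hKx hfix
    refine ⟨g * n, ?_, ?_⟩
    · rw [MulAction.mem_stabilizer_iff, mul_smul, hnx, smul_inv_smul]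
    · ext y
      rw [mem_map_conj_iff, mem_map_conj_iff]
      rw [Subgroup.mem_normalizer_iff] at hn
      rw [hn (((g * n)⁻¹ * y * (g * n)))]
      have : n * ((g * n)⁻¹ * y * (g * n)) * n⁻¹ = g⁻¹ * y * g := by group
      rw [this]
  · intro H2
    have claim : ∀ a : X, (∀ k ∈ K, k • a = a) → ∃ n ∈ Subgroup.normalizer (K : Set G), n • x = a := by
      intro a ha
      obtain ⟨g, hg⟩ := htrans x a
      have hle : K.map (MulAut.conj g⁻¹).toMonoidHom ≤ MulAction.stabilizer G x := by
        intro y hy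
        rw [mem_map_conj_iff] at hy
        rw [MulAction.mem_stabilizer_iff]
        have h1 := ha _ hy
        rw [← hg] at h1
        simp only [inv_inv, mul_smul] at h1
        have h2 : g⁻¹ • (g • y • g⁻¹ • g • x) = g⁻¹ • (g • x) := by rw [h1]
        simpa using h2
      obtain ⟨h, hh, heq⟩ := H2 g⁻¹ hle
      refine ⟨g * h, ?_, ?_⟩
      · rw [Subgroup.mem_normalizer_iff]
        intro y
        have e1 : ∀ w : G, w ∈ K.map (MulAut.conj g⁻¹).toMonoidHom ↔ w ∈ K.map (MulAut.conj h).toMonoidHom := by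
          intro w; rw [heq]
        constructor
        · intro hy
          have h1 : h * y * h⁻¹ ∈ K.map (MulAut.conj h).toMonoidHom := by
            rw [mem_map_conj_iff]; simpa [mul_assoc] using hy
          rw [← e1, mem_map_conj_iff] at h1
          simpa [mul_assoc] using h1
        · intro hy
          have h1 : h * y * h⁻¹ ∈ K.map (MulAut.conj g⁻¹).toMonoidHom := by
            rw [mem_map_conj_iff]; simpa [mul_assoc] using hy
          rw [e1, mem_map_conj_iff] at h1
          simpa [mul_assoc] using h1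
      · rw [mul_smul, MulAction.mem_stabilizer_iff.mp hh, hg]
    intro a b ha hb
    obtain ⟨n, hn, hna⟩ := claim a ha
    obtain ⟨m, hm, hmb⟩ := claim b hb
    refine ⟨m * n⁻¹, Subgroup.mul_mem _ hm (Subgroup.inv_mem _ hn), ?_⟩
    rw [mul_smul, ← hna, inv_smul_smul, hmb]

end Cfsg.Agent.S3760
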