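import Cfsg.Statements.S3761
import Cfsg.Agent.H3.SelfCentCyclic
import Cfsg.Agent.H3.Dihedral
import Cfsg.Agent.H3.PGroup
import Cfsg.Agent.H11.AbNormalCyclic

set_option autoImplicit false
open Cfsg

namespace Cfsg.Agent.S3761

open Cfsg.Agent.H3

/-- Let G be a finite non-abelian p-group with a cyclic normal subgroup U of order p^n such that C_G(U) = U. Then either p = 2 and G is dihedral, generalized quaternion or semidihedral of order 2^(n+1); or, writing U₁ for the subgroup generated by the p-th powers of elements of U and M = C_G(U₁), the subgroup U has index p in M and the subgroup Ω₁(M) generated by the elements of M of order dividing p is elementary abelian of order p² and characteristic in G. -/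
theorem result {G : Type*} [Group G] [Finite G] {p : ℕ} [Fact p.Prime] (hG : IsPGroup p G) (hna : ¬ IsMulCommutative G) (U : Subgroup G) [U.Normal] (hU : IsCyclic U) (n : ℕ) (hUn : Nat.card U = p ^ n) (hC : Subgroup.centralizer (U : Set G) = U) : (p = 2 ∧ Nat.card G = 2 ^ (n + 1) ∧ ((∃ m : ℕ, Nonempty (G ≃* DihedralGroup m)) ∨ (∃ m : ℕ, Nonempty (G ≃* QuaternionGroup m)) ∨ Cfsg.IsQuasiDihedral G)) ∨ (U.relIndex (Subgroup.centralizer (Cfsg.powerClosure p 1 U : Set G)) = p ∧ Cfsg.IsElementaryAbelian p (Cfsg.omegaOne p (Subgroup.centralizer (Cfsg.powerClosure p 1 U : Set G))) ∧ Nat.card ↥(Cfsg.omegaOne p (Subgroup.centralizer (Cfsg.powerClosure p 1 U : Set G))) = p ^ 2 ∧ (Cfsg.omegaOne p (Subgroup.centralizer (Cfsg.powerClosure p 1 U : Set G))).Characteristic) := by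
  have hp : p.Prime := Fact.out
  have hUnorm : U.Normal := inferInstance
  obtain ⟨⟨u, huU⟩, hgen⟩ := hU.exists_generator
  have hUeq : Subgroup.zpowers u = U := by
    apply le_antisymm (Subgroup.zpowers_le.mpr huU)
    intro x hx
    obtain ⟨i, hi⟩ := Subgroup.mem_zpowers_iff.mp (hgen ⟨x, hx⟩)
    have := congrArg Subtype.val hi
    rw [Subgroup.mem_zpowers_iff]; exact ⟨i, by simpa using this⟩
  have hord : orderOf u = p ^ n := by rw [← Nat.card_zpowers, hUeq, hUn]
  have hcomm_of : ¬ (∀ a b : G, a * b = b * a) := fun h => hna ⟨⟨h⟩⟩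
  have hUab : ∀ a ∈ U, ∀ b ∈ U, a * b = b * a := by
    intro a ha b hb
    rw [← hUeq] at ha hb
    obtain ⟨i, rfl⟩ := Subgroup.mem_zpowers_iff.mp ha
    obtain ⟨j, rfl⟩ := Subgroup.mem_zpowers_iff.mp hb
    rw [← zpow_add, ← zpow_add, add_comm]
  have hUtop : ∃ g : G, g ∉ U := by
    by_contra hcon
    push Not at hcon
    exact hcomm_of (fun a b => hUab a (hcon a) b (hcon b))
  have hnc : ¬ IsCyclic G := by
    intro hcyc
    obtain ⟨g, hg⟩ := hcyc.exists_generator
    apply hcomm_of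
    intro a b
    obtain ⟨i, rfl⟩ := Subgroup.mem_zpowers_iff.mp (hg a)
    obtain ⟨j, rfl⟩ := Subgroup.mem_zpowers_iff.mp (hg b)
    rw [← zpow_add, ← zpow_add, add_comm]
  have hcent : ∀ g : G, g * u = u * g → g ∈ U := by
    intro g hg
    rw [← hC, Subgroup.mem_centralizer_iff]
    intro x hx
    rw [← hUeq] at hx
    obtain ⟨i, rfl⟩ := Subgroup.mem_zpowers_iff.mp hx
    exact ((Commute.zpow_right (show Commute g u from hg) i)).eq.symm
  have hnorm : ∀ g : G, g * u * g⁻¹ ∈ U := fun g => hUnorm.conj_mem u huU g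
  -- `n ≥ 1`
  have hn1 : 1 ≤ n := by
    by_contra hlt
    have hn0 : n = 0 := by omega
    rw [hn0, pow_zero] at hord
    have hu1 : u = 1 := orderOf_eq_one_iff.mp hord
    obtain ⟨g, hg⟩ := hUtop
    exact hg (hcent g (by rw [hu1, mul_one, one_mul]))
  -- the element `z` of order `p`
  have hzU : u ^ p ^ (n - 1) ∈ U := U.pow_mem huU _
  have hzp : (u ^ p ^ (n - 1)) ^ p = 1 := by
    rw [← pow_mul, ← pow_succ, (show n - 1 + 1 = n by omega), ← hord]
    exact pow_orderOf_eq_one u
  have hz1 : u ^ p ^ (n - 1) ≠ 1 := by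
    intro h0
    have h1 := orderOf_dvd_of_pow_eq_one h0
    rw [hord] at h1
    have h2 := Nat.le_of_dvd (pow_pos hp.pos _) h1
    have h3 := (Nat.pow_le_pow_iff_right hp.one_lt).mp h2
    omega
  have hzo : orderOf (u ^ p ^ (n - 1)) = p := orderOf_eq_prime hzp hz1
  have hZcard : Nat.card (Subgroup.zpowers (u ^ p ^ (n - 1))) = p := by
    rw [Nat.card_zpowers, hzo]
  have hZmem : ∀ x ∈ U, x ^ p = 1 → x ∈ Subgroup.zpowers (u ^ p ^ (n - 1)) :=
    fun x hx hxp => mem_zpowers_pow_of_pow_eq_one hp hn1 hord (by rw [hUeq]; exact hx) hxp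
  have hZexp : ∀ t ∈ Subgroup.zpowers (u ^ p ^ (n - 1)), t ^ p = 1 := by
    intro t ht
    obtain ⟨k, hk⟩ := Subgroup.mem_zpowers_iff.mp ht
    rw [← hk, ← zpow_natCast, ← zpow_mul, mul_comm, zpow_mul, zpow_natCast, hzp, one_zpow]
  -- `z` is central
  have hzcen : u ^ p ^ (n - 1) ∈ Subgroup.center G := by
    haveI hZn : (Subgroup.zpowers (u ^ p ^ (n - 1))).Normal := by
      constructor
      intro t ht g
      apply hZmem
      · exact hUnorm.conj_mem t ((Subgroup.zpowers_le.mpr hzU) ht) g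
      · rw [conj_pow, hZexp t ht, mul_one, mul_inv_cancel]
    have hne : Subgroup.zpowers (u ^ p ^ (n - 1)) ≠ ⊥ := by
      intro h
      have := Subgroup.mem_zpowers (u ^ p ^ (n - 1))
      rw [h, Subgroup.mem_bot] at this
      exact hz1 this
    obtain ⟨c, hcZ, hcc, hc1⟩ := normal_inf_center_ne_bot hG _ hne
    have hco : orderOf c = p := orderOf_eq_prime (hZexp c hcZ) hc1
    have heq : Subgroup.zpowers c = Subgroup.zpowers (u ^ p ^ (n - 1)) :=
      Subgroup.eq_of_le_of_card_ge (Subgroup.zpowers_le.mpr hcZ) (by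
        rw [hZcard, Nat.card_zpowers, hco])
    have hzc : u ^ p ^ (n - 1) ∈ Subgroup.zpowers c := by
      rw [heq]; exact Subgroup.mem_zpowers _
    exact (Subgroup.zpowers_le.mpr hcc) hzc
  -- `n ≥ 2`
  have hn2 : 2 ≤ n := by
    by_contra hlt
    have hn1' : n = 1 := by omega
    rw [hn1', Nat.sub_self, pow_zero, pow_one] at hzcen
    obtain ⟨g, hg⟩ := hUtop
    exact hg (hcent g (Subgroup.mem_center_iff.mp hzcen g))
  -- first case: all normal abelian subgroups are cyclic
  by_cases hn : ∀ A : Subgroup G, A.Normal → IsMulCommutative A → IsCyclic A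
  · left
    obtain ⟨hp2, hiso⟩ := Cfsg.Agent.H11.abelian_normal_cyclic_main p hG hn hnc
    have hG2 : IsPGroup 2 G := hp2 ▸ hG
    have hord2 : orderOf u = 2 ^ n := by rw [hord, hp2]
    refine ⟨hp2, ?_, ?_⟩
    · obtain ⟨g, hg⟩ := hUtop
      have hnorm' : ∀ g : G, g * u * g⁻¹ ∈ Subgroup.zpowers u := by
        intro g; rw [hUeq]; exact hnorm g
      have hcent' : ∀ g : G, g * u = u * g → g ∈ Subgroup.zpowers u := by
        intro g h; rw [hUeq]; exact hcent g h
      have hsq : ∀ h : G, h ∉ U → h * h ∈ U := by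
        intro h hh
        have := Cfsg.Agent.H11.sq_mem hG2 hn u n hord2 hn2 hnorm' hcent' h (by rw [hUeq]; exact hh)
        rwa [hUeq] at this
      have hidx : U.index = 2 := by
        rw [Subgroup.index_eq_two_iff]
        refine ⟨g⁻¹, fun b => ?_⟩
        by_cases hb : b ∈ U
        · right
          refine ⟨hb, fun h => hg ?_⟩
          have : g = (b * g⁻¹)⁻¹ * b := by group
          rw [this]; exact U.mul_mem (U.inv_mem h) hb
        · left
          refine ⟨?_, hb⟩
          have h1 := Cfsg.Agent.H11.coset_eq hn u n hord2 hn2 hnorm' hcent' g b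
            (by rw [hUeq]; exact hg) (by rw [hUeq]; exact hsq g hg)
            (by rw [hUeq]; exact hb) (by rw [hUeq]; exact hsq b hb)
          rw [hUeq] at h1
          have : b * g⁻¹ = g * (g⁻¹ * b) * g⁻¹ := by group
          rw [this]; exact hUnorm.conj_mem _ h1 g
      have := Subgroup.card_mul_index U
      rw [hidx, hUn, hp2] at this
      rw [← this, pow_succ]
    · rcases hiso with h | ⟨m, -, h⟩ | h
      · right; left; exact h
      · left; exact ⟨m, h⟩
      · right; right; exact h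
  -- second case: there is a noncyclic normal abelian subgroup
  push Not at hn
  obtain ⟨A, hAn, hAc, hAnc⟩ := hn
  haveI := hAn
  have hAab : ∀ a ∈ A, ∀ b ∈ A, a * b = b * a := by
    intro a ha b hb
    have := hAc.is_comm.comm ⟨a, ha⟩ ⟨b, hb⟩
    exact congrArg Subtype.val this
  obtain ⟨V, hVn, hVA, hVcard, hVexp, hVbound⟩ := exists_normal_elemAb_sq hG A hAab hAnc
  haveI := hVn
  have hVab : ∀ a ∈ V, ∀ b ∈ V, a * b = b * a :=
    fun a ha b hb => hAab a (hVA ha) b (hVA hb)
  generalize hzdef : u ^ p ^ (n - 1) = z at hzU hzp hz1 hzo hZcard hZmem hZexp hzcen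
  set Q := Cfsg.powerClosure p 1 U with hQ
  have hQU : Q ≤ U := by
    rw [hQ, Cfsg.powerClosure, Subgroup.closure_le]
    rintro y ⟨x, hx, rfl⟩
    exact U.pow_mem hx _
  have hQmem : ∀ x ∈ U, x ^ p ∈ Q := by
    intro x hx
    apply Subgroup.subset_closure
    exact ⟨x, hx, by rw [pow_one]⟩
  have hzQ : z ∈ Q := by
    have : z = (u ^ p ^ (n - 2)) ^ p := by
      rw [← hzdef, ← pow_mul, ← pow_succ]; congr 2; omega
    rw [this]; exact hQmem _ (U.pow_mem huU _)
  set M := Subgroup.centralizer (Q : Set G) with hM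
  have hUM : U ≤ M := by
    intro x hx
    rw [hM, Subgroup.mem_centralizer_iff]
    intro y hy
    exact hUab y (hQU hy) x hx
  have hMZ : ∀ t ∈ M, t * u * t⁻¹ * u⁻¹ ∈ Subgroup.zpowers z := by
    intro t ht
    have h1 : t * u * t⁻¹ ∈ U := hnorm t
    apply hZmem _ (U.mul_mem h1 (U.inv_mem huU))
    have hc : Commute (t * u * t⁻¹) u⁻¹ := hUab _ h1 _ (U.inv_mem huU)
    rw [hc.mul_pow, conj_pow, inv_pow]
    have h2 : u ^ p * t = t * u ^ p := Subgroup.mem_centralizer_iff.mp ht (u ^ p) (hQmem u huU)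
    rw [← h2, mul_inv_cancel_right, mul_inv_cancel]
  have hMcent : M ⊓ Subgroup.centralizer {u} = U := by
    apply le_antisymm
    · intro x hx
      have h1 := Subgroup.mem_centralizer_iff.mp (Subgroup.mem_inf.mp hx).2 u (Set.mem_singleton u)
      exact hcent x h1.symm
    · intro x hx
      refine Subgroup.mem_inf.mpr ⟨hUM hx, ?_⟩
      rw [Subgroup.mem_centralizer_iff]
      intro y hy
      rw [Set.mem_singleton_iff] at hy
      rw [hy]
      exact hUab u huU x hx
  have hMcard : Nat.card M ≤ p * p ^ n := by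
    have := card_le_mul_card_inf_centralizer M (Subgroup.zpowers z) u hMZ
    rw [hMcent, hZcard, hUn] at this
    exact this
  -- normal elementary abelian subgroups of order `p ^ 2` lie in `M`
  have hkey : ∀ W : Subgroup G, W.Normal → Nat.card W = p ^ 2 → W ≤ M := by
    intro W hWn hWcard
    haveI := hWn
    obtain ⟨N, hNn, hNW, hNcard, hbound⟩ :=
      exists_normal_chain_centralizer hG W 2 hWcard 2 le_rfl
    have hNeq : N = W := Subgroup.eq_of_le_of_card_ge hNW (by rw [hWcard, hNcard])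
    rw [hNeq] at hbound
    have hb' : Nat.card G ≤ p * Nat.card (Subgroup.centralizer (W : Set G)) := by
      have : p ^ (2 * (2 - 1) / 2) = p := by norm_num
      rwa [this] at hbound
    rw [hM, Subgroup.le_centralizer_iff, hQ, Cfsg.powerClosure, Subgroup.closure_le]
    rintro y ⟨x, hx, rfl⟩
    rw [pow_one]
    exact pow_mem_centralizer_of_card_le hG W hb' x
  have hVM : V ≤ M := hkey V hVn hVcard
  have hplt : p < p ^ 2 := by
    have := hp.one_lt
    nlinarith
  have hVU : ¬ V ≤ U := by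
    intro h
    have h1 : V ≤ Subgroup.zpowers z := fun v hv => hZmem v (h hv) (hVexp v hv)
    have h2 := Subgroup.card_le_of_le h1
    rw [hVcard, hZcard] at h2
    omega
  obtain ⟨v, hvV, hvU⟩ : ∃ v ∈ V, v ∉ U := by
    by_contra hcon
    push Not at hcon
    exact hVU hcon
  have hMcard' : Nat.card M = p ^ (n + 1) := by
    obtain ⟨m, hm⟩ := IsPGroup.iff_card.mp (hG.to_subgroup M)
    have h1 : Nat.card U < Nat.card M := by
      by_contra hcon
      push Not at hcon
      have : U = M := Subgroup.eq_of_le_of_card_ge hUM hcon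
      exact hvU (this ▸ hVM hvV)
    rw [hUn, hm] at h1
    have h2 : n < m := (Nat.pow_lt_pow_iff_right hp.one_lt).mp h1
    have h3 : p ^ (n + 1) ≤ p ^ m := Nat.pow_le_pow_right hp.pos h2
    rw [hm] at hMcard ⊢
    rw [pow_succ'] at h3 ⊢
    omega
  have hrel : U.relIndex M = p := by
    have h1 := relIndex_mul_card_of_le hUM
    rw [hUn, hMcard', pow_succ'] at h1
    exact Nat.eq_of_mul_eq_mul_right (pow_pos hp.pos n) h1
  have hsup : U ⊔ V = M := by
    apply Subgroup.eq_of_le_of_card_ge (sup_le hUM hVM)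
    obtain ⟨m, hm⟩ := IsPGroup.iff_card.mp (hG.to_subgroup (U ⊔ V))
    have h1 : Nat.card U < Nat.card (U ⊔ V : Subgroup G) := by
      by_contra hcon
      push Not at hcon
      have : U = U ⊔ V := Subgroup.eq_of_le_of_card_ge le_sup_left hcon
      exact hvU (this ▸ (le_sup_right : V ≤ U ⊔ V) hvV)
    rw [hUn, hm] at h1
    have h2 : n < m := (Nat.pow_lt_pow_iff_right hp.one_lt).mp h1
    rw [hMcard', hm]
    exact Nat.pow_le_pow_right hp.pos h2
  -- `z ∈ V`
  have hw1 : v * u * v⁻¹ * u⁻¹ ≠ 1 := by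
    intro h
    apply hvU
    apply hcent
    calc v * u = v * u * v⁻¹ * u⁻¹ * u * v := by group
      _ = u * v := by rw [h, one_mul]
  have hzV : z ∈ V := by
    have hwZ := hMZ v (hVM hvV)
    have hwV : v * u * v⁻¹ * u⁻¹ ∈ V := by
      have h1 : u * v⁻¹ * u⁻¹ ∈ V := hVn.conj_mem v⁻¹ (V.inv_mem hvV) u
      have : v * u * v⁻¹ * u⁻¹ = v * (u * v⁻¹ * u⁻¹) := by group
      rw [this]; exact V.mul_mem hvV h1
    have hwo : orderOf (v * u * v⁻¹ * u⁻¹) = p := orderOf_eq_prime (hZexp _ hwZ) hw1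
    have heq : Subgroup.zpowers (v * u * v⁻¹ * u⁻¹) = Subgroup.zpowers z :=
      Subgroup.eq_of_le_of_card_ge (Subgroup.zpowers_le.mpr hwZ) (by
        rw [hZcard, Nat.card_zpowers, hwo])
    have hzw : z ∈ Subgroup.zpowers (v * u * v⁻¹ * u⁻¹) := by
      rw [heq]; exact Subgroup.mem_zpowers _
    exact (Subgroup.zpowers_le.mpr hwV) hzw
  have hZM : ∀ t ∈ Subgroup.zpowers z, ∀ x ∈ M, x * t = t * x := by
    intro t ht x hx
    have htQ : t ∈ Q := (Subgroup.zpowers_le.mpr hzQ) ht
    exact (Subgroup.mem_centralizer_iff.mp hx t htQ).symm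
  have hMZ' : ∀ a ∈ U, ∀ b ∈ M, b⁻¹ * a⁻¹ * b * a ∈ Subgroup.zpowers z := by
    intro a ha b hb
    have h1 : b⁻¹ * a⁻¹ * b ∈ U := by
      have := hUnorm.conj_mem a⁻¹ (U.inv_mem ha) b⁻¹
      simpa using this
    apply hZmem _ (U.mul_mem h1 ha)
    have hc : Commute (b⁻¹ * a⁻¹ * b) a := hUab _ h1 _ ha
    rw [hc.mul_pow]
    have h2 : (b⁻¹ * a⁻¹ * b) ^ p = b⁻¹ * (a ^ p)⁻¹ * b := by
      have := conj_pow (a := b⁻¹) (b := a⁻¹) (i := p)
      simpa using this
    rw [h2]
    have h3 : a ^ p * b = b * a ^ p := Subgroup.mem_centralizer_iff.mp hb (a ^ p) (hQmem a ha)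
    calc b⁻¹ * (a ^ p)⁻¹ * b * a ^ p = b⁻¹ * (a ^ p)⁻¹ * (b * a ^ p) := by group
      _ = b⁻¹ * (a ^ p)⁻¹ * (a ^ p * b) := by rw [h3]
      _ = 1 := by group
  have hpowform : ∀ a ∈ U, ∀ b ∈ V, (a * b) ^ p = 1 →
      a ^ p * (b⁻¹ * a⁻¹ * b * a) ^ (p.choose 2) = 1 := by
    intro a ha b hb hab
    have hrel' := basic_rel (⟨a, hUM ha⟩ : M) ⟨b, hVM hb⟩
    have ht : ((⟨b, hVM hb⟩ : M)⁻¹ * (⟨a, hUM ha⟩ : M)⁻¹ * ⟨b, hVM hb⟩ * ⟨a, hUM ha⟩ : M) ∈
        Subgroup.center M := by
      rw [Subgroup.mem_center_iff]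
      intro g
      apply Subtype.ext
      push_cast
      exact hZM _ (hMZ' a ha b (hVM hb)) g g.2
    have h3 := mul_pow_of_rel hrel' ht p
    have h4 := congrArg Subtype.val h3
    push_cast at h4
    rw [hab, hVexp b hb, mul_one] at h4
    exact h4.symm
  have hOmega : ∀ x ∈ M, x ^ p = 1 → (p ≠ 2 ∨ 3 ≤ n) → x ∈ V := by
    intro x hxM hxp hcase
    rw [← hsup] at hxM
    obtain ⟨a, ha, b, hb, rfl⟩ := Subgroup.mem_sup_of_normal_left.mp hxM
    have h1 := hpowform a ha b hb hxp
    have htZ : b⁻¹ * a⁻¹ * b * a ∈ Subgroup.zpowers z := hMZ' a ha b (hVM hb)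
    have htp : (b⁻¹ * a⁻¹ * b * a) ^ p = 1 := hZexp _ htZ
    have hap : a ^ p = 1 := by
      by_cases hp2 : p = 2
      · have hn3 : 3 ≤ n := by
          rcases hcase with h | h
          · exact absurd hp2 h
          · exact h
        rw [hp2] at h1 htp
        rw [Nat.choose_self, pow_one] at h1
        have ha4 : a ^ 4 = 1 := by
          have h5 : a ^ 2 = (b⁻¹ * a⁻¹ * b * a)⁻¹ := eq_inv_of_mul_eq_one_left h1
          calc a ^ 4 = (a ^ 2) ^ 2 := by rw [← pow_mul]
            _ = ((b⁻¹ * a⁻¹ * b * a) ^ 2)⁻¹ := by rw [h5, inv_pow]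
            _ = 1 := by rw [htp, inv_one]
        have haQ : a ∈ Q := by
          have ha' : a ∈ Subgroup.zpowers u := by rw [hUeq]; exact ha
          have hfin : IsOfFinOrder u := isOfFinOrder_of_finite u
          obtain ⟨i, hi⟩ := (Submonoid.mem_powers_iff _ _).mp
            (hfin.mem_powers_iff_mem_zpowers.mpr ha')
          rw [← hi, ← pow_mul] at ha4
          have hd : 2 ^ n ∣ i * 4 := by
            rw [← hp2, ← hord]; exact orderOf_dvd_of_pow_eq_one ha4
          have h8 : 8 ∣ i * 4 := by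
            refine Dvd.dvd.trans ⟨2 ^ (n - 3), ?_⟩ hd
            have : n = 3 + (n - 3) := by omega
            conv_lhs => rw [this, pow_add]
            norm_num
          have hd2 : 2 ∣ i := by omega
          obtain ⟨j, rfl⟩ := hd2
          have h6 := hQmem (u ^ j) (U.pow_mem huU j)
          rw [hp2, ← pow_mul, mul_comm j 2] at h6
          rw [← hi]; exact h6
        have hcomm : a * b = b * a := Subgroup.mem_centralizer_iff.mp (hVM hb) a haQ
        have ht1 : b⁻¹ * a⁻¹ * b * a = 1 := by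
          calc b⁻¹ * a⁻¹ * b * a = b⁻¹ * a⁻¹ * (b * a) := by group
            _ = b⁻¹ * a⁻¹ * (a * b) := by rw [hcomm]
            _ = 1 := by group
        rw [ht1, mul_one] at h1
        rw [hp2]; exact h1
      · have hd : p ∣ p.choose 2 := hp.dvd_choose_self (by norm_num) (by
          have := hp.two_le
          omega)
        obtain ⟨c, hc⟩ := hd
        rw [hc, pow_mul, htp, one_pow, mul_one] at h1
        exact h1
    have haV : a ∈ V := (Subgroup.zpowers_le.mpr hzV) (hZmem a ha hap)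
    exact V.mul_mem haV hb
  by_cases hcase : p ≠ 2 ∨ 3 ≤ n
  · right
    have hOmEq : Cfsg.omegaOne p M = V := by
      apply le_antisymm
      · rw [Cfsg.omegaOne, Subgroup.closure_le]
        rintro x ⟨hxM, hxp⟩
        exact hOmega x hxM hxp hcase
      · intro v hv
        exact Subgroup.subset_closure ⟨hVM hv, hVexp v hv⟩
    rw [hOmEq]
    refine ⟨hrel, ⟨⟨⟨fun a b => Subtype.ext (hVab a.1 a.2 b.1 b.2)⟩⟩, hVexp⟩, hVcard, ?_⟩
    rw [Subgroup.characteristic_iff_map_le]
    intro φ
    have hWn : (V.map φ.toMonoidHom).Normal := hVn.map φ.toMonoidHom φ.surjective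
    have hWcard : Nat.card (V.map φ.toMonoidHom) = p ^ 2 := by
      rw [Subgroup.card_map_of_injective φ.injective, hVcard]
    have hWM := hkey _ hWn hWcard
    intro w hw
    obtain ⟨v', hv', rfl⟩ := hw
    apply hOmega _ (hWM ⟨v', hv', rfl⟩) _ hcase
    show (φ v') ^ p = 1
    rw [← map_pow, hVexp v' hv', map_one]
  · push Not at hcase
    obtain ⟨hp2, hn3⟩ := hcase
    have hn2' : n = 2 := by omega
    left
    have hMtop : M = ⊤ := by
      rw [eq_top_iff]
      intro g _
      rw [hM, Subgroup.mem_centralizer_iff]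
      intro y hy
      have hyZ : y ∈ Subgroup.zpowers z := by
        have hQZ : Q ≤ Subgroup.zpowers z := by
          rw [hQ, Cfsg.powerClosure, Subgroup.closure_le]
          rintro y ⟨x, hx, rfl⟩
          apply hZmem _ (U.pow_mem hx _)
          rw [pow_one, ← pow_mul, ← pow_two, ← hn2', ← hUn]
          exact orderOf_dvd_iff_pow_eq_one.mp (Subgroup.orderOf_dvd_natCard U hx)
        exact hQZ hy
      have hyc : y ∈ Subgroup.center G := (Subgroup.zpowers_le.mpr hzcen) hyZ
      exact (Subgroup.mem_center_iff.mp hyc g).symm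
    have hGcard : Nat.card G = 2 ^ (n + 1) := by
      rw [← hp2, ← hMcard', hMtop, Subgroup.card_top]
    refine ⟨hp2, hGcard, Or.inl ⟨4, ?_⟩⟩
    have hord4 : orderOf u = 4 := by rw [hord, hp2, hn2']; norm_num
    have hzu : z = u ^ 2 := by rw [← hzdef, hp2, hn2']; norm_num
    have hvv : v * v = 1 := by
      have := hVexp v hvV
      rw [hp2, pow_two] at this
      exact this
    have hw : v * u * v⁻¹ * u⁻¹ = z := by
      obtain ⟨k, hk⟩ := Subgroup.mem_zpowers_iff.mp (hMZ v (hVM hvV))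
      have hzo2 : orderOf z = 2 := by rw [hzo, hp2]
      have h1 : z ^ (k % 2) = z ^ k := by
        have := zpow_mod_orderOf z k
        rw [hzo2] at this
        exact_mod_cast this
      have h2 : k % 2 = 0 ∨ k % 2 = 1 := by omega
      rcases h2 with h2 | h2
      · rw [h2, zpow_zero] at h1
        exact absurd (by rw [← hk, ← h1]) hw1
      · rw [h2, zpow_one] at h1
        rw [← hk, ← h1]
    have hconj : v * u * v⁻¹ = u⁻¹ := by
      have h1 : v * u * v⁻¹ = z * u := by
        rw [← hw]; group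
      rw [h1, hzu]
      have h4 : u ^ 4 = 1 := by rw [← hord4]; exact pow_orderOf_eq_one u
      calc u ^ 2 * u = u ^ 4 * u⁻¹ := by group
        _ = u⁻¹ := by rw [h4, one_mul]
    haveI : NeZero 4 := ⟨by norm_num⟩
    exact dihedral_of_gens 4 (by rw [hGcard, hn2']; norm_num) u v hord4 (by rw [hUeq]; exact hvU) hvv hconj

end Cfsg.Agent.S3761
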