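import Cfsg.Statements.S3762
import Cfsg.Agent.H3.Symp
import Cfsg.Agent.S3761

set_option autoImplicit false
open Cfsg

namespace Cfsg.Agent.S3762

/-- Let G be a finite p-group of symplectic type: every characteristic abelian subgroup of G is cyclic. Then G = E ∗ R is a central product of subgroups E and R (they commute elementwise and generate G) where E is extraspecial or trivial, and R is cyclic, or p = 2 and R is dihedral, semidihedral or generalized quaternion of order at least 16. -/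
theorem result {G : Type*} [Group G] [Finite G] {p : ℕ} [Fact p.Prime] (hG : IsPGroup p G) (hsymp : ∀ A : Subgroup G, A.Characteristic → IsMulCommutative A → IsCyclic A) : ∃ E R : Subgroup G, (∀ e ∈ E, ∀ r ∈ R, e * r = r * e) ∧ E ⊔ R = ⊤ ∧ (E = ⊥ ∨ Cfsg.IsExtraspecial p ↥E) ∧ (IsCyclic R ∨ (p = 2 ∧ 16 ≤ Nat.card R ∧ ((∃ m : ℕ, Nonempty (↥R ≃* DihedralGroup m)) ∨ (∃ m : ℕ, Nonempty (↥R ≃* QuaternionGroup m)) ∨ Cfsg.IsQuasiDihedral ↥R))) := by
  classical
  have hp : p.Prime := Fact.out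
  by_cases hsub : Subsingleton G
  · refine ⟨⊥, ⊤, ?_, bot_sup_eq _, Or.inl rfl, Or.inl ?_⟩
    · intro e he r _
      rw [Subgroup.mem_bot.mp he]; simp
    · exact isCyclic_of_subsingleton
  rw [not_subsingleton_iff_nontrivial] at hsub
  obtain ⟨H, K, hHc, hKc, hKH, hKcent, hcentK, hpowK, hcommK⟩ := H3.critical_subgroup_exists hG
  haveI := hKc
  haveI := hHc
  have hKn : K.Normal := inferInstance
  have hKHc : ∀ u ∈ K, ∀ x ∈ H, u * x = x * u := fun u hu x hx =>
    (Subgroup.mem_centralizer_iff.mp (hKcent hu) x hx).symm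
  have hKab : IsMulCommutative K :=
    ⟨⟨fun a b => Subtype.ext (hKHc a.1 a.2 b.1 (hKH b.2))⟩⟩
  have hKcyc := hsymp K hKc hKab
  obtain ⟨z, hzK, hKz⟩ := H3.symp_exists_zpowers_eq_of_isCyclic K hKcyc
  have hz1 : z ≠ 1 := by
    rintro rfl
    have hK : K = ⊥ := by rw [hKz]; simp
    have hcen : Subgroup.center G ≤ K := fun g hg => hcentK
      (Subgroup.mem_centralizer_iff.mpr (fun x _ => Subgroup.mem_center_iff.mp hg x))
    haveI := hG.center_nontrivial
    have h1 : Subgroup.center G ≠ ⊥ := (Subgroup.nontrivial_iff_ne_bot _).mp inferInstance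
    rw [hK, le_bot_iff] at hcen
    exact h1 hcen
  obtain ⟨m, hm⟩ : ∃ m, orderOf z = p ^ m := by
    obtain ⟨k, hk⟩ := hG z
    obtain ⟨m, -, hm⟩ := (Nat.dvd_prime_pow hp).mp (orderOf_dvd_of_pow_eq_one hk)
    exact ⟨m, hm⟩
  have hm0 : m ≠ 0 := by
    rintro rfl; rw [pow_zero] at hm; exact hz1 (orderOf_eq_one_iff.mp hm)
  obtain ⟨n, rfl⟩ := Nat.exists_eq_succ_of_ne_zero hm0
  obtain ⟨Z1, hZ1def⟩ : ∃ Z1 : Subgroup G, Z1 = Subgroup.zpowers (z ^ (p ^ n)) := ⟨_, rfl⟩
  have hZ1card : Nat.card Z1 = p := by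
    rw [hZ1def]; exact H3.symp_card_zpowers_pow_pow z n hm
  have hZ1K : Z1 ≤ K := by
    rw [hZ1def, Subgroup.zpowers_le]; exact K.pow_mem hzK _
  have hZ1 : ∀ t ∈ K, t ^ p = 1 → t ∈ Z1 := fun t ht htp => by
    rw [hZ1def]
    exact H3.symp_mem_zpowers_of_pow_eq_one z n hm t (by rw [← hKz]; exact ht) htp
  have hZ1pow : ∀ t ∈ Z1, t ^ p = 1 := by
    intro t ht
    have := pow_card_eq_one' (G := Z1) (x := ⟨t, ht⟩)
    rw [hZ1card] at this
    exact congrArg Subtype.val this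
  have hZ1n : Z1.Normal :=
    ⟨fun u hu g => hZ1 _ (hKn.conj_mem u (hZ1K hu) g) (by rw [conj_pow, hZ1pow u hu]; simp)⟩
  have hZ1cent : ∀ u ∈ Z1, ∀ g : G, u * g = g * u := by
    have hne : Z1 ≠ ⊥ := by
      intro h
      rw [h, Subgroup.card_bot] at hZ1card
      exact hp.one_lt.ne hZ1card
    obtain ⟨z₀, hz₀, hz₀c, hz₀1⟩ := H3.normal_inf_center_ne_bot hG Z1 hne
    have h2 : Subgroup.zpowers z₀ = Z1 :=
      Subgroup.eq_of_le_of_card_ge (Subgroup.zpowers_le.mpr hz₀)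
        (by rw [hZ1card, Nat.card_zpowers]; exact (orderOf_eq_prime (hZ1pow z₀ hz₀) hz₀1).ge)
    intro u hu g
    rw [← h2] at hu
    obtain ⟨i, rfl⟩ := Subgroup.mem_zpowers_iff.mp hu
    exact ((show Commute z₀ g from (Subgroup.mem_center_iff.mp hz₀c g).symm).zpow_left i).eq
  have c : H3.SympCrit p H K Z1 z n :=
    { hZH := hKH
      hZc := hKHc
      hcZ := fun g hg => hcentK (Subgroup.mem_centralizer_iff.mpr (fun x hx => (hg x hx).symm))
      hpow := hpowK
      hcomm := fun x hx y => by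
        have := hcommK x hx y
        rwa [commutatorElement_def] at this
      hZn := hKn
      hz := hKz
      hord := hm
      hZ1card := hZ1card
      hZ1Z := hZ1K
      hZ1 := hZ1
      hZ1cent := hZ1cent }
  obtain ⟨E, hZ1E, hEH, hEZ, hHEZ⟩ :
      ∃ E : Subgroup G, Z1 ≤ E ∧ E ≤ H ∧ E ⊓ K ≤ Z1 ∧ H ≤ E ⊔ K := by
    by_cases hsmall : p = 2 ∧ n = 0
    · refine ⟨H, hZ1K.trans hKH, le_rfl, ?_, le_sup_left⟩
      have : K = Z1 := by rw [hZ1def, hKz, hsmall.2, pow_zero, pow_one]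
      rw [this]; exact inf_le_right
    · apply c.exists_E
      apply H3.symp_lemmaX hG hsymp H K Z1 hHc hKc z hKz hz1 hKH hKHc
        (fun x _ h => c.hcZ x (fun y hy => h y hy)) hpowK hZ1card hZ1K c.comm_H
      intro t ht
      have h1 := hZ1pow t ht
      have h2 : t ∈ Subgroup.zpowers (z ^ (p ^ n)) := by rw [← hZ1def]; exact ht
      obtain ⟨s, hs, hs2⟩ := H3.symp_sq_aux z n 0 (by
        by_cases h : p = 2
        · right
          have : n ≠ 0 := fun h0 => hsmall ⟨h, h0⟩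
          omega
        · left; exact h) t h2 h1
      exact ⟨s, by rw [hKz]; simpa using hs, hs2⟩
  obtain ⟨R, hRdef⟩ : ∃ R : Subgroup G, R = Subgroup.centralizer (E : Set G) := ⟨_, rfl⟩
  have hsup : E ⊔ R = ⊤ := by rw [hRdef]; exact c.sup_R hG E hZ1E hEH hEZ hHEZ
  have hKR : K ≤ R := by rw [hRdef]; exact c.Z_le_R E hEH
  have hRcent : ∀ r ∈ R, (∀ u ∈ K, r * u = u * r) → r ∈ K := fun r hr h =>
    c.R_cent E hHEZ r (by rw [← hRdef]; exact hr) h
  have hERcomm : ∀ e ∈ E, ∀ r ∈ R, e * r = r * e := fun e he r hr =>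
    Subgroup.mem_centralizer_iff.mp (show r ∈ Subgroup.centralizer (E : Set G) by
      rw [← hRdef]; exact hr) e he
  have hEout : ∃ E' : Subgroup G, (∀ e ∈ E', ∀ r ∈ R, e * r = r * e) ∧ E' ⊔ R = ⊤ ∧
      (E' = ⊥ ∨ Cfsg.IsExtraspecial p ↥E') := by
    by_cases hEab : ∀ e ∈ E, ∀ e' ∈ E, e * e' = e' * e
    · refine ⟨⊥, ?_, ?_, Or.inl rfl⟩
      · intro e he r _
        rw [Subgroup.mem_bot.mp he]; simp
      · have hER : E ≤ R := fun e he =>
          hKR (hZ1K (c.E_center E hEH hEZ hHEZ e he (hEab e he)))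
        rw [bot_sup_eq, ← hsup]; exact (sup_eq_right.mpr hER).symm
    · push Not at hEab
      obtain ⟨e, he, e', he', hne⟩ := hEab
      haveI := hZ1n
      exact ⟨E, hERcomm, hsup, Or.inr (H3.symp_extraspecial_of hG E Z1 hZ1E hZ1card
        (c.E_center E hEH hEZ hHEZ) (fun u hu e _ => hZ1cent u hu e)
        (fun e he e' _ => c.E_comm E hEH hEZ e he e') (c.E_pow E hEH hEZ)
        ⟨e, he, e', he', hne⟩)⟩
  obtain ⟨E', hE'comm, hE'sup, hE'⟩ := hEout
  by_cases hRab : ∀ r ∈ R, ∀ r' ∈ R, r * r' = r' * r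
  · refine ⟨E', R, hE'comm, hE'sup, hE', Or.inl ?_⟩
    have hRK : R = K :=
      le_antisymm (fun r hr => hRcent r hr (fun u hu => hRab r hr u (hKR hu))) hKR
    rw [hRK]; exact hKcyc
  push Not at hRab
  obtain ⟨r₁, hr₁, r₂, hr₂, hr₁₂⟩ := hRab
  have hna' : ∃ r ∈ Subgroup.centralizer (E : Set G), ∃ r' ∈ Subgroup.centralizer (E : Set G),
      r * r' ≠ r' * r :=
    ⟨r₁, by rw [← hRdef]; exact hr₁, r₂, by rw [← hRdef]; exact hr₂, hr₁₂⟩
  have hn1 : 1 ≤ n := by
    by_contra hn0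
    have hn0' : n = 0 := by omega
    have hKZ1 : K = Z1 := by rw [hZ1def, hKz, hn0', pow_zero, pow_one]
    apply hr₁₂
    have h1 : r₁ ∈ K := hRcent r₁ hr₁ (fun u hu => (hZ1cent u (by rw [← hKZ1]; exact hu) r₁).symm)
    have h2 : r₂ ∈ K := hRcent r₂ hr₂ (fun u hu => (hZ1cent u (by rw [← hKZ1]; exact hu) r₂).symm)
    exact c.Zab r₁ h1 r₂ h2
  have hsmallcase : p = 2 → n = 1 → ∃ E R : Subgroup G, (∀ e ∈ E, ∀ r ∈ R, e * r = r * e) ∧
      E ⊔ R = ⊤ ∧ (E = ⊥ ∨ Cfsg.IsExtraspecial p ↥E) ∧ (IsCyclic R ∨ (p = 2 ∧ 16 ≤ Nat.card R ∧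
      ((∃ m : ℕ, Nonempty (↥R ≃* DihedralGroup m)) ∨ (∃ m : ℕ, Nonempty (↥R ≃* QuaternionGroup m)) ∨
        Cfsg.IsQuasiDihedral ↥R))) := by
    intro hp2 hn
    subst hp2
    subst hn
    refine ⟨⊤, ⊥, ?_, by simp, Or.inr (c.small_case hG E hZ1E hEH hEZ hHEZ hna'), Or.inl ?_⟩
    · intro e _ r hr
      rw [Subgroup.mem_bot.mp hr]; simp
    · exact isCyclic_of_subsingleton
  haveI : (K.subgroupOf R).Normal := inferInstance
  have hUcyc : IsCyclic ↥(K.subgroupOf R) :=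
    (Subgroup.subgroupOfEquivOfLe hKR).isCyclic.mpr hKcyc
  have hUcard : Nat.card ↥(K.subgroupOf R) = p ^ (n + 1) := by
    rw [Nat.card_congr (Subgroup.subgroupOfEquivOfLe hKR).toEquiv, hKz, Nat.card_zpowers, hm]
  have hUC : Subgroup.centralizer ((K.subgroupOf R : Subgroup ↥R) : Set ↥R) = K.subgroupOf R := by
    ext r
    rw [Subgroup.mem_centralizer_iff, Subgroup.mem_subgroupOf]
    constructor
    · intro h
      apply hRcent r.1 r.2
      intro u hu
      have := h ⟨u, hKR hu⟩ (Subgroup.mem_subgroupOf.mpr hu)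
      exact (congrArg Subtype.val this).symm
    · intro h u hu
      exact Subtype.ext (c.Zab u.1 (Subgroup.mem_subgroupOf.mp hu) r.1 h)
  have hRna : ¬ IsMulCommutative ↥R := by
    intro h
    exact hr₁₂ (congrArg Subtype.val (h.is_comm.comm ⟨r₁, hr₁⟩ ⟨r₂, hr₂⟩))
  rcases Cfsg.Agent.S3761.result (hG.to_subgroup R) hRna (K.subgroupOf R) hUcyc (n + 1) hUcard hUC
    with ⟨hp2, hcardR, htri⟩ | ⟨hrel, -, -, -⟩
  · by_cases h16 : 16 ≤ Nat.card R
    · exact ⟨E', R, hE'comm, hE'sup, hE', Or.inr ⟨hp2, h16, htri⟩⟩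
    · apply hsmallcase hp2
      push Not at h16
      rw [hcardR] at h16
      have h4 : n + 1 + 1 < 4 :=
        (Nat.pow_lt_pow_iff_right (by norm_num : 1 < 2)).mp (by simpa using h16)
      omega
  · by_cases hbig : p ≠ 2 ∨ 2 ≤ n
    · exfalso
      obtain ⟨U, hU⟩ : ∃ U : Subgroup ↥R, U = K.subgroupOf R := ⟨_, rfl⟩
      obtain ⟨M', hM'⟩ : ∃ M' : Subgroup ↥R,
          M' = Subgroup.centralizer (Cfsg.powerClosure p 1 U : Set ↥R) := ⟨_, rfl⟩
      rw [← hU, ← hM'] at hrel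
      haveI hUn : U.Normal := by rw [hU]; infer_instance
      have hUmem : ∀ r : ↥R, r ∈ U ↔ r.1 ∈ K := fun r => by rw [hU, Subgroup.mem_subgroupOf]
      have hM'mem : ∀ r : ↥R, r ∈ M' ↔ ∀ s ∈ K, r.1 * s ^ p = s ^ p * r.1 := by
        intro r
        rw [hM', H3.symp_mem_centralizer_powerClosure]
        constructor
        · intro h s hs
          have := h ⟨s, hKR hs⟩ ((hUmem _).mpr hs)
          exact (congrArg Subtype.val this).symm
        · intro h u hu
          exact Subtype.ext (h u.1 ((hUmem u).mp hu)).symm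
      have hUM' : U ≤ M' := fun u hu => (hM'mem u).mpr
        (fun s hs => c.Zab _ ((hUmem u).mp hu) _ (K.pow_mem hs p))
      have hex : ∃ w' ∈ M', w' ∉ U := by
        by_contra hcon
        push Not at hcon
        have h1 : M' ≤ U := hcon
        have h2 := Subgroup.relIndex_eq_one.mpr h1
        rw [hrel] at h2
        exact hp.one_lt.ne' h2
      obtain ⟨w', hw'M, hw'U⟩ := hex
      have hT1 : ∀ r ∈ Subgroup.centralizer (E : Set G), (∀ s ∈ K, r * s ^ p = s ^ p * r) →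
          r ∉ K → ∀ r' ∈ Subgroup.centralizer (E : Set G),
          (∀ s ∈ K, r' * s ^ p = s ^ p * r') → ∃ u ∈ K, ∃ i : ℤ, r' = u * r ^ i := by
        intro r hr hrN hrK r' hr' hr'N
        have hr_R : r ∈ R := by rw [hRdef]; exact hr
        have hr'_R : r' ∈ R := by rw [hRdef]; exact hr'
        have hρM : (⟨r, hr_R⟩ : ↥R) ∈ M' := (hM'mem _).mpr hrN
        have hρ'M : (⟨r', hr'_R⟩ : ↥R) ∈ M' := (hM'mem _).mpr hr'N
        have hρU : (⟨r, hr_R⟩ : ↥R) ∉ U := fun h => hrK ((hUmem _).mp h)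
        obtain ⟨L, hL⟩ : ∃ L : Subgroup ↥R, L = U ⊔ Subgroup.zpowers (⟨r, hr_R⟩ : ↥R) := ⟨_, rfl⟩
        have hUL : U ≤ L := by rw [hL]; exact le_sup_left
        have hLM : L ≤ M' := by rw [hL]; exact sup_le hUM' (Subgroup.zpowers_le.mpr hρM)
        have h1 := Subgroup.relIndex_mul_relIndex U L M' hUL hLM
        rw [hrel] at h1
        have h2 : U.relIndex L ≠ 1 := by
          intro h
          apply hρU
          apply Subgroup.relIndex_eq_one.mp h
          rw [hL]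
          exact Subgroup.mem_sup_right (Subgroup.mem_zpowers _)
        have h3 : L.relIndex M' = 1 := by
          rcases (Nat.dvd_prime hp).mp (Dvd.intro _ h1) with h | h
          · exact absurd h h2
          · rw [h] at h1
            exact Nat.eq_of_mul_eq_mul_left hp.pos (by rw [h1, mul_one])
        have h4 : M' ≤ L := Subgroup.relIndex_eq_one.mp h3
        have h5 : (⟨r', hr'_R⟩ : ↥R) ∈ U ⊔ Subgroup.zpowers (⟨r, hr_R⟩ : ↥R) := by
          rw [← hL]; exact h4 hρ'M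
        obtain ⟨u, hu, k, hk, hρ'⟩ := H3.mem_sup_of_normalizes U
          (Subgroup.zpowers (⟨r, hr_R⟩ : ↥R)) (fun k _ u hu => hUn.conj_mem u hu k) h5
        obtain ⟨i, rfl⟩ := Subgroup.mem_zpowers_iff.mp hk
        refine ⟨u.1, (hUmem u).mp hu, i, ?_⟩
        have := congrArg Subtype.val hρ'
        simpa using this
      have hT2 : ∀ r ∈ Subgroup.centralizer (E : Set G), (∀ s ∈ K, r * s ^ p = s ^ p * r) →
          r ^ p ∈ K := by
        intro r hr hrN
        have hr_R : r ∈ R := by rw [hRdef]; exact hr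
        have hρM : (⟨r, hr_R⟩ : ↥R) ∈ M' := (hM'mem _).mpr hrN
        have h := Subgroup.pow_relIndex_mem U hρM
        rw [hrel] at h
        have h2 := (hUmem _).mp h
        simpa using h2
      exact c.bad_case hG hsymp hKc E hZ1E hEH hEZ hHEZ hn1 hbig w'.1
        (by rw [← hRdef]; exact w'.2) ((hM'mem w').mp hw'M)
        (fun h => hw'U ((hUmem w').mpr h)) hT1 hT2
    · push Not at hbig
      exact hsmallcase hbig.1 (by omega)

end Cfsg.Agent.S3762
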