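import Cfsg.Statements.S3764
import Cfsg.Agent.H13.CopHH6

set_option autoImplicit false
open Cfsg

namespace Cfsg.Agent.S3764

/-- Let p, q, r be distinct primes and let X, Q, V be subgroups of a finite group with X of order r, Q an extraspecial q-group normalized by X with C_Q(X) = Z(Q), and V an elementary abelian p-group normalized by X and Q on which XQ acts faithfully ((X ⊔ Q) ∩ C(V) = 1). If C_V(X) = 1, then q = 2, r = 2^n + 1 for some n, and Q has order 2^(2n+1). -/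
theorem result {G : Type*} [Group G] [Finite G] {p q r : ℕ} (hp : p.Prime) (hq : q.Prime) (hr : r.Prime) (hpq : p ≠ q) (hpr : p ≠ r) (hqr : q ≠ r) (X Q V : Subgroup G) (hX : Nat.card X = r) (hQ : Cfsg.IsExtraspecial q ↥Q) (hXQ : X ≤ Subgroup.normalizer (Q : Set G)) (hCQ : Q ⊓ Subgroup.centralizer (X : Set G) = (Subgroup.center ↥Q).map Q.subtype) (hV : Cfsg.IsElementaryAbelian p V) (hXV : X ≤ Subgroup.normalizer (V : Set G)) (hQV : Q ≤ Subgroup.normalizer (V : Set G)) (hfaith : (X ⊔ Q) ⊓ Subgroup.centralizer (V : Set G) = ⊥) (hCV : V ⊓ Subgroup.centralizer (X : Set G) = ⊥) : q = 2 ∧ ∃ n : ℕ, r = 2 ^ n + 1 ∧ Nat.card Q = 2 ^ (2 * n + 1) := by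
  classical
  have : Fact p.Prime := ⟨hp⟩
  have : Fact q.Prime := ⟨hq⟩
  have : Fact r.Prime := ⟨hr⟩
  obtain ⟨⟨hQp, hfrat, hcommQ⟩, hZq⟩ := hQ
  obtain ⟨x, hxX, hx1, hxr, hXz, hcent⟩ := Cfsg.Agent.H13.CopHH.exists_gen_of_prime_card X hr hX
  have hCVx : V ⊓ Subgroup.centralizer {x} = ⊥ := by rw [hcent]; exact hCV
  have hxQ : x ∈ Subgroup.normalizer (Q : Set G) := hXQ hxX
  have hxV : x ∈ Subgroup.normalizer (V : Set G) := hXV hxX
  have hZtop : Subgroup.center ↥Q ≠ ⊤ := by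
    intro h
    have h1 : commutator ↥Q = ⊥ := (commutator_eq_bot_iff_center_eq_top ↥Q).mpr h
    rw [hcommQ] at h1
    rw [h1, Subgroup.card_bot] at hZq
    exact hq.one_lt.ne hZq
  have hcomm : ∀ a b : ↥Q, a * b * a⁻¹ * b⁻¹ ∈ Subgroup.center ↥Q := by
    intro a b
    rw [← hcommQ, commutator_def, ← commutatorElement_def]
    exact Subgroup.commutator_mem_commutator (Subgroup.mem_top a) (Subgroup.mem_top b)
  have hCQ' : ∀ a : ↥Q, x * (a : G) = (a : G) * x ↔ a ∈ Subgroup.center ↥Q := by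
    intro a
    have h1 : a ∈ Subgroup.center ↥Q ↔ (a : G) ∈ (Subgroup.center ↥Q).map Q.subtype := by
      constructor
      · intro h
        exact ⟨a, h, rfl⟩
      · rintro ⟨b, hb, hba⟩
        have : b = a := Subtype.ext hba
        rw [← this]; exact hb
    rw [h1, ← hCQ, Subgroup.mem_inf, ← hcent, Subgroup.mem_centralizer_iff]
    constructor
    · intro h
      refine ⟨a.2, ?_⟩
      intro y hy
      rw [Set.mem_singleton_iff] at hy
      rw [hy]; exact h
    · rintro ⟨-, h⟩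
      exact h x (Set.mem_singleton x)
  have hfaith' : Q ⊓ Subgroup.centralizer (V : Set G) = ⊥ := by
    rw [eq_bot_iff, ← hfaith]
    exact inf_le_inf_right _ le_sup_right
  have hidx := Cfsg.Agent.H13.CopHH.cop_special_group p q r hpq hpr hqr V Q x hV hQp hZq hZtop
    hcomm hxr hxQ hxV hQV hCQ' hfaith' hCVx
  have hcard : Nat.card ↥Q = q * (r - 1) ^ 2 := by
    rw [← Subgroup.card_mul_index (Subgroup.center ↥Q), hZq, hidx]
  obtain ⟨k, hk⟩ := IsPGroup.iff_card.mp hQp
  have hdvd : (r - 1) ∣ q ^ k := by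
    rw [← hk, hcard]
    exact Dvd.dvd.mul_left (dvd_pow_self _ (by norm_num)) _
  obtain ⟨n, -, hn⟩ := (Nat.dvd_prime_pow hq).mp hdvd
  have hn1 : 1 ≤ n := by
    by_contra h
    have h0 : n = 0 := by omega
    rw [h0, pow_zero] at hn
    rw [hn, one_pow] at hidx
    exact hZtop (Subgroup.index_eq_one.mp hidx)
  have h2 : 2 ≤ q ^ n := by
    calc 2 ≤ q := hq.two_le
      _ = q ^ 1 := (pow_one q).symm
      _ ≤ q ^ n := Nat.pow_le_pow_right hq.pos hn1
  have hq2 : q = 2 := by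
    by_contra hq2
    have hqodd : Odd q := hq.odd_of_ne_two hq2
    have h1 : Odd (q ^ n) := hqodd.pow
    rw [← hn] at h1
    rcases hr.eq_two_or_odd' with h | h
    · rw [h] at hn
      omega
    · obtain ⟨i, hi⟩ := h
      obtain ⟨j, hj⟩ := h1
      omega
  refine ⟨hq2, n, ?_, ?_⟩
  · have := hr.one_lt
    rw [hq2] at hn
    omega
  · rw [hcard, hn, hq2]
    ring

end Cfsg.Agent.S3764
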