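import Cfsg.Statements.S3765
import Cfsg.Agent.H13.CopHH6

set_option autoImplicit false
open Cfsg

namespace Cfsg.Agent.S3765

/-- Let p, q, r be distinct primes and let X, Q, V be subgroups of a finite group with X of order r normalizing the q-group Q and acting faithfully on it (X ∩ C(Q) = 1), and V a nontrivial elementary abelian p-group normalized by X and Q on which XQ acts faithfully. If q = 2 and r has the form 2^n + 1, assume in addition that Q is abelian. Then C_V(X) ≠ 1. -/
theorem result {G : Type*} [Group G] [Finite G] {p q r : ℕ} (hp : p.Prime) (hq : q.Prime) (hr : r.Prime) (hpq : p ≠ q) (hpr : p ≠ r) (hqr : q ≠ r) (X Q V : Subgroup G) (hX : Nat.card X = r) (hQ : IsPGroup q Q) (hXQ : X ≤ Subgroup.normalizer (Q : Set G)) (hXfaith : X ⊓ Subgroup.centralizer (Q : Set G) = ⊥) (hV : Cfsg.IsElementaryAbelian p V) (hV1 : V ≠ ⊥) (hXV : X ≤ Subgroup.normalizer (V : Set G)) (hQV : Q ≤ Subgroup.normalizer (V : Set G)) (hfaith : (X ⊔ Q) ⊓ Subgroup.centralizer (V : Set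 G) = ⊥) (hexc : q = 2 → (∃ n : ℕ, r = 2 ^ n + 1) → IsMulCommutative Q) : V ⊓ Subgroup.centralizer (X : Set G) ≠ ⊥ := by
  classical
  intro hCV
  have : Fact p.Prime := ⟨hp⟩
  have : Fact q.Prime := ⟨hq⟩
  have : Fact r.Prime := ⟨hr⟩
  obtain ⟨x, hxX, hx1, hxr, hXz, hcent⟩ := Cfsg.Agent.H13.CopHH.exists_gen_of_prime_card X hr hX
  have hCVx : V ⊓ Subgroup.centralizer {x} = ⊥ := by rw [hcent]; exact hCV
  have hxQ : x ∈ Subgroup.normalizer (Q : Set G) := hXQ hxX
  have hxV : x ∈ Subgroup.normalizer (V : Set G) := hXV hxX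
  rcases Cfsg.Agent.H13.CopHH.chm_group p q r hpq hpr hqr V Q x hV hQ hxr hxQ hxV hQV hCVx with
    h | ⟨hnab, m, hm1, hm⟩
  · -- `x` centralises `Q`
    have hxc : x ∈ X ⊓ Subgroup.centralizer (Q : Set G) := by
      refine Subgroup.mem_inf.mpr ⟨hxX, ?_⟩
      rw [Subgroup.mem_centralizer_iff]
      intro a ha
      have h1 : x * a * x⁻¹ * a⁻¹ ∈ (X ⊔ Q) ⊓ Subgroup.centralizer (V : Set G) := by
        refine Subgroup.mem_inf.mpr ⟨?_, h a ha⟩
        have h2 : x * a * x⁻¹ ∈ Q := (Subgroup.mem_normalizer_iff.mp hxQ a).mp ha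
        exact (le_sup_right : Q ≤ X ⊔ Q) (Q.mul_mem h2 (Q.inv_mem ha))
      rw [hfaith, Subgroup.mem_bot] at h1
      have h3 : x * a = a * x := by
        calc x * a = (x * a * x⁻¹ * a⁻¹) * (a * x) := by group
          _ = a * x := by rw [h1, one_mul]
      exact h3.symm
    rw [hXfaith, Subgroup.mem_bot] at hxc
    exact hx1 hxc
  · by_cases hq2 : q = 2
    · have hr' : r = 2 ^ m + 1 := by
        have := hr.one_lt
        rw [hq2] at hm
        omega
      have hab := hexc hq2 ⟨m, hr'⟩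
      apply hnab
      intro a ha b hb
      have h1 := hab.is_comm.comm (⟨a, ha⟩ : ↥Q) ⟨b, hb⟩
      exact congrArg Subtype.val h1
    · have hqodd : Odd q := hq.odd_of_ne_two hq2
      have h1 : Odd (q ^ m) := hqodd.pow
      rw [← hm] at h1
      have hr2 : r = 2 := by
        rcases hr.eq_two_or_odd' with h | h
        · exact h
        · exfalso
          obtain ⟨k, hk⟩ := h
          obtain ⟨j, hj⟩ := h1
          omega
      rw [hr2] at hm
      have h2 : 2 ≤ q ^ m := by
        calc 2 ≤ q := hq.two_le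
          _ = q ^ 1 := (pow_one q).symm
          _ ≤ q ^ m := Nat.pow_le_pow_right hq.pos hm1
      omega

end Cfsg.Agent.S3765
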