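import Cfsg.Statements.S3766
import Cfsg.Agent.H66.Layer
import Cfsg.Agent.H66.DSer

set_option autoImplicit false
open Cfsg
open scoped commutatorElement

namespace Cfsg.Agent.S3766

open Cfsg.Agent.H66
open Cfsg.Agent.H60 (dser)

section

variable {G : Type*} [Group G]

/-- `U / V` is a chief factor of `G`. -/
def IsChief (U V : Subgroup G) : Prop :=
  U.Normal ∧ V.Normal ∧ V < U ∧ ∀ W : Subgroup G, W.Normal → V ≤ W → W ≤ U → W = V ∨ W = U

theorem sup_commutator_le (A B C : Subgroup G) [A.Normal] [B.Normal] [C.Normal] :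
    ⁅A ⊔ B, C⁆ ≤ ⁅A, C⁆ ⊔ ⁅B, C⁆ := by
  rw [Subgroup.commutator_le]
  intro x hx c hc
  obtain ⟨a, ha, b, hb, rfl⟩ := Subgroup.mem_sup_of_normal_right.mp hx
  have h1 : ⁅a * b, c⁆ = a * ⁅b, c⁆ * a⁻¹ * ⁅a, c⁆ := by
    simp only [commutatorElement_def]; group
  rw [h1]
  have hn : (⁅A, C⁆ ⊔ ⁅B, C⁆).Normal := inferInstance
  exact (⁅A, C⁆ ⊔ ⁅B, C⁆).mul_mem
    (hn.conj_mem _ ((le_sup_right : ⁅B, C⁆ ≤ _) (Subgroup.commutator_mem_commutator hb hc)) a)
    ((le_sup_left : ⁅A, C⁆ ≤ _) (Subgroup.commutator_mem_commutator ha hc))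

theorem lcs_normal (S : Subgroup G) [S.Normal] : ∀ n, (S.lowerCentralSeries n).Normal
  | 0 => by rw [Subgroup.lowerCentralSeries_zero]; infer_instance
  | n + 1 => by
    have := lcs_normal S n
    rw [Subgroup.lowerCentralSeries_succ]; infer_instance

/-- A nilpotent normal subgroup centralizes every chief factor. -/
theorem commutator_le_of_isChief (F : Subgroup G) [F.Normal] (hF : Group.IsNilpotent F)
    (U V : Subgroup G) (h : IsChief U V) : ⁅U, F⁆ ≤ V := by
  obtain ⟨hU, hV, hlt, hmax⟩ := h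
  have hW : (V ⊔ ⁅U, F⁆).Normal := inferInstance
  rcases hmax (V ⊔ ⁅U, F⁆) hW le_sup_left (sup_le hlt.le (Subgroup.commutator_le_left U F)) with h1 | h1
  · rw [← h1]; exact le_sup_right
  · exfalso
    obtain ⟨c, hc⟩ := (Subgroup.isNilpotent_iff_lowerCentralSeries F).mp hF
    have key : ∀ k, U ≤ V ⊔ F.lowerCentralSeries k := by
      intro k
      induction k with
      | zero =>
        rw [Subgroup.lowerCentralSeries_zero]
        calc U = V ⊔ ⁅U, F⁆ := h1.symm
          _ ≤ V ⊔ F := sup_le_sup_left (Subgroup.commutator_le_right U F) V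
      | succ k ih =>
        have := lcs_normal F k
        calc U = V ⊔ ⁅U, F⁆ := h1.symm
          _ ≤ V ⊔ ⁅V ⊔ F.lowerCentralSeries k, F⁆ :=
            sup_le_sup_left (Subgroup.commutator_mono ih le_rfl) V
          _ ≤ V ⊔ (⁅V, F⁆ ⊔ ⁅F.lowerCentralSeries k, F⁆) :=
            sup_le_sup_left (sup_commutator_le _ _ _) V
          _ ≤ V ⊔ F.lowerCentralSeries (k + 1) := by
            rw [Subgroup.lowerCentralSeries_succ]
            exact sup_le le_sup_left (sup_le ((Subgroup.commutator_le_left V F).trans le_sup_left)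
              le_sup_right)
    have := key c
    rw [hc, sup_bot_eq] at this
    exact absurd this (not_le_of_gt hlt)

/-- Iterated commutators `[W, M, …, M]`. -/
def iterComm (M : Subgroup G) (W : Subgroup G) : ℕ → Subgroup G
  | 0 => W
  | c + 1 => ⁅iterComm M W c, M⁆

theorem iterComm_mono (M : Subgroup G) {W W' : Subgroup G} (h : W ≤ W') :
    ∀ c, iterComm M W c ≤ iterComm M W' c
  | 0 => h
  | c + 1 => Subgroup.commutator_mono (iterComm_mono M h c) le_rfl

theorem iterComm_succ' (M W : Subgroup G) : ∀ c, iterComm M W (c + 1) = iterComm M ⁅W, M⁆ c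
  | 0 => rfl
  | c + 1 => by
    show ⁅iterComm M W (c + 1), M⁆ = ⁅iterComm M ⁅W, M⁆ c, M⁆
    rw [iterComm_succ' M W c]

theorem exists_iterComm_eq_bot [Finite G] (F M : Subgroup G)
    (hM : ∀ U V : Subgroup G, IsChief U V → U ≤ F → ⁅U, M⁆ ≤ V) :
    ∀ (n : ℕ) (W : Subgroup G), W.Normal → W ≤ F → Nat.card W ≤ n → ∃ c, iterComm M W c = ⊥ := by
  intro n
  induction n with
  | zero =>
    intro W _ _ hc
    exact absurd hc (by have := Nat.card_pos (α := W); omega)
  | succ n ih =>
    intro W hWn hWF hc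
    by_cases hW : W = ⊥
    · exact ⟨0, hW⟩
    · have hbot : (⊥ : Subgroup G) ∈ {V : Subgroup G | V.Normal ∧ V < W} :=
        ⟨inferInstance, bot_lt_iff_ne_bot.mpr hW⟩
      obtain ⟨V, -, hVmax⟩ := (Set.toFinite {V : Subgroup G | V.Normal ∧ V < W}).exists_le_maximal
        hbot
      obtain ⟨⟨hVn, hVlt⟩, hVm⟩ := hVmax
      have hchief : IsChief W V := by
        refine ⟨hWn, hVn, hVlt, ?_⟩
        intro W' hW'n hVW' hW'W
        by_cases h : W' = W
        · exact Or.inr h
        · left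
          exact le_antisymm (hVm ⟨hW'n, lt_of_le_of_ne hW'W h⟩ hVW') hVW'
      have h1 : ⁅W, M⁆ ≤ V := hM W V hchief hWF
      have hcV : Nat.card V ≤ n := by
        have := H1.card_lt_card_of_lt hVlt
        omega
      obtain ⟨c, hc'⟩ := ih V hVn (hVlt.le.trans hWF) hcV
      refine ⟨c + 1, ?_⟩
      rw [iterComm_succ', eq_bot_iff, ← hc']
      exact iterComm_mono M h1 c

/-- A normal subgroup `M` with `M' ≤ F` that centralizes every chief factor below `F` is
nilpotent. -/
theorem isNilpotent_of_centralizes_chief [Finite G] (F M : Subgroup G) [F.Normal]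
    (hMF : ⁅M, M⁆ ≤ F) (hM : ∀ U V : Subgroup G, IsChief U V → U ≤ F → ⁅U, M⁆ ≤ V) :
    Group.IsNilpotent M := by
  obtain ⟨c, hc⟩ := exists_iterComm_eq_bot F M hM (Nat.card F) F inferInstance le_rfl le_rfl
  rw [Subgroup.isNilpotent_iff_lowerCentralSeries M]
  refine ⟨1 + c, ?_⟩
  have key : ∀ j, M.lowerCentralSeries (1 + j) ≤ iterComm M F j := by
    intro j
    induction j with
    | zero =>
      show M.lowerCentralSeries 1 ≤ F
      rw [Subgroup.lowerCentralSeries_succ, Subgroup.lowerCentralSeries_zero]; exact hMF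
    | succ j ih =>
      rw [← Nat.add_assoc, Subgroup.lowerCentralSeries_succ]
      exact Subgroup.commutator_mono ih le_rfl
  rw [eq_bot_iff, ← hc]; exact key c

/-- The elements centralizing the section `U / V`. -/
def centSection (U V : Subgroup G) [U.Normal] [hV : V.Normal] : Subgroup G where
  carrier := {g | ∀ u ∈ U, u * g * u⁻¹ * g⁻¹ ∈ V}
  one_mem' := by
    intro u _
    simp
  mul_mem' := by
    intro g h hg hh u hu
    have e : u * (g * h) * u⁻¹ * (g * h)⁻¹ =
        (u * g * u⁻¹ * g⁻¹) * (g * (u * h * u⁻¹ * h⁻¹) * g⁻¹) := by group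
    rw [e]
    exact V.mul_mem (hg u hu) (hV.conj_mem _ (hh u hu) g)
  inv_mem' := by
    intro g hg u hu
    have e : u * g⁻¹ * u⁻¹ * g⁻¹⁻¹ = g⁻¹ * (u * g * u⁻¹ * g⁻¹)⁻¹ * g⁻¹⁻¹ := by group
    rw [e]
    exact hV.conj_mem _ (V.inv_mem (hg u hu)) g⁻¹

instance centSection_normal (U V : Subgroup G) [hU : U.Normal] [hV : V.Normal] :
    (centSection U V).Normal := by
  constructor
  intro g hg x u hu
  have e : u * (x * g * x⁻¹) * u⁻¹ * (x * g * x⁻¹)⁻¹ =
      x * ((x⁻¹ * u * x⁻¹⁻¹) * g * (x⁻¹ * u * x⁻¹⁻¹)⁻¹ * g⁻¹) * x⁻¹ := by group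
  rw [e]
  exact hV.conj_mem _ (hg _ (hU.conj_mem u hu x⁻¹)) x

end

/-- Let G be a finite solvable group and N a normal subgroup of G. Call a pair V < U of normal subgroups of G a chief factor of G when no normal subgroup of G lies strictly between them; an element g centralizes the chief factor U/V when u g u⁻¹ g⁻¹ ∈ V for all u ∈ U. Then an element of G lies in the Fitting subgroup F(N) if and only if it lies in N and centralizes every chief factor of G; and also if and only if it lies in N and centralizes every chief factor U/V of G with U ≤ F(N). -/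
theorem result {G : Type*} [Group G] [Finite G] (hG : Group.IsSolvable G) (N : Subgroup G) [N.Normal] (g : G) : (g ∈ (Cfsg.fittingSubgroup ↥N).map N.subtype ↔ g ∈ N ∧ ∀ U V : Subgroup G, (U.Normal ∧ V.Normal ∧ V < U ∧ ∀ W : Subgroup G, W.Normal → V ≤ W → W ≤ U → W = V ∨ W = U) → ∀ u ∈ U, u * g * u⁻¹ * g⁻¹ ∈ V) ∧ (g ∈ (Cfsg.fittingSubgroup ↥N).map N.subtype ↔ g ∈ N ∧ ∀ U V : Subgroup G, (U.Normal ∧ V.Normal ∧ V < U ∧ ∀ W : Subgroup G, W.Normal → V ≤ W → W ≤ U → W = V ∨ W = U) → U ≤ (Cfsg.fittingSubgroup ↥N).map N.subtype → ∀ u ∈ U, u * g * u⁻¹ * g⁻¹ ∈ V) := by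
  have hFn : ((Cfsg.fittingSubgroup ↥N).map N.subtype).Normal := map_fitting_normal N
  have hFnil : Group.IsNilpotent ((Cfsg.fittingSubgroup ↥N).map N.subtype) :=
    (Group.isNilpotent_congr
      ((fittingSubgroup N).equivMapOfInjective N.subtype N.subtype_injective)).1
      H27.fitting_nilpotent
  have hFN : (Cfsg.fittingSubgroup ↥N).map N.subtype ≤ N := Subgroup.map_subtype_le _
  -- [A]
  have hA : g ∈ (Cfsg.fittingSubgroup ↥N).map N.subtype → g ∈ N ∧ ∀ U V : Subgroup G,
      (U.Normal ∧ V.Normal ∧ V < U ∧ ∀ W : Subgroup G, W.Normal → V ≤ W → W ≤ U → W = V ∨ W = U) →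
      ∀ u ∈ U, u * g * u⁻¹ * g⁻¹ ∈ V := by
    intro hg
    refine ⟨hFN hg, ?_⟩
    intro U V hUV u hu
    have h1 := commutator_le_of_isChief _ hFnil U V hUV
    have h2 := h1 (Subgroup.commutator_mem_commutator hu hg)
    rwa [commutatorElement_def] at h2
  -- [B]
  have hB : (g ∈ N ∧ ∀ U V : Subgroup G,
      (U.Normal ∧ V.Normal ∧ V < U ∧ ∀ W : Subgroup G, W.Normal → V ≤ W → W ≤ U → W = V ∨ W = U) →
      U ≤ (Cfsg.fittingSubgroup ↥N).map N.subtype → ∀ u ∈ U, u * g * u⁻¹ * g⁻¹ ∈ V) →
      g ∈ (Cfsg.fittingSubgroup ↥N).map N.subtype := by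
    rintro ⟨hgN, hg⟩
    have hKN : Subgroup.normalClosure {g} ≤ N :=
      Subgroup.normalClosure_le_normal (Set.singleton_subset_iff.mpr hgN)
    have hKcent : ∀ U V : Subgroup G, IsChief U V →
        U ≤ (Cfsg.fittingSubgroup ↥N).map N.subtype → ⁅U, Subgroup.normalClosure {g}⁆ ≤ V := by
      intro U V hUV hUF
      have hU := hUV.1
      have hV := hUV.2.1
      have h1 : Subgroup.normalClosure {g} ≤ centSection U V :=
        Subgroup.normalClosure_le_normal (Set.singleton_subset_iff.mpr (hg U V hUV hUF))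
      rw [Subgroup.commutator_le]
      intro u hu k hk
      rw [commutatorElement_def]
      exact h1 hk u hu
    have hKsolv : Group.IsSolvable (Subgroup.normalClosure {g} : Subgroup G) := inferInstance
    obtain ⟨n, hn⟩ := (Group.isSolvable_def _).mp hKsolv
    have hdn : dser (Subgroup.normalClosure {g}) n = ⊥ := by
      rw [dser_eq_map_derivedSeries, hn, Subgroup.map_bot]
    have hstep : ∀ j, j ≤ n → dser (Subgroup.normalClosure {g}) (n - j) ≤
        (Cfsg.fittingSubgroup ↥N).map N.subtype := by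
      intro j
      induction j with
      | zero => intro _; rw [Nat.sub_zero, hdn]; exact bot_le
      | succ j ih =>
        intro hj
        have hle := ih (by omega)
        have e : n - j = (n - (j + 1)) + 1 := by omega
        rw [e, H60.dser_succ] at hle
        have hMn : (dser (Subgroup.normalClosure {g}) (n - (j + 1))).Normal :=
          H60.dser_normal _ _
        have hMK : dser (Subgroup.normalClosure {g}) (n - (j + 1)) ≤ Subgroup.normalClosure {g} :=
          H60.dser_le _ _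
        have hnil := isNilpotent_of_centralizes_chief _
          (dser (Subgroup.normalClosure {g}) (n - (j + 1))) hle
          (fun U V hUV hUF => (Subgroup.commutator_mono le_rfl hMK).trans (hKcent U V hUV hUF))
        -- nilpotent normal subgroup of `N`
        have hMN := hMK.trans hKN
        have h1 : ((dser (Subgroup.normalClosure {g}) (n - (j + 1))).subgroupOf N).Normal :=
          hMn.comap _
        have h2 : Group.IsNilpotent ((dser (Subgroup.normalClosure {g}) (n - (j + 1))).subgroupOf N) :=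
          (Group.isNilpotent_congr (Subgroup.subgroupOfEquivOfLe hMN)).2 hnil
        have h3 : (dser (Subgroup.normalClosure {g}) (n - (j + 1))).subgroupOf N ≤
            Cfsg.fittingSubgroup ↥N := le_sSup ⟨h1, h2⟩
        have h4 := Subgroup.map_mono (f := N.subtype) h3
        rwa [Subgroup.map_subgroupOf_eq_of_le hMN] at h4
    have := hstep n le_rfl
    rw [Nat.sub_self] at this
    exact this (Subgroup.subset_normalClosure (Set.mem_singleton g))
  refine ⟨⟨hA, ?_⟩, ⟨?_, hB⟩⟩
  · rintro ⟨hgN, hg⟩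
    exact hB ⟨hgN, fun U V hUV _ => hg U V hUV⟩
  · intro hg
    obtain ⟨hgN, h⟩ := hA hg
    exact ⟨hgN, fun U V hUV _ => h U V hUV⟩

end Cfsg.Agent.S3766
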