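import Cfsg.Statements.S3768
import Cfsg.Agent.H66.Frob

set_option autoImplicit false
open Cfsg

namespace Cfsg.Agent.S3768
open Cfsg.Agent.H66
open scoped Pointwise

theorem mk_mem_map_iff {G : Type*} [Group G] (R N : Subgroup G) [N.Normal] (x : G) :
    QuotientGroup.mk' N x ∈ R.map (QuotientGroup.mk' N) ↔ ∃ r ∈ R, ∃ n ∈ N, x = r * n := by
  constructor
  · intro h
    obtain ⟨r, hr, hrx⟩ := Subgroup.mem_map.mp h
    refine ⟨r, hr, r⁻¹ * x, ?_, by group⟩
    exact QuotientGroup.eq.mp hrx
  · rintro ⟨r, hr, n, hn, rfl⟩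
    refine Subgroup.mem_map.mpr ⟨r, hr, ?_⟩
    apply QuotientGroup.eq.mpr
    simpa using hn

/-- Let G be a finite Frobenius group with Frobenius complement R and Frobenius kernel K (the identity together with the elements in no conjugate of R), and let N be a normal subgroup of G not containing K. Then G/N is a Frobenius group with Frobenius complement RN/N whose Frobenius kernel is the image of K. -/
theorem result {G : Type*} [Group G] [Finite G] (R : Subgroup G) (hR : Cfsg.IsFrobeniusComplement R) (N : Subgroup G) [N.Normal] (hKN : ¬ Cfsg.frobeniusKernel R ⊆ N) : Cfsg.IsFrobeniusComplement (R.map (QuotientGroup.mk' N)) ∧ Cfsg.frobeniusKernel (R.map (QuotientGroup.mk' N)) = QuotientGroup.mk' N '' Cfsg.frobeniusKernel R := by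
  obtain ⟨hNR, hRN⟩ := frob_normal_dichotomy hR N hKN
  have hmk1 : ∀ x : G, QuotientGroup.mk' N x = 1 ↔ x ∈ N := fun x => QuotientGroup.eq_one_iff x
  -- key: if g⁻¹ x g = r n with r ∈ R \ {1}, n ∈ N, then x lies in a conjugate of R
  have key : ∀ (x g r n : G), r ∈ R → r ≠ 1 → n ∈ N → g⁻¹ * x * g = r * n →
      ∃ a ∈ N, (g * a)⁻¹ * x * (g * a) = r := by
    intro x g r n hr hr1 hn hx
    obtain ⟨a, ha, hae⟩ := frob_conj_of_mul hR N hNR hr hr1 hn
    refine ⟨a, ha, ?_⟩
    calc (g * a)⁻¹ * x * (g * a) = a⁻¹ * (g⁻¹ * x * g) * a := by group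
      _ = a⁻¹ * (a * r * a⁻¹) * a := by rw [hx, hae]
      _ = r := by group
  refine ⟨⟨?_, ?_, ?_⟩, ?_⟩
  · -- image of R is nontrivial
    intro hbot
    apply hR.1
    rw [eq_bot_iff]
    intro r hr
    have h1 : QuotientGroup.mk' N r ∈ R.map (QuotientGroup.mk' N) := Subgroup.mem_map_of_mem _ hr
    rw [hbot, Subgroup.mem_bot, hmk1] at h1
    have : r ∈ N ⊓ R := ⟨h1, hr⟩
    rwa [hNR] at this
  · -- image of R is proper
    intro htop
    apply hRN
    rw [eq_top_iff]
    intro x _
    have h1 : QuotientGroup.mk' N x ∈ R.map (QuotientGroup.mk' N) := by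
      rw [htop]; exact Subgroup.mem_top _
    obtain ⟨r, hr, n, hn, rfl⟩ := (mk_mem_map_iff R N x).mp h1
    exact Subgroup.mul_mem _ (Subgroup.mem_sup_left hr) (Subgroup.mem_sup_right hn)
  · -- the Frobenius condition
    intro gbar hgbar
    obtain ⟨g, rfl⟩ := QuotientGroup.mk'_surjective N gbar
    rw [eq_bot_iff]
    intro xbar hx
    obtain ⟨h1, h2⟩ := Subgroup.mem_inf.mp hx
    rw [mem_conj_smul_iff] at h2
    obtain ⟨r₁, hr₁, rfl⟩ := Subgroup.mem_map.mp h1
    rw [← map_inv, ← map_mul, ← map_mul] at h2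
    obtain ⟨r₂, hr₂, n₂, hn₂, he⟩ := (mk_mem_map_iff R N _).mp h2
    rw [Subgroup.mem_bot, hmk1]
    by_contra hr₁N
    have hr₁1 : r₁ ≠ 1 := by
      rintro rfl
      exact hr₁N N.one_mem
    have hr₂1 : r₂ ≠ 1 := by
      rintro rfl
      rw [one_mul] at he
      apply hr₁N
      have h3 : g * (g⁻¹ * r₁ * g) * g⁻¹ ∈ N := by
        rw [he]
        exact (inferInstance : N.Normal).conj_mem n₂ hn₂ g
      have h4 : g * (g⁻¹ * r₁ * g) * g⁻¹ = r₁ := by group
      rwa [h4] at h3
    obtain ⟨a, ha, hae⟩ := key r₁ g r₂ n₂ hr₂ hr₂1 hn₂ he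
    have hga : (g * a)⁻¹ ∈ R := by
      apply frob_mem hR hr₁ hr₁1
      rw [inv_inv, hae]
      exact hr₂
    apply hgbar
    rw [mk_mem_map_iff]
    refine ⟨g * a, ?_, a⁻¹, N.inv_mem ha, by group⟩
    have := R.inv_mem hga
    rwa [inv_inv] at this
  · -- the kernel
    ext xbar
    constructor
    · intro hx
      obtain ⟨x, rfl⟩ := QuotientGroup.mk'_surjective N xbar
      by_cases hxK : x ∈ frobeniusKernel R
      · exact ⟨x, hxK, rfl⟩
      · have hx1 : x ≠ 1 := fun h => hxK (h ▸ one_mem_frobeniusKernel R)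
        have hex : ∃ g : G, x ∈ MulAut.conj g • R := by
          by_contra hcon
          push Not at hcon
          exact hxK (Or.inr hcon)
        obtain ⟨g, hg⟩ := hex
        rw [mem_conj_smul_iff] at hg
        rcases hx with h1 | h2
        · exact ⟨1, one_mem_frobeniusKernel R, by rw [h1, map_one]⟩
        · exfalso
          apply h2 (QuotientGroup.mk' N g)
          rw [mem_conj_smul_iff, ← map_inv, ← map_mul, ← map_mul]
          exact Subgroup.mem_map_of_mem _ hg
    · rintro ⟨k, hk, rfl⟩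
      by_cases hkN : k ∈ N
      · left
        exact (hmk1 k).mpr hkN
      · right
        intro gbar hmem
        obtain ⟨g, rfl⟩ := QuotientGroup.mk'_surjective N gbar
        rw [mem_conj_smul_iff, ← map_inv, ← map_mul, ← map_mul] at hmem
        obtain ⟨r, hr, n, hn, he⟩ := (mk_mem_map_iff R N _).mp hmem
        have hk1 : k ≠ 1 := by
          rintro rfl
          exact hkN N.one_mem
        have hr1 : r ≠ 1 := by
          rintro rfl
          rw [one_mul] at he
          apply hkN
          have h3 : g * (g⁻¹ * k * g) * g⁻¹ ∈ N := by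
            rw [he]
            exact (inferInstance : N.Normal).conj_mem n hn g
          have h4 : g * (g⁻¹ * k * g) * g⁻¹ = k := by group
          rwa [h4] at h3
        obtain ⟨a, ha, hae⟩ := key k g r n hr hr1 hn he
        rcases hk with h1 | h2
        · exact hk1 h1
        · apply h2 (g * a)
          rw [mem_conj_smul_iff, hae]
          exact hr

end Cfsg.Agent.S3768
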