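import Cfsg.Statements.S3769
import Cfsg.Agent.H13.CopHH7
import Cfsg.Agent.H1.Coprime

set_option autoImplicit false
open Cfsg

namespace Cfsg.Agent.S3769

/-- Let G and V be subgroups of a finite group with G solvable of odd order normalizing V, V an elementary abelian ℓ-group for a prime ℓ not dividing the order of G, and suppose G has a normal Hall subgroup K with a complement R of prime order. If C_V(R) = 1, then [R, K] centralizes V. -/
theorem result {X : Type*} [Group X] [Finite X] (G : Subgroup X) (hsolv : Group.IsSolvable G) (hodd : Odd (Nat.card G)) (V : Subgroup X) {ℓ : ℕ} (hℓ : ℓ.Prime) (hV : Cfsg.IsElementaryAbelian ℓ V) (hℓG : ¬ ℓ ∣ Nat.card G) (hGV : G ≤ Subgroup.normalizer (V : Set X)) (K R : Subgroup X) (hKG : K ≤ G) (hKn : G ≤ Subgroup.normalizer (K : Set X)) (hHall : (Nat.card K).Coprime (K.relIndex G)) (hRG : R ≤ G) (hR : (Nat.card R).Prime) (hKR : K ⊓ R = ⊥) (hKRG : K ⊔ R = G) (hCV : V ⊓ Subgroup.centralizer (R : Set X) = ⊥) : ⁅R, K⁆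 ≤ Subgroup.centralizer (V : Set X) := by
  classical
  have : Fact ℓ.Prime := ⟨hℓ⟩
  have : Fact (Nat.card R).Prime := ⟨hR⟩
  obtain ⟨x, hxR, hx1, hxr, hRz, hcent⟩ :=
    Cfsg.Agent.H13.CopHH.exists_gen_of_prime_card R hR rfl
  have hCVx : V ⊓ Subgroup.centralizer {x} = ⊥ := by rw [hcent]; exact hCV
  have hrG : Nat.card R ∣ Nat.card G := Subgroup.card_dvd_of_le hRG
  have hKG' : Nat.card K ∣ Nat.card G := Subgroup.card_dvd_of_le hKG
  have hr2 : Nat.card R ≠ 2 := by
    intro h
    rw [h] at hrG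
    exact (Nat.not_even_iff_odd.mpr hodd) (even_iff_two_dvd.mpr hrG)
  have hℓr : ℓ ≠ Nat.card R := by
    intro h
    exact hℓG (h ▸ hrG)
  have hKodd : Odd (Nat.card K) := Odd.of_dvd_nat hodd hKG'
  have hKℓ : (Nat.card K).Coprime ℓ :=
    ((Nat.Prime.coprime_iff_not_dvd hℓ).mpr (fun h => hℓG (h.trans hKG'))).symm
  have hrel : K.relIndex G = Nat.card R := by
    rw [← hKRG, sup_comm, Cfsg.Agent.H1.relIndex_sup_of_le_normalizer R K (hRG.trans hKn),
      ← Subgroup.inf_relIndex_right, hKR, Subgroup.relIndex_bot_left]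
  have hKr : (Nat.card K).Coprime (Nat.card R) := by rw [← hrel]; exact hHall
  have hxK : x ∈ Subgroup.normalizer (K : Set X) := hKn (hRG hxR)
  have hxV : x ∈ Subgroup.normalizer (V : Set X) := hGV (hRG hxR)
  have hKV : K ≤ Subgroup.normalizer (V : Set X) := hKG.trans hGV
  have main := Cfsg.Agent.H13.CopHH.chm_group_odd_gen ℓ (Nat.card R) hℓr hr2 V K x hV hKodd hKr
    hKℓ hxr hxK hxV hKV hCVx
  have h2 := Cfsg.Agent.H13.CopHH.commutator_zpowers_le_centralizer V K x hxV hKV main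
  rw [← hRz] at h2
  exact h2

end Cfsg.Agent.S3769
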