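import Mathlib
import Cfsg.Statements.S3770
import Cfsg.Agent.H58.FrobAct
import Cfsg.Agent.S0042
import Cfsg.Agent.S0034

set_option autoImplicit false
set_option linter.style.haveILetI false
open Cfsg
open scoped Pointwise

namespace Cfsg.Agent.S3770

open Cfsg.Agent.H58.FrobAct

theorem mem_conj_smul_iff' {G : Type*} [Group G] (R : Subgroup G) (g x : G) :
    x ∈ MulAut.conj g • R ↔ g⁻¹ * x * g ∈ R := by
  rw [Subgroup.mem_pointwise_smul_iff_inv_smul_mem]
  simp [MulAut.smul_def]

/-- Let G and V be subgroups of a finite group with G a Frobenius group with complement R of prime order and kernel K, G normalizing V, and V an elementary abelian ℓ-group for a prime ℓ not dividing the order of G. If C_V(R) has order ℓ, then the derived subgroup of K centralizes V. -/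
theorem result {X : Type*} [Group X] [Finite X] (G : Subgroup X) (V : Subgroup X) {ℓ : ℕ} (hℓ : ℓ.Prime) (hV : Cfsg.IsElementaryAbelian ℓ V) (hℓG : ¬ ℓ ∣ Nat.card G) (hGV : G ≤ Subgroup.normalizer (V : Set X)) (R : Subgroup ↥G) (hR : Cfsg.IsFrobeniusComplement R) (hRp : (Nat.card R).Prime) (hCV : Nat.card ↥(V ⊓ Subgroup.centralizer ((R.map G.subtype : Subgroup X) : Set X)) = ℓ) : ⁅Subgroup.closure (Subtype.val '' Cfsg.frobeniusKernel R), Subgroup.closure (Subtype.val '' Cfsg.frobeniusKernel R)⁆ ≤ Subgroup.centralizer (V : Set X) := by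
  haveI : Fact ℓ.Prime := ⟨hℓ⟩
  obtain ⟨N, hNker, hNn, hNnil⟩ := Cfsg.Agent.S0042.result R hR
  obtain ⟨hcard, hmod⟩ := Cfsg.Agent.S0034.result R hR
  have hclos : Subgroup.closure (Subtype.val '' Cfsg.frobeniusKernel R) = N.map G.subtype := by
    rw [← hNker]
    have h1 : (Subtype.val '' (N : Set ↥G) : Set X) = ((N.map G.subtype : Subgroup X) : Set X) := by
      rw [Subgroup.coe_map]; rfl
    rw [h1, Subgroup.closure_eq]
  rw [hclos]
  have hcardK : Nat.card (N.map G.subtype) = Nat.card N :=
    (Nat.card_congr (Subgroup.equivMapOfInjective N G.subtype G.subtype_injective).toEquiv).symm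
  have hcardR : Nat.card (R.map G.subtype) = Nat.card R :=
    (Nat.card_congr (Subgroup.equivMapOfInjective R G.subtype G.subtype_injective).toEquiv).symm
  have hNcard : Nat.card N = R.index := by
    rw [← hcard]
    exact Nat.card_congr (Equiv.setCongr hNker)
  have hKG : N.map G.subtype ≤ G := Subgroup.map_subtype_le N
  have hRG : R.map G.subtype ≤ G := Subgroup.map_subtype_le R
  have hcop : ∀ H : Subgroup X, H ≤ G → (Nat.card H).Coprime ℓ := by
    intro H hH
    apply Nat.Coprime.symm
    rw [Nat.Prime.coprime_iff_not_dvd hℓ]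
    intro h
    exact hℓG (h.trans (Subgroup.card_dvd_of_le hH))
  have hVc : ∀ a ∈ V, ∀ b ∈ V, a * b = b * a := by
    intro a ha b hb
    have h1 := hV.1.is_comm.comm (⟨a, ha⟩ : V) ⟨b, hb⟩
    exact congrArg Subtype.val h1
  apply frob_derived_centralizes ℓ (N.map G.subtype) (R.map G.subtype) V
  · -- R normalises K
    rintro _ ⟨r, hr, rfl⟩
    apply mem_normalizer_of_conj
    rintro _ ⟨n, hn, rfl⟩
    exact ⟨r * n * r⁻¹, hNn.conj_mem n hn r, rfl⟩
  · -- K solvable
    haveI : Group.IsNilpotent N := hNnil
    exact Group.isSolvable_of_surjective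
      (f := (Subgroup.equivMapOfInjective N G.subtype G.subtype_injective).toMonoidHom)
      (Subgroup.equivMapOfInjective N G.subtype G.subtype_injective).surjective
  · exact hcop _ hKG
  · exact hcop _ hRG
  · rw [hcardK, hcardR, hNcard]
    apply Nat.Coprime.symm
    rw [Nat.Prime.coprime_iff_not_dvd hRp]
    intro h
    have h0 : R.index % Nat.card R = 0 := Nat.mod_eq_zero_of_dvd h
    rw [h0, Nat.one_mod_eq_one.mpr hRp.one_lt.ne'] at hmod
    exact zero_ne_one hmod
  · exact hVc
  · exact hV.2
  · exact hKG.trans hGV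
  · exact hRG.trans hGV
  · -- Frobenius condition
    rintro _ ⟨r, hr, rfl⟩ hr1
    have hr1' : r ≠ 1 := fun h => hr1 (by rw [h]; rfl)
    intro x hx
    obtain ⟨⟨n, hn, rfl⟩, hxc⟩ := Subgroup.mem_inf.mp hx
    have hcomm : n * r = r * n := by
      have h1 := (Subgroup.mem_centralizer_iff.mp hxc) (G.subtype r) (Set.mem_singleton _)
      apply Subtype.ext
      exact h1.symm
    have hn1 : n = 1 := by
      by_contra hn1
      have hnker : n ∈ Cfsg.frobeniusKernel R := by rw [← hNker]; exact hn
      rcases hnker with h | h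
      · exact hn1 h
      · have hnR : n ∉ R := by
          intro h2
          apply h 1
          rw [mem_conj_smul_iff']
          simpa using h2
        have h3 := hR.2.2 n hnR
        have h4 : r ∈ R ⊓ MulAut.conj n • R := by
          refine Subgroup.mem_inf.mpr ⟨hr, ?_⟩
          rw [mem_conj_smul_iff']
          have : n⁻¹ * r * n = r := by rw [mul_assoc, ← hcomm]; group
          rw [this]; exact hr
        rw [h3, Subgroup.mem_bot] at h4
        exact hr1' h4
    rw [hn1]
    exact Subgroup.one_mem _
  · rw [hcardR]; exact hRp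
  · exact hCV.le

end Cfsg.Agent.S3770
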