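import Cfsg.Statements.S3771
import Mathlib

set_option autoImplicit false
open Cfsg

namespace Cfsg.Agent.S3771

theorem card_lt_of_lt' {G : Type*} [Group G] [Finite G] {H K : Subgroup G} (h : H < K) :
    Nat.card H < Nat.card K := by
  by_contra hcon
  push Not at hcon
  exact h.ne (Subgroup.eq_of_le_of_card_ge h.le hcon)

/-- Let p be a prime and R a finite p-group of p-rank at most 2 (no elementary abelian subgroup of order p³) in which every element has order dividing p. Then R has order at most p³. -/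
theorem result {R : Type*} [Group R] [Finite R] {p : ℕ} [Fact p.Prime] (hR : IsPGroup p R) (hrank : Cfsg.PRankLE p 2 R) (hexp : ∀ x : R, x ^ p = 1) : Nat.card R ≤ p ^ 3 := by
  by_contra hcon
  push Not at hcon
  have hp : p.Prime := Fact.out
  obtain ⟨k, hk⟩ := hR.exists_card_eq
  have hk4 : 4 ≤ k := by
    rw [hk] at hcon
    have := (Nat.pow_lt_pow_iff_right hp.one_lt).mp hcon
    omega
  have hnt : Nontrivial R := by
    apply (Finite.one_lt_card_iff_nontrivial).mp
    rw [hk]
    exact Nat.one_lt_pow (by omega) hp.one_lt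
  -- a central element z of order p
  obtain ⟨z, hzc, hz1⟩ : ∃ z ∈ Subgroup.center R, z ≠ 1 := by
    have := hR.center_nontrivial
    obtain ⟨c, hc⟩ := exists_ne (1 : Subgroup.center R)
    exact ⟨c, c.2, fun h => hc (Subtype.ext h)⟩
  have hzcomm : ∀ g : R, g * z = z * g := Subgroup.mem_center_iff.mp hzc
  obtain ⟨Z₁, hZ₁⟩ : ∃ Z₁ : Subgroup R, Z₁ = Subgroup.zpowers z := ⟨_, rfl⟩
  have hZ₁c : Z₁ ≤ Subgroup.center R := by rw [hZ₁]; exact Subgroup.zpowers_le.mpr hzc
  have hZ₁n : Z₁.Normal := by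
    constructor
    intro n hn g
    have := Subgroup.mem_center_iff.mp (hZ₁c hn) g
    rw [this, mul_inv_cancel_right]
    exact hn
  have hZ₁card : Nat.card Z₁ = p := by
    rw [hZ₁, Nat.card_zpowers]
    exact orderOf_eq_prime (hexp z) hz1
  have hZ₁top : Z₁ ≠ ⊤ := by
    intro h
    rw [h, Subgroup.card_top, hk] at hZ₁card
    have : p ^ k = p ^ 1 := by rw [hZ₁card, pow_one]
    have := Nat.pow_right_injective hp.two_le this
    omega
  -- an element a central modulo Z₁
  have hQ : IsPGroup p (R ⧸ Z₁) := hR.to_quotient Z₁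
  have hQnt : Nontrivial (R ⧸ Z₁) := QuotientGroup.nontrivial_iff.mpr hZ₁top
  obtain ⟨abar, habarc, habar1⟩ : ∃ a ∈ Subgroup.center (R ⧸ Z₁), a ≠ 1 := by
    have := hQ.center_nontrivial
    obtain ⟨c, hc⟩ := exists_ne (1 : Subgroup.center (R ⧸ Z₁))
    exact ⟨c, c.2, fun h => hc (Subtype.ext h)⟩
  obtain ⟨a, rfl⟩ := QuotientGroup.mk_surjective abar
  have haZ : a ∉ Z₁ := fun h => habar1 ((QuotientGroup.eq_one_iff a).mpr h)
  have hcomm : ∀ g : R, g * a * g⁻¹ * a⁻¹ ∈ Z₁ := by
    intro g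
    rw [← QuotientGroup.eq_one_iff]
    have h1 := Subgroup.mem_center_iff.mp habarc (g : R ⧸ Z₁)
    simp only [QuotientGroup.mk_mul, QuotientGroup.mk_inv]
    rw [h1]; group
  -- the commutator homomorphism
  let φ : R →* Z₁ := MonoidHom.mk' (fun g => ⟨g * a * g⁻¹ * a⁻¹, hcomm g⟩) (by
    intro g h
    apply Subtype.ext
    show (g * h) * a * (g * h)⁻¹ * a⁻¹ = (g * a * g⁻¹ * a⁻¹) * (h * a * h⁻¹ * a⁻¹)
    have hc := Subgroup.mem_center_iff.mp (hZ₁c (hcomm h))
    calc (g * h) * a * (g * h)⁻¹ * a⁻¹ = g * (h * a * h⁻¹ * a⁻¹) * a * g⁻¹ * a⁻¹ := by group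
      _ = (h * a * h⁻¹ * a⁻¹) * g * a * g⁻¹ * a⁻¹ := by rw [hc g]
      _ = (h * a * h⁻¹ * a⁻¹) * (g * a * g⁻¹ * a⁻¹) := by group
      _ = (g * a * g⁻¹ * a⁻¹) * (h * a * h⁻¹ * a⁻¹) := (hc _).symm)
  have hφker : ∀ g : R, g ∈ φ.ker ↔ g * a = a * g := by
    intro g
    rw [MonoidHom.mem_ker]
    constructor
    · intro h
      have h1 : g * a * g⁻¹ * a⁻¹ = 1 := congrArg Subtype.val h
      have h2 := congrArg (fun t => t * a * g) h1
      simpa [mul_assoc] using h2
    · intro h
      apply Subtype.ext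
      show g * a * g⁻¹ * a⁻¹ = 1
      rw [h]; group
  have hidx : φ.ker.index ≤ p := by
    rw [Subgroup.index_ker, ← hZ₁card]
    exact Subgroup.card_le_card_group _
  have hCcard : p ^ 3 ≤ Nat.card φ.ker := by
    have h1 := Subgroup.card_mul_index φ.ker
    rw [hk] at h1
    have h2 : p ^ k ≤ Nat.card φ.ker * p := by
      rw [← h1]; exact Nat.mul_le_mul_left _ hidx
    have h3 : p ^ 4 ≤ p ^ k := Nat.pow_le_pow_right hp.pos hk4
    have h4 : p ^ 3 * p ≤ Nat.card φ.ker * p := by
      calc p ^ 3 * p = p ^ 4 := by ring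
        _ ≤ p ^ k := h3
        _ ≤ _ := h2
    exact Nat.le_of_mul_le_mul_right h4 hp.pos
  -- the subgroup A₀ = ⟨z, a⟩
  have hA₀comm : IsMulCommutative (Subgroup.closure ({z, a} : Set R)) := by
    apply Subgroup.isMulCommutative_closure
    rintro x (rfl | rfl) y (rfl | rfl)
    · rfl
    · exact (hzcomm y).symm
    · exact hzcomm x
    · rfl
  have hA₀card := hrank _ hA₀comm (fun x _ => hexp x)
  have hA₀C : Subgroup.closure ({z, a} : Set R) ≤ φ.ker := by
    rw [Subgroup.closure_le]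
    rintro x (rfl | rfl)
    · exact (hφker x).mpr (hzcomm a).symm
    · exact (hφker x).mpr rfl
  have hA₀lt : Subgroup.closure ({z, a} : Set R) < φ.ker := by
    apply lt_of_le_of_ne hA₀C
    intro h
    rw [h] at hA₀card
    have : p ^ 2 < p ^ 3 := Nat.pow_lt_pow_right hp.one_lt (by norm_num)
    omega
  obtain ⟨x, hxC, hxA⟩ := SetLike.exists_of_lt hA₀lt
  have hxa : x * a = a * x := (hφker x).mp hxC
  have hA₁comm : IsMulCommutative (Subgroup.closure ({z, a, x} : Set R)) := by
    apply Subgroup.isMulCommutative_closure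
    rintro u (rfl | rfl | rfl) v (rfl | rfl | rfl)
    · rfl
    · exact (hzcomm v).symm
    · exact (hzcomm v).symm
    · exact hzcomm u
    · rfl
    · exact hxa.symm
    · exact hzcomm u
    · exact hxa
    · rfl
  have hA₁card := hrank _ hA₁comm (fun x _ => hexp x)
  -- strict chain Z₁ < A₀ < A₁
  have h01 : Z₁ < Subgroup.closure ({z, a} : Set R) := by
    apply lt_of_le_of_ne
    · rw [hZ₁, Subgroup.zpowers_le]
      exact Subgroup.subset_closure (by simp)
    · intro h
      apply haZ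
      rw [h]
      exact Subgroup.subset_closure (by simp)
  have h12 : Subgroup.closure ({z, a} : Set R) < Subgroup.closure ({z, a, x} : Set R) := by
    apply lt_of_le_of_ne
    · apply Subgroup.closure_mono
      intro y hy
      rcases hy with rfl | rfl <;> simp
    · intro h
      apply hxA
      rw [h]
      exact Subgroup.subset_closure (by simp)
  have c01 := card_lt_of_lt' h01
  have c12 := card_lt_of_lt' h12
  obtain ⟨i, hi⟩ := (hR.to_subgroup (Subgroup.closure ({z, a} : Set R))).exists_card_eq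
  obtain ⟨j, hj⟩ := (hR.to_subgroup (Subgroup.closure ({z, a, x} : Set R))).exists_card_eq
  rw [hZ₁card, hi] at c01
  rw [hi, hj] at c12
  rw [hj] at hA₁card
  have hi1 : 1 < i := by
    have : p ^ 1 < p ^ i := by rwa [pow_one]
    exact (Nat.pow_lt_pow_iff_right hp.one_lt).mp this
  have hij : i < j := (Nat.pow_lt_pow_iff_right hp.one_lt).mp c12
  have hj2 : j ≤ 2 := (Nat.pow_le_pow_iff_right hp.one_lt).mp hA₁card
  omega

end Cfsg.Agent.S3771
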