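import Cfsg.Statements.S3772
import Cfsg.Agent.H66.PFrattini

set_option autoImplicit false
open Cfsg

namespace Cfsg.Agent.S3772
open Cfsg.Agent.H66

/-- The character-sum identity behind the count of solutions of `x² = 1`. -/
theorem charsum {G : Type*} [Group G] [Fintype G] [DecidableEq G] (hG : IsPGroup 2 G)
    (hΦ : Nat.card (frattini G) = 2) :
    ∃ (T : ℤ) (z : G), z ≠ 1 ∧ z ∈ frattini G ∧ frattini G ≤ Subgroup.center G ∧
      (∀ x y : G, x * y * x⁻¹ * y⁻¹ ∈ frattini G) ∧
      (T = 0 ∨ T = (Nat.card (Subgroup.center G) : ℤ)) ∧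
      (Subgroup.center G = ⊤ → T = ∑ x : G, (if x * x = 1 then (1 : ℤ) else -1)) ∧
      (∑ x : G, (if x * x = 1 then (1 : ℤ) else -1)) *
        (∑ x : G, (if x * x = 1 then (1 : ℤ) else -1)) = (Nat.card G : ℤ) * T := by
  have : Fact (Nat.Prime 2) := ⟨Nat.prime_two⟩
  obtain ⟨⟨z, hzΦ⟩, hz1', hzuniq⟩ := (Nat.card_eq_two_iff' (1 : frattini G)).mp hΦ
  have hz1 : z ≠ 1 := fun h => hz1' (Subtype.ext h)
  have hΦcases : ∀ y ∈ frattini G, y = 1 ∨ y = z := by
    intro y hy
    by_cases h : y = 1
    · exact Or.inl h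
    · right
      have := hzuniq ⟨y, hy⟩ (fun h' => h (congrArg Subtype.val h'))
      exact congrArg Subtype.val this
  have hzz : z * z = 1 := by
    rcases hΦcases (z * z) (Subgroup.mul_mem _ hzΦ hzΦ) with h | h
    · exact h
    · exfalso; apply hz1
      have := congrArg (fun t => z⁻¹ * t) h
      simpa using this
  have hzc : ∀ g : G, g * z = z * g := by
    intro g
    have hn : g * z * g⁻¹ ∈ frattini G :=
      (inferInstance : (frattini G).Normal).conj_mem z hzΦ g
    rcases hΦcases _ hn with h | h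
    · exfalso; apply hz1
      have := congrArg (fun t => g⁻¹ * t * g) h
      simpa [mul_assoc] using this
    · have := congrArg (fun t => t * g) h
      simpa [mul_assoc] using this
  have hΦc : ∀ y ∈ frattini G, ∀ g : G, g * y = y * g := by
    intro y hy g
    rcases hΦcases y hy with h | h
    · rw [h]; simp
    · rw [h]; exact hzc g
  have hsqΦ : ∀ x : G, x * x ∈ frattini G := by
    intro x
    have := pow_mem_frattini hG x
    rwa [pow_two] at this
  have hcomΦ : ∀ x y : G, x * y * x⁻¹ * y⁻¹ ∈ frattini G := by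
    intro x y
    have e : x * y * x⁻¹ * y⁻¹ = (x * x) * ((x⁻¹ * y) * (x⁻¹ * y)) * (y⁻¹ * y⁻¹) := by group
    rw [e]
    exact Subgroup.mul_mem _ (Subgroup.mul_mem _ (hsqΦ x) (hsqΦ _)) (hsqΦ _)
  -- the sign function
  let σ : G → ℤ := fun y => if y = 1 then 1 else -1
  have hσmul : ∀ a ∈ frattini G, ∀ b ∈ frattini G, σ (a * b) = σ a * σ b := by
    intro a ha b hb
    rcases hΦcases a ha with rfl | rfl
    · simp [σ]
    · rcases hΦcases b hb with rfl | rfl
      · simp [σ]
      · simp [σ, hzz, hz1]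
  have hσsq : ∀ y : G, σ y * σ y = 1 := by
    intro y
    by_cases h : y = 1 <;> simp [σ, h]
  let c : G → G → G := fun x w => (x * w)⁻¹ * (w * x)
  have hcΦ : ∀ x w : G, c x w ∈ frattini G := by
    intro x w
    have e : c x w = w⁻¹ * x⁻¹ * w⁻¹⁻¹ * x⁻¹⁻¹ := by simp only [c]; group
    rw [e]; exact hcomΦ _ _
  have hc1 : ∀ x w : G, c x w = 1 ↔ w * x = x * w := by
    intro x w
    show (x * w)⁻¹ * (w * x) = 1 ↔ w * x = x * w
    constructor
    · intro h
      exact (inv_mul_eq_one.mp h).symm
    · intro h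
      exact inv_mul_eq_one.mpr h.symm
  let χ : G → ℤ := fun x => σ (x * x)
  let β : G → G → ℤ := fun x w => σ (c x w)
  have hχ : ∀ x : G, χ x = if x * x = 1 then (1 : ℤ) else -1 := fun x => rfl
  -- claim 1
  have h1 : ∀ x w : G, χ (x * w) = χ x * χ w * β x w := by
    intro x w
    have e : (x * w) * (x * w) = (x * x) * (w * w) * c x w := by
      have e1 : w * x = x * w * c x w := by simp only [c]; group
      calc (x * w) * (x * w) = x * (w * x) * w := by group
        _ = x * (x * w * c x w) * w := by rw [← e1]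
        _ = x * x * w * (c x w * w) := by group
        _ = x * x * w * (w * c x w) := by rw [hΦc _ (hcΦ x w) w]
        _ = (x * x) * (w * w) * c x w := by group
    show σ ((x * w) * (x * w)) = σ (x * x) * σ (w * w) * σ (c x w)
    rw [e, hσmul _ (Subgroup.mul_mem _ (hsqΦ x) (hsqΦ w)) _ (hcΦ x w),
      hσmul _ (hsqΦ x) _ (hsqΦ w)]
  -- claim 2
  have h2 : ∀ x y w : G, β (x * y) w = β x w * β y w := by
    intro x y w
    have e : c (x * y) w = c y w * c x w := by
      have e1 : x⁻¹ * w * x = w * c x w := by simp only [c]; group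
      calc c (x * y) w = w⁻¹ * y⁻¹ * (x⁻¹ * w * x) * y := by simp only [c]; group
        _ = w⁻¹ * y⁻¹ * (w * c x w) * y := by rw [e1]
        _ = w⁻¹ * y⁻¹ * w * (c x w * y) := by group
        _ = w⁻¹ * y⁻¹ * w * (y * c x w) := by rw [hΦc _ (hcΦ x w) y]
        _ = c y w * c x w := by simp only [c]; group
    show σ (c (x * y) w) = σ (c x w) * σ (c y w)
    rw [e, hσmul _ (hcΦ y w) _ (hcΦ x w), mul_comm]
  have hβcomm : ∀ x w : G, w * x = x * w → β x w = 1 := by
    intro x w h
    show σ (c x w) = 1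
    rw [(hc1 x w).mpr h]; simp [σ]
  have hβncomm : ∀ x w : G, w * x ≠ x * w → β x w = -1 := by
    intro x w h
    show σ (c x w) = -1
    have : c x w ≠ 1 := fun h' => h ((hc1 x w).mp h')
    simp [σ, this]
  -- claim 2'
  have h2' : ∀ w : G, ∑ x : G, β x w = if w ∈ Subgroup.center G then (Nat.card G : ℤ) else 0 := by
    intro w
    by_cases hw : w ∈ Subgroup.center G
    · rw [if_pos hw]
      have : ∀ x : G, β x w = 1 := by
        intro x
        apply hβcomm
        exact ((Subgroup.mem_center_iff.mp hw) x).symm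
      simp [this, Nat.card_eq_fintype_card]
    · rw [if_neg hw]
      have hex : ∃ x₀ : G, w * x₀ ≠ x₀ * w := by
        by_contra hcon
        push Not at hcon
        apply hw
        rw [Subgroup.mem_center_iff]
        intro g
        exact (hcon g).symm
      obtain ⟨x₀, hx₀⟩ := hex
      have e1 : ∑ x : G, β x w = ∑ x : G, β (x₀ * x) w :=
        (Equiv.sum_comp (Equiv.mulLeft x₀) (fun x => β x w)).symm
      have e2 : ∑ x : G, β (x₀ * x) w = - ∑ x : G, β x w := by
        rw [← Finset.sum_neg_distrib]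
        apply Finset.sum_congr rfl
        intro x _
        rw [h2, hβncomm x₀ w hx₀]; ring
      linarith
  -- claim 3
  obtain ⟨S, hS⟩ : ∃ S : ℤ, S = ∑ x : G, χ x := ⟨_, rfl⟩
  obtain ⟨T, hT⟩ : ∃ T : ℤ, T = ∑ w : G, (if w ∈ Subgroup.center G then χ w else 0) := ⟨_, rfl⟩
  have h3 : S * S = (Nat.card G : ℤ) * T := by
    rw [hS, hT, Finset.sum_mul_sum]
    have e1 : ∀ x : G, ∑ y : G, χ x * χ y = ∑ w : G, χ w * β x w := by
      intro x
      rw [← Equiv.sum_comp (Equiv.mulLeft x) (fun y => χ x * χ y)]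
      apply Finset.sum_congr rfl
      intro w _
      show χ x * χ (x * w) = χ w * β x w
      rw [h1, ← mul_assoc, ← mul_assoc, hσsq, one_mul]
    rw [Finset.sum_congr rfl (fun x _ => e1 x), Finset.sum_comm, Finset.mul_sum]
    apply Finset.sum_congr rfl
    intro w _
    rw [← Finset.mul_sum, h2' w]
    by_cases hw : w ∈ Subgroup.center G
    · simp [hw]; ring
    · simp [hw]
  -- claim 4
  have h4 : T = 0 ∨ T = (Nat.card (Subgroup.center G) : ℤ) := by
    have hmul : ∀ x ∈ Subgroup.center G, ∀ w : G, χ (x * w) = χ x * χ w := by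
      intro x hx w
      rw [h1, hβcomm x w (Subgroup.mem_center_iff.mp hx w), mul_one]
    by_cases hall : ∀ w ∈ Subgroup.center G, χ w = 1
    · right
      rw [hT]
      have : ∀ w : G, (if w ∈ Subgroup.center G then χ w else 0) =
          (if w ∈ Subgroup.center G then (1 : ℤ) else 0) := by
        intro w
        by_cases hw : w ∈ Subgroup.center G
        · simp [hw, hall w hw]
        · simp [hw]
      rw [Finset.sum_congr rfl (fun w _ => this w), Finset.sum_boole, Nat.card_eq_fintype_card,
        Fintype.card_subtype]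
    · left
      push Not at hall
      obtain ⟨w₀, hw₀, hw₀χ⟩ := hall
      have hw₀' : χ w₀ = -1 := by
        show σ (w₀ * w₀) = -1
        have : σ (w₀ * w₀) ≠ 1 := hw₀χ
        by_cases h : w₀ * w₀ = 1
        · simp [σ, h] at this
        · simp [σ, h]
      let f : G → ℤ := fun w => if w ∈ Subgroup.center G then χ w else 0
      have e1 : ∑ w : G, f w = ∑ w : G, f (w₀ * w) :=
        (Equiv.sum_comp (Equiv.mulLeft w₀) f).symm
      have e2 : ∑ w : G, f (w₀ * w) = - ∑ w : G, f w := by
        rw [← Finset.sum_neg_distrib]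
        apply Finset.sum_congr rfl
        intro w _
        show (if w₀ * w ∈ Subgroup.center G then χ (w₀ * w) else 0) =
          -(if w ∈ Subgroup.center G then χ w else 0)
        have hiff : w₀ * w ∈ Subgroup.center G ↔ w ∈ Subgroup.center G := by
          constructor
          · intro h
            have := Subgroup.mul_mem _ (Subgroup.inv_mem _ hw₀) h
            simpa using this
          · intro h
            exact Subgroup.mul_mem _ hw₀ h
        by_cases hw : w ∈ Subgroup.center G
        · rw [if_pos (hiff.mpr hw), if_pos hw, hmul w₀ hw₀, hw₀']; ring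
        · rw [if_neg (fun h => hw (hiff.mp h)), if_neg hw]; ring
      rw [hT]
      show ∑ w : G, f w = 0
      linarith
  refine ⟨T, z, hz1, hzΦ, ?_, hcomΦ, h4, ?_, ?_⟩
  · intro y hy
    rw [Subgroup.mem_center_iff]; exact hΦc y hy
  · intro htop
    rw [hT]
    apply Finset.sum_congr rfl
    intro w _
    rw [if_pos (by rw [htop]; exact Subgroup.mem_top w)]
  · rw [hS] at h3
    exact h3

/-- Let G be a finite 2-group whose Frattini subgroup Φ(G) has order 2, with |G : Φ(G)| = 2^d, and let j be the number of elements x of G with x² = 1. Then j = 2^d, or j = 2^d + 2^(d−r) or j = 2^d − 2^(d−r) for some positive integer r with 2r ≤ d. Moreover if d = 2r and j is 2^d + 2^r or 2^d − 2^r, then G is extraspecial. -/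
theorem result {G : Type*} [Group G] [Finite G] (hG : IsPGroup 2 G) (hΦ : Nat.card (frattini G) = 2) (d : ℕ) (hd : (frattini G).index = 2 ^ d) : (Nat.card {x : G // x ^ 2 = 1} = 2 ^ d ∨ ∃ r : ℕ, 1 ≤ r ∧ 2 * r ≤ d ∧ (Nat.card {x : G // x ^ 2 = 1} = 2 ^ d + 2 ^ (d - r) ∨ Nat.card {x : G // x ^ 2 = 1} + 2 ^ (d - r) = 2 ^ d)) ∧ (∀ r : ℕ, d = 2 * r → (Nat.card {x : G // x ^ 2 = 1} = 2 ^ d + 2 ^ r ∨ Nat.card {x : G // x ^ 2 = 1} + 2 ^ r = 2 ^ d) → Cfsg.IsExtraspecial 2 G) := by
  classical
  have : Fact (Nat.Prime 2) := ⟨Nat.prime_two⟩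
  let _ : Fintype G := Fintype.ofFinite G
  obtain ⟨T, z, hz1, hzΦ, hΦZ, hcomΦ, hT, hTtop, hSS⟩ := charsum hG hΦ
  obtain ⟨S, hS⟩ : ∃ S : ℤ, S = ∑ x : G, (if x * x = 1 then (1 : ℤ) else -1) := ⟨_, rfl⟩
  rw [← hS] at hSS hTtop
  obtain ⟨j, hj⟩ : ∃ j : ℕ, j = Nat.card {x : G // x ^ 2 = 1} := ⟨_, rfl⟩
  rw [← hj]
  have hg : Nat.card G = 2 ^ (d + 1) := by
    rw [← Subgroup.card_mul_index (frattini G), hΦ, hd, pow_succ]; ring
  have hjc : j = (Finset.univ.filter (fun x : G => x * x = 1)).card := by
    rw [hj, Nat.card_eq_fintype_card, Fintype.card_subtype]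
    congr 1; ext x; simp [pow_two]
  have hSj : S = 2 * (j : ℤ) - (Nat.card G : ℤ) := by
    have h1 := Finset.card_filter_add_card_filter_not (s := (Finset.univ : Finset G))
      (fun x : G => x * x = 1)
    rw [Finset.card_univ, ← Nat.card_eq_fintype_card, ← hjc] at h1
    rw [hS, Finset.sum_ite, Finset.sum_const, Finset.sum_const, ← hjc, ← h1]
    push_cast
    simp only [nsmul_eq_mul, smul_neg, mul_one]
    ring
  have hgpos : (0 : ℤ) < (Nat.card G : ℤ) := by exact_mod_cast Nat.card_pos
  -- the centre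
  obtain ⟨m, hm⟩ := (hG.to_subgroup (Subgroup.center G)).exists_card_eq
  have hm1 : 1 ≤ m := by
    have hne : Subgroup.center G ≠ ⊥ := by
      intro h
      have := hΦZ hzΦ
      rw [h, Subgroup.mem_bot] at this
      exact hz1 this
    have := (Subgroup.one_lt_card_iff_ne_bot _).mpr hne
    rw [hm] at this
    rcases Nat.eq_zero_or_pos m with h0 | h0
    · rw [h0] at this; simp at this
    · exact h0
  have hZtop : S ≠ 0 → Subgroup.center G ≠ ⊤ := by
    intro hS0 htop
    have hTS := hTtop htop
    rw [hTS] at hSS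
    have hSg : S = (Nat.card G : ℤ) := by
      have : S * (S - (Nat.card G : ℤ)) = 0 := by linarith
      rcases mul_eq_zero.mp this with h | h
      · exact absurd h hS0
      · linarith
    have hjg : j = Nat.card G := by
      have : (j : ℤ) = (Nat.card G : ℤ) := by linarith
      exact_mod_cast this
    have hall : ∀ x : G, x ^ 2 = 1 := by
      intro x
      have h1 : (Finset.univ.filter (fun x : G => x * x = 1)) = Finset.univ := by
        apply Finset.eq_univ_of_card
        rw [← hjc, hjg, Nat.card_eq_fintype_card]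
      have : x ∈ (Finset.univ.filter (fun x : G => x * x = 1)) := by
        rw [h1]; exact Finset.mem_univ x
      rw [pow_two]
      exact (Finset.mem_filter.mp this).2
    have := frattini_eq_bot_of_sq_eq_one hall
    rw [this, Subgroup.card_bot] at hΦ
    omega
  have hmd : S ≠ 0 → m ≤ d := by
    intro hS0
    have hne := hZtop hS0
    have h1 : Nat.card (Subgroup.center G) ≠ Nat.card G := fun h =>
      hne (Subgroup.eq_top_of_card_eq _ h)
    have h2 : Nat.card (Subgroup.center G) ≤ Nat.card G := Subgroup.card_le_card_group _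
    rw [hm, hg] at h1 h2
    have h3 : m ≤ d + 1 := (Nat.pow_le_pow_iff_right (by norm_num)).mp h2
    have h4 : m ≠ d + 1 := fun h => h1 (by rw [h])
    omega
  have hTζ : S ≠ 0 → T = (2 : ℤ) ^ m := by
    intro hS0
    rcases hT with h | h
    · exfalso
      rw [h, mul_zero] at hSS
      rcases mul_eq_zero.mp hSS with h' | h' <;> exact hS0 h'
    · rw [h, hm]; push_cast; rfl
  refine ⟨?_, ?_⟩
  · by_cases hS0 : S = 0
    · left
      rw [hS0, hg] at hSj
      have : (2 : ℤ) * j = 2 * 2 ^ d := by
        push_cast at hSj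
        rw [pow_succ] at hSj
        linarith
      have h2 : (j : ℤ) = 2 ^ d := by linarith
      exact_mod_cast h2
    · right
      have hmd' := hmd hS0
      have hT' := hTζ hS0
      rw [hT', hg] at hSS
      have hnat : S.natAbs * S.natAbs = 2 ^ (d + 1 + m) := by
        have h1 : (S * S).natAbs = S.natAbs * S.natAbs := Int.natAbs_mul S S
        rw [← h1, hSS]
        have h2 : (((2 ^ (d + 1) : ℕ) : ℤ) * (2 : ℤ) ^ m) = ((2 ^ (d + 1 + m) : ℕ) : ℤ) := by
          push_cast; rw [← pow_add]
        rw [h2, Int.natAbs_natCast]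
      have hdvd : S.natAbs ∣ 2 ^ (d + 1 + m) := ⟨S.natAbs, hnat.symm⟩
      obtain ⟨e, -, he⟩ := (Nat.dvd_prime_pow Nat.prime_two).mp hdvd
      rw [he, ← pow_add] at hnat
      have hee : e + e = d + 1 + m := Nat.pow_right_injective (le_refl 2) hnat
      obtain ⟨e', rfl⟩ : ∃ e', e = e' + 1 := ⟨e - 1, by omega⟩
      refine ⟨d - e', by omega, by omega, ?_⟩
      have hde : d - (d - e') = e' := by omega
      rw [hde]
      rw [hg] at hSj
      rcases Int.natAbs_eq S with h | h
      · left
        rw [he] at h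
        rw [h] at hSj
        push_cast at hSj
        rw [pow_succ, pow_succ] at hSj
        have h2 : (j : ℤ) = 2 ^ d + 2 ^ e' := by linarith
        exact_mod_cast h2
      · right
        rw [he] at h
        rw [h] at hSj
        push_cast at hSj
        rw [pow_succ, pow_succ] at hSj
        have h2 : (j : ℤ) + 2 ^ e' = 2 ^ d := by linarith
        exact_mod_cast h2
  · intro r hdr hjr
    have hSval : S = (2 : ℤ) ^ (r + 1) ∨ S = -(2 : ℤ) ^ (r + 1) := by
      rw [hg, hdr] at hSj
      push_cast at hSj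
      have e1 : (2 : ℤ) ^ (2 * r + 1) = 2 * 2 ^ (2 * r) := by rw [pow_succ]; ring
      rw [e1] at hSj
      rcases hjr with h | h
      · left
        have h' : (j : ℤ) = 2 ^ d + 2 ^ r := by exact_mod_cast h
        rw [hdr] at h'
        rw [hSj, h', pow_succ]; ring
      · right
        have h' : (j : ℤ) + 2 ^ r = 2 ^ d := by exact_mod_cast h
        rw [hdr] at h'
        have h'' : (j : ℤ) = 2 ^ (2 * r) - 2 ^ r := by linarith
        rw [hSj, h'', pow_succ]; ring
    have hSsq : S * S = (2 : ℤ) ^ (2 * r + 2) := by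
      rcases hSval with h | h <;> rw [h] <;> ring
    have hS0 : S ≠ 0 := by
      rcases hSval with h | h <;> rw [h] <;> simp
    have hT' := hTζ hS0
    rw [hSsq, hg, hdr, hT'] at hSS
    have h2m : (2 : ℤ) ^ m = 2 := by
      have e1 : (2 : ℤ) ^ (2 * r + 2) = 2 ^ (2 * r + 1) * 2 := by rw [pow_succ]
      rw [e1] at hSS
      push_cast at hSS
      have hpos : (0 : ℤ) < 2 ^ (2 * r + 1) := by positivity
      exact (mul_left_cancel₀ (ne_of_gt hpos) hSS).symm
    have hζ2 : Nat.card (Subgroup.center G) = 2 := by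
      rw [hm]
      have : ((2 ^ m : ℕ) : ℤ) = 2 := by push_cast; exact h2m
      exact_mod_cast this
    have hΦeq : frattini G = Subgroup.center G :=
      Subgroup.eq_of_le_of_card_ge hΦZ (by rw [hζ2, hΦ])
    have hcomle : commutator G ≤ frattini G := by
      rw [commutator_def, Subgroup.commutator_le]
      intro g₁ _ g₂ _
      rw [commutatorElement_def]
      exact hcomΦ g₁ g₂
    have hcomne : commutator G ≠ ⊥ := by
      intro h
      exact hZtop hS0 ((commutator_eq_bot_iff_center_eq_top G).mp h)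
    have hcomcard : Nat.card (commutator G) = 2 := by
      have h1 : Nat.card (commutator G) ∣ 2 := by
        rw [← hΦ]; exact Subgroup.card_dvd_of_le hcomle
      rcases (Nat.dvd_prime Nat.prime_two).mp h1 with h | h
      · exact absurd (Subgroup.card_eq_one.mp h) hcomne
      · exact h
    have hcomeq : commutator G = frattini G :=
      Subgroup.eq_of_le_of_card_ge hcomle (by rw [hcomcard, hΦ])
    exact ⟨⟨hG, hΦeq, hcomeq.trans hΦeq⟩, hζ2⟩

end Cfsg.Agent.S3772
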