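import Cfsg.Statements.S3773
import Cfsg.Agent.H76.ChevWarn
import Cfsg.Agent.H3.PGroup
import Cfsg.Agent.H52.Frattini

set_option autoImplicit false
open Cfsg

namespace Cfsg.Agent.S3773

open scoped commutatorElement
open Cfsg.Agent.H76

/-- The subgroup formed by the elements of order dividing 2. -/
def invSub {G : Type*} [Group G]
    (hN : ∀ x y : G, x ^ 2 = 1 → y ^ 2 = 1 → (x * y) ^ 2 = 1) : Subgroup G where
  carrier := {x | x ^ 2 = 1}
  mul_mem' := fun {a b} ha hb => hN a b ha hb
  one_mem' := one_pow 2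
  inv_mem' := fun {a} ha => by
    show (a⁻¹) ^ 2 = 1
    rw [inv_pow, show a ^ 2 = 1 from ha, inv_one]

/-- Let G be a finite 2-group of nilpotency class at most 2 and exponent dividing 4 in which the elements x with x² = 1 form a subgroup N. Then |G| ≤ |N|³, and |G| < |N|³ unless G is special. -/
theorem result {G : Type*} [Group G] [Finite G] (hG : IsPGroup 2 G) (hcl : (⊤ : Subgroup G).lowerCentralSeries 2 = ⊥) (hexp : ∀ x : G, x ^ 4 = 1) (hN : ∀ x y : G, x ^ 2 = 1 → y ^ 2 = 1 → (x * y) ^ 2 = 1) : Nat.card G ≤ Nat.card {x : G // x ^ 2 = 1} ^ 3 ∧ (¬ Cfsg.IsSpecial 2 G → Nat.card G < Nat.card {x : G // x ^ 2 = 1} ^ 3) := by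
  classical
  obtain ⟨N, hNdef⟩ : ∃ N : Subgroup G, N = invSub hN := ⟨_, rfl⟩
  have hmemN : ∀ x : G, x ∈ N ↔ x ^ 2 = 1 := fun x => by rw [hNdef]; exact Iff.rfl
  have hcardN : Nat.card {x : G // x ^ 2 = 1} = Nat.card N := by rw [hNdef]; rfl
  rw [hcardN]
  -- commutators are central
  have hcc : ∀ a b : G, ⁅a, b⁆ ∈ Subgroup.center G := by
    intro a b
    rw [Subgroup.mem_center_iff]
    intro g
    have h1 : ⁅a, b⁆ ∈ (⊤ : Subgroup G).lowerCentralSeries 1 := by
      rw [Subgroup.lowerCentralSeries_succ, Subgroup.lowerCentralSeries_zero]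
      exact Subgroup.commutator_mem_commutator (Subgroup.mem_top a) (Subgroup.mem_top b)
    have h2 : ⁅⁅a, b⁆, g⁆ ∈ (⊤ : Subgroup G).lowerCentralSeries 2 := by
      rw [Subgroup.lowerCentralSeries_succ]
      exact Subgroup.commutator_mem_commutator h1 (Subgroup.mem_top g)
    rw [hcl, Subgroup.mem_bot] at h2
    exact (commutatorElement_eq_one_iff_mul_comm.1 h2).symm
  have hsqN : ∀ a : G, a ^ 2 ∈ N := fun a => by
    rw [hmemN, ← pow_mul]; exact hexp a
  have hcommN : ∀ a b : G, ⁅a, b⁆ ∈ N := by
    intro a b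
    have h := sq_mul_of_central b a (hcc a b)
    have h' : ⁅a, b⁆ = (b ^ 2 * a ^ 2)⁻¹ * (b * a) ^ 2 := by rw [h]; group
    rw [h']
    exact N.mul_mem (N.inv_mem (N.mul_mem (hsqN b) (hsqN a))) (hsqN _)
  have hsqc : ∀ a : G, a ^ 2 ∈ Subgroup.center G := by
    intro a
    rw [Subgroup.mem_center_iff]
    intro g
    have h1 := commutator_mul_left_of_central a a g (hcc a g)
    have h2 : ⁅a, g⁆ * ⁅a, g⁆ = 1 := by rw [← pow_two]; exact (hmemN _).1 (hcommN a g)
    rw [h2, ← pow_two] at h1
    exact (commutatorElement_eq_one_iff_mul_comm.1 h1).symm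
  have hNnorm : N.Normal := ⟨fun n hn g => by
    rw [hmemN, conj_pow, (hmemN n).1 hn, mul_one, mul_inv_cancel]⟩
  obtain ⟨W, hW⟩ : ∃ W : Subgroup G, W = N ⊓ Subgroup.center G := ⟨_, rfl⟩
  have hWc : W ≤ Subgroup.center G := hW ▸ inf_le_right
  have hWleN : W ≤ N := hW ▸ inf_le_left
  have hsqW : ∀ a : G, a ^ 2 ∈ W := fun a => hW ▸ ⟨hsqN a, hsqc a⟩
  have hcommW : ∀ a b : G, ⁅a, b⁆ ∈ W := fun a b => hW ▸ ⟨hcommN a b, hcc a b⟩
  have hmain := card_mul_sq_le W ⊥ N hWc hsqW hcommW bot_le
    (fun u hu => by rw [Subgroup.mem_bot]; exact (hmemN u).1 (hWleN hu))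
    (fun a ha => (hmemN a).2 (Subgroup.mem_bot.1 ha))
  rw [Subgroup.card_bot, one_pow, mul_one] at hmain
  have hWN : Nat.card W ≤ Nat.card N := Subgroup.card_le_of_le hWleN
  have hNpos : 0 < Nat.card N := Nat.card_pos
  have hbound : Nat.card G ≤ Nat.card N ^ 3 := by
    calc Nat.card G ≤ Nat.card N * Nat.card W ^ 2 := hmain
      _ ≤ Nat.card N * Nat.card N ^ 2 := by gcongr
      _ = Nat.card N ^ 3 := by ring
  refine ⟨hbound, fun hns => ?_⟩
  by_contra hcon
  push Not at hcon
  have heq : Nat.card G = Nat.card N ^ 3 := le_antisymm hbound hcon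
  apply hns
  -- `N` is central
  have hWeq : W = N := by
    apply Subgroup.eq_of_le_of_card_ge hWleN
    by_contra hlt
    push Not at hlt
    have h1 : Nat.card W ^ 2 < Nat.card N ^ 2 := Nat.pow_lt_pow_left hlt (by norm_num)
    have h2 : Nat.card N * Nat.card W ^ 2 < Nat.card N * Nat.card N ^ 2 :=
      Nat.mul_lt_mul_of_pos_left h1 hNpos
    have h3 : Nat.card N * Nat.card N ^ 2 = Nat.card N ^ 3 := by ring
    omega
  have hNc : N ≤ Subgroup.center G := hWeq ▸ hWc
  -- the centre is `N`
  have hcN : Subgroup.center G ≤ N := by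
    intro c hc
    by_contra hcN
    have hc2 : c ^ 2 ≠ 1 := fun h => hcN ((hmemN c).2 h)
    have hMcard := card_comap_zpowers N c hcN (hsqN c)
    have hW₀le : Subgroup.zpowers (c ^ 2) ≤ N := by
      rw [Subgroup.zpowers_le]; exact hsqN c
    have hW₀card : Nat.card (Subgroup.zpowers (c ^ 2)) = 2 := by
      rw [Nat.card_zpowers]
      exact orderOf_eq_prime (by rw [← pow_mul]; exact hexp c) hc2
    have h := card_mul_sq_le N (Subgroup.zpowers (c ^ 2))
      ((Subgroup.zpowers (QuotientGroup.mk c : G ⧸ N)).comap (QuotientGroup.mk' N))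
      hNc hsqN hcommN hW₀le
      (fun u hu => by rw [(hmemN u).1 hu]; exact Subgroup.one_mem _)
      (fun a ha => by
        rw [Subgroup.mem_comap, QuotientGroup.mk'_apply]
        obtain ⟨i, hi⟩ := Subgroup.mem_zpowers_iff.1 ha
        have hc4 : (c ^ 2) ^ (2 : ℤ) = 1 := by
          rw [zpow_ofNat, ← pow_mul]; exact hexp c
        rcases Int.even_or_odd' i with ⟨j, hj | hj⟩
        · have ha1 : a ^ 2 = 1 := by
            rw [← hi, hj, zpow_mul, hc4, one_zpow]
          rw [(QuotientGroup.eq_one_iff a).2 ((hmemN a).2 ha1)]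
          exact Subgroup.one_mem _
        · have ha2 : a ^ 2 = c ^ 2 := by
            rw [← hi, hj, zpow_add, zpow_mul, hc4, one_zpow, one_mul, zpow_one]
          have hcc' : ∀ g : G, g * c = c * g := Subgroup.mem_center_iff.1 hc
          have hac : (c⁻¹ * a) ^ 2 = 1 := by
            have hcomm1 : a * c⁻¹ = c⁻¹ * a := by
              have := hcc' a
              calc a * c⁻¹ = c⁻¹ * (c * a) * c⁻¹ := by group
                _ = c⁻¹ * (a * c) * c⁻¹ := by rw [this]
                _ = c⁻¹ * a := by group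
            calc (c⁻¹ * a) ^ 2 = c⁻¹ * (a * c⁻¹) * a := by rw [pow_two]; group
              _ = c⁻¹ * (c⁻¹ * a) * a := by rw [hcomm1]
              _ = (c ^ 2)⁻¹ * a ^ 2 := by rw [pow_two, pow_two]; group
              _ = 1 := by rw [ha2, inv_mul_cancel]
          have hmk : (QuotientGroup.mk a : G ⧸ N) = QuotientGroup.mk c := by
            rw [eq_comm, QuotientGroup.eq]
            exact (hmemN _).2 hac
          rw [hmk]
          exact Subgroup.mem_zpowers _)
    rw [hW₀card, hMcard, heq] at h
    have h3 : 0 < Nat.card N ^ 3 := pow_pos hNpos 3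
    have h4 : 2 * Nat.card N * Nat.card N ^ 2 = 2 * Nat.card N ^ 3 := by ring
    omega
  have hcenter : Subgroup.center G = N := le_antisymm hcN hNc
  -- the derived subgroup is `N`
  have hmemcomm : ∀ a b : G, ⁅a, b⁆ ∈ commutator G := fun a b => by
    rw [commutator_def]
    exact Subgroup.commutator_mem_commutator (Subgroup.mem_top a) (Subgroup.mem_top b)
  have hcomle : commutator G ≤ N := by
    rw [commutator_def, Subgroup.commutator_le]
    intro a _ b _
    exact hcommN a b
  have hcomeq : commutator G = N := by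
    by_contra hne
    have hlt : Nat.card (commutator G) < Nat.card N := by
      by_contra hge
      push Not at hge
      exact hne (Subgroup.eq_of_le_of_card_ge hcomle hge)
    -- the subgroup `G₀` of elements whose square is a product of commutators
    let G₀ : Subgroup G :=
      { carrier := {x | x ^ 2 ∈ commutator G}
        mul_mem' := fun {a b} ha hb => by
          show (a * b) ^ 2 ∈ commutator G
          rw [sq_mul_of_central a b (hcc b a)]
          exact (commutator G).mul_mem ((commutator G).mul_mem ha hb) (hmemcomm b a)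
        one_mem' := by
          show (1 : G) ^ 2 ∈ commutator G
          rw [one_pow]; exact Subgroup.one_mem _
        inv_mem' := fun {a} ha => by
          show (a⁻¹) ^ 2 ∈ commutator G
          rw [inv_pow]; exact Subgroup.inv_mem _ ha }
    have hmemG₀ : ∀ x : G, x ∈ G₀ ↔ x ^ 2 ∈ commutator G := fun x => Iff.rfl
    have hNG₀ : N ≤ G₀ := fun x hx => by
      rw [hmemG₀, (hmemN x).1 hx]; exact Subgroup.one_mem _
    have hcomG₀ : commutator G ≤ G₀ := hcomle.trans hNG₀
    -- index of `G₀`
    have hidx : Nat.card (G ⧸ G₀) ≤ Nat.card (↥N ⧸ (commutator G).subgroupOf N) := by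
      let φ₀ : G → ↥N ⧸ (commutator G).subgroupOf N := fun x => QuotientGroup.mk ⟨x ^ 2, hsqN x⟩
      have hφ : ∀ x y : G, φ₀ x = φ₀ y → x⁻¹ * y ∈ G₀ := by
        intro x y hxy
        have h1 : (⟨x ^ 2, hsqN x⟩ : ↥N)⁻¹ * ⟨y ^ 2, hsqN y⟩ ∈ (commutator G).subgroupOf N :=
          QuotientGroup.eq.1 hxy
        rw [Subgroup.mem_subgroupOf] at h1
        have h2 : (x ^ 2)⁻¹ * y ^ 2 ∈ commutator G := h1
        rw [hmemG₀, sq_mul_of_central x⁻¹ y (hcc y x⁻¹), inv_pow]
        exact (commutator G).mul_mem h2 (hmemcomm y x⁻¹)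
      refine Nat.card_le_card_of_injective (fun q : G ⧸ G₀ => φ₀ q.out) ?_
      intro q q' hqq
      have h1 := hφ _ _ hqq
      have h2 : (QuotientGroup.mk q.out : G ⧸ G₀) = QuotientGroup.mk q'.out :=
        QuotientGroup.eq.2 h1
      rwa [QuotientGroup.out_eq', QuotientGroup.out_eq'] at h2
    have hG₀q := Subgroup.card_eq_card_quotient_mul_card_subgroup G₀
    have hNq := Subgroup.card_eq_card_quotient_mul_card_subgroup ((commutator G).subgroupOf N)
    have hKcard : Nat.card ((commutator G).subgroupOf N) = Nat.card (commutator G) :=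
      Nat.card_congr (Subgroup.subgroupOfEquivOfLe hcomle).toEquiv
    rw [hKcard] at hNq
    -- the bound for `G₀`
    have hG₀bound := card_mul_sq_le (G := ↥G₀) ((commutator G).subgroupOf G₀) ⊥ (N.subgroupOf G₀)
      (by
        intro u hu
        rw [Subgroup.mem_center_iff]
        intro g
        apply Subtype.ext
        have hu' : (u : G) ∈ Subgroup.center G := hNc (hcomle (Subgroup.mem_subgroupOf.1 hu))
        exact Subgroup.mem_center_iff.1 hu' g)
      (fun a => by
        rw [Subgroup.mem_subgroupOf]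
        exact a.2)
      (fun a b => by
        rw [Subgroup.mem_subgroupOf]
        exact hmemcomm (a : G) (b : G))
      bot_le
      (fun u hu => by
        rw [Subgroup.mem_bot]
        apply Subtype.ext
        exact (hmemN _).1 (hcomle (Subgroup.mem_subgroupOf.1 hu)))
      (fun a ha => by
        rw [Subgroup.mem_subgroupOf, hmemN]
        have := Subgroup.mem_bot.1 ha
        exact congrArg Subtype.val this)
    rw [Subgroup.card_bot, one_pow, mul_one,
      Nat.card_congr (Subgroup.subgroupOfEquivOfLe hNG₀).toEquiv,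
      Nat.card_congr (Subgroup.subgroupOfEquivOfLe hcomG₀).toEquiv] at hG₀bound
    have hcpos : 0 < Nat.card (commutator G) := Nat.card_pos
    have e1 : Nat.card G * Nat.card (commutator G) ≤ Nat.card N * Nat.card G₀ := by
      calc Nat.card G * Nat.card (commutator G)
          = Nat.card (G ⧸ G₀) * Nat.card G₀ * Nat.card (commutator G) := by rw [← hG₀q]
        _ ≤ Nat.card (↥N ⧸ (commutator G).subgroupOf N) * Nat.card G₀ *
              Nat.card (commutator G) := by gcongr
        _ = (Nat.card (↥N ⧸ (commutator G).subgroupOf N) * Nat.card (commutator G)) *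
              Nat.card G₀ := by ring
        _ = Nat.card N * Nat.card G₀ := by rw [← hNq]
    have e2 : Nat.card G * Nat.card (commutator G) ≤
        Nat.card N ^ 2 * Nat.card (commutator G) * Nat.card (commutator G) := by
      calc Nat.card G * Nat.card (commutator G) ≤ Nat.card N * Nat.card G₀ := e1
        _ ≤ Nat.card N * (Nat.card N * Nat.card (commutator G) ^ 2) :=
            Nat.mul_le_mul_left _ hG₀bound
        _ = Nat.card N ^ 2 * Nat.card (commutator G) * Nat.card (commutator G) := by ring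
    have e3 : Nat.card G ≤ Nat.card N ^ 2 * Nat.card (commutator G) :=
      Nat.le_of_mul_le_mul_right e2 hcpos
    have e4 : Nat.card N ^ 2 * Nat.card (commutator G) < Nat.card N ^ 2 * Nat.card N :=
      Nat.mul_lt_mul_of_pos_left hlt (pow_pos hNpos 2)
    have e5 : Nat.card N ^ 2 * Nat.card N = Nat.card N ^ 3 := by ring
    omega
  refine ⟨hG, ?_, hcomeq.trans hcenter.symm⟩
  rw [hcenter]
  apply le_antisymm
  · exact Cfsg.Agent.H52.frattini_le_of_comm_pow (p := 2) N hcommN hsqN
  · rw [← hcomeq]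
    exact Cfsg.Agent.H3.commutator_le_frattini hG

end Cfsg.Agent.S3773
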