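import Cfsg.Statements.S3774

set_option autoImplicit false
open Cfsg

namespace Cfsg.Agent.S3774

theorem inv_spec {G : Type*} [Group G] [Finite G] (hG : IsPGroup 2 G) (x : G) (hx : x ≠ 1) :
    x ^ (orderOf x / 2) ≠ 1 ∧ (x ^ (orderOf x / 2)) ^ 2 = 1 := by
  have : Fact (Nat.Prime 2) := ⟨Nat.prime_two⟩
  obtain ⟨k, hk⟩ := (IsPGroup.iff_orderOf.mp hG) x
  have hk0 : k ≠ 0 := by
    rintro rfl
    rw [pow_zero, orderOf_eq_one_iff] at hk
    exact hx hk
  obtain ⟨j, rfl⟩ : ∃ j, k = j + 1 := ⟨k - 1, by omega⟩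
  have h2 : orderOf x / 2 = 2 ^ j := by
    rw [hk, pow_succ]; simp
  rw [h2]
  constructor
  · apply pow_ne_one_of_lt_orderOf (by positivity)
    rw [hk, pow_succ]
    exact lt_mul_of_one_lt_right (by positivity) (by norm_num)
  · rw [← pow_mul, ← pow_succ, ← hk, pow_orderOf_eq_one]

theorem aut_mem_center {G : Type*} [Group G] (a : MulAut G) (z : G) (hz : z ∈ Subgroup.center G) :
    a z ∈ Subgroup.center G := by
  rw [Subgroup.mem_center_iff] at hz ⊢
  intro g
  have h := hz (a.symm g)
  have h2 := congrArg a h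
  simpa using h2

theorem dvd_of_pow_sub_one_dvd (k n : ℕ) (h : 2 ^ k - 1 ∣ 2 ^ n - 1) : k ∣ n := by
  have h1 := Nat.pow_sub_one_gcd_pow_sub_one 2 k n
  rw [Nat.gcd_eq_left h] at h1
  have h2 : 2 ^ k = 2 ^ Nat.gcd k n := by
    have a1 : 1 ≤ 2 ^ k := Nat.one_le_two_pow
    have a2 : 1 ≤ 2 ^ Nat.gcd k n := Nat.one_le_two_pow
    omega
  have h3 : k = Nat.gcd k n := Nat.pow_right_injective (le_refl 2) h2
  rw [h3]
  exact Nat.gcd_dvd_right k n

/-- Let G be a nontrivial finite 2-group whose automorphism group permutes the involutions of G transitively. Then every involution of G is central, so that the involutions together with 1 form the subgroup Ω₁(Z(G)), and if this subgroup has order q then |G| is a power of q. -/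
theorem result {G : Type*} [Group G] [Finite G] [Nontrivial G] (hG : IsPGroup 2 G) (htrans : ∀ x y : G, x ≠ 1 → x ^ 2 = 1 → y ≠ 1 → y ^ 2 = 1 → ∃ a : MulAut G, a x = y) : (∀ x : G, x ^ 2 = 1 → x ∈ Subgroup.center G) ∧ ∃ m : ℕ, Nat.card G = Nat.card {z : G // z ^ 2 = 1} ^ m := by
  classical
  have : Fact (Nat.Prime 2) := ⟨Nat.prime_two⟩
  letI : Fintype G := Fintype.ofFinite G
  -- a central involution
  obtain ⟨z, hz1, hz2, hzc⟩ : ∃ z : G, z ≠ 1 ∧ z ^ 2 = 1 ∧ z ∈ Subgroup.center G := by
    have := hG.center_nontrivial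
    obtain ⟨c, hc⟩ := exists_ne (1 : Subgroup.center G)
    have hc1 : (c : G) ≠ 1 := fun h => hc (Subtype.ext h)
    obtain ⟨h1, h2⟩ := inv_spec hG (c : G) hc1
    exact ⟨_, h1, h2, Subgroup.pow_mem _ c.2 _⟩
  have hcentral : ∀ x : G, x ^ 2 = 1 → x ∈ Subgroup.center G := by
    intro x hx
    by_cases hx1 : x = 1
    · rw [hx1]; exact Subgroup.one_mem _
    · obtain ⟨a, ha⟩ := htrans z x hz1 hz2 hx1 hx
      rw [← ha]
      exact aut_mem_center a z hzc
  refine ⟨hcentral, ?_⟩
  -- the subgroup of elements of order dividing 2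
  let Ω : Subgroup G :=
    { carrier := {x | x ^ 2 = 1}
      mul_mem' := by
        intro x y hx hy
        have hcomm : Commute x y := by
          have := Subgroup.mem_center_iff.mp (hcentral x hx) y
          exact this.symm
        show (x * y) ^ 2 = 1
        rw [hcomm.mul_pow]
        have hx' : x ^ 2 = 1 := hx
        have hy' : y ^ 2 = 1 := hy
        rw [hx', hy', one_mul]
      one_mem' := by show (1 : G) ^ 2 = 1; simp
      inv_mem' := by
        intro x hx
        have hx' : x ^ 2 = 1 := hx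
        show (x⁻¹) ^ 2 = 1
        rw [inv_pow, hx', inv_one] }
  have hΩcard : Nat.card {z : G // z ^ 2 = 1} = Nat.card Ω := rfl
  obtain ⟨k, hk⟩ := (hG.to_subgroup Ω).exists_card_eq
  obtain ⟨n, hn⟩ := hG.exists_card_eq
  -- counting
  let s : Finset G := Finset.univ.filter (fun x : G => x ≠ 1)
  let t : Finset G := Finset.univ.filter (fun x : G => x ≠ 1 ∧ x ^ 2 = 1)
  let f : G → G := fun x => x ^ (orderOf x / 2)
  have hst : ∀ x ∈ s, f x ∈ t := by
    intro x hx
    have hx1 : x ≠ 1 := (Finset.mem_filter.mp hx).2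
    exact Finset.mem_filter.mpr ⟨Finset.mem_univ _, inv_spec hG x hx1⟩
  have hfib : ∀ y ∈ t, (s.filter (fun x => f x = y)).card = (s.filter (fun x => f x = z)).card := by
    intro y hy
    obtain ⟨hy1, hy2⟩ := (Finset.mem_filter.mp hy).2
    obtain ⟨a, ha⟩ := htrans z y hz1 hz2 hy1 hy2
    symm
    have hfa : ∀ x : G, f (a x) = a (f x) := by
      intro x
      show (a x) ^ (orderOf (a x) / 2) = a (x ^ (orderOf x / 2))
      rw [MulEquiv.orderOf_eq, map_pow]
    apply Finset.card_bij (fun x _ => a x)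
    · intro x hx
      obtain ⟨hxs, hxf⟩ := Finset.mem_filter.mp hx
      have hx1 : x ≠ 1 := (Finset.mem_filter.mp hxs).2
      refine Finset.mem_filter.mpr ⟨Finset.mem_filter.mpr ⟨Finset.mem_univ _, ?_⟩, ?_⟩
      · intro h
        apply hx1
        have : a x = a 1 := by rw [h, map_one]
        exact a.injective this
      · rw [hfa, hxf, ha]
    · intro x₁ _ x₂ _ h
      exact a.injective h
    · intro w hw
      obtain ⟨hws, hwf⟩ := Finset.mem_filter.mp hw
      have hw1 : w ≠ 1 := (Finset.mem_filter.mp hws).2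
      refine ⟨a.symm w, ?_, by simp⟩
      refine Finset.mem_filter.mpr ⟨Finset.mem_filter.mpr ⟨Finset.mem_univ _, ?_⟩, ?_⟩
      · intro h
        apply hw1
        have : a (a.symm w) = a 1 := by rw [h]
        simpa using this
      · apply a.injective
        rw [← hfa, MulEquiv.apply_symm_apply, hwf, ha]
  have hcount : s.card = t.card * (s.filter (fun x => f x = z)).card := by
    rw [Finset.card_eq_sum_card_fiberwise hst, Finset.sum_congr rfl hfib, Finset.sum_const, smul_eq_mul]
  have hs : s.card = Nat.card G - 1 := by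
    show (Finset.univ.filter (fun x : G => x ≠ 1)).card = _
    rw [Finset.filter_ne' Finset.univ (1 : G), Finset.card_erase_of_mem (Finset.mem_univ _),
      Finset.card_univ, Nat.card_eq_fintype_card]
  have ht : t.card = Nat.card Ω - 1 := by
    have h1 : t = (Finset.univ.filter (fun x : G => x ^ 2 = 1)).erase 1 := by
      ext x
      simp [t]
    rw [h1, Finset.card_erase_of_mem (by simp), ← hΩcard, Nat.card_eq_fintype_card,
      Fintype.card_subtype]
  rw [hs, ht, hn, hk] at hcount
  have hdvd : 2 ^ k - 1 ∣ 2 ^ n - 1 := ⟨_, hcount⟩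
  obtain ⟨m, hm⟩ := dvd_of_pow_sub_one_dvd k n hdvd
  refine ⟨m, ?_⟩
  rw [hΩcard, hn, hk, hm, pow_mul]

end Cfsg.Agent.S3774
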