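import Cfsg.Statements.S3775
import Cfsg.Agent.H14.AbelCoprime

set_option autoImplicit false
open Cfsg

namespace Cfsg.Agent.S3775

/-- Let A be a finite abelian p-group and X a group of automorphisms of A of order prime to p. Call a subgroup of A invariant when every element of X maps it onto itself. Then the following are equivalent: (i) A is not the direct product of two nontrivial invariant subgroups; (ii) every invariant subgroup of A is one of the subgroups Ω_i(A) = {a : a^(p^i) = 1}; (iii) the subgroup Ω₁(A) of elements of order dividing p has no invariant subgroups other than 1 and itself. -/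
theorem result {A : Type*} [CommGroup A] [Finite A] {p : ℕ} [Fact p.Prime] (hA : IsPGroup p A) (X : Subgroup (MulAut A)) (hX : (Nat.card X).Coprime p) : ((¬ ∃ B C : Subgroup A, B ≠ ⊥ ∧ C ≠ ⊥ ∧ (∀ x ∈ X, B.map x.toMonoidHom = B) ∧ (∀ x ∈ X, C.map x.toMonoidHom = C) ∧ B ⊓ C = ⊥ ∧ B ⊔ C = ⊤) ↔ (∀ B : Subgroup A, (∀ x ∈ X, B.map x.toMonoidHom = B) → ∃ i : ℕ, ∀ a : A, a ∈ B ↔ a ^ p ^ i = 1)) ∧ ((∀ B : Subgroup A, (∀ x ∈ X, B.map x.toMonoidHom = B) → ∃ i : ℕ, ∀ a : A, a ∈ B ↔ a ^ p ^ i = 1) ↔ (∀ B : Subgroup A, (∀ x ∈ X, B.map x.toMonoidHom = B) → (∀ b ∈ B, b ^ p = 1) → B = ⊥ ∨ ∀ a : A, a ∈ B ↔ a ^ p = 1)) := by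
  have h := Cfsg.Agent.H14.AbelCoprime.main hA X hX
  simp only [← Cfsg.Agent.H14.AbelCoprime.inv_iff] at h
  exact h

end Cfsg.Agent.S3775
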