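import Cfsg.Statements.S3778

set_option autoImplicit false
open Cfsg

namespace Cfsg.Agent.S3778

open scoped commutatorElement

section aux

variable {G : Type*} [Group G]

/-- The two-step centralizer `C_G(γ_i / γ_{i+2})`. -/
def twoStep (G : Type*) [Group G] (i : ℕ) : Subgroup G where
  carrier := {g | ∀ y ∈ (⊤ : Subgroup G).lowerCentralSeries i,
    ⁅y, g⁆ ∈ (⊤ : Subgroup G).lowerCentralSeries (i + 2)}
  one_mem' := by
    intro y _
    simp
  mul_mem' := by
    intro g h hg hh y hy
    have e : ⁅y, g * h⁆ = ⁅y, g⁆ * (g * ⁅y, h⁆ * g⁻¹) := by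
      simp only [commutatorElement_def]; group
    rw [e]
    exact mul_mem (hg y hy) (Subgroup.Normal.conj_mem inferInstance _ (hh y hy) g)
  inv_mem' := by
    intro g hg y hy
    have e : ⁅y, g⁻¹⁆ = g⁻¹ * (⁅y, g⁆)⁻¹ * g⁻¹⁻¹ := by
      simp only [commutatorElement_def]; group
    rw [e]
    exact Subgroup.Normal.conj_mem inferInstance _ (inv_mem (hg y hy)) g⁻¹

theorem mem_twoStep {i : ℕ} {g : G} : g ∈ twoStep G i ↔
    ∀ y ∈ (⊤ : Subgroup G).lowerCentralSeries i,
      ⁅y, g⁆ ∈ (⊤ : Subgroup G).lowerCentralSeries (i + 2) := Iff.rfl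

/-- The subgroup of `γ_i` of elements whose commutator with `x` lies in `γ_{i+2}`. -/
def kx (x : G) (i : ℕ) : Subgroup G where
  carrier := {y | y ∈ (⊤ : Subgroup G).lowerCentralSeries i ∧
    ⁅y, x⁆ ∈ (⊤ : Subgroup G).lowerCentralSeries (i + 2)}
  one_mem' := by
    refine ⟨one_mem _, ?_⟩
    simp
  mul_mem' := by
    rintro y z ⟨hy, hy'⟩ ⟨hz, hz'⟩
    refine ⟨mul_mem hy hz, ?_⟩
    have e : ⁅y * z, x⁆ = (y * ⁅z, x⁆ * y⁻¹) * ⁅y, x⁆ := by
      simp only [commutatorElement_def]; group
    rw [e]
    exact mul_mem (Subgroup.Normal.conj_mem inferInstance _ hz' y) hy'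
  inv_mem' := by
    rintro y ⟨hy, hy'⟩
    refine ⟨inv_mem hy, ?_⟩
    have e : ⁅y⁻¹, x⁆ = y⁻¹ * (⁅y, x⁆)⁻¹ * y⁻¹⁻¹ := by
      simp only [commutatorElement_def]; group
    rw [e]
    exact Subgroup.Normal.conj_mem inferInstance _ (inv_mem hy') y⁻¹

theorem lcs_stable {n : ℕ}
    (h : (⊤ : Subgroup G).lowerCentralSeries (n + 1) = (⊤ : Subgroup G).lowerCentralSeries n) :
    ∀ k, (⊤ : Subgroup G).lowerCentralSeries (n + k) = (⊤ : Subgroup G).lowerCentralSeries n := by
  intro k
  induction k with
  | zero => rfl
  | succ k ih =>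
    rw [← add_assoc, Subgroup.lowerCentralSeries_succ, ih, ← Subgroup.lowerCentralSeries_succ, h]

variable [Finite G] {p : ℕ} [Fact p.Prime]

theorem relIndex_pos' (H K : Subgroup G) : 0 < H.relIndex K :=
  Nat.pos_of_dvd_of_pos (Subgroup.relIndex_dvd_card H K) Nat.card_pos

omit [Finite G] in
theorem twoStep_ne_top [Group.IsNilpotent G] {i : ℕ}
    (hi : i + 1 < Group.nilpotencyClass G) :
    twoStep G i ≠ ⊤ := by
  intro htop
  have h1 : (⊤ : Subgroup G).lowerCentralSeries (i + 1) ≤
      (⊤ : Subgroup G).lowerCentralSeries (i + 2) := by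
    rw [Subgroup.lowerCentralSeries_succ, Subgroup.commutator_le]
    intro y hy g _
    have : g ∈ twoStep G i := by rw [htop]; trivial
    exact this y hy
  have h2 : (⊤ : Subgroup G).lowerCentralSeries (i + 1 + 1) =
      (⊤ : Subgroup G).lowerCentralSeries (i + 1) :=
    le_antisymm (Subgroup.lowerCentralSeries_antitone _ (by omega)) h1
  have h3 := lcs_stable h2 (Group.nilpotencyClass G)
  have h4 : (⊤ : Subgroup G).lowerCentralSeries (i + 1 + Group.nilpotencyClass G) = ⊥ := by
    rw [Subgroup.lowerCentralSeries_eq_bot_iff_nilpotencyClass_le]; omega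
  rw [h4] at h3
  have h5 := (Subgroup.lowerCentralSeries_eq_bot_iff_nilpotencyClass_le (G := G) (n := i + 1)).mp h3.symm
  omega

theorem index_ge_of_ne_top (hG : IsPGroup p G) {H : Subgroup G} (hH : H ≠ ⊤) :
    p * Nat.card H ≤ Nat.card G := by
  obtain ⟨n, hn⟩ := hG.index H
  have hn0 : n ≠ 0 := by
    rintro rfl
    rw [pow_zero, Subgroup.index_eq_one] at hn
    exact hH hn
  have hp : p ≤ H.index := by
    rw [hn]
    calc p = p ^ 1 := (pow_one p).symm
      _ ≤ p ^ n := Nat.pow_le_pow_right (Fact.out : p.Prime).pos (by omega)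
  rw [← H.card_mul_index, mul_comm]
  exact Nat.mul_le_mul_left _ hp

open scoped Classical in
/-- Key step: passing from `γ_{i+1}` to `γ_i`, the index of the centralizer of `x` does not
decrease, and gets multiplied by at least `p` if `x` is outside the two-step centralizer. -/
theorem relIndex_step (hG : IsPGroup p G) (x : G) (i : ℕ) :
    (if x ∈ twoStep G i then 1 else p) *
      (Subgroup.centralizer ({x} : Set G)).relIndex ((⊤ : Subgroup G).lowerCentralSeries (i + 1)) ≤
      (Subgroup.centralizer ({x} : Set G)).relIndex ((⊤ : Subgroup G).lowerCentralSeries i) := by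
  set C := Subgroup.centralizer ({x} : Set G) with hC
  set A := (⊤ : Subgroup G).lowerCentralSeries i with hA
  set B := (⊤ : Subgroup G).lowerCentralSeries (i + 1) with hB
  set K := kx x i with hK
  have hBA : B ≤ A := Subgroup.lowerCentralSeries_antitone _ (by omega)
  have hKA : K ≤ A := fun y hy => hy.1
  have hBK : B ≤ K := by
    intro y hy
    refine ⟨hBA hy, ?_⟩
    show ⁅y, x⁆ ∈ (⊤ : Subgroup G).lowerCentralSeries (i + 1 + 1)
    rw [Subgroup.lowerCentralSeries_succ]
    exact Subgroup.commutator_mem_commutator hy (Subgroup.mem_top x)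
  have hCK : C ⊓ A ≤ K := by
    intro y hy
    refine ⟨hy.2, ?_⟩
    have hcomm : x * y = y * x := Subgroup.mem_centralizer_iff.mp hy.1 x rfl
    have : ⁅y, x⁆ = 1 := by
      rw [commutatorElement_eq_one_iff_mul_comm]; exact hcomm.symm
    rw [this]; exact one_mem _
  -- index multiplicativity
  have h1 : (C ⊓ A).relIndex K * K.relIndex A = (C ⊓ A).relIndex A :=
    Subgroup.relIndex_mul_relIndex _ _ _ hCK hKA
  have h2 : (C ⊓ A).relIndex A = C.relIndex A := Subgroup.inf_relIndex_right _ _
  have h3 : (C ⊓ A).relIndex K = C.relIndex K := by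
    rw [← Subgroup.inf_relIndex_right (C ⊓ A) K, ← Subgroup.inf_relIndex_right C K]
    congr 1
    rw [inf_assoc, inf_eq_right.mpr hKA]
  have h4 : C.relIndex B ≤ C.relIndex K :=
    Subgroup.relIndex_le_of_le_right hBK (relIndex_pos' _ _).ne'
  have h5 : (if x ∈ twoStep G i then 1 else p) ≤ K.relIndex A := by
    have hpos : 0 < K.relIndex A := relIndex_pos' _ _
    split_ifs with hx
    · exact hpos
    · -- K ≠ A
      have hne : K.relIndex A ≠ 1 := by
        rw [Ne, Subgroup.relIndex_eq_one]
        intro hAK
        apply hx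
        intro y hy
        exact (hAK hy).2
      have hdvd : K.relIndex A ∣ Nat.card A := Subgroup.relIndex_dvd_card _ _
      obtain ⟨n, hn⟩ := (IsPGroup.iff_card.mp (hG.to_subgroup A))
      rw [hn] at hdvd
      obtain ⟨j, -, hj⟩ := (Nat.dvd_prime_pow (Fact.out : p.Prime)).mp hdvd
      rw [hj] at hne ⊢
      have hj0 : j ≠ 0 := by
        rintro rfl; exact hne (pow_zero p)
      calc p = p ^ 1 := (pow_one p).symm
        _ ≤ p ^ j := Nat.pow_le_pow_right (Fact.out : p.Prime).pos (by omega)
  calc (if x ∈ twoStep G i then 1 else p) * C.relIndex B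
      ≤ K.relIndex A * C.relIndex K := Nat.mul_le_mul h5 h4
    _ = C.relIndex A := by rw [← h2, ← h1, h3, mul_comm]

open scoped Classical in
theorem pow_card_le_relIndex (hG : IsPGroup p G) (x : G) :
    ∀ (n i : ℕ), p ^ ((Finset.Ico i (i + n)).filter (fun j => x ∉ twoStep G j)).card ≤
      (Subgroup.centralizer ({x} : Set G)).relIndex ((⊤ : Subgroup G).lowerCentralSeries i) := by
  intro n
  induction n with
  | zero =>
    intro i
    simp only [add_zero, Finset.Ico_self, Finset.filter_empty, Finset.card_empty, pow_zero]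
    exact relIndex_pos' _ _
  | succ n ih =>
    intro i
    have hins : Finset.Ico i (i + (n + 1)) = insert i (Finset.Ico (i + 1) (i + 1 + n)) := by
      ext j
      simp only [Finset.mem_Ico, Finset.mem_insert]
      omega
    have hstep := relIndex_step hG x i
    have ih' := ih (i + 1)
    rw [hins, Finset.filter_insert]
    by_cases hx : x ∈ twoStep G i
    · rw [if_neg (not_not.mpr hx)]
      rw [if_pos hx, one_mul] at hstep
      exact le_trans ih' hstep
    · rw [if_pos hx, Finset.card_insert_of_notMem (by simp), pow_succ]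
      rw [if_neg hx] at hstep
      calc _ ≤ (Subgroup.centralizer ({x} : Set G)).relIndex
            ((⊤ : Subgroup G).lowerCentralSeries (i + 1)) * p := Nat.mul_le_mul_right _ ih'
        _ ≤ _ := by rw [mul_comm]; exact hstep

end aux

/-- If G is a finite p-group in which every conjugacy class has at most p^b elements (every element has centralizer of index at most p^b), then G is abelian when b = 0, and when b ≥ 1 its nilpotency class c satisfies (c − 1)(p − 1) < bp, that is c < bp/(p − 1) + 1, and hence c ≤ 2b. -/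
theorem result {G : Type*} [Group G] [Finite G] {p : ℕ} [Fact p.Prime] (hG : IsPGroup p G) (b : ℕ) (hb : ∀ x : G, (Subgroup.centralizer ({x} : Set G)).index ≤ p ^ b) : ∃ c : ℕ, (⊤ : Subgroup G).lowerCentralSeries c = ⊥ ∧ (b ≠ 0 → (c - 1) * (p - 1) < b * p ∧ c ≤ 2 * b) ∧ (b = 0 → c ≤ 1) := by
  classical
  have _ := hG.isNilpotent
  have hp := (Fact.out : p.Prime)
  have hp2 : 2 ≤ p := hp.two_le
  set c := Group.nilpotencyClass G with hc
  refine ⟨c, Subgroup.lowerCentralSeries_nilpotencyClass, ?_⟩
  by_cases hc1 : c ≤ 1
  · refine ⟨fun hb0 => ⟨?_, ?_⟩, fun _ => hc1⟩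
    · have : c - 1 = 0 := by omega
      rw [this, zero_mul]
      exact Nat.mul_pos (Nat.pos_of_ne_zero hb0) hp.pos
    · omega
  · -- c ≥ 2
    have _ := Fintype.ofFinite G
    let I := Finset.range (c - 1)
    let m : G → ℕ := fun x => (I.filter (fun j => x ∉ twoStep G j)).card
    -- each x has p^(m x) ≤ p^b
    have hm : ∀ x, m x ≤ b := by
      intro x
      have h1 := pow_card_le_relIndex hG x (c - 1) 0
      rw [zero_add, ← Finset.range_eq_Ico] at h1
      have h2 : (Subgroup.centralizer ({x} : Set G)).relIndex
          ((⊤ : Subgroup G).lowerCentralSeries 0) = (Subgroup.centralizer ({x} : Set G)).index := by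
        rw [Subgroup.lowerCentralSeries_zero, Subgroup.relIndex_top_right]
      rw [h2] at h1
      exact (Nat.pow_le_pow_iff_right hp.one_lt).mp (le_trans h1 (hb x))
    -- averaging
    have hex : ∃ x, (c - 1) * (p - 1) < p * m x := by
      by_contra hcon
      push Not at hcon
      -- double counting
      have hsum : ∑ x : G, m x =
          ∑ j ∈ I, (Finset.univ.filter (fun x : G => x ∉ twoStep G j)).card := by
        have e1 : ∀ x : G, m x = ∑ j ∈ I, if x ∉ twoStep G j then 1 else 0 := by
          intro x; exact Finset.card_filter _ _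
        have e2 : ∀ j, (Finset.univ.filter (fun x : G => x ∉ twoStep G j)).card =
            ∑ x : G, if x ∉ twoStep G j then 1 else 0 := by
          intro j; exact Finset.card_filter _ _
        simp only [e1, e2]
        exact Finset.sum_comm
      have hj : ∀ j ∈ I, (p - 1) * Fintype.card G ≤
          p * (Finset.univ.filter (fun x : G => x ∉ twoStep G j)).card := by
        intro j hjI
        have hjc : j + 1 < c := by
          have := Finset.mem_range.mp hjI
          omega
        have hne := twoStep_ne_top (G := G) hjc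
        have hidx := index_ge_of_ne_top hG hne
        have hcompl : (Finset.univ.filter (fun x : G => x ∉ twoStep G j)).card +
            Nat.card (twoStep G j) = Fintype.card G := by
          have h1 : Nat.card (twoStep G j) =
              (Finset.univ.filter (fun x : G => x ∈ twoStep G j)).card := by
            rw [Nat.card_eq_fintype_card, Fintype.card_subtype]
          rw [h1, add_comm]
          exact Finset.card_filter_add_card_filter_not (s := Finset.univ)
            (fun x : G => x ∈ twoStep G j) |>.trans (by simp)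
        have hG' : Nat.card G = Fintype.card G := Nat.card_eq_fintype_card
        rw [hG'] at hidx
        have e1 : p * (Finset.univ.filter (fun x : G => x ∉ twoStep G j)).card +
            p * Nat.card (twoStep G j) = p * Fintype.card G := by
          rw [← mul_add, hcompl]
        have e2 : (p - 1) * Fintype.card G + Fintype.card G = p * Fintype.card G := by
          have : p - 1 + 1 = p := by omega
          calc (p - 1) * Fintype.card G + Fintype.card G
              = (p - 1 + 1) * Fintype.card G := by ring
            _ = p * Fintype.card G := by rw [this]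
        omega
      have hlow : (c - 1) * ((p - 1) * Fintype.card G) ≤ p * ∑ x : G, m x := by
        rw [hsum, Finset.mul_sum]
        calc (c - 1) * ((p - 1) * Fintype.card G)
            = ∑ _j ∈ I, (p - 1) * Fintype.card G := by
              rw [Finset.sum_const, Finset.card_range, smul_eq_mul]
          _ ≤ _ := Finset.sum_le_sum hj
      have hm1 : m 1 = 0 := by
        simp only [m, Finset.card_eq_zero, Finset.filter_eq_empty_iff]
        intro j _
        simp [one_mem]
      have hup : p * ∑ x : G, m x ≤ (Fintype.card G - 1) * ((c - 1) * (p - 1)) := by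
        rw [Finset.mul_sum, ← Finset.add_sum_erase Finset.univ _ (Finset.mem_univ (1 : G)), hm1,
          mul_zero, zero_add]
        calc ∑ x ∈ Finset.univ.erase (1 : G), p * m x
            ≤ ∑ _x ∈ Finset.univ.erase (1 : G), (c - 1) * (p - 1) :=
              Finset.sum_le_sum (fun x _ => hcon x)
          _ = (Fintype.card G - 1) * ((c - 1) * (p - 1)) := by
              rw [Finset.sum_const, Finset.card_erase_of_mem (Finset.mem_univ _),
                Finset.card_univ, smul_eq_mul]
      have hcardpos : 0 < Fintype.card G := Fintype.card_pos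
      have hpos : 0 < (c - 1) * (p - 1) := Nat.mul_pos (by omega) (by omega)
      have : (c - 1) * ((p - 1) * Fintype.card G) = Fintype.card G * ((c - 1) * (p - 1)) := by ring
      rw [this] at hlow
      have hlt : (Fintype.card G - 1) * ((c - 1) * (p - 1)) <
          Fintype.card G * ((c - 1) * (p - 1)) :=
        Nat.mul_lt_mul_of_pos_right (by omega) hpos
      omega
    obtain ⟨x, hx⟩ := hex
    have hmx := hm x
    have hmain : (c - 1) * (p - 1) < b * p := by
      calc (c - 1) * (p - 1) < p * m x := hx
        _ ≤ p * b := Nat.mul_le_mul_left _ hmx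
        _ = b * p := mul_comm _ _
    have hb0 : b ≠ 0 := by
      rintro rfl
      simp at hmain
    refine ⟨fun _ => ⟨hmain, ?_⟩, fun h => absurd h hb0⟩
    -- c ≤ 2 b
    by_contra hcb
    push Not at hcb
    have h1 : 2 * b ≤ c - 1 := by omega
    have h2 : b * p ≤ 2 * b * (p - 1) := by
      have : p ≤ 2 * (p - 1) := by omega
      calc b * p ≤ b * (2 * (p - 1)) := Nat.mul_le_mul_left _ this
        _ = 2 * b * (p - 1) := by ring
    have h3 : 2 * b * (p - 1) ≤ (c - 1) * (p - 1) := Nat.mul_le_mul_right _ h1
    omega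

end Cfsg.Agent.S3778
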