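import Cfsg.Statements.S3779
import Mathlib
import Cfsg.Agent.H66.HKKDefs
import Cfsg.Agent.H66.HKKAsm
import Cfsg.Agent.H24.HkkK1
import Cfsg.Agent.H40.HkkL1a
import Cfsg.Agent.H25.HkkE1
import Cfsg.Agent.H80.HkkK2
import Cfsg.Agent.H51.HkkL1b

set_option autoImplicit false
set_option linter.style.haveILetI false
open Cfsg

namespace Cfsg.Agent.S3779

universe u

open Cfsg.Agent.H66.HKK in
/-- the class bound from a family-level nilpotency statement -/
private theorem class_le {G : Type u} [Group G] [Finite G] {p : ℕ} (hp : p.Prime) (α : MulAut G)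
    (hα : orderOf α = p) (hfpf : ∀ g : G, α g = g → g = 1) (c : ℕ)
    (H : ∀ (M : Type u) [LieRing M] (X : ZMod p → AddSubgroup M),
      IsGr X → X 0 = ⊥ → ∀ i, flcs X c i = ⊥) :
    (⊤ : Subgroup G).lowerCentralSeries c = ⊥ := by
  haveI : Fact p.Prime := ⟨hp⟩
  have hchar : ∀ i, ((⊤ : Subgroup G).lowerCentralSeries i).Characteristic := fun i => inferInstance
  refine hkk_core α hα hfpf c ?_ ?_
  · refine Cfsg.Agent.H51.HKK.exists_lieRing_of_filtration
      (⊤ : Subgroup G).lowerCentralSeries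
      (fun i => Subgroup.lowerCentralSeries_antitone ⊤ (Nat.le_succ i))
      (fun i j x y hx hy => Cfsg.Agent.H40.HKK.lcs_comm_mem i j x y hx hy)
      (fun i j k x y z hx hy hz => Cfsg.Agent.H40.HKK.lcs_jacobi i j k x y z hx hy hz)
      α.toMonoidHom ?_
    intro i x hx
    have h1 : ((⊤ : Subgroup G).lowerCentralSeries i).map α.toMonoidHom =
        (⊤ : Subgroup G).lowerCentralSeries i :=
      (Subgroup.characteristic_iff_map_eq.mp (hchar i)) α
    rw [← h1]
    exact Subgroup.mem_map_of_mem _ hx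
  · intro L _ φ hφ hN m hm hexp
    exact Cfsg.Agent.H25.HKK.eigen_transfer p φ hφ hN m hm hexp c H

/-- Let G be a finite group with an automorphism of prime order p fixing only the identity. Then G is nilpotent; if p = 2 then G is abelian, if p = 3 then G has class at most 2, and in general the class of G is at most ξ = 1 + (p−1) + (p−1)² + ⋯ + (p−1)^(n−1) with n = 2^(p−1) − 1 (the Higman–Kreknin–Kostrikin bound). -/
theorem result {G : Type*} [Group G] [Finite G] {p : ℕ} (hp : p.Prime) (α : MulAut G) (hα : orderOf α = p) (hfpf : ∀ g : G, α g = g → g = 1) : (p = 2 → (⊤ : Subgroup G).lowerCentralSeries 1 = ⊥) ∧ (p = 3 → (⊤ : Subgroup G).lowerCentralSeries 2 = ⊥) ∧ (⊤ : Subgroup G).lowerCentralSeries (Finset.sum (Finset.range (2 ^ (p - 1) - 1)) (fun i => (p - 1) ^ i)) = ⊥ := by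
  haveI : Fact p.Prime := ⟨hp⟩
  haveI : NeZero p := ⟨hp.ne_zero⟩
  have hgen : (⊤ : Subgroup G).lowerCentralSeries
      (Finset.sum (Finset.range (2 ^ (p - 1) - 1)) (fun i => (p - 1) ^ i)) = ⊥ := by
    apply class_le hp α hα hfpf
    intro M _ X hX h0 i
    rw [eq_bot_iff]
    refine le_trans (Cfsg.Agent.H80.HKK.kk p X hX h0 (2 ^ (p - 1) - 1) i) ?_
    exact le_of_eq (Cfsg.Agent.H24.HKK.kreknin X hX h0 i)
  refine ⟨?_, ?_, hgen⟩
  · intro h2
    subst h2
    have h1 : Finset.sum (Finset.range (2 ^ (2 - 1) - 1)) (fun i => (2 - 1) ^ i) = 1 := by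
      decide
    rw [h1] at hgen
    exact hgen
  · intro h3
    subst h3
    apply class_le hp α hα hfpf
    intro M _ X hX h0 i
    exact Cfsg.Agent.H66.HKK.flcs_three X hX h0 i

end Cfsg.Agent.S3779
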