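import Cfsg.Statements.S3780
import Cfsg.Agent.H66.PFrattini
import Cfsg.Agent.H66.Frob

set_option autoImplicit false
open Cfsg

namespace Cfsg.Agent.S3780
open Cfsg.Agent.H66

theorem ring_key {E : Type*} [Ring E] {p : ℕ} (hp : p.Prime) (a : E) (ha : a ^ p = 1) :
    ∃ r : E, (a - 1) ^ p = (p : E) * r := by
  have hc : Commute a (-1) := (Commute.one_right a).neg_right
  obtain ⟨r, hr⟩ := hc.exists_add_pow_prime_eq hp
  rw [← sub_eq_add_neg] at hr
  rcases hp.eq_two_or_odd' with h2 | hodd
  · subst h2
    refine ⟨1 + a * (-1) * r, ?_⟩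
    rw [hr, ha, neg_one_sq, mul_add, mul_one, mul_assoc, mul_assoc]
    push_cast
    rw [one_add_one_eq_two, mul_assoc]
  · refine ⟨a * (-1) * r, ?_⟩
    rw [hr, ha, hodd.neg_one_pow, add_neg_cancel, zero_add, mul_assoc, mul_assoc, mul_assoc]

theorem add_key {A : Type*} [AddCommGroup A] {p : ℕ} (hp : p.Prime) (a : AddMonoid.End A)
    (ha : a ^ p = 1) (x : A) (hx : p • x = 0) : ((a - 1) ^ p) x = 0 := by
  obtain ⟨r, hr⟩ := ring_key hp a ha
  rw [hr]
  show (p : AddMonoid.End A) (r x) = 0
  rw [AddMonoid.End.natCast_apply, ← map_nsmul, hx, map_zero]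

/-- For an automorphism `α` with `α ^ p = 1` of a commutative group, the `p`-fold iterate of
`v ↦ α v / v` kills the elements of order dividing `p`. -/
theorem iter_kill {V : Type*} [CommGroup V] {p : ℕ} (hp : p.Prime) (α : MulAut V)
    (hα : α ^ p = 1) (v : V) (hv : v ^ p = 1) :
    (fun w : V => α w / w)^[p] v = 1 := by
  let a : AddMonoid.End (Additive V) := MonoidHom.toAdditive α.toMonoidHom
  have haapp : ∀ w : V, a (Additive.ofMul w) = Additive.ofMul (α w) := fun w => rfl
  have hapow : ∀ (k : ℕ) (w : V), (a ^ k) (Additive.ofMul w) = Additive.ofMul ((α ^ k) w) := by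
    intro k
    induction k with
    | zero => intro w; simp
    | succ k ih =>
      intro w
      rw [pow_succ, pow_succ]
      show (a ^ k) (a (Additive.ofMul w)) = Additive.ofMul ((α ^ k) (α w))
      rw [haapp, ih]
  have ha : a ^ p = 1 := by
    ext x
    have := hapow p (Additive.toMul x)
    rw [hα] at this
    simpa using this
  have hT : ∀ (k : ℕ) (w : V),
      ((a - 1) ^ k) (Additive.ofMul w) = Additive.ofMul ((fun w : V => α w / w)^[k] w) := by
    intro k
    induction k with
    | zero => intro w; simp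
    | succ k ih =>
      intro w
      have e1 : (a - 1) (Additive.ofMul w) = Additive.ofMul (α w / w) := rfl
      rw [pow_succ, Function.iterate_succ_apply]
      show ((a - 1) ^ k) ((a - 1) (Additive.ofMul w)) = _
      rw [e1, ih]
  have hx : p • (Additive.ofMul v) = 0 := by
    rw [← ofMul_pow, hv]; rfl
  have := add_key hp a ha (Additive.ofMul v) hx
  rw [hT] at this
  exact ofMul_eq_zero.mp this

theorem card_ker_comp_le {G : Type*} [Group G] [Finite G] (f g : G →* G) :
    Nat.card (g.comp f).ker ≤ Nat.card g.ker * Nat.card f.ker := by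
  have hle : f.ker ≤ (g.comp f).ker := by
    intro x hx
    rw [MonoidHom.mem_ker] at hx ⊢
    simp [hx]
  have h1 := card_mul_relIndex_of_le hle
  rw [Subgroup.relIndex_ker] at h1
  have h2 : ((g.comp f).ker.map f) ≤ g.ker := by
    rintro _ ⟨x, hx, rfl⟩
    exact hx
  have h3 : Nat.card ((g.comp f).ker.map f) ≤ Nat.card g.ker := Subgroup.card_le_of_le h2
  rw [← h1, mul_comm]
  exact Nat.mul_le_mul_right _ h3

theorem card_ker_iter_le {G : Type*} [Group G] [Finite G] (f : G →* G) (k : ℕ) :
    ∃ F : G →* G, (∀ x, F x = f^[k] x) ∧ Nat.card F.ker ≤ Nat.card f.ker ^ k := by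
  induction k with
  | zero =>
    refine ⟨MonoidHom.id G, fun x => rfl, ?_⟩
    have : (MonoidHom.id G).ker = ⊥ := by
      ext x
      rw [MonoidHom.mem_ker, Subgroup.mem_bot]
      rfl
    rw [this, Subgroup.card_bot, pow_zero]
  | succ k ih =>
    obtain ⟨F, hF, hcard⟩ := ih
    refine ⟨F.comp f, fun x => ?_, ?_⟩
    · rw [MonoidHom.comp_apply, hF, Function.iterate_succ_apply]
    · rw [pow_succ]
      exact (card_ker_comp_le f F).trans (Nat.mul_le_mul_right _ hcard)

/-- Greedy generation modulo a subgroup in a finite `p`-group. -/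
theorem exists_gen_sup {G : Type*} [Group G] [Finite G] {p : ℕ} [Fact p.Prime] (hG : IsPGroup p G)
    (k : ℕ) : ∀ B : Subgroup G, B.index ≤ p ^ k →
      ∃ S : Finset G, S.card ≤ k ∧ Subgroup.closure (S : Set G) ⊔ B = ⊤ := by
  classical
  induction k with
  | zero =>
    intro B hB
    refine ⟨∅, le_refl _, ?_⟩
    have h1 : B.index ≠ 0 := Subgroup.index_ne_zero_of_finite
    have h2 : B.index = 1 := by rw [pow_zero] at hB; omega
    rw [Subgroup.index_eq_one.mp h2]; simp
  | succ k ih =>
    intro B hB
    by_cases hBtop : B = ⊤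
    · exact ⟨∅, by simp, by rw [hBtop]; simp⟩
    · obtain ⟨x, hx⟩ : ∃ x : G, x ∉ B := by
        by_contra hcon
        push Not at hcon
        exact hBtop (eq_top_iff.mpr fun x _ => hcon x)
      have hlt : B < B ⊔ Subgroup.zpowers x := by
        apply lt_of_le_of_ne le_sup_left
        intro h
        apply hx
        rw [h]
        exact Subgroup.mem_sup_right (Subgroup.mem_zpowers x)
      have hidx := Subgroup.index_strictAnti hlt
      obtain ⟨a, ha⟩ := hG.index B
      obtain ⟨b, hb⟩ := hG.index (B ⊔ Subgroup.zpowers x)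
      have hp1 : 1 < p := (Fact.out (p := p.Prime)).one_lt
      rw [ha, hb] at hidx
      rw [ha] at hB
      have hba : b < a := (Nat.pow_lt_pow_iff_right hp1).mp hidx
      have hak : a ≤ k + 1 := (Nat.pow_le_pow_iff_right hp1).mp hB
      have hbk : (B ⊔ Subgroup.zpowers x).index ≤ p ^ k := by
        rw [hb]; exact Nat.pow_le_pow_right (by omega) (by omega)
      obtain ⟨S', hS'card, hS'⟩ := ih _ hbk
      refine ⟨insert x S', (Finset.card_insert_le x S').trans (by omega), ?_⟩
      rw [eq_top_iff, ← hS']
      have h1 : Subgroup.closure (S' : Set G) ≤ Subgroup.closure ((insert x S' : Finset G) : Set G) :=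
        Subgroup.closure_mono (by simp)
      have h2 : Subgroup.zpowers x ≤ Subgroup.closure ((insert x S' : Finset G) : Set G) := by
        rw [Subgroup.zpowers_le]
        exact Subgroup.subset_closure (by simp)
      exact sup_le (h1.trans le_sup_left) (sup_le le_sup_right (h2.trans le_sup_left))

/-- Let V be a finite abelian p-group and α an automorphism of V of order p whose fixed-point subgroup has order p^n. Then V can be generated by pn elements: some subset of V with at most pn elements generates V. -/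
theorem result {V : Type*} [CommGroup V] [Finite V] {p : ℕ} [Fact p.Prime] (hV : IsPGroup p V) (α : MulAut V) (hα : orderOf α = p) (n : ℕ) (hfix : Nat.card {v : V // α v = v} = p ^ n) : ∃ S : Finset V, S.card ≤ p * n ∧ Subgroup.closure (S : Set V) = ⊤ := by
  have hp : p.Prime := Fact.out
  have hαp : α ^ p = 1 := by rw [← hα]; exact pow_orderOf_eq_one α
  obtain ⟨T', hT'⟩ : ∃ T' : V →* V, T' = α.toMonoidHom / MonoidHom.id V := ⟨_, rfl⟩
  have hT'app : ∀ w : V, T' w = α w / w := by
    intro w; rw [hT']; rfl
  have hkerT : Nat.card T'.ker = p ^ n := by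
    rw [← hfix]
    apply Nat.card_congr
    apply Equiv.subtypeEquivRight
    intro v
    rw [MonoidHom.mem_ker, hT'app]
    exact div_eq_one
  obtain ⟨F, hF, hFcard⟩ := card_ker_iter_le T' p
  have hiter : ∀ (k : ℕ) (w : V), T'^[k] w = (fun w : V => α w / w)^[k] w := by
    intro k w
    congr 1
    funext w
    exact hT'app w
  have hΩ : (powMonoidHom p : V →* V).ker ≤ F.ker := by
    intro v hv
    rw [MonoidHom.mem_ker] at hv ⊢
    rw [hF, hiter]
    exact iter_kill hp α hαp v hv
  have hΩcard : Nat.card (powMonoidHom p : V →* V).ker ≤ p ^ (p * n) := by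
    calc Nat.card (powMonoidHom p : V →* V).ker
        ≤ Nat.card F.ker := Subgroup.card_le_of_le hΩ
      _ ≤ Nat.card T'.ker ^ p := hFcard
      _ = p ^ (p * n) := by rw [hkerT, ← pow_mul, mul_comm]
  have hindex : (powMonoidHom p : V →* V).range.index = Nat.card (powMonoidHom p : V →* V).ker := by
    have h1 := Subgroup.card_mul_index (powMonoidHom p : V →* V).ker
    have h2 := Subgroup.card_mul_index (powMonoidHom p : V →* V).range
    rw [Subgroup.index_ker] at h1
    have hpos : 0 < Nat.card (powMonoidHom p : V →* V).range := Nat.card_pos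
    rw [← h2, mul_comm] at h1
    exact (Nat.eq_of_mul_eq_mul_left hpos h1).symm
  obtain ⟨S, hScard, hS⟩ := exists_gen_sup hV (p * n) (powMonoidHom p : V →* V).range
    (by rw [hindex]; exact hΩcard)
  refine ⟨S, hScard, ?_⟩
  have hle : (powMonoidHom p : V →* V).range ≤ frattini V := by
    rintro _ ⟨v, rfl⟩
    exact pow_mem_frattini hV v
  apply frattini_nongenerating
  rw [eq_top_iff, ← hS]
  exact sup_le_sup_left hle _

end Cfsg.Agent.S3780
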