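import Mathlib
import Cfsg.Statements.S3781
import Cfsg.Agent.H15.PChain

set_option autoImplicit false
open Cfsg

namespace Cfsg.Agent.S3781

/-- Let G be a finite p-group and n ≥ 1, and write γ_1(G) = G, γ_{k+1}(G) = [γ_k(G), G], and likewise γ_k(N) for a subgroup N. Let N be a normal subgroup of G contained in γ_n(G). If i > 1 and γ_{i+1}(N) ≠ 1, then |γ_i(N) : γ_{i+1}(N)| ≥ p^n. -/
theorem result {G : Type*} [Group G] [Finite G] {p : ℕ} [Fact p.Prime] (hG : IsPGroup p G) (n : ℕ) (hn : 1 ≤ n) (N : Subgroup G) [N.Normal] (hN : N ≤ (⊤ : Subgroup G).lowerCentralSeries (n - 1)) (i : ℕ) (hi : 1 < i) (hne : N.lowerCentralSeries i ≠ ⊥) : p ^ n ≤ (N.lowerCentralSeries i).relIndex (N.lowerCentralSeries (i - 1)) := by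
  obtain ⟨i', rfl⟩ : ∃ i', i = i' + 1 := ⟨i - 1, by omega⟩
  obtain ⟨n', rfl⟩ : ∃ n', n = n' + 1 := ⟨n - 1, by omega⟩
  simp only [Nat.add_sub_cancel] at hN ⊢
  have hMn : (N.lowerCentralSeries i').Normal := Subgroup.lowerCentralSeries_normal N i'
  have h1 : N.lowerCentralSeries (i' + 1) ≤
      iterCommutator (N.lowerCentralSeries i') ⊤ (n' + 1) :=
    le_trans (Subgroup.commutator_mono le_rfl hN)
      (H15.commutator_lcs_le n' (N.lowerCentralSeries i'))
  have hne' : iterCommutator (N.lowerCentralSeries i') ⊤ (n' + 1) ≠ ⊥ := by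
    intro h0
    rw [h0] at h1
    exact hne (le_bot_iff.mp h1)
  have h2 := H15.card_iterComm_ge hG (N.lowerCentralSeries i') (n' + 1) hne' (n' + 1) le_rfl
  rw [Nat.sub_self] at h2
  have h2' : p ^ (n' + 1) * Nat.card (iterCommutator (N.lowerCentralSeries i') ⊤ (n' + 1)) ≤
      Nat.card (N.lowerCentralSeries i') := h2
  have hle : N.lowerCentralSeries (i' + 1) ≤ N.lowerCentralSeries i' :=
    N.lowerCentralSeries_antitone (Nat.le_succ i')
  have h3 := H15.card_mul_relIndex hle
  have h4 : Nat.card (N.lowerCentralSeries (i' + 1)) ≤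
      Nat.card (iterCommutator (N.lowerCentralSeries i') ⊤ (n' + 1)) :=
    Subgroup.card_le_of_le h1
  have hpos : 0 < Nat.card (N.lowerCentralSeries (i' + 1)) := Nat.card_pos
  have h5 : Nat.card (N.lowerCentralSeries (i' + 1)) * p ^ (n' + 1) ≤
      Nat.card (N.lowerCentralSeries (i' + 1)) *
        (N.lowerCentralSeries (i' + 1)).relIndex (N.lowerCentralSeries i') := by
    rw [h3]
    calc Nat.card (N.lowerCentralSeries (i' + 1)) * p ^ (n' + 1)
        ≤ Nat.card (iterCommutator (N.lowerCentralSeries i') ⊤ (n' + 1)) * p ^ (n' + 1) :=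
          Nat.mul_le_mul_right _ h4
      _ = p ^ (n' + 1) * Nat.card (iterCommutator (N.lowerCentralSeries i') ⊤ (n' + 1)) :=
          Nat.mul_comm _ _
      _ ≤ _ := h2'
  exact Nat.le_of_mul_le_mul_left h5 hpos

end Cfsg.Agent.S3781
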