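import Cfsg.Agent.H66.HHA

set_option autoImplicit false

namespace Cfsg.Agent.S3783

/-- Let G be a finite p-soluble group in which, for every prime q ≠ p, the Sylow q-subgroups are abelian. If the Sylow p-subgroups of G have exponent dividing p^n, then G has p-length at most n. -/
theorem result {G : Type*} [Group G] [Finite G] {p : ℕ} [Fact p.Prime] (hG : Cfsg.IsPSolvable p G) (hab : ∀ (q : ℕ) [Fact q.Prime], q ≠ p → ∀ Q : Sylow q G, IsMulCommutative (Q : Subgroup G)) (n : ℕ) (hexp : ∀ (P : Sylow p G), ∀ x ∈ (P : Subgroup G), x ^ p ^ n = 1) : Cfsg.PLengthLE p n G := by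
  unfold Cfsg.PLengthLE
  rw [← H14.relSeries_bot]
  apply H66.relSeries_eq_top_of_exp p hG hab n
  intro g hg
  obtain ⟨j, hj⟩ := hg
  have hZ : IsPGroup p (Subgroup.zpowers g) := by
    obtain ⟨k, _, hk⟩ := (Nat.dvd_prime_pow (Fact.out : p.Prime)).mp (orderOf_dvd_of_pow_eq_one hj)
    apply IsPGroup.of_card (n := k)
    rw [Nat.card_zpowers]; exact hk
  obtain ⟨T, hT⟩ := hZ.exists_le_sylow
  rw [Subgroup.mem_bot]
  exact hexp T g (hT (Subgroup.mem_zpowers g))

end Cfsg.Agent.S3783
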