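import Cfsg.Statements.S3784
import Mathlib.NumberTheory.Fermat
import Mathlib.Tactic

set_option autoImplicit false
open Cfsg

namespace Cfsg.Agent.S3784

theorem pow_odd_modEq (x M n : ℕ) (hx : x ^ 2 ≡ 1 [MOD M]) (hn : Odd n) : x ^ n ≡ x [MOD M] := by
  obtain ⟨k, rfl⟩ := hn
  have h1 : x ^ (2 * k + 1) = (x ^ 2) ^ k * x := by ring
  rw [h1]
  have h2 : (x ^ 2) ^ k ≡ 1 ^ k [MOD M] := hx.pow k
  rw [one_pow] at h2
  have h3 := h2.mul_right x
  rwa [one_mul] at h3

theorem le_of_two_pow_modEq (a c : ℕ) (h : 2 ^ a ≡ 2 ^ c [MOD 2 ^ (c + 1)]) : a ≤ c := by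
  by_contra hlt
  have hlt' : c + 1 ≤ a := by omega
  have h1 : 2 ^ (c + 1) ∣ 2 ^ a := pow_dvd_pow 2 hlt'
  have h2 : 2 ^ a ≡ 0 [MOD 2 ^ (c + 1)] := (Nat.modEq_zero_iff_dvd).mpr h1
  have h3 : 2 ^ c ≡ 0 [MOD 2 ^ (c + 1)] := h.symm.trans h2
  have h4 : 2 ^ (c + 1) ∣ 2 ^ c := (Nat.modEq_zero_iff_dvd).mp h3
  have h5 := (Nat.pow_dvd_pow_iff_le_right (le_refl 2)).mp h4
  omega

theorem eq_one_of_pow_le (x n : ℕ) (hx : 2 ≤ x) (hn : 1 ≤ n) (h : x ^ n ≤ x) : n = 1 := by
  by_contra hne
  have h2 : 2 ≤ n := by omega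
  have h3 : x ^ 2 ≤ x ^ n := Nat.pow_le_pow_right (by omega) h2
  have h4 : x ^ 2 = x * x := by ring
  nlinarith

/-- Let p, q be primes and a, b positive integers with p^a = q^b + 1. Then either p = 2, b = 1, a is prime and q = 2^a − 1; or q = 2, a = 1, b is a power of 2 and p = 2^b + 1; or p^a = 9 and q^b = 8. -/
theorem result (p q a b : ℕ) (hp : p.Prime) (hq : q.Prime) (ha : 1 ≤ a) (hb : 1 ≤ b) (h : p ^ a = q ^ b + 1) : (p = 2 ∧ b = 1 ∧ a.Prime ∧ q + 1 = 2 ^ a) ∨ (q = 2 ∧ a = 1 ∧ (∃ m : ℕ, b = 2 ^ m) ∧ p = 2 ^ b + 1) ∨ (p ^ a = 9 ∧ q ^ b = 8) := by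
  by_cases hp2 : p = 2
  · -- p = 2, q odd
    subst hp2
    left
    have hqodd : Odd q := by
      rcases hq.eq_two_or_odd' with h2 | h2
      · exfalso
        subst h2
        have e1 : Even (2 ^ a) := (Nat.even_pow).mpr ⟨even_two, by omega⟩
        have e2 : Even (2 ^ b) := (Nat.even_pow).mpr ⟨even_two, by omega⟩
        rw [h] at e1
        rcases e1 with ⟨u, hu⟩
        rcases e2 with ⟨v, hv⟩
        omega
      · exact h2
    have hq2 : 2 ≤ q := hq.two_le
    -- b is odd
    have hbodd : Odd b := by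
      by_contra hne
      rw [Nat.not_odd_iff_even] at hne
      obtain ⟨k, rfl⟩ := hne
      obtain ⟨t, rfl⟩ := hqodd
      have h1 : (2 * t + 1) ^ (k + k) = ((2 * t + 1) ^ 2) ^ k := by
        rw [← two_mul, pow_mul]
      have h2 : (2 * t + 1) ^ 2 ≡ 1 [MOD 4] := by
        have : (2 * t + 1) ^ 2 = 4 * (t * t + t) + 1 := by ring
        rw [this]
        unfold Nat.ModEq
        omega
      have h3 : ((2 * t + 1) ^ 2) ^ k ≡ 1 [MOD 4] := by
        have := h2.pow k
        rwa [one_pow] at this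
      rw [h1] at h
      have h4 : 2 ^ a ≡ 2 [MOD 4] := by
        rw [h]
        exact h3.add_right 1
      have ha1 : a = 1 := by
        by_contra hne
        obtain ⟨j, rfl⟩ : ∃ j, a = j + 2 := ⟨a - 2, by omega⟩
        have : 2 ^ (j + 2) = 4 * 2 ^ j := by ring
        rw [this] at h4
        unfold Nat.ModEq at h4
        omega
      subst ha1
      have h5 : 1 ≤ ((2 * t + 1) ^ 2) ^ k := Nat.one_le_pow _ _ (by positivity)
      have h6 : ((2 * t + 1) ^ 2) ^ k = 1 := by omega
      have h7 : (2 * t + 1) ^ 2 = 1 ∨ k = 0 := by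
        rcases Nat.eq_zero_or_pos k with hk | hk
        · right; exact hk
        · left
          by_contra hne
          have : 2 ≤ (2 * t + 1) ^ 2 := by
            have : 1 ≤ (2 * t + 1) ^ 2 := Nat.one_le_pow _ _ (by positivity)
            omega
          have h8 : 2 ^ k ≤ ((2 * t + 1) ^ 2) ^ k := Nat.pow_le_pow_left this k
          have h9 : 2 ≤ 2 ^ k := by
            calc 2 = 2 ^ 1 := by norm_num
              _ ≤ 2 ^ k := Nat.pow_le_pow_right (by norm_num) hk
          omega
      rcases h7 with h7 | h7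
      · have : 2 * t + 1 = 1 := by
          have h8 : (2 * t + 1) ^ 2 = (2 * t + 1) * (2 * t + 1) := by ring
          nlinarith
        omega
      · omega
    -- q + 1 is a power of 2
    have hdvd : q + 1 ∣ 2 ^ a := by
      have := hbodd.nat_add_dvd_pow_add_pow q 1
      rw [one_pow, ← h] at this
      exact this
    obtain ⟨c, hca, hc⟩ := (Nat.dvd_prime_pow Nat.prime_two).mp hdvd
    -- q^2 ≡ 1 mod 2^(c+1)
    have hsq : q ^ 2 ≡ 1 [MOD 2 ^ (c + 1)] := by
      obtain ⟨t, ht⟩ := hqodd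
      have e1 : q ^ 2 = 1 + t * 2 ^ (c + 1) := by
        have e2 : 2 ^ (c + 1) = 2 * (q + 1) := by rw [pow_succ, hc]; ring
        rw [e2, ht]; ring
      rw [e1]
      unfold Nat.ModEq
      simp
    have hqb : q ^ b ≡ q [MOD 2 ^ (c + 1)] := pow_odd_modEq q _ b hsq hbodd
    have hmod : 2 ^ a ≡ 2 ^ c [MOD 2 ^ (c + 1)] := by
      rw [h, ← hc]
      exact hqb.add_right 1
    have hac : a ≤ c := le_of_two_pow_modEq a c hmod
    have hle : 2 ^ a ≤ 2 ^ c := Nat.pow_le_pow_right (by norm_num) hac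
    have hb1 : b = 1 := by
      apply eq_one_of_pow_le q b hq2 hb
      omega
    subst hb1
    rw [pow_one] at h
    have hqeq : q = 2 ^ a - 1 := by omega
    have ha1 : a ≠ 1 := by
      rintro rfl
      rw [pow_one] at h
      have : q = 1 := by omega
      exact hq.one_lt.ne' this
    have hprime : (2 ^ a - 1).Prime := by rw [← hqeq]; exact hq
    exact ⟨rfl, rfl, (Nat.prime_of_pow_sub_one_prime ha1 hprime).2, h.symm⟩
  · -- p odd, so q = 2
    have hpodd : Odd p := hp.eq_two_or_odd'.resolve_left hp2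
    have hq2 : q = 2 := by
      rcases hq.eq_two_or_odd' with h2 | h2
      · exact h2
      · exfalso
        have e1 : Odd (p ^ a) := hpodd.pow
        have e2 : Odd (q ^ b) := h2.pow
        rw [h] at e1
        rcases e1 with ⟨u, hu⟩
        rcases e2 with ⟨v, hv⟩
        omega
    subst hq2
    right
    have hp3 : 3 ≤ p := by
      have := hp.two_le
      omega
    rcases Nat.even_or_odd a with haev | haodd
    · -- a even: p^a = 9
      right
      obtain ⟨c, rfl⟩ := haev
      have hc1 : 1 ≤ c := by omega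
      obtain ⟨x, hx⟩ : ∃ x, x = p ^ c := ⟨_, rfl⟩
      have hx3 : 3 ≤ x := by
        rw [hx]
        calc 3 ≤ p := hp3
          _ = p ^ 1 := (pow_one p).symm
          _ ≤ p ^ c := Nat.pow_le_pow_right (by omega) hc1
      have hxx : p ^ (c + c) = x * x := by rw [hx]; ring
      rw [hxx] at h ⊢
      have hprod : (x - 1) * (x + 1) = 2 ^ b := by
        obtain ⟨y, rfl⟩ : ∃ y, x = y + 1 := ⟨x - 1, by omega⟩
        have : (y + 1 - 1) * (y + 1 + 1) + 1 = (y + 1) * (y + 1) := by
          simp only [Nat.add_sub_cancel]; ring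
        omega
      have hd1 : x - 1 ∣ 2 ^ b := ⟨x + 1, hprod.symm⟩
      have hd2 : x + 1 ∣ 2 ^ b := ⟨x - 1, by rw [← hprod]; ring⟩
      obtain ⟨i, _, hi⟩ := (Nat.dvd_prime_pow Nat.prime_two).mp hd1
      obtain ⟨j, _, hj⟩ := (Nat.dvd_prime_pow Nat.prime_two).mp hd2
      have hij : 2 ^ i + 2 = 2 ^ j := by omega
      have hi1 : i = 1 := by
        have pi : 0 < 2 ^ (i - 2) := by positivity
        have pj : 0 < 2 ^ (j - 2) := by positivity
        rcases i with _ | _ | i
        · exfalso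
          rw [pow_zero] at hij
          rcases j with _ | _ | j
          · rw [pow_zero] at hij; omega
          · rw [pow_one] at hij; omega
          · have : 2 ^ (j + 2) = 4 * 2 ^ j := by ring
            rw [this] at hij
            omega
        · rfl
        · exfalso
          have e1 : 2 ^ (i + 2) = 4 * 2 ^ i := by ring
          rw [e1] at hij
          have pi' : 0 < 2 ^ i := by positivity
          rcases j with _ | _ | j
          · rw [pow_zero] at hij; omega
          · rw [pow_one] at hij; omega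
          · have : 2 ^ (j + 2) = 4 * 2 ^ j := by ring
            rw [this] at hij
            omega
      subst hi1
      have hx3' : x = 3 := by omega
      rw [hx3'] at h ⊢
      constructor
      · norm_num
      · omega
    · -- a odd: a = 1
      left
      have hd : p - 1 ∣ 2 ^ b := by
        have h1 := Nat.sub_one_dvd_pow_sub_one p a
        rw [h] at h1
        simpa using h1
      obtain ⟨c, _, hc⟩ := (Nat.dvd_prime_pow Nat.prime_two).mp hd
      have hc1 : 1 ≤ c := by
        rcases Nat.eq_zero_or_pos c with h0 | h0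
        · rw [h0] at hc; simp at hc; omega
        · exact h0
      have hpc : p = 2 ^ c + 1 := by omega
      have hsq : p ^ 2 ≡ 1 [MOD 2 ^ (c + 1)] := by
        obtain ⟨c', rfl⟩ : ∃ c', c = c' + 1 := ⟨c - 1, by omega⟩
        have e1 : p ^ 2 = 1 + (2 ^ c' + 1) * 2 ^ (c' + 1 + 1) := by
          rw [hpc]; ring
        rw [e1]
        unfold Nat.ModEq
        simp
      have hpa : p ^ a ≡ p [MOD 2 ^ (c + 1)] := pow_odd_modEq p _ a hsq haodd
      have hmod : 2 ^ b ≡ 2 ^ c [MOD 2 ^ (c + 1)] := by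
        rw [h, hpc] at hpa
        exact Nat.ModEq.add_right_cancel' 1 hpa
      have hbc : b ≤ c := le_of_two_pow_modEq b c hmod
      have hle : 2 ^ b ≤ 2 ^ c := Nat.pow_le_pow_right (by norm_num) hbc
      have ha1 : a = 1 := by
        apply eq_one_of_pow_le p a (by omega) ha
        omega
      subst ha1
      rw [pow_one] at h
      have hprime : (2 ^ b + 1).Prime := by rw [← h]; exact hp
      exact ⟨rfl, rfl, Nat.pow_of_pow_add_prime (by norm_num) (by omega) hprime, h⟩

end Cfsg.Agent.S3784
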