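import Cfsg.Statements.S3785
import Cfsg.Agent.H3.OmegaAut
import Cfsg.Agent.H28.Bender
import Cfsg.Agent.H27.Rad

set_option autoImplicit false
open Cfsg

namespace Cfsg.Agent.S3785

universe u

section

variable {G : Type u} [Group G] [Finite G]

/-- In a solvable group `C_G(F(G)) ≤ F(G)`. -/
theorem centralizer_fitting_le (hG : Group.IsSolvable G) :
    Subgroup.centralizer (fittingSubgroup G : Set G) ≤ fittingSubgroup G := by
  have hlayer : layer G = ⊥ := by
    unfold layer
    rw [eq_bot_iff]
    apply sSup_le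
    intro K hK
    exact absurd (inferInstance : Group.IsSolvable K) (H27.isComponent_not_solvable hK)
  have h := H28.centralizer_genFitting_le (G := G)
  unfold generalizedFittingSubgroup at h
  rwa [hlayer, bot_sup_eq] at h

/-- the subgroup of elements commuting with the elements of prime order of `F(G)` -/
theorem omega_lemma (hodd : Odd (Nat.card (fittingSubgroup G))) (q : ℕ) [hq : Fact q.Prime]
    (c : G) (hc : ∀ x ∈ fittingSubgroup G, (orderOf x).Prime → c * x = x * c)
    (hcq : (orderOf c).Coprime q) : c ∈ Subgroup.centralizer (pCore q G : Set G) := by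
  have hPF : pCore q G ≤ fittingSubgroup G := H27.pCore_le_fitting q
  have hPp : IsPGroup q (pCore q G) := H60.isPGroup_pCore q
  have hPn : (pCore q G).Normal := Subgroup.sSup_normal _ (fun _ h => h.1)
  rw [Subgroup.mem_centralizer_iff]
  by_cases hq2 : q = 2
  · -- `O_2(G)` is trivial
    have hbot : pCore q G = ⊥ := by
      obtain ⟨k, hk⟩ := IsPGroup.iff_card.mp hPp
      have hdvd : Nat.card (pCore q G) ∣ Nat.card (fittingSubgroup G) :=
        Subgroup.card_dvd_of_le hPF
      apply Subgroup.eq_bot_of_card_eq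
      rw [hk]
      rcases Nat.eq_zero_or_pos k with h0 | h0
      · rw [h0, pow_zero]
      · exfalso
        have h2 : 2 ∣ Nat.card (fittingSubgroup G) := by
          rw [hk, hq2] at hdvd
          exact (dvd_pow_self 2 h0.ne').trans hdvd
        exact (Nat.not_even_iff_odd.mpr hodd) (even_iff_two_dvd.mpr h2)
    intro x hx
    rw [hbot] at hx
    have : x = 1 := hx
    rw [this, one_mul, mul_one]
  · have ha : Nat.Coprime (orderOf (MulAut.conjNormal (H := pCore q G) c)) q :=
      Nat.Coprime.coprime_dvd_left (orderOf_map_dvd (MulAut.conjNormal (H := pCore q G)) c) hcq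
    have htriv : ∀ x : pCore q G, x ^ q = 1 → MulAut.conjNormal (H := pCore q G) c x = x := by
      intro x hx
      apply Subtype.ext
      rw [MulAut.conjNormal_apply]
      by_cases hx1 : x = 1
      · rw [hx1]; simp
      · have ho : orderOf x = q := orderOf_eq_prime hx hx1
        have ho' : orderOf (x : G) = q := by rw [Subgroup.orderOf_coe]; exact ho
        have := hc (x : G) (hPF x.2) (by rw [ho']; exact hq.out)
        rw [this]; group
    have h1 := H3.coprime_aut_trivial_of_omega hq2 hPp _ ha htriv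
    intro x hx
    have h2 : MulAut.conjNormal (H := pCore q G) c ⟨x, hx⟩ = ⟨x, hx⟩ := by rw [h1]; rfl
    have h3 := congrArg Subtype.val h2
    rw [MulAut.conjNormal_apply] at h3
    have h4 : c * x * c⁻¹ = x := h3
    calc x * c = (c * x * c⁻¹) * c := by rw [h4]
      _ = c * x := by group

/-- the join of the `p`-cores for `p ≠ q` -/
theorem fitting_le_sup (q : ℕ) [hq : Fact q.Prime] :
    fittingSubgroup G ≤ pCore q G ⊔ ⨆ p : {p : ℕ // p.Prime ∧ p ≠ q}, pCore p.1 G := by
  rw [H27.fitting_eq_pCoreJoin]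
  unfold H27.pCoreJoin
  apply iSup_le
  rintro ⟨r, hr⟩
  by_cases hrq : r = q
  · subst hrq; exact le_sup_left
  · exact le_trans (le_iSup (fun p : {p : ℕ // p.Prime ∧ p ≠ q} => pCore p.1 G)
      ⟨r, Nat.prime_of_mem_primeFactors hr, hrq⟩) le_sup_right

omit [Finite G] in
theorem pCore_le_centralizer_iSup (q : ℕ) [hq : Fact q.Prime] :
    (⨆ p : {p : ℕ // p.Prime ∧ p ≠ q}, pCore p.1 G)
      ≤ Subgroup.centralizer (pCore q G : Set G) := by
  apply iSup_le
  rintro ⟨p, hp, hpq⟩
  have : Fact p.Prime := ⟨hp⟩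
  intro x hx
  rw [Subgroup.mem_centralizer_iff]
  intro y hy
  have hd : Disjoint (pCore q G) (pCore p G) :=
    IsPGroup.disjoint_of_ne q p (Ne.symm hpq) _ _ (H60.isPGroup_pCore q) (H60.isPGroup_pCore p)
  exact Subgroup.commute_of_normal_of_disjoint _ _ (Subgroup.sSup_normal _ (fun _ h => h.1))
    (Subgroup.sSup_normal _ (fun _ h => h.1)) hd y x hy hx

/-- Key step: an element of `C` centralizing the `p`-cores for `p ≠ q` lies in `F(G)`. -/
theorem key (hG : Group.IsSolvable G) (hodd : Odd (Nat.card (fittingSubgroup G))) (q : ℕ)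
    [hq : Fact q.Prime] (c : G)
    (hc : c ∈ Subgroup.centralizer {x : G | x ∈ fittingSubgroup G ∧ (orderOf x).Prime})
    (hcW : c ∈ Subgroup.centralizer
      ((⨆ p : {p : ℕ // p.Prime ∧ p ≠ q}, pCore p.1 G : Subgroup G) : Set G)) :
    c ∈ fittingSubgroup G := by
  have hFn : (fittingSubgroup G).Normal := Subgroup.sSup_normal _ (fun _ h => h.1)
  have hPn : ∀ p : ℕ, (pCore p G).Normal := fun p => Subgroup.sSup_normal _ (fun _ h => h.1)
  have hWn : (⨆ p : {p : ℕ // p.Prime ∧ p ≠ q}, pCore p.1 G : Subgroup G).Normal := by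
    have : ∀ p : {p : ℕ // p.Prime ∧ p ≠ q}, (pCore p.1 G).Normal := fun p => hPn p.1
    exact Subgroup.iSup_normal _
  -- `C` is normal
  have hCn : (Subgroup.centralizer {x : G | x ∈ fittingSubgroup G ∧ (orderOf x).Prime}).Normal := by
    constructor
    intro n hn g
    rw [Subgroup.mem_centralizer_iff] at hn ⊢
    rintro x ⟨hxF, hxo⟩
    have hx' : g⁻¹ * x * g ∈ {x : G | x ∈ fittingSubgroup G ∧ (orderOf x).Prime} := by
      refine ⟨?_, ?_⟩
      · have := hFn.conj_mem x hxF g⁻¹
        simpa using this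
      · have : orderOf (g⁻¹ * x * g) = orderOf x := by
          have h := orderOf_injective (MulAut.conj g⁻¹).toMonoidHom (MulAut.conj g⁻¹).injective x
          simpa [MulAut.conj_apply] using h
        rw [this]; exact hxo
    have h := hn _ hx'
    calc x * (g * n * g⁻¹) = g * ((g⁻¹ * x * g) * n) * g⁻¹ := by group
      _ = g * (n * (g⁻¹ * x * g)) * g⁻¹ := by rw [h]
      _ = g * n * g⁻¹ * x := by group
  have hDn : (Subgroup.centralizer {x : G | x ∈ fittingSubgroup G ∧ (orderOf x).Prime} ⊓
      Subgroup.centralizer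
        ((⨆ p : {p : ℕ // p.Prime ∧ p ≠ q}, pCore p.1 G : Subgroup G) : Set G)).Normal :=
    Subgroup.normal_inf_normal _ _
  -- elements of `D` of order prime to `q` are central in `D`
  have star : ∀ e : ↥(Subgroup.centralizer {x : G | x ∈ fittingSubgroup G ∧ (orderOf x).Prime} ⊓
      Subgroup.centralizer
        ((⨆ p : {p : ℕ // p.Prime ∧ p ≠ q}, pCore p.1 G : Subgroup G) : Set G)),
      (orderOf e).Coprime q → e ∈ Subgroup.center _ := by
    intro e he
    have heo : (orderOf (e : G)).Coprime q := by rw [Subgroup.orderOf_coe]; exact he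
    have h1 : (e : G) ∈ Subgroup.centralizer (pCore q G : Set G) := by
      apply omega_lemma hodd q (e : G) _ heo
      intro x hxF hxo
      exact (Subgroup.mem_centralizer_iff.1 e.2.1 x ⟨hxF, hxo⟩).symm
    have h2 : (e : G) ∈ Subgroup.centralizer
        ((⨆ p : {p : ℕ // p.Prime ∧ p ≠ q}, pCore p.1 G : Subgroup G) : Set G) := e.2.2
    have hdecomp : ∀ f ∈ fittingSubgroup G, ∃ a ∈ pCore q G,
        ∃ w ∈ (⨆ p : {p : ℕ // p.Prime ∧ p ≠ q}, pCore p.1 G : Subgroup G), a * w = f := by
      intro f hf
      exact Subgroup.mem_sup_of_normal_right.mp (fitting_le_sup q hf)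
    have h3 : (e : G) ∈ Subgroup.centralizer (fittingSubgroup G : Set G) := by
      rw [Subgroup.mem_centralizer_iff]
      intro f hf
      obtain ⟨a, ha, w, hw, rfl⟩ := hdecomp f hf
      have e1 := Subgroup.mem_centralizer_iff.1 h1 a ha
      have e2 := Subgroup.mem_centralizer_iff.1 h2 w hw
      calc a * w * (e : G) = a * (w * (e : G)) := by group
        _ = a * ((e : G) * w) := by rw [e2]
        _ = (a * (e : G)) * w := by group
        _ = ((e : G) * a) * w := by rw [e1]
        _ = (e : G) * (a * w) := by group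
    have h4 : (e : G) ∈ fittingSubgroup G := centralizer_fitting_le hG h3
    have h5 : (e : G) ∈ (⨆ p : {p : ℕ // p.Prime ∧ p ≠ q}, pCore p.1 G : Subgroup G) := by
      obtain ⟨a, ha, w, hw, haw⟩ := hdecomp _ h4
      have hcomm : Commute a w :=
        Subgroup.mem_centralizer_iff.1 (pCore_le_centralizer_iSup q hw) a ha
      have han : a ^ Nat.card (pCore q G) = 1 := by
        have := pow_card_eq_one' (G := pCore q G) (x := ⟨a, ha⟩)
        exact congrArg Subtype.val this
      have hpow : (e : G) ^ Nat.card (pCore q G) = w ^ Nat.card (pCore q G) := by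
        rw [← haw, hcomm.mul_pow, han, one_mul]
      obtain ⟨j, hj⟩ := IsPGroup.iff_card.mp (H60.isPGroup_pCore (G := G) q)
      have hcop : (Nat.card (pCore q G)).Coprime (orderOf (e : G)) := by
        rw [hj]; exact (Nat.Coprime.pow_right j heo).symm
      obtain ⟨m, hm⟩ := exists_pow_eq_self_of_coprime hcop
      rw [← hm, hpow]
      exact Subgroup.pow_mem _ (Subgroup.pow_mem _ hw _) _
    rw [Subgroup.mem_center_iff]
    intro d
    apply Subtype.ext
    exact (Subgroup.mem_centralizer_iff.1 d.2.2 (e : G) h5).symm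
  -- `D` is nilpotent
  have hDnil : Group.IsNilpotent
      ↥(Subgroup.centralizer {x : G | x ∈ fittingSubgroup G ∧ (orderOf x).Prime} ⊓
      Subgroup.centralizer
        ((⨆ p : {p : ℕ // p.Prime ∧ p ≠ q}, pCore p.1 G : Subgroup G) : Set G)) := by
    have hpq : IsPGroup q
        (↥(Subgroup.centralizer {x : G | x ∈ fittingSubgroup G ∧ (orderOf x).Prime} ⊓
          Subgroup.centralizer
            ((⨆ p : {p : ℕ // p.Prime ∧ p ≠ q}, pCore p.1 G : Subgroup G) : Set G)) ⧸
          Subgroup.center _) := by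
      intro x
      obtain ⟨d, rfl⟩ := QuotientGroup.mk_surjective x
      obtain ⟨k, m, hm, hn⟩ := Nat.exists_eq_pow_mul_and_not_dvd
        (orderOf_pos d).ne' q hq.out.ne_one
      refine ⟨k, ?_⟩
      rw [← QuotientGroup.mk_pow, QuotientGroup.eq_one_iff]
      apply star
      have hdvd : orderOf (d ^ q ^ k) ∣ m := by
        apply orderOf_dvd_of_pow_eq_one
        rw [← pow_mul, ← hn, pow_orderOf_eq_one]
      exact Nat.Coprime.coprime_dvd_left hdvd
        ((Nat.Prime.coprime_iff_not_dvd hq.out).2 hm).symm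
    have hnil := hpq.isNilpotent
    exact Subgroup.isNilpotent_of_ker_le_center (QuotientGroup.mk' (Subgroup.center _))
      (by rw [QuotientGroup.ker_mk'])
  have hle : (Subgroup.centralizer {x : G | x ∈ fittingSubgroup G ∧ (orderOf x).Prime} ⊓
      Subgroup.centralizer
        ((⨆ p : {p : ℕ // p.Prime ∧ p ≠ q}, pCore p.1 G : Subgroup G) : Set G))
      ≤ fittingSubgroup G := le_sSup ⟨hDn, hDnil⟩
  exact hle ⟨hc, hcW⟩

end

/-- Let G be a finite solvable group whose Fitting subgroup F(G) has odd order. If an element g of G commutes with every element of prime order of F(G), then g ∈ F(G). -/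
theorem result {G : Type*} [Group G] [Finite G] (hG : Group.IsSolvable G) (hodd : Odd (Nat.card (Cfsg.fittingSubgroup G))) (g : G) (hg : ∀ x ∈ Cfsg.fittingSubgroup G, (orderOf x).Prime → g * x = x * g) : g ∈ Cfsg.fittingSubgroup G := by
  have hgC : g ∈ Subgroup.centralizer {x : G | x ∈ fittingSubgroup G ∧ (orderOf x).Prime} := by
    rw [Subgroup.mem_centralizer_iff]
    rintro x ⟨hxF, hxo⟩
    exact (hg x hxF hxo).symm
  have htop : (fittingSubgroup G).subgroupOf
      (Subgroup.centralizer {x : G | x ∈ fittingSubgroup G ∧ (orderOf x).Prime}) = ⊤ := by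
    apply H27.eq_top_of_forall_sylow_le
    intro q hq _
    refine ⟨default, ?_⟩
    intro x hx
    rw [Subgroup.mem_subgroupOf]
    have hxo : ∃ j : ℕ, orderOf (x : G) = q ^ j := by
      obtain ⟨k, hk⟩ := (default : Sylow q _).isPGroup' ⟨x, hx⟩
      have hk' : x ^ q ^ k = 1 := congrArg Subtype.val hk
      have hk'' : (x : G) ^ q ^ k = 1 := by
        have := congrArg Subtype.val hk'
        simpa using this
      obtain ⟨j, -, hj⟩ := (Nat.dvd_prime_pow hq.out).1 (orderOf_dvd_of_pow_eq_one hk'')
      exact ⟨j, hj⟩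
    obtain ⟨j, hj⟩ := hxo
    apply key hG hodd q (x : G) x.2
    have hW : (⨆ p : {p : ℕ // p.Prime ∧ p ≠ q}, pCore p.1 G : Subgroup G)
        ≤ Subgroup.centralizer ((Subgroup.zpowers (x : G) : Subgroup G) : Set G) := by
      apply iSup_le
      rintro ⟨p, hp, hpq⟩
      have : Fact p.Prime := ⟨hp⟩
      rw [Subgroup.le_centralizer_iff, Subgroup.zpowers_le]
      apply omega_lemma hodd p (x : G)
      · intro y hyF hyo
        exact (Subgroup.mem_centralizer_iff.1 x.2 y ⟨hyF, hyo⟩).symm
      · rw [hj]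
        exact Nat.Coprime.pow_left j ((Nat.coprime_primes hq.out hp).2 (Ne.symm hpq))
    exact (Subgroup.le_centralizer_iff.mp hW) (Subgroup.mem_zpowers _)
  have := Subgroup.subgroupOf_eq_top.mp htop
  exact this hgC

end Cfsg.Agent.S3785
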