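import Cfsg.Statements.S3786
import Cfsg.Agent.H66.HHFAsm
import Cfsg.Agent.H11.HHFCritQ
import Cfsg.Agent.H11.HHFFaith
import Cfsg.Agent.H53.HHFF5
import Cfsg.Agent.H53.HHFP1
import Cfsg.Agent.H60.HHFCyc
import Cfsg.Agent.H60.HHFFrob
import Cfsg.Agent.H60.HHFOrth
import Cfsg.Agent.H63.HHFIrr
import Cfsg.Agent.H63.HHFNab
import Cfsg.Agent.H72.HHFLin
import Cfsg.Agent.H72.HHFMab
import Cfsg.Agent.H73.HHFWT
import Cfsg.Agent.H91.HHFCoreH
import Cfsg.Agent.H91.HHFKeyA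

set_option autoImplicit false
open Cfsg

namespace Cfsg.Agent.S3786

open Cfsg.Agent.H66.HHF in
theorem keyA_all.{u} : KeyAStatement.{u} :=
  Cfsg.Agent.H91.HHF.keyA_holds (Cfsg.Agent.H72.HHF.lin_holds Cfsg.Agent.H60.HHF.frob_holds)
    zbg_holds

open Cfsg.Agent.H66.HHF in
theorem keyB_all.{u} : KeyBStatement.{u} :=
  keyB_holds
    (Cfsg.Agent.H91.HHF.coreH_holds
      (Cfsg.Agent.H72.HHF.mab_holds Cfsg.Agent.H63.HHF.nab_holds
        (Cfsg.Agent.H73.HHF.wt_holds Cfsg.Agent.H11.HHF.faith_holds Cfsg.Agent.H11.HHF.critQ_holds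
          Cfsg.Agent.H63.HHF.irr_holds Cfsg.Agent.H60.HHF.orth_holds Cfsg.Agent.H53.HHF.f5_holds
          Cfsg.Agent.H60.HHF.cyc_holds))
      zbg_holds (Cfsg.Agent.H72.HHF.lin_holds Cfsg.Agent.H60.HHF.frob_holds)
      Cfsg.Agent.H60.HHF.frob_holds)
    (Cfsg.Agent.H53.HHF.p1_holds zb_holds)
    (Cfsg.Agent.H72.HHF.lin_holds Cfsg.Agent.H60.HHF.frob_holds)

/-- The Hall–Higman bound on p-length. Let p be an odd prime and G a finite p-soluble group whose Sylow p-subgroups have exponent dividing p^e. (a) If p is not of the form 2^k + 1, or if the Sylow 2-subgroups of G are abelian, then G has p-length at most e. (b) In every case G has p-length at most 2e. -/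
theorem result {G : Type*} [Group G] [Finite G] {p : ℕ} [Fact p.Prime] (hp : p ≠ 2) (hG : Cfsg.IsPSolvable p G) (e : ℕ) (hexp : ∀ (P : Sylow p G), ∀ x ∈ (P : Subgroup G), x ^ p ^ e = 1) : (((¬ ∃ k : ℕ, p = 2 ^ k + 1) ∨ ∀ S : Sylow 2 G, IsMulCommutative (S : Subgroup G)) → Cfsg.PLengthLE p e G) ∧ Cfsg.PLengthLE p (2 * e) G :=
  Cfsg.Agent.H66.HHF.hh_main keyA_all keyB_all hp hG e hexp

end Cfsg.Agent.S3786
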