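import Cfsg.Statements.S3787
import Cfsg.Agent.H66.HHLin

set_option autoImplicit false
set_option linter.style.haveILetI false
set_option linter.unusedVariables false
open Cfsg

namespace Cfsg.Agent.S3787

/-- Let G be a finite p-soluble group, p an odd prime not of the form 2^k + 1, and suppose the wreath product C_p ≀ C_p (of order p^(p+1)) is not involved in a Sylow p-subgroup of G: no section of a Sylow p-subgroup is isomorphic to it. Then G has p-length at most 1. -/
theorem result {G : Type*} [Group G] [Finite G] {p : ℕ} [Fact p.Prime] (hp2 : p ≠ 2) (hnf : (¬ ∃ k : ℕ, p = 2 ^ k + 1)) (hG : Cfsg.IsPSolvable p G) (P : Sylow p G) (hwr : ∀ (W : Type) [Group W] [Finite W], (∃ (B : Subgroup W) (t : W), B.Normal ∧ IsMulCommutative B ∧ (∀ b ∈ B, b ^ p = 1) ∧ Nat.card B = p ^ p ∧ orderOf t = p ∧ t ∉ B ∧ Nat.card W = p ^ (p + 1) ∧ Nat.card ↥(B ⊓ Subgroup.centralizer ({t} : Set W)) = p) → ¬ Cfsg.Involves W ↥(P : Subgroup G)) : Cfsg.PLengthLE p 1 G :=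 by
  classical
  have hp : p.Prime := Fact.out
  unfold Cfsg.PLengthLE
  rw [← H14.relSeries_bot]
  have h3 : 2 * 1 + 1 = 1 + 2 := rfl
  rw [h3, H14.relSeries_add_two]
  apply H66.relSeries_one_eq_top
  intro g hg
  obtain ⟨M₀, hM₀⟩ : ∃ M₀ : {H : Subgroup G // H.Normal}, M₀ = ⟨⊥, inferInstance⟩ := ⟨_, rfl⟩
  rw [← hM₀]
  haveI : M₀.1.Normal := M₀.2
  haveI : (H14.relSeries p G M₀ 1).1.Normal := (H14.relSeries p G M₀ 1).2
  have hN := H14.relSeries_one p G M₀
  have hQ := H14.relSeries_two p G M₀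
  have hO := H14.pPrimeCore_quotient_eq_bot_of_comap p M₀.1 (H14.relSeries p G M₀ 1).1 hN
  have hsolq := H80.isPSolvable_quotient p (H14.relSeries p G M₀ 1).1 hG
  rw [hQ, Subgroup.mem_comap]
  by_contra hcon
  have hgq : ∃ j, (QuotientGroup.mk' (H14.relSeries p G M₀ 1).1 g) ^ p ^ j = 1 := by
    obtain ⟨j, hj⟩ := hg
    exact ⟨j, by rw [← map_pow, hj, map_one]⟩
  obtain ⟨W, hWg, hWf, hpat, hinv⟩ := H66.exists_wreath_involved hp2 hnf hsolq hO _ hgq hcon
  have hW : Nat.card W = p ^ (p + 1) := by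
    obtain ⟨B, t, _, _, _, _, _, _, h, _⟩ := hpat
    exact h
  have h1 : Involves W G :=
    H52.involves_of_surjective (QuotientGroup.mk' _) (QuotientGroup.mk'_surjective _) hinv
  exact hwr W hpat (H66.involves_sylow P (p + 1) hW h1)

end Cfsg.Agent.S3787
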