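import Cfsg.Statements.S3788
import Cfsg.Agent.H66.CycNormal

set_option autoImplicit false
open Cfsg

namespace Cfsg.Agent.S3788

/-- Let G be a finite p-soluble group, P a Sylow p-subgroup of G and A a cyclic normal subgroup of P. If p is odd, or if no section of G is isomorphic to the symmetric group of degree 4, then A ≤ O_{p',p}(G). -/
theorem result {G : Type*} [Group G] [Finite G] {p : ℕ} [Fact p.Prime] (hG : Cfsg.IsPSolvable p G) (P : Sylow p G) (A : Subgroup G) (hAP : A ≤ (P : Subgroup G)) (hAn : (P : Subgroup G) ≤ Subgroup.normalizer (A : Set G)) (hA : IsCyclic A) (h : p ≠ 2 ∨ ¬ Cfsg.Involves (Equiv.Perm (Fin 4)) G) : A ≤ Cfsg.pPrimePCore p G := by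
  classical
  have hsolΓ : IsPSolvable p (G ⧸ pPrimeCore p G) := H80.isPSolvable_quotient p _ hG
  have hOΓ : pPrimeCore p (G ⧸ pPrimeCore p G) = ⊥ := H14.pPrimeCore_quotient_eq_bot p G
  have := hA
  obtain ⟨g, hg⟩ := IsCyclic.exists_generator (α := ↥A)
  obtain ⟨a, hadef⟩ : ∃ a : G, a = (g : G) := ⟨_, rfl⟩
  have haA : a ∈ A := by rw [hadef]; exact g.2
  have hAa : ∀ x ∈ A, ∃ k : ℤ, a ^ k = x := by
    intro x hx
    obtain ⟨k, hk⟩ := Subgroup.mem_zpowers_iff.mp (hg ⟨x, hx⟩)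
    refine ⟨k, ?_⟩
    have := congrArg Subtype.val hk
    rw [hadef]; simpa using this
  have hap : ∃ j, (QuotientGroup.mk' (pPrimeCore p G) a) ^ p ^ j = 1 := by
    obtain ⟨j, hj⟩ := P.isPGroup' ⟨a, hAP haA⟩
    refine ⟨j, ?_⟩
    rw [← map_pow]
    have : a ^ p ^ j = 1 := congrArg Subtype.val hj
    rw [this, map_one]
  have hnorm : ∀ u ∈ pCore p (G ⧸ pPrimeCore p G),
      u * QuotientGroup.mk' (pPrimeCore p G) a * u⁻¹ ∈
        Subgroup.zpowers (QuotientGroup.mk' (pPrimeCore p G) a) := by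
    intro u hu
    have h1 : pCore p (G ⧸ pPrimeCore p G) ≤
        ((P.mapSurjective (QuotientGroup.mk'_surjective (pPrimeCore p G)) :
          Sylow p (G ⧸ pPrimeCore p G)) : Subgroup (G ⧸ pPrimeCore p G)) :=
      (H14.pCore_isPGroup p (G ⧸ pPrimeCore p G)).le_sylow_of_normal _
    have h2 := h1 hu
    rw [Sylow.coe_mapSurjective] at h2
    obtain ⟨x, hx, rfl⟩ := h2
    have h3 : x * a * x⁻¹ ∈ A := (Subgroup.mem_normalizer_iff.mp (hAn hx) a).mp haA
    obtain ⟨k, hk⟩ := hAa _ h3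
    rw [Subgroup.mem_zpowers_iff]
    refine ⟨k, ?_⟩
    rw [← map_zpow, hk, map_mul, map_mul, map_inv]
  have hS4 : p ≠ 2 ∨ ¬ Involves (Equiv.Perm (Fin 4)) (G ⧸ pPrimeCore p G) := by
    rcases h with h | h
    · exact Or.inl h
    · exact Or.inr (fun h' => h (H52.involves_of_surjective (QuotientGroup.mk' (pPrimeCore p G))
        (QuotientGroup.mk'_surjective _) h'))
  have hmem := H66.mem_pCore_of_normalized hsolΓ hOΓ (QuotientGroup.mk' (pPrimeCore p G) a) hap
    hnorm hS4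
  intro x hx
  obtain ⟨k, hk⟩ := hAa x hx
  show x ∈ (pCore p (G ⧸ pPrimeCore p G)).comap (QuotientGroup.mk' (pPrimeCore p G))
  rw [Subgroup.mem_comap, ← hk, map_zpow]
  exact Subgroup.zpow_mem _ hmem k

end Cfsg.Agent.S3788
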