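import Cfsg.Statements.S3790
import Cfsg.Agent.H66.PLength

set_option autoImplicit false
open Cfsg

namespace Cfsg.Agent.S3790

open Cfsg.Agent.H66

universe u

theorem main (p : ℕ) [hp : Fact p.Prime] : ∀ (r : ℕ) (G : Type u) [Group G] [Finite G],
    Group.IsSolvable G → ∀ (q : Fin r → ℕ), (∀ i, (q i).Prime ∧ q i ≠ p) →
    (∀ s : ℕ, s.Prime → s ∣ Nat.card G → s ≠ p → ∃ i, q i = s) → ∀ l : Fin r → ℕ,
    (∀ i, Cfsg.PLengthLE (q i) (l i) G) →
      Cfsg.PLengthLE p (Finset.univ.prod fun i => 1 + l i) G := by
  intro r
  induction r with
  | zero =>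
    intro G _ _ hG q hq hcover l hl
    rw [pLengthLE_iff_plenRel]
    have hcard : ∃ n, Nat.card G = p ^ n :=
      ⟨_, Nat.eq_prime_pow_of_unique_prime_dvd Nat.card_pos.ne' (fun {d} hd hdv => by
        by_contra hne
        obtain ⟨i, _⟩ := hcover d hd hdv hne
        exact i.elim0)⟩
    simp only [Finset.univ_eq_empty, Finset.prod_empty]
    refine ⟨⊥, ⊤, inferInstance, inferInstance, le_rfl, ?_, le_top, ?_, inferInstance,
      inferInstance, le_rfl, ?_⟩
    · rw [Subgroup.relIndex_self]; exact Nat.coprime_one_left p
    · rw [Subgroup.relIndex_bot_left, Subgroup.card_top]; exact hcard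
    · rw [Subgroup.relIndex_self]; exact Nat.coprime_one_left p
  | succ r ih =>
    intro G _ _ hG q hq hcover l hl
    rw [pLengthLE_iff_plenRel, Fin.prod_univ_castSucc]
    have hqL : Fact (q (Fin.last r)).Prime := ⟨(hq _).1⟩
    obtain ⟨qL, hqLdef⟩ : ∃ x, x = q (Fin.last r) := ⟨_, rfl⟩
    obtain ⟨L, hL⟩ : ∃ x, x = Finset.univ.prod (fun i : Fin r => 1 + l i.castSucc) := ⟨_, rfl⟩
    rw [← hL]
    rw [← hqLdef] at hqL
    have claim : ∀ j, PLenRel p (((j + 1) / 2) * L) (⊥ : Subgroup G) (upperPSeries qL G j).1 := by
      intro j
      induction j with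
      | zero =>
        rw [ups_zero]
        have e : (0 + 1) / 2 * L = 0 := by simp
        rw [e]
        exact ⟨inferInstance, inferInstance, le_rfl, by
          rw [Subgroup.relIndex_self]; exact Nat.coprime_one_left p⟩
      | succ j ihj =>
        by_cases hj : Even j
        · have hstep : PLenRel p L (upperPSeries qL G j).1 (upperPSeries qL G (j + 1)).1 := by
            rw [H14.ups_succ_of_even qL G j hj]
            have hF := ih (↥(pPrimeCore qL (G ⧸ (upperPSeries qL G j).1))) inferInstance
              (fun i => q i.castSucc) (fun i => hq _) (by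
                intro s hs hsd hsp
                have h1 : s ∣ Nat.card G := hsd.trans
                  ((Subgroup.card_subgroup_dvd_card _).trans (Subgroup.card_quotient_dvd_card _))
                obtain ⟨i, hi⟩ := hcover s hs h1 hsp
                rcases Fin.eq_castSucc_or_eq_last i with ⟨i', rfl⟩ | rfl
                · exact ⟨i', hi⟩
                · exfalso
                  have hc := H60.card_pPrimeCore_coprime (G := G ⧸ (upperPSeries qL G j).1) qL
                  rw [← hi, ← hqLdef] at hsd
                  exact (Nat.Prime.coprime_iff_not_dvd hqL.out).mp hc.symm hsd)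
              (fun i => l i.castSucc) (by
                intro i
                have : Fact (q i.castSucc).Prime := ⟨(hq _).1⟩
                exact pLengthLE_subgroup _ _ _ (pLengthLE_of_surjective _
                  (QuotientGroup.mk' (upperPSeries qL G j).1) (QuotientGroup.mk'_surjective _) _
                  (hl i.castSucc)))
            rw [← hL] at hF
            have h1 := plenRel_of_pLengthLE_normal p
              (pPrimeCore qL (G ⧸ (upperPSeries qL G j).1)) L hF
            have h2 := h1.comap (QuotientGroup.mk' (upperPSeries qL G j).1)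
              (QuotientGroup.mk'_surjective _)
            rwa [MonoidHom.comap_bot, QuotientGroup.ker_mk'] at h2
          have := ihj.trans hstep
          have e : (j + 1 + 1) / 2 * L = (j + 1) / 2 * L + L := by
            obtain ⟨m, rfl⟩ := hj
            have h1 : (m + m + 1 + 1) / 2 = m + 1 := by omega
            have h2 : (m + m + 1) / 2 = m := by omega
            rw [h1, h2]; ring
          rw [e]; exact this
        · have hstep : PLenRel p 0 (upperPSeries qL G j).1 (upperPSeries qL G (j + 1)).1 := by
            refine ⟨inferInstance, inferInstance, ups_le_succ qL G j, ?_⟩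
            obtain ⟨m, hm⟩ := ups_relIndex_odd qL (G := G) j hj
            rw [hm]
            have hne : qL ≠ p := by rw [hqLdef]; exact (hq _).2
            exact Nat.Coprime.pow_left m ((Nat.coprime_primes hqL.out hp.out).mpr hne)
          have := ihj.trans hstep
          have e : (j + 1 + 1) / 2 * L = (j + 1) / 2 * L + 0 := by
            obtain ⟨m, rfl⟩ := Nat.not_even_iff_odd.mp hj
            have h1 : (2 * m + 1 + 1 + 1) / 2 = m + 1 := by omega
            have h2 : (2 * m + 1 + 1) / 2 = m + 1 := by omega
            rw [h1, h2]; ring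
          rw [e]; exact this
    have hfin := claim (2 * l (Fin.last r) + 1)
    have htop : (upperPSeries qL G (2 * l (Fin.last r) + 1)).1 = ⊤ := by
      rw [hqLdef]; exact hl (Fin.last r)
    rw [htop] at hfin
    have e : (2 * l (Fin.last r) + 1 + 1) / 2 * L = L * (1 + l (Fin.last r)) := by
      have : (2 * l (Fin.last r) + 1 + 1) / 2 = l (Fin.last r) + 1 := by omega
      rw [this]; ring
    rw [e] at hfin; exact hfin

/-- Let G be a finite solvable group and p a prime. Suppose p₁, …, p_r are distinct primes, all different from p, that include every prime dividing the order of G other than p, and that G has p_i-length at most l_i for each i. Then G has p-length at most the product of the numbers 1 + l_i. -/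
theorem result {G : Type*} [Group G] [Finite G] (hG : Group.IsSolvable G) (p : ℕ) [Fact p.Prime] (r : ℕ) (q : Fin r → ℕ) (hq : ∀ i, (q i).Prime ∧ q i ≠ p) (hinj : Function.Injective q) (hcover : ∀ s : ℕ, s.Prime → s ∣ Nat.card G → s ≠ p → ∃ i, q i = s) (l : Fin r → ℕ) (hl : ∀ i, Cfsg.PLengthLE (q i) (l i) G) : Cfsg.PLengthLE p (Finset.univ.prod fun i => 1 + l i) G :=
  main p r G hG q hq hcover l hl

end Cfsg.Agent.S3790
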