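import Cfsg.Statements.S3791
import Cfsg.Agent.H66.PLength
import Cfsg.Agent.H66.DSer

set_option autoImplicit false
open Cfsg

namespace Cfsg.Agent.S3791

open Cfsg.Agent.H66
open Cfsg.Agent.H60 (dser)

universe u

theorem sum_swap {ι : Type*} [Fintype ι] [DecidableEq ι] (f g : ι → ℕ) (i : ι)
    (h : ∀ j, j ≠ i → f j = g j) :
    (Finset.univ.sum f) + g i = (Finset.univ.sum g) + f i := by
  rw [← Finset.add_sum_erase Finset.univ f (Finset.mem_univ i),
    ← Finset.add_sum_erase Finset.univ g (Finset.mem_univ i)]
  have : (Finset.univ.erase i).sum f = (Finset.univ.erase i).sum g :=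
    Finset.sum_congr rfl (fun j hj => h j (Finset.ne_of_mem_erase hj))
  rw [this]; ring

/-- `O_{p',p}(G)^{(d)} ≤ O_{p'}(G)` when the Sylow `p`-subgroups have derived length `≤ d`. -/
theorem dser_ups_two_le (p : ℕ) [Fact p.Prime] {G : Type*} [Group G] [Finite G] (d : ℕ)
    (h : ∀ S : Sylow p G, derivedSeries ↥(S : Subgroup G) d = ⊥) :
    dser (upperPSeries p G 2).1 d ≤ (upperPSeries p G 1).1 := by
  have hU2 : (upperPSeries p G 2).1 =
      (pCore p (G ⧸ (upperPSeries p G 1).1)).comap (QuotientGroup.mk' _) :=
    H14.ups_succ_of_not_even p G 1 (by decide)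
  obtain ⟨Q, hQ⟩ := (H60.isPGroup_pCore (G := G ⧸ (upperPSeries p G 1).1) p).exists_le_sylow
  have hQd := sylow_derived_of_surjective (QuotientGroup.mk' (upperPSeries p G 1).1)
    (QuotientGroup.mk'_surjective _) p d h Q
  have h1 : dser (Q : Subgroup (G ⧸ (upperPSeries p G 1).1)) d = ⊥ := by
    rw [dser_eq_map_derivedSeries, hQd, Subgroup.map_bot]
  have h2 : (dser (upperPSeries p G 2).1 d).map (QuotientGroup.mk' (upperPSeries p G 1).1) ≤ ⊥ := by
    rw [dser_map, ← h1]
    apply dser_mono
    rw [hU2, Subgroup.map_comap_eq_self_of_surjective (QuotientGroup.mk'_surjective _)]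
    exact hQ
  have h3 := (Subgroup.map_eq_bot_iff _).mp (le_bot_iff.mp h2)
  rwa [QuotientGroup.ker_mk'] at h3

theorem main (r : ℕ) (q : Fin r → ℕ) (hq : ∀ i, (q i).Prime) (d : Fin r → ℕ) :
    ∀ (n : ℕ) (G : Type u) [Group G] [Finite G], Group.IsSolvable G →
    (∀ s : ℕ, s.Prime → s ∣ Nat.card G → ∃ i, q i = s) → ∀ l : Fin r → ℕ,
    Finset.univ.sum l = n →
    (∀ i, ∀ S : Sylow (q i) G, derivedSeries ↥(S : Subgroup G) (d i) = ⊥) →
    (∀ i, Cfsg.PLengthLE (q i) (l i) G) →
      derivedSeries G (Finset.univ.sum fun i => d i * l i) = ⊥ := by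
  intro n
  induction n using Nat.strong_induction_on with
  | _ n ih =>
  intro G _ _ hG hcover l hln hd hl
  have key : ∀ i, derivedSeries G (Finset.univ.sum fun i => d i * l i) ≤
      (upperPSeries (q i) G 1).1 := by
    intro i
    have : Fact (q i).Prime := ⟨hq i⟩
    rcases Nat.eq_zero_or_pos (l i) with h0 | hpos
    · have h1 : (upperPSeries (q i) G (2 * l i + 1)).1 = ⊤ := hl i
      rw [h0] at h1
      have h2 : (upperPSeries (q i) G 1).1 = ⊤ := h1
      rw [h2]; exact le_top
    · obtain ⟨m, hm⟩ : ∃ m, l i = m + 1 := ⟨l i - 1, by omega⟩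
      have hs1 := sum_swap (Function.update l i m) l i
        (fun j hj => Function.update_of_ne hj m l)
      rw [Function.update_self, hln, hm] at hs1
      have hs2 := sum_swap (fun j => d j * Function.update l i m j) (fun j => d j * l j) i
        (fun j hj => by
          show d j * Function.update l i m j = d j * l j
          rw [Function.update_of_ne hj])
      simp only [Function.update_self] at hs2
      rw [hm, mul_add, mul_one] at hs2
      have hD : (Finset.univ.sum fun j => d j * l j) =
          (Finset.univ.sum fun j => d j * Function.update l i m j) + d i := by omega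
      have hquot := ih (n - 1) (by omega) (G ⧸ (upperPSeries (q i) G 2).1) inferInstance
        (fun s hs hsd => hcover s hs (hsd.trans (Subgroup.card_quotient_dvd_card _)))
        (Function.update l i m) (by omega)
        (fun j => by
          have : Fact (q j).Prime := ⟨hq j⟩
          exact sylow_derived_of_surjective (QuotientGroup.mk' (upperPSeries (q i) G 2).1)
            (QuotientGroup.mk'_surjective _) (q j) (d j) (hd j))
        (fun j => by
          have : Fact (q j).Prime := ⟨hq j⟩
          by_cases hj : j = i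
          · subst hj
            rw [Function.update_self]
            exact pLengthLE_quotient_ups_two (q j) m (hm ▸ hl j)
          · rw [Function.update_of_ne hj]
            exact pLengthLE_of_surjective (q j) (QuotientGroup.mk' (upperPSeries (q i) G 2).1)
              (QuotientGroup.mk'_surjective _) (l j) (hl j))
      have h1 : derivedSeries G (Finset.univ.sum fun j => d j * Function.update l i m j) ≤
          (upperPSeries (q i) G 2).1 := by
        have := map_derivedSeries_eq (f := QuotientGroup.mk' (upperPSeries (q i) G 2).1)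
          (QuotientGroup.mk'_surjective _)
          (Finset.univ.sum fun j => d j * Function.update l i m j)
        rw [hquot] at this
        have h3 := (Subgroup.map_eq_bot_iff _).mp this
        rwa [QuotientGroup.ker_mk'] at h3
      rw [hD, derivedSeries_add]
      exact (dser_mono h1 (d i)).trans (dser_ups_two_le (q i) (d i) (hd i))
  by_contra hne
  have hcard : Nat.card (derivedSeries G (Finset.univ.sum fun i => d i * l i)) ≠ 1 :=
    fun h => hne (Subgroup.card_eq_one.mp h)
  obtain ⟨s, hs, hsd⟩ := Nat.exists_prime_and_dvd hcard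
  obtain ⟨i, hi⟩ := hcover s hs (hsd.trans (Subgroup.card_subgroup_dvd_card _))
  have : Fact (q i).Prime := ⟨hq i⟩
  have h1 : s ∣ Nat.card (upperPSeries (q i) G 1).1 :=
    hsd.trans (Subgroup.card_dvd_of_le (key i))
  have h2 := card_ups_one_coprime (q i) (G := G)
  rw [← hi] at h1
  exact (Nat.Prime.coprime_iff_not_dvd (hq i)).mp h2.symm h1

/-- The Hall–Higman bound on derived length: let G be a finite solvable group, let p₁, …, p_r be distinct primes that include every prime dividing the order of G, and suppose that for each i the Sylow p_i-subgroups of G have derived length at most d_i and G has p_i-length at most l_i. Then G has derived length at most Σ d_i l_i. -/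
theorem result {G : Type*} [Group G] [Finite G] (hG : Group.IsSolvable G) (r : ℕ) (q : Fin r → ℕ) (hq : ∀ i, (q i).Prime) (hinj : Function.Injective q) (hcover : ∀ s : ℕ, s.Prime → s ∣ Nat.card G → ∃ i, q i = s) (d l : Fin r → ℕ) (hd : ∀ i, ∀ P : Subgroup G, (haveI := Fact.mk (hq i); ∃ S : Sylow (q i) G, (S : Subgroup G) = P) → derivedSeries ↥P (d i) = ⊥) (hl : ∀ i, Cfsg.PLengthLE (q i) (l i) G) : derivedSeries G (Finset.univ.sum fun i => d i * l i) = ⊥ :=
  main r q hq d _ G hG hcover l rfl (fun i S => hd i S ⟨S, rfl⟩) hl

end Cfsg.Agent.S3791
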