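import Cfsg.Statements.S3794
import Cfsg.Agent.H66.Fpf4

set_option autoImplicit false
open Cfsg

namespace Cfsg.Agent.S3794

/-- Let G be a finite solvable group with an automorphism σ satisfying σ⁴ = 1 and fixing only the identity. Then the derived subgroup G' is nilpotent. -/
theorem result {G : Type*} [Group G] [Finite G] (hG : Group.IsSolvable G) (σ : MulAut G) (hσ : σ ^ 4 = 1) (hfpf : ∀ g : G, σ g = g → g = 1) : Group.IsNilpotent (commutator G) := by
  classical
  have := hG
  have hσ4 : ∀ g, σ (σ (σ (σ g))) = g := by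
    intro g
    have h1 := congrArg (fun f : MulAut G => f g) hσ
    simpa [pow_succ] using h1
  have hodd : Odd (Nat.card G) := by
    have : Fintype G := Fintype.ofFinite G
    rw [← Nat.not_even_iff_odd, even_iff_two_dvd]
    intro h2
    have : Fact (Nat.Prime 2) := ⟨Nat.prime_two⟩
    have hπ : (σ.toEquiv : Equiv.Perm G) ^ 2 ^ 2 = 1 := by
      ext g
      have h1 : ((σ.toEquiv : Equiv.Perm G) ^ 2 ^ 2) g = σ (σ (σ (σ g))) := by
        simp [pow_succ]
      rw [h1, hσ4]; rfl
    obtain ⟨b, hb, hb1⟩ := Equiv.Perm.exists_fixed_point_of_prime'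
      (by rw [← Nat.card_eq_fintype_card]; exact h2) hπ (a := (1 : G)) (map_one σ)
    exact hb1 (hfpf b hb)
  apply H66.isNilpotent_of_le_pPrimePCore
  intro q hq
  have : Fact q.Prime := ⟨hq⟩
  by_cases hq2 : q = 2
  · rw [H66.pPrimePCore_eq_top_of_coprime q (by rw [hq2]; exact Nat.Coprime.symm (Nat.coprime_two_left.mpr hodd))]
    exact le_top
  · exact H66.fpf4_commutator_le hodd σ hσ4 hfpf hq2

end Cfsg.Agent.S3794
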