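import Cfsg.Statements.S3798
import Cfsg.Agent.H66.GYAsm
import Cfsg.Agent.H24.GYRed
import Cfsg.Agent.H24.GYLift
import Cfsg.Agent.H24.GYOmAut
import Cfsg.Agent.H39.GYSz
import Cfsg.Agent.H39.GYOmega
import Cfsg.Agent.H72.GYChar
import Cfsg.Agent.H72.GYMain

set_option autoImplicit false
open Cfsg

namespace Cfsg.Agent.S3798

/-- The Gaschütz–Yen Theorem: let G be a finite p-soluble group, p an odd prime dividing its order, such that the automorphism group of G permutes the subgroups of G of order p transitively. Then G has p-length at most 1. -/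
theorem result {G : Type*} [Group G] [Finite G] {p : ℕ} [Fact p.Prime] (hp : p ≠ 2) (hdvd : p ∣ Nat.card G) (hG : Cfsg.IsPSolvable p G) (htrans : ∀ U V : Subgroup G, Nat.card U = p → Nat.card V = p → ∃ a : MulAut G, U.map a.toMonoidHom = V) : Cfsg.PLengthLE p 1 G :=
  Cfsg.Agent.H66.GY.gy_main Cfsg.Agent.H24.GY.red_holds Cfsg.Agent.H24.GY.lift_holds
    (Cfsg.Agent.H72.GY.main_holds Cfsg.Agent.H39.GY.omega_holds Cfsg.Agent.H39.GY.sz_holds
      Cfsg.Agent.H72.GY.char_holds Cfsg.Agent.H24.GY.omAut_holds) hp hdvd hG htrans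

end Cfsg.Agent.S3798
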