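import Mathlib
import Cfsg.Statements.S3800
import Cfsg.Agent.H67.SylowAux

set_option autoImplicit false
open Cfsg

namespace Cfsg.Agent.S3800

open Cfsg.Agent.H67

theorem inf_eq_bot_of_pgroup_coprime {G : Type*} [Group G] [Finite G] {p : ℕ} [Fact p.Prime]
    (N : Subgroup G) (hN : (Nat.card N).Coprime p) (P : Subgroup G) (hP : IsPGroup p P) :
    P ⊓ N = ⊥ := by
  obtain ⟨a, ha⟩ := IsPGroup.iff_card.1 hP
  apply Disjoint.eq_bot
  apply Subgroup.disjoint_of_coprime_natCard
  rw [ha]
  exact Nat.Coprime.pow_left a hN.symm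

theorem exists_mem_mul_mem_normalizer {G : Type*} [Group G] [Finite G] {p : ℕ} [Fact p.Prime]
    (N : Subgroup G) [N.Normal] (hN : (Nat.card N).Coprime p) (P : Subgroup G) (hP : IsPGroup p P)
    (g : G) (hg : g ∈ Subgroup.normalizer ((P ⊔ N : Subgroup G) : Set G)) :
    ∃ n ∈ N, n⁻¹ * g ∈ Subgroup.normalizer (P : Set G) := by
  have hp : p.Prime := Fact.out
  have hPN : P ⊓ N = ⊥ := inf_eq_bot_of_pgroup_coprime N hN P hP
  have hidx : P.relIndex (P ⊔ N) = Nat.card N := relIndex_sup_of_inf_eq_bot P N hPN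
  have hK : (P ⊔ N).map (MulAut.conj g).toMonoidHom = P ⊔ N :=
    (mem_normalizer_iff_map_conj _ g).1 hg
  have hQK : P.map (MulAut.conj g).toMonoidHom ≤ P ⊔ N := by
    have := map_conj_mono (le_sup_left : P ≤ P ⊔ N) g
    rwa [hK] at this
  have hQ : IsPGroup p (P.map (MulAut.conj g).toMonoidHom) := hP.map _
  have hQidx : (P.map (MulAut.conj g).toMonoidHom).relIndex (P ⊔ N) = Nat.card N := by
    have h1 := card_mul_relIndex_of_le hQK
    have h2 := card_mul_relIndex_of_le (le_sup_left : P ≤ P ⊔ N)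
    rw [card_map_conj, ← h2, hidx] at h1
    exact Nat.eq_of_mul_eq_mul_left Nat.card_pos h1
  have hnd : ¬ p ∣ Nat.card N := by
    intro h
    have := Nat.Coprime.eq_one_of_dvd hN.symm h
    exact hp.one_lt.ne' this
  obtain ⟨k, hk, hkQ⟩ := exists_conj_eq_of_isPGroup_of_not_dvd_relIndex
    (le_sup_left : P ≤ P ⊔ N) hQK hP (by rw [hidx]; exact hnd) hQ (by rw [hQidx]; exact hnd)
  rw [sup_comm, ← SetLike.mem_coe, Subgroup.normal_mul] at hk
  obtain ⟨n, hn, u, hu, rfl⟩ := hk
  refine ⟨n, hn, ?_⟩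
  rw [mem_normalizer_iff_map_conj, map_conj_mul, hkQ, map_conj_mul, map_conj_eq_self_of_mem P hu,
    map_conj_inv_map_conj]

/-- Let G be a finite group, N a normal subgroup of G whose order is prime to p, and P a p-subgroup of G. Then in G/N the normalizer of the image of P is the image of N_G(P), and the centralizer of the image of P is the image of C_G(P). -/
theorem result {G : Type*} [Group G] [Finite G] {p : ℕ} [Fact p.Prime] (N : Subgroup G) [N.Normal] (hN : (Nat.card N).Coprime p) (P : Subgroup G) (hP : IsPGroup p P) : Subgroup.normalizer ((P.map (QuotientGroup.mk' N)) : Set (G ⧸ N)) = (Subgroup.normalizer (P : Set G)).map (QuotientGroup.mk' N) ∧ Subgroup.centralizer ((P.map (QuotientGroup.mk' N)) : Set (G ⧸ N)) = (Subgroup.centralizer (P : Set G)).map (QuotientGroup.mk' N) := by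
  have hPN : P ⊓ N = ⊥ := inf_eq_bot_of_pgroup_coprime N hN P hP
  have hnorm : Subgroup.normalizer ((P.map (QuotientGroup.mk' N)) : Set (G ⧸ N)) =
      (Subgroup.normalizer (P : Set G)).map (QuotientGroup.mk' N) := by
    apply le_antisymm
    · intro x hx
      obtain ⟨g, rfl⟩ := QuotientGroup.mk'_surjective N x
      have hg : g ∈ (Subgroup.normalizer ((P.map (QuotientGroup.mk' N)) : Set (G ⧸ N))).comap
          (QuotientGroup.mk' N) := hx
      rw [Subgroup.comap_normalizer_eq_of_surjective _ (QuotientGroup.mk'_surjective N),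
        Subgroup.comap_map_eq, QuotientGroup.ker_mk'] at hg
      obtain ⟨n, hn, hng⟩ := exists_mem_mul_mem_normalizer N hN P hP g hg
      refine ⟨n⁻¹ * g, hng, ?_⟩
      rw [map_mul, map_inv]
      have : (QuotientGroup.mk' N) n = 1 := (QuotientGroup.eq_one_iff n).2 hn
      rw [this, inv_one, one_mul]
    · exact Subgroup.le_normalizer_map _
  refine ⟨hnorm, ?_⟩
  apply le_antisymm
  · intro x hx
    have hx' : x ∈ Subgroup.normalizer ((P.map (QuotientGroup.mk' N)) : Set (G ⧸ N)) :=
      Subgroup.centralizer_le_normalizer _ hx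
    rw [hnorm] at hx'
    obtain ⟨h, hh, rfl⟩ := hx'
    have hh : h ∈ Subgroup.normalizer (P : Set G) := hh
    refine ⟨h, ?_, rfl⟩
    rw [SetLike.mem_coe, Subgroup.mem_centralizer_iff]
    intro u hu
    have hu' : u ∈ P := hu
    have hc1 : h * u * h⁻¹ * u⁻¹ ∈ P := by
      refine P.mul_mem ?_ (P.inv_mem hu')
      exact (Subgroup.mem_normalizer_iff.1 hh u).1 hu'
    have hc2 : h * u * h⁻¹ * u⁻¹ ∈ N := by
      rw [← QuotientGroup.eq_one_iff]
      have hcomm := (Subgroup.mem_centralizer_iff.1 hx) ((QuotientGroup.mk' N) u)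
        (Subgroup.mem_map_of_mem _ hu')
      have : ((h * u * h⁻¹ * u⁻¹ : G) : G ⧸ N) =
          (QuotientGroup.mk' N) h * (QuotientGroup.mk' N) u * ((QuotientGroup.mk' N) h)⁻¹ *
            ((QuotientGroup.mk' N) u)⁻¹ := by
        simp
      rw [this, ← hcomm]
      group
    have hc : h * u * h⁻¹ * u⁻¹ ∈ P ⊓ N := ⟨hc1, hc2⟩
    rw [hPN, Subgroup.mem_bot] at hc
    have : h * u = u * h := by
      have h2 : h * u * h⁻¹ = u := by
        rw [mul_inv_eq_one] at hc
        exact hc
      calc h * u = (h * u * h⁻¹) * h := by group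
        _ = u * h := by rw [h2]
    exact this.symm
  · rintro x ⟨h, hh, rfl⟩
    have hh : h ∈ Subgroup.centralizer (P : Set G) := hh
    rw [Subgroup.mem_centralizer_iff]
    rintro y ⟨u, hu, rfl⟩
    have := (Subgroup.mem_centralizer_iff.1 hh) u hu
    rw [← map_mul, ← map_mul, this]

end Cfsg.Agent.S3800
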