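import Cfsg.Statements.S3950
import Cfsg.Agent.H69.CExt

set_option autoImplicit false
open Cfsg

namespace Cfsg.Agent.S3950

/-- A finite abelian group has trivial Schur multiplier if and only if it is cyclic. -/
theorem result {G : Type*} [CommGroup G] [Finite G] : Cfsg.HasCyclicSchurMultiplier G 1 ↔ IsCyclic G := by
  constructor
  · -- a trivial multiplier forces cyclicity
    intro h
    by_contra hnc
    classical
    obtain ⟨ι, _, n, hn, ⟨e⟩⟩ := CommGroup.equiv_prod_multiplicative_zmod_of_finite G
    by_cases hcop : ∀ i j, i ≠ j → Nat.Coprime (n i) (n j)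
    · apply hnc
      haveI : Finite (∀ i, Multiplicative (ZMod (n i))) := Finite.of_equiv G e.toEquiv
      have hcyc : IsCyclic (∀ i, Multiplicative (ZMod (n i))) := by
        apply IsCyclic.of_exponent_eq_card
        rw [Monoid.exponent_pi, Nat.card_pi]
        have h1 : (fun i => Monoid.exponent (Multiplicative (ZMod (n i)))) = n := by
          funext i
          rw [Monoid.exponent_multiplicative, ZMod.exponent]
        have h2 : ∀ i, Nat.card (Multiplicative (ZMod (n i))) = n i := by
          intro i
          rw [Nat.card_eq_of_bijective _ Multiplicative.toAdd.bijective, Nat.card_zmod]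
        rw [h1]
        simp only [h2]
        apply Finset.lcm_eq_prod
        intro i _ j _ hij
        exact hcop i j hij
      exact isCyclic_of_surjective e.symm e.symm.surjective
    · push Not at hcop
      obtain ⟨i, j, hij, hnc'⟩ := hcop
      obtain ⟨p, hp, hpi, hpj⟩ := Nat.Prime.not_coprime_iff_dvd.mp hnc'
      haveI : Fact p.Prime := ⟨hp⟩
      let φi : ZMod (n i) →+* ZMod p := ZMod.castHom hpi (ZMod p)
      let φj : ZMod (n j) →+* ZMod p := ZMod.castHom hpj (ZMod p)
      let χ1 : G → ZMod p := fun g => φi (Multiplicative.toAdd (e g i))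
      let χ2 : G → ZMod p := fun g => φj (Multiplicative.toAdd (e g j))
      have hχ1 : ∀ g g', χ1 (g * g') = χ1 g + χ1 g' := by
        intro g g'
        show φi (Multiplicative.toAdd (e (g * g') i)) = _
        rw [map_mul, Pi.mul_apply, toAdd_mul, map_add]
      have hχ2 : ∀ g g', χ2 (g * g') = χ2 g + χ2 g' := by
        intro g g'
        show φj (Multiplicative.toAdd (e (g * g') j)) = _
        rw [map_mul, Pi.mul_apply, toAdd_mul, map_add]
      let β : Cfsg.Agent.H69.BiCocycle G (ZMod p) :=
        { toFun := fun g h => χ1 g * χ2 h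
          map_mul_left := by
            intro g g' h
            rw [hχ1, add_mul]
          map_mul_right := by
            intro g h h'
            rw [hχ2, mul_add] }
      have hstem : Cfsg.IsStemExtension (Cfsg.Agent.H69.CExt.proj β) := by
        apply Cfsg.Agent.H69.CExt.isStemExtension_proj
        rw [eq_top_iff, ← Cfsg.Agent.H69.zmod_closure_one p]
        apply AddSubgroup.closure_mono
        intro c hc
        rw [Set.mem_singleton_iff] at hc
        refine ⟨e.symm (Pi.mulSingle i (Multiplicative.ofAdd 1)), e.symm (Pi.mulSingle j (Multiplicative.ofAdd 1)),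
          mul_comm _ _, ?_⟩
        show c = φi (Multiplicative.toAdd (e (e.symm (Pi.mulSingle i (Multiplicative.ofAdd 1))) i)) *
            φj (Multiplicative.toAdd (e (e.symm (Pi.mulSingle j (Multiplicative.ofAdd 1))) j)) -
          φi (Multiplicative.toAdd (e (e.symm (Pi.mulSingle j (Multiplicative.ofAdd 1))) i)) *
            φj (Multiplicative.toAdd (e (e.symm (Pi.mulSingle i (Multiplicative.ofAdd 1))) j))
        rw [MulEquiv.apply_symm_apply, MulEquiv.apply_symm_apply, Pi.mulSingle_eq_same, Pi.mulSingle_eq_same,
          Pi.mulSingle_eq_of_ne hij, Pi.mulSingle_eq_of_ne (Ne.symm hij), toAdd_ofAdd, toAdd_ofAdd, toAdd_one,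
          toAdd_one, map_one, map_one, map_zero, map_zero, hc]
        ring
      have hker := Cfsg.Agent.H69.ker_eq_bot_of_hasTrivialSchurMultiplier h (Cfsg.Agent.H69.CExt β)
        (Cfsg.Agent.H69.CExt.proj β) hstem
      have hmem : (⟨1, 1⟩ : Cfsg.Agent.H69.CExt β) ∈ (Cfsg.Agent.H69.CExt.proj β).ker :=
        (Cfsg.Agent.H69.CExt.mem_ker_iff _).mpr rfl
      rw [hker, Subgroup.mem_bot] at hmem
      have h10 : (1 : ZMod p) = 0 := congrArg Cfsg.Agent.H69.CExt.c hmem
      exact one_ne_zero h10
  · intro hc
    apply Cfsg.Agent.H69.hasTrivialSchurMultiplier_of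
    intro Γ _ _ σ hσ
    have hcomm : ∀ a b : Γ, a * b = b * a :=
      (σ.isMulCommutative_of_isCyclic_of_ker_le_center hσ.2.1).is_comm.comm
    have h1 : commutator Γ ≤ ⊥ := by
      rw [commutator_def, Subgroup.commutator_le]
      intro g _ h _
      rw [Subgroup.mem_bot, commutatorElement_eq_one_iff_mul_comm]
      exact hcomm g h
    exact eq_bot_iff.mpr (hσ.2.2.trans h1)

end Cfsg.Agent.S3950
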