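import Cfsg.Statements.S3951
import Cfsg.Agent.H69.CExt

set_option autoImplicit false
open Cfsg

namespace Cfsg.Agent.S3951

/-- For positive integers `m` and `n` with `n` dividing `m`, the Schur multiplier of the abelian group `ZMod m × ZMod n` (written multiplicatively) is cyclic of order `n`. In particular the elementary abelian group of order `p ^ 2` has multiplier of order `p`. -/
theorem result (m n : ℕ) [NeZero m] [NeZero n] (hnm : n ∣ m) : Cfsg.HasCyclicSchurMultiplier (Multiplicative (ZMod m × ZMod n)) n := by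
  apply Cfsg.Agent.H69.hasCyclicSchurMultiplier_of
  · let φ : ZMod m →+* ZMod n := ZMod.castHom hnm (ZMod n)
    let β : Cfsg.Agent.H69.BiCocycle (Multiplicative (ZMod m × ZMod n)) (ZMod n) :=
      { toFun := fun g h => φ (Multiplicative.toAdd g).1 * (Multiplicative.toAdd h).2
        map_mul_left := by
          intro g g' h
          simp only [toAdd_mul, Prod.fst_add, map_add, add_mul]
        map_mul_right := by
          intro g h h'
          simp only [toAdd_mul, Prod.snd_add, mul_add] }
    refine ⟨Cfsg.Agent.H69.CExt β, inferInstance, inferInstance, Cfsg.Agent.H69.CExt.proj β,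
      Cfsg.Agent.H69.CExt.isStemExtension_proj ?_, ⟨Cfsg.Agent.H69.CExt.kerEquiv β⟩⟩
    rw [eq_top_iff, ← Cfsg.Agent.H69.zmod_closure_one n]
    apply AddSubgroup.closure_mono
    intro c hc
    rw [Set.mem_singleton_iff] at hc
    refine ⟨Multiplicative.ofAdd ((1 : ZMod m), (0 : ZMod n)), Multiplicative.ofAdd ((0 : ZMod m), (1 : ZMod n)),
      mul_comm _ _, ?_⟩
    show c = φ 1 * 1 - φ 0 * 0
    rw [hc, map_one, map_zero]
    ring
  · intro Γ _ _ σ hσ
    obtain ⟨a', ha⟩ := hσ.1 (Multiplicative.ofAdd ((1 : ZMod m), (0 : ZMod n)))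
    obtain ⟨b', hb'⟩ := hσ.1 (Multiplicative.ofAdd ((0 : ZMod m), (1 : ZMod n)))
    have hgen : Subgroup.closure ({Multiplicative.ofAdd ((1 : ZMod m), (0 : ZMod n)),
        Multiplicative.ofAdd ((0 : ZMod m), (1 : ZMod n))} : Set (Multiplicative (ZMod m × ZMod n))) = ⊤ := by
      rw [eq_top_iff]
      intro x _
      obtain ⟨⟨i, j⟩, rfl⟩ : ∃ y : ZMod m × ZMod n, x = Multiplicative.ofAdd y := ⟨Multiplicative.toAdd x, rfl⟩
      have hx : Multiplicative.ofAdd ((i, j) : ZMod m × ZMod n) =
          Multiplicative.ofAdd ((1 : ZMod m), (0 : ZMod n)) ^ i.val *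
          Multiplicative.ofAdd ((0 : ZMod m), (1 : ZMod n)) ^ j.val := by
        rw [← ofAdd_nsmul, ← ofAdd_nsmul, ← ofAdd_add]
        have h3 : ((i, j) : ZMod m × ZMod n) = i.val • ((1 : ZMod m), (0 : ZMod n)) + j.val • ((0 : ZMod m), (1 : ZMod n)) := by
          ext
          · simp
          · simp
        rw [← h3]
      rw [hx]
      exact Subgroup.mul_mem _ (Subgroup.pow_mem _ (Subgroup.subset_closure (Set.mem_insert _ _)) _)
        (Subgroup.pow_mem _ (Subgroup.subset_closure (Set.mem_insert_of_mem _ (Set.mem_singleton _))) _)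
    have hb : Multiplicative.ofAdd ((0 : ZMod m), (1 : ZMod n)) ^ n = 1 := by
      rw [← ofAdd_nsmul]
      have : n • ((0 : ZMod m), (1 : ZMod n)) = 0 := by
        ext
        · simp
        · simp
      rw [this, ofAdd_zero]
    have := Cfsg.Agent.H69.abelian_two_gen_bound σ hσ _ _ hgen (mul_comm _ _) n hb a' b' ha hb'
    exact ⟨_, this.1, this.2⟩

end Cfsg.Agent.S3951
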