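import Cfsg.Statements.S3957
import Cfsg.Agent.H69.HopfSplit

set_option autoImplicit false
universe u v
open Cfsg

namespace Cfsg.Agent.S3957

/-- Let `Q` be a finite group with Schur multiplier `A` and let `τ : Δ →* Q` be a finite stem extension, `Δ` in the universe of `Q`. Then there is a finite stem extension `σ : Γ →* Q` with kernel isomorphic to `A` (a Schur covering group) and a surjective homomorphism `β : Γ →* Δ` with `τ ∘ β = σ`. -/
theorem result {Q : Type u} [Group Q] [Finite Q] {A : Type v} [CommGroup A] (hA : Cfsg.HasSchurMultiplier Q A) {Δ : Type u} [Group Δ] [Finite Δ] (τ : Δ →* Q) (hτ : Cfsg.IsStemExtension τ) : ∃ (Γ : Type u) (_ : Group Γ) (_ : Finite Γ) (σ : Γ →* Q), Cfsg.IsStemExtension σ ∧ Nonempty (σ.ker ≃* A) ∧ ∃ β : Γ →* Δ, Function.Surjective β ∧ τ.comp β = σ := by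
  classical
  obtain ⟨φ, hφ⟩ := Cfsg.Agent.H69.hopf_lift Q τ hτ.1 hτ.2.1
  have hφ' : ∀ e, τ (φ e) = Cfsg.Agent.H69.hopfPi Q e := fun e => DFunLike.congr_fun hφ e
  have himg := Cfsg.Agent.H69.hopf_image Q τ hτ.2.1 φ hφ
  rw [inf_eq_left.mpr hτ.2.2] at himg
  -- φ is surjective
  have hφsurj : Function.Surjective φ := by
    intro x
    obtain ⟨e, he⟩ := Cfsg.Agent.H69.hopfPi_surjective Q (τ x)
    have h1 : (φ e)⁻¹ * x ∈ τ.ker := by
      rw [MonoidHom.mem_ker, map_mul, map_inv, hφ', he, inv_mul_cancel]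
    rw [himg] at h1
    obtain ⟨m, _, hm⟩ := h1
    refine ⟨e * m, ?_⟩
    rw [map_mul, hm]
    group
  have hK₀ : φ.ker ≤ (Cfsg.Agent.H69.hopfPi Q).ker := by
    intro e he
    rw [MonoidHom.mem_ker, ← hφ', MonoidHom.mem_ker.mp he, map_one]
  have hcov : (Cfsg.Agent.H69.hopfPi Q).ker ≤ φ.ker ⊔ Cfsg.Agent.H69.hopfM Q := by
    intro e he
    have h1 : φ e ∈ τ.ker := by
      rw [MonoidHom.mem_ker, hφ']
      exact MonoidHom.mem_ker.mp he
    rw [himg] at h1
    obtain ⟨m, hm, hme⟩ := h1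
    have h2 : e = (e * m⁻¹) * m := by group
    rw [h2]
    refine Subgroup.mul_mem_sup ?_ hm
    rw [MonoidHom.mem_ker, map_mul, map_inv, hme, mul_inv_cancel]
  obtain ⟨T, hTK, hTc, hTM⟩ := Cfsg.Agent.H69.hopf_complement Q φ.ker hK₀ hcov
  have hT : T ≤ (Cfsg.Agent.H69.hopfPi Q).ker := hTK.trans hK₀
  have hTn : T.Normal :=
    Cfsg.Agent.H69.normal_of_le_center T (hT.trans (Cfsg.Agent.H69.hopfPi_ker_le_center Q))
  obtain ⟨h1, h2, ⟨e3⟩⟩ := Cfsg.Agent.H69.hopf_stem_of_complement Q T hT hTc hTM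
  refine ⟨Cfsg.Agent.H69.HopfE Q ⧸ T, inferInstance, h2,
    QuotientGroup.lift T (Cfsg.Agent.H69.hopfPi Q) hT, h1, ?_, QuotientGroup.lift T φ hTK, ?_, ?_⟩
  · -- the kernel is isomorphic to `A`
    obtain ⟨⟨Γ₀, _, _, σ₀, hσ₀, ⟨e₀⟩⟩, hA2⟩ := hA
    obtain ⟨f, hf⟩ := Cfsg.Agent.H69.hopf_surj_ker Q σ₀ hσ₀
    obtain ⟨π, hπ⟩ := hA2 (Cfsg.Agent.H69.HopfE Q ⧸ T)
      (QuotientGroup.lift T (Cfsg.Agent.H69.hopfPi Q) hT) h1
    have hAfin : Finite A := Finite.of_equiv _ e₀.toEquiv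
    let c : A →* A := (e₀.toMonoidHom.comp f).comp (e3.toMonoidHom.comp π)
    have hc : Function.Surjective c := by
      have h4 : Function.Surjective (e₀.toMonoidHom.comp f) := e₀.surjective.comp hf
      have h5 : Function.Surjective (e3.toMonoidHom.comp π) := e3.surjective.comp hπ
      exact h4.comp h5
    have hcinj : Function.Injective c := Finite.injective_iff_surjective.mpr hc
    have hπinj : Function.Injective π := by
      intro a b hab
      apply hcinj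
      show (e₀.toMonoidHom.comp f) (e3.toMonoidHom (π a)) = (e₀.toMonoidHom.comp f) (e3.toMonoidHom (π b))
      rw [hab]
    exact ⟨(MulEquiv.ofBijective π ⟨hπinj, hπ⟩).symm⟩
  · intro x
    obtain ⟨e, he⟩ := hφsurj x
    exact ⟨QuotientGroup.mk e, he⟩
  · apply MonoidHom.ext
    intro x
    induction x using QuotientGroup.induction_on with
    | H e => exact hφ' e

end Cfsg.Agent.S3957
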