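import Cfsg.Statements.S3959
import Cfsg.Agent.H41.ProdMult2

set_option autoImplicit false
universe u v w
open Cfsg

namespace Cfsg.Agent.S3959

open Cfsg.Agent.H41

/-- Let `Q₁` and `Q₂` be finite groups with Schur multipliers `A` and `B`. Then the Schur multiplier of `Q₁ × Q₂` is isomorphic to `A × B × (Q₁ᵃᵇ ⊗ Q₂ᵃᵇ)`, the last factor being the tensor product over the integers of the commutator quotients, written multiplicatively. -/
theorem result {Q₁ : Type u} {Q₂ : Type v} [Group Q₁] [Group Q₂] [Finite Q₁] [Finite Q₂] {A B : Type w} [CommGroup A] [CommGroup B] (hA : Cfsg.HasSchurMultiplier Q₁ A) (hB : Cfsg.HasSchurMultiplier Q₂ B) : Cfsg.HasSchurMultiplier (Q₁ × Q₂) (A × B × Multiplicative (TensorProduct ℤ (Additive (Abelianization Q₁)) (Additive (Abelianization Q₂)))) := by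
  exact hasSchurMultiplier_prod hA hB

end Cfsg.Agent.S3959
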