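import Cfsg.Statements.S3960
import Cfsg.Agent.H69.Hopf

set_option autoImplicit false
universe u
open Cfsg

namespace Cfsg.Agent.S3960

/-- A finite perfect group `Q` has a universal central extension: a finite perfect group `G` in the universe of `Q` and a surjective homomorphism `π : G →* Q` with central kernel such that for every group `X` in that universe and every surjective homomorphism `ξ : X →* Q` with central kernel there is exactly one homomorphism `η : G →* X` with `ξ ∘ η = π`. -/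
theorem result {Q : Type u} [Group Q] [Finite Q] (hQ : Group.IsPerfect Q) : ∃ (G : Type u) (_ : Group G) (_ : Finite G) (π : G →* Q), Group.IsPerfect G ∧ Function.Surjective π ∧ π.ker ≤ Subgroup.center G ∧ ∀ (X : Type u) [Group X] (ξ : X →* Q), Function.Surjective ξ → ξ.ker ≤ Subgroup.center X → ∃! η : G →* X, ξ.comp η = π := by
  have hQc : commutator Q = ⊤ := Group.isPerfect_def.mp hQ
  have hs := Cfsg.Agent.H69.hopfPi_surjective Q
  have hc := Cfsg.Agent.H69.hopfPi_ker_le_center Q
  haveI hfin : Finite ↥(commutator (Cfsg.Agent.H69.HopfE Q)) :=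
    Cfsg.Agent.H69.finite_commutator_of_central_ker (Cfsg.Agent.H69.hopfPi Q) hc
  have hperf : commutator ↥(commutator (Cfsg.Agent.H69.HopfE Q)) = ⊤ := by
    apply Cfsg.Agent.H69.commutator_perfect_of_central
    intro y
    obtain ⟨w, hw, l, hl, rfl⟩ := Cfsg.Agent.H69.exists_mul_ker_of_perfect hQc (Cfsg.Agent.H69.hopfPi Q) hs y
    exact ⟨w, hw, l, hc hl, rfl⟩
  let π : ↥(commutator (Cfsg.Agent.H69.HopfE Q)) →* Q :=
    (Cfsg.Agent.H69.hopfPi Q).comp (commutator (Cfsg.Agent.H69.HopfE Q)).subtype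
  have hπs : Function.Surjective π := by
    intro q
    obtain ⟨y, rfl⟩ := hs q
    obtain ⟨w, hw, l, hl, rfl⟩ := Cfsg.Agent.H69.exists_mul_ker_of_perfect hQc (Cfsg.Agent.H69.hopfPi Q) hs y
    refine ⟨⟨w, hw⟩, ?_⟩
    show Cfsg.Agent.H69.hopfPi Q w = Cfsg.Agent.H69.hopfPi Q (w * l)
    rw [map_mul, MonoidHom.mem_ker.mp hl, mul_one]
  refine ⟨↥(commutator (Cfsg.Agent.H69.HopfE Q)), inferInstance, hfin, π,
    Group.isPerfect_def.mpr hperf, hπs, ?_, ?_⟩
  · intro k hk
    have h1 : k.1 ∈ (Cfsg.Agent.H69.hopfPi Q).ker := hk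
    have h2 := Subgroup.mem_center_iff.mp (hc h1)
    rw [Subgroup.mem_center_iff]
    intro z
    apply Subtype.ext
    exact h2 z.1
  · intro X _ ξ hξ hξc
    obtain ⟨φ, hφ⟩ := Cfsg.Agent.H69.hopf_lift Q ξ hξ hξc
    refine ⟨φ.comp (commutator (Cfsg.Agent.H69.HopfE Q)).subtype, ?_, ?_⟩
    · show ξ.comp (φ.comp (commutator (Cfsg.Agent.H69.HopfE Q)).subtype) = π
      rw [← MonoidHom.comp_assoc, hφ]
    · intro η' hη'
      apply Cfsg.Agent.H69.eq_of_perfect_of_central_diff hperf
      intro g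
      apply hξc
      have h1 : ξ (η' g) = π g := DFunLike.congr_fun hη' g
      have h2 : ξ (φ g.1) = Cfsg.Agent.H69.hopfPi Q g.1 := DFunLike.congr_fun hφ g.1
      rw [MonoidHom.mem_ker, map_mul, map_inv, h1]
      show π g * (ξ (φ g.1))⁻¹ = 1
      rw [h2]
      exact mul_inv_cancel _

end Cfsg.Agent.S3960
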