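import Cfsg.Statements.S3963
import Cfsg.Agent.H69.SchurDihedral

set_option autoImplicit false
open Cfsg

namespace Cfsg.Agent.S3963

/-- For every `n ≥ 1` the dicyclic (generalized quaternion) group of order `4 n` has trivial Schur multiplier. -/
theorem result (n : ℕ) [NeZero n] : Cfsg.HasCyclicSchurMultiplier (QuaternionGroup n) 1 := by
  haveI : NeZero (2 * n) := ⟨by have := NeZero.ne n; omega⟩
  apply Cfsg.Agent.H69.hasTrivialSchurMultiplier_of
  intro Γ _ _ σ hσ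
  obtain ⟨a', ha⟩ := hσ.1 (QuaternionGroup.a 1)
  obtain ⟨x', hx⟩ := hσ.1 (QuaternionGroup.xa 0)
  have he : x' * a' ^ n = a' ^ n * x' := by
    have h1 : a' ^ n * (x' * x')⁻¹ ∈ σ.ker := by
      rw [MonoidHom.mem_ker, map_mul, map_inv, map_pow, map_mul, ha, hx, QuaternionGroup.a_one_pow,
        QuaternionGroup.xa_mul_xa, add_zero, sub_zero, mul_inv_cancel]
    have h2 := Subgroup.mem_center_iff.mp (hσ.2.1 h1) x'
    calc x' * a' ^ n = x' * (a' ^ n * (x' * x')⁻¹) * (x' * x') := by group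
      _ = (a' ^ n * (x' * x')⁻¹) * x' * (x' * x') := by rw [h2]
      _ = a' ^ n * x' := by group
  obtain ⟨hc, -, -⟩ := Cfsg.Agent.H69.dihedral_type_bound σ hσ _ _ (Cfsg.Agent.H69.quaternion_closure n)
    (Cfsg.Agent.H69.quaternion_rel n) a' x' ha hx n he
  rw [eq_bot_iff]
  intro k hk
  obtain ⟨i, hi, hdiv⟩ := Cfsg.Agent.H69.dihedral_type_ker σ hσ _ _ (Cfsg.Agent.H69.quaternion_closure n)
    (Cfsg.Agent.H69.quaternion_rel n) a' x' ha hx n he k hk
  rw [QuaternionGroup.orderOf_a_one] at hdiv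
  have h2 : (n : ℤ) ∣ i := by
    have h3 : (2 : ℤ) * (n : ℤ) ∣ 2 * i := by
      have : ((2 * n : ℕ) : ℤ) = 2 * (n : ℤ) := by push_cast; ring
      rw [← this]; exact hdiv
    exact Int.dvd_of_mul_dvd_mul_left (by norm_num) h3
  obtain ⟨j, rfl⟩ := h2
  rw [Subgroup.mem_bot, hi, zpow_mul, zpow_natCast, hc, one_zpow]

end Cfsg.Agent.S3963
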