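import Cfsg.Statements.S3964
import Cfsg.Agent.H69.SchurDihedral

set_option autoImplicit false
open Cfsg

namespace Cfsg.Agent.S3964

/-- For odd `n` the dihedral group of order `2 n` has trivial Schur multiplier. -/
theorem result (n : ℕ) (hn : Odd n) : Cfsg.HasCyclicSchurMultiplier (DihedralGroup n) 1 := by
  have hn0 : n ≠ 0 := by
    rintro rfl
    simp at hn
  haveI : NeZero n := ⟨hn0⟩
  apply Cfsg.Agent.H69.hasTrivialSchurMultiplier_of
  intro Γ _ _ σ hσ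
  obtain ⟨a', ha⟩ := hσ.1 (DihedralGroup.r 1)
  obtain ⟨x', hx⟩ := hσ.1 (DihedralGroup.sr 0)
  have he : x' * a' ^ n = a' ^ n * x' := by
    have h1 : a' ^ n ∈ σ.ker := by
      rw [MonoidHom.mem_ker, map_pow, ha, DihedralGroup.r_one_pow_n]
    exact Subgroup.mem_center_iff.mp (hσ.2.1 h1) x'
  obtain ⟨hc, -, -⟩ := Cfsg.Agent.H69.dihedral_type_bound σ hσ _ _ (Cfsg.Agent.H69.dihedral_closure n)
    (Cfsg.Agent.H69.dihedral_rel n) a' x' ha hx n he
  rw [eq_bot_iff]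
  intro k hk
  obtain ⟨i, hi, hdiv⟩ := Cfsg.Agent.H69.dihedral_type_ker σ hσ _ _ (Cfsg.Agent.H69.dihedral_closure n)
    (Cfsg.Agent.H69.dihedral_rel n) a' x' ha hx n he k hk
  rw [DihedralGroup.orderOf_r_one] at hdiv
  obtain ⟨m, hm⟩ := hn
  have h2 : (n : ℤ) ∣ i := by
    have h3 : i = (n : ℤ) * i - (m : ℤ) * (2 * i) := by
      rw [hm]; push_cast; ring
    rw [h3]
    exact dvd_sub (dvd_mul_right _ _) (dvd_mul_of_dvd_right hdiv _)
  obtain ⟨j, rfl⟩ := h2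
  rw [Subgroup.mem_bot, hi, zpow_mul, zpow_natCast, hc, one_zpow]

end Cfsg.Agent.S3964
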