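import Cfsg.Statements.S3966
-- import your own Cfsg.Agent.* helpers here

set_option autoImplicit false
open Cfsg

namespace Cfsg.Agent.S3966

/-- For even `n ≥ 2` the dicyclic group of order `4 n` is a stem extension of the dihedral group of order `2 n` with kernel of order `2`: there is a surjective homomorphism `QuaternionGroup n →* DihedralGroup n` whose kernel is central, lies in the commutator subgroup and has two elements. Together with the order of the multiplier this exhibits the dicyclic group as a Schur covering group of the dihedral group. -/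
theorem result (n : ℕ) [NeZero n] (hn : Even n) : ∃ σ : QuaternionGroup n →* DihedralGroup n, Cfsg.IsStemExtension σ ∧ Nat.card σ.ker = 2 := by
  have hn0 : n ≠ 0 := NeZero.ne n
  haveI : NeZero (2 * n) := ⟨by omega⟩
  obtain ⟨m, hm⟩ := hn
  let φ : ZMod (2 * n) →+* ZMod n := ZMod.castHom (dvd_mul_left n 2) (ZMod n)
  have hφn : φ (n : ZMod (2 * n)) = 0 := by
    rw [map_natCast]; exact ZMod.natCast_self n
  have h2n : ((n : ZMod (2 * n)) + (n : ZMod (2 * n))) = 0 := by
    have : ((2 * n : ℕ) : ZMod (2 * n)) = 0 := ZMod.natCast_self (2 * n)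
    rw [← this]; push_cast; ring
  have hφ : ∀ i : ZMod (2 * n), φ i = 0 ↔ i = 0 ∨ i = (n : ZMod (2 * n)) := by
    intro i
    constructor
    · intro hi
      have h1 : ((i.val : ℕ) : ZMod (2 * n)) = i := ZMod.natCast_zmod_val i
      rw [← h1, map_natCast, ZMod.natCast_eq_zero_iff] at hi
      have h2 : i.val < 2 * n := ZMod.val_lt i
      obtain ⟨k, hk⟩ := hi
      have hk2 : k = 0 ∨ k = 1 := by
        rcases k with _ | _ | k
        · left; rfl
        · right; rfl
        · exfalso
          have h3 : n * 2 ≤ n * (k + 1 + 1) := Nat.mul_le_mul_left n (by omega)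
          omega
      rcases hk2 with rfl | rfl
      · left
        rw [← h1, hk]; simp
      · right
        rw [← h1, hk]; simp
    · rintro (rfl | rfl)
      · exact map_zero φ
      · exact hφn
  have hnne : (n : ZMod (2 * n)) ≠ 0 := by
    intro h
    rw [ZMod.natCast_eq_zero_iff] at h
    have := Nat.le_of_dvd (Nat.pos_of_ne_zero hn0) h
    omega
  let f : QuaternionGroup n → DihedralGroup n := fun g =>
    match g with
    | QuaternionGroup.a i => DihedralGroup.r (φ i)
    | QuaternionGroup.xa i => DihedralGroup.sr (φ i)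
  have hfa : ∀ i, f (QuaternionGroup.a i) = DihedralGroup.r (φ i) := fun i => rfl
  have hfxa : ∀ i, f (QuaternionGroup.xa i) = DihedralGroup.sr (φ i) := fun i => rfl
  let σ : QuaternionGroup n →* DihedralGroup n := MonoidHom.mk' f (by
    rintro (i | i) (j | j)
    · simp only [QuaternionGroup.a_mul_a, hfa, DihedralGroup.r_mul_r, map_add]
    · simp only [QuaternionGroup.a_mul_xa, hfa, hfxa, DihedralGroup.r_mul_sr, map_sub]
    · simp only [QuaternionGroup.xa_mul_a, hfa, hfxa, DihedralGroup.sr_mul_r, map_add]
    · simp only [QuaternionGroup.xa_mul_xa, hfa, hfxa, DihedralGroup.sr_mul_sr, map_add, map_sub, hφn, zero_add])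
  have hσa : ∀ i, σ (QuaternionGroup.a i) = DihedralGroup.r (φ i) := fun i => rfl
  have hσxa : ∀ i, σ (QuaternionGroup.xa i) = DihedralGroup.sr (φ i) := fun i => rfl
  have hker : ∀ g : QuaternionGroup n, g ∈ σ.ker ↔ g = QuaternionGroup.a 0 ∨ g = QuaternionGroup.a (n : ZMod (2 * n)) := by
    intro g
    rw [MonoidHom.mem_ker]
    rcases g with i | i
    · rw [hσa, DihedralGroup.one_def]
      constructor
      · intro h
        have : φ i = 0 := by injection h
        rcases (hφ i).mp this with rfl | rfl
        · left; rfl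
        · right; rfl
      · rintro (h | h)
        · have : i = 0 := by injection h
          rw [this, map_zero]
        · have : i = n := by injection h
          rw [this, hφn]
    · rw [hσxa, DihedralGroup.one_def]
      constructor
      · intro h; cases h
      · rintro (h | h) <;> cases h
  refine ⟨σ, ⟨?_, ?_, ?_⟩, ?_⟩
  · -- surjective
    have hφs : Function.Surjective φ := ZMod.ringHom_surjective φ
    rintro (i | i)
    · obtain ⟨j, rfl⟩ := hφs i
      exact ⟨QuaternionGroup.a j, rfl⟩
    · obtain ⟨j, rfl⟩ := hφs i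
      exact ⟨QuaternionGroup.xa j, rfl⟩
  · -- central
    intro g hg
    rw [Subgroup.mem_center_iff]
    rcases (hker g).mp hg with rfl | rfl
    · intro h; rw [QuaternionGroup.a_zero]; simp
    · rintro (j | j)
      · simp only [QuaternionGroup.a_mul_a, add_comm]
      · simp only [QuaternionGroup.a_mul_xa, QuaternionGroup.xa_mul_a]
        congr 1
        have : (n : ZMod (2 * n)) = -(n : ZMod (2 * n)) := eq_neg_of_add_eq_zero_left h2n
        rw [sub_eq_add_neg, ← this]
  · -- in the commutator subgroup
    intro g hg
    rcases (hker g).mp hg with rfl | rfl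
    · rw [QuaternionGroup.a_zero]; exact Subgroup.one_mem _
    · have hcomm : QuaternionGroup.xa (0 : ZMod (2 * n)) * QuaternionGroup.a (-(m : ZMod (2 * n))) *
          (QuaternionGroup.xa (0 : ZMod (2 * n)))⁻¹ * (QuaternionGroup.a (-(m : ZMod (2 * n))))⁻¹ =
          QuaternionGroup.a (n : ZMod (2 * n)) := by
        have hinv1 : (QuaternionGroup.xa (0 : ZMod (2 * n)))⁻¹ = QuaternionGroup.xa (n : ZMod (2 * n)) := by
          rw [inv_eq_iff_mul_eq_one]
          simp only [QuaternionGroup.xa_mul_xa]
          rw [QuaternionGroup.one_def]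
          congr 1
          rw [sub_zero]; exact h2n
        have hinv2 : (QuaternionGroup.a (-(m : ZMod (2 * n))))⁻¹ = QuaternionGroup.a (m : ZMod (2 * n)) := by
          rw [inv_eq_iff_mul_eq_one]
          simp only [QuaternionGroup.a_mul_a]
          rw [QuaternionGroup.one_def]
          congr 1
          ring
        rw [hinv1, hinv2]
        simp only [QuaternionGroup.xa_mul_a, QuaternionGroup.xa_mul_xa, QuaternionGroup.a_mul_a]
        congr 1
        have hmm : (n : ZMod (2 * n)) = (m : ZMod (2 * n)) + (m : ZMod (2 * n)) := by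
          rw [hm]; push_cast; ring
        calc (n : ZMod (2 * n)) + (n : ZMod (2 * n)) - (0 + -(m : ZMod (2 * n))) + (m : ZMod (2 * n))
            = ((n : ZMod (2 * n)) + (n : ZMod (2 * n))) + ((m : ZMod (2 * n)) + (m : ZMod (2 * n))) := by ring
          _ = (n : ZMod (2 * n)) := by rw [h2n, zero_add, ← hmm]
      rw [← hcomm, commutator_def]
      exact Subgroup.commutator_mem_commutator (Subgroup.mem_top (QuaternionGroup.xa (0 : ZMod (2 * n))))
        (Subgroup.mem_top (QuaternionGroup.a (-(m : ZMod (2 * n)))))
  · -- the kernel has two elements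
    rw [Nat.card_eq_two_iff]
    refine ⟨⟨QuaternionGroup.a 0, (hker _).mpr (Or.inl rfl)⟩,
      ⟨QuaternionGroup.a (n : ZMod (2 * n)), (hker _).mpr (Or.inr rfl)⟩, ?_, ?_⟩
    · intro h
      have h1 : QuaternionGroup.a (0 : ZMod (2 * n)) = QuaternionGroup.a (n : ZMod (2 * n)) := congrArg Subtype.val h
      have h2 : (0 : ZMod (2 * n)) = (n : ZMod (2 * n)) := by injection h1
      exact hnne h2.symm
    · ext ⟨g, hg⟩
      simp only [Set.mem_insert_iff, Set.mem_singleton_iff, Set.mem_univ, iff_true, Subtype.mk.injEq]
      exact (hker g).mp hg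

end Cfsg.Agent.S3966
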