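import Cfsg.Statements.S3965
import Cfsg.Agent.H69.SchurDihedral
import Cfsg.Agent.S3966

set_option autoImplicit false
open Cfsg

namespace Cfsg.Agent.S3965

/-- For even `n ≥ 2` the dihedral group of order `2 n` has Schur multiplier cyclic of order `2`. -/
theorem result (n : ℕ) [NeZero n] (hn : Even n) : Cfsg.HasCyclicSchurMultiplier (DihedralGroup n) 2 := by
  obtain ⟨m, hm⟩ := hn
  apply Cfsg.Agent.H69.hasCyclicSchurMultiplier_of
  · obtain ⟨σ, hσ, hcard⟩ := Cfsg.Agent.S3966.result n ⟨m, hm⟩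
    haveI : Fact (Nat.Prime 2) := ⟨Nat.prime_two⟩
    refine ⟨QuaternionGroup n, inferInstance, inferInstance, σ, hσ, ⟨mulEquivOfPrimeCardEq (p := 2) hcard ?_⟩⟩
    simp
  · intro Γ _ _ σ hσ
    obtain ⟨a', ha⟩ := hσ.1 (DihedralGroup.r 1)
    obtain ⟨x', hx⟩ := hσ.1 (DihedralGroup.sr 0)
    have he : x' * a' ^ n = a' ^ n * x' := by
      have h1 : a' ^ n ∈ σ.ker := by
        rw [MonoidHom.mem_ker, map_pow, ha, DihedralGroup.r_one_pow_n]
      exact Subgroup.mem_center_iff.mp (hσ.2.1 h1) x'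
    obtain ⟨hc, -, -⟩ := Cfsg.Agent.H69.dihedral_type_bound σ hσ _ _ (Cfsg.Agent.H69.dihedral_closure n)
      (Cfsg.Agent.H69.dihedral_rel n) a' x' ha hx n he
    refine ⟨(x' * a' * x'⁻¹ * a'⁻¹) ^ m, ?_, ?_⟩
    · intro k hk
      obtain ⟨i, hi, hdiv⟩ := Cfsg.Agent.H69.dihedral_type_ker σ hσ _ _ (Cfsg.Agent.H69.dihedral_closure n)
        (Cfsg.Agent.H69.dihedral_rel n) a' x' ha hx n he k hk
      rw [DihedralGroup.orderOf_r_one] at hdiv
      have h2 : (m : ℤ) ∣ i := by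
        have h3 : (2 : ℤ) * (m : ℤ) ∣ 2 * i := by
          have : ((n : ℕ) : ℤ) = 2 * (m : ℤ) := by rw [hm]; push_cast; ring
          rw [← this]; exact hdiv
        exact Int.dvd_of_mul_dvd_mul_left (by norm_num) h3
      obtain ⟨j, rfl⟩ := h2
      rw [Subgroup.mem_zpowers_iff]
      exact ⟨j, by rw [hi, zpow_mul, zpow_natCast]⟩
    · rw [← pow_mul]
      have : m * 2 = n := by omega
      rw [this, hc]

end Cfsg.Agent.S3965
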