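import Cfsg.Statements.S3967
import Cfsg.Agent.H41.Metacyclic

set_option autoImplicit false
open Cfsg

namespace Cfsg.Agent.S3967

open Cfsg.Agent.H41

/-- Let `m, n ≥ 1`, `r ≥ 1` with `r ^ n ≡ 1 (mod m)`, and `l` a natural number; put `d = gcd(m, r - 1)`, `t = m l / d` and `h = d · gcd(m, 1 + r + ⋯ + r^(n-1)) / m`. The group presented by generators `a, b` and relations `a ^ m = 1`, `b ^ n = a ^ t`, `b a b⁻¹ = a ^ r` (a metacyclic group of order `m n`) has Schur multiplier cyclic of order `gcd(l, h)`. -/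
theorem result (m n r l : ℕ) (hm : 0 < m) (hn : 0 < n) (hr : 0 < r) (hrn : r ^ n ≡ 1 [MOD m]) : Cfsg.HasCyclicSchurMultiplier (PresentedGroup ({FreeGroup.of true ^ m, (FreeGroup.of false) ^ n * (FreeGroup.of true ^ (m * l / Nat.gcd m (r - 1)))⁻¹, FreeGroup.of false * FreeGroup.of true * (FreeGroup.of false)⁻¹ * (FreeGroup.of true ^ r)⁻¹} : Set (FreeGroup Bool))) (Nat.gcd l (Nat.gcd m (r - 1) * Nat.gcd m (∑ i ∈ Finset.range n, r ^ i) / m)) := by
  exact Meta.metacyclic_multiplier m n r l hm hn hr hrn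

end Cfsg.Agent.S3967
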