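import Cfsg.Statements.S3969
import Mathlib
import Cfsg.Agent.H77.CoprimeAut

set_option autoImplicit false
open Cfsg

namespace Cfsg.Agent.S3969

/-- Let `P` be an abelian Sylow `p`-subgroup of the finite group `G`, generated by `d` elements (`d` its minimal number of generators). If the order of `G` is coprime to `(p - 1)(p ^ 2 - 1) ⋯ (p ^ d - 1)`, then `G` has a normal `p`-complement. (The classical statement needs only the largest number of cyclic factors of `P` of equal order in place of `d`; the form here follows from it.) -/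
theorem result {G : Type*} [Group G] [Finite G] (p : ℕ) [Fact p.Prime] (P : Sylow p G) (hab : IsMulCommutative (P : Subgroup G)) (hcop : Nat.Coprime (Nat.card G) (∏ i ∈ Finset.Icc 1 (Group.rank (P : Subgroup G)), (p ^ i - 1))) : Cfsg.HasNormalPComplement p G := by
  have hp : p.Prime := Fact.out
  have hcomm : ∀ a b : (P : Subgroup G), a * b = b * a := fun a b => hab.is_comm.comm a b
  have hNC : Subgroup.normalizer ((P : Subgroup G) : Set G) ≤ Subgroup.centralizer (P : Set G) := by
    intro g hg
    obtain ⟨a, m, hm, hgm⟩ := Nat.exists_eq_pow_mul_and_not_dvd (orderOf_pos g).ne' p hp.ne_one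
    have hm0 : m ≠ 0 := by rintro rfl; exact hm (dvd_zero p)
    have hmo : m ∣ orderOf g := Dvd.intro_left _ hgm.symm
    have hgmP : g ^ m ∈ (P : Subgroup G) := by
      have hz : IsPGroup p (Subgroup.zpowers (g ^ m)) := by
        apply IsPGroup.of_card (n := a)
        rw [Nat.card_zpowers, orderOf_pow_of_dvd hm0 hmo, hgm,
          Nat.mul_div_cancel _ (Nat.pos_of_ne_zero hm0)]
      have h1 := hz.inf_normalizer_sylow P
      have h2 : g ^ m ∈ Subgroup.zpowers (g ^ m) ⊓ Subgroup.normalizer ((P : Subgroup G) : Set G) :=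
        ⟨Subgroup.mem_zpowers _, pow_mem hg m⟩
      have h3 : g ^ m ∈ Subgroup.zpowers (g ^ m) ⊓ (P : Subgroup G) := h1.le h2
      exact h3.2
    have hker : ∀ y : Subgroup.normalizer ((P : Subgroup G) : Set G),
        (y : G) ∈ Subgroup.centralizer ((P : Subgroup G) : Set G) →
          (P : Subgroup G).normalizerMonoidHom y = 1 := by
      intro y hy
      have h : y ∈ (P : Subgroup G).normalizerMonoidHom.ker := by
        rw [Subgroup.normalizerMonoidHom_ker]; exact hy
      exact h
    have h1 : ((P : Subgroup G).normalizerMonoidHom ⟨g, hg⟩) ^ m = 1 := by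
      rw [← map_pow]
      apply hker
      show g ^ m ∈ Subgroup.centralizer ((P : Subgroup G) : Set G)
      rw [Subgroup.mem_centralizer_iff]
      intro x hx
      exact congrArg Subtype.val (hcomm ⟨x, hx⟩ ⟨g ^ m, hgmP⟩)
    have hmG : m ∣ Nat.card G := hmo.trans (orderOf_dvd_natCard g)
    have hα := H77.aut_trivial_abelian p (P : Subgroup G) P.2 hcomm _ m h1
      ((Nat.Prime.coprime_iff_not_dvd hp).mpr hm).symm (by
        intro i hi1 hi2
        have h : (p ^ i - 1) ∣ ∏ i ∈ Finset.Icc 1 (Group.rank (P : Subgroup G)), (p ^ i - 1) :=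
          Finset.dvd_prod_of_mem _ (Finset.mem_Icc.mpr ⟨hi1, hi2⟩)
        exact Nat.Coprime.coprime_dvd_left hmG (Nat.Coprime.coprime_dvd_right h hcop))
    have h4 : (⟨g, hg⟩ : Subgroup.normalizer ((P : Subgroup G) : Set G)) ∈
        (P : Subgroup G).normalizerMonoidHom.ker := hα
    rw [Subgroup.normalizerMonoidHom_ker] at h4
    exact h4
  exact ⟨P, (MonoidHom.transferSylow P hNC).ker, inferInstance,
    MonoidHom.ker_transferSylow_isComplement' P hNC⟩

end Cfsg.Agent.S3969
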