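import Cfsg.Statements.S3970
import Mathlib
import Cfsg.Agent.H77.CoprimeAut

set_option autoImplicit false
open Cfsg

namespace Cfsg.Agent.S3970


universe u

theorem rank_le_one_of_isCyclic (H : Type*) [Group H] [Finite H] [hc : IsCyclic H] :
    Group.rank H ≤ 1 := by
  classical
  obtain ⟨g, hg⟩ := hc.exists_generator
  have h : Subgroup.closure (({g} : Finset H) : Set H) = ⊤ := by
    rw [Finset.coe_singleton, ← Subgroup.zpowers_eq_closure]
    exact (Subgroup.eq_top_iff' _).mpr hg
  exact (Group.rank_le h).trans (by simp)

/-- `N(P) ≤ C(P)` for an abelian Sylow subgroup of rank at most 2 for the smallest prime, unless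
`12 ∣ |G|`. -/
theorem normalizer_le_centralizer {G : Type u} [Group G] [Finite G] (p : ℕ) [Fact p.Prime]
    (hpmin : (Nat.card G).minFac = p) (P : Sylow p G)
    (hcomm : ∀ a b : (P : Subgroup G), a * b = b * a)
    (hrank : Group.rank (P : Subgroup G) ≤ 2) (h12 : ¬ 12 ∣ Nat.card G) :
    Subgroup.normalizer ((P : Subgroup G) : Set G) ≤ Subgroup.centralizer (P : Set G) := by
  have hp : p.Prime := Fact.out
  intro g hg
  obtain ⟨a, m, hm, hgm⟩ := Nat.exists_eq_pow_mul_and_not_dvd (orderOf_pos g).ne' p hp.ne_one
  have hm0 : m ≠ 0 := by rintro rfl; exact hm (dvd_zero p)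
  have hmo : m ∣ orderOf g := Dvd.intro_left _ hgm.symm
  have hgmP : g ^ m ∈ (P : Subgroup G) := by
    have hz : IsPGroup p (Subgroup.zpowers (g ^ m)) := by
      apply IsPGroup.of_card (n := a)
      rw [Nat.card_zpowers, orderOf_pow_of_dvd hm0 hmo, hgm,
        Nat.mul_div_cancel _ (Nat.pos_of_ne_zero hm0)]
    have h1 := hz.inf_normalizer_sylow P
    have h2 : g ^ m ∈ Subgroup.zpowers (g ^ m) ⊓ Subgroup.normalizer ((P : Subgroup G) : Set G) :=
      ⟨Subgroup.mem_zpowers _, pow_mem hg m⟩
    have h3 : g ^ m ∈ Subgroup.zpowers (g ^ m) ⊓ (P : Subgroup G) := h1.le h2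
    exact h3.2
  have hker : ∀ y : Subgroup.normalizer ((P : Subgroup G) : Set G),
      (y : G) ∈ Subgroup.centralizer ((P : Subgroup G) : Set G) →
        (P : Subgroup G).normalizerMonoidHom y = 1 := by
    intro y hy
    have h : y ∈ (P : Subgroup G).normalizerMonoidHom.ker := by
      rw [Subgroup.normalizerMonoidHom_ker]; exact hy
    exact h
  have h1 : ((P : Subgroup G).normalizerMonoidHom ⟨g, hg⟩) ^ m = 1 := by
    rw [← map_pow]
    apply hker
    show g ^ m ∈ Subgroup.centralizer ((P : Subgroup G) : Set G)
    rw [Subgroup.mem_centralizer_iff]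
    intro x hx
    exact congrArg Subtype.val (hcomm ⟨x, hx⟩ ⟨g ^ m, hgmP⟩)
  have hmG : m ∣ Nat.card G := hmo.trans (orderOf_dvd_natCard g)
  have hprime : ∀ r : ℕ, r.Prime → r ∣ m → p < r := by
    intro r hr hrm
    have h1 : p ≤ r := hpmin ▸ Nat.minFac_le_of_dvd hr.two_le (hrm.trans hmG)
    have h2 : r ≠ p := by rintro rfl; exact hm hrm
    omega
  have hp2le := hp.two_le
  have hα := H77.aut_trivial_abelian p (P : Subgroup G) P.2 hcomm _ m h1
    ((Nat.Prime.coprime_iff_not_dvd hp).mpr hm).symm (by
      intro i hi1 hi2
      apply Nat.coprime_of_dvd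
      intro r hr hrm hri
      have hpr := hprime r hr hrm
      have hi : i = 1 ∨ i = 2 := by omega
      rcases hi with rfl | rfl
      · rw [pow_one] at hri
        have := Nat.le_of_dvd (by omega) hri
        omega
      · have hfac : p ^ 2 - 1 = (p - 1) * (p + 1) := by
          have : p ^ 2 = (p - 1) * (p + 1) + 1 := by
            obtain ⟨k, rfl⟩ : ∃ k, p = k + 1 := ⟨p - 1, by omega⟩
            simp; ring
          omega
        rw [hfac] at hri
        rcases (Nat.Prime.dvd_mul hr).mp hri with h | h
        · have := Nat.le_of_dvd (by omega) h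
          omega
        · have hle := Nat.le_of_dvd (by omega) h
          have hr' : r = p + 1 := by omega
          have hp2 : p = 2 := by
            rcases hp.eq_two_or_odd' with h2 | hodd
            · exact h2
            · exfalso
              have hev : Even r := by rw [hr']; exact hodd.add_one
              have := (Nat.Prime.even_iff hr).mp hev
              omega
          subst hp2
          have h3 : 3 ∣ Nat.card G := by
            have h := hrm.trans hmG
            rw [hr'] at h
            exact h
          have h4 : ¬ 4 ∣ Nat.card G := fun h4 => h12 (by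
            have hc : Nat.Coprime 4 3 := by decide
            exact hc.mul_dvd_of_dvd_of_dvd h4 h3)
          obtain ⟨k, hk⟩ := IsPGroup.iff_card.mp P.2
          have hk1 : k ≤ 1 := by
            by_contra hk2
            apply h4
            have h5 : (2 : ℕ) ^ 2 ∣ 2 ^ k := pow_dvd_pow 2 (by omega)
            have h6 : Nat.card (P : Subgroup G) ∣ Nat.card G := Subgroup.card_subgroup_dvd_card _
            rw [hk] at h6
            exact h5.trans h6
          have hcyc : IsCyclic (P : Subgroup G) := by
            rcases Nat.eq_zero_or_pos k with rfl | hkpos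
            · rw [pow_zero] at hk
              have : Subsingleton (P : Subgroup G) := (Nat.card_eq_one_iff_unique.mp hk).1
              exact isCyclic_of_subsingleton
            · have hk' : k = 1 := by omega
              rw [hk', pow_one] at hk
              exact isCyclic_of_prime_card hk
          have := rank_le_one_of_isCyclic (P : Subgroup G)
          omega)
  have h4 : (⟨g, hg⟩ : Subgroup.normalizer ((P : Subgroup G) : Set G)) ∈
      (P : Subgroup G).normalizerMonoidHom.ker := hα
  rw [Subgroup.normalizerMonoidHom_ker] at h4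
  exact h4

theorem main : ∀ n : ℕ, ∀ (G : Type u) [Group G] [Finite G], Nat.card G = n →
    (∀ p : ℕ, p.Prime → p ∣ Nat.card G → (∃ q : ℕ, q.Prime ∧ q ∣ Nat.card G ∧ p < q) →
      ∀ P : Sylow p G, IsMulCommutative (P : Subgroup G) ∧ Group.rank (P : Subgroup G) ≤ 2) →
    ¬ 12 ∣ Nat.card G → Group.IsSolvable G := by
  intro n
  induction n using Nat.strong_induction_on with
  | _ n ih =>
  intro G _ _ hn h h12
  by_cases h1 : Nat.card G = 1
  · have : Subsingleton G := (Nat.card_eq_one_iff_unique.mp h1).1
    infer_instance
  obtain ⟨p, hpdef⟩ : ∃ p, (Nat.card G).minFac = p := ⟨_, rfl⟩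
  have hp : p.Prime := hpdef ▸ Nat.minFac_prime h1
  have : Fact p.Prime := ⟨hp⟩
  have hpn : p ∣ Nat.card G := hpdef ▸ Nat.minFac_dvd _
  obtain ⟨P⟩ : Nonempty (Sylow p G) := inferInstance
  by_cases hq : ∃ q : ℕ, q.Prime ∧ q ∣ Nat.card G ∧ p < q
  · obtain ⟨hPc, hPr⟩ := h p hp hpn hq P
    have hcomm : ∀ a b : (P : Subgroup G), a * b = b * a := fun a b => hPc.is_comm.comm a b
    have hNC := normalizer_le_centralizer p hpdef P hcomm hPr h12
    obtain ⟨N, hNdef⟩ : ∃ N, N = (MonoidHom.transferSylow P hNC).ker := ⟨_, rfl⟩
    have hc : N.IsComplement' P := hNdef ▸ MonoidHom.ker_transferSylow_isComplement' P hNC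
    have hNn : N.Normal := by rw [hNdef]; infer_instance
    have hcard : Nat.card N * Nat.card (P : Subgroup G) = Nat.card G := hc.card_mul_card
    have hPcard : 1 < Nat.card (P : Subgroup G) := by
      rw [Subgroup.one_lt_card_iff_ne_bot]; exact P.ne_bot_of_dvd_card hpn
    have hNlt : Nat.card N < n := by
      have : 0 < Nat.card N := Nat.card_pos
      rw [← hn, ← hcard]; nlinarith
    have hNidx : ¬ p ∣ Nat.card N := by
      rw [← hc.index_eq_card]; exact P.not_dvd_index
    have hNsolv : Group.IsSolvable N := by
      apply ih _ hNlt N rfl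
      · intro r hr hrN hq' R
        have : Fact r.Prime := ⟨hr⟩
        have hrp : r ≠ p := by rintro rfl; exact hNidx hrN
        have hrG : r ∣ Nat.card G := hrN.trans (Subgroup.card_subgroup_dvd_card N)
        obtain ⟨q, hq1, hq2, hq3⟩ := hq'
        have hqG : ∃ q : ℕ, q.Prime ∧ q ∣ Nat.card G ∧ r < q :=
          ⟨q, hq1, hq2.trans (Subgroup.card_subgroup_dvd_card N), hq3⟩
        have hfac : (Nat.card G).factorization r = (Nat.card N).factorization r := by
          rw [← hcard, Nat.factorization_mul Nat.card_pos.ne' Nat.card_pos.ne']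
          obtain ⟨k, hk⟩ := IsPGroup.iff_card.mp P.2
          rw [hk, Nat.Prime.factorization_pow hp]
          simp [hrp.symm]
        have hcardR : Nat.card ((R : Subgroup N).map N.subtype) =
            r ^ (Nat.card G).factorization r := by
          rw [hfac, ← R.card_eq_multiplicity]
          exact Nat.card_congr
            (Subgroup.equivMapOfInjective _ _ (Subgroup.subtype_injective N)).symm.toEquiv
        obtain ⟨hc', hr'⟩ := h r hr hrG hqG (Sylow.ofCard _ hcardR)
        let e : (R : Subgroup N) ≃* ((R : Subgroup N).map N.subtype) :=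
          Subgroup.equivMapOfInjective _ _ (Subgroup.subtype_injective N)
        constructor
        · refine ⟨⟨fun a b => ?_⟩⟩
          apply e.injective
          rw [map_mul, map_mul]
          exact hc'.is_comm.comm (e a) (e b)
        · rw [Group.rank_congr e]
          exact hr'
      · intro h12'
        exact h12 (h12'.trans (Subgroup.card_subgroup_dvd_card N))
    have hQsolv : Group.IsSolvable (G ⧸ N) := by
      have hQ : IsPGroup p (G ⧸ N) := by
        obtain ⟨k, hk⟩ := IsPGroup.iff_card.mp P.2
        apply IsPGroup.of_card (n := k)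
        rw [← hk, ← hc.symm.index_eq_card]; rfl
      have := hQ.isNilpotent
      infer_instance
    exact Group.isSolvable_of_ker_le_range N.subtype (QuotientGroup.mk' N) (by simp)
  · have hidx : (P : Subgroup G).index = 1 := by
      by_contra hne
      obtain ⟨r, hr, hrd⟩ := Nat.exists_prime_and_dvd hne
      have hrG : r ∣ Nat.card G := hrd.trans (Subgroup.index_dvd_card _)
      have h1 : p ≤ r := hpdef ▸ Nat.minFac_le_of_dvd hr.two_le hrG
      have h2 : r ≠ p := by rintro rfl; exact P.not_dvd_index hrd
      exact hq ⟨r, hr, hrG, by omega⟩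
    have htop : (P : Subgroup G) = ⊤ := Subgroup.index_eq_one.mp hidx
    have hG : IsPGroup p G := by
      intro g
      have hg : g ∈ (P : Subgroup G) := by rw [htop]; trivial
      obtain ⟨k, hk⟩ := P.2 ⟨g, hg⟩
      exact ⟨k, congrArg Subtype.val hk⟩
    have := hG.isNilpotent
    infer_instance

/-- Let `G` be a finite group such that for every prime `p` dividing its order, other than the largest such prime, the Sylow `p`-subgroups are abelian and generated by at most two elements, and suppose `12` does not divide the order of `G`. Then `G` is solvable. In particular a group of cube-free order not divisible by `12` is solvable. -/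
theorem result {G : Type*} [Group G] [Finite G] (h : ∀ p : ℕ, p.Prime → p ∣ Nat.card G → (∃ q : ℕ, q.Prime ∧ q ∣ Nat.card G ∧ p < q) → ∀ P : Sylow p G, IsMulCommutative (P : Subgroup G) ∧ Group.rank (P : Subgroup G) ≤ 2) (h12 : ¬ 12 ∣ Nat.card G) : Group.IsSolvable G := by
  exact main _ G rfl h h12

end Cfsg.Agent.S3970
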