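import Mathlib
import Cfsg.Statements.S3973

set_option autoImplicit false
open Cfsg

namespace Cfsg.Agent.S3973

open scoped commutatorElement

theorem zpow_finset_sum {A : Type*} [CommGroup A] {κ : Type*} (s : Finset κ) (x : A) (f : κ → ℤ) :
    x ^ (∑ i ∈ s, f i) = ∏ i ∈ s, x ^ f i := by
  classical
  induction s using Finset.induction_on with
  | empty => simp
  | insert i s hi ih => rw [Finset.sum_insert hi, Finset.prod_insert hi, zpow_add, ih]

theorem commutator_mul_central {Γ : Type*} [Group Γ] (p1 p2 k1 k2 : Γ)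
    (h1 : ∀ g, g * k1 = k1 * g) (h2 : ∀ g, g * k2 = k2 * g) :
    ⁅p1 * k1, p2 * k2⁆ = ⁅p1, p2⁆ := by
  rw [commutatorElement_def, commutatorElement_def]
  have e1 : k1 * (p2 * k2) * k1⁻¹ = p2 * k2 := by rw [← h1 (p2 * k2), mul_inv_cancel_right]
  have e2 : k2 * p1⁻¹ * k2⁻¹ = p1⁻¹ := by rw [← h2 p1⁻¹, mul_inv_cancel_right]
  calc p1 * k1 * (p2 * k2) * (p1 * k1)⁻¹ * (p2 * k2)⁻¹
      = p1 * (k1 * (p2 * k2) * k1⁻¹) * p1⁻¹ * k2⁻¹ * p2⁻¹ := by group
    _ = p1 * p2 * (k2 * p1⁻¹ * k2⁻¹) * p2⁻¹ := by rw [e1]; group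
    _ = p1 * p2 * p1⁻¹ * p2⁻¹ := by rw [e2]

/-- Linear algebra over `ℤ`: if the relation vectors `v w` span a finite index sublattice of `ℤ^n`
and every element of `A` is a combination of the `a w` along a relation among the `v w`, then
`A` is generated by `r - n` elements. -/
theorem rank_le_of_lin {ι : Type*} [Fintype ι] (n : ℕ) {A : Type*} [CommGroup A] [Finite A]
    (v : ι → (Fin n → ℤ)) (a : ι → A)
    (hfin : Finite ((Fin n → ℤ) ⧸ LinearMap.range (Fintype.linearCombination ℤ v)))
    (hsurj : ∀ x : A, ∃ c : ι → ℤ, x = ∏ w, a w ^ c w ∧ ∑ w, c w • v w = 0) :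
    Group.rank A ≤ Fintype.card ι - n := by
  classical
  set L := Fintype.linearCombination ℤ v with hL
  have h1 : Module.finrank ℤ (LinearMap.range L) = n := by
    rw [(Submodule.finiteQuotient_iff _).1 hfin, Module.finrank_fin_fun]
  have h2 : Module.finrank ℤ (LinearMap.ker L) + n = Fintype.card ι := by
    have := (LinearMap.ker L).finrank_quotient_add_finrank
    rw [LinearEquiv.finrank_eq L.quotKerEquivRange, h1, Module.finrank_pi] at this
    omega
  let b := Module.finBasis ℤ (LinearMap.ker L)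
  let g : Fin (Module.finrank ℤ (LinearMap.ker L)) → A :=
    fun i => ∏ w, a w ^ ((b i : ι → ℤ) w)
  have hcl : Subgroup.closure ((Finset.univ.image g : Finset A) : Set A) = ⊤ := by
    rw [eq_top_iff]
    intro x _
    obtain ⟨c, hx, hc⟩ := hsurj x
    have hcK : c ∈ LinearMap.ker L := by
      rw [LinearMap.mem_ker, hL, Fintype.linearCombination_apply]; exact hc
    have hrep := b.sum_repr ⟨c, hcK⟩
    have hcw : ∀ w, c w = ∑ i, b.repr ⟨c, hcK⟩ i * (b i : ι → ℤ) w := by
      intro w
      have := congrFun (congrArg Subtype.val hrep) w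
      simp only [Submodule.coe_sum, Submodule.coe_smul, Finset.sum_apply, Pi.smul_apply,
        smul_eq_mul] at this
      exact this.symm
    have hxg : x = ∏ i, g i ^ (b.repr ⟨c, hcK⟩ i) := by
      rw [hx]
      simp only [g]
      calc ∏ w, a w ^ c w = ∏ w, ∏ i, a w ^ (b.repr ⟨c, hcK⟩ i * (b i : ι → ℤ) w) := by
            refine Finset.prod_congr rfl fun w _ => ?_
            rw [hcw w, zpow_finset_sum]
        _ = ∏ i, ∏ w, a w ^ (b.repr ⟨c, hcK⟩ i * (b i : ι → ℤ) w) := Finset.prod_comm
        _ = ∏ i, (∏ w, a w ^ ((b i : ι → ℤ) w)) ^ (b.repr ⟨c, hcK⟩ i) := by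
            refine Finset.prod_congr rfl fun i _ => ?_
            rw [← Finset.prod_zpow]
            refine Finset.prod_congr rfl fun w _ => ?_
            rw [← zpow_mul, mul_comm]
    rw [hxg]
    exact Subgroup.prod_mem _ (fun i _ => Subgroup.zpow_mem _ (Subgroup.subset_closure (by simp)) _)
  have hr := Group.rank_le hcl
  have hcard : (Finset.univ.image g).card ≤ Module.finrank ℤ (LinearMap.ker L) := by
    simpa using Finset.card_image_le (s := Finset.univ) (f := g)
  omega

/-- If a finite group is presented by `n` generators and a finite set of `r` relators, then its Schur multiplier can be generated by `r - n` elements. In particular a finite group with a presentation having as many relators as generators has trivial Schur multiplier. -/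
theorem result (n : ℕ) (rels : Finset (FreeGroup (Fin n))) [Finite (PresentedGroup (rels : Set (FreeGroup (Fin n))))] {A : Type*} [CommGroup A] [Finite A] (hA : Cfsg.HasSchurMultiplier (PresentedGroup (rels : Set (FreeGroup (Fin n)))) A) : Group.rank A ≤ rels.card - n := by
  classical
  obtain ⟨⟨Γ, _, _, σ, ⟨hσs, hσc, hσd⟩, ⟨e⟩⟩, -⟩ := hA
  choose γ hγ using fun i : Fin n => hσs (PresentedGroup.of i)
  let φ : FreeGroup (Fin n) →* Γ := FreeGroup.lift γ
  have hσφ : ∀ f, σ (φ f) = PresentedGroup.mk (rels : Set (FreeGroup (Fin n))) f := by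
    intro f
    have : σ.comp φ = PresentedGroup.mk (rels : Set (FreeGroup (Fin n))) := by
      ext i
      simp [φ, hγ]
      rfl
    exact DFunLike.congr_fun this f
  have hker : ∀ f, f ∈ Subgroup.normalClosure (rels : Set (FreeGroup (Fin n))) → φ f ∈ σ.ker := by
    intro f hf
    rw [MonoidHom.mem_ker, hσφ]
    exact (QuotientGroup.eq_one_iff f).2 hf
  let ab : FreeGroup (Fin n) →* Multiplicative (Fin n → ℤ) :=
    FreeGroup.lift (fun i => Multiplicative.ofAdd (Pi.single i (1 : ℤ)))
  let a : ↥rels → A := fun w => e ⟨φ w, hker w (Subgroup.subset_normalClosure w.2)⟩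
  let v : ↥rels → (Fin n → ℤ) := fun w => Multiplicative.toAdd (ab w)
  have key : ∀ f ∈ Subgroup.normalClosure (rels : Set (FreeGroup (Fin n))),
      ∃ c : ↥rels → ℤ, ∃ h : φ f ∈ σ.ker, e ⟨φ f, h⟩ = ∏ w, a w ^ c w ∧
        Multiplicative.toAdd (ab f) = ∑ w, c w • v w := by
    intro f hf
    rw [Subgroup.normalClosure] at hf
    induction hf using Subgroup.closure_induction with
    | mem x hx =>
      rw [Group.mem_conjugatesOfSet_iff] at hx
      obtain ⟨w, hw, hconj⟩ := hx
      obtain ⟨g, hg⟩ := isConj_iff.1 hconj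
      have hwk : φ w ∈ σ.ker := hker w (Subgroup.subset_normalClosure hw)
      have hφx : φ x = φ w := by
        rw [← hg, map_mul, map_mul, map_inv, (Subgroup.mem_center_iff.1 (hσc hwk) (φ g)),
          mul_inv_cancel_right]
      have habx : ab x = ab w := by
        rw [← hg, map_mul, map_mul, map_inv, mul_inv_cancel_comm]
      refine ⟨Pi.single ⟨w, hw⟩ 1, hφx ▸ hwk, ?_, ?_⟩
      · rw [Fintype.prod_eq_single ⟨w, hw⟩ (fun w' hne => by simp [Pi.single_eq_of_ne hne])]
        simp only [Pi.single_eq_same, zpow_one, a]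
        exact congrArg e (Subtype.ext hφx)
      · rw [Fintype.sum_eq_single ⟨w, hw⟩ (fun w' hne => by simp [Pi.single_eq_of_ne hne])]
        simp only [Pi.single_eq_same, one_smul, v, habx]
    | one => exact ⟨0, by simp, by simp, by simp⟩
    | mul x y hx hy ihx ihy =>
      obtain ⟨c1, h1, e1, v1⟩ := ihx
      obtain ⟨c2, h2, e2, v2⟩ := ihy
      refine ⟨c1 + c2, by rw [map_mul]; exact σ.ker.mul_mem h1 h2, ?_, ?_⟩
      · have : (⟨φ (x * y), by rw [map_mul]; exact σ.ker.mul_mem h1 h2⟩ : σ.ker)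
            = ⟨φ x, h1⟩ * ⟨φ y, h2⟩ := Subtype.ext (map_mul φ x y)
        rw [this, map_mul, e1, e2]
        simp [zpow_add, Finset.prod_mul_distrib]
      · rw [map_mul, toAdd_mul, v1, v2]
        simp [add_smul, Finset.sum_add_distrib]
    | inv x hx ih =>
      obtain ⟨c1, h1, e1, v1⟩ := ih
      refine ⟨-c1, by rw [map_inv]; exact σ.ker.inv_mem h1, ?_, ?_⟩
      · have : (⟨φ x⁻¹, by rw [map_inv]; exact σ.ker.inv_mem h1⟩ : σ.ker)
            = (⟨φ x, h1⟩ : σ.ker)⁻¹ := Subtype.ext (map_inv φ x)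
        rw [this, map_inv, e1]
        simp [Finset.prod_inv_distrib]
      · rw [map_inv, toAdd_inv, v1]
        simp [Finset.sum_neg_distrib]
  -- `φ` maps the commutator subgroup onto the commutator subgroup
  have hcomm : commutator Γ ≤ (commutator (FreeGroup (Fin n))).map φ := by
    rw [commutator_def, Subgroup.commutator_le]
    intro g1 _ g2 _
    obtain ⟨f1, hf1⟩ := QuotientGroup.mk_surjective (σ g1)
    obtain ⟨f2, hf2⟩ := QuotientGroup.mk_surjective (σ g2)
    have hk1 : (φ f1)⁻¹ * g1 ∈ σ.ker := by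
      rw [MonoidHom.mem_ker, map_mul, map_inv, hσφ, ← hf1]; exact inv_mul_cancel _
    have hk2 : (φ f2)⁻¹ * g2 ∈ σ.ker := by
      rw [MonoidHom.mem_ker, map_mul, map_inv, hσφ, ← hf2]; exact inv_mul_cancel _
    have hz1 := Subgroup.mem_center_iff.1 (hσc hk1)
    have hz2 := Subgroup.mem_center_iff.1 (hσc hk2)
    refine ⟨⁅f1, f2⁆, Subgroup.commutator_mem_commutator (Subgroup.mem_top _) (Subgroup.mem_top _), ?_⟩
    rw [map_commutatorElement, ← commutator_mul_central (φ f1) (φ f2) _ _ hz1 hz2,
      mul_inv_cancel_left, mul_inv_cancel_left]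
  have habsurj : ∀ x : Fin n → ℤ, ∃ f, ab f = Multiplicative.ofAdd x := by
    intro x
    have hmem : Multiplicative.ofAdd x ∈ ab.range := by
      have hx : x = ∑ i, x i • Pi.single i (1 : ℤ) := by
        ext j; simp [Finset.sum_apply, Pi.single_apply]
      rw [hx, ofAdd_sum]
      refine Subgroup.prod_mem _ fun i _ => ?_
      rw [ofAdd_zsmul]
      have hi : Multiplicative.ofAdd (Pi.single i (1 : ℤ)) ∈ ab.range :=
        ⟨FreeGroup.of i, by simp [ab]⟩
      exact Subgroup.zpow_mem _ hi _
    exact hmem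
  have hfin : Finite ((Fin n → ℤ) ⧸ LinearMap.range (Fintype.linearCombination ℤ v)) := by
    let q : Multiplicative (Fin n → ℤ) →*
        Multiplicative ((Fin n → ℤ) ⧸ LinearMap.range (Fintype.linearCombination ℤ v)) :=
      AddMonoidHom.toMultiplicative
        (LinearMap.range (Fintype.linearCombination ℤ v)).mkQ.toAddMonoidHom
    let ψ : FreeGroup (Fin n) →*
        Multiplicative ((Fin n → ℤ) ⧸ LinearMap.range (Fintype.linearCombination ℤ v)) := q.comp ab
    have hψ : Subgroup.normalClosure (rels : Set (FreeGroup (Fin n))) ≤ ψ.ker := by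
      apply Subgroup.normalClosure_le_normal
      intro w hw
      rw [SetLike.mem_coe, MonoidHom.mem_ker]
      show Multiplicative.ofAdd (Submodule.mkQ _ (Multiplicative.toAdd (ab w))) = 1
      rw [ofAdd_eq_one, Submodule.mkQ_apply, Submodule.Quotient.mk_eq_zero]
      refine ⟨Pi.single ⟨w, hw⟩ 1, ?_⟩
      rw [Fintype.linearCombination_apply,
        Fintype.sum_eq_single ⟨w, hw⟩ (fun w' hne => by simp [Pi.single_eq_of_ne hne])]
      simp [v]
    let Ψ : PresentedGroup (rels : Set (FreeGroup (Fin n))) →*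
        Multiplicative ((Fin n → ℤ) ⧸ LinearMap.range (Fintype.linearCombination ℤ v)) :=
      QuotientGroup.lift _ ψ hψ
    have hsurjΨ : Function.Surjective Ψ := by
      intro y
      obtain ⟨x, hx⟩ := Submodule.mkQ_surjective
        (LinearMap.range (Fintype.linearCombination ℤ v)) (Multiplicative.toAdd y)
      obtain ⟨f, hf⟩ := habsurj x
      refine ⟨PresentedGroup.mk _ f, ?_⟩
      show q (ab f) = y
      rw [hf]
      show Multiplicative.ofAdd (Submodule.mkQ _ x) = y
      rw [hx]; rfl
    exact Finite.of_surjective Ψ hsurjΨ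
  have hsurj : ∀ x : A, ∃ c : ↥rels → ℤ, x = ∏ w, a w ^ c w ∧ ∑ w, c w • v w = 0 := by
    intro x
    obtain ⟨f, hfc, hfx⟩ := hcomm (hσd (e.symm x).2)
    have hfN : f ∈ Subgroup.normalClosure (rels : Set (FreeGroup (Fin n))) := by
      rw [← QuotientGroup.eq_one_iff]
      have := hσφ f
      rw [hfx] at this
      exact this.symm.trans (e.symm x).2
    obtain ⟨c, h, he, hv⟩ := key f hfN
    refine ⟨c, ?_, ?_⟩
    · rw [← he]
      have : (⟨φ f, h⟩ : σ.ker) = e.symm x := Subtype.ext hfx
      rw [this, MulEquiv.apply_symm_apply]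
    · rw [← hv]
      have : ab f = 1 := (Abelianization.commutator_subset_ker ab) hfc
      rw [this]; rfl
  have := rank_le_of_lin n v a hfin hsurj
  rwa [Fintype.card_coe] at this

end Cfsg.Agent.S3973
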