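import Cfsg.Statements.S3978
import Cfsg.Agent.H41.ProjRep

set_option autoImplicit false
open Cfsg

namespace Cfsg.Agent.S3978

open Cfsg.Agent.H41

/-- A finite group `Q` has trivial Schur multiplier if and only if, for every `n`, every homomorphism from `Q` to the projective general linear group (the quotient of `GL n ℂ` by its centre) lifts to a homomorphism into `GL n ℂ`. -/
theorem result {Q : Type*} [Group Q] [Finite Q] : Cfsg.HasCyclicSchurMultiplier Q 1 ↔ ∀ (n : ℕ) (γ : Q →* (GL (Fin n) ℂ ⧸ Subgroup.center (GL (Fin n) ℂ))), ∃ ρ : Q →* GL (Fin n) ℂ, (QuotientGroup.mk' (Subgroup.center (GL (Fin n) ℂ))).comp ρ = γ := by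
  constructor
  · intro h n γ
    obtain ⟨ρ, hρ⟩ := exists_lift_of_cover h (MonoidHom.id Q) (isStemExtension_id Q)
      (nonempty_ker_id_mulEquiv Q) n γ
    exact ⟨ρ, by rw [hρ, MonoidHom.comp_id]⟩
  · intro hyp
    apply hasCyclicSchurMultiplier_one_of_ker
    intro Γ _ _ σ hσ
    obtain ⟨π, hπ⟩ := exists_surjective_ker_of_lifts (MonoidHom.id Q) (isStemExtension_id Q)
      (fun n γ => by
        obtain ⟨ρ, hρ⟩ := hyp n γ
        exact ⟨ρ, by rw [hρ, MonoidHom.comp_id]⟩) σ hσ
    have hsub := subsingleton_ker_id Q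
    rw [eq_bot_iff]
    intro k hk
    obtain ⟨a, ha⟩ := hπ ⟨k, hk⟩
    have h1 : a = 1 := Subsingleton.elim _ _
    rw [h1, map_one] at ha
    rw [Subgroup.mem_bot]
    exact (congrArg Subtype.val ha).symm

end Cfsg.Agent.S3978
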