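import Mathlib
import Cfsg.Statements.S3979

set_option autoImplicit false
open Cfsg

namespace Cfsg.Agent.S3979

theorem result {G : Type*} [Group G] [Finite G] [IsCyclic G] : Cfsg.HasCyclicSchurMultiplier G 1 := by
  refine ⟨⟨G, inferInstance, inferInstance, MonoidHom.id G, ⟨Function.surjective_id, ?_, ?_⟩, ?_⟩, ?_⟩
  · rw [MonoidHom.ker_id]; exact bot_le
  · rw [MonoidHom.ker_id]; exact bot_le
  · have hsub : Subsingleton (MonoidHom.id G).ker := by
      rw [MonoidHom.ker_id]; infer_instance
    have hsub2 : Subsingleton (Multiplicative (ZMod 1)) := by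
      change Subsingleton (Fin 1); infer_instance
    refine ⟨MulEquiv.ofBijective (1 : (MonoidHom.id G).ker →* Multiplicative (ZMod 1)) ⟨?_, ?_⟩⟩
    · intro a b _; exact Subsingleton.elim a b
    · intro b; exact ⟨1, Subsingleton.elim _ _⟩
  · intro Γ _ _ σ hσ
    obtain ⟨-, hc, hd⟩ := hσ
    have hcomm : ∀ a b : Γ, a * b = b * a := commutative_of_cyclic_center_quotient σ hc
    have hbot : commutator Γ = ⊥ := by
      rw [commutator_eq_bot_iff_center_eq_top]
      rw [eq_top_iff]
      intro x _
      rw [Subgroup.mem_center_iff]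
      intro g; exact hcomm g x
    have hker : σ.ker = ⊥ := by
      rw [eq_bot_iff, ← hbot]; exact hd
    have hsub : Subsingleton σ.ker := by
      rw [hker]; infer_instance
    refine ⟨1, ?_⟩
    intro b; exact ⟨1, Subsingleton.elim _ _⟩

end Cfsg.Agent.S3979
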