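import Mathlib
import Cfsg.Statements.S3992
import Cfsg.Agent.H71.CPF

set_option autoImplicit false
open Cfsg

namespace Cfsg.Agent.S3992

/-- Let G be a finite non-solvable group in which every element has prime-power order, and let R be its largest solvable normal subgroup. Then R is a p-group for some prime p; G/R has a non-abelian simple normal subgroup contained in every nontrivial normal subgroup of G/R (its unique minimal normal subgroup); and the order of every solvable subgroup of G has at most two prime divisors. -/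
theorem result {G : Type*} [Group G] [Finite G] (hns : ¬ Group.IsSolvable G) (hpp : ∀ g : G, g ≠ 1 → IsPrimePow (orderOf g))
    (R : Subgroup G) [R.Normal] (hRs : Group.IsSolvable ↥R) (hRmax : ∀ N : Subgroup G, N.Normal → Group.IsSolvable ↥N → N ≤ R) :
    (∃ p : ℕ, p.Prime ∧ IsPGroup p ↥R) ∧
      (∃ M : Subgroup (G ⧸ R), M.Normal ∧ IsSimpleGroup ↥M ∧ ¬ IsMulCommutative ↥M ∧
        ∀ N : Subgroup (G ⧸ R), N.Normal → N ≠ ⊥ → M ≤ N) ∧
      ∀ H : Subgroup G, Group.IsSolvable ↥H → (Nat.card ↥H).primeFactors.card ≤ 2 := by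
  classical
  have hCP : Cfsg.Agent.H71.IsCP G := hpp
  refine ⟨Cfsg.Agent.H71.cp_radical_pgroup hCP hns R hRs, ?_, ?_⟩
  · have hRtop : R ≠ ⊤ := by
      intro h
      apply hns
      have e : (⊤ : Subgroup G) ≃* G := Subgroup.topEquiv
      rw [h] at hRs
      exact Group.isSolvable_of_surjective (f := e.toMonoidHom) e.surjective
    have hnt : Nontrivial (G ⧸ R) := QuotientGroup.nontrivial_iff.2 hRtop
    have hCPQ : Cfsg.Agent.H71.IsCP (G ⧸ R) := by
      intro y hy
      obtain ⟨g, rfl⟩ := QuotientGroup.mk_surjective y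
      have hg1 : g ≠ 1 := by
        rintro rfl
        exact hy rfl
      obtain ⟨p, k, hp, hk, hpk⟩ := hpp g hg1
      have hdvd : orderOf (g : G ⧸ R) ∣ p ^ k := by
        rw [hpk]
        exact orderOf_dvd_of_pow_eq_one (by
          rw [← QuotientGroup.mk_pow, pow_orderOf_eq_one]; rfl)
      obtain ⟨j, hj, hjo⟩ := (Nat.dvd_prime_pow (Nat.prime_iff.2 hp)).1 hdvd
      have hj0 : 0 < j := by
        rcases Nat.eq_zero_or_pos j with h0 | h0
        · exfalso
          rw [h0, pow_zero] at hjo
          exact hy (orderOf_eq_one_iff.1 hjo)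
        · exact h0
      exact ⟨p, j, hp, hj0, hjo.symm⟩
    have hrad : ∀ N : Subgroup (G ⧸ R), N.Normal → Group.IsSolvable N → N = ⊥ := by
      intro N hN hNs
      have hle : R ≤ N.comap (QuotientGroup.mk' R) := by
        intro x hx
        rw [Subgroup.mem_comap, QuotientGroup.mk'_apply, (QuotientGroup.eq_one_iff x).2 hx]
        exact N.one_mem
      have hcs : Group.IsSolvable (N.comap (QuotientGroup.mk' R)) := by
        apply Group.isSolvable_of_ker_le_range (Subgroup.inclusion hle)
          ((QuotientGroup.mk' R).subgroupComap N)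
        rintro ⟨x, hx⟩ hxk
        rw [MonoidHom.mem_ker] at hxk
        have h1 : (QuotientGroup.mk' R) x = 1 := congrArg Subtype.val hxk
        rw [QuotientGroup.mk'_apply, QuotientGroup.eq_one_iff] at h1
        exact ⟨⟨x, h1⟩, rfl⟩
      have hle2 : N.comap (QuotientGroup.mk' R) ≤ R := hRmax _ (hN.comap _) hcs
      rw [Subgroup.eq_bot_iff_forall]
      intro y hy
      obtain ⟨g, rfl⟩ := QuotientGroup.mk_surjective y
      exact (QuotientGroup.eq_one_iff g).2 (hle2 hy)
    exact Cfsg.Agent.H71.cp_min_normal_simple hCPQ hrad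
  · intro H hH
    have hCPH : Cfsg.Agent.H71.IsCP H := by
      intro g hg
      rw [← Subgroup.orderOf_coe]
      exact hpp g (fun h => hg (Subtype.ext h))
    exact Cfsg.Agent.H71.higman_solvable_cp hCPH

end Cfsg.Agent.S3992
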