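import Mathlib
import Cfsg.Statements.S3994
import Cfsg.Agent.H70.Frob

set_option autoImplicit false
open Cfsg

namespace Cfsg.Agent.S3994

open Cfsg.Agent.H70 in
/-- Let G be a finite group and n a positive integer. The number of elements of G whose order is divisible by n is either 0 or divisible by the largest divisor of the order of G that is coprime to n. -/
theorem result {G : Type*} [Group G] [Finite G] (n : ℕ) (hn : 0 < n) :
    Nat.card {g : G // n ∣ orderOf g} = 0 ∨
      (Nat.card G / Nat.gcd (Nat.card G) (n ^ Nat.card G)) ∣ Nat.card {g : G // n ∣ orderOf g} := by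
  right
  have hNpos : 0 < Nat.card G := Nat.card_pos
  obtain ⟨m, hm⟩ : Nat.gcd (Nat.card G) (n ^ Nat.card G) ∣ Nat.card G := Nat.gcd_dvd_left _ _
  have hApos : 0 < Nat.gcd (Nat.card G) (n ^ Nat.card G) := Nat.gcd_pos_of_pos_left _ hNpos
  have hAn : Nat.gcd (Nat.card G) (n ^ Nat.card G) ∣ n ^ Nat.card G := Nat.gcd_dvd_right _ _
  have hdiv : Nat.card G / Nat.gcd (Nat.card G) (n ^ Nat.card G) = m := by
    exact Nat.div_eq_of_eq_mul_right hApos hm
  rw [hdiv]
  generalize hAdef : Nat.gcd (Nat.card G) (n ^ Nat.card G) = A at hm hApos hAn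
  -- `m` is coprime to `n`
  have hmn : Nat.Coprime m n := by
    by_contra hcon
    obtain ⟨q, hq, hqm, hqn⟩ := Nat.Prime.not_coprime_iff_dvd.1 hcon
    obtain ⟨v, N', hqN', hNv⟩ := Nat.exists_eq_pow_mul_and_not_dvd hNpos.ne' q hq.ne_one
    have hvN : v ≤ Nat.card G := by
      have h1 : v < q ^ v := Nat.lt_pow_self hq.one_lt
      have h2 : q ^ v ≤ Nat.card G := Nat.le_of_dvd hNpos (Dvd.intro _ hNv.symm)
      omega
    have h3 : q ^ v ∣ n ^ Nat.card G :=
      (pow_dvd_pow q hvN).trans (pow_dvd_pow_of_dvd hqn _)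
    have h4 : q ^ v ∣ A := by
      rw [← hAdef]; exact Nat.dvd_gcd (Dvd.intro _ hNv.symm) h3
    have h5 : q ^ v * q ∣ q ^ v * N' := by
      rw [← hNv, hm]; exact Nat.mul_dvd_mul h4 hqm
    exact hqN' ((Nat.mul_dvd_mul_iff_left (pow_pos hq.pos v)).1 h5)
  have hAm : Nat.Coprime A m :=
    (Nat.Coprime.coprime_dvd_right hAn (Nat.Coprime.pow_right _ hmn)).symm
  have e0 : Nat.card {g : G // n ∣ orderOf g} =
      Nat.card {x : G // x ^ (A * m) = 1 ∧ n ∣ orderOf x} :=
    Nat.card_congr (Equiv.subtypeEquivRight fun g =>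
      ⟨fun h => ⟨by rw [← hm]; exact pow_card_eq_one', h⟩, fun h => h.2⟩)
  have hP : ∀ z y : G, z ^ A = 1 → y ^ m = 1 → Commute z y →
      (n ∣ orderOf (z * y) ↔ n ∣ orderOf z) := by
    intro z y hz hy hc
    have hoz : orderOf z ∣ A := orderOf_dvd_of_pow_eq_one hz
    have hoy : orderOf y ∣ m := orderOf_dvd_of_pow_eq_one hy
    have hco : (orderOf z).Coprime (orderOf y) :=
      Nat.Coprime.coprime_dvd_left hoz (Nat.Coprime.coprime_dvd_right hoy hAm)
    rw [hc.orderOf_mul_eq_mul_orderOf_of_coprime hco]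
    have hny : Nat.Coprime n (orderOf y) := Nat.Coprime.coprime_dvd_right hoy hmn.symm
    exact ⟨fun h => hny.dvd_of_dvd_mul_right h, fun h => Dvd.dvd.mul_right h _⟩
  rw [e0, frob_card_decomp A m hAm (fun x => n ∣ orderOf x) (fun z => n ∣ orderOf z) hP]
  refine frob_fib_dvd A m (fun z => n ∣ orderOf z) ?_ m ?_
  · intro t z hz
    have : orderOf (t * z * t⁻¹) = orderOf z := by
      rw [← MulAut.conj_apply]; exact MulEquiv.orderOf_eq _ _
    show n ∣ orderOf (t * z * t⁻¹)
    rw [this]; exact hz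
  · intro z hzA hz
    rw [frob_card_commute_eq]
    have hq := frobenius_gcd_dvd (G := ↥(Subgroup.centralizer ({z} : Set G))) m
    have hidx : m ∣ (Subgroup.centralizer ({z} : Set G)).index *
        Nat.card (Subgroup.centralizer ({z} : Set G)) := by
      rw [Subgroup.index_mul_card, hm]; exact Dvd.intro_left A rfl
    exact (frob_dvd_index_mul_gcd hidx).trans (Nat.mul_dvd_mul_left _ hq)

end Cfsg.Agent.S3994
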