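import Cfsg.Statements.S3995
import Cfsg.Agent.H21.TwoCounts

set_option autoImplicit false
open Cfsg

namespace Cfsg.Agent.S3995

/-- Let G be a finite group such that the numbers of elements of each order that occurs in G (the numbers #{g : o(g) = m}, m ranging over the element orders of G) take exactly two values, 1 and some n ≠ 1. Then either G is a p-group of exponent p and order at least 3 for some prime p, or G is the quaternion group of order 8, or G is cyclic of order 4, or G ≅ Z₂ × P for a p-group P of exponent p with p an odd prime. -/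
theorem result {G : Type*} [Group G] [Finite G] (n : ℕ) (hn : n ≠ 1) (h : ((fun m : ℕ => Nat.card {g : G // orderOf g = m}) '' Set.range (orderOf : G → ℕ)) = {1, n}) :
    (∃ p : ℕ, p.Prime ∧ IsPGroup p G ∧ 3 ≤ Nat.card G ∧ Monoid.exponent G = p) ∨
      Nonempty (G ≃* QuaternionGroup 2) ∨ (IsCyclic G ∧ Nat.card G = 4) ∨
      (∃ (p : ℕ) (P : Type) (_ : Group P) (_ : Finite P), p.Prime ∧ p ≠ 2 ∧ IsPGroup p P ∧ Monoid.exponent P = p ∧
        Nonempty (G ≃* Multiplicative (ZMod 2) × P)) :=
  Cfsg.Agent.H21.TwoCounts.main_thm n hn h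

end Cfsg.Agent.S3995
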