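import Cfsg.Statements.S3998
import Cfsg.Agent.H92.SuperOrd
import Cfsg.Agent.S3997

set_option autoImplicit false
open Cfsg

namespace Cfsg.Agent.S3998

/-- Let G and H be finite groups with the same order type (for every m the same number of elements of order m). If G is supersolvable then H is solvable. -/
theorem result {G H : Type*} [Group G] [Finite G] [Group H] [Finite H] (hT : (∀ m : ℕ, Nat.card {g : G // orderOf g = m} = Nat.card {h : H // orderOf h = m})) (hG : Cfsg.IsSupersolvable G) :
    Group.IsSolvable H := by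
  obtain ⟨e, he⟩ := Cfsg.Agent.S3997.exists_orderOf_equiv hT
  have h1 : Cfsg.Agent.H92.SuperOrd.CT G :=
    Cfsg.Agent.H92.SuperOrd.ct_of_supersolvable (Nat.card G) G rfl hG
  have h2 : Cfsg.Agent.H92.SuperOrd.CT H := Cfsg.Agent.H92.SuperOrd.ct_of_equiv e he h1
  exact Cfsg.Agent.H92.SuperOrd.solvable_of_ct (Nat.card H) H rfl h2


end Cfsg.Agent.S3998
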