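import Cfsg.Statements.S4003
import Cfsg.Agent.H74.MillerCount

set_option autoImplicit false
open Cfsg

namespace Cfsg.Agent.S4003

/-- Let G be a finite group, p an odd prime dividing the order of G whose Sylow p-subgroups are not cyclic, and n = p^s·m with s > 1 and m coprime to p. Then the number of elements of G of order n is a multiple of p^s. -/
theorem result {G : Type*} [Group G] [Finite G] (p : ℕ) [Fact p.Prime] (hodd : p ≠ 2) (hpG : p ∣ Nat.card G)
    (P : Sylow p G) (hP : ¬ IsCyclic ↥(P : Subgroup G)) (s m : ℕ) (hs : 1 < s) (hm : Nat.Coprime p m) :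
    p ^ s ∣ Nat.card {g : G // orderOf g = p ^ s * m} :=
  Cfsg.Agent.H74.Mil.card_elements_dvd p hodd P hP s m hs hm

end Cfsg.Agent.S4003
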