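import Mathlib
import Cfsg.Statements.S4005

set_option autoImplicit false
open Cfsg

namespace Cfsg.Agent.S4005

section lemmas

variable {G : Type*} [Group G]

theorem commute_of_sq {x y : G} (hx : x ^ 2 = 1) (hy : y ^ 2 = 1) (hxy : (x * y) ^ 2 = 1) :
    Commute x y := by
  have hx' : x⁻¹ = x := inv_eq_of_mul_eq_one_right (by rw [← sq, hx])
  have hy' : y⁻¹ = y := inv_eq_of_mul_eq_one_right (by rw [← sq, hy])
  have h : x * y = (x * y)⁻¹ := eq_inv_of_mul_eq_one_left (by rw [← sq, hxy])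
  show x * y = y * x
  rw [h, mul_inv_rev, hx', hy']

theorem eq_one_of_sq_cube {x : G} (h2 : x ^ 2 = 1) (h3 : x ^ 3 = 1) : x = 1 := by
  have h : x ^ 3 = x ^ 2 * x := pow_succ x 2
  rw [h3, h2, one_mul] at h; exact h.symm

theorem not_commute_of_orders (hord : ∀ g : G, g ^ 2 = 1 ∨ g ^ 3 = 1) {t k : G}
    (ht : t ^ 2 = 1) (ht1 : t ≠ 1) (hk : k ^ 3 = 1) (hk1 : k ≠ 1) : ¬ Commute t k := by
  intro hc
  rcases hord (t * k) with h | h
  · rw [hc.mul_pow, ht, one_mul] at h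
    exact hk1 (eq_one_of_sq_cube h hk)
  · rw [hc.mul_pow, hk, mul_one] at h
    exact ht1 (eq_one_of_sq_cube ht h)

theorem coxeter_four {a a' b : G} (ha : a ^ 2 = 1) (ha' : a' ^ 2 = 1) (hb : b ^ 2 = 1)
    (hc : Commute a a') (h1 : (a * b) ^ 3 = 1) (h2 : (a' * b) ^ 3 = 1) :
    (a * a' * b) ^ 4 = 1 := by
  have ia : a⁻¹ = a := inv_eq_of_mul_eq_one_right (by rw [← sq, ha])
  have ia' : a'⁻¹ = a' := inv_eq_of_mul_eq_one_right (by rw [← sq, ha'])
  have ib : b⁻¹ = b := inv_eq_of_mul_eq_one_right (by rw [← sq, hb])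
  have br1 : b * a * b = a * b * a := by
    have h : a * b * a * (b * a * b) = 1 := by
      rw [← h1]; simp only [pow_succ, pow_zero, one_mul, mul_assoc]
    have h' := eq_inv_of_mul_eq_one_right h
    rw [h', mul_inv_rev, mul_inv_rev, ia, ib, mul_assoc]
  have br2 : b * a' * b = a' * b * a' := by
    have h : a' * b * a' * (b * a' * b) = 1 := by
      rw [← h2]; simp only [pow_succ, pow_zero, one_mul, mul_assoc]
    have h' := eq_inv_of_mul_eq_one_right h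
    rw [h', mul_inv_rev, mul_inv_rev, ia', ib, mul_assoc]
  have hsq : (a * a' * b) ^ 2 = a * b * a * a' * b * a := by
    calc (a * a' * b) ^ 2 = a * a' * b * (a * a') * b := by rw [sq]; group
      _ = a * a' * b * (a' * a) * b := by rw [hc.eq]
      _ = a * (a' * b * a') * a * b := by group
      _ = a * (b * a' * b) * a * b := by rw [br2]
      _ = a * b * a' * (b * a * b) := by group
      _ = a * b * a' * (a * b * a) := by rw [br1]
      _ = a * b * (a' * a) * b * a := by group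
      _ = a * b * (a * a') * b * a := by rw [hc.eq]
      _ = a * b * a * a' * b * a := by group
  have hinv : (a * b * a * a' * b * a)⁻¹ = a * b * a * a' * b * a := by
    simp only [mul_inv_rev, ia, ia', ib]
    calc a * (b * (a' * (a * (b * a)))) = a * b * (a' * a) * b * a := by group
      _ = a * b * (a * a') * b * a := by rw [hc.eq]
      _ = a * b * a * a' * b * a := by group
  calc (a * a' * b) ^ 4 = (a * a' * b) ^ 2 * (a * a' * b) ^ 2 := by rw [← pow_add]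
    _ = (a * b * a * a' * b * a) * (a * b * a * a' * b * a)⁻¹ := by rw [hsq, hinv]
    _ = 1 := mul_inv_cancel _

theorem commute_klein (hord : ∀ g : G, g ^ 2 = 1 ∨ g ^ 3 = 1) {a a' b : G} (ha : a ^ 2 = 1)
    (_ha1 : a ≠ 1) (ha' : a' ^ 2 = 1) (ha'1 : a' ≠ 1) (hne : a ≠ a') (hc : Commute a a')
    (hb : b ^ 2 = 1) : Commute b a := by
  have L1 : ∀ {u w : G}, u ^ 2 = 1 → u ≠ 1 → w ^ 2 = 1 → Commute u w → Commute b u →
      Commute b w := by
    intro u w hu hu1 hw huw hbu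
    by_contra hbw
    have h3 : (w * b) ^ 3 = 1 := by
      rcases hord (w * b) with h | h
      · exact absurd (commute_of_sq hw hb h).symm hbw
      · exact h
    have hne1 : w * b ≠ 1 := by
      intro h
      apply hbw
      have h' : b = w⁻¹ := eq_inv_of_mul_eq_one_right h
      rw [h']; exact (Commute.refl w).inv_left
    exact not_commute_of_orders hord hu hu1 h3 hne1 (huw.mul_right hbu.symm)
  by_contra hba
  have hba' : ¬ Commute b a' := fun h => hba (L1 ha' ha'1 ha hc.symm h)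
  have hcc : (a * a') ^ 2 = 1 := by rw [hc.mul_pow, ha, ha', one_mul]
  have hcc1 : a * a' ≠ 1 := by
    intro h
    apply hne
    have h' := eq_inv_of_mul_eq_one_left h
    rw [h']; exact inv_eq_of_mul_eq_one_right (by rw [← sq, ha'])
  have hbc : ¬ Commute b (a * a') := fun h =>
    hba (L1 hcc hcc1 ha ((Commute.refl a).mul_left hc.symm) h)
  have e1 : (a * b) ^ 3 = 1 := by
    rcases hord (a * b) with h | h
    · exact absurd (commute_of_sq ha hb h).symm hba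
    · exact h
  have e2 : (a' * b) ^ 3 = 1 := by
    rcases hord (a' * b) with h | h
    · exact absurd (commute_of_sq ha' hb h).symm hba'
    · exact h
  have e3 : (a * a' * b) ^ 3 = 1 := by
    rcases hord (a * a' * b) with h | h
    · exact absurd (commute_of_sq hcc hb h).symm hbc
    · exact h
  have e4 := coxeter_four ha ha' hb hc e1 e2
  have e5 : a * a' * b = 1 := by
    have h : (a * a' * b) ^ 4 = (a * a' * b) ^ 3 * (a * a' * b) := pow_succ _ 3
    rw [e4, e3, one_mul] at h; exact h.symm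
  apply hbc
  have h' : b = (a * a')⁻¹ := eq_inv_of_mul_eq_one_right e5
  rw [h']; exact (Commute.refl (a * a')).inv_left

theorem nine_add {M : Type*} [AddCommGroup M] (v a1 a2 b1 b2 c1 c2 d1 d2 : M)
    (h1 : v + a1 + a2 = 0) (h2 : v + b1 + b2 = 0) (h3 : v + c1 + c2 = 0) (h4 : v + d1 + d2 = 0)
    (h5 : b1 + c1 + d2 = 0) (h6 : b2 + d1 + c2 = 0) : 3 • v = 0 := by
  have h : 3 • v = (v + a1 + a2) + (v + b1 + b2) + (v + c1 + c2) + (v + d1 + d2) -
      ((b1 + c1 + d2) + (b2 + d1 + c2) + (v + a1 + a2)) := by abel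
  rw [h, h1, h2, h3, h4, h5, h6]; simp

theorem nine_mul {M : Type*} [CommGroup M] (v a1 a2 b1 b2 c1 c2 d1 d2 : M)
    (h1 : v * a1 * a2 = 1) (h2 : v * b1 * b2 = 1) (h3 : v * c1 * c2 = 1) (h4 : v * d1 * d2 = 1)
    (h5 : b1 * c1 * d2 = 1) (h6 : b2 * d1 * c2 = 1) : v ^ 3 = 1 :=
  nine_add (M := Additive M) (Additive.ofMul v) (Additive.ofMul a1) (Additive.ofMul a2)
    (Additive.ofMul b1) (Additive.ofMul b2) (Additive.ofMul c1) (Additive.ofMul c2)
    (Additive.ofMul d1) (Additive.ofMul d2) h1 h2 h3 h4 h5 h6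

theorem nine_sub (N : Subgroup G) (hN : ∀ u ∈ N, ∀ w ∈ N, u * w = w * u)
    (v a1 a2 b1 b2 c1 c2 d1 d2 : G) (mv : v ∈ N) (ma1 : a1 ∈ N) (ma2 : a2 ∈ N) (mb1 : b1 ∈ N)
    (mb2 : b2 ∈ N) (mc1 : c1 ∈ N) (mc2 : c2 ∈ N) (md1 : d1 ∈ N) (md2 : d2 ∈ N)
    (h1 : v * a1 * a2 = 1) (h2 : v * b1 * b2 = 1) (h3 : v * c1 * c2 = 1) (h4 : v * d1 * d2 = 1)
    (h5 : b1 * c1 * d2 = 1) (h6 : b2 * d1 * c2 = 1) : v ^ 3 = 1 := by
  let _ : CommGroup ↥N :=
    { (inferInstance : Group ↥N) with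
      mul_comm := fun u w => Subtype.ext (hN u.1 u.2 w.1 w.2) }
  have h := nine_mul (M := ↥N) ⟨v, mv⟩ ⟨a1, ma1⟩ ⟨a2, ma2⟩ ⟨b1, mb1⟩ ⟨b2, mb2⟩ ⟨c1, mc1⟩
    ⟨c2, mc2⟩ ⟨d1, md1⟩ ⟨d2, md2⟩ (Subtype.ext h1) (Subtype.ext h2) (Subtype.ext h3)
    (Subtype.ext h4) (Subtype.ext h5) (Subtype.ext h6)
  exact congrArg Subtype.val h

theorem case2 (hord : ∀ g : G, g ^ 2 = 1 ∨ g ^ 3 = 1)
    (hnc : ¬ ∃ a a' : G, a ^ 2 = 1 ∧ a ≠ 1 ∧ a' ^ 2 = 1 ∧ a' ≠ 1 ∧ a ≠ a' ∧ Commute a a')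
    (z : G) (hz2 : z ^ 2 = 1) (hz1 : z ≠ 1) :
    ∃ N : Subgroup G, N.Normal ∧ Cfsg.IsElementaryAbelian 3 N ∧ N.index = 2 := by
  have hzinv : z⁻¹ = z := inv_eq_of_mul_eq_one_right (by rw [← sq, hz2])
  have hzz : z * z = 1 := by rw [← sq, hz2]
  have hnc' : ∀ a a' : G, a ^ 2 = 1 → a ≠ 1 → a' ^ 2 = 1 → a' ≠ 1 → Commute a a' → a = a' := by
    intro a a' h1 h2 h3 h4 h5
    by_contra hne
    exact hnc ⟨a, a', h1, h2, h3, h4, hne, h5⟩
  have F1 : ∀ s t : G, s ^ 2 = 1 → s ≠ 1 → t ^ 2 = 1 → t ≠ 1 → (s * t) ^ 3 = 1 := by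
    intro s t hs hs1 ht ht1
    rcases hord (s * t) with h | h
    · have h' := hnc' s t hs hs1 ht ht1 (commute_of_sq hs ht h)
      rw [h', ← sq, ht, one_pow]
    · exact h
  have F2 : ∀ k : G, k ^ 3 = 1 → k ≠ 1 → (z * k) ^ 2 = 1 := by
    intro k hk hk1
    rcases hord (z * k) with h | h
    · exact h
    · exfalso
      have hz' : (k * z * k⁻¹) ^ 2 = 1 := by rw [conj_pow, hz2]; group
      have hz'1 : k * z * k⁻¹ ≠ 1 := by rw [Ne, conj_eq_one_iff]; exact hz1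
      have hz'' : (k⁻¹ * z * k) ^ 2 = 1 := by
        have e : k⁻¹ * z * k = k⁻¹ * z * k⁻¹⁻¹ := by rw [inv_inv]
        rw [e, conj_pow, hz2]; group
      have hne : z ≠ k * z * k⁻¹ := by
        intro heq
        apply not_commute_of_orders hord hz2 hz1 hk hk1
        show z * k = k * z
        calc z * k = (k * z * k⁻¹) * k := by rw [← heq]
          _ = k * z := by group
      have hk2 : k⁻¹ * k⁻¹ = k := by
        have e : k * (k * k) = 1 := by
          rw [← hk]; simp only [pow_succ, pow_zero, one_mul, mul_assoc]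
        have e' := eq_inv_of_mul_eq_one_right e
        rw [← mul_inv_rev, e', inv_inv]
      have hprod : z * (k * z * k⁻¹) * (k⁻¹ * z * k) = 1 := by
        calc z * (k * z * k⁻¹) * (k⁻¹ * z * k) = z * k * z * (k⁻¹ * k⁻¹) * z * k := by group
          _ = z * k * z * k * z * k := by rw [hk2]
          _ = (z * k) ^ 3 := by simp only [pow_succ, pow_zero, one_mul, mul_assoc]
          _ = 1 := h
      have h'' : k⁻¹ * z * k = (z * (k * z * k⁻¹))⁻¹ := eq_inv_of_mul_eq_one_right hprod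
      have hsq : (z * (k * z * k⁻¹)) ^ 2 = 1 := by
        have e := hz''
        rw [h'', inv_pow, inv_eq_one] at e
        exact e
      exact hne (hnc' z _ hz2 hz1 hz' hz'1 (commute_of_sq hz2 hz' hsq))
  have F3 : ∀ k : G, k ^ 3 = 1 → z * k * z⁻¹ = k⁻¹ := by
    intro k hk
    by_cases hk1 : k = 1
    · subst hk1; simp
    · have h := F2 k hk hk1
      rw [hzinv]
      have h' : z * k * z * k = 1 := by
        rw [sq] at h; rw [← h]; group
      exact eq_inv_of_mul_eq_one_left h'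
  have hmul : ∀ k1 k2 : G, k1 ^ 3 = 1 → k2 ^ 3 = 1 → (k1 * k2) ^ 3 = 1 := by
    intro k1 k2 h1 h2
    by_cases h1' : k1 = 1
    · subst h1'; simpa using h2
    by_cases h2' : k2 = 1
    · subst h2'; simpa using h1
    have hs1 := F2 k1 h1 h1'
    have hs2 := F2 k2 h2 h2'
    have hs11 : z * k1 ≠ 1 := by
      intro hh
      have e : k1 = z := by rw [← hzinv]; exact eq_inv_of_mul_eq_one_right hh
      rw [e] at h1; exact hz1 (eq_one_of_sq_cube hz2 h1)
    have hs21 : z * k2 ≠ 1 := by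
      intro hh
      have e : k2 = z := by rw [← hzinv]; exact eq_inv_of_mul_eq_one_right hh
      rw [e] at h2; exact hz1 (eq_one_of_sq_cube hz2 h2)
    have e : k1 * k2 = (z * (z * k1) * z⁻¹) * (z * k2) := by
      calc k1 * k2 = (z * z) * k1 * k2 := by rw [hzz, one_mul]
        _ = (z * (z * k1) * z⁻¹) * (z * k2) := by group
    have hconj : (z * (z * k1) * z⁻¹) ^ 2 = 1 := by rw [conj_pow, hs1]; group
    have hconj1 : z * (z * k1) * z⁻¹ ≠ 1 := by rw [Ne, conj_eq_one_iff]; exact hs11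
    rw [e]; exact F1 _ _ hconj hconj1 hs2 hs21
  let K : Subgroup G :=
    { carrier := {k | k ^ 3 = 1}
      mul_mem' := fun {k1 k2} h1 h2 => hmul k1 k2 h1 h2
      one_mem' := one_pow 3
      inv_mem' := fun {k} hk => by
        show (k⁻¹) ^ 3 = 1
        rw [inv_pow, (hk : k ^ 3 = 1), inv_one] }
  have hKmem : ∀ k, k ∈ K ↔ k ^ 3 = 1 := fun k => Iff.rfl
  refine ⟨K, ⟨fun k hk g => ?_⟩, ⟨⟨⟨fun u w => Subtype.ext ?_⟩⟩, fun u hu => hu⟩, ?_⟩
  · rw [hKmem] at hk ⊢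
    rw [conj_pow, hk]; group
  · have hu : (u : G) ^ 3 = 1 := u.2
    have hw : (w : G) ^ 3 = 1 := w.2
    have e1 := F3 ((u : G) * w) (hmul _ _ hu hw)
    have e2 := F3 (u : G) hu
    have e3 := F3 (w : G) hw
    have e : ((u : G) * w)⁻¹ = (u : G)⁻¹ * (w : G)⁻¹ := by
      rw [← e1, ← e2, ← e3]; group
    show (u : G) * w = w * u
    rw [← inv_inv ((u : G) * w), e, mul_inv_rev, inv_inv, inv_inv]
  · rw [Subgroup.index_eq_two_iff]
    refine ⟨z, fun b => ?_⟩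
    by_cases hb : b ∈ K
    · refine Or.inr ⟨hb, ?_⟩
      rw [hKmem] at hb ⊢
      intro hbz
      by_cases hb1 : b = 1
      · subst hb1
        rw [one_mul] at hbz
        exact hz1 (eq_one_of_sq_cube hz2 hbz)
      · have h2 := F2 b hb hb1
        have h2' : (b * z) ^ 2 = 1 := by
          have e : b * z = z⁻¹ * (z * b) * z⁻¹⁻¹ := by group
          rw [e, conj_pow, h2]; group
        have e1 : b * z = 1 := eq_one_of_sq_cube h2' hbz
        have e2 : b = z := by rw [← hzinv]; exact eq_inv_of_mul_eq_one_left e1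
        rw [e2] at hb
        exact hz1 (eq_one_of_sq_cube hz2 hb)
    · refine Or.inl ⟨?_, hb⟩
      rw [hKmem] at hb ⊢
      have hb2 : b ^ 2 = 1 := (hord b).resolve_right hb
      have hb1 : b ≠ 1 := by rintro rfl; exact hb (one_pow 3)
      exact F1 b z hb2 hb1 hz2 hz1

theorem case1 [Finite G] (hord : ∀ g : G, g ^ 2 = 1 ∨ g ^ 3 = 1)
    (hc : ∃ a a' : G, a ^ 2 = 1 ∧ a ≠ 1 ∧ a' ^ 2 = 1 ∧ a' ≠ 1 ∧ a ≠ a' ∧ Commute a a')
    (x0 : G) (hx2 : x0 ^ 2 ≠ 1) :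
    ∃ N : Subgroup G, N.Normal ∧ Cfsg.IsElementaryAbelian 2 N ∧ N.index = 3 := by
  obtain ⟨a, a', ha, ha1, ha', ha'1, hne, hcomm⟩ := hc
  have C2 : ∀ b b' : G, b ^ 2 = 1 → b' ^ 2 = 1 → Commute b b' := by
    intro b b' hb hb'
    have h1 : Commute b a := commute_klein hord ha ha1 ha' ha'1 hne hcomm hb
    by_cases hb1 : b = 1
    · subst hb1; exact Commute.one_left _
    by_cases hba : b = a
    · subst hba; exact (commute_klein hord hb hb1 ha' ha'1 hne hcomm hb').symm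
    · exact (commute_klein hord hb hb1 ha ha1 hba h1 hb').symm
  let N : Subgroup G :=
    { carrier := {x | x ^ 2 = 1}
      mul_mem' := fun {u w} hu hw => by
        show (u * w) ^ 2 = 1
        rw [(C2 u w hu hw).mul_pow, (hu : u ^ 2 = 1), (hw : w ^ 2 = 1), one_mul]
      one_mem' := one_pow 2
      inv_mem' := fun {k} hk => by
        show (k⁻¹) ^ 2 = 1
        rw [inv_pow, (hk : k ^ 2 = 1), inv_one] }
  have hNmem : ∀ k, k ∈ N ↔ k ^ 2 = 1 := fun k => Iff.rfl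
  have hNn : N.Normal := ⟨fun k hk g => by
    rw [hNmem] at hk ⊢
    rw [conj_pow, hk]; group⟩
  refine ⟨N, hNn, ⟨⟨⟨fun u w => Subtype.ext (C2 u.1 w.1 u.2 w.2).eq⟩⟩, fun u hu => hu⟩, ?_⟩
  have hcube : ∀ g : G, g ∉ N → g ^ 3 = 1 := fun g hg => (hord g).resolve_left hg
  have hT : ∀ w ∈ N, ∀ g ∉ N, w * (g * w * g⁻¹) * (g⁻¹ * w * g) = 1 := by
    intro w hw g hg
    have hwg : w * g ∉ N := fun h => hg (by
      have := N.mul_mem (N.inv_mem hw) h
      simpa using this)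
    have h3 := hcube (w * g) hwg
    have hg3 := hcube g hg
    calc w * (g * w * g⁻¹) * (g⁻¹ * w * g) = (w * g) * (w * g) * (g ^ 3)⁻¹ * (w * g) := by group
      _ = (w * g) ^ 3 := by
          rw [hg3, inv_one, mul_one]; simp only [pow_succ, pow_zero, one_mul, mul_assoc]
      _ = 1 := h3
  have : Fact (Nat.Prime 3) := ⟨by norm_num⟩
  have hP : IsPGroup 3 (G ⧸ N) := by
    intro gbar
    obtain ⟨g, rfl⟩ := QuotientGroup.mk_surjective gbar
    refine ⟨1, ?_⟩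
    rw [pow_one]
    rcases hord g with h | h
    · have e : (g : G ⧸ N) = 1 := (QuotientGroup.eq_one_iff g).2 h
      rw [e, one_pow]
    · rw [← QuotientGroup.mk_pow, h]; rfl
  have hnt : Nontrivial (G ⧸ N) :=
    ⟨⟨(x0 : G ⧸ N), 1, fun h => hx2 ((QuotientGroup.eq_one_iff x0).1 h)⟩⟩
  have hcn := hP.center_nontrivial
  obtain ⟨xbar, hxc, hx1⟩ := (Subgroup.nontrivial_iff_exists_ne_one _).1 hcn
  obtain ⟨x, rfl⟩ := QuotientGroup.mk_surjective xbar
  have hxN : x ∉ N := fun h => hx1 ((QuotientGroup.eq_one_iff x).2 h)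
  have hx3 : x ^ 3 = 1 := hcube x hxN
  have hox : orderOf (x : G ⧸ N) = 3 :=
    orderOf_eq_prime (by rw [← QuotientGroup.mk_pow, hx3]; rfl) hx1
  rw [Subgroup.index_eq_card]
  by_cases htop : Subgroup.zpowers (x : G ⧸ N) = ⊤
  · rw [← Nat.card_zpowers] at hox; rw [← hox, htop, Subgroup.card_top]
  exfalso
  obtain ⟨ybar, hy⟩ : ∃ ybar : G ⧸ N, ybar ∉ Subgroup.zpowers (x : G ⧸ N) := by
    by_contra hh
    exact htop (eq_top_iff.2 fun y _ => by_contra fun hy => hh ⟨y, hy⟩)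
  obtain ⟨y, rfl⟩ := QuotientGroup.mk_surjective ybar
  have hyN : y ∉ N := fun h => hy (by
    rw [(QuotientGroup.eq_one_iff y).2 h]; exact one_mem _)
  have hxyN : x * y ∉ N := by
    intro h
    apply hy
    have e : (x : G ⧸ N) * (y : G ⧸ N) = 1 := by
      rw [← QuotientGroup.mk_mul]; exact (QuotientGroup.eq_one_iff _).2 h
    have e' : (y : G ⧸ N) = (x : G ⧸ N)⁻¹ := eq_inv_of_mul_eq_one_right e
    rw [e']; exact Subgroup.inv_mem _ (Subgroup.mem_zpowers _)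
  have hxy'N : x * y⁻¹ ∉ N := by
    intro h
    apply hy
    have e : (x : G ⧸ N) * (y : G ⧸ N)⁻¹ = 1 := by
      rw [← QuotientGroup.mk_inv, ← QuotientGroup.mk_mul]; exact (QuotientGroup.eq_one_iff _).2 h
    have e' : (y : G ⧸ N) = (x : G ⧸ N) := by
      have e'' := eq_inv_of_mul_eq_one_left e
      rw [inv_inv] at e''; exact e''.symm
    rw [e']; exact Subgroup.mem_zpowers _
  have hconj : ∀ g g' : G, (g : G ⧸ N) = (g' : G ⧸ N) → ∀ v ∈ N,
      g * v * g⁻¹ = g' * v * g'⁻¹ := by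
    intro g g' hgg v hv
    have hn : g⁻¹ * g' ∈ N := QuotientGroup.eq.1 hgg
    have hc := (C2 _ _ hn hv).eq
    calc g * v * g⁻¹ = g * (v * (g⁻¹ * g')) * g'⁻¹ := by group
      _ = g * ((g⁻¹ * g') * v) * g'⁻¹ := by rw [hc]
      _ = g' * v * g'⁻¹ := by group
  have hcen := Subgroup.mem_center_iff.1 hxc
  have haN : a ∈ N := ha
  have hconjmem : ∀ g : G, g * a * g⁻¹ ∈ N := fun g => hNn.conj_mem a haN g
  have hconjmem' : ∀ g : G, g⁻¹ * a * g ∈ N := fun g => by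
    have := hNn.conj_mem a haN g⁻¹
    rwa [inv_inv] at this
  -- lines
  have l1 := hT a haN x hxN
  have l2 := hT a haN y hyN
  have l3 := hT a haN (x * y) hxyN
  have l4 := hT a haN (x * y⁻¹) hxy'N
  -- rows
  have r2 := hT (y * a * y⁻¹) (hconjmem y) x hxN
  have r3 := hT (y⁻¹ * a * y) (hconjmem' y) x hxN
  have e21 : x * (y * a * y⁻¹) * x⁻¹ = (x * y) * a * (x * y)⁻¹ := by group
  have e22 : x⁻¹ * (y * a * y⁻¹) * x = (x * y⁻¹)⁻¹ * a * (x * y⁻¹) := by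
    have h1 : ((x⁻¹ * y : G) : G ⧸ N) = ((y * x⁻¹ : G) : G ⧸ N) := by
      rw [QuotientGroup.mk_mul, QuotientGroup.mk_mul, QuotientGroup.mk_inv]
      have := hcen (y : G ⧸ N)
      -- y * x = x * y  ⇒ x⁻¹ * y = y * x⁻¹
      calc (x : G ⧸ N)⁻¹ * (y : G ⧸ N) = (x : G ⧸ N)⁻¹ * ((y : G ⧸ N) * (x : G ⧸ N)) * (x : G ⧸ N)⁻¹ := by group
        _ = (x : G ⧸ N)⁻¹ * ((x : G ⧸ N) * (y : G ⧸ N)) * (x : G ⧸ N)⁻¹ := by rw [this]
        _ = (y : G ⧸ N) * (x : G ⧸ N)⁻¹ := by group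
    have h2 := hconj _ _ h1 a haN
    calc x⁻¹ * (y * a * y⁻¹) * x = (x⁻¹ * y) * a * (x⁻¹ * y)⁻¹ := by group
      _ = (y * x⁻¹) * a * (y * x⁻¹)⁻¹ := h2
      _ = (x * y⁻¹)⁻¹ * a * (x * y⁻¹) := by group
  have e31 : x * (y⁻¹ * a * y) * x⁻¹ = (x * y⁻¹) * a * (x * y⁻¹)⁻¹ := by group
  have e32 : x⁻¹ * (y⁻¹ * a * y) * x = (x * y)⁻¹ * a * (x * y) := by
    have h1 : ((x⁻¹ * y⁻¹ : G) : G ⧸ N) = ((y⁻¹ * x⁻¹ : G) : G ⧸ N) := by
      rw [QuotientGroup.mk_mul, QuotientGroup.mk_mul, QuotientGroup.mk_inv, QuotientGroup.mk_inv]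
      have := hcen (y : G ⧸ N)
      calc (x : G ⧸ N)⁻¹ * (y : G ⧸ N)⁻¹ = ((y : G ⧸ N) * (x : G ⧸ N))⁻¹ := by group
        _ = ((x : G ⧸ N) * (y : G ⧸ N))⁻¹ := by rw [this]
        _ = (y : G ⧸ N)⁻¹ * (x : G ⧸ N)⁻¹ := by group
    have h2 := hconj _ _ h1 a haN
    calc x⁻¹ * (y⁻¹ * a * y) * x = (x⁻¹ * y⁻¹) * a * (x⁻¹ * y⁻¹)⁻¹ := by group
      _ = (y⁻¹ * x⁻¹) * a * (y⁻¹ * x⁻¹)⁻¹ := h2
      _ = (x * y)⁻¹ * a * (x * y) := by group
  rw [e21, e22] at r2
  rw [e31, e32] at r3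
  have h9 := nine_sub N (fun u hu w hw => (C2 u w hu hw).eq) a
    (x * a * x⁻¹) (x⁻¹ * a * x) (y * a * y⁻¹) (y⁻¹ * a * y)
    ((x * y) * a * (x * y)⁻¹) ((x * y)⁻¹ * a * (x * y))
    ((x * y⁻¹) * a * (x * y⁻¹)⁻¹) ((x * y⁻¹)⁻¹ * a * (x * y⁻¹))
    haN (hconjmem x) (hconjmem' x) (hconjmem y) (hconjmem' y) (hconjmem _) (hconjmem' _)
    (hconjmem _) (hconjmem' _) l1 l2 l3 l4 r2 r3
  exact ha1 (eq_one_of_sq_cube ha h9)

end lemmas

/-- A finite group whose set of element orders is exactly {1, 2, 3} has either a normal elementary abelian 3-subgroup of index 2 or a normal elementary abelian 2-subgroup of index 3. -/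
theorem result {G : Type*} [Group G] [Finite G] (h : Set.range (orderOf : G → ℕ) = {k : ℕ | 1 ≤ k ∧ k ≤ 3}) :
    (∃ N : Subgroup G, N.Normal ∧ Cfsg.IsElementaryAbelian 3 N ∧ N.index = 2) ∨
      (∃ N : Subgroup G, N.Normal ∧ Cfsg.IsElementaryAbelian 2 N ∧ N.index = 3) := by
  have hord : ∀ g : G, g ^ 2 = 1 ∨ g ^ 3 = 1 := by
    intro g
    have hg : orderOf g ∈ {k : ℕ | 1 ≤ k ∧ k ≤ 3} := h ▸ Set.mem_range_self g
    obtain ⟨h1, h3⟩ := hg
    have h' : orderOf g = 1 ∨ orderOf g = 2 ∨ orderOf g = 3 := by omega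
    rcases h' with h' | h' | h'
    · left; rw [orderOf_eq_one_iff.1 h', one_pow]
    · left; rw [← h']; exact pow_orderOf_eq_one g
    · right; rw [← h']; exact pow_orderOf_eq_one g
  obtain ⟨z, hz⟩ : ∃ z : G, orderOf z = 2 := by
    have h2 : (2 : ℕ) ∈ Set.range (orderOf : G → ℕ) := by
      rw [h]; exact ⟨by norm_num, by norm_num⟩
    exact h2
  obtain ⟨x0, hx0⟩ : ∃ x : G, orderOf x = 3 := by
    have h3 : (3 : ℕ) ∈ Set.range (orderOf : G → ℕ) := by
      rw [h]; exact ⟨by norm_num, by norm_num⟩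
    exact h3
  have hz2 : z ^ 2 = 1 := hz ▸ pow_orderOf_eq_one z
  have hz1 : z ≠ 1 := by
    intro h'; rw [h', orderOf_one] at hz; omega
  have hx2 : x0 ^ 2 ≠ 1 := by
    intro h'
    have := orderOf_dvd_of_pow_eq_one h'
    rw [hx0] at this
    omega
  by_cases hcase : ∃ a a' : G, a ^ 2 = 1 ∧ a ≠ 1 ∧ a' ^ 2 = 1 ∧ a' ≠ 1 ∧ a ≠ a' ∧ Commute a a'
  · right
    exact case1 hord hcase x0 hx2
  · left
    exact case2 hord hcase z hz2 hz1

end Cfsg.Agent.S4005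

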