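import Cfsg.Statements.S4006
import Cfsg.Agent.H63.OrdFour

set_option autoImplicit false
open Cfsg

namespace Cfsg.Agent.S4006

/-- A finite group whose set of element orders is exactly {1, 2, 3, 4} has a normal subgroup N such that either N is a 2-group of exponent 4 and nilpotency class at most 2 with G/N of order 3, or N is an elementary abelian 2-group with G/N isomorphic to the symmetric group of degree 3, or N is an elementary abelian 3-group with G/N cyclic of order 4 or quaternion of order 8. -/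
theorem result {G : Type*} [Group G] [Finite G] (h : Set.range (orderOf : G → ℕ) = {k : ℕ | 1 ≤ k ∧ k ≤ 4}) :
    ∃ (N : Subgroup G) (_ : N.Normal),
      (IsPGroup 2 ↥N ∧ Monoid.exponent ↥N = 4 ∧ Group.nilpotencyClass ↥N ≤ 2 ∧ N.index = 3) ∨
      (Cfsg.IsElementaryAbelian 2 N ∧ Nonempty (G ⧸ N ≃* Equiv.Perm (Fin 3))) ∨
      (Cfsg.IsElementaryAbelian 3 N ∧ ((IsCyclic (G ⧸ N) ∧ N.index = 4) ∨ Nonempty (G ⧸ N ≃* QuaternionGroup 2))) := by
  classical
  have hord : Cfsg.Agent.H63.OrdFour.Ord4 G := fun g => by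
    have hm : orderOf g ∈ Set.range (orderOf : G → ℕ) := ⟨g, rfl⟩
    rw [h] at hm
    exact hm
  obtain ⟨g3, hg3⟩ : ∃ g : G, orderOf g = 3 := by
    have hm : (3 : ℕ) ∈ {k : ℕ | 1 ≤ k ∧ k ≤ 4} := ⟨by norm_num, by norm_num⟩
    rw [← h] at hm
    exact hm
  obtain ⟨g4, hg4⟩ : ∃ g : G, orderOf g = 4 := by
    have hm : (4 : ℕ) ∈ {k : ℕ | 1 ≤ k ∧ k ≤ 4} := ⟨by norm_num, by norm_num⟩
    rw [← h] at hm
    exact hm
  by_cases hB : Cfsg.pCore 3 G = ⊥
  · obtain ⟨N, hN, hcase⟩ := Cfsg.Agent.H63.OrdFour.case_two hord hB g3 g4 hg3 hg4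
    exact ⟨N, hN, hcase.elim Or.inl (fun h2 => Or.inr (Or.inl h2))⟩
  · obtain ⟨N, hN, hcase⟩ := Cfsg.Agent.H63.OrdFour.case_three hord hB g4 hg4
    exact ⟨N, hN, Or.inr (Or.inr hcase)⟩

end Cfsg.Agent.S4006
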