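import Cfsg.Statements.S4198
import Mathlib.GroupTheory.Perm.Cycle.PossibleTypes
import Mathlib.GroupTheory.SpecificGroups.Alternating.Centralizer

set_option autoImplicit false
set_option linter.style.haveILetI false
open Cfsg

namespace Cfsg.Agent.S4198

open Multiset in
/-- a chosen element of a multiset (0 if empty) -/
noncomputable def pick (s : Multiset ℕ) : ℕ :=
  if h : s = 0 then 0 else (Multiset.exists_mem_of_ne_zero h).choose

theorem pick_mem {s : Multiset ℕ} (h : s ≠ 0) : pick s ∈ s := by
  unfold pick
  rw [dif_neg h]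
  exact (Multiset.exists_mem_of_ne_zero h).choose_spec

open Classical in
/-- remove a `1`, or trade a chosen part `a` for `a - 2` ones -/
noncomputable def pm (s : Multiset ℕ) : Multiset ℕ ⊕ Multiset ℕ :=
  if 1 ∈ s then Sum.inl (s.erase 1)
  else Sum.inr (s.erase (pick s) + Multiset.replicate (pick s - 2) 1)

/-- left inverse of `pm` -/
def rinv : Multiset ℕ ⊕ Multiset ℕ → Multiset ℕ
  | Sum.inl t => 1 ::ₘ t
  | Sum.inr t => (t.count 1 + 2) ::ₘ t.filter (· ≠ 1)

theorem rinv_pm {s : Multiset ℕ} (hpos : ∀ i ∈ s, 0 < i) (h0 : s ≠ 0) : rinv (pm s) = s := by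
  classical
  unfold pm
  by_cases h1 : 1 ∈ s
  · rw [if_pos h1]
    exact Multiset.cons_erase h1
  · rw [if_neg h1]
    have ha : pick s ∈ s := pick_mem h0
    have ha2 : 2 ≤ pick s := by
      have := hpos _ ha
      by_contra hlt
      have h : pick s = 1 := by omega
      exact h1 (h ▸ ha)
    have h1' : 1 ∉ s.erase (pick s) := fun h => h1 (Multiset.mem_of_mem_erase h)
    show (Multiset.count 1 (s.erase (pick s) + Multiset.replicate (pick s - 2) 1) + 2) ::ₘ
      Multiset.filter (· ≠ 1) (s.erase (pick s) + Multiset.replicate (pick s - 2) 1) = s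
    have hc : Multiset.count 1 (s.erase (pick s) + Multiset.replicate (pick s - 2) 1) + 2 = pick s := by
      rw [Multiset.count_add, Multiset.count_eq_zero_of_notMem h1', Multiset.count_replicate_self]
      omega
    have hf : Multiset.filter (· ≠ 1) (s.erase (pick s) + Multiset.replicate (pick s - 2) 1) =
        s.erase (pick s) := by
      rw [Multiset.filter_add]
      have h2 : Multiset.filter (· ≠ 1) (Multiset.replicate (pick s - 2) 1) = 0 := by
        rw [Multiset.filter_eq_nil]
        intro a ha'
        rw [Multiset.eq_of_mem_replicate ha']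
        simp
      have h3 : Multiset.filter (· ≠ 1) (s.erase (pick s)) = s.erase (pick s) := by
        rw [Multiset.filter_eq_self]
        intro a ha' h
        exact h1' (h ▸ ha')
      rw [h2, h3, add_zero]
    rw [hc, hf]
    exact Multiset.cons_erase ha

theorem card_partition_step (n : ℕ) :
    Fintype.card (Nat.Partition (n + 2)) ≤
      Fintype.card (Nat.Partition (n + 1)) + Fintype.card (Nat.Partition n) := by
  classical
  have hinj : ∀ k : ℕ, Function.Injective (fun l : Nat.Partition k => l.parts) :=
    fun k a b h => Nat.Partition.ext h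
  have hF₁ : ((Finset.univ : Finset (Nat.Partition (n + 1))).image (fun l => l.parts)).card =
      Fintype.card (Nat.Partition (n + 1)) := by
    rw [Finset.card_image_of_injective _ (hinj _), Finset.card_univ]
  have hF₂ : ((Finset.univ : Finset (Nat.Partition n)).image (fun l => l.parts)).card =
      Fintype.card (Nat.Partition n) := by
    rw [Finset.card_image_of_injective _ (hinj _), Finset.card_univ]
  rw [← hF₁, ← hF₂, ← Finset.card_disjSum, ← Finset.card_univ]
  apply Finset.card_le_card_of_injOn (fun l : Nat.Partition (n + 2) => pm l.parts)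
  · intro l _
    have hsum := l.parts_sum
    by_cases h1 : 1 ∈ l.parts
    · have hpm : pm l.parts = Sum.inl (l.parts.erase 1) := by unfold pm; rw [if_pos h1]
      show pm l.parts ∈ _
      rw [hpm]
      apply Finset.mem_coe.mpr
      rw [Finset.inl_mem_disjSum, Finset.mem_image]
      refine ⟨⟨l.parts.erase 1, fun {i} hi => l.parts_pos (Multiset.mem_of_mem_erase hi), ?_⟩,
        Finset.mem_univ _, rfl⟩
      have := Multiset.sum_erase h1
      omega
    · have h0 : l.parts ≠ 0 := by
        intro h0; rw [h0] at hsum; simp at hsum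
      have ha : pick l.parts ∈ l.parts := pick_mem h0
      have ha2 : 2 ≤ pick l.parts := by
        have := l.parts_pos ha
        by_contra hlt
        have h : pick l.parts = 1 := by omega
        exact h1 (h ▸ ha)
      have hpm : pm l.parts = Sum.inr (l.parts.erase (pick l.parts) +
          Multiset.replicate (pick l.parts - 2) 1) := by unfold pm; rw [if_neg h1]
      show pm l.parts ∈ _
      rw [hpm]
      apply Finset.mem_coe.mpr
      rw [Finset.inr_mem_disjSum, Finset.mem_image]
      refine ⟨⟨l.parts.erase (pick l.parts) + Multiset.replicate (pick l.parts - 2) 1, ?_, ?_⟩,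
        Finset.mem_univ _, rfl⟩
      · intro i hi
        rcases Multiset.mem_add.mp hi with h | h
        · exact l.parts_pos (Multiset.mem_of_mem_erase h)
        · rw [Multiset.eq_of_mem_replicate h]; exact Nat.one_pos
      · have := Multiset.sum_erase ha
        rw [Multiset.sum_add, Multiset.sum_replicate, smul_eq_mul, mul_one]
        omega
  · intro l _ l' _ h
    have h' : pm l.parts = pm l'.parts := h
    have hl0 : ∀ l : Nat.Partition (n + 2), l.parts ≠ 0 := by
      intro l h0
      have := l.parts_sum; rw [h0] at this; simp at this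
    have e1 := rinv_pm (fun i hi => l.parts_pos hi) (hl0 l)
    have e2 := rinv_pm (fun i hi => l'.parts_pos hi) (hl0 l')
    apply Nat.Partition.ext
    rw [← e1, ← e2, h']

/-- shifted Fibonacci numbers -/
def fb : ℕ → ℕ
  | 0 => 1
  | 1 => 1
  | (n + 2) => fb (n + 1) + fb n

theorem card_partition_le_fb : ∀ n : ℕ, Fintype.card (Nat.Partition n) ≤ fb n := by
  intro n
  induction n using Nat.strong_induction_on with
  | _ n ih =>
  rcases n with _ | _ | n
  · simp [fb]
  · simp [fb]
  · show Fintype.card (Nat.Partition (n + 2)) ≤ fb (n + 2)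
    have h1 := ih (n + 1) (by omega)
    have h2 := ih n (by omega)
    have h3 := card_partition_step n
    have h4 : fb (n + 2) = fb (n + 1) + fb n := rfl
    omega

theorem fb_le_two_pow : ∀ k : ℕ, fb (k + 5) ≤ 2 ^ (k + 3) ∧ fb (k + 6) ≤ 2 ^ (k + 4) := by
  intro k
  induction k with
  | zero => decide
  | succ k ih =>
    refine ⟨ih.2, ?_⟩
    have h4 : fb (k + 1 + 6) = fb (k + 6) + fb (k + 5) := rfl
    have h5 : 2 ^ (k + 1 + 4) = 2 * 2 ^ (k + 4) := by ring
    have h6 : 2 ^ (k + 4) = 2 * 2 ^ (k + 3) := by ring
    rw [h4, h5]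
    have := ih.1; have := ih.2
    omega

theorem card_partition_le (n : ℕ) (hn : 5 ≤ n) : Fintype.card (Nat.Partition n) ≤ 2 ^ (n - 2) := by
  obtain ⟨k, rfl⟩ : ∃ k, n = k + 5 := ⟨n - 5, by omega⟩
  have h1 := card_partition_le_fb (k + 5)
  have h2 := (fb_le_two_pow k).1
  have e : k + 5 - 2 = k + 3 := by omega
  rw [e]
  exact le_trans h1 h2


open Equiv

theorem card_conjClasses_perm_le (n : ℕ) :
    Nat.card (ConjClasses (Perm (Fin n))) ≤ Fintype.card (Nat.Partition (Fintype.card (Fin n))) := by
  classical
  rw [← Nat.card_eq_fintype_card]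
  apply Nat.card_le_card_of_injective
    (Quotient.lift (fun σ : Perm (Fin n) => σ.partition)
      (fun a b h => Equiv.Perm.partition_eq_of_isConj.mp h))
  intro C D
  induction C using Quotient.inductionOn with
  | _ a =>
  induction D using Quotient.inductionOn with
  | _ b =>
  intro h
  exact Quotient.sound (Equiv.Perm.partition_eq_of_isConj.mpr h)

/-- the set of cycle types of permutations of `Fin n` -/
def types (n : ℕ) : Finset (Multiset ℕ) :=
  (Finset.univ : Finset (Perm (Fin n))).image (fun σ => σ.cycleType)

theorem mem_types {n : ℕ} {m : Multiset ℕ} : m ∈ types n ↔ (m.sum ≤ n ∧ ∀ a ∈ m, 2 ≤ a) := by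
  unfold types
  rw [Finset.mem_image]
  constructor
  · rintro ⟨σ, -, rfl⟩
    exact ⟨by simpa using σ.sum_cycleType_le, fun a ha => Equiv.Perm.two_le_of_mem_cycleType ha⟩
  · intro h
    obtain ⟨σ, hσ⟩ := (Equiv.Perm.exists_with_cycleType_iff (Fin n)).mpr (by simpa using h)
    exact ⟨σ, Finset.mem_univ _, hσ⟩

theorem card_types_le (n : ℕ) : (types n).card ≤ Nat.card (ConjClasses (Perm (Fin n))) := by
  classical
  have h : ∀ m : types n, ∃ σ : Perm (Fin n), σ.cycleType = m.1 := by
    intro m
    obtain ⟨σ, -, hσ⟩ := Finset.mem_image.mp m.2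
    exact ⟨σ, hσ⟩
  choose f hf using h
  have := Nat.card_le_card_of_injective (fun m : types n => ConjClasses.mk (f m)) (by
    intro m₁ m₂ h12
    have h1 : IsConj (f m₁) (f m₂) := ConjClasses.mk_eq_mk_iff_isConj.mp h12
    have h2 := Equiv.Perm.isConj_iff_cycleType_eq.mp h1
    rw [hf, hf] at h2
    exact Subtype.ext h2)
  simpa using this

/-- the replacement map on split types -/
noncomputable def gmap (m : Multiset ℕ) : Multiset ℕ := m.erase (pick m) + {pick m - 1}

/-- its left inverse -/
def ginv (μ : Multiset ℕ) : Multiset ℕ :=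
  μ.filter (fun x => ¬ Even x) + (μ.filter (fun x => Even x)).map (· + 1)

theorem ginv_gmap {m : Multiset ℕ} (hodd : ∀ c ∈ m, Odd c) (h0 : m ≠ 0) : ginv (gmap m) = m := by
  have hL : pick m ∈ m := pick_mem h0
  have hLo : Odd (pick m) := hodd _ hL
  have hLe : Even (pick m - 1) := by
    obtain ⟨k, hk⟩ := hLo
    exact ⟨k, by omega⟩
  have hpos : 1 ≤ pick m := hLo.pos
  unfold ginv gmap
  rw [Multiset.filter_add, Multiset.filter_add]
  have h1 : Multiset.filter (fun x => ¬ Even x) (m.erase (pick m)) = m.erase (pick m) := by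
    rw [Multiset.filter_eq_self]
    intro a ha
    exact Nat.not_even_iff_odd.mpr (hodd a (Multiset.mem_of_mem_erase ha))
  have h2 : Multiset.filter (fun x => Even x) (m.erase (pick m)) = 0 := by
    rw [Multiset.filter_eq_nil]
    intro a ha
    exact Nat.not_even_iff_odd.mpr (hodd a (Multiset.mem_of_mem_erase ha))
  have h3 : Multiset.filter (fun x => ¬ Even x) ({pick m - 1} : Multiset ℕ) = 0 := by
    rw [Multiset.filter_eq_nil]
    intro a ha
    rw [Multiset.mem_singleton.mp ha]
    exact not_not.mpr hLe
  have h4 : Multiset.filter (fun x => Even x) ({pick m - 1} : Multiset ℕ) = {pick m - 1} := by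
    rw [Multiset.filter_eq_self]
    intro a ha
    rw [Multiset.mem_singleton.mp ha]
    exact hLe
  rw [h1, h2, h3, h4, add_zero, zero_add, Multiset.map_singleton]
  have h5 : pick m - 1 + 1 = pick m := by omega
  rw [h5, add_comm, Multiset.singleton_add]
  exact Multiset.cons_erase hL

theorem even_sum_add_card {m : Multiset ℕ} (hodd : ∀ c ∈ m, Odd c) :
    Even (m.sum + Multiset.card m) := by
  induction m using Multiset.induction_on with
  | empty => simp
  | cons a s ih =>
    have ha : Odd a := hodd a (Multiset.mem_cons_self a s)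
    have hs := ih (fun c hc => hodd c (Multiset.mem_cons_of_mem hc))
    rw [Multiset.sum_cons, Multiset.card_cons]
    have : a + s.sum + (Multiset.card s + 1) = (a + 1) + (s.sum + Multiset.card s) := by ring
    rw [this]
    exact (ha.add_one).add hs


theorem card_split_lt_card_odd (n : ℕ) (hn : 5 ≤ n) :
    ((types n).filter (fun m => (∀ c ∈ m, Odd c) ∧ n ≤ m.sum + 1 ∧ m.Nodup)).card <
      ((types n).filter (fun m => ¬ Even (m.sum + Multiset.card m))).card := by
  classical
  have h2 : ({2} : Multiset ℕ) ∈ (types n).filter (fun m => ¬ Even (m.sum + Multiset.card m)) := by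
    rw [Finset.mem_filter, mem_types]
    refine ⟨⟨by simp; omega, by simp⟩, by simp; decide⟩
  have hle : ((types n).filter (fun m => (∀ c ∈ m, Odd c) ∧ n ≤ m.sum + 1 ∧ m.Nodup)).card ≤
      (((types n).filter (fun m => ¬ Even (m.sum + Multiset.card m))).erase {2}).card := by
    apply Finset.card_le_card_of_injOn gmap
    · intro m hm
      have hm' := Finset.mem_coe.mp hm
      rw [Finset.mem_filter, mem_types] at hm'
      obtain ⟨⟨hsum, hge⟩, hodd, hfix, hnd⟩ := hm'
      have h0 : m ≠ 0 := by rintro rfl; simp at hfix; omega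
      have hL := pick_mem h0
      have hL3 : 3 ≤ pick m := by
        have h1 := hge _ hL
        obtain ⟨k, hk⟩ := hodd _ hL
        omega
      have hse := Multiset.sum_erase hL
      apply Finset.mem_coe.mpr
      rw [Finset.mem_erase, Finset.mem_filter, mem_types]
      have hsum' : (gmap m).sum = m.sum - 1 := by
        unfold gmap; rw [Multiset.sum_add, Multiset.sum_singleton]; omega
      have hcard' : Multiset.card (gmap m) = Multiset.card m := by
        unfold gmap; rw [Multiset.card_add, Multiset.card_singleton]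
        exact Multiset.card_erase_add_one hL
      refine ⟨?_, ⟨by rw [hsum']; omega, ?_⟩, ?_⟩
      · intro heq
        have hc : Multiset.card (gmap m) = 1 := by rw [heq]; simp
        rw [hcard'] at hc
        obtain ⟨a, rfl⟩ := Multiset.card_eq_one.mp hc
        have hs : (gmap {a}).sum = 2 := by rw [heq]; simp
        rw [hsum'] at hs
        simp at hs hfix
        omega
      · intro a ha
        unfold gmap at ha
        rcases Multiset.mem_add.mp ha with h | h
        · exact hge a (Multiset.mem_of_mem_erase h)
        · rw [Multiset.mem_singleton.mp h]; omega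
      · rw [hsum', hcard']
        have he := even_sum_add_card hodd
        intro hcon
        have hpos : 1 ≤ m.sum := by omega
        have e : m.sum - 1 + Multiset.card m + 1 = m.sum + Multiset.card m := by omega
        rw [← e] at he
        exact (Nat.even_add_one.mp he) hcon
    · intro m hm m' hm' h
      have hm1 := Finset.mem_coe.mp hm
      have hm1' := Finset.mem_coe.mp hm'
      rw [Finset.mem_filter] at hm1 hm1'
      have h0 : ∀ m : Multiset ℕ, n ≤ m.sum + 1 → m ≠ 0 := by
        rintro m hfix rfl; simp at hfix; omega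
      have e1 := ginv_gmap hm1.2.1 (h0 m hm1.2.2.1)
      have e2 := ginv_gmap hm1'.2.1 (h0 m' hm1'.2.2.1)
      rw [← e1, ← e2, h]
  have hpos : 0 < ((types n).filter (fun m => ¬ Even (m.sum + Multiset.card m))).card :=
    Finset.card_pos.mpr ⟨_, h2⟩
  rw [Finset.card_erase_of_mem h2] at hle
  omega

theorem conj_alt_of_sign_one {n : ℕ} (a b : alternatingGroup (Fin n)) (x : Perm (Fin n))
    (hx : Equiv.Perm.sign x = 1) (h : x * (a : Perm (Fin n)) * x⁻¹ = b) : IsConj a b := by
  rw [isConj_iff]
  exact ⟨⟨x, Equiv.Perm.mem_alternatingGroup.mpr hx⟩, Subtype.ext h⟩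

theorem three_types {n : ℕ} (a b r : alternatingGroup (Fin n))
    (hab : (a : Perm (Fin n)).cycleType = (r : Perm (Fin n)).cycleType)
    (hbr : (b : Perm (Fin n)).cycleType = (r : Perm (Fin n)).cycleType)
    (h1 : ¬ IsConj a r) (h2 : ¬ IsConj b r) : IsConj a b := by
  obtain ⟨x, hx⟩ := isConj_iff.mp (Equiv.Perm.isConj_iff_cycleType_eq.mpr hab)
  obtain ⟨y, hy⟩ := isConj_iff.mp (Equiv.Perm.isConj_iff_cycleType_eq.mpr hbr)
  have hsx : Equiv.Perm.sign x = -1 := by
    rcases Int.units_eq_one_or (Equiv.Perm.sign x) with h | h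
    · exact absurd (conj_alt_of_sign_one a r x h hx) h1
    · exact h
  have hsy : Equiv.Perm.sign y = -1 := by
    rcases Int.units_eq_one_or (Equiv.Perm.sign y) with h | h
    · exact absurd (conj_alt_of_sign_one b r y h hy) h2
    · exact h
  apply conj_alt_of_sign_one a b (y⁻¹ * x) (by simp [hsx, hsy])
  have e : (y⁻¹ * x) * (a : Perm (Fin n)) * (y⁻¹ * x)⁻¹ = y⁻¹ * (x * a * x⁻¹) * y := by group
  rw [e, hx, ← hy]; group

theorem cent_le_of_not_conj {n : ℕ} (a r : alternatingGroup (Fin n))
    (har : (a : Perm (Fin n)).cycleType = (r : Perm (Fin n)).cycleType) (h1 : ¬ IsConj a r) :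
    Subgroup.centralizer ({(a : Perm (Fin n))} : Set (Perm (Fin n))) ≤ alternatingGroup (Fin n) := by
  intro z hz
  rw [Equiv.Perm.mem_alternatingGroup]
  by_contra hsz
  have hsz' : Equiv.Perm.sign z = -1 := (Int.units_eq_one_or _).resolve_left hsz
  obtain ⟨x, hx⟩ := isConj_iff.mp (Equiv.Perm.isConj_iff_cycleType_eq.mpr har)
  have hza : z * (a : Perm (Fin n)) = a * z :=
    (Subgroup.mem_centralizer_iff.mp hz a (Set.mem_singleton _)).symm
  rcases Int.units_eq_one_or (Equiv.Perm.sign x) with h | h
  · exact h1 (conj_alt_of_sign_one a r x h hx)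
  · apply h1
    apply conj_alt_of_sign_one a r (x * z) (by simp [h, hsz'])
    have e : (x * z) * (a : Perm (Fin n)) * (x * z)⁻¹ = x * (z * a) * z⁻¹ * x⁻¹ := by group
    rw [e, hza, ← hx]; group

theorem card_conjClasses_alt_le (n : ℕ) :
    Nat.card (ConjClasses (alternatingGroup (Fin n))) ≤
      ((types n).filter (fun m => Even (m.sum + Multiset.card m))).card +
      ((types n).filter (fun m => (∀ c ∈ m, Odd c) ∧ n ≤ m.sum + 1 ∧ m.Nodup)).card := by
  classical
  let ctA : ConjClasses (alternatingGroup (Fin n)) → Multiset ℕ :=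
    Quotient.lift (fun a : alternatingGroup (Fin n) => (a : Perm (Fin n)).cycleType) (by
      intro a b h
      obtain ⟨c, hc⟩ := isConj_iff.mp h
      show (a : Perm (Fin n)).cycleType = (b : Perm (Fin n)).cycleType
      rw [← hc]
      show _ = ((c : Perm (Fin n)) * a * (c : Perm (Fin n))⁻¹).cycleType
      rw [Equiv.Perm.cycleType_conj])
  have hct : ∀ a, ctA (ConjClasses.mk a) = (a : Perm (Fin n)).cycleType := fun a => rfl
  let ref : Multiset ℕ → alternatingGroup (Fin n) := fun m =>
    if h : ∃ a : alternatingGroup (Fin n), (a : Perm (Fin n)).cycleType = m then h.choose else 1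
  have href : ∀ a : alternatingGroup (Fin n),
      ((ref (a : Perm (Fin n)).cycleType : alternatingGroup (Fin n)) : Perm (Fin n)).cycleType =
        (a : Perm (Fin n)).cycleType := by
    intro a
    have h : ∃ b : alternatingGroup (Fin n),
        (b : Perm (Fin n)).cycleType = (a : Perm (Fin n)).cycleType := ⟨a, rfl⟩
    show ((if h : ∃ b : alternatingGroup (Fin n),
        (b : Perm (Fin n)).cycleType = (a : Perm (Fin n)).cycleType then h.choose else 1 :
        alternatingGroup (Fin n)) : Perm (Fin n)).cycleType = _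
    rw [dif_pos h]; exact h.choose_spec
  have hR : ({C | C = ConjClasses.mk (ref (ctA C))} : Set (ConjClasses (alternatingGroup (Fin n)))).ncard ≤
      ((types n).filter (fun m => Even (m.sum + Multiset.card m))).card := by
    rw [← Set.ncard_coe_finset]
    apply Set.ncard_le_ncard_of_injOn ctA _ _ (Finset.finite_toSet _)
    · intro C hC
      obtain ⟨a, rfl⟩ := ConjClasses.mk_surjective C
      apply Finset.mem_coe.mpr
      rw [hct, Finset.mem_filter]
      refine ⟨Finset.mem_image.mpr ⟨a, Finset.mem_univ _, rfl⟩, ?_⟩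
      have hs : Equiv.Perm.sign (a : Perm (Fin n)) = 1 := Equiv.Perm.mem_alternatingGroup.mp a.2
      rw [Equiv.Perm.sign_of_cycleType] at hs
      exact (neg_one_pow_eq_one_iff_even (by decide)).mp hs
    · intro C hC D hD h
      have hC' : C = ConjClasses.mk (ref (ctA C)) := hC
      have hD' : D = ConjClasses.mk (ref (ctA D)) := hD
      calc C = ConjClasses.mk (ref (ctA C)) := hC'
        _ = ConjClasses.mk (ref (ctA D)) := by rw [h]
        _ = D := hD'.symm
  have hRc : ({C | C = ConjClasses.mk (ref (ctA C))} : Set (ConjClasses (alternatingGroup (Fin n))))ᶜ.ncard ≤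
      ((types n).filter (fun m => (∀ c ∈ m, Odd c) ∧ n ≤ m.sum + 1 ∧ m.Nodup)).card := by
    rw [← Set.ncard_coe_finset]
    apply Set.ncard_le_ncard_of_injOn ctA _ _ (Finset.finite_toSet _)
    · intro C hC
      obtain ⟨a, rfl⟩ := ConjClasses.mk_surjective C
      have ha : ¬ ConjClasses.mk a = ConjClasses.mk (ref (a : Perm (Fin n)).cycleType) := hC
      apply Finset.mem_coe.mpr
      rw [hct, Finset.mem_filter]
      refine ⟨Finset.mem_image.mpr ⟨a, Finset.mem_univ _, rfl⟩, ?_⟩
      have hcent := cent_le_of_not_conj a _ (href a).symm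
        (by rwa [ConjClasses.mk_eq_mk_iff_isConj] at ha)
      have h3 := Equiv.Perm.centralizer_le_alternating_iff.mp hcent
      exact ⟨h3.1, by simpa using h3.2.1, Multiset.nodup_iff_count_le_one.mpr h3.2.2⟩
    · intro C hC D hD h
      obtain ⟨a, rfl⟩ := ConjClasses.mk_surjective C
      obtain ⟨b, rfl⟩ := ConjClasses.mk_surjective D
      have ha : ¬ ConjClasses.mk a = ConjClasses.mk (ref (a : Perm (Fin n)).cycleType) := hC
      have hb : ¬ ConjClasses.mk b = ConjClasses.mk (ref (b : Perm (Fin n)).cycleType) := hD
      have h1 : (a : Perm (Fin n)).cycleType = (b : Perm (Fin n)).cycleType := h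
      rw [← h1] at hb
      rw [ConjClasses.mk_eq_mk_iff_isConj] at ha hb ⊢
      exact three_types a b _ (href a).symm (by rw [← h1]; exact (href a).symm) ha hb
  have hsum := Set.ncard_add_ncard_compl
    ({C | C = ConjClasses.mk (ref (ctA C))} : Set (ConjClasses (alternatingGroup (Fin n))))
  omega

/-- For n ≥ 5 the alternating group of degree n has strictly fewer conjugacy classes than the symmetric group of degree n, and the symmetric group of degree n (whose classes correspond to the partitions of n) has at most 2^(n−2) conjugacy classes. -/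
theorem result (n : ℕ) (hn : 5 ≤ n) : Nat.card (ConjClasses (alternatingGroup (Fin n))) < Nat.card (ConjClasses (Equiv.Perm (Fin n))) ∧ Nat.card (ConjClasses (Equiv.Perm (Fin n))) ≤ 2 ^ (n - 2) := by
  classical
  constructor
  · have h1 := card_conjClasses_alt_le n
    have h2 := card_split_lt_card_odd n hn
    have h3 := card_types_le n
    have h4 : ((types n).filter (fun m => Even (m.sum + Multiset.card m))).card +
        ((types n).filter (fun m => ¬ Even (m.sum + Multiset.card m))).card = (types n).card :=
      Finset.card_filter_add_card_filter_not _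
    omega
  · have h1 := card_conjClasses_perm_le n
    have h2 := card_partition_le (Fintype.card (Fin n)) (by simpa using hn)
    have h3 : 2 ^ (Fintype.card (Fin n) - 2) = 2 ^ (n - 2) := by rw [Fintype.card_fin]
    omega

end Cfsg.Agent.S4198
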