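import Cfsg.Statements.S4203
import Mathlib
import Cfsg.Agent.S0144

set_option autoImplicit false
open Cfsg

namespace Cfsg.Agent.S4203


universe u

/-- if `N_G(P) ≤ M` for a Sylow `p`-subgroup `P`, then `[G : M] ≡ 1 mod p` -/
theorem index_modEq_one {G : Type*} [Group G] [Finite G] {p : ℕ} [Fact p.Prime]
    (P : Sylow p G) (M : Subgroup G)
    (hM : Subgroup.normalizer ((P : Subgroup G) : Set G) ≤ M) : M.index ≡ 1 [MOD p] := by
  have hPM : (P : Subgroup G) ≤ M := Subgroup.le_normalizer.trans hM
  have h1 : Nat.card (Sylow p M) =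
      (Subgroup.normalizer ((P : Subgroup G) : Set G)).relIndex M := by
    rw [Sylow.card_eq_index_normalizer (P.subtype hPM)]
    show (Subgroup.normalizer (((P : Subgroup G).subgroupOf M : Subgroup M) : Set M)).index = _
    rw [← Subgroup.subgroupOf_normalizer_eq hPM]
    rfl
  have h2 : Nat.card (Sylow p G) = (Subgroup.normalizer ((P : Subgroup G) : Set G)).index :=
    Sylow.card_eq_index_normalizer P
  have h3 := Subgroup.relIndex_mul_index hM
  have h4 : Nat.card (Sylow p G) ≡ 1 [MOD p] := card_sylow_modEq_one p G
  have h5 : Nat.card (Sylow p M) ≡ 1 [MOD p] := card_sylow_modEq_one p M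
  rw [h2, ← h3, ← h1] at h4
  have h6 : Nat.card (Sylow p M) * M.index ≡ 1 * M.index [MOD p] := h5.mul_right _
  rw [one_mul] at h6
  exact h6.symm.trans h4

theorem main : ∀ n : ℕ, ∀ (G : Type u) [Group G] [Finite G], Nat.card G = n →
    (∀ M : Subgroup G, IsCoatom M → ∃ p : ℕ, p.Prime ∧ (M.index = p ∨ M.index = p ^ 2)) →
    Group.IsSolvable G := by
  intro n
  induction n using Nat.strong_induction_on with
  | _ n ih =>
  intro G _ _ hn h
  by_cases h1 : Nat.card G = 1
  · have : Subsingleton G := (Nat.card_eq_one_iff_unique.mp h1).1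
    infer_instance
  have hn0 : Nat.card G ≠ 0 := Nat.card_pos.ne'
  -- the largest prime divisor
  obtain ⟨p, hp, hpn, hmax⟩ : ∃ p : ℕ, p.Prime ∧ p ∣ Nat.card G ∧
      ∀ q : ℕ, q.Prime → q ∣ Nat.card G → q ≤ p := by
    have hne : (Nat.card G).primeFactors.Nonempty := by
      rw [Nat.nonempty_primeFactors]; omega
    refine ⟨(Nat.card G).primeFactors.max' hne, ?_, ?_, ?_⟩
    · exact Nat.prime_of_mem_primeFactors (Finset.max'_mem _ hne)
    · exact Nat.dvd_of_mem_primeFactors (Finset.max'_mem _ hne)
    · intro q hq hqn
      exact Finset.le_max' _ q (Nat.mem_primeFactors.mpr ⟨hq, hqn, hn0⟩)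
  have : Fact p.Prime := ⟨hp⟩
  obtain ⟨P⟩ : Nonempty (Sylow p G) := inferInstance
  by_cases hPn : (P : Subgroup G).Normal
  · -- quotient by P
    have hPne : (P : Subgroup G) ≠ ⊥ := P.ne_bot_of_dvd_card hpn
    have hcard : Nat.card (G ⧸ (P : Subgroup G)) < n := by
      have e := Subgroup.card_eq_card_quotient_mul_card_subgroup (P : Subgroup G)
      have h2 : 1 < Nat.card (P : Subgroup G) := by
        rw [Subgroup.one_lt_card_iff_ne_bot]; exact hPne
      have h3 : 0 < Nat.card (G ⧸ (P : Subgroup G)) := Nat.card_pos
      rw [← hn, e]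
      nlinarith
    have hQ : Group.IsSolvable (G ⧸ (P : Subgroup G)) := by
      apply ih _ hcard _ rfl
      intro M hM
      have hco : IsCoatom (M.comap (QuotientGroup.mk' (P : Subgroup G))) :=
        Subgroup.isCoatom_comap_of_surjective (QuotientGroup.mk'_surjective _) hM
      obtain ⟨q, hq, hidx⟩ := h _ hco
      refine ⟨q, hq, ?_⟩
      rw [Subgroup.index_comap_of_surjective _ (QuotientGroup.mk'_surjective _)] at hidx
      exact hidx
    have hPs : Group.IsSolvable (P : Subgroup G) := by
      have := P.2.isNilpotent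
      infer_instance
    exact Group.isSolvable_of_ker_le_range (P : Subgroup G).subtype
      (QuotientGroup.mk' (P : Subgroup G)) (by simp)
  · -- P is not normal
    have hNtop : Subgroup.normalizer ((P : Subgroup G) : Set G) ≠ ⊤ := by
      intro htop
      exact hPn (Subgroup.normalizer_eq_top_iff.mp htop)
    obtain ⟨M, hM, hNM⟩ := (IsCoatomic.eq_top_or_exists_le_coatom
      (Subgroup.normalizer ((P : Subgroup G) : Set G))).resolve_left hNtop
    have hmod := index_modEq_one P M hNM
    obtain ⟨q, hq, hidx⟩ := h M hM
    have hqn : q ∣ Nat.card G := by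
      rcases hidx with h' | h'
      · exact h' ▸ Subgroup.index_dvd_card M
      · exact (dvd_pow_self q (by norm_num)).trans (h' ▸ Subgroup.index_dvd_card M)
    have hqp : q ≤ p := hmax q hq hqn
    have hp2 := hp.two_le
    have hq2 := hq.two_le
    have hp3 : p = 3 ∧ q = 2 := by
      rcases hidx with h' | h'
      · exfalso
        rw [h'] at hmod
        have hd : p ∣ q - 1 := (Nat.modEq_iff_dvd' (by omega)).mp hmod.symm
        have := Nat.le_of_dvd (by omega) hd
        omega
      · rw [h'] at hmod
        have hd : p ∣ q ^ 2 - 1 := (Nat.modEq_iff_dvd' (Nat.one_le_pow _ _ (by omega))).mp hmod.symm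
        have hfac : q ^ 2 - 1 = (q - 1) * (q + 1) := by
          have : q ^ 2 = (q - 1) * (q + 1) + 1 := by
            obtain ⟨k, rfl⟩ : ∃ k, q = k + 1 := ⟨q - 1, by omega⟩
            simp; ring
          omega
        rw [hfac] at hd
        rcases (Nat.Prime.dvd_mul hp).mp hd with hd' | hd'
        · exfalso
          have := Nat.le_of_dvd (by omega) hd'
          omega
        · have hle := Nat.le_of_dvd (by omega) hd'
          have hpq : p = q + 1 := by
            rcases Nat.lt_or_ge q p with hlt | hge
            · omega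
            · exfalso
              have hqp' : q = p := by omega
              rw [hqp'] at hd'
              have : p ∣ 1 := (Nat.dvd_add_right (dvd_refl p)).mp hd'
              have := Nat.le_of_dvd (by omega) this
              omega
          have hq2' : q = 2 := by
            rcases hq.eq_two_or_odd' with h2 | hodd
            · exact h2
            · exfalso
              have hev : Even p := by rw [hpq]; exact hodd.add_one
              have := (Nat.Prime.even_iff hp).mp hev
              omega
          omega
    obtain ⟨rfl, rfl⟩ := hp3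
    -- |G| = 2^a * 3^b
    obtain ⟨a, m, hm2, hcard2⟩ := Nat.exists_eq_pow_mul_and_not_dvd hn0 2 (by norm_num)
    have hm0 : m ≠ 0 := by rintro rfl; exact hm2 (dvd_zero 2)
    obtain ⟨b, m', hm3, hcard3⟩ := Nat.exists_eq_pow_mul_and_not_dvd hm0 3 (by norm_num)
    have hm'1 : m' = 1 := by
      by_contra hne
      obtain ⟨r, hr, hrm⟩ := Nat.exists_prime_and_dvd hne
      have hrm1 : r ∣ m := hrm.trans (Dvd.intro_left _ hcard3.symm)
      have hrn : r ∣ Nat.card G := hrm1.trans (Dvd.intro_left _ hcard2.symm)
      have hr3 := hmax r hr hrn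
      have hr2 := hr.two_le
      have : r = 2 ∨ r = 3 := by omega
      rcases this with rfl | rfl
      · exact hm2 hrm1
      · exact hm3 hrm
    rw [hm'1, mul_one] at hcard3
    rw [hcard3] at hcard2
    exact Cfsg.Agent.S0144.result 2 3 a b Nat.prime_two Nat.prime_three hcard2

/-- A finite group in which every maximal subgroup has index a prime or the square of a prime is solvable. -/
theorem result {G : Type*} [Group G] [Finite G] (h : ∀ M : Subgroup G, IsCoatom M → ∃ p : ℕ, p.Prime ∧ (M.index = p ∨ M.index = p ^ 2)) : Group.IsSolvable G := by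
  exact main _ G rfl h

end Cfsg.Agent.S4203
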