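import Cfsg.Statements.S4204
import Cfsg.Agent.H73.Comm

set_option autoImplicit false
open Cfsg

namespace Cfsg.Agent.S4204

open Cfsg.Agent.H73

/-- Lower central series of `S`, shifted, with term `0` equal to the whole group. -/
def gam {G : Type*} [Group G] (S : Subgroup G) : ℕ → Subgroup G
  | 0 => ⊤
  | n + 1 => S.lowerCentralSeries n

theorem gam_normal {G : Type*} [Group G] (S : Subgroup G) [S.Normal] (n : ℕ) : (gam S n).Normal := by
  cases n with
  | zero => exact Subgroup.normal_top
  | succ n => exact Subgroup.lowerCentralSeries_normal S n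

theorem gam_comm_le {G : Type*} [Group G] (S : Subgroup G) [S.Normal] (n : ℕ) :
    ⁅gam S n, S⁆ ≤ gam S (n + 1) := by
  cases n with
  | zero => exact Subgroup.commutator_le_right (⊤ : Subgroup G) S
  | succ n => exact le_rfl

theorem gam_eq_bot {G : Type*} [Group G] (S : Subgroup G) (c n : ℕ) (h : S.lowerCentralSeries c = ⊥)
    (hn : c + 1 ≤ n) : gam S n = ⊥ := by
  obtain ⟨m, rfl⟩ : ∃ m, n = m + 1 := ⟨n - 1, by omega⟩
  have : S.lowerCentralSeries m ≤ S.lowerCentralSeries c :=
    Subgroup.lowerCentralSeries_antitone S (by omega)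
  rw [h] at this
  exact le_bot_iff.mp this

/-- The bound for the lower central series of `H ⊔ K`. -/
def dd {G : Type*} [Group G] (H K : Subgroup G) (n : ℕ) : Subgroup G :=
  ⨆ (a : ℕ) (b : ℕ) (_ : a + b = n + 1), gam H a ⊓ gam K b

theorem dd_normal {G : Type*} [Group G] (H K : Subgroup G) [H.Normal] [K.Normal] (n : ℕ) :
    (dd H K n).Normal := by
  unfold dd
  have : ∀ a b : ℕ, (gam H a ⊓ gam K b).Normal := by
    intro a b
    have := gam_normal H a
    have := gam_normal K b
    infer_instance
  infer_instance

theorem le_dd {G : Type*} [Group G] (H K : Subgroup G) (n a b : ℕ) (hab : a + b = n + 1) :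
    gam H a ⊓ gam K b ≤ dd H K n := by
  unfold dd
  exact le_iSup_of_le a (le_iSup_of_le b (le_iSup_of_le hab le_rfl))

theorem lcs_sup_le {G : Type*} [Group G] (H K : Subgroup G) [H.Normal] [K.Normal] (n : ℕ) :
    (H ⊔ K).lowerCentralSeries n ≤ dd H K n := by
  induction n with
  | zero =>
    rw [Subgroup.lowerCentralSeries_zero]
    apply sup_le
    · have := le_dd H K 0 1 0 rfl
      simpa [gam] using this
    · have := le_dd H K 0 0 1 rfl
      simpa [gam] using this
  | succ n ih =>
    rw [Subgroup.lowerCentralSeries_succ]
    refine (Subgroup.commutator_mono ih le_rfl).trans ?_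
    have hN := dd_normal H K (n + 1)
    show ⁅⨆ (a : ℕ) (b : ℕ) (_ : a + b = n + 1), gam H a ⊓ gam K b, H ⊔ K⁆ ≤ dd H K (n + 1)
    apply iSup_commutator_le
    intro a
    apply iSup_commutator_le
    intro b
    apply iSup_commutator_le
    intro hab
    have hHa := gam_normal H a
    have hKb := gam_normal K b
    apply commutator_sup_le
    · refine le_trans ?_ (le_dd H K (n + 1) (a + 1) b (by omega))
      apply le_inf
      · exact (Subgroup.commutator_mono inf_le_left le_rfl).trans (gam_comm_le H a)
      · exact (Subgroup.commutator_mono inf_le_right le_rfl).trans (Subgroup.commutator_le_left _ _)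
    · refine le_trans ?_ (le_dd H K (n + 1) a (b + 1) (by omega))
      apply le_inf
      · exact (Subgroup.commutator_mono inf_le_left le_rfl).trans (Subgroup.commutator_le_left _ _)
      · exact (Subgroup.commutator_mono inf_le_right le_rfl).trans (gam_comm_le K b)

/-- If `H` and `K` are normal subgroups of a finite group with `H` nilpotent of class at most `c` and `K` nilpotent of class at most `d` (the terms with index `c`, respectively `d`, of their lower central series are trivial, indices starting at `0`), then `HK` is nilpotent of class at most `c + d`. -/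
theorem result {G : Type*} [Group G] [Finite G] (H K : Subgroup G) [H.Normal] [K.Normal] (c d : ℕ) (hH : H.lowerCentralSeries c = ⊥) (hK : K.lowerCentralSeries d = ⊥) : (H ⊔ K).lowerCentralSeries (c + d) = ⊥ := by
  apply le_bot_iff.mp
  refine (lcs_sup_le H K (c + d)).trans ?_
  unfold dd
  apply iSup_le
  intro a
  apply iSup_le
  intro b
  apply iSup_le
  intro hab
  by_cases ha : c + 1 ≤ a
  · rw [gam_eq_bot H c a hH ha]; exact inf_le_left
  · rw [gam_eq_bot K d b hK (by omega)]; exact inf_le_right

end Cfsg.Agent.S4204
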