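import Cfsg.Statements.S4205

set_option autoImplicit false
open Cfsg

namespace Cfsg.Agent.S4205

theorem ucs_succ_le_normalizer {G : Type*} [Group G] (i : ℕ) (K : Subgroup G)
    (h : Subgroup.upperCentralSeries G i ≤ K) :
    Subgroup.upperCentralSeries G (i + 1) ≤ Subgroup.normalizer (K : Set G) := by
  have key : ∀ z ∈ Subgroup.upperCentralSeries G (i + 1), ∀ k ∈ K, z * k * z⁻¹ ∈ K := by
    intro z hz k hk
    have h1 := h (Subgroup.mem_upperCentralSeries_succ_iff.mp hz k)
    have : z * k * z⁻¹ = (z * k * z⁻¹ * k⁻¹) * k := by group
    rw [this]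
    exact K.mul_mem h1 hk
  intro z hz
  rw [Subgroup.mem_normalizer_iff]
  intro k
  constructor
  · exact key z hz k
  · intro hk
    have := key z⁻¹ (Subgroup.inv_mem _ hz) _ hk
    have e : z⁻¹ * (z * k * z⁻¹) * z⁻¹⁻¹ = k := by group
    rwa [e] at this

/-- In a finite group whose upper central series reaches the whole group at step `c` (nilpotent of class at most `c`), starting from any subgroup and taking normalizers `c` times reaches the whole group. -/
theorem result {G : Type*} [Group G] [Finite G] (c : ℕ) (hG : Subgroup.upperCentralSeries G c = ⊤) (H : Subgroup G) : (fun K : Subgroup G => Subgroup.normalizer (K : Set G))^[c] H = ⊤ := by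
  have key : ∀ i : ℕ, Subgroup.upperCentralSeries G i ≤
      (fun K : Subgroup G => Subgroup.normalizer (K : Set G))^[i] H := by
    intro i
    induction i with
    | zero => simp
    | succ i ih =>
      rw [Function.iterate_succ_apply']
      exact ucs_succ_le_normalizer i _ ih
  have := key c
  rw [hG] at this
  exact top_le_iff.mp this

end Cfsg.Agent.S4205
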