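import Cfsg.Statements.S4211
import Cfsg.Agent.H64.Dedekind

set_option autoImplicit false
open Cfsg

namespace Cfsg.Agent.S4211

/-- A finite non-abelian group in which every subgroup is normal is the internal direct product of a subgroup isomorphic to the quaternion group of order `8`, an elementary abelian `2`-subgroup and an abelian subgroup of odd order. -/
theorem result {G : Type*} [Group G] [Finite G] (hna : ¬ IsMulCommutative G) (hn : ∀ H : Subgroup G, H.Normal) : ∃ Q E A : Subgroup G, Nonempty (Q ≃* QuaternionGroup 2) ∧ Cfsg.IsElementaryAbelian 2 E ∧ IsMulCommutative A ∧ Odd (Nat.card A) ∧ E ⊓ A = ⊥ ∧ Q ⊓ (E ⊔ A) = ⊥ ∧ Q ⊔ (E ⊔ A) = ⊤ := by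
  have hna' : ∃ x y : G, x * y ≠ y * x := by
    by_contra hcon
    push Not at hcon
    exact hna ⟨⟨fun x y => hcon x y⟩⟩
  obtain ⟨Q, E, A, hQ, hE, hA, hodd, h1, h2, h3⟩ := Cfsg.Agent.H64.Dedekind.dedekind_decomp hn hna'
  exact ⟨Q, E, A, hQ, hE, hA, hodd, h1, h2, h3⟩

end Cfsg.Agent.S4211
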