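import Mathlib
import Cfsg.Statements.S4212
import Cfsg.Agent.H70.Frob

set_option autoImplicit false
open Cfsg

namespace Cfsg.Agent.S4212

open Cfsg.Agent.H70

universe u

section lemmas

variable {G : Type u} [Group G]

/-- Conjugation invariance of the number of `n`-th roots. -/
theorem card_roots_conj (n : ℕ) (t y : G) :
    Nat.card {x : G // x ^ n = t * y * t⁻¹} = Nat.card {x : G // x ^ n = y} := by
  apply Nat.card_congr
  refine ⟨fun x => ⟨t⁻¹ * x.1 * t, ?_⟩, fun x => ⟨t * x.1 * t⁻¹, ?_⟩, ?_, ?_⟩
  · have h : t⁻¹ * x.1 * t = t⁻¹ * x.1 * t⁻¹⁻¹ := by rw [inv_inv]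
    rw [h, conj_pow, x.2]; group
  · rw [conj_pow, x.2]
  · intro x; apply Subtype.ext; show t * (t⁻¹ * x.1 * t) * t⁻¹ = x.1; group
  · intro x; apply Subtype.ext; show t⁻¹ * (t * x.1 * t⁻¹) * t = x.1; group

/-- If `p` divides the order of `x ^ (p ^ e)` then `p ^ e` divides the order of `x`. -/
theorem orderOf_eq_mul [Finite G] (p e : ℕ) (hp : p.Prime) (x : G)
    (h : p ∣ orderOf (x ^ (p ^ e))) : orderOf x = p ^ e * orderOf (x ^ (p ^ e)) := by
  have hpos : 0 < orderOf x := orderOf_pos x
  have ho : orderOf (x ^ (p ^ e)) = orderOf x / (orderOf x).gcd (p ^ e) := orderOf_pow x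
  obtain ⟨f, hf, hg⟩ := (Nat.dvd_prime_pow hp).1 (Nat.gcd_dvd_right (orderOf x) (p ^ e))
  have hdvd : p ^ f ∣ orderOf x := hg ▸ Nat.gcd_dvd_left (orderOf x) (p ^ e)
  have hfe : f = e := by
    by_contra hne
    have hlt : f < e := lt_of_le_of_ne hf hne
    have h1 : p ^ (f + 1) ∣ orderOf x := by
      obtain ⟨m', hm'⟩ := hdvd
      rw [ho, hg, hm', Nat.mul_div_cancel_left _ (pow_pos hp.pos f)] at h
      rw [hm', pow_succ]
      exact Nat.mul_dvd_mul_left _ h
    have h2 : p ^ (f + 1) ∣ p ^ e := pow_dvd_pow p hlt
    have h3 : p ^ (f + 1) ∣ p ^ f := hg ▸ Nat.dvd_gcd h1 h2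
    have h4 := (Nat.pow_dvd_pow_iff_le_right hp.one_lt).1 h3
    omega
  subst hfe
  rw [ho, hg]
  exact (Nat.mul_div_cancel' hdvd).symm

/-- The solutions of `x ^ n = c` generating a given cyclic subgroup `⟨x0⟩`, when every solution
has order `n * m`, `m = orderOf c ≥ 2`. -/
theorem card_fiber [Finite G] (n : ℕ) (_hn : 0 < n) (c x0 : G) (hm2 : 2 ≤ orderOf c)
    (hx0 : x0 ^ n = c) (hord : ∀ x : G, x ^ n = c → orderOf x = n * orderOf c) :
    Nat.card {x : G // Subgroup.zpowers x = Subgroup.zpowers x0 ∧ x ^ n = c} = n := by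
  classical
  have hmpos : 0 < orderOf c := by omega
  have ho0 := hord x0 hx0
  have hcm : c ^ orderOf c = 1 := pow_orderOf_eq_one c
  have hsol : ∀ k : ℕ, (x0 ^ (1 + k * orderOf c)) ^ n = c := by
    intro k
    rw [← pow_mul, mul_comm, pow_mul, hx0, pow_add, pow_one, mul_comm k, pow_mul, hcm, one_pow,
      mul_one]
  have hgen : ∀ x : G, x ∈ Subgroup.zpowers x0 → x ^ n = c →
      Subgroup.zpowers x = Subgroup.zpowers x0 := by
    intro x hx hxc
    apply Subgroup.eq_of_le_of_card_ge (Subgroup.zpowers_le.2 hx)
    rw [Nat.card_zpowers, Nat.card_zpowers, hord x hxc, ho0]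
  have hcard : Nat.card (Fin n) = n := by simp
  suffices hsuff : Nonempty (Fin n ≃
      {x : G // Subgroup.zpowers x = Subgroup.zpowers x0 ∧ x ^ n = c}) by
    obtain ⟨eqv⟩ := hsuff
    rw [← Nat.card_congr eqv, hcard]
  refine ⟨Equiv.ofBijective (fun k : Fin n => ⟨x0 ^ (1 + k.1 * orderOf c),
    hgen _ (Subgroup.pow_mem _ (Subgroup.mem_zpowers x0) _) (hsol k.1), hsol k.1⟩) ⟨?_, ?_⟩⟩
  · intro k k' hkk
    have h1 : x0 ^ (1 + k.1 * orderOf c) = x0 ^ (1 + k'.1 * orderOf c) := congrArg Subtype.val hkk
    rw [pow_eq_pow_iff_modEq, ho0] at h1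
    have h2 : k.1 * orderOf c ≡ k'.1 * orderOf c [MOD n * orderOf c] := Nat.ModEq.add_left_cancel' 1 h1
    have h3 : k.1 ≡ k'.1 [MOD n] := Nat.ModEq.mul_right_cancel' hmpos.ne' h2
    apply Fin.ext
    have h4 := Nat.ModEq.eq_of_lt_of_lt h3 k.2 k'.2
    exact h4
  · rintro ⟨x, hxz, hxc⟩
    have hxmem : x ∈ Subgroup.zpowers x0 := hxz ▸ Subgroup.mem_zpowers x
    rw [mem_zpowers_iff_mem_range_orderOf, ho0] at hxmem
    simp only [Finset.mem_image, Finset.mem_range] at hxmem
    obtain ⟨j, hj, rfl⟩ := hxmem
    have h1 : c ^ j = c ^ 1 := by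
      rw [pow_one, ← hx0, ← pow_mul, mul_comm, pow_mul, hxc, hx0]
    rw [pow_eq_pow_iff_modEq] at h1
    have h2 : j % orderOf c = 1 := by
      have := h1
      unfold Nat.ModEq at this
      rw [this, Nat.mod_eq_of_lt (by omega)]
    have h3 : j = 1 + (j / orderOf c) * orderOf c := by
      have := Nat.div_add_mod j (orderOf c)
      rw [h2] at this
      rw [mul_comm] at this
      omega
    have h4 : j / orderOf c < n := by
      rw [Nat.div_lt_iff_lt_mul hmpos]; exact hj
    refine ⟨⟨j / orderOf c, h4⟩, ?_⟩
    apply Subtype.ext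
    show x0 ^ (1 + (j / orderOf c) * orderOf c) = x0 ^ j
    rw [← h3]

end lemmas

theorem hall_aux : ∀ (N : ℕ) (G : Type u) [Group G] [Finite G], Nat.card G = N →
    ∀ (n : ℕ) (c : G), Nat.gcd ((Subgroup.centralizer ({c} : Set G)).index * n) (Nat.card G) ∣
      (Subgroup.centralizer ({c} : Set G)).index * Nat.card {x : G // x ^ n = c} := by
  intro N
  induction N using Nat.strong_induction_on with
  | _ N ih =>
  intro G _ _ hG n
  induction n using Nat.strong_induction_on with
  | _ n ihn =>
  intro c
  by_cases hc : c ∈ Subgroup.center G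
  · have hidx : (Subgroup.centralizer ({c} : Set G)).index = 1 := by
      have htop : Subgroup.centralizer ({c} : Set G) = ⊤ := by
        rw [Subgroup.centralizer_eq_top_iff_subset]
        intro y hy; rw [Set.mem_singleton_iff.1 hy]; exact hc
      rw [htop, Subgroup.index_top]
    rw [hidx, one_mul, one_mul]
    have hccomm : ∀ g : G, g * c = c * g := Subgroup.mem_center_iff.1 hc
    rcases Nat.lt_or_ge n 2 with hn2 | hn2
    · interval_cases n
      · rw [Nat.gcd_zero_left]
        by_cases hc1 : c = 1
        · have hall : Nat.card {x : G // x ^ 0 = c} = Nat.card G := by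
            apply Nat.card_congr
            exact Equiv.subtypeUnivEquiv (fun x => by rw [pow_zero, hc1])
          rw [hall]
        · have hemp : IsEmpty {x : G // x ^ 0 = c} := ⟨fun x => hc1 (by rw [← x.2, pow_zero])⟩
          have h0 : Nat.card {x : G // x ^ 0 = c} = 0 := Nat.card_of_isEmpty
          rw [h0]; exact dvd_zero _
      · rw [Nat.gcd_one_left]; exact one_dvd _
    have hn1 : n ≠ 1 := by omega
    have hnpos : 0 < n := by omega
    obtain ⟨p, hp, hpn⟩ := Nat.exists_prime_and_dvd hn1
    obtain ⟨e, n', hpn', rfl⟩ := Nat.exists_eq_pow_mul_and_not_dvd hnpos.ne' p hp.ne_one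
    have he : 1 ≤ e := by
      by_contra hcon
      have he0 : e = 0 := by omega
      rw [he0, pow_zero, one_mul] at hpn
      exact hpn' hpn
    by_cases hn'1 : n' = 1
    · subst hn'1
      simp only [mul_one] at *
      by_cases hpm : p ∣ orderOf c
      · have key : p ^ e ∣ Nat.card {x : G // x ^ (p ^ e) = c} := by
          have hord : ∀ x : G, x ^ (p ^ e) = c → orderOf x = p ^ e * orderOf c := by
            intro x hx
            have h := orderOf_eq_mul p e hp x (by rw [hx]; exact hpm)
            rw [hx] at h; exact h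
          have hm2 : 2 ≤ orderOf c := (hp.two_le).trans (Nat.le_of_dvd (orderOf_pos c) hpm)
          classical
          have := Fintype.ofFinite G
          rw [Nat.card_eq_fintype_card, Fintype.card_subtype]
          rw [Finset.card_eq_sum_card_fiberwise (f := fun x : G => Subgroup.zpowers x)
            (s := Finset.univ.filter (fun x : G => x ^ (p ^ e) = c))
            (t := (Finset.univ.filter (fun x : G => x ^ (p ^ e) = c)).image
              (fun x : G => Subgroup.zpowers x)) (fun x hx => Finset.mem_image_of_mem _ hx)]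
          refine Finset.dvd_sum fun C0 hC0 => ?_
          obtain ⟨x0, hx0, rfl⟩ := Finset.mem_image.1 hC0
          have hx0' : x0 ^ (p ^ e) = c := (Finset.mem_filter.1 hx0).2
          have hfib : ((Finset.univ.filter (fun x : G => x ^ (p ^ e) = c)).filter
              (fun x => Subgroup.zpowers x = Subgroup.zpowers x0)).card = p ^ e := by
            have hf := card_fiber (p ^ e) (pow_pos hp.pos e) c x0 hm2 hx0' hord
            rw [Nat.card_eq_fintype_card, Fintype.card_subtype] at hf
            have hset : ((Finset.univ.filter (fun x : G => x ^ (p ^ e) = c)).filter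
                (fun x => Subgroup.zpowers x = Subgroup.zpowers x0)) =
                Finset.univ.filter (fun x : G =>
                  Subgroup.zpowers x = Subgroup.zpowers x0 ∧ x ^ (p ^ e) = c) := by
              ext x
              simp only [Finset.mem_filter, Finset.mem_univ, true_and]
              exact and_comm
            rw [hset]; exact hf
          rw [hfib]
        exact (Nat.gcd_dvd_left (p ^ e) _).trans key
      · have hcop : (Nat.card (Subgroup.zpowers c)).Coprime (p ^ e) := by
          rw [Nat.card_zpowers]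
          exact Nat.Coprime.pow_right _
            ((Nat.coprime_comm).1 ((Nat.Prime.coprime_iff_not_dvd hp).2 hpm))
        obtain ⟨d', hd'⟩ := (powCoprime hcop).surjective ⟨c, Subgroup.mem_zpowers c⟩
        have hd : (d' : G) ^ (p ^ e) = c := by
          have h := congrArg Subtype.val hd'
          simpa [powCoprime] using h
        have hdc : ∀ g : G, g * (d' : G) = (d' : G) * g :=
          Subgroup.mem_center_iff.1 ((Subgroup.zpowers_le.2 hc) d'.2)
        have e1 : Nat.card {x : G // x ^ (p ^ e) = c} =
            Nat.card {y : G // y ^ (p ^ e) = 1} := by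
          apply Nat.card_congr
          refine ⟨fun x => ⟨x.1 * (d' : G)⁻¹, ?_⟩, fun y => ⟨y.1 * (d' : G), ?_⟩, ?_, ?_⟩
          · have hcomm : Commute x.1 (d' : G)⁻¹ :=
              (show Commute x.1 (d' : G) from hdc x.1).inv_right
            rw [hcomm.mul_pow, x.2, inv_pow, hd, mul_inv_cancel]
          · have hcomm : Commute y.1 (d' : G) := hdc y.1
            rw [hcomm.mul_pow, y.2, hd, one_mul]
          · intro x; apply Subtype.ext; show x.1 * (d' : G)⁻¹ * (d' : G) = x.1; group
          · intro y; apply Subtype.ext; show y.1 * (d' : G) * (d' : G)⁻¹ = y.1; group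
        rw [e1, Nat.gcd_comm]
        exact frobenius_gcd_dvd (p ^ e)
    · have hn'pos : 0 < n' := Nat.pos_of_ne_zero (by rintro rfl; simp at hnpos)
      have hpe : 1 < p ^ e := Nat.one_lt_pow (by omega) hp.one_lt
      have hsplit : ∀ a b : ℕ, a * b = p ^ e * n' → b < p ^ e * n' →
          Nat.gcd b (Nat.card G) ∣ Nat.card {x : G // x ^ (p ^ e * n') = c} := by
        intro a b hab hb
        have e1 : Nat.card {x : G // x ^ (p ^ e * n') = c} =
            Nat.card {q : G × G // q.1 ^ a = c ∧ q.2 ^ b = q.1} := by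
          apply Nat.card_congr
          refine ⟨fun x => ⟨(x.1 ^ b, x.1), ?_, rfl⟩, fun q => ⟨q.1.2, ?_⟩, fun x => rfl, ?_⟩
          · show (x.1 ^ b) ^ a = c
            rw [← pow_mul, mul_comm b a, hab]; exact x.2
          · rw [← hab, mul_comm a b, pow_mul, q.2.2]; exact q.2.1
          · rintro ⟨⟨y, x⟩, h1, h2⟩
            apply Subtype.ext
            show (x ^ b, x) = (y, x)
            rw [show x ^ b = y from h2]
        classical
        have := Fintype.ofFinite G
        rw [e1, frob_card_pairs (fun y : G => y ^ a = c) (fun y x : G => x ^ b = y)]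
        apply frob_class_sum
        · intro t z
          have hiff : (t * z * t⁻¹) ^ a = c ↔ z ^ a = c := by
            rw [conj_pow]
            constructor
            · intro hh
              have h' : z ^ a = t⁻¹ * (t * z ^ a * t⁻¹) * t := by group
              rw [h', hh, hccomm t⁻¹, inv_mul_cancel_right]
            · intro hh; rw [hh, hccomm t, mul_inv_cancel_right]
          by_cases hz : z ^ a = c
          · rw [if_pos hz, if_pos (hiff.2 hz), card_roots_conj]
          · rw [if_neg hz, if_neg (fun h => hz (hiff.1 h))]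
        · intro z
          by_cases hz : z ^ a = c
          · rw [if_pos hz]
            have h1 := ihn b hb z
            exact (Nat.dvd_gcd (dvd_mul_of_dvd_right (Nat.gcd_dvd_left _ _) _)
              (Nat.gcd_dvd_right _ _)).trans h1
          · rw [if_neg hz]; simp
      have hn'2 : 2 ≤ n' := by omega
      have hlt1 : p ^ e < p ^ e * n' := by
        calc p ^ e = p ^ e * 1 := (mul_one _).symm
          _ < p ^ e * n' := Nat.mul_lt_mul_of_pos_left hn'2 (by omega)
      have hlt2 : n' < p ^ e * n' := by
        calc n' = 1 * n' := (one_mul _).symm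
          _ < p ^ e * n' := Nat.mul_lt_mul_of_pos_right hpe hn'pos
      have h1 := hsplit n' (p ^ e) (by ring) hlt1
      have h2 := hsplit (p ^ e) n' rfl hlt2
      have hcop : (p ^ e).Coprime n' :=
        Nat.Coprime.pow_left _ ((Nat.Prime.coprime_iff_not_dvd hp).2 hpn')
      rw [Nat.gcd_comm, Nat.Coprime.gcd_mul _ hcop]
      refine Nat.Coprime.mul_dvd_of_dvd_of_dvd ?_ ?_ ?_
      · exact Nat.Coprime.coprime_dvd_left (Nat.gcd_dvd_right _ _)
          (Nat.Coprime.coprime_dvd_right (Nat.gcd_dvd_right _ _) hcop)
      · rw [Nat.gcd_comm]; exact h1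
      · rw [Nat.gcd_comm]; exact h2
  · have hcK : c ∈ Subgroup.centralizer ({c} : Set G) := by
      rw [Subgroup.mem_centralizer_iff]; intro h hh; rw [Set.mem_singleton_iff.1 hh]
    have hKne : Subgroup.centralizer ({c} : Set G) ≠ ⊤ := by
      intro h
      apply hc
      rw [Subgroup.centralizer_eq_top_iff_subset] at h
      exact h rfl
    have hKlt : Nat.card (Subgroup.centralizer ({c} : Set G)) < N := by
      rw [← hG]
      have hle := Subgroup.card_le_card_group (Subgroup.centralizer ({c} : Set G))
      rcases hle.lt_or_eq with h | h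
      · exact h
      · exact absurd ((Subgroup.card_eq_iff_eq_top _).1 h) hKne
    have hcKc : (⟨c, hcK⟩ : Subgroup.centralizer ({c} : Set G)) ∈
        Subgroup.center (Subgroup.centralizer ({c} : Set G)) := by
      rw [Subgroup.mem_center_iff]
      intro k
      apply Subtype.ext
      have hk : (k : G) ∈ Subgroup.centralizer ({c} : Set G) := k.2
      rw [Subgroup.mem_centralizer_iff] at hk
      exact (hk c rfl).symm
    have hidxK : (Subgroup.centralizer
        ({(⟨c, hcK⟩ : Subgroup.centralizer ({c} : Set G))} : Set _)).index = 1 := by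
      have htop : Subgroup.centralizer
          ({(⟨c, hcK⟩ : Subgroup.centralizer ({c} : Set G))} : Set _) = ⊤ := by
        rw [Subgroup.centralizer_eq_top_iff_subset]
        intro y hy; rw [Set.mem_singleton_iff.1 hy]; exact hcKc
      rw [htop, Subgroup.index_top]
    have h1 := ih _ hKlt (Subgroup.centralizer ({c} : Set G)) rfl n ⟨c, hcK⟩
    rw [hidxK, one_mul, one_mul] at h1
    have e1 : Nat.card {x : Subgroup.centralizer ({c} : Set G) // x ^ n = ⟨c, hcK⟩} =
        Nat.card {x : G // x ^ n = c} := by
      apply Nat.card_congr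
      refine ⟨fun x => ⟨x.1.1, ?_⟩, fun x => ⟨⟨x.1, ?_⟩, ?_⟩, fun x => rfl, fun x => rfl⟩
      · have h := congrArg Subtype.val x.2
        simpa using h
      · rw [Subgroup.mem_centralizer_iff]
        intro h hh
        have hx : x.1 ^ n = c := x.2
        rw [Set.mem_singleton_iff.1 hh]
        have key : x.1 ^ n * x.1 = x.1 * x.1 ^ n := ((Commute.refl x.1).pow_left n).eq
        rw [hx] at key
        exact key
      · apply Subtype.ext
        show x.1 ^ n = c
        exact x.2
    rw [e1] at h1
    rw [← Subgroup.index_mul_card (Subgroup.centralizer ({c} : Set G)), Nat.gcd_mul_left]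
    exact Nat.mul_dvd_mul_left _ h1

/-- Let `G` be a finite group of order `g`, `c` an element whose conjugacy class has `h` elements, and `n` a natural number. Then the number of elements `x` of `G` with `x^n` conjugate to `c` is a multiple of `gcd(hn, g)`. -/
theorem result {G : Type*} [Group G] [Finite G] (c : G) (n : ℕ) : Nat.gcd (Nat.card {y : G // IsConj c y} * n) (Nat.card G) ∣ Nat.card {x : G // IsConj c (x ^ n)} := by
  classical
  have := Fintype.ofFinite G
  have hcl : Nat.card {y : G // IsConj c y} = (Subgroup.centralizer ({c} : Set G)).index := by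
    rw [frob_class_card]; rfl
  have hcount : Nat.card {x : G // IsConj c (x ^ n)} =
      (Subgroup.centralizer ({c} : Set G)).index * Nat.card {x : G // x ^ n = c} := by
    have e1 : Nat.card {x : G // IsConj c (x ^ n)} =
        Nat.card {q : G × G // IsConj c q.1 ∧ q.2 ^ n = q.1} := by
      apply Nat.card_congr
      refine ⟨fun x => ⟨(x.1 ^ n, x.1), x.2, rfl⟩, fun q => ⟨q.1.2, ?_⟩, fun x => rfl, ?_⟩
      · rw [q.2.2]; exact q.2.1
      · rintro ⟨⟨y, x⟩, h1, h2⟩
        apply Subtype.ext
        show (x ^ n, x) = (y, x)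
        rw [show x ^ n = y from h2]
    rw [e1, frob_card_pairs (fun y : G => IsConj c y) (fun y x : G => x ^ n = y)]
    have key : ∀ y : G,
        (@ite _ (IsConj c y) (Classical.propDecidable _) (Nat.card {x : G // x ^ n = y}) 0) =
        (@ite _ (IsConj c y) (Classical.propDecidable _) 1 0) *
          Nat.card {x : G // x ^ n = c} := by
      intro y
      split_ifs with hy
      · obtain ⟨t, ht⟩ := isConj_iff.1 hy
        rw [← ht, card_roots_conj, one_mul]
      · rw [zero_mul]
    rw [Finset.sum_congr rfl (fun y _ => key y), ← Finset.sum_mul]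
    congr 1
    rw [← hcl, Nat.card_eq_fintype_card, Fintype.card_subtype, Finset.card_filter]
    refine Finset.sum_congr rfl fun y _ => ?_
    by_cases hy : IsConj c y <;> simp [hy]
  rw [hcl, hcount]
  exact hall_aux (Nat.card G) G rfl n c

end Cfsg.Agent.S4212
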