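import Cfsg.Statements.S4215
import Cfsg.Agent.H74.HallWielandt
import Cfsg.Agent.H74.Frobenius

set_option autoImplicit false
open Cfsg

namespace Cfsg.Agent.S4215

open Subgroup

/-- A Sylow `p`-subgroup of `G` meets `O^p(G)` inside the derived subgroup of `O^p(G)`. -/
theorem sylow_inf_pResidual_le_commutator {G : Type*} [Group G] [Finite G] {p : ℕ} [Fact p.Prime]
    (P : Sylow p G) :
    (P : Subgroup G) ⊓ Cfsg.pResidual p G ≤ ⁅Cfsg.pResidual p G, Cfsg.pResidual p G⁆ := by
  intro x hx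
  have h1 := Cfsg.Agent.H74.sylow_le_commutator_of_pResidual_eq_top
    (Cfsg.Agent.H40.sylowInfNormal P (Cfsg.pResidual p G))
    (Cfsg.Agent.H74.pResidual_pResidual_eq_top p G)
  have h2 : (⟨x, hx.2⟩ : Cfsg.pResidual p G) ∈
      ((Cfsg.Agent.H40.sylowInfNormal P (Cfsg.pResidual p G) : Sylow p (Cfsg.pResidual p G)) :
        Subgroup (Cfsg.pResidual p G)) := by
    rw [Cfsg.Agent.H40.coe_sylowInfNormal, mem_subgroupOf]
    exact hx.1
  rw [← Subgroup.map_subtype_commutator]
  exact ⟨⟨x, hx.2⟩, h1 h2, rfl⟩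

/-- Let `P` be a Sylow `p`-subgroup of the finite group `G`, `Q` a subgroup of `P` weakly closed in `P` with respect to `G`, and `H` the normalizer of `Q`. Suppose that for all `u ∈ P` and `z ∈ Q` the iterated commutator `[u, z, …, z]` with `p - 1` entries `z` is trivial, where `[x, z] = x⁻¹z⁻¹xz` and `[x, z, z] = [[x, z], z]`. Then `O^p(H) = O^p(G) ∩ H`, where `O^p` denotes the subgroup generated by the elements of order prime to `p`; so the largest `p`-factor groups of `G` and of `H` are isomorphic. -/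
theorem result {G : Type*} [Group G] [Finite G] {p : ℕ} [Fact p.Prime] (P : Sylow p G) (Q : Subgroup G) (hQ : Cfsg.IsWeaklyClosed Q (P : Subgroup G)) (h : ∀ u ∈ (P : Subgroup G), ∀ z ∈ Q, (fun y : G => y⁻¹ * z⁻¹ * y * z)^[p - 1] u = 1) : Cfsg.pResidualOf p (Subgroup.normalizer (Q : Set G)) = Cfsg.pResidual p G ⊓ Subgroup.normalizer (Q : Set G) := by
  apply Cfsg.Agent.H74.HW.pResidualOf_eq_of_le_commutator P _
    (Cfsg.Agent.H74.HW.le_normalizer_of_weaklyClosed _ Q hQ)
  intro x hx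
  exact Cfsg.Agent.H74.HW.inf_commutator_le_of_weaklyClosed_normal P Q hQ h (Cfsg.pResidual p G)
    (Subgroup.mem_inf.mpr ⟨hx, sylow_inf_pResidual_le_commutator P hx⟩)

end Cfsg.Agent.S4215
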