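import Cfsg.Statements.S4216
import Cfsg.Agent.H40.Alperin

set_option autoImplicit false
open Cfsg

namespace Cfsg.Agent.S4216

open Subgroup Cfsg.Agent.H40.Alp
open scoped commutatorElement

/-- A `p`-element of `N` is conjugate in `N` into a given subgroup `S ⊓ N` of index prime to
`p` in `N` (`S` a `p`-group). -/
theorem exists_conj_mem {G : Type*} [Group G] [Finite G] {p : ℕ} [Fact p.Prime]
    (S N : Subgroup G) (hS : IsPGroup p S) (hidx : ¬ p ∣ (S ⊓ N).relIndex N)
    (n : G) (hn : n ∈ N) (hord : ∃ k : ℕ, orderOf n = p ^ k) :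
    ∃ g ∈ N, g⁻¹ * n * g ∈ S := by
  have hSN : IsPGroup p ((S ⊓ N : Subgroup G)) := hS.to_le inf_le_left
  let S' : Sylow p N := IsPGroup.toSylow (P := (S ⊓ N).subgroupOf N) hSN.comap_subtype hidx
  have hz : IsPGroup p (zpowers (⟨n, hn⟩ : N)) := by
    obtain ⟨k, hk⟩ := hord
    apply IsPGroup.of_card (n := k)
    rw [Nat.card_zpowers, ← hk]
    exact (orderOf_injective N.subtype N.subtype_injective ⟨n, hn⟩).symm
  obtain ⟨R, hR⟩ := hz.exists_le_sylow
  obtain ⟨g, hg⟩ := MulAction.exists_smul_eq N S' R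
  have h1 : (⟨n, hn⟩ : N) ∈ ((g • S' : Sylow p N) : Subgroup N) := by
    rw [hg]; exact hR (mem_zpowers _)
  rw [Sylow.coe_subgroup_smul, Subgroup.mem_pointwise_smul_iff_inv_smul_mem] at h1
  refine ⟨g, g.2, ?_⟩
  have h2 : g⁻¹ * (⟨n, hn⟩ : N) * g ∈ (S ⊓ N).subgroupOf N := by
    have : (MulAut.conj g)⁻¹ • (⟨n, hn⟩ : N) = g⁻¹ * (⟨n, hn⟩ : N) * g := by
      rw [MulAut.smul_def, MulAut.conj_inv_apply]
    rw [← this]
    exact h1
  exact h2.1

/-- One step of an Alperin chain moves an element of the tame intersection by an element of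
the Grün subgroup. -/
theorem step_mem {G : Type*} [Group G] [Finite G] {p : ℕ} [Fact p.Prime] (P : Sylow p G)
    (D : Subgroup G)
    (hN : (P : Subgroup G) ⊓ ⁅normalizer ((P : Subgroup G) : Set G),
      normalizer ((P : Subgroup G) : Set G)⁆ ≤ D)
    (hz : ∀ z : G, (P : Subgroup G) ⊓
      (⁅(P : Subgroup G), (P : Subgroup G)⁆).map (MulAut.conj z).toMonoidHom ≤ D)
    (s : Sylow p G × G) (hs : Step P s) (a : G)
    (ha : a ∈ (P : Subgroup G) ⊓ (s.1 : Subgroup G)) :
    a⁻¹ * (s.2⁻¹ * a * s.2) ∈ D := by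
  have hT : s.2⁻¹ * a * s.2 ∈ (P : Subgroup G) ⊓ (s.1 : Subgroup G) :=
    (mem_normalizer_iff''.mp hs.1 a).mp ha
  have hP : a⁻¹ * (s.2⁻¹ * a * s.2) ∈ (P : Subgroup G) := mul_mem (inv_mem ha.1) hT.1
  rcases hs.2.2 with h | hk
  · apply hN
    refine Subgroup.mem_inf.mpr ⟨hP, ?_⟩
    have hn : s.2 ∈ normalizer ((P : Subgroup G) : Set G) := by
      have := hs.1
      rw [h, inf_idem] at this
      exact this
    have e : a⁻¹ * (s.2⁻¹ * a * s.2) = ⁅a⁻¹, s.2⁻¹⁆ := by
      rw [commutatorElement_def]; group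
    rw [e]
    exact commutator_mem_commutator (inv_mem (le_normalizer ha.1)) (inv_mem hn)
  · obtain ⟨g, hg, hgm⟩ := exists_conj_mem (P : Subgroup G)
      (normalizer ((((P : Subgroup G) ⊓ (s.1 : Subgroup G)) : Subgroup G) : Set G))
      P.isPGroup' hs.2.1.1 s.2 hs.1 hk
    have ha1 : g⁻¹ * a * g ∈ (P : Subgroup G) ⊓ (s.1 : Subgroup G) :=
      (mem_normalizer_iff''.mp hg a).mp ha
    apply hz g
    refine Subgroup.mem_inf.mpr ⟨hP, ?_⟩
    refine ⟨⁅(g⁻¹ * a * g)⁻¹, (g⁻¹ * s.2 * g)⁻¹⁆,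
      commutator_mem_commutator (inv_mem ha1.1) (inv_mem hgm), ?_⟩
    rw [commutatorElement_def]
    simp only [MulEquiv.coe_toMonoidHom, MulAut.conj_apply]
    group

/-- Along an Alperin chain an element of `P` moves by an element of the Grün subgroup. -/
theorem chain_mem {G : Type*} [Group G] [Finite G] {p : ℕ} [Fact p.Prime] (P : Sylow p G)
    (D : Subgroup G)
    (hN : (P : Subgroup G) ⊓ ⁅normalizer ((P : Subgroup G) : Set G),
      normalizer ((P : Subgroup G) : Set G)⁆ ≤ D)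
    (hz : ∀ z : G, (P : Subgroup G) ⊓
      (⁅(P : Subgroup G), (P : Subgroup G)⁆).map (MulAut.conj z).toMonoidHom ≤ D) :
    ∀ (l : List (Sylow p G × G)) (a : G), Chain P {a} l →
      a⁻¹ * ((lprod l)⁻¹ * a * lprod l) ∈ D := by
  intro l
  induction l with
  | nil =>
    intro a _
    rw [lprod_nil]
    simp
  | cons s l ih =>
    intro a hch
    obtain ⟨hst, hsub, hch'⟩ := hch
    have ha : a ∈ (P : Subgroup G) ⊓ (s.1 : Subgroup G) := hsub rfl
    have h1 := step_mem P D hN hz s hst a ha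
    have e : cj s.2 ({a} : Set G) = {s.2⁻¹ * a * s.2} := Set.image_singleton
    rw [e] at hch'
    have h2 := ih _ hch'
    rw [lprod_cons]
    have e2 : a⁻¹ * ((s.2 * lprod l)⁻¹ * a * (s.2 * lprod l)) =
        (a⁻¹ * (s.2⁻¹ * a * s.2)) *
          ((s.2⁻¹ * a * s.2)⁻¹ * ((lprod l)⁻¹ * (s.2⁻¹ * a * s.2) * lprod l)) := by group
    rw [e2]
    exact mul_mem h1 h2

/-- Grün's first Theorem: if `P` is a Sylow `p`-subgroup of the finite group `G`, then `P ∩ G'` is the subgroup generated by `P ∩ N_G(P)'` together with the subgroups `P ∩ z P' z⁻¹` for all `z ∈ G`, where `'` denotes the derived subgroup and `N_G(P)` the normalizer of `P`. -/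
theorem result {G : Type*} [Group G] [Finite G] {p : ℕ} [Fact p.Prime] (P : Sylow p G) : (P : Subgroup G) ⊓ commutator G = ((P : Subgroup G) ⊓ ⁅Subgroup.normalizer ((P : Subgroup G) : Set G), Subgroup.normalizer ((P : Subgroup G) : Set G)⁆) ⊔ ⨆ z : G, (P : Subgroup G) ⊓ (⁅(P : Subgroup G), (P : Subgroup G)⁆).map (MulAut.conj z).toMonoidHom := by
  apply le_antisymm
  · set D : Subgroup G := ((P : Subgroup G) ⊓ ⁅Subgroup.normalizer ((P : Subgroup G) : Set G), Subgroup.normalizer ((P : Subgroup G) : Set G)⁆) ⊔ ⨆ z : G, (P : Subgroup G) ⊓ (⁅(P : Subgroup G), (P : Subgroup G)⁆).map (MulAut.conj z).toMonoidHom with hD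
    have hN : (P : Subgroup G) ⊓ ⁅normalizer ((P : Subgroup G) : Set G),
      normalizer ((P : Subgroup G) : Set G)⁆ ≤ D := le_sup_left
    have hz : ∀ z : G, (P : Subgroup G) ⊓
      (⁅(P : Subgroup G), (P : Subgroup G)⁆).map (MulAut.conj z).toMonoidHom ≤ D :=
      fun z => le_trans (le_iSup (fun z : G => (P : Subgroup G) ⊓
        (⁅(P : Subgroup G), (P : Subgroup G)⁆).map (MulAut.conj z).toMonoidHom) z) le_sup_right
    rw [inf_comm, Subgroup.commutator_inf_eq_focalSubgroup, Subgroup.focalSubgroup_def, closure_le]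
    rintro g ⟨hg, x, hx, u, rfl⟩
    have hconj : u⁻¹⁻¹ * x⁻¹ * u⁻¹ ∈ (P : Subgroup G) := by
      have h1 : u⁻¹⁻¹ * x⁻¹ * u⁻¹ = x⁻¹ * ⁅x, u⁆ := by rw [commutatorElement_def]; group
      rw [h1]
      exact mul_mem (inv_mem hx) hg
    obtain ⟨l, hl, hch⟩ := alperin_list P {x⁻¹} u⁻¹
      (by rintro _ rfl; exact inv_mem hx)
      (by rintro _ ⟨a, rfl, rfl⟩; exact hconj)
    have h2 := chain_mem P D hN hz l x⁻¹ hch
    rw [hl] at h2
    have e : ⁅x, u⁆ = x⁻¹⁻¹ * (u⁻¹⁻¹ * x⁻¹ * u⁻¹) := by rw [commutatorElement_def]; group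
    rw [SetLike.mem_coe, e]
    exact h2
  · refine sup_le (inf_le_inf_left _ ?_) (iSup_le fun z => inf_le_inf_left _ ?_)
    · rw [_root_.commutator_def]
      exact Subgroup.commutator_mono le_top le_top
    · rintro _ ⟨y, hy, rfl⟩
      have hy' : y ∈ commutator G := by
        rw [_root_.commutator_def]
        exact Subgroup.commutator_mono le_top le_top hy
      have hnorm : (commutator G).Normal := inferInstance
      exact hnorm.conj_mem y hy' z

end Cfsg.Agent.S4216
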