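import Cfsg.Statements.S4217
import Cfsg.Agent.H74.Basic

set_option autoImplicit false
open Cfsg

namespace Cfsg.Agent.S4217

open Subgroup
open scoped IsMulCommutative

section
variable {G : Type*} [Group G]

/-- crossed homomorphisms `G → A` (right action by conjugation), as functions `G → G` -/
def IsCross (A : Subgroup G) (σ : G → G) : Prop :=
  (∀ g, σ g ∈ A) ∧ ∀ g h, σ (g * h) = h⁻¹ * σ g * h * σ h

/-- crossed homomorphisms `U → A` restricting to the identity on `A` -/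
def IsCrossOn (A U : Subgroup G) (ρ : G → G) : Prop :=
  (∀ u ∈ U, ρ u ∈ A) ∧ (∀ u ∈ U, ∀ v ∈ U, ρ (u * v) = v⁻¹ * ρ u * v * ρ v) ∧ ∀ a ∈ A, ρ a = a

/-- a complement of `A` in `U` gives a crossed homomorphism `U → A` that is the identity on `A` -/
theorem exists_isCrossOn (A U K : Subgroup G) [hn : A.Normal]
    (hab : ∀ a ∈ A, ∀ b ∈ A, a * b = b * a) (hKA : K ⊓ A = ⊥) (hsup : K ⊔ A = U) :
    ∃ ρ : G → G, IsCrossOn A U ρ := by
  classical
  let ρ : G → G := fun u =>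
    if h : ∃ a, a ∈ A ∧ u * a⁻¹ ∈ K then Classical.choose h else 1
  have key : ∀ u a, a ∈ A → u * a⁻¹ ∈ K → ρ u = a := by
    intro u a ha hk
    have h : ∃ a, a ∈ A ∧ u * a⁻¹ ∈ K := ⟨a, ha, hk⟩
    have hspec := Classical.choose_spec h
    have hρ : ρ u = Classical.choose h := dif_pos h
    rw [hρ]
    have h1 : a * (Classical.choose h)⁻¹ ∈ K ⊓ A := by
      refine Subgroup.mem_inf.mpr ⟨?_, A.mul_mem ha (A.inv_mem hspec.1)⟩
      have e : a * (Classical.choose h)⁻¹ = (u * a⁻¹)⁻¹ * (u * (Classical.choose h)⁻¹) := by group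
      rw [e]
      exact K.mul_mem (K.inv_mem hk) hspec.2
    rw [hKA, mem_bot] at h1
    have e2 : Classical.choose h = (a * (Classical.choose h)⁻¹)⁻¹ * a := by group
    rw [e2, h1]; group
  have hex : ∀ u ∈ U, ∃ a ∈ A, u * a⁻¹ ∈ K := by
    intro u hu
    rw [← hsup] at hu
    obtain ⟨k, hk, a, ha, rfl⟩ := Subgroup.mem_sup_of_normal_right.mp hu
    exact ⟨a, ha, by simpa using hk⟩
  refine ⟨ρ, ?_, ?_, ?_⟩
  · intro u hu
    obtain ⟨a, ha, hk⟩ := hex u hu
    rw [key u a ha hk]; exact ha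
  · intro u hu v hv
    obtain ⟨a, ha, hk⟩ := hex u hu
    obtain ⟨b, hb, hk'⟩ := hex v hv
    rw [key u a ha hk, key v b hb hk']
    have hc : v⁻¹ * a * v ∈ A := by
      have := hn.conj_mem a ha v⁻¹
      simpa using this
    apply key (u * v) (v⁻¹ * a * v * b) (mul_mem hc hb)
    have hw : v * b⁻¹ * v⁻¹ ∈ A := hn.conj_mem b⁻¹ (inv_mem hb) v
    have hcomm := hab (v * b⁻¹ * v⁻¹) hw a⁻¹ (inv_mem ha)
    have e : u * v * (v⁻¹ * a * v * b)⁻¹ = u * ((v * b⁻¹ * v⁻¹) * a⁻¹) * v := by group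
    rw [e, hcomm]
    have e2 : u * (a⁻¹ * (v * b⁻¹ * v⁻¹)) * v = (u * a⁻¹) * (v * b⁻¹) := by group
    rw [e2]
    exact mul_mem hk hk'
  · intro a ha
    exact key a a ha (by simp)

/-- the functions agreeing on `A` with a crossed homomorphism form a subgroup -/
def crossRestr (A : Subgroup G) [hn : A.Normal] (hab : ∀ a ∈ A, ∀ b ∈ A, a * b = b * a) :
    Subgroup (G → G) where
  carrier := {f | ∃ σ, IsCross A σ ∧ ∀ a ∈ A, σ a = f a}
  one_mem' := ⟨fun _ => 1, ⟨fun _ => one_mem _, fun g h => by simp⟩, fun a _ => rfl⟩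
  mul_mem' := by
    rintro f f' ⟨σ, hσ, h1⟩ ⟨σ', hσ', h1'⟩
    refine ⟨fun g => σ g * σ' g, ⟨fun g => mul_mem (hσ.1 g) (hσ'.1 g), fun g h => ?_⟩,
      fun a ha => by simp [h1 a ha, h1' a ha]⟩
    show σ (g * h) * σ' (g * h) = h⁻¹ * (σ g * σ' g) * h * (σ h * σ' h)
    rw [hσ.2, hσ'.2]
    have hm : h⁻¹ * σ' g * h ∈ A := by
      have := hn.conj_mem (σ' g) (hσ'.1 g) h⁻¹
      simpa using this
    have hc := hab (σ h) (hσ.1 h) (h⁻¹ * σ' g * h) hm
    calc h⁻¹ * σ g * h * σ h * (h⁻¹ * σ' g * h * σ' h)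
        = h⁻¹ * σ g * h * (σ h * (h⁻¹ * σ' g * h)) * σ' h := by group
      _ = h⁻¹ * σ g * h * ((h⁻¹ * σ' g * h) * σ h) * σ' h := by rw [hc]
      _ = h⁻¹ * (σ g * σ' g) * h * (σ h * σ' h) := by group
  inv_mem' := by
    rintro f ⟨σ, hσ, h1⟩
    refine ⟨fun g => (σ g)⁻¹, ⟨fun g => inv_mem (hσ.1 g), fun g h => ?_⟩,
      fun a ha => by simp [h1 a ha]⟩
    show (σ (g * h))⁻¹ = h⁻¹ * (σ g)⁻¹ * h * (σ h)⁻¹
    rw [hσ.2]
    have hm : h⁻¹ * (σ g)⁻¹ * h ∈ A := by
      have := hn.conj_mem (σ g)⁻¹ (inv_mem (hσ.1 g)) h⁻¹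
      simpa using this
    have hc := hab (σ h)⁻¹ (inv_mem (hσ.1 h)) (h⁻¹ * (σ g)⁻¹ * h) hm
    calc (h⁻¹ * σ g * h * σ h)⁻¹ = (σ h)⁻¹ * (h⁻¹ * (σ g)⁻¹ * h) := by group
      _ = h⁻¹ * (σ g)⁻¹ * h * (σ h)⁻¹ := by rw [hc]

/-- a crossed homomorphism that is the identity on `A` gives a complement -/
theorem exists_complement_of_cross (A : Subgroup G) [hn : A.Normal] (σ : G → G)
    (hσ : IsCross A σ) (hid : ∀ a ∈ A, σ a = a) : ∃ K : Subgroup G, K.IsComplement' A := by
  have h1 : σ 1 = 1 := hid 1 (one_mem A)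
  let K : Subgroup G :=
    { carrier := {g | σ g = 1}
      one_mem' := h1
      mul_mem' := by
        intro g h hg hh
        show σ (g * h) = 1
        rw [hσ.2, show σ g = 1 from hg, show σ h = 1 from hh]; group
      inv_mem' := by
        intro g hg
        show σ g⁻¹ = 1
        have h2 := hσ.2 g g⁻¹
        rw [mul_inv_cancel, h1, show σ g = 1 from hg] at h2
        rw [h2]; group }
  refine ⟨K, Subgroup.isComplement'_of_disjoint_and_mul_eq_univ ?_ ?_⟩
  · rw [disjoint_iff, eq_bot_iff]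
    rintro x ⟨hxK, hxA⟩
    have hx1 : σ x = 1 := hxK
    rw [hid x hxA] at hx1
    exact (mem_bot).mpr hx1
  · rw [Set.eq_univ_iff_forall]
    intro g
    refine Set.mem_mul.mpr ⟨g * (σ g)⁻¹, ?_, σ g, hσ.1 g, by group⟩
    show σ (g * (σ g)⁻¹) = 1
    rw [hσ.2, hid _ (inv_mem (hσ.1 g))]
    group

/-- corestriction (transfer) of a crossed homomorphism from `U` to `G` -/
theorem exists_cross_of_crossOn [Finite G] (A U : Subgroup G) [hn : A.Normal]
    [IsMulCommutative A] (hAU : A ≤ U) (ρ : G → G) (hρ : IsCrossOn A U ρ) :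
    ∃ σ : G → G, IsCross A σ ∧ ∀ a ∈ A, σ a = a ^ U.index := by
  classical
  have : Fintype (G ⧸ U) := Fintype.ofFinite _
  let out : G ⧸ U → G := fun q => q.out
  have hout : ∀ q : G ⧸ U, (QuotientGroup.mk (out q) : G ⧸ U) = q :=
    fun q => QuotientGroup.out_eq' q
  let u : G ⧸ U → G → G := fun q g => (out q)⁻¹ * g * out (g⁻¹ • q)
  have hu : ∀ q g, u q g ∈ U := by
    intro q g
    have h2 : (QuotientGroup.mk (g * out (g⁻¹ • q)) : G ⧸ U) = q := by
      have h0 : (QuotientGroup.mk (g * out (g⁻¹ • q)) : G ⧸ U)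
          = g • (QuotientGroup.mk (out (g⁻¹ • q)) : G ⧸ U) := rfl
      rw [h0, hout, smul_inv_smul]
    have h3 := QuotientGroup.eq.mp ((hout q).trans h2.symm)
    have e : u q g = (out q)⁻¹ * (g * out (g⁻¹ • q)) := by simp only [u]; group
    rw [e]; exact h3
  let τ : G ⧸ U → G → A := fun q g =>
    ⟨out (g⁻¹ • q) * ρ (u q g) * (out (g⁻¹ • q))⁻¹, hn.conj_mem _ (hρ.1 _ (hu q g)) _⟩
  refine ⟨fun g => ((∏ q, τ q g : A) : G), ⟨fun g => (∏ q, τ q g).2, ?_⟩, ?_⟩
  · intro g h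
    have hstep : ∀ q, τ q (g * h)
        = (MulAut.conjNormal h⁻¹ : MulAut A) (τ q g) * τ (g⁻¹ • q) h := by
      intro q
      apply Subtype.ext
      rw [Subgroup.coe_mul, MulAut.conjNormal_apply]
      show out ((g * h)⁻¹ • q) * ρ (u q (g * h)) * (out ((g * h)⁻¹ • q))⁻¹
        = h⁻¹ * (out (g⁻¹ • q) * ρ (u q g) * (out (g⁻¹ • q))⁻¹) * h⁻¹⁻¹
          * (out (h⁻¹ • (g⁻¹ • q)) * ρ (u (g⁻¹ • q) h) * (out (h⁻¹ • (g⁻¹ • q)))⁻¹)
      have e1 : (g * h)⁻¹ • q = h⁻¹ • (g⁻¹ • q) := by rw [mul_inv_rev, mul_smul]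
      have e2 : u q (g * h) = u q g * u (g⁻¹ • q) h := by
        simp only [u]; rw [e1]; group
      rw [e1, e2, hρ.2.1 _ (hu q g) _ (hu _ h)]
      generalize ρ (u q g) = r₁
      generalize ρ (u (g⁻¹ • q) h) = r₂
      simp only [u]
      group
    have hprod : ∏ q, τ q (g * h)
        = (MulAut.conjNormal h⁻¹ : MulAut A) (∏ q, τ q g) * ∏ q, τ q h := by
      rw [map_prod, ← Equiv.prod_comp (MulAction.toPerm g⁻¹ : Equiv.Perm (G ⧸ U))
        (fun q => τ q h), ← Finset.prod_mul_distrib]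
      exact Finset.prod_congr rfl (fun q _ => hstep q)
    show ((∏ q, τ q (g * h) : A) : G)
      = h⁻¹ * ((∏ q, τ q g : A) : G) * h * ((∏ q, τ q h : A) : G)
    rw [hprod, Subgroup.coe_mul, MulAut.conjNormal_apply, inv_inv]
  · intro a ha
    have hτ : ∀ q, τ q a = ⟨a, ha⟩ := by
      intro q
      have hq : a⁻¹ • q = q := by
        induction q using QuotientGroup.induction_on with
        | H t =>
          show (QuotientGroup.mk (a⁻¹ * t) : G ⧸ U) = QuotientGroup.mk t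
          rw [QuotientGroup.eq]
          have e : (a⁻¹ * t)⁻¹ * t = t⁻¹ * a * t := by group
          rw [e]
          have := hn.conj_mem a ha t⁻¹
          exact hAU (by simpa using this)
      apply Subtype.ext
      show out (a⁻¹ • q) * ρ (u q a) * (out (a⁻¹ • q))⁻¹ = a
      have hu' : u q a = (out q)⁻¹ * a * out q := by simp only [u]; rw [hq]
      have hm : (out q)⁻¹ * a * out q ∈ A := by
        have := hn.conj_mem a ha (out q)⁻¹
        simpa using this
      rw [hq, hu', hρ.2.2 _ hm]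
      group
    show ((∏ q, τ q a : A) : G) = a ^ U.index
    rw [Finset.prod_congr rfl (fun q _ => hτ q), Finset.prod_const, Finset.card_univ,
      Subgroup.index_eq_card, Nat.card_eq_fintype_card]
    rfl

end

/-- Let `A` be an abelian normal subgroup of the finite group `G`. Then `A` has a complement in `G` if and only if, for every prime `p` dividing the index of `A`, there are a Sylow `p`-subgroup `S` of `G/A` and a subgroup `K` of `G` with `K ∩ A = 1` and `KA` equal to the preimage of `S` (that is, `A` has a complement in the preimage of a Sylow `p`-subgroup of `G/A`). -/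
theorem result {G : Type*} [Group G] [Finite G] (A : Subgroup G) [A.Normal] (hA : IsMulCommutative A) : (∃ K : Subgroup G, K.IsComplement' A) ↔ ∀ p : ℕ, p.Prime → p ∣ A.index → ∃ (S : Sylow p (G ⧸ A)) (K : Subgroup G), K ⊓ A = ⊥ ∧ K ⊔ A = (S : Subgroup (G ⧸ A)).comap (QuotientGroup.mk' A) := by
  classical
  have hab : ∀ a ∈ A, ∀ b ∈ A, a * b = b * a := by
    intro a ha b hb
    have := hA
    exact congrArg Subtype.val (mul_comm' (⟨a, ha⟩ : A) ⟨b, hb⟩)
  constructor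
  · rintro ⟨K, hK⟩ p hp hpd
    have : Fact p.Prime := ⟨hp⟩
    obtain ⟨S⟩ : Nonempty (Sylow p (G ⧸ A)) := inferInstance
    have hKA : K ⊓ A = ⊥ := hK.disjoint.eq_bot
    have hsup : K ⊔ A = ⊤ := hK.sup_eq_top
    refine ⟨S, K ⊓ (S : Subgroup (G ⧸ A)).comap (QuotientGroup.mk' A), ?_, ?_⟩
    · rw [eq_bot_iff, ← hKA]; exact inf_le_inf_right _ inf_le_left
    · apply le_antisymm
      · apply sup_le inf_le_right
        intro a ha
        rw [Subgroup.mem_comap]
        have h1 : (QuotientGroup.mk' A) a = 1 := (QuotientGroup.eq_one_iff a).mpr ha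
        rw [h1]; exact one_mem _
      · intro u hu
        have hu' : u ∈ K ⊔ A := by rw [hsup]; exact Subgroup.mem_top u
        obtain ⟨k, hk, a, ha, rfl⟩ := Subgroup.mem_sup_of_normal_right.mp hu'
        refine Subgroup.mul_mem_sup (Subgroup.mem_inf.mpr ⟨hk, ?_⟩) ha
        rw [Subgroup.mem_comap] at hu ⊢
        have h1 : (QuotientGroup.mk' A) (k * a) = (QuotientGroup.mk' A) k := by
          rw [map_mul, show (QuotientGroup.mk' A) a = 1 from (QuotientGroup.eq_one_iff a).mpr ha,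
            mul_one]
        rw [← h1]; exact hu
  · intro h
    have := hA
    have key : ∀ p : ℕ, p.Prime → ∃ c : ℕ, ¬ p ∣ c ∧ (fun g : G => g) ^ c ∈ crossRestr A hab := by
      intro p hp
      have hUK : ∃ U K : Subgroup G, K ⊓ A = ⊥ ∧ K ⊔ A = U ∧ ¬ p ∣ U.index := by
        by_cases hpd : p ∣ A.index
        · obtain ⟨S, K, h1, h2⟩ := h p hp hpd
          have : Fact p.Prime := ⟨hp⟩
          refine ⟨_, K, h1, h2, ?_⟩
          rw [Subgroup.index_comap_of_surjective _ (QuotientGroup.mk'_surjective A)]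
          exact S.not_dvd_index
        · exact ⟨A, ⊥, bot_inf_eq _, bot_sup_eq _, hpd⟩
      obtain ⟨U, K, h1, h2, h3⟩ := hUK
      obtain ⟨ρ, hρ⟩ := exists_isCrossOn A U K hab h1 h2
      obtain ⟨σ, hσ, hσA⟩ := exists_cross_of_crossOn A U (h2 ▸ le_sup_right) ρ hρ
      exact ⟨U.index, h3, σ, hσ, fun a ha => by rw [hσA a ha]; rfl⟩
    have hmem := Cfsg.Agent.H74.mem_of_forall_prime_pow_mem (crossRestr A hab) (fun g : G => g) key
    obtain ⟨σ, hσ, hσA⟩ := hmem
    exact exists_complement_of_cross A σ hσ hσA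

end Cfsg.Agent.S4217
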