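-- Statement S4221 (helper64, team project; pieces by helper34, helper39, helper53, helper68).
import Cfsg.Statements.S4221
import Cfsg.Agent.H64.Hall4Asm
import Cfsg.Agent.H64.Hall4CU
import Cfsg.Agent.H64.Hall4RegCnt
import Cfsg.Agent.H64.Hall4SM6
import Cfsg.Agent.H64.Hall4BR2
import Cfsg.Agent.H53.Hall4B1
import Cfsg.Agent.H53.Hall4B2
import Cfsg.Agent.H53.Hall4BWA
import Cfsg.Agent.H53.Hall4BWC
import Cfsg.Agent.H39.Hall4BWB
import Cfsg.Agent.H39.Hall4C0One
import Cfsg.Agent.H39.Hall4SM7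
import Cfsg.Agent.H34.Hall4SM45
import Cfsg.Agent.H34.Hall4B3
import Cfsg.Agent.H34.Hall4Four
import Cfsg.Agent.H34.Hall4RegTr
import Cfsg.Agent.H34.Hall4C0A
import Cfsg.Agent.H34.Hall4Conj
import Cfsg.Agent.H34.Hall4BR1
import Cfsg.Agent.H68.Hall4RegOrb
import Cfsg.Agent.H68.Hall4C0B
import Cfsg.Agent.H68.Hall4CHy

set_option autoImplicit false
open Cfsg

namespace Cfsg.Agent.S4221

/-- Let `G` be a `4`-fold transitive permutation group on a finite set of `n` points in which the pointwise stabilizer of some four distinct points has odd order. Then `n = 4` or `n = 5` with `G` the full symmetric group, or `n = 6` or `n = 7` with `G` the alternating group, or `n = 11` and `G` has order `7920`. -/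
theorem result {α : Type*} [Fintype α] [DecidableEq α] (G : Subgroup (Equiv.Perm α)) (hG : MulAction.IsMultiplyPretransitive G α 4) (x : Fin 4 ↪ α) (hodd : Odd (Nat.card (MulAction.stabilizer G x))) : ((Fintype.card α = 4 ∨ Fintype.card α = 5) ∧ G = ⊤) ∨ ((Fintype.card α = 6 ∨ Fintype.card α = 7) ∧ G = alternatingGroup α) ∨ (Fintype.card α = 11 ∧ Nat.card G = 7920) := by
  exact Cfsg.Agent.H64.Hall4.main_of_pieces
    Cfsg.Agent.H53.Hall4.basicA Cfsg.Agent.H53.Hall4.basicB Cfsg.Agent.H34.Hall4.basicC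
    Cfsg.Agent.H34.Hall4.bridge Cfsg.Agent.H64.Hall4.bridgeCard
    Cfsg.Agent.H34.Hall4.small45 Cfsg.Agent.H64.Hall4.small6 Cfsg.Agent.H39.Hall4.small7
    (Cfsg.Agent.H53.Hall4.bwC Cfsg.Agent.H53.Hall4.bwA Cfsg.Agent.H39.Hall4.bwb)
    Cfsg.Agent.H34.Hall4.conj Cfsg.Agent.H34.Hall4.c0Const Cfsg.Agent.H68.Hall4.c0Orbit
    Cfsg.Agent.H68.Hall4.cHy Cfsg.Agent.H34.Hall4.four Cfsg.Agent.H64.Hall4.cu
    Cfsg.Agent.H64.Hall4.regcnt Cfsg.Agent.H34.Hall4.regTrans Cfsg.Agent.H68.Hall4.regOrb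
    Cfsg.Agent.H39.Hall4.c0One
    G hG x hodd

end Cfsg.Agent.S4221
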