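import Cfsg.Statements.S4222

set_option autoImplicit false
open Cfsg

namespace Cfsg.Agent.S4222

/-- If a normal subgroup `N` of a finite group is complete (its centre is trivial and every automorphism of `N` is inner), then the group is the internal direct product of `N` and the centralizer of `N`: the centralizer is a complement to `N`. -/
theorem result {T : Type*} [Group T] [Finite T] (N : Subgroup T) [N.Normal] (hz : Subgroup.center ↥N = ⊥) (ha : Function.Surjective (MulAut.conj : ↥N →* MulAut ↥N)) : (Subgroup.centralizer (N : Set T)).IsComplement' N := by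
  apply Subgroup.isComplement'_of_disjoint_and_mul_eq_univ
  · rw [Subgroup.disjoint_def]
    intro x hxC hxN
    have hc : (⟨x, hxN⟩ : N) ∈ Subgroup.center N := by
      rw [Subgroup.mem_center_iff]
      intro y
      have := hxC y y.2
      exact Subtype.ext this
    rw [hz, Subgroup.mem_bot] at hc
    exact congrArg Subtype.val hc
  · rw [Set.eq_univ_iff_forall]
    intro t
    obtain ⟨n, hn⟩ := ha (MulAut.conjNormal t)
    have key : ∀ x : N, (n : T) * x * (n : T)⁻¹ = t * x * t⁻¹ := by
      intro x
      have h1 := congrArg (fun f : MulAut N => ((f x : N) : T)) hn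
      simpa using h1
    refine Set.mem_mul.mpr ⟨t * (n : T)⁻¹, ?_, n, n.2, by group⟩
    rw [SetLike.mem_coe, Subgroup.mem_centralizer_iff]
    intro x hx
    have hy : (n : T)⁻¹ * x * n ∈ N := by
      have := N.mul_mem (N.mul_mem (N.inv_mem n.2) hx) n.2
      exact this
    have h2 := key ⟨_, hy⟩
    simp only [] at h2
    have h3 : t * ((n : T)⁻¹ * x * n) * t⁻¹ = x := by
      rw [← h2]; group
    calc x * (t * (n : T)⁻¹) = (t * ((n : T)⁻¹ * x * n) * t⁻¹) * (t * (n : T)⁻¹) := by rw [h3]
      _ = t * (n : T)⁻¹ * x := by group

end Cfsg.Agent.S4222
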