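import Cfsg.Statements.S4226
import Cfsg.Agent.S4215

set_option autoImplicit false
open Cfsg

namespace Cfsg.Agent.S4226

open Subgroup
open scoped commutatorElement

/-- A finite subgroup is weakly closed in itself. -/
theorem isWeaklyClosed_self {G : Type*} [Group G] [Finite G] (P : Subgroup G) :
    Cfsg.IsWeaklyClosed P P := by
  refine ⟨le_rfl, fun g hg => ?_⟩
  apply Subgroup.eq_of_le_of_card_ge hg
  rw [Subgroup.card_map_of_injective (MulAut.conj g).injective]

/-- Iterated commutators with `z ∈ P` descend the lower central series of `P`. -/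
theorem iterate_mem_lowerCentralSeries {G : Type*} [Group G] (P : Subgroup G) (z : G) (hz : z ∈ P)
    (n : ℕ) (u : G) (hu : u ∈ P) :
    (fun y : G => y⁻¹ * z⁻¹ * y * z)^[n] u ∈ P.lowerCentralSeries n := by
  induction n with
  | zero => exact hu
  | succ n ih =>
    rw [Function.iterate_succ_apply', Subgroup.lowerCentralSeries_succ]
    have e : ((fun y : G => y⁻¹ * z⁻¹ * y * z)^[n] u)⁻¹ * z⁻¹ *
        (fun y : G => y⁻¹ * z⁻¹ * y * z)^[n] u * z =
        ⁅((fun y : G => y⁻¹ * z⁻¹ * y * z)^[n] u)⁻¹, z⁻¹⁆ := by
      rw [commutatorElement_def]; group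
    show ((fun y : G => y⁻¹ * z⁻¹ * y * z)^[n] u)⁻¹ * z⁻¹ *
        (fun y : G => y⁻¹ * z⁻¹ * y * z)^[n] u * z ∈ _
    rw [e]
    exact Subgroup.commutator_mem_commutator (inv_mem ih) (inv_mem hz)

/-- Let `P` be a Sylow `p`-subgroup of the finite group `G` with nilpotency class less than `p` (the term of index `p - 1` of the lower central series of `P`, indexed from `0`, is trivial), and let `N` be its normalizer. Then `O^p(N) = O^p(G) ∩ N`, where `O^p` denotes the subgroup generated by the elements of order prime to `p`; so the largest `p`-factor groups of `G` and of `N` are isomorphic. -/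
theorem result {G : Type*} [Group G] [Finite G] {p : ℕ} [Fact p.Prime] (P : Sylow p G) (hcl : (P : Subgroup G).lowerCentralSeries (p - 1) = ⊥) : Cfsg.pResidualOf p (Subgroup.normalizer ((P : Subgroup G) : Set G)) = Cfsg.pResidual p G ⊓ Subgroup.normalizer ((P : Subgroup G) : Set G) := by
  apply Cfsg.Agent.S4215.result P (P : Subgroup G) (isWeaklyClosed_self _)
  intro u hu z hz
  have h1 := iterate_mem_lowerCentralSeries (P : Subgroup G) z hz (p - 1) u hu
  rw [hcl, Subgroup.mem_bot] at h1
  exact h1

end Cfsg.Agent.S4226
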