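import Cfsg.Statements.S4275
import Cfsg.Agent.H75.PermAut

set_option autoImplicit false
open Cfsg

namespace Cfsg.Agent.S4275

/-- Let G be a transitive group of permutations of a finite set Ω, let o ∈ Ω, and let α be an automorphism of G. Then α is induced by conjugation by a permutation of Ω normalizing G if and only if the image under α of the stabilizer of o fixes some point of Ω. -/
theorem result {Ω : Type*} [Fintype Ω] (G : Subgroup (Equiv.Perm Ω)) (htr : MulAction.IsPretransitive G Ω) (o : Ω) (α : G ≃* G) : (∃ σ : Equiv.Perm Ω, σ ∈ Subgroup.normalizer (G : Set (Equiv.Perm Ω)) ∧ ∀ g : G, ((α g : G) : Equiv.Perm Ω) = σ * (g : Equiv.Perm Ω) * σ⁻¹) ↔ ∃ ω : Ω, ∀ g ∈ (MulAction.stabilizer G o).map α.toMonoidHom, g • ω = ω := by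
  constructor
  · rintro ⟨σ, _, hσ⟩
    refine ⟨σ o, ?_⟩
    rintro _ ⟨h, hh, rfl⟩
    have hh' : h • o = o := MulAction.mem_stabilizer_iff.mp hh
    change ((α h : G) : Equiv.Perm Ω) (σ o) = σ o
    rw [hσ h]
    have e : σ⁻¹ (σ o) = o := by simp
    simp only [Equiv.Perm.coe_mul, Function.comp_apply]
    rw [e]
    exact congrArg σ hh'
  · rintro ⟨ω, hω⟩
    obtain ⟨σ, h1, _, h2⟩ := Cfsg.Agent.H75.exists_perm_of_fixed G htr o α ω hω
    exact ⟨σ, h1, h2⟩

end Cfsg.Agent.S4275
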