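import Cfsg.Statements.S4277
import Cfsg.Agent.H75.OutPrime

set_option autoImplicit false
open Cfsg

namespace Cfsg.Agent.S4277

/-- A case of the Schreier conjecture: if a finite simple group G has a subgroup of prime index, then the outer automorphism group of G is solvable. -/
theorem result {G : Type*} [Group G] [Finite G] [IsSimpleGroup G] (H : Subgroup G) (hH : H.index.Prime) : Group.IsSolvable (Cfsg.Out G) := by
  classical
  by_cases hcomm : ∀ a b : G, a * b = b * a
  · letI : CommGroup G := { ‹Group G› with mul_comm := hcomm }
    haveI : IsCyclic G := IsSimpleGroup.isCyclic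
    haveI : Group.IsSolvable (MulAut G) := by
      apply Group.isSolvable_of_comm
      intro a b
      apply (IsCyclic.mulAutMulEquiv G).injective
      rw [map_mul, map_mul, mul_comm]
    infer_instance
  · have hG : ¬ Group.IsSolvable G := fun h => hcomm (IsSimpleGroup.comm_iff_isSolvable.mpr h)
    letI : Fintype (G ⧸ H) := Fintype.ofFinite _
    haveI : Fact H.index.Prime := ⟨hH⟩
    have hΩ : Fintype.card (G ⧸ H) = H.index := by
      rw [Subgroup.index_eq_card, Nat.card_eq_fintype_card]
    have hker : (MulAction.toPermHom G (G ⧸ H)).ker = ⊥ := by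
      rcases (MulAction.toPermHom G (G ⧸ H)).normal_ker.eq_bot_or_eq_top with h | h
      · exact h
      · exfalso
        rw [← Subgroup.normalCore_eq_ker] at h
        have hH1 : H = ⊤ := top_le_iff.mp (h ▸ Subgroup.normalCore_le H)
        rw [hH1, Subgroup.index_top] at hH
        exact Nat.not_prime_one hH
    have hinj : Function.Injective (MulAction.toPermHom G (G ⧸ H)) :=
      (MonoidHom.ker_eq_bot_iff _).mp hker
    exact Cfsg.Agent.H75.out_solvable_of_prime_degree hΩ (MulAction.toPermHom G (G ⧸ H)) hinj
      (fun x y => MulAction.exists_smul_eq G x y) hG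

end Cfsg.Agent.S4277
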