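import Cfsg.Statements.S4282
import Cfsg.Agent.H66.HHCrit
import Cfsg.Agent.S3736

set_option autoImplicit false
set_option linter.style.haveILetI false
set_option linter.unusedVariables false
open Cfsg

namespace Cfsg.Agent.S4282

open Cfsg.Agent.H66

open scoped commutatorElement

/-- The critical case: if the norm `∑ ρ(x)^i` vanishes then `p^(n+1) - 1` is a power of `q`,
`Q` is non-abelian and `(ρ x - 1)^(p^(n+1) - 2) ≠ 0`. -/
theorem core {G : Type*} [Group G] [Finite G] (p q : ℕ) [Fact p.Prime] [Fact q.Prime] (hpq : p ≠ q)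
    (Q : Subgroup G) [Q.Normal] (hQ : IsPGroup q Q) (x : G) (n : ℕ)
    (hxn : x ^ p ^ (n + 1) = 1) (hxn' : x ^ p ^ n ≠ 1)
    (hgen : Q ⊔ Subgroup.zpowers x = ⊤)
    (hC : ∀ y ∈ Subgroup.zpowers x, y ≠ 1 →
      Subgroup.centralizer ({y} : Set G) = Subgroup.zpowers x ⊔ Subgroup.center G)
    {K : Type*} [Field K] [IsAlgClosed K] [CharP K p] {V : Type*} [AddCommGroup V] [Module K V]
    [FiniteDimensional K V] [Nontrivial V] (ρ : G →* Module.End K V)
    (hfaith : Function.Injective ρ)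
    (hirr : ∀ W : Submodule K V, (∀ g ∈ Q, ∀ w ∈ W, ρ g w ∈ W) → W = ⊥ ∨ W = ⊤)
    (hN : ∑ i ∈ Finset.range (p ^ (n + 1)), ρ x ^ i = 0) :
    (∃ b : ℕ, p ^ (n + 1) - 1 = q ^ b) ∧ ¬ IsMulCommutative Q ∧
      (ρ x - 1) ^ (p ^ (n + 1) - 2) ≠ 0 := by
  classical
  have hp : p.Prime := Fact.out
  have hq : q.Prime := Fact.out
  have hpm0 : 0 < p ^ (n + 1) := pow_pos hp.pos _
  obtain ⟨y, hy⟩ : ∃ y, y = x ^ p ^ n := ⟨_, rfl⟩
  have hy1 : y ≠ 1 := by rw [hy]; exact hxn'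
  have hyx : y ∈ Subgroup.zpowers x := by
    rw [hy]; exact Subgroup.pow_mem _ (Subgroup.mem_zpowers x) _
  have hyp : y ^ p = 1 := by rw [hy, ← pow_mul, ← pow_succ]; exact hxn
  have hyo : orderOf y = p := orderOf_eq_prime hyp hy1
  have hxy : Commute x y := by rw [hy]; exact (Commute.refl x).pow_right _
  have hx1 : x ≠ 1 := by
    rintro rfl
    simp at hxn'
  -- Schur for `Q`
  let ρQ : ↥Q →* Module.End K V := ρ.comp Q.subtype
  have hirrQ : ∀ W : Submodule K V, (∀ a : ↥Q, ∀ w ∈ W, ρQ a w ∈ W) → W = ⊥ ∨ W = ⊤ :=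
    fun W hW => hirr W (fun g hg w hw => hW ⟨g, hg⟩ w hw)
  have hscal : ∀ z : G, (∀ a ∈ Q, z * a = a * z) → ∃ c : K, ρ z = c • 1 := by
    intro z hz
    apply schur_scalar ρQ hirrQ (ρ z)
    intro a
    show ρ z * ρ (a : G) = ρ (a : G) * ρ z
    rw [← map_mul, ← map_mul, hz a a.2]
  have hxQ : ¬ ∀ a ∈ Q, x * a = a * x := by
    intro h
    obtain ⟨c, hc⟩ := hscal x h
    have h1 : (ρ x) ^ p ^ (n + 1) = 1 := by rw [← map_pow, hxn, map_one]
    rw [hc, smul_pow, one_pow] at h1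
    have h2 : c ^ p ^ (n + 1) = 1 := by
      obtain ⟨v, hv⟩ := exists_ne (0 : V)
      have h3 := congrArg (fun f : Module.End K V => f v) h1
      simp only [LinearMap.smul_apply, Module.End.one_apply] at h3
      have h4 : (c ^ p ^ (n + 1) - 1) • v = 0 := by
        rw [sub_smul, one_smul, h3, sub_self]
      rcases smul_eq_zero.mp h4 with h5 | h5
      · exact sub_eq_zero.mp h5
      · exact absurd h5 hv
    have h3 : c = 1 := by
      have h4 : (c - 1) ^ p ^ (n + 1) = 0 := by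
        rw [sub_pow_char_pow, one_pow, h2, sub_self]
      exact sub_eq_zero.mp (pow_eq_zero_iff hpm0.ne' |>.mp h4)
    rw [h3, one_smul] at hc
    exact hx1 (hfaith (hc.trans (map_one ρ).symm))
  have hnoc : ∀ w ∈ Subgroup.zpowers x, w ≠ 1 → ¬ ∀ a ∈ Q, w * a = a * w := by
    intro w hw hw1 hcen
    apply hxQ
    have hwx : Commute w x := by
      obtain ⟨k, rfl⟩ := Subgroup.mem_zpowers_iff.mp hw
      exact (Commute.refl x).zpow_left k
    have hwc : Subgroup.centralizer ({w} : Set G) = ⊤ := by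
      rw [eq_top_iff, ← hgen, sup_le_iff]
      refine ⟨fun a ha => ?_, ?_⟩
      · rw [Subgroup.mem_centralizer_iff]
        rintro _ rfl
        exact hcen a ha
      · rw [Subgroup.zpowers_le, Subgroup.mem_centralizer_iff]
        rintro _ rfl
        exact hwx.eq
    have h2 := hC w hw hw1
    rw [hwc] at h2
    have h3 : Subgroup.zpowers x ⊔ Subgroup.center G ≤ Subgroup.centralizer ({x} : Set G) := by
      refine sup_le ?_ (Subgroup.center_le_centralizer _)
      rw [Subgroup.zpowers_le, Subgroup.mem_centralizer_iff]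
      rintro _ rfl
      rfl
    intro a ha
    have h4 : a ∈ Subgroup.centralizer ({x} : Set G) := h3 (h2 ▸ Subgroup.mem_top a)
    exact Subgroup.mem_centralizer_iff.mp h4 x rfl
  have hcent_triv : ∀ w ∈ Subgroup.zpowers x, w ∈ Subgroup.center G → w = 1 := by
    intro w hw hwc
    by_contra hw1
    exact hnoc w hw hw1 (fun a _ => (Subgroup.mem_center_iff.mp hwc a).symm)
  have hyQ : ∃ a ∈ Q, y * a ≠ a * y := by
    by_contra h
    push Not at h
    exact hnoc y hyx hy1 h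
  -- the minimal subgroup
  obtain ⟨Q₁, hQ₁S, hQ₁min⟩ :=
    (wellFounded_lt : WellFounded ((· < ·) : Subgroup G → Subgroup G → Prop)).has_min
      {U : Subgroup G | U ≤ Q ∧ Subgroup.zpowers x ≤ Subgroup.normalizer (U : Set G) ∧
        ∃ a ∈ U, y * a ≠ a * y}
      ⟨Q, le_rfl, by rw [Subgroup.normalizer_eq_top]; exact le_top, hyQ⟩
  obtain ⟨hQ₁Q, hxQ₁, a₀, ha₀, hya₀⟩ := hQ₁S
  have hQ₁q : IsPGroup q Q₁ := hQ.to_le hQ₁Q
  have hcentY : ∀ U : Subgroup G, (∀ a ∈ U, y * a = a * y) → ⁅U, Subgroup.zpowers y⁆ = ⊥ := by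
    intro U hU
    rw [Subgroup.commutator_eq_bot_iff_le_centralizer]
    intro a ha
    rw [Subgroup.mem_centralizer_iff]
    intro h hh
    obtain ⟨k, rfl⟩ := Subgroup.mem_zpowers_iff.mp hh
    have h1 : Commute y a := hU a ha
    exact (h1.zpow_left k).eq
  have hcentY' : ∀ U : Subgroup G, ⁅U, Subgroup.zpowers y⁆ = ⊥ → ∀ a ∈ U, y * a = a * y := by
    intro U hU a ha
    rw [Subgroup.commutator_eq_bot_iff_le_centralizer] at hU
    exact Subgroup.mem_centralizer_iff.mp (hU ha) y (Subgroup.mem_zpowers y)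
  have hnt : ⁅Q₁, Subgroup.zpowers y⁆ ≠ ⊥ := fun h => hya₀ (hcentY' Q₁ h a₀ ha₀)
  have hmin' : ∀ U : Subgroup G, U < Q₁ →
      Subgroup.zpowers x ≤ Subgroup.normalizer (U : Set G) → ⁅U, Subgroup.zpowers y⁆ = ⊥ := by
    intro U hU hxU
    by_contra hne
    apply hQ₁min U ?_ hU
    refine ⟨hU.le.trans hQ₁Q, hxU, ?_⟩
    by_contra hcon
    push Not at hcon
    exact hne (hcentY U hcon)
  have hAp : (Nat.card (Subgroup.zpowers y)).Coprime q := by
    rw [Nat.card_zpowers, hyo]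
    exact (Nat.coprime_primes hp hq).mpr hpq
  have hAn : Subgroup.zpowers x ≤ Subgroup.normalizer ((Subgroup.zpowers y : Subgroup G) : Set G) := by
    refine le_trans ?_ (Subgroup.centralizer_le_normalizer _)
    rw [Subgroup.zpowers_le, Subgroup.mem_centralizer_iff]
    intro h hh
    obtain ⟨k, rfl⟩ := Subgroup.mem_zpowers_iff.mp hh
    exact (hxy.symm.zpow_left k).eq
  obtain ⟨hcomm1, hstruct, hirrQ₁, -⟩ := Cfsg.Agent.S3736.result (p := q) (Subgroup.zpowers x)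
    (Subgroup.zpowers y) Q₁ hQ₁q hxQ₁ (Subgroup.zpowers_le.mpr hyx) hAn hAp hnt hmin'
  have hxN : x ∈ Subgroup.normalizer (Q₁ : Set G) := hxQ₁ (Subgroup.mem_zpowers x)
  have hxconj : ∀ d ∈ Q₁, x * d * x⁻¹ ∈ Q₁ := fun d hd =>
    (Subgroup.mem_normalizer_iff.mp hxN d).mp hd
  obtain ⟨k, hk⟩ := IsPGroup.iff_card.mp hQ₁q
  have hqp : (q ^ k).Coprime p := Nat.Coprime.pow_left _ ((Nat.coprime_primes hq hp).mpr hpq.symm)
  have hcardK : ((Nat.card ↥Q₁ : ℕ) : K) ≠ 0 := by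
    intro h
    rw [CharP.cast_eq_zero_iff K p, hk] at h
    have h2 : p ∣ Nat.gcd (q ^ k) p := Nat.dvd_gcd h dvd_rfl
    rw [hqp] at h2
    exact hp.one_lt.ne' (Nat.dvd_one.mp h2)
  by_cases hab : ∀ a ∈ Q₁, ∀ b ∈ Q₁, a * b = b * a
  · -- abelian case: contradiction
    exfalso
    have hcop : (Nat.card (Subgroup.zpowers y)).Coprime (Nat.card Q₁) := by
      rw [hk]; exact Nat.Coprime.pow_right _ hAp
    have hfix := Cfsg.Agent.S3736.fixed_le_commutator Q₁ (Subgroup.zpowers y)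
      ((Subgroup.zpowers_le.mpr hyx).trans hxQ₁) hcop hcomm1
    have hQ₁' : ⁅Q₁, Q₁⁆ = ⊥ := by
      rw [Subgroup.commutator_eq_bot_iff_le_centralizer]
      intro a ha
      rw [Subgroup.mem_centralizer_iff]
      intro b hb
      exact hab b hb a ha
    rw [hQ₁'] at hfix
    have hfree : ∀ i, 0 < i → i < p ^ (n + 1) → ∀ d ∈ Q₁, x ^ i * d = d * x ^ i → d = 1 := by
      intro i hi0 hi d hd hcom
      have h1 : Commute (x ^ p ^ n) d := commute_pow_prime_pow hp x d n i hxn hi0 hi hcom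
      rw [← hy] at h1
      have h2 : d ∈ Q₁ ⊓ Subgroup.centralizer ((Subgroup.zpowers y : Subgroup G) : Set G) := by
        refine Subgroup.mem_inf.mpr ⟨hd, ?_⟩
        rw [Subgroup.mem_centralizer_iff]
        intro h hh
        obtain ⟨j, rfl⟩ := Subgroup.mem_zpowers_iff.mp hh
        exact (h1.zpow_left j).eq
      exact Subgroup.mem_bot.mp (hfix h2)
    haveI : Fintype ↥Q₁ := Fintype.ofFinite _
    have hN' : ∑ i ∈ Finset.range (p ^ (n + 1)), ρ (x ^ i) = 0 := by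
      rw [← hN]
      exact Finset.sum_congr rfl (fun i _ => map_pow ρ x i)
    have hsum := frob_sum ρ Q₁ x (p ^ (n + 1)) hpm0 hxconj hfree hN'
    have h1 : ρ a₀ * ∑ d : ↥Q₁, ρ (d : G) = ∑ d : ↥Q₁, ρ (d : G) := by
      rw [Finset.mul_sum]
      rw [← Equiv.sum_comp (Equiv.mulLeft (⟨a₀, ha₀⟩ : ↥Q₁)) (fun d : ↥Q₁ => ρ (d : G))]
      apply Finset.sum_congr rfl
      intro d _
      rw [← map_mul]
      rfl
    rw [hsum] at h1
    have h2 : ((Fintype.card ↥Q₁ : ℕ) : Module.End K V) =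
        ((Nat.card ↥Q₁ : ℕ) : K) • (1 : Module.End K V) := by
      rw [Nat.card_eq_fintype_card, Nat.cast_smul_eq_nsmul, nsmul_one]
    rw [h2, mul_smul_comm, mul_one] at h1
    have h3 : ρ a₀ = 1 := smul_right_injective _ hcardK h1
    have h4 : a₀ = 1 := hfaith (h3.trans (map_one ρ).symm)
    rw [h4] at hya₀
    simp at hya₀
  · -- non-abelian case
    have hsp : IsSpecial q ↥Q₁ := by
      rcases hstruct with h | h
      · exfalso
        apply hab
        intro a ha b hb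
        haveI := h.1
        exact setLike_mul_comm ha hb
      · exact h
    obtain ⟨-, hfr, hcm⟩ := hsp
    obtain ⟨Φ₁, hΦ₁⟩ : ∃ Φ₁ : Subgroup G, Φ₁ = (frattini ↥Q₁).map Q₁.subtype := ⟨_, rfl⟩
    have hΦQ : Φ₁ ≤ Q₁ := by rw [hΦ₁]; exact Subgroup.map_subtype_le _
    have hmemΦ : ∀ a : ↥Q₁, (a : G) ∈ Φ₁ ↔ a ∈ Subgroup.center ↥Q₁ := by
      intro a
      rw [hΦ₁, ← hfr]
      constructor
      · rintro ⟨f, hf, hfe⟩
        have : f = a := Subtype.ext hfe
        rwa [← this]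
      · intro h
        exact ⟨a, h, rfl⟩
    have hZtop : Subgroup.center ↥Q₁ ≠ ⊤ := by
      intro h
      apply hab
      intro a ha b hb
      have h1 : (⟨a, ha⟩ : ↥Q₁) ∈ Subgroup.center ↥Q₁ := by rw [h]; trivial
      have h2 := Subgroup.mem_center_iff.mp h1 ⟨b, hb⟩
      exact (congrArg Subtype.val h2).symm
    have hΦlt : Φ₁ < Q₁ := by
      refine lt_of_le_of_ne hΦQ ?_
      intro h
      apply hZtop
      rw [eq_top_iff]
      intro a _
      rw [← hmemΦ, h]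
      exact a.2
    have hΦx : Subgroup.zpowers x ≤ Subgroup.normalizer (Φ₁ : Set G) := by
      rw [hΦ₁]
      exact hxQ₁.trans
        (Cfsg.Agent.H1.normalizer_le_normalizer_map_of_characteristic Q₁ (frattini ↥Q₁))
    have hΦy := hcentY' Φ₁ (hmin' Φ₁ hΦlt hΦx)
    have hΦcen : ∀ z ∈ Φ₁, z ∈ Subgroup.center G := by
      intro z hz
      have h1 : z ∈ Subgroup.centralizer ({y} : Set G) := by
        rw [Subgroup.mem_centralizer_iff]
        rintro _ rfl
        exact hΦy z hz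
      rw [hC y hyx hy1] at h1
      have h2 : z ∈ ((Subgroup.zpowers x ⊔ Subgroup.center G : Subgroup G) : Set G) := h1
      rw [Subgroup.mul_normal] at h2
      obtain ⟨u, hu, c, hc, rfl⟩ := Set.mem_mul.mp h2
      obtain ⟨j, hj⟩ := hQ₁q ⟨u * c, hΦQ hz⟩
      have hj' : (u * c) ^ q ^ j = 1 := congrArg Subtype.val hj
      have hcu : Commute u c := (Subgroup.mem_center_iff.mp hc u)
      rw [hcu.mul_pow] at hj'
      have h3 : u ^ q ^ j ∈ Subgroup.center G := by
        have : u ^ q ^ j = (c ^ q ^ j)⁻¹ := eq_inv_of_mul_eq_one_left hj'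
        rw [this]
        exact Subgroup.inv_mem _ (Subgroup.pow_mem _ hc _)
      have h4 : u ^ q ^ j = 1 := hcent_triv _ (Subgroup.pow_mem _ hu _) h3
      have h5 : u ^ p ^ (n + 1) = 1 := by
        obtain ⟨t, rfl⟩ := Subgroup.mem_zpowers_iff.mp hu
        rw [← zpow_natCast, ← zpow_mul, mul_comm, zpow_mul, zpow_natCast, hxn, one_zpow]
      have h6 : orderOf u ∣ Nat.gcd (q ^ j) (p ^ (n + 1)) :=
        Nat.dvd_gcd (orderOf_dvd_of_pow_eq_one h4) (orderOf_dvd_of_pow_eq_one h5)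
      have h7 : Nat.gcd (q ^ j) (p ^ (n + 1)) = 1 :=
        Nat.Coprime.pow _ _ ((Nat.coprime_primes hq hp).mpr hpq.symm)
      rw [h7] at h6
      have h8 : u = 1 := orderOf_eq_one_iff.mp (Nat.dvd_one.mp h6)
      rw [h8, one_mul]
      exact hc
    have hZG : ∀ z : ↥Q₁, z ∈ Subgroup.center ↥Q₁ → (z : G) ∈ Subgroup.center G :=
      fun z hz => hΦcen _ ((hmemΦ z).mpr hz)
    let ρ' : ↥Q₁ →* Module.End K V := ρ.comp Q₁.subtype
    have hρ' : ∀ a : ↥Q₁, ρ' a = ρ (a : G) := fun a => rfl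
    have hcop : (Nat.card ↥Q₁).Coprime p := by rw [hk]; exact hqp
    have hcomm : ∀ a b : ↥Q₁, a * b * a⁻¹ * b⁻¹ ∈ Subgroup.center ↥Q₁ := by
      intro a b
      rw [← hcm, commutator_def, ← commutatorElement_def]
      exact Subgroup.commutator_mem_commutator (Subgroup.mem_top a) (Subgroup.mem_top b)
    have hZs : ∀ z ∈ Subgroup.center ↥Q₁, ∃ c : K, ρ' z = c • 1 := fun z hz =>
      hscal (z : G) (fun a _ => (Subgroup.mem_center_iff.mp (hZG z hz) a).symm)
    have hnd : ∀ a : ↥Q₁, (∀ b : ↥Q₁, ρ' (b * a * b⁻¹ * a⁻¹) = 1) →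
        a ∈ Subgroup.center ↥Q₁ := by
      intro a ha
      rw [Subgroup.mem_center_iff]
      intro b
      have h1 : ((b * a * b⁻¹ * a⁻¹ : ↥Q₁) : G) = 1 := hfaith ((ha b).trans (map_one ρ).symm)
      have h2 : b * a * b⁻¹ * a⁻¹ = 1 := Subtype.ext h1
      have h3 : b * a * b⁻¹ = a := mul_inv_eq_one.mp h2
      exact mul_inv_eq_iff_eq_mul.mp h3
    obtain ⟨σ, hσ⟩ : ∃ σ : ↥Q₁ ≃* ↥Q₁, σ = Q₁.normalizerMonoidHom ⟨x, hxN⟩ := ⟨_, rfl⟩
    have hσiter : ∀ (i : ℕ) (a : ↥Q₁), (((⇑σ)^[i] a : ↥Q₁) : G) = x ^ i * a * (x ^ i)⁻¹ := by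
      intro i a
      rw [hσ]
      exact normConj_iterate Q₁ ⟨x, hxN⟩ i a
    have hσcoe : ∀ a : ↥Q₁, ((σ a : ↥Q₁) : G) = x * a * x⁻¹ := by
      intro a; rw [hσ]; rfl
    have hσZ : ∀ z ∈ Subgroup.center ↥Q₁, σ z = z := by
      intro z hz
      apply Subtype.ext
      rw [hσcoe]
      have h1 := Subgroup.mem_center_iff.mp (hZG z hz) x
      rw [h1, mul_inv_cancel_right]
    have hσm : ∀ a, (⇑σ)^[p ^ (n + 1)] a = a := by
      intro a
      apply Subtype.ext
      rw [hσiter, hxn]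
      simp
    have hfree : ∀ a, a ∉ Subgroup.center ↥Q₁ → ∀ i, 0 < i → i < p ^ (n + 1) →
        (⇑σ)^[i] a * a⁻¹ ∉ Subgroup.center ↥Q₁ := by
      intro a ha i hi0 hi hmem
      apply ha
      rw [← hmemΦ] at hmem ⊢
      have h1 : x ^ i * (a : G) * (x ^ i)⁻¹ * (a : G)⁻¹ ∈ Φ₁ := by
        have : (((⇑σ)^[i] a * a⁻¹ : ↥Q₁) : G) = x ^ i * (a : G) * (x ^ i)⁻¹ * (a : G)⁻¹ := by
          rw [Subgroup.coe_mul, hσiter]
          rfl
        rw [← this]; exact hmem
      rw [hΦ₁] at h1 ⊢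
      exact frattini_free hpq Q₁ hQ₁q x n hxn hxN hirrQ₁ ⟨a₀, ha₀, by rw [← hy]; exact hya₀⟩
        i hi0 hi a a.2 h1
    have hX : ρ x ^ p ^ (n + 1) = 1 := by rw [← map_pow, hxn, map_one]
    have hXρ : ∀ a : ↥Q₁, ρ x * ρ' a = ρ' (σ a) * ρ x := by
      intro a
      rw [hρ', hρ', hσcoe, ← map_mul, ← map_mul]
      congr 1
      group
    obtain ⟨hidx, hne⟩ := hhe_main p (n + 1) (by omega) ρ' (Subgroup.center ↥Q₁) hcop hcomm hZs
      hnd hZtop σ hσZ hσm hfree (ρ x) hX hXρ hN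
    refine ⟨?_, ?_, hne⟩
    · have h1 : (Subgroup.center ↥Q₁).index ∣ q ^ k := by
        rw [← hk]; exact Subgroup.index_dvd_card _
      rw [hidx] at h1
      have h2 : p ^ (n + 1) - 1 ∣ q ^ k := (dvd_pow_self _ two_ne_zero).trans h1
      obtain ⟨b, -, hb⟩ := (Nat.dvd_prime_pow hq).mp h2
      exact ⟨b, hb⟩
    · intro hQc
      apply hab
      intro a ha b hb
      exact setLike_mul_comm (hQ₁Q ha) (hQ₁Q hb)

/-- A critical case behind the Hall–Higman theorem. Let p ≠ q be primes and G a finite group generated by a normal q-subgroup Q and a cyclic p-subgroup generated by x, such that the centralizer of every non-identity element of that cyclic subgroup is its product with the centre of G. Let K be an algebraically closed field of characteristic p and ρ a faithful representation of G on a nonzero finite-dimensional K-space whose restriction to Q is irreducible. If s is the least exponent with (ρ(x) − 1)^s = 0, then |⟨x⟩|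 − 1 ≤ s ≤ |⟨x⟩|; and if s = |⟨x⟩| − 1 then |⟨x⟩| − 1 is a power of q and Q is non-abelian. -/
theorem result {G : Type*} [Group G] [Finite G] (p q : ℕ) [Fact p.Prime] [Fact q.Prime] (hpq : p ≠ q) (Q : Subgroup G) [Q.Normal] (hQ : IsPGroup q Q) (x : G) (hx : IsPGroup p (Subgroup.zpowers x)) (hgen : Q ⊔ Subgroup.zpowers x = ⊤) (hC : ∀ y ∈ Subgroup.zpowers x, y ≠ 1 → Subgroup.centralizer ({y} : Set G) = Subgroup.zpowers x ⊔ Subgroup.center G) {K : Type*} [Field K] [IsAlgClosed K] [CharP K p] {V : Type*} [AddCommGroup V] [Module K V] [FiniteDimensional K V] [Nontrivial V] (ρ : Representation K G V) (hfaith : Function.Injective ρ) (hirr : ∀ W : Submodule K V, (∀ g ∈ Q, Submodule.map (ρ g) W ≤ W) → W = ⊥ ∨ W = ⊤) (s : ℕ) (hs : (ρ x - 1) ^ s = 0) (hmin : ∀ k < s, (ρ x - 1) ^ k ≠ 0) : Nat.card (Subgroup.zpowers x) - 1 ≤ s ∧ s ≤ Nat.card (Subgroup.zpowers x) ∧ (s = Nat.card (Subgroup.zpowers x) - 1 → (∃ b : ℕ, Nat.card (Subgroup.zpowers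 x) - 1 = q ^ b) ∧ ¬ IsMulCommutative Q) := by
  have hp : p.Prime := Fact.out
  obtain ⟨n, hn⟩ := IsPGroup.iff_card.mp hx
  rw [hn]
  have hord : orderOf x = p ^ n := by rw [← Nat.card_zpowers]; exact hn
  have hXp : ρ x ^ p ^ n = 1 := by rw [← map_pow, ← hord, pow_orderOf_eq_one, map_one]
  have hnil : (ρ x - 1) ^ p ^ n = 0 := by
    rw [sub_one_pow_char_pow_alg (K := K) p n (ρ x), hXp, sub_self]
  have hsle : s ≤ p ^ n := by
    by_contra h
    exact hmin (p ^ n) (by omega) hnil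
  have hs0 : s ≠ 0 := by
    rintro rfl
    rw [pow_zero] at hs
    exact one_ne_zero hs
  have hirr' : ∀ W : Submodule K V, (∀ g ∈ Q, ∀ w ∈ W, ρ g w ∈ W) → W = ⊥ ∨ W = ⊤ := by
    intro W hW
    apply hirr W
    rintro g hg _ ⟨w, hw, rfl⟩
    exact hW g hg w hw
  rcases Nat.eq_zero_or_pos n with rfl | hnpos
  · rw [pow_zero] at hsle ⊢
    refine ⟨by omega, hsle, fun h => ?_⟩
    omega
  · obtain ⟨n', rfl⟩ : ∃ n', n = n' + 1 := ⟨n - 1, by omega⟩
    have hxn : x ^ p ^ (n' + 1) = 1 := by rw [← hord]; exact pow_orderOf_eq_one x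
    have hlt : p ^ n' < p ^ (n' + 1) := Nat.pow_lt_pow_right hp.one_lt (by omega)
    have hxn' : x ^ p ^ n' ≠ 1 := by
      intro h
      have h1 := orderOf_dvd_of_pow_eq_one h
      rw [hord] at h1
      exact absurd (Nat.le_of_dvd (pow_pos hp.pos _) h1) (by omega)
    have hgeom : ∑ i ∈ Finset.range (p ^ (n' + 1)), ρ x ^ i = (ρ x - 1) ^ (p ^ (n' + 1) - 1) :=
      geom_sum_eq_sub_one_pow (K := K) p (n' + 1) (ρ x)
    have h2 : 2 ≤ p ^ (n' + 1) := by
      have := Nat.one_le_pow n' p hp.pos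
      omega
    by_cases hN : ∑ i ∈ Finset.range (p ^ (n' + 1)), ρ x ^ i = 0
    · obtain ⟨hb, hQc, hne⟩ := core p q hpq Q hQ x n' hxn hxn' hgen hC ρ hfaith hirr' hN
      have h1 : p ^ (n' + 1) - 1 ≤ s := by
        by_contra h
        apply hne
        have e : p ^ (n' + 1) - 2 = s + (p ^ (n' + 1) - 2 - s) := by omega
        rw [e, pow_add, hs, zero_mul]
      exact ⟨h1, hsle, fun _ => ⟨hb, hQc⟩⟩
    · have h1 : s = p ^ (n' + 1) := by
        by_contra h
        apply hN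
        rw [hgeom]
        have e : p ^ (n' + 1) - 1 = s + (p ^ (n' + 1) - 1 - s) := by omega
        rw [e, pow_add, hs, zero_mul]
      refine ⟨by omega, hsle, fun h => ?_⟩
      omega

end Cfsg.Agent.S4282
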