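import Cfsg.Statements.S4283
import Cfsg.Agent.H75.FrobeniusThm
import Cfsg.Agent.H75.Pronormal
import Cfsg.Agent.Lib.Helper96.Frob

set_option autoImplicit false
open Cfsg

namespace Cfsg.Agent.S4283

open Cfsg.Agent.H75

/-- Let G be a finite group with centre Z and let K, H be abelian subgroups of G containing Z such that G/Z is a Frobenius group with complement H/Z and kernel K/Z. Then the conjugacy class sizes of G are exactly 1, [G : K] and [G : H], and these two indices are coprime. (This is the converse half of the characterization of finite groups whose conjugacy class sizes are exactly 1, m and n with m and n coprime.) -/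
theorem result {G : Type*} [Group G] [Finite G] (K H : Subgroup G) (hZK : Subgroup.center G ≤ K) (hZH : Subgroup.center G ≤ H) (hK : IsMulCommutative K) (hH : IsMulCommutative H) (hFrob : Cfsg.IsFrobeniusComplement (H.map (QuotientGroup.mk' (Subgroup.center G)))) (hker : Cfsg.frobeniusKernel (H.map (QuotientGroup.mk' (Subgroup.center G))) = (K.map (QuotientGroup.mk' (Subgroup.center G)) : Set (G ⧸ Subgroup.center G))) : Set.range (fun x : G => (Subgroup.centralizer ({x} : Set G)).index) = ({1, K.index, H.index} : Set ℕ) ∧ K.index.Coprime H.index := by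
  classical
  have hmap : ∀ (S : Subgroup G), Subgroup.center G ≤ S → ∀ g : G,
      QuotientGroup.mk' (Subgroup.center G) g ∈ S.map (QuotientGroup.mk' (Subgroup.center G))
        ↔ g ∈ S := by
    intro S hS g
    constructor
    · rintro ⟨s, hs, hsg⟩
      have h1 : s⁻¹ * g ∈ Subgroup.center G := QuotientGroup.eq.mp hsg
      have h2 : g = s * (s⁻¹ * g) := by group
      rw [h2]; exact S.mul_mem hs (hS h1)
    · intro hg; exact Subgroup.mem_map_of_mem _ hg
  have hπ1 : ∀ g : G, QuotientGroup.mk' (Subgroup.center G) g = 1 ↔ g ∈ Subgroup.center G :=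
    fun g => QuotientGroup.eq_one_iff g
  have hπconj : ∀ a g : G, (QuotientGroup.mk' (Subgroup.center G) a)⁻¹
      * QuotientGroup.mk' (Subgroup.center G) g * QuotientGroup.mk' (Subgroup.center G) a
      = QuotientGroup.mk' (Subgroup.center G) (a⁻¹ * g * a) := by
    intro a g; simp
  have hb : ∀ g : G, g ∉ H → ∀ x ∈ H, g⁻¹ * x * g ∈ H → x ∈ Subgroup.center G := by
    intro g hg x hx hx'
    rw [← hπ1]
    apply frob_ti hFrob (g := QuotientGroup.mk' (Subgroup.center G) g)
    · rwa [hmap H hZH]
    · rwa [hmap H hZH]
    · rw [hπconj, hmap H hZH]; exact hx'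
  have hc : ∀ g : G, g ∈ K ↔ (g ∈ Subgroup.center G ∨ ∀ a : G, a⁻¹ * g * a ∉ H) := by
    intro g
    rw [← hmap K hZK g, ← SetLike.mem_coe, ← hker, mem_frobeniusKernel_iff, hπ1]
    constructor
    · rintro (h | h)
      · left; exact h
      · right; intro a ha
        apply h (QuotientGroup.mk' (Subgroup.center G) a)
        rw [hπconj, hmap H hZH]; exact ha
    · rintro (h | h)
      · left; exact h
      · right; intro a' ha'
        obtain ⟨a, rfl⟩ := QuotientGroup.mk'_surjective (Subgroup.center G) a'
        rw [hπconj, hmap H hZH] at ha'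
        exact h a ha'
  have hcent : ∀ x g : G, g ∈ Subgroup.centralizer ({x} : Set G) ↔ x * g = g * x := by
    intro x g
    rw [Subgroup.mem_centralizer_iff]
    simp only [Set.mem_singleton_iff, forall_eq]
  -- case (i)
  have h_i : ∀ x : G, x ∈ Subgroup.center G → (Subgroup.centralizer ({x} : Set G)).index = 1 := by
    intro x hx
    rw [Subgroup.index_eq_one, eq_top_iff]
    intro g _
    rw [hcent]
    exact ((Subgroup.mem_center_iff.mp hx) g).symm
  -- case (ii)
  have h_ii : ∀ x : G, x ∈ K → x ∉ Subgroup.center G →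
      Subgroup.centralizer ({x} : Set G) = K := by
    intro x hxK hxZ
    apply le_antisymm
    · intro g hg
      rw [hcent] at hg
      by_contra hgK
      rw [hc] at hgK
      push Not at hgK
      obtain ⟨hgZ, a, ha⟩ := hgK
      -- x' = a⁻¹ x a ∈ K \ Z, not in H
      have hx'H : a⁻¹ * x * a ∉ H := by
        rcases (hc x).mp hxK with h | h
        · exact absurd h hxZ
        · exact h a
      have h1 : (a⁻¹ * x * a)⁻¹ * (a⁻¹ * g * a) * (a⁻¹ * x * a) = a⁻¹ * g * a := by
        have h2 : (a⁻¹ * x * a)⁻¹ * (a⁻¹ * g * a) * (a⁻¹ * x * a)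
            = a⁻¹ * (x⁻¹ * (g * x)) * a := by group
        rw [h2, ← hg]; group
      have h3 := hb _ hx'H _ ha (by rw [h1]; exact ha)
      apply hgZ
      have h4 : g = a * (a⁻¹ * g * a) * a⁻¹ := by group
      rw [h4]
      exact (Subgroup.normal_of_characteristic (Subgroup.center G)).conj_mem _ h3 a
    · intro k hk
      rw [hcent]
      exact setLike_mul_comm hxK hk
  -- case (iii)
  have h_iii : ∀ x : G, x ∉ K → (Subgroup.centralizer ({x} : Set G)).index = H.index := by
    intro x hxK
    rw [hc] at hxK
    push Not at hxK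
    obtain ⟨hxZ, a, ha⟩ := hxK
    have hx'Z : a⁻¹ * x * a ∉ Subgroup.center G := by
      intro h
      apply hxZ
      have h4 : x = a * (a⁻¹ * x * a) * a⁻¹ := by group
      rw [h4]
      exact (Subgroup.normal_of_characteristic (Subgroup.center G)).conj_mem _ h a
    have heq : Subgroup.centralizer ({x} : Set G) = H.map (MulAut.conj a).toMonoidHom := by
      ext g
      rw [hcent, mem_conjMap]
      constructor
      · intro hg
        by_contra hgH
        apply hx'Z
        apply hb _ hgH _ ha
        have h2 : (a⁻¹ * g * a)⁻¹ * (a⁻¹ * x * a) * (a⁻¹ * g * a)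
            = a⁻¹ * (g⁻¹ * (x * g)) * a := by group
        rw [h2, hg]
        have h3 : a⁻¹ * (g⁻¹ * (g * x)) * a = a⁻¹ * x * a := by group
        rw [h3]; exact ha
      · intro hg
        have h5 := setLike_mul_comm ha hg
        have h6 : x * g = a * ((a⁻¹ * x * a) * (a⁻¹ * g * a)) * a⁻¹ := by group
        have h7 : g * x = a * ((a⁻¹ * g * a) * (a⁻¹ * x * a)) * a⁻¹ := by group
        rw [h6, h7, h5]
    rw [heq]
    exact Subgroup.index_map_equiv H (MulAut.conj a)
  -- existence of elements
  have hcardK : Nat.card (K.map (QuotientGroup.mk' (Subgroup.center G)))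
      = (H.map (QuotientGroup.mk' (Subgroup.center G))).index := by
    rw [← card_frobeniusKernel hFrob, hker]; rfl
  have hexK : ∃ x ∈ K, x ∉ Subgroup.center G := by
    by_contra hcon
    push Not at hcon
    have h1 : K.map (QuotientGroup.mk' (Subgroup.center G)) = ⊥ := by
      rw [eq_bot_iff]
      rintro _ ⟨k, hk, rfl⟩
      rw [Subgroup.mem_bot, hπ1]
      exact hcon k hk
    rw [h1, Subgroup.card_bot] at hcardK
    exact hFrob.2.1 (Subgroup.index_eq_one.mp hcardK.symm)
  have hexH : ∃ x ∈ H, x ∉ Subgroup.center G := by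
    by_contra hcon
    push Not at hcon
    apply hFrob.1
    rw [eq_bot_iff]
    rintro _ ⟨h, hh, rfl⟩
    rw [Subgroup.mem_bot, hπ1]
    exact hcon h hh
  constructor
  · ext n
    simp only [Set.mem_range, Set.mem_insert_iff, Set.mem_singleton_iff]
    constructor
    · rintro ⟨x, rfl⟩
      by_cases hxZ : x ∈ Subgroup.center G
      · left; exact h_i x hxZ
      · by_cases hxK : x ∈ K
        · right; left; rw [h_ii x hxK hxZ]
        · right; right; exact h_iii x hxK
    · rintro (rfl | rfl | rfl)
      · exact ⟨1, h_i 1 (Subgroup.one_mem _)⟩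
      · obtain ⟨x, hxK, hxZ⟩ := hexK
        exact ⟨x, by rw [h_ii x hxK hxZ]⟩
      · obtain ⟨x, hxH, hxZ⟩ := hexH
        refine ⟨x, h_iii x ?_⟩
        intro hxK
        rcases (hc x).mp hxK with h | h
        · exact hxZ h
        · exact h 1 (by simpa using hxH)
  · have hsurj : Function.Surjective (QuotientGroup.mk' (Subgroup.center G)) :=
      QuotientGroup.mk'_surjective _
    have hkerπ : (QuotientGroup.mk' (Subgroup.center G)).ker = Subgroup.center G :=
      QuotientGroup.ker_mk' _
    have hKidx : (K.map (QuotientGroup.mk' (Subgroup.center G))).index = K.index :=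
      Subgroup.index_map_eq K hsurj (by rw [hkerπ]; exact hZK)
    have hHidx : (H.map (QuotientGroup.mk' (Subgroup.center G))).index = H.index :=
      Subgroup.index_map_eq H hsurj (by rw [hkerπ]; exact hZH)
    have hmod := Cfsg.Agent.Lib.Helper96.frob_index_mod hFrob
    have h1 := (K.map (QuotientGroup.mk' (Subgroup.center G))).index_mul_card
    have h2 := (H.map (QuotientGroup.mk' (Subgroup.center G))).index_mul_card
    rw [hcardK] at h1
    rw [← h2, mul_comm] at h1
    have hpos : 0 < (H.map (QuotientGroup.mk' (Subgroup.center G))).index :=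
      Nat.pos_of_ne_zero (Subgroup.index_ne_zero_of_finite)
    have h3 : (K.map (QuotientGroup.mk' (Subgroup.center G))).index
        = Nat.card (H.map (QuotientGroup.mk' (Subgroup.center G))) :=
      Nat.eq_of_mul_eq_mul_left hpos h1
    rw [← hKidx, ← hHidx, h3]
    rw [Nat.Coprime, Nat.gcd_rec, hmod, ← Nat.gcd_rec, Nat.gcd_one_right]
end Cfsg.Agent.S4283
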