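import Cfsg.Statements.S4292
import Cfsg.Agent.H98.FpfGroup

set_option autoImplicit false
open Cfsg

namespace Cfsg.Agent.S4292

open Cfsg.Agent.H98.FpfLift

/-- Let A and B be nontrivial finite groups. Then the direct product A × B occurs as a Frobenius complement if and only if A and B both occur as Frobenius complements and the orders of A and B are coprime. -/
theorem result {A B : Type*} [Group A] [Finite A] [Nontrivial A] [Group B] [Finite B] [Nontrivial B] :
    (∃ (L : Type) (_ : Group L) (_ : Finite L) (H : Subgroup L), Cfsg.IsFrobeniusComplement H ∧ Nonempty ((A × B) ≃* H)) ↔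
    ((∃ (L : Type) (_ : Group L) (_ : Finite L) (H : Subgroup L), Cfsg.IsFrobeniusComplement H ∧ Nonempty (A ≃* H)) ∧
     (∃ (L : Type) (_ : Group L) (_ : Finite L) (H : Subgroup L), Cfsg.IsFrobeniusComplement H ∧ Nonempty (B ≃* H)) ∧
     (Nat.card A).Coprime (Nat.card B)) := by
  constructor
  · intro hAB
    refine ⟨frob_of_injective hAB (MonoidHom.inl A B) (fun x y h => congrArg Prod.fst h),
      frob_of_injective hAB (MonoidHom.inr A B) (fun x y h => congrArg Prod.snd h), ?_⟩
    by_contra hnc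
    obtain ⟨p, hp, hpA, hpB⟩ := Nat.Prime.not_coprime_iff_dvd.mp hnc
    haveI : Fact p.Prime := ⟨hp⟩
    obtain ⟨a, ha⟩ := exists_prime_orderOf_dvd_card' (G := A) p hpA
    obtain ⟨b, hb⟩ := exists_prime_orderOf_dvd_card' (G := B) p hpB
    obtain ⟨V, i1, i2, i3, i4, r, hr, hexp, hfpf⟩ := exists_fpf_module hAB
    have ha1 : a ≠ 1 := by
      rintro rfl
      rw [orderOf_one] at ha
      exact hp.one_lt.ne ha
    have hb1 : b ≠ 1 := by
      rintro rfl
      rw [orderOf_one] at hb
      exact hp.one_lt.ne hb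
    have hap : a ^ p = 1 := by
      have h := pow_orderOf_eq_one a
      rwa [ha] at h
    have hbp : b ^ p = 1 := by
      have h := pow_orderOf_eq_one b
      rwa [hb] at h
    have hx1 : ((a, 1) : A × B) ≠ 1 := fun h => ha1 (congrArg Prod.fst h)
    have hx : ((a, 1) : A × B) ^ p = 1 := by
      rw [Prod.pow_mk, hap, one_pow]
      rfl
    have hy : ((1, b) : A × B) ^ p = 1 := by
      rw [Prod.pow_mk, hbp, one_pow]
      rfl
    have hxy : Commute ((a, 1) : A × B) ((1, b) : A × B) := by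
      show ((a, 1) : A × B) * (1, b) = (1, b) * (a, 1)
      rw [Prod.mk_mul_mk, Prod.mk_mul_mk, mul_one, one_mul, mul_one, one_mul]
    have hyx : ((1, b) : A × B) ∉ Subgroup.zpowers ((a, 1) : A × B) := by
      intro hmem
      obtain ⟨k, hk⟩ := Subgroup.mem_zpowers_iff.mp hmem
      have h2 := congrArg Prod.snd hk
      apply hb1
      have h3 : (1 : B) ^ k = b := h2
      rw [one_zpow] at h3
      exact h3.symm
    have hV : ∀ v : V, v ^ p = 1 := fun v =>
      @Cfsg.Agent.H1.FPF.pow_eq_one_of_pair (A × B) V _ i1 i4 hfpf p hp (a, 1) (1, b) hxy hx1 hx hy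
        hyx v
    obtain ⟨v, hv1, hv⟩ :=
      @Cfsg.Agent.H1.FPF.exists_fixed_of_pow (A × B) V _ i1 i4 i2 i3 p hp (a, 1) hx1 hx hV
    exact hv1 (hfpf _ hx1 v hv)
  · rintro ⟨hA, hB, hcop⟩
    obtain ⟨wA, hwA0, hwA⟩ := exists_fpfElt_of_frob hA
    obtain ⟨wB, hwB0, hwB⟩ := exists_fpfElt_of_frob hB
    obtain ⟨w, hw0, hw⟩ := fpfElt_prod hcop wA wB hwA0 hwB0 hwA hwB
    exact frob_of_fpfElt w hw0 hw

end Cfsg.Agent.S4292
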