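import Cfsg.Statements.S4295
import Cfsg.Agent.H75.FrobeniusQ8

set_option autoImplicit false
open Cfsg

namespace Cfsg.Agent.S4295

theorem q8_rel1 : (QuaternionGroup.a 1 : QuaternionGroup 2) * QuaternionGroup.a 1 ≠ 1 := by decide
theorem q8_rel2 : (QuaternionGroup.a 1 : QuaternionGroup 2) * QuaternionGroup.a 1
    * (QuaternionGroup.a 1 * QuaternionGroup.a 1) = 1 := by decide
theorem q8_rel3 : (QuaternionGroup.xa 0 : QuaternionGroup 2) * QuaternionGroup.xa 0
    = QuaternionGroup.a 1 * QuaternionGroup.a 1 := by decide
theorem q8_rel4 : (QuaternionGroup.xa 0 : QuaternionGroup 2) * QuaternionGroup.a 1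
    = QuaternionGroup.a 1 * QuaternionGroup.xa 0 * (QuaternionGroup.a 1 * QuaternionGroup.a 1) := by
  decide

/-- For a natural number m the following are equivalent: (a) some finite group has a Frobenius complement isomorphic to the quaternion group of order 8 whose Frobenius kernel (the identity together with the elements lying in no conjugate of the complement) has exactly m elements; (b) m is an odd perfect square greater than 1. -/
theorem result (m : ℕ) :
    (∃ (L : Type) (_ : Group L) (_ : Finite L) (H : Subgroup L), Cfsg.IsFrobeniusComplement H ∧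
        Nonempty (H ≃* QuaternionGroup 2) ∧ Nat.card (Cfsg.frobeniusKernel H) = m) ↔
    (Odd m ∧ IsSquare m ∧ 1 < m) := by
  constructor
  · rintro ⟨L, hL, hLf, H, hF, ⟨e⟩, hm⟩
    have key := H75.frobenius_kernel_odd_square hF
      ((e.symm (QuaternionGroup.a 1) : H) : L) ((e.symm (QuaternionGroup.xa 0) : H) : L)
      (e.symm (QuaternionGroup.a 1)).2 (e.symm (QuaternionGroup.xa 0)).2
      (by
        intro h
        apply q8_rel1
        have h1 : e.symm (QuaternionGroup.a 1 * QuaternionGroup.a 1) = 1 := by
          apply Subtype.ext
          rw [map_mul]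
          exact h
        have h2 := congrArg e h1
        rwa [e.apply_symm_apply, map_one] at h2)
      (by
        have h1 := congrArg (fun g => ((e.symm g : H) : L)) q8_rel2
        simpa only [map_mul, map_one, Subgroup.coe_mul, Subgroup.coe_one] using h1)
      (by
        have h1 := congrArg (fun g => ((e.symm g : H) : L)) q8_rel3
        simpa only [map_mul, map_one, Subgroup.coe_mul, Subgroup.coe_one] using h1)
      (by
        have h1 := congrArg (fun g => ((e.symm g : H) : L)) q8_rel4
        simpa only [map_mul, map_one, Subgroup.coe_mul, Subgroup.coe_one] using h1)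
    rw [hm] at key
    refine ⟨key.1, key.2, ?_⟩
    have hidx := H75.card_frobeniusKernel hF
    rw [hm] at hidx
    have hm0 : m ≠ 0 := by
      intro h0
      rw [h0] at key
      exact absurd key.1 (by decide)
    have hm1 : m ≠ 1 := by
      intro h1
      rw [h1] at hidx
      exact hF.2.1 (Subgroup.index_eq_one.mp hidx.symm)
    omega
  · rintro ⟨hodd, ⟨k, rfl⟩, h1⟩
    have hk : Odd k := (Nat.odd_mul.mp hodd).1
    have hk1 : 1 < k := by
      by_contra hcon
      have : k ≤ 1 := by omega
      interval_cases k <;> omega
    exact H75.q8_frobenius_of_odd k hk hk1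

end Cfsg.Agent.S4295
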