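import Cfsg.Statements.S4296
import Cfsg.Agent.Lib.Helper96.Frob6
import Cfsg.Agent.H75.FrobeniusQ8

set_option autoImplicit false
open Cfsg

namespace Cfsg.Agent.S4296

/-- Let H be a Frobenius complement in a finite group, and suppose some Sylow subgroup of H is not cyclic. Then the number of elements of the Frobenius kernel (the identity together with the elements lying in no conjugate of H) is an odd perfect square. -/
theorem result {L : Type*} [Group L] [Finite L] (H : Subgroup L) (hF : Cfsg.IsFrobeniusComplement H)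
    (hZ : ∃ (p : ℕ) (_ : Fact p.Prime) (P : Sylow p H), ¬ IsCyclic P) :
    Odd (Nat.card (Cfsg.frobeniusKernel H)) ∧ IsSquare (Nat.card (Cfsg.frobeniusKernel H)) := by
  classical
  obtain ⟨p, hp, P, hP⟩ := hZ
  obtain ⟨K, hKn, hKbot, hKc, hfpf⟩ := Lib.Helper96.frob_exists_kernel hF
  haveI := hKn
  rcases Lib.Helper96.fpf_sylow_cyclic_or_quaternion (Lib.Helper96.s41 L) K H hKbot hfpf p P
    with h | ⟨n, ⟨e⟩⟩
  · exact absurd h hP
  · have hn : n ≠ 0 := by
      rintro rfl
      apply hP
      haveI : IsCyclic (QuaternionGroup (2 ^ 0)) := QuaternionGroup.quaternionGroup_one_isCyclic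
      exact isCyclic_of_surjective e.symm e.symm.surjective
    obtain ⟨k, rfl⟩ : ∃ k, n = k + 1 := Nat.exists_eq_succ_of_ne_zero hn
    have hmpos : 0 < 2 ^ (k + 1) := pos_of_ne_zero (by positivity)
    set m := 2 ^ (k + 1) with hm
    set c : ZMod (2 * m) := ((2 ^ k : ℕ) : ZMod (2 * m)) with hc
    have hcc : c + c = (m : ZMod (2 * m)) := by
      rw [hc, hm, ← Nat.cast_add]
      congr 1
      rw [pow_succ]; ring
    have hm0 : (m : ZMod (2 * m)) ≠ 0 := by
      intro h
      rw [ZMod.natCast_eq_zero_iff] at h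
      have := Nat.le_of_dvd hmpos h
      omega
    have h2m : (m : ZMod (2 * m)) + (m : ZMod (2 * m)) = 0 := by
      rw [← Nat.cast_add, ← two_mul]
      exact ZMod.natCast_self (2 * m)
    let x₀ : QuaternionGroup m := QuaternionGroup.a c
    let y₀ : QuaternionGroup m := QuaternionGroup.xa 0
    have hxx : x₀ * x₀ = QuaternionGroup.a (m : ZMod (2 * m)) := by
      change QuaternionGroup.a c * QuaternionGroup.a c = _
      rw [QuaternionGroup.a_mul_a, hcc]
    have hx2 : x₀ * x₀ ≠ 1 := by
      rw [hxx, QuaternionGroup.one_def]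
      intro h
      exact hm0 (QuaternionGroup.a.inj h)
    have hx4 : x₀ * x₀ * (x₀ * x₀) = 1 := by
      rw [hxx, QuaternionGroup.a_mul_a, h2m, QuaternionGroup.one_def]
    have hxy : y₀ * y₀ = x₀ * x₀ := by
      rw [hxx]
      change QuaternionGroup.xa 0 * QuaternionGroup.xa 0 = _
      rw [QuaternionGroup.xa_mul_xa]
      congr 1
      ring
    have hyx : y₀ * x₀ = x₀ * y₀ * (x₀ * x₀) := by
      rw [hxx]
      change QuaternionGroup.xa 0 * QuaternionGroup.a c
        = QuaternionGroup.a c * QuaternionGroup.xa 0 * QuaternionGroup.a (m : ZMod (2 * m))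
      rw [QuaternionGroup.xa_mul_a, QuaternionGroup.a_mul_xa, QuaternionGroup.xa_mul_a, ← hcc]
      congr 1
      ring
    let f : QuaternionGroup m →* L :=
      (H.subtype.comp (P : Subgroup H).subtype).comp e.symm.toMonoidHom
    have hf : Function.Injective f := by
      intro u v huv
      apply e.symm.injective
      exact Subtype.ext (Subtype.ext huv)
    have hfH : ∀ u, f u ∈ H := fun u => (e.symm u).1.2
    apply H75.frobenius_kernel_odd_square hF (f x₀) (f y₀) (hfH _) (hfH _)
    · intro h
      apply hx2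
      apply hf
      rw [map_mul, h, map_one]
    · rw [← map_mul, ← map_mul, hx4, map_one]
    · rw [← map_mul, ← map_mul, hxy]
    · rw [← map_mul, ← map_mul, ← map_mul, ← map_mul, hyx]

end Cfsg.Agent.S4296
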