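import Cfsg.Statements.S4297
import Cfsg.Agent.H75.Frobenius

set_option autoImplicit false
open Cfsg

namespace Cfsg.Agent.S4297

/-- the action of the dicyclic group on the plane `F × F` through a character `z` -/
def qact {F : Type*} [Field F] (n : ℕ) (z : ZMod (2 * n) → F) :
    QuaternionGroup n → F × F → F × F
  | .a i, v => (z i * v.1, (z i)⁻¹ * v.2)
  | .xa i, v => ((z i)⁻¹ * v.2, -(z i * v.1))

theorem qact_fpf {F : Type*} [Field F] [Finite F] (n : ℕ) [NeZero n] (z : ZMod (2 * n) → F)
    (h2 : (2 : F) ≠ 0)
    (hz0 : ∀ i, z i ≠ 0) (hadd : ∀ i j, z (i + j) = z i * z j) (hn : z n = -1)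
    (hinj : ∀ i, z i = 1 → i = 0) :
    ∃ (L : Type) (_ : Group L) (_ : Finite L) (H : Subgroup L),
      Cfsg.IsFrobeniusComplement H ∧ Nonempty (H ≃* QuaternionGroup n) := by
  have hzero : z 0 = 1 := by
    have h := hadd 0 0
    rw [add_zero] at h
    have h0 := hz0 0
    field_simp at h
    exact h.symm
  have hsub : ∀ i j, z (j - i) = z j * (z i)⁻¹ := by
    intro i j
    have h := hadd (j - i) i
    rw [sub_add_cancel] at h
    rw [h, mul_assoc, mul_inv_cancel₀ (hz0 i), mul_one]
  letI : DistribMulAction (QuaternionGroup n) (F × F) :=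
    { smul := qact n z
      one_smul := by
        rintro ⟨v, w⟩
        change qact n z (QuaternionGroup.a 0) (v, w) = (v, w)
        simp [qact, hzero]
      mul_smul := by
        rintro (i | i) (j | j) ⟨v, w⟩
        · change qact n z (QuaternionGroup.a i * QuaternionGroup.a j) (v, w)
            = qact n z (QuaternionGroup.a i) (qact n z (QuaternionGroup.a j) (v, w))
          rw [QuaternionGroup.a_mul_a]
          simp only [qact, hadd]
          have := hz0 i; have := hz0 j
          ext
          · simp only; ring
          · simp only; field_simp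
        · change qact n z (QuaternionGroup.a i * QuaternionGroup.xa j) (v, w)
            = qact n z (QuaternionGroup.a i) (qact n z (QuaternionGroup.xa j) (v, w))
          rw [QuaternionGroup.a_mul_xa]
          simp only [qact, hsub]
          have := hz0 i; have := hz0 j
          ext
          · simp only; field_simp
          · simp only; field_simp
        · change qact n z (QuaternionGroup.xa i * QuaternionGroup.a j) (v, w)
            = qact n z (QuaternionGroup.xa i) (qact n z (QuaternionGroup.a j) (v, w))
          rw [QuaternionGroup.xa_mul_a]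
          simp only [qact, hadd]
          have := hz0 i; have := hz0 j
          ext
          · simp only; field_simp
          · simp only; ring
        · change qact n z (QuaternionGroup.xa i * QuaternionGroup.xa j) (v, w)
            = qact n z (QuaternionGroup.xa i) (qact n z (QuaternionGroup.xa j) (v, w))
          rw [QuaternionGroup.xa_mul_xa]
          simp only [qact, hsub, hadd, hn]
          have := hz0 i; have := hz0 j
          ext
          · simp only; field_simp
          · simp only; field_simp
      smul_zero := by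
        rintro (i | i)
        · change qact n z (QuaternionGroup.a i) (0, 0) = (0, 0)
          simp [qact]
        · change qact n z (QuaternionGroup.xa i) (0, 0) = (0, 0)
          simp [qact]
      smul_add := by
        rintro (i | i) ⟨v, w⟩ ⟨v', w'⟩
        · change qact n z (QuaternionGroup.a i) (v + v', w + w')
            = qact n z (QuaternionGroup.a i) (v, w) + qact n z (QuaternionGroup.a i) (v', w')
          simp only [qact, Prod.mk_add_mk]
          ext
          · simp only; ring
          · simp only; ring
        · change qact n z (QuaternionGroup.xa i) (v + v', w + w')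
            = qact n z (QuaternionGroup.xa i) (v, w) + qact n z (QuaternionGroup.xa i) (v', w')
          simp only [qact, Prod.mk_add_mk]
          ext
          · simp only; ring
          · simp only; ring }
  have hfin : Finite (QuaternionGroup n) := inferInstance
  obtain ⟨L, hL, hLf, H, hH, ⟨e⟩, -⟩ :=
    H75.frobenius_of_fpf_distrib (V := F × F) (H := QuaternionGroup n) (by
      rintro (i | i) hne ⟨v, w⟩ hv
      · change qact n z (QuaternionGroup.a i) (v, w) = (v, w) at hv
        simp only [qact, Prod.mk.injEq] at hv
        have hi : z i ≠ 1 := by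
          intro h
          apply hne
          rw [hinj i h]
          rfl
        have hi' : z i - 1 ≠ 0 := sub_ne_zero.mpr hi
        have h1 : (z i - 1) * v = 0 := by rw [sub_mul, one_mul, hv.1, sub_self]
        have h3 : (z i)⁻¹ ≠ 1 := fun h => hi (inv_eq_one.mp h)
        have h4 : ((z i)⁻¹ - 1) * w = 0 := by rw [sub_mul, one_mul, hv.2, sub_self]
        have hv0 : v = 0 := (mul_eq_zero.mp h1).resolve_left hi'
        have hw0 : w = 0 := (mul_eq_zero.mp h4).resolve_left (sub_ne_zero.mpr h3)
        rw [hv0, hw0]; rfl
      · change qact n z (QuaternionGroup.xa i) (v, w) = (v, w) at hv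
        simp only [qact, Prod.mk.injEq] at hv
        obtain ⟨hv1, hv2⟩ := hv
        have h0 := hz0 i
        have h5 : (2 : F) * w = 0 := by
          have : w = -w := by
            conv_lhs => rw [← hv2, ← hv1]
            field_simp
          linear_combination this
        have hw0 : w = 0 := (mul_eq_zero.mp h5).resolve_left h2
        have hv0 : v = 0 := by rw [← hv1, hw0, mul_zero]
        rw [hv0, hw0]; rfl)
  exact ⟨L, hL, hLf, H, hH, ⟨e.symm⟩⟩

/-- For every n ≥ 2 the dicyclic group of order 4n (generated by an element a of order 2n and an element x with x² = aⁿ and x a x⁻¹ = a⁻¹) occurs as a Frobenius complement of some finite Frobenius group. -/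
theorem result (n : ℕ) (hn : 2 ≤ n) :
    ∃ (L : Type) (_ : Group L) (_ : Finite L) (H : Subgroup L), Cfsg.IsFrobeniusComplement H ∧ Nonempty (H ≃* QuaternionGroup n) := by
  classical
  haveI : NeZero n := ⟨by omega⟩
  have hn0 : 2 * n ≠ 0 := by omega
  obtain ⟨p, hp, -, hpn⟩ := Nat.exists_prime_gt_modEq_one (k := 2 * n) 0 hn0
  haveI : Fact p.Prime := ⟨hp⟩
  have hdvd : 2 * n ∣ p - 1 := (Nat.modEq_iff_dvd' hp.one_lt.le).mp hpn.symm
  have hcardU : Nat.card (ZMod p)ˣ = p - 1 := by
    rw [Nat.card_eq_fintype_card, ZMod.card_units_eq_totient, Nat.totient_prime hp]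
  obtain ⟨g, hg⟩ := IsCyclic.exists_generator (α := (ZMod p)ˣ)
  have hog : orderOf g = p - 1 := by
    rw [orderOf_eq_card_of_forall_mem_zpowers hg, hcardU]
  obtain ⟨m, hm⟩ := hdvd
  have hm0 : m ≠ 0 := by
    rintro rfl
    have : p - 1 = 0 := by simpa using hm
    have := hp.one_lt
    omega
  let u : (ZMod p)ˣ := g ^ m
  have hou : orderOf u = 2 * n := by
    have h1 : orderOf u = orderOf g / Nat.gcd (orderOf g) m := orderOf_pow' g hm0
    rw [h1, hog, hm, Nat.gcd_mul_left_left, Nat.mul_div_cancel _ (Nat.pos_of_ne_zero hm0)]
  have hp2 : p ≠ 2 := by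
    rintro rfl
    have : 2 * n * m = 1 := by omega
    have h3 : 2 ∣ 1 := ⟨n * m, by rw [← this]; ring⟩
    omega
  have h2 : (2 : ZMod p) ≠ 0 := by
    intro h
    have h3 : ((2 : ℕ) : ZMod p) = 0 := by exact_mod_cast h
    rw [ZMod.natCast_eq_zero_iff] at h3
    have := Nat.le_of_dvd (by norm_num) h3
    have := hp.two_le
    omega
  let z : ZMod (2 * n) → ZMod p := fun i => ((u ^ i.val : (ZMod p)ˣ) : ZMod p)
  have hzadd : ∀ i j, z (i + j) = z i * z j := by
    intro i j
    change ((u ^ (i + j).val : (ZMod p)ˣ) : ZMod p) = ((u ^ i.val : (ZMod p)ˣ) : ZMod p) *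
      ((u ^ j.val : (ZMod p)ˣ) : ZMod p)
    rw [← Units.val_mul, ← pow_add]
    congr 1
    rw [pow_eq_pow_iff_modEq, hou, ZMod.val_add]
    exact Nat.mod_modEq _ _
  have hzinj : ∀ i, z i = 1 → i = 0 := by
    intro i hi
    have h1 : u ^ i.val = 1 := by
      ext
      rw [Units.val_one]; exact hi
    have h3 := orderOf_dvd_of_pow_eq_one h1
    rw [hou] at h3
    have h4 : i.val < 2 * n := ZMod.val_lt i
    have h5 : i.val = 0 := Nat.eq_zero_of_dvd_of_lt h3 h4
    exact (ZMod.val_eq_zero i).mp h5
  have hzn : z (n : ZMod (2 * n)) = -1 := by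
    have hval : ((n : ZMod (2 * n))).val = n := ZMod.val_natCast_of_lt (by omega)
    have hne : z (n : ZMod (2 * n)) ≠ 1 := by
      intro h
      have h1 := hzinj _ h
      have h3 := congrArg ZMod.val h1
      rw [hval, ZMod.val_zero] at h3
      omega
    have hsq : z (n : ZMod (2 * n)) * z (n : ZMod (2 * n)) = 1 := by
      rw [← hzadd]
      have h0 : (n : ZMod (2 * n)) + (n : ZMod (2 * n)) = 0 := by
        have : ((2 * n : ℕ) : ZMod (2 * n)) = 0 := ZMod.natCast_self _
        rw [← this]; push_cast; ring
      rw [h0]
      change ((u ^ (0 : ZMod (2 * n)).val : (ZMod p)ˣ) : ZMod p) = 1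
      rw [ZMod.val_zero, pow_zero, Units.val_one]
    rcases mul_self_eq_one_iff.mp hsq with h | h
    · exact absurd h hne
    · exact h
  exact qact_fpf n z h2 (fun i => Units.ne_zero _) hzadd hzn hzinj

end Cfsg.Agent.S4297
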