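import Cfsg.Statements.S4298
import Cfsg.Agent.H75.Frobenius

set_option autoImplicit false
open Cfsg

namespace Cfsg.Agent.S4298

/-- the lift `0 ↦ 0, 1 ↦ 1, 2 ↦ -1` from `ZMod 3` to `ZMod 5` -/
def lift35 (x : ZMod 3) : ZMod 5 := if x = 0 then 0 else if x = 1 then 1 else 4

/-- the scalar `1` for the units `±1, ±i, ±j, ±k` and `-1/2` for the other Hurwitz units -/
def scal (al be ga de : ZMod 3) : ZMod 5 :=
  if ((if al = 0 then 0 else 1) + (if be = 0 then 0 else 1) + (if ga = 0 then 0 else 1)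
    + (if de = 0 then 0 else 1) : ℕ) = 1 then 1 else 2

/-- the scalar attached to a matrix -/
def sc (a b c d : ZMod 3) : ZMod 5 := scal (-(a + d)) (-(c - b)) (a - d + b + c) (b + c - a + d)

/-- entry `(0,0)` of the image in `SL(2,5)` of a matrix of `SL(2,3)` -/
def imgA (a b c d : ZMod 3) : ZMod 5 := sc a b c d * (lift35 (-(a + d)) + 2 * lift35 (-(c - b)))
/-- entry `(0,1)` -/
def imgB (a b c d : ZMod 3) : ZMod 5 :=
  sc a b c d * (lift35 (a - d + b + c) + 2 * lift35 (b + c - a + d))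
/-- entry `(1,0)` -/
def imgC (a b c d : ZMod 3) : ZMod 5 :=
  sc a b c d * (-lift35 (a - d + b + c) + 2 * lift35 (b + c - a + d))
/-- entry `(1,1)` -/
def imgD (a b c d : ZMod 3) : ZMod 5 := sc a b c d * (lift35 (-(a + d)) - 2 * lift35 (-(c - b)))

set_option maxRecDepth 100000 in
theorem img_mul : ∀ a b c d a' b' c' d' : ZMod 3, a * d - b * c = 1 → a' * d' - b' * c' = 1 →
    (imgA (a * a' + b * c') (a * b' + b * d') (c * a' + d * c') (c * b' + d * d')
      = imgA a b c d * imgA a' b' c' d' + imgB a b c d * imgC a' b' c' d' ∧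
    imgB (a * a' + b * c') (a * b' + b * d') (c * a' + d * c') (c * b' + d * d')
      = imgA a b c d * imgB a' b' c' d' + imgB a b c d * imgD a' b' c' d' ∧
    imgC (a * a' + b * c') (a * b' + b * d') (c * a' + d * c') (c * b' + d * d')
      = imgC a b c d * imgA a' b' c' d' + imgD a b c d * imgC a' b' c' d' ∧
    imgD (a * a' + b * c') (a * b' + b * d') (c * a' + d * c') (c * b' + d * d')
      = imgC a b c d * imgB a' b' c' d' + imgD a b c d * imgD a' b' c' d') := by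
  decide +kernel

theorem img_fpf : ∀ a b c d : ZMod 3, a * d - b * c = 1 → ¬ (a = 1 ∧ b = 0 ∧ c = 0 ∧ d = 1) →
    (imgA a b c d - 1) * (imgD a b c d - 1) - imgB a b c d * imgC a b c d ≠ 0 := by
  decide +kernel

theorem img_one : imgA 1 0 0 1 = 1 ∧ imgB 1 0 0 1 = 0 ∧ imgC 1 0 0 1 = 0 ∧ imgD 1 0 0 1 = 1 := by
  decide +kernel

/-- the action of `SL(2,3)` on the plane over `ZMod 5` -/
def sact (M : Matrix.SpecialLinearGroup (Fin 2) (ZMod 3)) (v : ZMod 5 × ZMod 5) :
    ZMod 5 × ZMod 5 :=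
  (imgA (M 0 0) (M 0 1) (M 1 0) (M 1 1) * v.1 + imgB (M 0 0) (M 0 1) (M 1 0) (M 1 1) * v.2,
   imgC (M 0 0) (M 0 1) (M 1 0) (M 1 1) * v.1 + imgD (M 0 0) (M 0 1) (M 1 0) (M 1 1) * v.2)

theorem det_cond (M : Matrix.SpecialLinearGroup (Fin 2) (ZMod 3)) :
    M 0 0 * M 1 1 - M 0 1 * M 1 0 = 1 := by
  have := M.det_coe
  rwa [Matrix.det_fin_two] at this

theorem mul_entries (M N : Matrix.SpecialLinearGroup (Fin 2) (ZMod 3)) :
    (M * N) 0 0 = M 0 0 * N 0 0 + M 0 1 * N 1 0 ∧ (M * N) 0 1 = M 0 0 * N 0 1 + M 0 1 * N 1 1 ∧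
    (M * N) 1 0 = M 1 0 * N 0 0 + M 1 1 * N 1 0 ∧ (M * N) 1 1 = M 1 0 * N 0 1 + M 1 1 * N 1 1 := by
  simp [Matrix.SpecialLinearGroup.coe_mul, Matrix.mul_apply, Fin.sum_univ_two]

theorem one_entries : (1 : Matrix.SpecialLinearGroup (Fin 2) (ZMod 3)) 0 0 = 1 ∧
    (1 : Matrix.SpecialLinearGroup (Fin 2) (ZMod 3)) 0 1 = 0 ∧
    (1 : Matrix.SpecialLinearGroup (Fin 2) (ZMod 3)) 1 0 = 0 ∧
    (1 : Matrix.SpecialLinearGroup (Fin 2) (ZMod 3)) 1 1 = 1 := by
  simp [Matrix.SpecialLinearGroup.coe_one]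

/-- The group SL(2,3) of order 24 (the binary tetrahedral group) occurs as a Frobenius complement of some finite Frobenius group. -/
theorem result :
    ∃ (L : Type) (_ : Group L) (_ : Finite L) (H : Subgroup L), Cfsg.IsFrobeniusComplement H ∧ Nonempty (H ≃* Matrix.SpecialLinearGroup (Fin 2) (ZMod 3)) := by
  classical
  letI : DistribMulAction (Matrix.SpecialLinearGroup (Fin 2) (ZMod 3)) (ZMod 5 × ZMod 5) :=
    { smul := sact
      one_smul := by
        rintro ⟨v, w⟩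
        change sact 1 (v, w) = (v, w)
        obtain ⟨e1, e2, e3, e4⟩ := one_entries
        obtain ⟨h1, h2, h3, h4⟩ := img_one
        simp only [sact]
        rw [e1, e2, e3, e4, h1, h2, h3, h4]
        ext <;> simp
      mul_smul := by
        rintro M N ⟨v, w⟩
        change sact (M * N) (v, w) = sact M (sact N (v, w))
        obtain ⟨e1, e2, e3, e4⟩ := mul_entries M N
        obtain ⟨hA, hB, hC, hD⟩ := img_mul _ _ _ _ _ _ _ _ (det_cond M) (det_cond N)
        simp only [sact]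
        rw [e1, e2, e3, e4, hA, hB, hC, hD]
        ext
        · simp only; ring
        · simp only; ring
      smul_zero := by
        intro M
        change sact M (0, 0) = (0, 0)
        simp [sact]
      smul_add := by
        rintro M ⟨v, w⟩ ⟨v', w'⟩
        change sact M (v + v', w + w') = sact M (v, w) + sact M (v', w')
        simp only [sact, Prod.mk_add_mk]
        ext
        · simp only; ring
        · simp only; ring }
  haveI : Fact (Nat.Prime 5) := ⟨by norm_num⟩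
  haveI : Nontrivial (Matrix.SpecialLinearGroup (Fin 2) (ZMod 3)) := by
    refine ⟨⟨-1, 1, ?_⟩⟩
    intro h
    have h1 := congrArg (fun M : Matrix.SpecialLinearGroup (Fin 2) (ZMod 3) => M 0 0) h
    revert h1
    simp only [Matrix.SpecialLinearGroup.coe_neg, Matrix.SpecialLinearGroup.coe_one,
      Matrix.neg_apply, Matrix.one_apply_eq]
    decide
  obtain ⟨L, hL, hLf, H, hH, ⟨e⟩, -⟩ :=
    H75.frobenius_of_fpf_distrib (V := ZMod 5 × ZMod 5)
      (H := Matrix.SpecialLinearGroup (Fin 2) (ZMod 3)) (by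
      rintro M hne ⟨v, w⟩ hv
      change sact M (v, w) = (v, w) at hv
      simp only [sact, Prod.mk.injEq] at hv
      obtain ⟨hv1, hv2⟩ := hv
      have hM : ¬ (M 0 0 = 1 ∧ M 0 1 = 0 ∧ M 1 0 = 0 ∧ M 1 1 = 1) := by
        rintro ⟨h1, h2, h3, h4⟩
        apply hne
        ext i j
        fin_cases i <;> fin_cases j <;> simp [h1, h2, h3, h4]
      have hdet := img_fpf _ _ _ _ (det_cond M) hM
      have h5 : ((imgA (M 0 0) (M 0 1) (M 1 0) (M 1 1) - 1) *
          (imgD (M 0 0) (M 0 1) (M 1 0) (M 1 1) - 1) -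
          imgB (M 0 0) (M 0 1) (M 1 0) (M 1 1) * imgC (M 0 0) (M 0 1) (M 1 0) (M 1 1)) * v = 0 := by
        linear_combination (imgD (M 0 0) (M 0 1) (M 1 0) (M 1 1) - 1) * hv1
          - imgB (M 0 0) (M 0 1) (M 1 0) (M 1 1) * hv2
      have h6 : ((imgA (M 0 0) (M 0 1) (M 1 0) (M 1 1) - 1) *
          (imgD (M 0 0) (M 0 1) (M 1 0) (M 1 1) - 1) -
          imgB (M 0 0) (M 0 1) (M 1 0) (M 1 1) * imgC (M 0 0) (M 0 1) (M 1 0) (M 1 1)) * w = 0 := by
        linear_combination (imgA (M 0 0) (M 0 1) (M 1 0) (M 1 1) - 1) * hv2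
          - imgC (M 0 0) (M 0 1) (M 1 0) (M 1 1) * hv1
      have hv0 : v = 0 := (mul_eq_zero.mp h5).resolve_left hdet
      have hw0 : w = 0 := (mul_eq_zero.mp h6).resolve_left hdet
      rw [hv0, hw0]; rfl)
  exact ⟨L, hL, hLf, H, hH, ⟨e.symm⟩⟩

end Cfsg.Agent.S4298
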