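import Cfsg.Statements.S4299
import Cfsg.Agent.H75.Frobenius

set_option autoImplicit false
open Cfsg

namespace Cfsg.Agent.S4299

/-- Every nontrivial finite cyclic group occurs as a Frobenius complement of some finite Frobenius group. -/
theorem result {C : Type*} [Group C] [Finite C] [IsCyclic C] [Nontrivial C] :
    ∃ (L : Type) (_ : Group L) (_ : Finite L) (H : Subgroup L), Cfsg.IsFrobeniusComplement H ∧ Nonempty (C ≃* H) := by
  classical
  have hn0 : Nat.card C ≠ 0 := Nat.card_pos.ne'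
  obtain ⟨p, hp, -, hpn⟩ := Nat.exists_prime_gt_modEq_one (k := Nat.card C) 0 hn0
  haveI : Fact p.Prime := ⟨hp⟩
  have hdvd : Nat.card C ∣ p - 1 := (Nat.modEq_iff_dvd' hp.one_lt.le).mp hpn.symm
  have hcardU : Nat.card (ZMod p)ˣ = p - 1 := by
    rw [Nat.card_eq_fintype_card, ZMod.card_units_eq_totient, Nat.totient_prime hp]
  obtain ⟨g, hg⟩ := IsCyclic.exists_generator (α := (ZMod p)ˣ)
  have hog : orderOf g = p - 1 := by
    rw [orderOf_eq_card_of_forall_mem_zpowers hg, hcardU]
  obtain ⟨m, hm⟩ := hdvd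
  have hm0 : m ≠ 0 := by
    rintro rfl
    have : p - 1 = 0 := by simpa using hm
    have := hp.one_lt
    omega
  let u : (ZMod p)ˣ := g ^ m
  have hou : orderOf u = Nat.card C := by
    have h1 : orderOf u = orderOf g / Nat.gcd (orderOf g) m := orderOf_pow' g hm0
    rw [h1, hog, hm, Nat.gcd_mul_left_left, Nat.mul_div_cancel _ (Nat.pos_of_ne_zero hm0)]
  have hcardZ : Nat.card C = Nat.card (Subgroup.zpowers u) := by
    rw [Nat.card_zpowers, hou]
  let ψ : C ≃* Subgroup.zpowers u := mulEquivOfCyclicCardEq hcardZ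
  let f : C →* (ZMod p)ˣ := (Subgroup.zpowers u).subtype.comp ψ.toMonoidHom
  have hf : Function.Injective f := by
    intro a b hab
    exact ψ.injective (Subtype.ext hab)
  letI : DistribMulAction C (ZMod p) := DistribMulAction.compHom (ZMod p) f
  have hsmul : ∀ (c : C) (v : ZMod p), c • v = ((f c : (ZMod p)ˣ) : ZMod p) * v := fun c v => rfl
  obtain ⟨L, hL, hLf, H, hH, ⟨e⟩, -⟩ := H75.frobenius_of_fpf_distrib (V := ZMod p) (H := C) (by
    intro c hc v hv
    rw [hsmul] at hv
    have h1 : f c ≠ 1 := fun h => hc (hf (h.trans (map_one f).symm))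
    have h2 : ((f c : (ZMod p)ˣ) : ZMod p) - 1 ≠ 0 := by
      intro h
      apply h1
      ext
      rw [Units.val_one]
      exact sub_eq_zero.mp h
    have h3 : (((f c : (ZMod p)ˣ) : ZMod p) - 1) * v = 0 := by
      rw [sub_mul, one_mul, hv, sub_self]
    exact (mul_eq_zero.mp h3).resolve_left h2)
  exact ⟨L, hL, hLf, H, hH, ⟨e⟩⟩

end Cfsg.Agent.S4299
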