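import Cfsg.Statements.S4300

set_option autoImplicit false
open Cfsg

namespace Cfsg.Agent.S4300

/-- Let G act faithfully and primitively on a set X, and suppose the stabilizer of some point is a simple group. Then either G is simple, or G has a normal subgroup, neither trivial nor the whole group, that acts regularly on X (transitively with trivial point stabilizers). -/
theorem result {G : Type*} [Group G] {X : Type*} [MulAction G X] [FaithfulSMul G X]
    (hprim : MulAction.IsPreprimitive G X) (x : X) (hsimple : IsSimpleGroup (MulAction.stabilizer G x)) :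
    IsSimpleGroup G ∨ ∃ N : Subgroup G, N.Normal ∧ N ≠ ⊥ ∧ N ≠ ⊤ ∧
      MulAction.IsPretransitive N X ∧ ∀ y : X, MulAction.stabilizer N y = ⊥ := by
  classical
  by_cases hG : IsSimpleGroup G
  · exact Or.inl hG
  right
  have hnt : Nontrivial G := by
    obtain ⟨a, b, hab⟩ := hsimple.toNontrivial
    exact ⟨⟨a.1, b.1, fun h => hab (Subtype.ext h)⟩⟩
  have hex : ∃ N : Subgroup G, N.Normal ∧ N ≠ ⊥ ∧ N ≠ ⊤ := by
    by_contra hcon
    apply hG
    refine ⟨fun N hN => ?_⟩
    by_contra h2
    push_neg at h2
    exact hcon ⟨N, hN, h2.1, h2.2⟩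
  obtain ⟨N, hN, hbot, htop⟩ := hex
  haveI := hN
  have htrans : MulAction.IsPretransitive N X := by
    apply MulAction.IsQuasiPreprimitive.isPretransitive_of_normal (G := G)
    intro hfix
    apply hbot
    rw [Subgroup.eq_bot_iff_forall]
    intro n hn
    apply FaithfulSMul.eq_of_smul_eq_smul (α := X)
    intro y
    have : y ∈ MulAction.fixedPoints N X := by rw [hfix]; trivial
    rw [MulAction.mem_fixedPoints] at this
    have h1 := this ⟨n, hn⟩
    rw [one_smul]
    exact h1
  refine ⟨N, hN, hbot, htop, htrans, ?_⟩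
  -- first, N ∩ G_x = 1
  have hx : ∀ n ∈ N, n • x = x → n = 1 := by
    have hnorm : (N.subgroupOf (MulAction.stabilizer G x)).Normal := inferInstance
    rcases hsimple.eq_bot_or_eq_top_of_normal _ hnorm with h | h
    · intro n hn hnx
      have hmem : (⟨n, hnx⟩ : MulAction.stabilizer G x) ∈ N.subgroupOf (MulAction.stabilizer G x) := by
        rw [Subgroup.mem_subgroupOf]; exact hn
      rw [h, Subgroup.mem_bot] at hmem
      exact congrArg Subtype.val hmem
    · exfalso
      apply htop
      rw [Subgroup.subgroupOf_eq_top] at h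
      rw [eq_top_iff]
      intro g _
      obtain ⟨n, hn⟩ := htrans.exists_smul_eq x (g • x)
      have h3 : (n : G)⁻¹ * g ∈ MulAction.stabilizer G x := by
        rw [MulAction.mem_stabilizer_iff, mul_smul, inv_smul_eq_iff]
        exact hn.symm
      have h4 := h h3
      have h5 : g = (n : G) * ((n : G)⁻¹ * g) := by group
      rw [h5]
      exact N.mul_mem n.2 h4
  intro y
  rw [Subgroup.eq_bot_iff_forall]
  intro n hn
  obtain ⟨g, rfl⟩ := hprim.toIsPretransitive.exists_smul_eq x y
  rw [MulAction.mem_stabilizer_iff] at hn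
  have h1 : (g⁻¹ * (n : G) * g) • x = x := by
    rw [mul_smul, mul_smul, inv_smul_eq_iff]
    exact hn
  have h2 : g⁻¹ * (n : G) * g ∈ N := by
    have := hN.conj_mem (n : G) n.2 g⁻¹
    simpa using this
  have h3 := hx _ h2 h1
  have h4 : (n : G) = 1 := by
    have : (n : G) = g * (g⁻¹ * (n : G) * g) * g⁻¹ := by group
    rw [this, h3]; group
  exact Subtype.ext h4

end Cfsg.Agent.S4300
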