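import Cfsg.Statements.S4301

set_option autoImplicit false
open Cfsg

namespace Cfsg.Agent.S4301

theorem exists_emb_two {X : Type*} {k : ℕ} (hk : 2 ≤ k) (c : Fin k ↪ X) (p q : X) (hpq : p ≠ q) :
    ∃ a : Fin k ↪ X, a ⟨0, by omega⟩ = p ∧ a ⟨1, by omega⟩ = q := by
  classical
  have hc01 : c ⟨0, by omega⟩ ≠ c ⟨1, by omega⟩ := fun h => by
    have := c.injective h
    simp [Fin.ext_iff] at this
  let σ₁ : Equiv.Perm X := Equiv.swap (c ⟨0, by omega⟩) p
  let σ₂ : Equiv.Perm X := Equiv.swap (σ₁ (c ⟨1, by omega⟩)) q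
  have h1 : σ₁ (c ⟨0, by omega⟩) = p := Equiv.swap_apply_left _ _
  refine ⟨c.trans (σ₁.trans σ₂).toEmbedding, ?_, ?_⟩
  · change σ₂ (σ₁ (c ⟨0, by omega⟩)) = p
    rw [h1]
    apply Equiv.swap_apply_of_ne_of_ne
    · intro h
      rw [← h1] at h
      exact hc01 (σ₁.injective h)
    · exact hpq
  · change σ₂ (σ₁ (c ⟨1, by omega⟩)) = q
    exact Equiv.swap_apply_left _ _

/-- One-point extension of a multiply transitive group. Let X be a set and G a group of permutations of Option X (the set X with one extra point ∗ = none) all of whose elements fix ∗, such that G is k-transitive on the points of X for some k ≥ 2, X having at least k points. Suppose a permutation h of Option X and an element g of G satisfy: h interchanges ∗ with a point x of X and fixes a point y of X; g interchanges x and y; (g h)³ and h² lie in G; and for every f in G fixing x, the product h f h lies in G and fixes x. Then an element of the group generated by G and h fixes ∗ exactly when it lies in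 G, and that group acts (k+1)-transitively on Option X. -/
theorem result {X : Type*} (G : Subgroup (Equiv.Perm (Option X))) (hfix : ∀ f ∈ G, f none = none)
    (k : ℕ) (hk : 2 ≤ k) (hkX : Nonempty (Fin k ↪ X))
    (htrans : ∀ a b : Fin k ↪ X, ∃ f ∈ G, ∀ i, f (some (a i)) = some (b i))
    (h g : Equiv.Perm (Option X)) (hg : g ∈ G) (x y : X)
    (h1 : h none = some x) (h2 : h (some x) = none) (h3 : h (some y) = some y)
    (h4 : g (some x) = some y) (h5 : g (some y) = some x)
    (h6 : (g * h) ^ 3 ∈ G) (h7 : h ^ 2 ∈ G)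
    (h8 : ∀ f ∈ G, f (some x) = some x → h * f * h ∈ G ∧ (h * f * h) (some x) = some x) :
    (∀ f ∈ Subgroup.closure ((G : Set (Equiv.Perm (Option X))) ∪ {h}), f none = none ↔ f ∈ G) ∧
      MulAction.IsMultiplyPretransitive (Subgroup.closure ((G : Set (Equiv.Perm (Option X))) ∪ {h})) (Option X) (k + 1) := by
  classical
  obtain ⟨c⟩ := hkX
  have hxy : x ≠ y := by
    rintro rfl
    rw [h2] at h3
    exact Option.some_ne_none x h3.symm
  have hsome : ∀ f ∈ G, ∀ z : X, ∃ w : X, f (some z) = some w := by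
    intro f hf z
    rcases hfz : f (some z) with _ | w
    · exfalso
      have := f.injective (hfz.trans (hfix f hf).symm)
      exact Option.some_ne_none z this
    · exact ⟨w, rfl⟩
  have hT2 : ∀ p q p' q' : X, p ≠ q → p' ≠ q' →
      ∃ f ∈ G, f (some p) = some p' ∧ f (some q) = some q' := by
    intro p q p' q' hpq hpq'
    obtain ⟨a, ha0, ha1⟩ := exists_emb_two hk c p q hpq
    obtain ⟨b, hb0, hb1⟩ := exists_emb_two hk c p' q' hpq'
    obtain ⟨f, hf, hfab⟩ := htrans a b
    refine ⟨f, hf, ?_, ?_⟩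
    · have := hfab ⟨0, by omega⟩
      rwa [ha0, hb0] at this
    · have := hfab ⟨1, by omega⟩
      rwa [ha1, hb1] at this
  have hne : ∀ p : X, ∃ q, p ≠ q := by
    intro p
    by_cases hp : p = x
    · exact ⟨y, by rw [hp]; exact hxy⟩
    · exact ⟨x, hp⟩
  have hT1 : ∀ p p' : X, ∃ f ∈ G, f (some p) = some p' := by
    intro p p'
    obtain ⟨q, hq⟩ := hne p
    obtain ⟨q', hq'⟩ := hne p'
    obtain ⟨f, hf, hfp, _⟩ := hT2 p q p' q' hq hq'
    exact ⟨f, hf, hfp⟩
  have hB : ∀ f ∈ G, h * f * h ∈ G ∨ ∃ a ∈ G, ∃ b ∈ G, h * f * h = a * h * b := by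
    intro f hf
    by_cases hfx : f (some x) = some x
    · left; exact (h8 f hf hfx).1
    · right
      obtain ⟨z, hz⟩ := hsome f hf x
      have hzx : z ≠ x := by rintro rfl; exact hfx hz
      obtain ⟨e, he, hex, hey⟩ := hT2 x y x z hxy (Ne.symm hzx)
      have hf'G : (e * g)⁻¹ * f ∈ G := G.mul_mem (G.inv_mem (G.mul_mem he hg)) hf
      have hf'x : ((e * g)⁻¹ * f) (some x) = some x := by
        rw [Equiv.Perm.mul_apply, hz, Equiv.Perm.inv_eq_iff_eq, Equiv.Perm.mul_apply, h4, hey]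
      obtain ⟨hE, -⟩ := h8 e he hex
      obtain ⟨hF, -⟩ := h8 _ hf'G hf'x
      refine ⟨(h * e * h) * (h ^ 2)⁻¹ * g⁻¹ * (g * h) ^ 3 * (h ^ 2)⁻¹, ?_,
        g⁻¹ * (h ^ 2)⁻¹ * (h * ((e * g)⁻¹ * f) * h), ?_, ?_⟩
      · exact G.mul_mem (G.mul_mem (G.mul_mem (G.mul_mem hE (G.inv_mem h7)) (G.inv_mem hg)) h6)
          (G.inv_mem h7)
      · exact G.mul_mem (G.mul_mem (G.inv_mem hg) (G.inv_mem h7)) hF
      · have h12 : (g * h) ^ 3 = g * h * (g * h) * (g * h) := by
          rw [pow_succ, pow_succ, pow_one]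
        rw [h12]
        group
  let K' : Subgroup (Equiv.Perm (Option X)) :=
    { carrier := {f | f ∈ G ∨ ∃ a ∈ G, ∃ b ∈ G, f = a * h * b}
      one_mem' := Or.inl G.one_mem
      mul_mem' := by
        rintro f₁ f₂ (hf₁ | ⟨a, ha, b, hb, rfl⟩) (hf₂ | ⟨a', ha', b', hb', rfl⟩)
        · exact Or.inl (G.mul_mem hf₁ hf₂)
        · exact Or.inr ⟨f₁ * a', G.mul_mem hf₁ ha', b', hb', by group⟩
        · exact Or.inr ⟨a, ha, b * f₂, G.mul_mem hb hf₂, by group⟩
        · have h10 : a * h * b * (a' * h * b') = a * (h * (b * a') * h) * b' := by group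
          rcases hB (b * a') (G.mul_mem hb ha') with h9 | ⟨a'', ha'', b'', hb'', h9⟩
          · left
            rw [h10]; exact G.mul_mem (G.mul_mem ha h9) hb'
          · right
            refine ⟨a * a'', G.mul_mem ha ha'', b'' * b', G.mul_mem hb'' hb', ?_⟩
            rw [h10, h9]; group
      inv_mem' := by
        rintro f (hf | ⟨a, ha, b, hb, rfl⟩)
        · exact Or.inl (G.inv_mem hf)
        · right
          exact ⟨b⁻¹ * (h ^ 2)⁻¹, G.mul_mem (G.inv_mem hb) (G.inv_mem h7), a⁻¹, G.inv_mem ha,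
            by group⟩ }
  have hCK : Subgroup.closure ((G : Set (Equiv.Perm (Option X))) ∪ {h}) ≤ K' := by
    rw [Subgroup.closure_le]
    rintro f (hf | hf)
    · exact Or.inl hf
    · rw [Set.mem_singleton_iff] at hf
      subst hf
      exact Or.inr ⟨1, G.one_mem, 1, G.one_mem, by group⟩
  have hD : ∀ f ∈ Subgroup.closure ((G : Set (Equiv.Perm (Option X))) ∪ {h}),
      f none = none ↔ f ∈ G := by
    intro f hf
    constructor
    · intro hfn
      rcases hCK hf with hfG | ⟨a, ha, b, hb, rfl⟩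
      · exact hfG
      · exfalso
        rw [Equiv.Perm.mul_apply, Equiv.Perm.mul_apply, hfix b hb, h1] at hfn
        obtain ⟨w, hw⟩ := hsome a ha x
        rw [hw] at hfn
        exact Option.some_ne_none w hfn
    · exact hfix f
  refine ⟨hD, ?_⟩
  have hGC : G ≤ Subgroup.closure ((G : Set (Equiv.Perm (Option X))) ∪ {h}) :=
    fun f hf => Subgroup.subset_closure (Or.inl hf)
  have hhC : h ∈ Subgroup.closure ((G : Set (Equiv.Perm (Option X))) ∪ {h}) :=
    Subgroup.subset_closure (Or.inr rfl)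
  have hE1 : ∀ ω : Option X,
      ∃ f ∈ Subgroup.closure ((G : Set (Equiv.Perm (Option X))) ∪ {h}), f ω = none := by
    rintro (_ | z)
    · exact ⟨1, Subgroup.one_mem _, rfl⟩
    · obtain ⟨e, he, hez⟩ := hT1 z x
      exact ⟨h * e, Subgroup.mul_mem _ hhC (hGC he), by rw [Equiv.Perm.mul_apply, hez, h2]⟩
  rw [MulAction.isMultiplyPretransitive_iff]
  intro u v
  obtain ⟨f₁, hf₁, hf₁u⟩ := hE1 (u 0)
  obtain ⟨f₂, hf₂, hf₂v⟩ := hE1 (v 0)
  have hu' : ∀ i : Fin k, ∃ w : X, f₁ (u i.succ) = some w := by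
    intro i
    rcases hw : f₁ (u i.succ) with _ | w
    · exfalso
      have := u.injective (f₁.injective (hw.trans hf₁u.symm))
      exact Fin.succ_ne_zero i this
    · exact ⟨w, rfl⟩
  have hv' : ∀ i : Fin k, ∃ w : X, f₂ (v i.succ) = some w := by
    intro i
    rcases hw : f₂ (v i.succ) with _ | w
    · exfalso
      have := v.injective (f₂.injective (hw.trans hf₂v.symm))
      exact Fin.succ_ne_zero i this
    · exact ⟨w, rfl⟩
  choose a ha using hu'
  choose b hb using hv'
  have hainj : Function.Injective a := by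
    intro i j hij
    have h11 : f₁ (u i.succ) = f₁ (u j.succ) := by rw [ha, ha, hij]
    exact Fin.succ_injective _ (u.injective (f₁.injective h11))
  have hbinj : Function.Injective b := by
    intro i j hij
    have h11 : f₂ (v i.succ) = f₂ (v j.succ) := by rw [hb, hb, hij]
    exact Fin.succ_injective _ (v.injective (f₂.injective h11))
  obtain ⟨e, he, hab⟩ := htrans ⟨a, hainj⟩ ⟨b, hbinj⟩
  refine ⟨⟨f₂⁻¹ * e * f₁, Subgroup.mul_mem _ (Subgroup.mul_mem _ (Subgroup.inv_mem _ hf₂)
    (hGC he)) hf₁⟩, ?_⟩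
  refine DFunLike.ext _ _ fun i => ?_
  change (f₂⁻¹ * e * f₁) (u i) = v i
  rw [Equiv.Perm.mul_apply, Equiv.Perm.mul_apply, Equiv.Perm.inv_eq_iff_eq]
  refine Fin.cases ?_ ?_ i
  · rw [hf₁u, hfix e he, hf₂v]
  · intro j
    rw [ha, hb]
    exact hab j

end Cfsg.Agent.S4301
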