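import Cfsg.Statements.S4314
import Cfsg.Agent.H73.Prim
import Cfsg.Agent.H73.IsaacsB

set_option autoImplicit false
set_option linter.style.haveILetI false
open Cfsg

namespace Cfsg.Agent.S4314

open Cfsg.Agent.H73
open scoped commutatorElement

/-- Under the class-size hypothesis, commuting noncentral elements of coprime orders have the
same centralizer. -/
theorem cent_eq_of_coprime {G : Type*} [Group G]
    (h : ∀ x : G, (Subgroup.centralizer ({x} : Set G)).index = 1 ∨
      ((Subgroup.centralizer ({x} : Set G)).index).Prime)
    {u v : G} (huv : Commute u v) (hc : (orderOf u).Coprime (orderOf v))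
    (hu : u ∉ Subgroup.center G) (hv : v ∉ Subgroup.center G) :
    Subgroup.centralizer ({u} : Set G) = Subgroup.centralizer ({v} : Set G) := by
  have key : ∀ {a b : G}, Commute a b → (orderOf a).Coprime (orderOf b) →
      a ∉ Subgroup.center G →
      Subgroup.centralizer ({a} : Set G) = Subgroup.centralizer ({a * b} : Set G) := by
    intro a b hab hcop ha
    have hmem := mem_zpowers_mul_of_coprime hab hcop
    have hle : Subgroup.centralizer ({a * b} : Set G) ≤ Subgroup.centralizer ({a} : Set G) := by
      intro y hy
      rw [mem_cent_singleton_iff] at hy ⊢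
      obtain ⟨k, hk⟩ := Subgroup.mem_zpowers_iff.mp hmem
      rw [← hk]
      have hcomm : Commute (a * b) y := hy
      exact (hcomm.zpow_left k)
    have hne : Subgroup.centralizer ({a} : Set G) ≠ ⊤ := by
      intro htop
      rw [Subgroup.centralizer_eq_top_iff_subset] at htop
      exact ha (htop (Set.mem_singleton a))
    have hne' : Subgroup.centralizer ({a * b} : Set G) ≠ ⊤ := by
      intro htop
      rw [htop] at hle
      exact hne (top_le_iff.mp hle)
    have hpr : ((Subgroup.centralizer ({a * b} : Set G)).index).Prime := by
      rcases h (a * b) with h1 | h1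
      · exact absurd (Subgroup.index_eq_one.mp h1) hne'
      · exact h1
    rcases eq_or_eq_top_of_index_prime hpr hle with h2 | h2
    · exact h2
    · exact absurd h2 hne
  have h1 := key huv hc hu
  have h2 := key huv.symm hc.symm hv
  rw [huv.symm.eq] at h2
  rw [h1, h2]

/-- Let `G` be a finite group every conjugacy class of which has size 1 or a prime. Then either `G` is nilpotent of class at most 2, or `G/Z(G)` is a non-abelian group of order `pq` for distinct primes `p, q` (a Frobenius group of order `pq`). -/
theorem result {G : Type*} [Group G] [Finite G]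
    (h : ∀ x : G, (Subgroup.centralizer ({x} : Set G)).index = 1 ∨ ((Subgroup.centralizer ({x} : Set G)).index).Prime) :
    Subgroup.upperCentralSeries G 2 = ⊤ ∨
      ∃ p q : ℕ, p.Prime ∧ q.Prime ∧ p ≠ q ∧ Nat.card (G ⧸ Subgroup.center G) = p * q ∧ ¬ IsMulCommutative (G ⧸ Subgroup.center G) := by
  classical
  have hcenle : ∀ y : G, Subgroup.center G ≤ Subgroup.centralizer ({y} : Set G) :=
    fun y => Subgroup.center_le_centralizer _
  by_cases hall : ∀ x : G, (Subgroup.centralizer ({x} : Set G)).Normal
  · left
    rw [← Subgroup.lowerCentralSeries_eq_bot_iff_upperCentralSeries_eq_top]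
    have hcomm : ⁅(⊤ : Subgroup G), (⊤ : Subgroup G)⁆ ≤ Subgroup.center G := by
      rw [Subgroup.commutator_le]
      intro a _ b _
      rw [Subgroup.mem_center_iff]
      intro x
      have hx : ⁅a, b⁆ ∈ Subgroup.centralizer ({x} : Set G) := by
        haveI := hall x
        rcases h x with h1 | h1
        · rw [Subgroup.index_eq_one.mp h1]; trivial
        · haveI : Fact ((Subgroup.centralizer ({x} : Set G)).index).Prime := ⟨h1⟩
          have hcyc : IsCyclic (G ⧸ Subgroup.centralizer ({x} : Set G)) :=
            isCyclic_of_prime_card (p := (Subgroup.centralizer ({x} : Set G)).index) rfl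
          have hc := (IsCyclic.isMulCommutative (α := G ⧸ Subgroup.centralizer ({x} : Set G))).is_comm.comm
          rw [← QuotientGroup.eq_one_iff, commutatorElement_def]
          simp only [QuotientGroup.mk_mul, QuotientGroup.mk_inv]
          rw [hc (QuotientGroup.mk a) (QuotientGroup.mk b)]
          group
      exact (mem_cent_singleton_iff _ _).mp hx
    rw [show (2 : ℕ) = 1 + 1 from rfl, Subgroup.lowerCentralSeries_succ,
      Subgroup.lowerCentralSeries_succ, Subgroup.lowerCentralSeries_zero, eq_bot_iff]
    rw [Subgroup.commutator_le]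
    intro c hc g _
    have hcz := hcomm hc
    rw [Subgroup.mem_bot, commutatorElement_eq_one_iff_mul_comm]
    exact ((Subgroup.mem_center_iff.mp hcz) g).symm
  · right
    push Not at hall
    obtain ⟨x, hxn⟩ := hall
    set M := Subgroup.centralizer ({x} : Set G) with hM
    have hMne : M ≠ ⊤ := by
      intro htop
      apply hxn
      rw [htop]
      infer_instance
    have hMpr : M.index.Prime := by
      rcases h x with h1 | h1
      · exact absurd (Subgroup.index_eq_one.mp h1) hMne
      · exact h1
    set p := M.index with hp
    haveI hfact : Fact p.Prime := ⟨hMpr⟩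
    -- a p-element outside M
    obtain ⟨hh, hhP, hhM⟩ : ∃ hh : G, (∃ k : ℕ, orderOf hh = p ^ k) ∧ hh ∉ M := by
      obtain ⟨P⟩ := (inferInstance : Nonempty (Sylow p G))
      have hnle : ¬ (P : Subgroup G) ≤ M := by
        intro hle
        have h1 : M.index ∣ (P : Subgroup G).index := Subgroup.index_dvd_of_le hle
        exact P.not_dvd_index h1
      obtain ⟨g, hgP, hgM⟩ := SetLike.not_le_iff_exists.mp hnle
      refine ⟨g, ?_, hgM⟩
      obtain ⟨k, hk⟩ := P.2 ⟨g, hgP⟩
      have h1 : g ^ (p ^ k) = 1 := by
        have := congrArg Subtype.val hk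
        simpa using this
      obtain ⟨j, _, hj⟩ := (Nat.dvd_prime_pow hMpr).mp (orderOf_dvd_of_pow_eq_one h1)
      exact ⟨j, hj⟩
    obtain ⟨kh, hkh⟩ := hhP
    have hrelle : ∀ L : Subgroup G, M.relIndex L ≤ p := by
      intro L
      have := Subgroup.relIndex_le_of_le_right (le_top : L ≤ ⊤) (H := M)
        (by rw [Subgroup.relIndex_top_right]; exact hMpr.ne_zero)
      rwa [Subgroup.relIndex_top_right] at this
    set H0 := Subgroup.zpowers hh with hH0
    have hrelH0 : M.relIndex H0 = p := by
      have h1 : M.relIndex H0 ≠ 1 := by
        intro h1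
        exact hhM (Subgroup.relIndex_eq_one.mp h1 (Subgroup.mem_zpowers hh))
      have h2 : M.relIndex H0 ∣ p ^ kh := by
        have := Subgroup.relIndex_dvd_card M H0
        rwa [hH0, Nat.card_zpowers, hkh] at this
      have h3 : M.relIndex H0 ≤ p := hrelle H0
      obtain ⟨j, _, hj⟩ := (Nat.dvd_prime_pow hMpr).mp h2
      rw [hj] at h1 h3 ⊢
      have hj1 : j ≠ 0 := by
        rintro rfl
        exact h1 (pow_zero p)
      have hj2 : j ≤ 1 := by
        by_contra hcon
        push Not at hcon
        have : p ^ 2 ≤ p ^ j := Nat.pow_le_pow_right hMpr.pos hcon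
        have h4 : p * p ≤ p := by
          calc p * p = p ^ 2 := (sq p).symm
            _ ≤ p ^ j := this
            _ ≤ p := h3
        have := hMpr.two_le
        nlinarith
      have : j = 1 := by omega
      rw [this, pow_one]
    have htrans : ∀ g : G, ∃ c ∈ H0, c⁻¹ * g ∈ M :=
      exists_mem_inv_mul_mem_of_relIndex_eq_index M H0 hrelH0
    -- centralizer of hh
    set C := Subgroup.centralizer ({hh} : Set G) with hC
    have hhcen : hh ∉ Subgroup.center G := fun hc => hhM (hcenle x hc)
    have hCne : C ≠ ⊤ := by
      intro htop
      rw [hC, Subgroup.centralizer_eq_top_iff_subset] at htop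
      exact hhcen (htop (Set.mem_singleton hh))
    have hCpr : C.index.Prime := by
      rcases h hh with h1 | h1
      · exact absurd (Subgroup.index_eq_one.mp h1) hCne
      · exact h1
    set q := C.index with hq
    have hH0C : H0 ≤ C := by
      rw [hH0, Subgroup.zpowers_le, hC, mem_cent_singleton_iff]
    have hrelC : M.relIndex C = p := by
      apply le_antisymm (hrelle C)
      rw [← hrelH0]
      exact Subgroup.relIndex_le_of_le_right hH0C
        (Subgroup.index_ne_zero_of_finite : (M.subgroupOf C).index ≠ 0)
    set D := C ⊓ M with hD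
    have hDidx : D.index = p * q := by
      have h1 := Subgroup.relIndex_mul_index (inf_le_left : C ⊓ M ≤ C)
      rw [Subgroup.inf_relIndex_left, hrelC] at h1
      exact h1.symm
    -- the normal core
    set K := M.normalCore with hK
    have hKM : K ≤ M := Subgroup.normalCore_le M
    have hDK : D ≤ K := by
      intro v hv b
      obtain ⟨c, hc, hcm⟩ := htrans b⁻¹
      have hvC : v ∈ C := hv.1
      have hvM : v ∈ M := hv.2
      have hcv : c * v = v * c := by
        have h1 : Commute hh v := (mem_cent_singleton_iff v hh).mp hvC
        obtain ⟨k, hk⟩ := Subgroup.mem_zpowers_iff.mp hc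
        rw [← hk]
        exact (h1.zpow_left k)
      have e : b * v * b⁻¹ = (c⁻¹ * b⁻¹)⁻¹ * v * (c⁻¹ * b⁻¹) := by
        have : (c⁻¹ * b⁻¹)⁻¹ * v * (c⁻¹ * b⁻¹) = b * (c * v) * c⁻¹ * b⁻¹ := by group
        rw [this, hcv]
        group
      rw [e]
      exact M.mul_mem (M.mul_mem (M.inv_mem hcm) hvM) hcm
    have hKidx : K.index = K.relIndex M * p := (Subgroup.relIndex_mul_index hKM).symm
    have hKdvd : K.index ∣ p * q := hDidx ▸ Subgroup.index_dvd_of_le hDK
    have hKnotM : K.relIndex M ≠ 1 := by
      intro h1
      have hMK : M ≤ K := Subgroup.relIndex_eq_one.mp h1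
      apply hxn
      have : M = K := le_antisymm hMK hKM
      rw [this]
      infer_instance
    have hKrel : K.relIndex M = q := by
      rw [hKidx, mul_comm] at hKdvd
      have h1 : K.relIndex M ∣ q := Nat.dvd_of_mul_dvd_mul_left hMpr.pos hKdvd
      rcases (Nat.dvd_prime hCpr).mp h1 with h2 | h2
      · exact absurd h2 hKnotM
      · exact h2
    have hKidx' : K.index = p * q := by rw [hKidx, hKrel, mul_comm]
    have hKD : K = D := by
      symm
      apply Subgroup.eq_of_le_of_card_ge hDK
      have h1 := Subgroup.card_mul_index K
      have h2 := Subgroup.card_mul_index D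
      rw [hKidx'] at h1
      rw [hDidx] at h2
      have hpos : 0 < p * q := Nat.mul_pos hMpr.pos hCpr.pos
      have : Nat.card K * (p * q) = Nat.card D * (p * q) := by rw [h1, h2]
      exact (Nat.eq_of_mul_eq_mul_right hpos this).le
    have hKC : K ≤ C := by rw [hKD]; exact inf_le_left
    have hcenK : Subgroup.center G ≤ K := Subgroup.normal_le_normalCore.mpr (hcenle x)
    -- q ≠ p
    have hqp : q ≠ p := by
      intro hqp
      apply hxn
      have hcard : Nat.card (G ⧸ K) = p ^ 2 := by
        have : Nat.card (G ⧸ K) = K.index := rfl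
        rw [this, hKidx', hqp, sq]
      exact normal_of_quotient_comm K M hKM (IsPGroup.isMulCommutative_of_card_eq_prime_sq hcard).is_comm.comm
    -- a noncentral p'-element with centralizer M
    have hxcen : x ∉ Subgroup.center G := by
      intro hc
      apply hMne
      rw [hM, Subgroup.centralizer_eq_top_iff_subset]
      intro y hy
      rw [Set.mem_singleton_iff] at hy
      rw [hy]; exact hc
    have hMcent : ∀ y : G, y ∈ Subgroup.zpowers x → y ∉ Subgroup.center G →
        Subgroup.centralizer ({y} : Set G) = M := by
      intro y hy hyc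
      have hle : M ≤ Subgroup.centralizer ({y} : Set G) := by
        intro z hz
        rw [hM, mem_cent_singleton_iff] at hz
        rw [mem_cent_singleton_iff]
        obtain ⟨k, hk⟩ := Subgroup.mem_zpowers_iff.mp hy
        rw [← hk]
        have hcomm : Commute x z := hz
        exact hcomm.zpow_left k
      rcases eq_or_eq_top_of_index_prime hMpr hle with h2 | h2
      · exact h2
      · exfalso
        rw [Subgroup.centralizer_eq_top_iff_subset] at h2
        exact hyc (h2 (Set.mem_singleton y))
    obtain ⟨y, hycen, hyord, hyM⟩ : ∃ y : G, y ∉ Subgroup.center G ∧ (orderOf y).Coprime p ∧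
        Subgroup.centralizer ({y} : Set G) = M := by
      obtain ⟨a, b, ha, hb, hxab, ⟨e, hae⟩, hbord⟩ := exists_p_decomp p x
      by_cases hbc : b ∈ Subgroup.center G
      · -- a is a noncentral p-element with centralizer M
        have hac : a ∉ Subgroup.center G := by
          intro hac
          apply hxcen
          rw [hxab]
          exact Subgroup.mul_mem _ hac hbc
        have haM : Subgroup.centralizer ({a} : Set G) = M := hMcent a ha hac
        -- an element of M outside K of order prime to p
        obtain ⟨g0, hg0M, hg0K⟩ : ∃ g0 : G, g0 ∈ M ∧ g0 ∉ K := by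
          by_contra hcon
          push Not at hcon
          exact hKnotM (Subgroup.relIndex_eq_one.mpr (fun z hz => hcon z hz))
        obtain ⟨a0, b0, ha0, hb0, hg0ab, ⟨e0, ha0e⟩, hb0ord⟩ := exists_p_decomp p g0
        have hzpM : Subgroup.zpowers g0 ≤ M := by
          rw [Subgroup.zpowers_le]; exact hg0M
        have ha0K : a0 ∈ K := by
          -- a0 ^ q ∈ K and a0 ^ (p ^ e0) = 1
          have h1 : a0 ^ q ∈ K := by
            haveI : (K.subgroupOf M).Normal := Subgroup.normal_subgroupOf
            have h2 := Subgroup.pow_index_mem (K.subgroupOf M) (⟨a0, hzpM ha0⟩ : M)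
            have h3 : (K.subgroupOf M).index = q := hKrel
            rw [h3] at h2
            exact h2
          have h2 : a0 ^ (p ^ e0) = 1 := by rw [← ha0e]; exact pow_orderOf_eq_one a0
          have hcop : Nat.Coprime q (p ^ e0) :=
            Nat.Coprime.pow_right e0 ((Nat.coprime_primes hCpr hMpr).mpr hqp)
          have hbez := Nat.gcd_eq_gcd_ab q (p ^ e0)
          rw [hcop] at hbez
          have h3 : a0 = (a0 ^ q) ^ (Nat.gcdA q (p ^ e0)) * (a0 ^ (p ^ e0)) ^ (Nat.gcdB q (p ^ e0)) := by
            rw [← zpow_natCast a0 q, ← zpow_natCast a0 (p ^ e0), ← zpow_mul, ← zpow_mul,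
              ← zpow_add, ← hbez]
            simp
          rw [h3, h2, one_zpow, mul_one]
          exact Subgroup.zpow_mem _ h1 _
        have hb0K : b0 ∉ K := by
          intro hb0K
          apply hg0K
          rw [hg0ab]
          exact K.mul_mem ha0K hb0K
        have hb0M : b0 ∈ M := hzpM hb0
        have hb0c : b0 ∉ Subgroup.center G := fun hc => hb0K (hcenK hc)
        refine ⟨b0, hb0c, hb0ord, ?_⟩
        have hcomm : Commute b0 a := by
          have : b0 ∈ Subgroup.centralizer ({a} : Set G) := by rw [haM]; exact hb0M
          exact ((mem_cent_singleton_iff b0 a).mp this).symm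
        have hcop : (orderOf b0).Coprime (orderOf a) := by
          rw [hae]; exact Nat.Coprime.pow_right e hb0ord
        rw [cent_eq_of_coprime h hcomm hcop hb0c hac, haM]
      · exact ⟨b, hbc, hbord, hMcent b hb hbc⟩
    -- K is central
    have hKcen : K ≤ Subgroup.center G := by
      intro k hk
      obtain ⟨a, b, ha, hb, hkab, ⟨e, hae⟩, hbord⟩ := exists_p_decomp p k
      have hzpK : Subgroup.zpowers k ≤ K := by
        rw [Subgroup.zpowers_le]; exact hk
      have haK : a ∈ K := hzpK ha
      have hbK : b ∈ K := hzpK hb
      have hbc : b ∈ Subgroup.center G := by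
        by_contra hbc
        have hcomm : Commute b hh := by
          have : b ∈ C := hKC hbK
          exact ((mem_cent_singleton_iff b hh).mp this).symm
        have hcop : (orderOf b).Coprime (orderOf hh) := by
          rw [hkh]; exact Nat.Coprime.pow_right kh hbord
        have heq := cent_eq_of_coprime h hcomm hcop hbc hhcen
        have hxb : x ∈ Subgroup.centralizer ({b} : Set G) := by
          rw [mem_cent_singleton_iff]
          have : b ∈ M := hKM hbK
          exact ((mem_cent_singleton_iff b x).mp this).symm
        rw [heq, mem_cent_singleton_iff] at hxb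
        apply hhM
        rw [hM, mem_cent_singleton_iff]
        exact hxb.symm
      have hac : a ∈ Subgroup.center G := by
        by_contra hac
        have hcomm : Commute a y := by
          have : a ∈ Subgroup.centralizer ({y} : Set G) := by rw [hyM]; exact hKM haK
          exact ((mem_cent_singleton_iff a y).mp this).symm
        have hcop : (orderOf a).Coprime (orderOf y) := by
          rw [hae]; exact (Nat.Coprime.pow_right e hyord).symm
        have heq := cent_eq_of_coprime h hcomm hcop hac hycen
        have hha : hh ∈ Subgroup.centralizer ({a} : Set G) := by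
          rw [mem_cent_singleton_iff]
          have : a ∈ C := hKC haK
          exact ((mem_cent_singleton_iff a hh).mp this).symm
        rw [heq, hyM] at hha
        exact hhM hha
      rw [hkab]
      exact Subgroup.mul_mem _ hac hbc
    have hZK : Subgroup.center G = K := le_antisymm hcenK hKcen
    refine ⟨p, q, hMpr, hCpr, hqp.symm, ?_, ?_⟩
    · have : Nat.card (G ⧸ Subgroup.center G) = (Subgroup.center G).index := rfl
      rw [this, hZK, hKidx']
    · intro hcomm
      apply hxn
      exact normal_of_quotient_comm (Subgroup.center G) M (hcenle x) hcomm.is_comm.comm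

end Cfsg.Agent.S4314
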