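import Cfsg.Statements.S4321
import Cfsg.Agent.Helper55.PSingC

set_option autoImplicit false
open Cfsg

namespace Cfsg.Agent.S4321

/-- Let `G` be a finite group and `p` a prime not dividing the order of the centre of `G`. Consider the primes dividing the size of some conjugacy class of a `p`-singular element (an element of order divisible by `p`), two of them adjacent when their product divides such a class size. Then any two distinct such primes are joined by a path with at most 3 edges (the graph is connected of diameter at most 3). -/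
theorem result {G : Type*} [Group G] [Finite G] (p : ℕ) [Fact p.Prime]
    (hZ : ¬ p ∣ Nat.card ↥(Subgroup.center G)) (r s : ℕ) (hr : (r.Prime ∧ ∃ x : G, p ∣ orderOf x ∧ r ∣ (Subgroup.centralizer ({x} : Set G)).index)) (hs : (s.Prime ∧ ∃ x : G, p ∣ orderOf x ∧ s ∣ (Subgroup.centralizer ({x} : Set G)).index)) (hrs : r ≠ s) :
    (∃ x : G, p ∣ orderOf x ∧ r * s ∣ (Subgroup.centralizer ({x} : Set G)).index) ∨ (∃ t : ℕ, (t.Prime ∧ ∃ x : G, p ∣ orderOf x ∧ t ∣ (Subgroup.centralizer ({x} : Set G)).index) ∧ t ≠ r ∧ t ≠ s ∧ (∃ x : G, p ∣ orderOf x ∧ r * t ∣ (Subgroup.centralizer ({x} : Set G)).index) ∧ (∃ x : G, p ∣ orderOf x ∧ t * s ∣ (Subgroup.centralizer ({x} : Set G)).index)) ∨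
      (∃ t u : ℕ, (t.Prime ∧ ∃ x : G, p ∣ orderOf x ∧ t ∣ (Subgroup.centralizer ({x} : Set G)).index) ∧ (u.Prime ∧ ∃ x : G, p ∣ orderOf x ∧ u ∣ (Subgroup.centralizer ({x} : Set G)).index) ∧ t ≠ r ∧ u ≠ s ∧ t ≠ u ∧ (∃ x : G, p ∣ orderOf x ∧ r * t ∣ (Subgroup.centralizer ({x} : Set G)).index) ∧ (∃ x : G, p ∣ orderOf x ∧ t * u ∣ (Subgroup.centralizer ({x} : Set G)).index) ∧ (∃ x : G, p ∣ orderOf x ∧ u * s ∣ (Subgroup.centralizer ({x} : Set G)).index)) :=
  Cfsg.Agent.Helper55.psing_diam p hZ r s hr hs hrs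

end Cfsg.Agent.S4321
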