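import Cfsg.Statements.S4416
import Cfsg.Agent.H91.ES2Class

set_option autoImplicit false
open Cfsg

namespace Cfsg.Agent.S4416

open Cfsg.Agent.S5396 Cfsg.Agent.S3763 Cfsg.Agent.H91

/-- Classification of extraspecial 2-groups in intrinsic form. An extraspecial 2-group has order 2^(2m+1) for some m ≥ 1, and the number of its elements squaring to the identity is either 2^(2m) + 2^m or 2^(2m) − 2^m; two extraspecial 2-groups of the same order with the same number of such elements are isomorphic. (The two cases are the central products of m dihedral groups of order 8, and of m − 1 dihedral groups with one quaternion group.) -/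
theorem result (E : Type*) [Group E] [Finite E] (hE : Cfsg.IsExtraspecial 2 E) :
    (∃ m : ℕ, 1 ≤ m ∧ Nat.card E = 2 ^ (2 * m + 1) ∧
      (Nat.card {x : E // x ^ 2 = 1} = 2 ^ (2 * m) + 2 ^ m ∨ Nat.card {x : E // x ^ 2 = 1} = 2 ^ (2 * m) - 2 ^ m)) ∧
    ∀ (E' : Type*) [Group E'] [Finite E'], Cfsg.IsExtraspecial 2 E' → Nat.card E' = Nat.card E →
      Nat.card {x : E' // x ^ 2 = 1} = Nat.card {x : E // x ^ 2 = 1} → Nonempty (E ≃* E') := by
  obtain ⟨m, s, ⟨e⟩⟩ := es_classify hE
  have hc := Nat.card_congr e.toEquiv
  rw [card_esg] at hc
  have hcount := card_sq_congr e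
  have hmodel := card_sq_model m s
  have d : ¬ ((1 : ZMod 2) = 0) := by decide
  constructor
  · refine ⟨m + 1, by omega, hc.symm, ?_⟩
    rw [← hcount]
    rcases z2_cases s with rfl | rfl
    · left
      simp only [if_true, one_mul] at hmodel
      exact_mod_cast hmodel
    · right
      have hle : 2 ^ (m + 1) ≤ 2 ^ (2 * (m + 1)) := Nat.pow_le_pow_right (by norm_num) (by omega)
      simp only [d, if_false] at hmodel
      zify [hle]
      linarith
  · intro E' _ _ hE' hcard hcnt
    obtain ⟨m', s', ⟨e'⟩⟩ := es_classify hE'
    have hc' := Nat.card_congr e'.toEquiv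
    rw [card_esg] at hc'
    have hmm : m' = m := by
      have h : 2 ^ (2 * (m' + 1) + 1) = 2 ^ (2 * (m + 1) + 1) := by rw [hc', hc, hcard]
      have h' := Nat.pow_right_injective (le_refl 2) h
      omega
    subst hmm
    have hcount' := card_sq_congr e'
    have hmodel' := card_sq_model m' s'
    have hs : s = s' := by
      have heq : (Nat.card {x : ESG m' s // x ^ 2 = 1} : ℤ)
          = Nat.card {x : ESG m' s' // x ^ 2 = 1} := by
        rw [hcount, hcount', hcnt]
      rw [hmodel, hmodel'] at heq
      have hpos : (0 : ℤ) < 2 ^ (m' + 1) := by positivity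
      rcases z2_cases s with rfl | rfl <;> rcases z2_cases s' with rfl | rfl
      · rfl
      · exfalso
        simp only [if_true, d, if_false] at heq
        linarith
      · exfalso
        simp only [if_true, d, if_false] at heq
        linarith
      · rfl
    subst hs
    exact ⟨e.symm.trans e'⟩

end Cfsg.Agent.S4416
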