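import Cfsg.Statements.S4421

set_option autoImplicit false
open Cfsg

namespace Cfsg.Agent.S4421

/-- A factorization of a normalizer from two-step control of fusion. -/
theorem result {G : Type*} [Group G] [Finite G] (A S H : Subgroup G)
    (hAS : A ≤ S) (hSH : S ≤ H)
    (h1 : ∀ g : G, A.map (MulAut.conj g).toMonoidHom ≤ S → ∃ s ∈ S, A.map (MulAut.conj g).toMonoidHom = A.map (MulAut.conj s).toMonoidHom)
    (h2 : ∀ g : G, S.map (MulAut.conj g).toMonoidHom ≤ H → ∃ y ∈ H, S.map (MulAut.conj g).toMonoidHom = S.map (MulAut.conj y).toMonoidHom)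
    (h3 : ∀ x ∈ Subgroup.normalizer (A : Set G), S.map (MulAut.conj x).toMonoidHom ≤ H) :
    ∀ x ∈ Subgroup.normalizer (A : Set G), ∃ y ∈ H ⊓ Subgroup.normalizer (A : Set G),
      ∃ z ∈ Subgroup.normalizer (S : Set G) ⊓ Subgroup.normalizer (A : Set G), x = y * z := by
  intro x hx
  have hxA : A.map (MulAut.conj x).toMonoidHom = A :=
    Subgroup.mem_normalizer_iff_map_conj_eq.mp hx
  obtain ⟨y, hyH, hy⟩ := h2 x (h3 x hx)
  have comp : ∀ (K : Subgroup G) (g h : G),
      (K.map (MulAut.conj g).toMonoidHom).map (MulAut.conj h).toMonoidHom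
        = K.map (MulAut.conj (h * g)).toMonoidHom := by
    intro K g h
    rw [Subgroup.map_map]
    congr 1
    ext z
    simp [mul_assoc]
  have one : ∀ (K : Subgroup G), K.map (MulAut.conj (1:G)).toMonoidHom = K := by
    intro K; ext z; simp
  have hwS : S.map (MulAut.conj (y⁻¹ * x)).toMonoidHom = S := by
    rw [← comp, hy, comp, inv_mul_cancel, one]
  have hwA : A.map (MulAut.conj y⁻¹).toMonoidHom ≤ S := by
    have h := Subgroup.map_mono (f := (MulAut.conj (y⁻¹ * x)).toMonoidHom) hAS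
    rw [hwS, ← comp, hxA] at h
    exact h
  obtain ⟨s, hsS, hs⟩ := h1 y⁻¹ hwA
  have hysA : A.map (MulAut.conj (y * s)).toMonoidHom = A := by
    rw [← comp, ← hs, comp, mul_inv_cancel, one]
  refine ⟨y * s, ⟨H.mul_mem hyH (hSH hsS), Subgroup.mem_normalizer_iff_map_conj_eq.mpr hysA⟩,
    (y * s)⁻¹ * x, ⟨?_, ?_⟩, by group⟩
  · have h : (y * s)⁻¹ * x = s⁻¹ * (y⁻¹ * x) := by group
    rw [h]
    exact Subgroup.mul_mem _ (Subgroup.inv_mem _ (Subgroup.le_normalizer hsS))
      (Subgroup.mem_normalizer_iff_map_conj_eq.mpr hwS)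
  · exact Subgroup.mul_mem _
      (Subgroup.inv_mem _ (Subgroup.mem_normalizer_iff_map_conj_eq.mpr hysA)) hx

end Cfsg.Agent.S4421
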