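import Cfsg.Statements.S4423
import Cfsg.Agent.H77.ZsigCheck

set_option autoImplicit false
open Cfsg

namespace Cfsg.Agent.S4423

/-- Size of the primitive part of `q^e - 1`. -/
theorem result (q e : ℕ) (hq : IsPrimePow q) (he : 3 ≤ e) :
    ((q, e) ∉ [(2, 6), (2, 4), (2, 10), (2, 12), (2, 18), (3, 4), (3, 6), (5, 6), (2, 3), (2, 8), (2, 20), (4, 3), (4, 6)] →
      ∃ m : ℕ, m ∣ q ^ e - 1 ∧ (∀ i : ℕ, 1 ≤ i → i < e → Nat.Coprime m (q ^ i - 1)) ∧ 3 * e + 1 ≤ m) ∧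
    ((q, e) ∈ [(2, 6), (2, 4), (2, 10), (2, 12), (2, 18), (3, 4), (3, 6), (5, 6), (2, 3), (2, 8), (2, 20), (4, 3), (4, 6)] →
      ∀ m : ℕ, m ∣ q ^ e - 1 → (∀ i : ℕ, 1 ≤ i → i < e → Nat.Coprime m (q ^ i - 1)) → m ≤ 2 * e + 1) := by
  refine ⟨fun hexc => ?_, fun hexc m hm hc => ?_⟩
  · exact Cfsg.Agent.H77.hasLargePrimDiv hq.two_le he hexc
  · exact Cfsg.Agent.H77.prim_le_of_exc hexc hm hc

end Cfsg.Agent.S4423
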