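import Cfsg.Statements.S4424
import Cfsg.Agent.S0961
import Cfsg.Agent.H32.Virtual
import Cfsg.Agent.H81.Proj
import Cfsg.Agent.H80.Block

set_option autoImplicit false
open Cfsg

namespace Cfsg.Agent.S4424

/-- Let χ be an irreducible character of the finite group G lying in the p-block B (relative to a maximal ideal M of the algebraic integers containing p), and let p^a be the p-part of the order of G. Then the class function that equals p^a · χ on the p-regular elements and vanishes on the p-singular elements is an integer combination of the irreducible characters in B: there are integers a_ψ, zero for ψ outside B, with that function equal to Σ a_ψ ψ. -/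
theorem result {G : Type*} [Group G] [Finite G] (p : ℕ) [Fact p.Prime] (M : Ideal Cfsg.AlgInt) (hM : Cfsg.IsPModular p M) (B : Set (Cfsg.IrrCharacter G)) (hB : Cfsg.IsPBlock M B) (χ : Cfsg.IrrCharacter G) (hχ : χ ∈ B) : ∃ a : Cfsg.IrrCharacter G → ℤ, (∀ ψ, ψ ∉ B → a ψ = 0) ∧ (fun x : G => if p ∣ orderOf x then (0 : ℂ) else ((p ^ (Nat.card G).factorization p : ℕ) : ℂ) * (χ : G → ℂ) x) = fun x => ∑ᶠ ψ : Cfsg.IrrCharacter G, (a ψ : ℂ) * (ψ : G → ℂ) x := by
  classical
  haveI : Fintype G := Fintype.ofFinite G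
  have hMp := Cfsg.Agent.H20.isPrime_of_isPModular hM
  obtain ⟨χ₀, rfl⟩ := hB
  have hgen := Cfsg.Agent.S0961.result p χ
  obtain ⟨n, hn⟩ := Cfsg.Agent.H32.genChar_coeff hgen
  refine ⟨n, ?_, ?_⟩
  · intro ψ hψ
    have h1 := Cfsg.Agent.H32.genChar_coeff_eq n ψ
    rw [← hn] at h1
    have h2 : (fun x : G => if p ∣ orderOf x then (0 : ℂ)
        else ((p ^ (Nat.card G).factorization p : ℕ) : ℂ) * (χ : G → ℂ) x) =
        ((p ^ (Nat.card G).factorization p : ℕ) : ℂ) • Cfsg.pRegularPart p (χ : G → ℂ) := by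
      funext x
      rw [Pi.smul_apply, Cfsg.Agent.H81.pRegularPart_apply, smul_eq_mul]
      split_ifs
      · rw [mul_zero]
      · rfl
    have hψ' : ψ ∉ Cfsg.blockOf M (χ : G → ℂ) := by
      rw [Cfsg.Agent.H80.blockOf_eq_of_mem hMp hχ]
      exact hψ
    rw [h2, Cfsg.Agent.H4.classInner_smul_left, Cfsg.Agent.H81.wbo_two hM χ ψ hψ',
      mul_zero] at h1
    exact_mod_cast h1.symm
  · rw [hn]
    funext x
    letI := Cfsg.Agent.H4.fintypeIrr G
    rw [Cfsg.Agent.H4.finsum_irr_eq_sum, Cfsg.Agent.H4.finsum_irr_eq_sum, Finset.sum_apply]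
    apply Finset.sum_congr rfl
    intro ψ _
    rw [Pi.smul_apply, smul_eq_mul]

end Cfsg.Agent.S4424
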