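import Cfsg.Statements.S4426
import Cfsg.Agent.H81.Contrib

set_option autoImplicit false
open Cfsg

namespace Cfsg.Agent.S4426

/-- Let χ be an irreducible character in the p-block B of the finite group G (relative to a maximal ideal M of the algebraic integers containing p), let p^a be the p-part of the order of G, and let χ̃ be the class function equal to p^a · χ on p-regular elements and zero elsewhere. For ξ ∈ B the inner product [χ̃, ξ] is an integer. The following are equivalent: (a) χ has height zero in B; (b) for some ξ ∈ B the integer [χ̃, ξ] is nonzero and the exact power of p dividing it equals the exact power of p dividing ξ(1); (c) the same holds for every ξ ∈ B. -/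
theorem result {G : Type*} [Group G] [Fintype G] (p : ℕ) [Fact p.Prime] (M : Ideal Cfsg.AlgInt) (hM : Cfsg.IsPModular p M) (B : Set (Cfsg.IrrCharacter G)) (hB : Cfsg.IsPBlock M B) (χ : Cfsg.IrrCharacter G) (hχ : χ ∈ B) : (Cfsg.blockHeight p B (χ : G → ℂ) = 0 ↔ ∃ ξ ∈ B, ∃ n : ℤ, Cfsg.classInner (fun x : G => if p ∣ orderOf x then (0 : ℂ) else ((p ^ (Nat.card G).factorization p : ℕ) : ℂ) * (χ : G → ℂ) x) (ξ : G → ℂ) = (n : ℂ) ∧ n ≠ 0 ∧ padicValInt p n = (Cfsg.charDegree (ξ : G → ℂ)).factorization p) ∧ (Cfsg.blockHeight p B (χ : G → ℂ) = 0 ↔ ∀ ξ ∈ B, ∃ n : ℤ, Cfsg.classInner (fun x : G => if p ∣ orderOf x then (0 : ℂ) else ((p ^ (Nat.card G).factorization p : ℕ) : ℂ) * (χ : G → ℂ) x) (ξ : G → ℂ) = (n : ℂ) ∧ n ≠ 0 ∧ padicValInt p n = (Cfsg.charDegree (ξ : G → ℂ)).factorization p) := by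
  classical
  have h := Cfsg.Agent.H81.height_zero_iff_contrib hM B hB χ hχ
  unfold Cfsg.Agent.H81.contribFun at h
  exact h

end Cfsg.Agent.S4426
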