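import Cfsg.Statements.S4427
import Cfsg.Agent.Helper55.PComplFinal

set_option autoImplicit false
open Cfsg

namespace Cfsg.Agent.S4427

/-- Let G be a finite group of order p^a · q^b · r^c with p, q, r distinct primes, and suppose that G has exactly q^b · r^c elements of order not divisible by p. Then G has a normal p-complement: a normal subgroup of order q^b · r^c. -/
theorem result {G : Type*} [Group G] [Finite G] (p q r a b c : ℕ) (hp : p.Prime) (hq : q.Prime) (hr : r.Prime) (hpq : p ≠ q) (hpr : p ≠ r) (hqr : q ≠ r) (hG : Nat.card G = p ^ a * q ^ b * r ^ c) (hcount : Nat.card {g : G // ¬ p ∣ orderOf g} = q ^ b * r ^ c) : ∃ N : Subgroup G, N.Normal ∧ Nat.card N = q ^ b * r ^ c :=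
  Cfsg.Agent.Helper55.exists_normal_pcompl p q r a b c hp hq hr hpq hpr hqr hG hcount

end Cfsg.Agent.S4427
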