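import Cfsg.Statements.S4428
import Cfsg.Agent.H84.HZSection

set_option autoImplicit false
open Cfsg

namespace Cfsg.Agent.S4428

/-- Let χ be an irreducible character of height zero in the p-block B of the finite group G (relative to a maximal ideal M of the algebraic integers containing p). Let x be a p-element of G with centralizer C, and let b be a block of C that induces B. Form the class function ϑ(c) = χ(x c) on C and its b-part (the sum over ψ ∈ b of the inner product of ϑ with ψ, times ψ). Then the b-part of ϑ does not vanish identically on the p-regular elements of C. (Compare the second main Theorem, which gives vanishing when b does not induce B.) -/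
theorem result {G : Type*} [Group G] [Finite G] (p : ℕ) [Fact p.Prime] (M : Ideal Cfsg.AlgInt) (hM : Cfsg.IsPModular p M) (B : Set (Cfsg.IrrCharacter G)) (hB : Cfsg.IsPBlock M B) (χ : Cfsg.IrrCharacter G) (hχ : χ ∈ B) (h0 : Cfsg.blockHeight p B (χ : G → ℂ) = 0) (x : G) (hx : ∃ k : ℕ, orderOf x = p ^ k) (b : Set (Cfsg.IrrCharacter (Subgroup.centralizer ({x} : Set G)))) (hb : Cfsg.IsInducedBlock M (Subgroup.centralizer ({x} : Set G)) b B) : ∃ y : Subgroup.centralizer ({x} : Set G), ¬ p ∣ orderOf y ∧ Cfsg.blockPart b (fun c : Subgroup.centralizer ({x} : Set G) => (χ : G → ℂ) (x * (c : G))) y ≠ 0 := by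
  classical
  letI : Fintype G := Fintype.ofFinite G
  letI : Fintype (Subgroup.centralizer ({x} : Set G)) := Fintype.ofFinite _
  have hMp := Cfsg.Agent.H20.isPrime_of_isPModular hM
  by_contra hcon
  push_neg at hcon
  obtain ⟨ψ', hψ'⟩ := hb.1
  have hψ'b : ψ' ∈ b := by rw [hψ']; exact Cfsg.Agent.H80.mem_blockOf_self hMp ψ'
  obtain ⟨k, hk⟩ := hx
  have hxk : x ^ p ^ k = 1 := by rw [← hk]; exact pow_orderOf_eq_one x
  have hxC : ∀ c ∈ Subgroup.centralizer ({x} : Set G), x * c = c * x := by
    intro c hc
    exact (Subgroup.mem_centralizer_singleton_iff.mp hc).symm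
  have hunit := Cfsg.Agent.H84.not_memLocalIdeal_translate_pairing hM x hxk _ hxC b B hb χ hχ h0
    ψ' hψ'b
  apply hunit
  have h2 := Cfsg.Agent.H84.sum_regular_mul_eq_zero hM
    (fun c : Subgroup.centralizer ({x} : Set G) => (χ : G → ℂ) (x * (c : G)))
    (Cfsg.Agent.H84.isClassFunction_translate x _ hxC (Cfsg.Agent.H4.irr_isClassFunction χ)) ψ' (by
      intro y hy
      have h3 := hcon y hy
      rw [hψ'] at h3
      exact h3)
  rw [h2, zero_div]
  exact Cfsg.Agent.H20.memLocalIdeal_zero hMp

end Cfsg.Agent.S4428
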