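import Cfsg.Statements.S4430
import Cfsg.Agent.H20.IndPart

set_option autoImplicit false
set_option linter.style.haveILetI false
open Cfsg

namespace Cfsg.Agent.S4430

/-- Let H be a subgroup of the finite group G, b a block of H whose induced block B₀ in G is defined (relative to a maximal ideal M of the algebraic integers containing p), and ξ ∈ b. For a block B of G let n_B be the value at 1 of the B-part of the induced character ξ^G (a natural number: the sum over χ ∈ B of the multiplicity of χ in ξ^G times χ(1)). Then for B = B₀ the exact power of p dividing n_B equals the exact power of p dividing ξ^G(1), while for every other block B either n_B = 0 or n_B is divisible by a strictly higher power of p than ξ^G(1). -/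
theorem result {G : Type*} [Group G] [Fintype G] (p : ℕ) [Fact p.Prime] (M : Ideal Cfsg.AlgInt) (hM : Cfsg.IsPModular p M) (H : Subgroup G) [Fintype H] (b : Set (Cfsg.IrrCharacter H)) (B₀ : Set (Cfsg.IrrCharacter G)) (hind : Cfsg.IsInducedBlock M H b B₀) (ξ : Cfsg.IrrCharacter H) (hξ : ξ ∈ b) : (∃ n : ℕ, Cfsg.blockPart B₀ (Cfsg.indFun H (ξ : H → ℂ)) 1 = (n : ℂ) ∧ n ≠ 0 ∧ n.factorization p = (Cfsg.charDegree (Cfsg.indFun H (ξ : H → ℂ))).factorization p) ∧ ∀ B : Set (Cfsg.IrrCharacter G), Cfsg.IsPBlock M B → B ≠ B₀ → ∃ n : ℕ, Cfsg.blockPart B (Cfsg.indFun H (ξ : H → ℂ)) 1 = (n : ℂ) ∧ (n = 0 ∨ (Cfsg.charDegree (Cfsg.indFun H (ξ : H → ℂ))).factorization p < n.factorization p) := by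
  classical
  have hMp := Cfsg.Agent.H20.isPrime_of_isPModular hM
  have hind' := hind
  obtain ⟨⟨ξ₀, rfl⟩, ⟨χ₀, rfl⟩, hc⟩ := hind'
  have hχ₀self := Cfsg.Agent.H80.mem_blockOf_self hMp χ₀
  have hcong : ∀ g : G, Cfsg.MemLocalIdeal M
      (Cfsg.inducedCentralChar H (ξ : H → ℂ) g - Cfsg.centralChar (χ₀ : G → ℂ) g) :=
    fun g => hc ξ hξ χ₀ hχ₀self g
  have hN : H.index * Cfsg.charDegree (ξ : H → ℂ) ≠ 0 :=
    Nat.mul_ne_zero Subgroup.index_ne_zero_of_finite (Cfsg.Agent.H81.irr_charDegree ξ).2.ne'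
  have hcd : ∀ N : ℕ, Cfsg.indFun H (ξ : H → ℂ) 1 = (N : ℂ) →
      Cfsg.charDegree (Cfsg.indFun H (ξ : H → ℂ)) = N := by
    intro N h
    unfold Cfsg.charDegree
    rw [h]
    simp
  constructor
  · obtain ⟨n, u, h1, h2, h3, h4, h5⟩ := Cfsg.Agent.H20.blockPart_indFun_one hMp H ξ χ₀ hcong
      (Cfsg.blockOf M (χ₀ : G → ℂ)) ⟨χ₀, rfl⟩
    rw [if_pos hχ₀self] at h4
    obtain ⟨hn0, hfac⟩ := Cfsg.Agent.H20.factorization_of_local_unit hM hN h2 h3 h4
    refine ⟨n, h1, hn0, ?_⟩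
    rw [hfac, hcd _ h5]
  · intro B hB hne
    obtain ⟨n, u, h1, h2, h3, h4, h5⟩ := Cfsg.Agent.H20.blockPart_indFun_one hMp H ξ χ₀ hcong
      B hB
    have hnot : χ₀ ∉ B := by
      intro hmem
      apply hne
      obtain ⟨χ₁, rfl⟩ := hB
      exact (Cfsg.Agent.H80.blockOf_eq_of_mem hMp hmem).symm
    rw [if_neg hnot, sub_zero] at h4
    refine ⟨n, h1, ?_⟩
    rw [hcd _ h5]
    exact Cfsg.Agent.H20.factorization_of_local_ideal hM h2 h4

end Cfsg.Agent.S4430
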