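import Cfsg.Statements.S4431
import Cfsg.Agent.H20.HeightZero

set_option autoImplicit false
set_option linter.style.haveILetI false
open Cfsg

namespace Cfsg.Agent.S4431

/-- Let H be a subgroup of the finite group G and b a block of H whose induced block B₀ in G is defined (relative to a maximal ideal M of the algebraic integers containing p). Let χ be an irreducible character of G, ψ ∈ b, and let η be the class function on H equal to p^a · χ on the p-regular elements of H and zero elsewhere, p^a being the p-part of the order of H. Then (a) if χ ∉ B₀, the number [η, ψ]/ψ(1) lies in the local ideal at M; (b) if χ ∈ B₀ has height zero, it does not. -/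
theorem result {G : Type*} [Group G] [Fintype G] (p : ℕ) [Fact p.Prime] (M : Ideal Cfsg.AlgInt) (hM : Cfsg.IsPModular p M) (H : Subgroup G) [Fintype H] (b : Set (Cfsg.IrrCharacter H)) (B₀ : Set (Cfsg.IrrCharacter G)) (hind : Cfsg.IsInducedBlock M H b B₀) (χ : Cfsg.IrrCharacter G) (ψ : Cfsg.IrrCharacter H) (hψ : ψ ∈ b) : (χ ∉ B₀ → Cfsg.MemLocalIdeal M (Cfsg.classInner (fun h : H => if p ∣ orderOf h then (0 : ℂ) else ((p ^ (Nat.card H).factorization p : ℕ) : ℂ) * (χ : G → ℂ) h) (ψ : H → ℂ) / (ψ : H → ℂ) 1)) ∧ (χ ∈ B₀ → Cfsg.blockHeight p B₀ (χ : G → ℂ) = 0 → ¬ Cfsg.MemLocalIdeal M (Cfsg.classInner (fun h : H => if p ∣ orderOf h then (0 : ℂ) else ((p ^ (Nat.card H).factorization p : ℕ) : ℂ) * (χ : G → ℂ) h) (ψ : H → ℂ) / (ψ : H → ℂ) 1)) := by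
  classical
  have hMp := Cfsg.Agent.H20.isPrime_of_isPModular hM
  have hp : p.Prime := hM.1
  have key := Cfsg.Agent.H20.inner_regular_induced hM H b B₀ hind χ ψ hψ
  have hform := Cfsg.Agent.H20.classInner_regular_div (p := p) H (χ : G → ℂ) ψ
    ((p ^ (Nat.card H).factorization p : ℕ) : ℂ)
  have hHpos : Nat.card H ≠ 0 := Nat.card_pos.ne'
  have hdvd : ¬ p ∣ Nat.card H / p ^ (Nat.card H).factorization p :=
    Nat.not_dvd_ordCompl hp hHpos
  have hunit : ((p ^ (Nat.card H).factorization p : ℕ) : ℂ) / (Nat.card H : ℂ) =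
      ((Nat.card H / p ^ (Nat.card H).factorization p : ℕ) : ℂ)⁻¹ := by
    have en := Nat.ordProj_mul_ordCompl_eq_self (Nat.card H) p
    have hp0 : ((p ^ (Nat.card H).factorization p : ℕ) : ℂ) ≠ 0 := by
      exact_mod_cast (pow_pos hp.pos _).ne'
    have hm0 : ((Nat.card H / p ^ (Nat.card H).factorization p : ℕ) : ℂ) ≠ 0 := by
      intro h0
      have h1 : Nat.card H / p ^ (Nat.card H).factorization p = 0 := by exact_mod_cast h0
      rw [h1] at hdvd
      exact hdvd (dvd_zero p)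
    have e : (Nat.card H : ℂ) = ((p ^ (Nat.card H).factorization p : ℕ) : ℂ) *
        ((Nat.card H / p ^ (Nat.card H).factorization p : ℕ) : ℂ) := by
      exact_mod_cast en.symm
    rw [div_eq_iff (by exact_mod_cast hHpos), eq_comm, inv_mul_eq_iff_eq_mul₀ hm0, mul_comm]
    exact e
  have hinvR : Cfsg.MemLocalRing M
      (((Nat.card H / p ^ (Nat.card H).factorization p : ℕ) : ℂ)⁻¹) :=
    Cfsg.Agent.H20.memLocalRing_inv_natCast hM hdvd
  have hωR : Cfsg.MemLocalRing M (Cfsg.Agent.H20.omega (ψ : H → ℂ)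
      (Cfsg.Agent.H80.truncTo H (Cfsg.Agent.H20.regElt p (χ : G → ℂ)))) :=
    Cfsg.Agent.H20.omega_memLocalRing hMp ψ (Cfsg.Agent.H80.truncTo_mem_cfSubring
      (Cfsg.Agent.H80.cfSubring_le_invSubring H _ (Cfsg.Agent.H20.regElt_mem hMp p χ)))
  constructor
  · intro hχ
    rw [hform, hunit]
    exact Cfsg.Agent.H20.memLocalIdeal_mul_left hMp hinvR (key.1 hχ)
  · intro hχ h0
    rw [hform, hunit]
    intro hcon
    rcases Cfsg.Agent.H20.memLocalIdeal_or_of_mul hMp hinvR hωR hcon with h1 | h1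
    · exact Cfsg.Agent.H20.not_memLocalIdeal_inv hMp (Cfsg.Agent.H20.memLocalRing_natCast hMp _)
        (fun h => hdvd ((Cfsg.Agent.H20.memLocalIdeal_natCast_iff hM _).mp h)) h1
    · exact key.2 hχ h0 h1

end Cfsg.Agent.S4431
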