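import Cfsg.Statements.S4442
import Cfsg.Agent.S4502
import Cfsg.Agent.H82.P3F

set_option autoImplicit false
set_option linter.style.haveILetI false
open Cfsg

namespace Cfsg.Agent.S4442

open Cfsg.Agent.H82 Cfsg.Agent.H82.BL Cfsg.Agent.H82.P1 in
/-- Blocks of defect one. Let p be an odd prime and G a finite group whose Sylow p-subgroup P has order p; let C = C_G(P) and N = N_G(P), and fix a maximal ideal M of the algebraic integers containing p. Let B be a block of G with defect group P, b a block of C inducing B, and θ the member of b having P in its kernel (there is exactly one). Let T be the stabilizer of θ in N (the elements g ∈ N with θ(g c g⁻¹) = θ(c) for all c ∈ C) and e the index of C in T. Then e divides p − 1 and B contains exactly e + (p − 1)/e irreducible characters. Moreover B is the disjoint union of a set X of e characters and a set Y of (p − 1)/e characters such that, with f the index of C in N: every χ ∈ X has χ(1) ≡ ±(f/e)·θ(1) (mod p),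 there is one sign ε with ψ(1) ≡ ε f θ(1) (mod p) for all ψ ∈ Y, and all members of Y agree on the p-regular elements of G. -/
theorem result {G : Type*} [Group G] [Finite G] (p : ℕ) [Fact p.Prime] (M : Ideal Cfsg.AlgInt) (hM : Cfsg.IsPModular p M) (hodd : p ≠ 2) (P : Sylow p G) (hP : Nat.card P = p) (B : Set (Cfsg.IrrCharacter G)) (hB : Cfsg.IsPBlock M B) (hBP : Cfsg.IsDefectGroup p M B P) (b : Set (Cfsg.IrrCharacter (Subgroup.centralizer ((P : Subgroup G) : Set G)))) (hind : Cfsg.IsInducedBlock M (Subgroup.centralizer ((P : Subgroup G) : Set G)) b B) (θ : Cfsg.IrrCharacter (Subgroup.centralizer ((P : Subgroup G) : Set G))) (hθ : θ ∈ b) (hθP : ∀ x : Subgroup.centralizer ((P : Subgroup G) : Set G), (x : G) ∈ (P : Subgroup G) → (θ : Subgroup.centralizer ((P : Subgroup G) : Set G) → ℂ) x = (θ : Subgroup.centralizer ((P : Subgroup G) : Set G) → ℂ) 1) (T : Subgroup G) (hT : ∀ g : G, g ∈ T ↔ (g ∈ Subgroup.normalizer ((P : Subgroup G) : Set G) ∧ ∀ c c' : Subgroup.centralizer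 ((P : Subgroup G) : Set G), (c' : G) = g * c * g⁻¹ → (θ : Subgroup.centralizer ((P : Subgroup G) : Set G) → ℂ) c' = (θ : Subgroup.centralizer ((P : Subgroup G) : Set G) → ℂ) c)) (e f : ℕ) (he : (Subgroup.centralizer ((P : Subgroup G) : Set G)).relIndex T = e) (hf : (Subgroup.centralizer ((P : Subgroup G) : Set G)).relIndex (Subgroup.normalizer ((P : Subgroup G) : Set G)) = f) : e ∣ p - 1 ∧ Nat.card B = e + (p - 1) / e ∧ ∃ X Y : Set (Cfsg.IrrCharacter G), B = X ∪ Y ∧ Disjoint X Y ∧ Nat.card X = e ∧ Nat.card Y = (p - 1) / e ∧ (∀ χ ∈ X, (Cfsg.charDegree (χ : G → ℂ) : ℤ) ≡ ((f / e * Cfsg.charDegree (θ : Subgroup.centralizer ((P : Subgroup G) : Set G) → ℂ) : ℕ) : ℤ) [ZMOD p] ∨ (Cfsg.charDegree (χ : G → ℂ) : ℤ) ≡ -((f / e * Cfsg.charDegree (θ : Subgroup.centralizer ((P : Subgroup G) : Set G) → ℂ) : ℕ) : ℤ) [ZMOD p]) ∧ (∃ ε : ℤ, (ε = 1 ∨ ε = -1) ∧ ∀ ψ ∈ Y, (Cfsg.charDegree (ψ : G → ℂ) : ℤ) ≡ ε * ((f * Cfsg.charDegree (θ : Subgroup.centralizer ((P : Subgroup G)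 : Set G) → ℂ) : ℕ) : ℤ) [ZMOD p]) ∧ ∀ ψ ∈ Y, ∀ ψ' ∈ Y, ∀ g : G, ¬ p ∣ orderOf g → (ψ : G → ℂ) g = (ψ' : G → ℂ) g := by
  classical
  letI : Fintype G := Fintype.ofFinite G
  have hp : p.Prime := Fact.out
  obtain ⟨S⟩ := exists_setup_of_card P hP
  letI : Fintype ↥(NN P) := Fintype.ofFinite _
  letI : Fintype ↥(CC P) := Fintype.ofFinite _
  letI : Fintype (IrrCharacter G) := Cfsg.Agent.H4.fintypeIrr G
  letI : Fintype (IrrCharacter ↥(NN P)) := Cfsg.Agent.H4.fintypeIrr _
  letI : Fintype (IrrCharacter ↥(CC P)) := Cfsg.Agent.H4.fintypeIrr _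
  letI : Fintype ↥((P : Subgroup G).subgroupOf (CC P)) := Fintype.ofFinite _
  have hcomm : ∀ a b : ↥((P : Subgroup G).subgroupOf (CC P)), a * b = b * a := by
    intro a b
    apply Subtype.ext
    apply Subtype.ext
    have := S.cent (a : G) (Subgroup.mem_subgroupOf.mp a.2) (b : G) (b : ↥(CC P)).2
    simpa using this
  haveI : Finite (↥((P : Subgroup G).subgroupOf (CC P)) →* ℂˣ) := (card_hom_units hcomm).1
  letI : Fintype (↥((P : Subgroup G).subgroupOf (CC P)) →* ℂˣ) := Fintype.ofFinite _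
  have hP' : Nat.card ↥(P : Subgroup G) = p := hP
  -- the count `k_{p'}(G) = k(N)`
  have hGcard := Cfsg.Agent.H82.Md.sylp_card P hP
  have hidx := Cfsg.Agent.H82.Md.sylp_not_dvd_index P hP
  have hdiv : p ∣ Nat.card G := by
    rw [hGcard]
    exact dvd_mul_right _ _
  have hsq : ¬ p ^ 2 ∣ Nat.card G := by
    rw [hGcard, pow_two]
    intro h
    exact hidx ((Nat.mul_dvd_mul_iff_left hp.pos).mp h)
  have hcount := Cfsg.Agent.S4502.result p hdiv hsq P
  have heq : Fintype.card (IrrCharacter ↥(NN P)) ≤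
      (Finset.univ.filter fun χ : IrrCharacter G =>
        ¬ Nat.card ↥(P : Subgroup G) ∣ charDegree χ.1).card := by
    rw [hP']
    have h := hcount
    rw [← Cfsg.Agent.H4.card_irr_eq_card_conjClasses, Nat.card_eq_fintype_card,
      Nat.card_eq_fintype_card, Fintype.card_subtype] at h
    exact h.symm.le
  have hcyc := isCyclic_norm_mod_cent P hP S
  -- `θ` as a character trivial on `P`
  have hcen : IsCen θ.1 (1 : ↥((P : Subgroup G).subgroupOf (CC P)) →* ℂˣ) := by
    obtain ⟨ω, hω⟩ := exists_isCen S θ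
    have h1 : ω = 1 := by
      ext x
      have h2 := hω x 1
      rw [mul_one, hθP (x : ↥(CC P)) (Subgroup.mem_subgroupOf.mp x.2)] at h2
      have h3 : ((ω x : ℂˣ) : ℂ) = 1 := by
        have h4 : (1 : ℂ) * θ.1 1 = ((ω x : ℂˣ) : ℂ) * θ.1 1 := by rw [one_mul]; exact h2
        exact (mul_right_cancel₀ (Cfsg.Agent.H82.irr_one_ne_zero θ) h4).symm
      rw [h3]
      rfl
    rw [← h1]
    exact hω
  obtain ⟨ϑ, hϑ⟩ : ∃ ϑ : Irr0 S, ϑ = ⟨θ, hcen⟩ := ⟨_, rfl⟩
  have hϑ1 : ϑ.1 = θ := by rw [hϑ]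
  -- `p` divides `|C|` exactly once
  have hpC : p ∣ Nat.card ↥(CC P) := by
    have h1 : Nat.card ↥(P : Subgroup G) ∣ Nat.card ↥(CC P) := Subgroup.card_dvd_of_le S.hPC
    rwa [hP'] at h1
  have hk : ¬ p ∣ Nat.card ↥(CC P) / p := by
    obtain ⟨k, hk'⟩ := hpC
    rw [hk', Nat.mul_div_cancel_left k hp.pos]
    intro h
    have h1 : Nat.card ↥(CC P) ∣ Nat.card G := Subgroup.card_subgroup_dvd_card _
    rw [hk', hGcard] at h1
    exact hidx (dvd_trans h ((Nat.mul_dvd_mul_iff_left hp.pos).mp h1))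
  -- the stabilizer
  have hCT : CC P ≤ T := by
    intro c hc
    rw [hT]
    refine ⟨S.hCN hc, ?_⟩
    intro c₁ c₂ h12
    have h1 : c₂ = (⟨c, hc⟩ : ↥(CC P)) * c₁ * (⟨c, hc⟩ : ↥(CC P))⁻¹ := by
      apply Subtype.ext
      rw [h12]
      rfl
    rw [h1]
    exact Cfsg.Agent.H4.irr_isClassFunction θ c₁ ⟨c, hc⟩
  have hTN : T ≤ NN P := fun g hg => ((hT g).mp hg).1
  have hstab : ∀ n : ↥(NN P), n ∈ stabT S ϑ.1 ↔ (n : G) ∈ T := by
    intro n
    rw [mem_stabT, hϑ1, hT]
    constructor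
    · intro h
      refine ⟨n.2, ?_⟩
      intro c c' hc'
      have h1 : c' = cj S n c := by
        apply Subtype.ext
        rw [hc']
        rfl
      rw [h1]
      exact congrFun h c
    · rintro ⟨-, h⟩
      funext c
      exact h c (cj S n c) rfl
  have hcardT : (stabT S ϑ.1).card = Nat.card T := by
    have h1 : Nat.card T = Nat.card ↥(T.subgroupOf (NN P)) :=
      (Nat.card_congr (Subgroup.subgroupOfEquivOfLe hTN).toEquiv).symm
    rw [h1, Nat.card_eq_fintype_card, Fintype.card_subtype]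
    congr 1
    ext n
    simp only [Finset.mem_filter, Finset.mem_univ, true_and]
    rw [hstab n]
    exact Subgroup.mem_subgroupOf.symm
  have hTcard : Nat.card T = e * Nat.card ↥(CC P) := by
    rw [← he]
    have h2 : Nat.card ((CC P).subgroupOf T) * ((CC P).subgroupOf T).index = Nat.card T :=
      Subgroup.card_mul_index _
    have h3 : Nat.card ((CC P).subgroupOf T) = Nat.card (CC P) :=
      Nat.card_congr (Subgroup.subgroupOfEquivOfLe hCT).toEquiv
    rw [h3] at h2
    rw [← h2, mul_comm]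
    rfl
  have he' : (stabT S ϑ.1).card = e * Nat.card ↥(CC P) := by rw [hcardT, hTcard]
  have hindf : ind S = f := by
    rw [← hf]
    have h1 := ind_mul S
    have h2 : Nat.card ((CC P).subgroupOf (NN P)) * ((CC P).subgroupOf (NN P)).index =
        Nat.card (NN P) := Subgroup.card_mul_index _
    have h3 : Nat.card ((CC P).subgroupOf (NN P)) = Nat.card (CC P) :=
      Nat.card_congr (Subgroup.subgroupOfEquivOfLe S.hCN).toEquiv
    rw [h3] at h2
    have h4 : ind S * Nat.card (CC P) =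
        ((CC P).subgroupOf (NN P)).index * Nat.card (CC P) := by
      rw [h1, ← h2, mul_comm]
    exact Nat.eq_of_mul_eq_mul_right Nat.card_pos h4
  have hef : e ∣ f := by
    have h1 : Nat.card T ∣ Nat.card ↥(NN P) := Subgroup.card_dvd_of_le hTN
    rw [hTcard, ← ind_mul S, hindf] at h1
    exact (Nat.mul_dvd_mul_iff_right Nat.card_pos).mp h1
  have hq : e * (f / e) = ind S := by
    rw [hindf]
    exact Nat.mul_div_cancel' hef
  have hθ' : ϑ.1 ∈ b := by rw [hϑ1]; exact hθ
  obtain ⟨hediv, w, Y, s, hB', hYw, hwc, hYc, hs, hdegX, hdegY, hreg⟩ :=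
    block_structure S hM hP' hcyc heq hpC hk ϑ e (f / e) he' hq B b hind hθ'
  rw [hϑ1] at hdegX hdegY
  rw [hindf] at hdegY
  have he0 : 0 < e := by
    rcases Nat.eq_zero_or_pos e with h | h
    · rw [h, Nat.mul_zero] at hYc
      have : 1 < p := hp.one_lt
      omega
    · exact h
  have hYcard : Y.card = (p - 1) / e :=
    (Nat.div_eq_of_eq_mul_left he0 hYc.symm).symm
  have hdisjF : Disjoint (Finset.univ.filter fun χ : IrrCharacter G => w χ ≠ 0) Y := by
    rw [Finset.disjoint_left]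
    intro χ h1 h2
    exact (Finset.mem_filter.mp h1).2 (hYw χ h2)
  refine ⟨hediv, ?_, {χ | w χ ≠ 0}, {χ | χ ∈ Y}, ?_, ?_, ?_, ?_, ?_, ⟨-s, ?_, ?_⟩, ?_⟩
  · have hBfin : B = (((Finset.univ.filter fun χ : IrrCharacter G => w χ ≠ 0) ∪ Y :
        Finset (IrrCharacter G)) : Set (IrrCharacter G)) := by
      ext χ
      rw [hB' χ]
      simp
    rw [hBfin, Nat.card_coe_set_eq, Set.ncard_coe_finset,
      Finset.card_union_of_disjoint hdisjF, hwc, hYcard]
  · ext χ
    rw [hB' χ]
    rfl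
  · exact Set.disjoint_left.mpr (fun χ hX hY' => hX (hYw χ hY'))
  · show Nat.card {χ : IrrCharacter G // w χ ≠ 0} = e
    rw [Nat.card_eq_fintype_card, Fintype.card_subtype, hwc]
  · have h1 : Nat.card ↥{χ : IrrCharacter G | χ ∈ Y} = Y.card := by
      show Nat.card {χ : IrrCharacter G // χ ∈ Y} = Y.card
      rw [Nat.card_eq_fintype_card, Fintype.card_coe]
    rw [h1, hYcard]
  · intro χ hχ
    exact hdegX χ hχ
  · rcases hs with h | h
    · right
      rw [h]
    · left
      rw [h]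
      norm_num
  · intro ψ hψ
    exact hdegY ψ hψ
  · intro ψ hψ ψ' hψ' g hg
    exact hreg ψ hψ ψ' hψ' g hg

end Cfsg.Agent.S4442
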