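import Cfsg.Statements.S4446
import Cfsg.Agent.Lib.Glaub.Bij

set_option autoImplicit false
open Cfsg

namespace Cfsg.Agent.S4446

/-- Let the finite group Γ be generated by a normal subgroup G and a cyclic subgroup S of coprime orders, C = G ⊓ C(S), and let χ be an S-invariant irreducible character of G with canonical extension χ̂ to Γ (the extension whose determinantal order is coprime to the order of S). Then there are exactly one irreducible character β of C and one sign ε such that χ̂(c s) = ε β(c) for every c ∈ C and every generator s of S; this β is a constituent of the restriction of χ to C; distinct S-invariant χ give distinct β; and every irreducible character of C arises in this way. -/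
theorem result {Γ : Type*} [Group Γ] [Fintype Γ] (G S : Subgroup Γ) [Fintype G] (hnorm : ∀ s ∈ S, ∀ g ∈ G, s * g * s⁻¹ ∈ G) (hcop : (Nat.card G).Coprime (Nat.card S)) (htop : G ⊔ S = ⊤) (hcyc : IsCyclic S) (C : Subgroup Γ) [Fintype C] (hC : C = G ⊓ Subgroup.centralizer (S : Set Γ)) (hCG : C ≤ G) : (∀ (χ : Cfsg.IrrCharacter G) (χh : Cfsg.IrrCharacter Γ), (∀ s ∈ S, ∀ g g' : G, (g' : Γ) = s * g * s⁻¹ → (χ : G → ℂ) g' = (χ : G → ℂ) g) → (∀ g : G, (χh : Γ → ℂ) g = (χ : G → ℂ) g) → (Cfsg.detOrder (χh : Γ → ℂ)).Coprime (Nat.card S) → (∃! βε : Cfsg.IrrCharacter C × ℤ, (βε.2 = 1 ∨ βε.2 = -1) ∧ ∀ c : C, ∀ s : Γ, Subgroup.zpowers s = S → (χh : Γ → ℂ) ((c : Γ) * s) = (βε.2 : ℂ) * (βε.1 : C → ℂ) c) ∧ ∀ β : Cfsg.IrrCharacter C, ∀ ε : ℤ, (ε = 1 ∨ ε = -1) → (∀ c : C, ∀ s : Γ, Subgroup.zpowers s = S → (χh : Γ → ℂ) ((c : Γ) * s) = (ε : ℂ) * (β : C → ℂ) c) → Cfsg.classInner (fun c : C => (χ : G → ℂ) ⟨c,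 hCG c.2⟩) (β : C → ℂ) ≠ 0) ∧ (∀ (χ χ' : Cfsg.IrrCharacter G) (χh χh' : Cfsg.IrrCharacter Γ), (∀ s ∈ S, ∀ g g' : G, (g' : Γ) = s * g * s⁻¹ → (χ : G → ℂ) g' = (χ : G → ℂ) g) → (∀ s ∈ S, ∀ g g' : G, (g' : Γ) = s * g * s⁻¹ → (χ' : G → ℂ) g' = (χ' : G → ℂ) g) → (∀ g : G, (χh : Γ → ℂ) g = (χ : G → ℂ) g) → (∀ g : G, (χh' : Γ → ℂ) g = (χ' : G → ℂ) g) → (Cfsg.detOrder (χh : Γ → ℂ)).Coprime (Nat.card S) → (Cfsg.detOrder (χh' : Γ → ℂ)).Coprime (Nat.card S) → ∀ β : Cfsg.IrrCharacter C, ∀ ε ε' : ℤ, (ε = 1 ∨ ε = -1) → (ε' = 1 ∨ ε' = -1) → (∀ c : C, ∀ s : Γ, Subgroup.zpowers s = S → (χh : Γ → ℂ) ((c : Γ) * s) = (ε : ℂ) * (β : C → ℂ) c) → (∀ c : C, ∀ s : Γ, Subgroup.zpowers s = S → (χh' : Γ → ℂ) ((c : Γ) * s) = (ε' : ℂ) * (β : C → ℂ) c) → χ = χ') ∧ (∀ β : Cfsg.IrrCharacter C, ∃ (χ : Cfsg.IrrCharacter G) (χh : Cfsg.IrrCharacter Γ) (ε : ℤ), (∀ s ∈ S, ∀ g g' : G, (g' : Γ) = s * g * s⁻¹ → (χ : G → ℂ) g'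 = (χ : G → ℂ) g) ∧ (∀ g : G, (χh : Γ → ℂ) g = (χ : G → ℂ) g) ∧ (Cfsg.detOrder (χh : Γ → ℂ)).Coprime (Nat.card S) ∧ (ε = 1 ∨ ε = -1) ∧ ∀ c : C, ∀ s : Γ, Subgroup.zpowers s = S → (χh : Γ → ℂ) ((c : Γ) * s) = (ε : ℂ) * (β : C → ℂ) c) := by
  subst hC
  classical
  -- `G` is normal in `Γ`
  have hG : G.Normal := by
    rw [← Subgroup.normalizer_eq_top_iff, eq_top_iff, ← htop, sup_le_iff]
    refine ⟨Subgroup.le_normalizer, fun t ht => ?_⟩
    rw [Subgroup.mem_normalizer_iff]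
    intro n
    refine ⟨fun hn => hnorm t ht n hn, fun hn => ?_⟩
    have := hnorm t⁻¹ (S.inv_mem ht) _ hn
    have h2 : t⁻¹ * (t * n * t⁻¹) * t⁻¹⁻¹ = n := by group
    rwa [h2] at this
  -- a generator of `S`
  obtain ⟨s0', hs0'⟩ := isCyclic_iff_exists_zpowers_eq_top.mp hcyc
  have hgen : Subgroup.zpowers (s0' : Γ) = S := by
    have h1 := MonoidHom.map_zpowers S.subtype s0'
    rw [hs0', ← MonoidHom.range_eq_map, Subgroup.range_subtype] at h1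
    exact h1.symm
  obtain ⟨s0, hs0S⟩ := s0'
  have hset : Glaub.Setup G S s0 := ⟨hG, hcop, htop, hgen⟩
  have hcanon : ∀ (χ : IrrCharacter G) (χh : IrrCharacter Γ), (∀ g : G, χh.1 g = χ.1 g) →
      (detOrder χh.1).Coprime (Nat.card S) → Glaub.IsCanonExt G χ.1 χh.1 :=
    fun χ χh hext hdet => ⟨χh.2, hext, by rw [hset.index_eq]; exact hdet⟩
  have hgenval : ∀ (χ : IrrCharacter G) (X : Γ → ℂ), Glaub.IsCanonExt G χ.1 X →
      ∀ (c : (G ⊓ Subgroup.centralizer (S : Set Γ) : Subgroup Γ)) (s : Γ),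
        Subgroup.zpowers s = S → X ((c : Γ) * s) = X ((c : Γ) * s0) := by
    intro χ X hX c s hs
    obtain ⟨k, hk, rfl⟩ := hset.exists_pow_of_gen hs
    exact hset.canon_pow χ.2 hX hk c.2.1 (hset.commute_of_mem_C c.2)
  -- uniqueness of the pair (β, ε)
  have huniq : ∀ (β β' : IrrCharacter (G ⊓ Subgroup.centralizer (S : Set Γ) : Subgroup Γ))
      (ε ε' : ℤ), (ε = 1 ∨ ε = -1) → (ε' = 1 ∨ ε' = -1) →
      (∀ c, (ε : ℂ) * β.1 c = (ε' : ℂ) * β'.1 c) → β = β' ∧ ε = ε' := by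
    intro β β' ε ε' hε hε' hv
    have h1 := hv 1
    rw [Cfsg.Agent.H82.irr_one_eq_charDegree, Cfsg.Agent.H82.irr_one_eq_charDegree] at h1
    have hd := Cfsg.Agent.H82.charDegree_pos β
    have hd' := Cfsg.Agent.H82.charDegree_pos β'
    have h2 : ε * (charDegree β.1 : ℤ) = ε' * (charDegree β'.1 : ℤ) := by exact_mod_cast h1
    have hεε : ε = ε' := by
      rcases hε with rfl | rfl <;> rcases hε' with rfl | rfl
      · rfl
      · exfalso; omega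
      · exfalso; omega
      · rfl
    refine ⟨?_, hεε⟩
    subst hεε
    have hε0 : (ε : ℂ) ≠ 0 := by
      rcases hε with rfl | rfl <;> norm_num
    exact Subtype.ext (funext fun c => mul_left_cancel₀ hε0 (hv c))
  refine ⟨?_, ?_, ?_⟩
  · intro χ χh hinv hext hdet
    have hX := hcanon χ χh hext hdet
    obtain ⟨β, ε, hε, hval, hne⟩ := hset.exists_sign_char χ.2 hX
    refine ⟨⟨(β, ε), ⟨hε, fun c s hs => by rw [hgenval χ _ hX c s hs, hval]⟩, ?_⟩, ?_⟩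
    · rintro ⟨β', ε'⟩ ⟨hε', hval'⟩
      have := huniq β' β ε' ε hε' hε (fun c => by rw [← hval' c s0 hgen, hval])
      exact Prod.ext this.1 this.2
    · intro β' ε' hε' hval'
      have := huniq β' β ε' ε hε' hε (fun c => by rw [← hval' c s0 hgen, hval])
      rw [this.1]
      have hfun : (fun c : (G ⊓ Subgroup.centralizer (S : Set Γ) : Subgroup Γ) => χh.1 c) =
          fun c : (G ⊓ Subgroup.centralizer (S : Set Γ) : Subgroup Γ) => χ.1 ⟨c, hCG c.2⟩ :=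
        funext fun c => hext ⟨c, hCG c.2⟩
      rw [← hfun]
      exact hne
  · intro χ χ' χh χh' hinv hinv' hext hext' hdet hdet' β ε ε' hε hε' hval hval'
    exact Subtype.ext (hset.corr_injective χ.2 χ'.2 (hcanon χ χh hext hdet)
      (hcanon χ' χh' hext' hdet') β ε ε' hε hε' (fun c => hval c s0 hgen)
      (fun c => hval' c s0 hgen))
  · intro β
    obtain ⟨χ, X, ε, hinv, hX, hε, hval⟩ := hset.exists_corr β
    refine ⟨χ, ⟨X, hX.1⟩, ε, hinv, hX.2.1, ?_, hε, fun c s hs => ?_⟩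
    · have := hX.2.2
      rwa [hset.index_eq] at this
    · change X ((c : Γ) * s) = _
      rw [hgenval χ X hX c s hs, hval]

end Cfsg.Agent.S4446
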