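import Cfsg.Statements.S4447
import Cfsg.Agent.Lib.Clifford
import Cfsg.Agent.S0059
import Cfsg.Agent.H4.IrrCount

set_option autoImplicit false
open Cfsg

namespace Cfsg.Agent.S4447

open Cfsg.Agent Cfsg.Agent.H4
open scoped Pointwise

section Setup

variable {Γ : Type*} [Group Γ] (L N : Subgroup Γ)

/-- Conjugation by an element of a subgroup `L` normalising `N`, as an automorphism of `N`. -/
def cjL (hLN : ∀ x ∈ L, ∀ n ∈ N, x * n * x⁻¹ ∈ N) (x : L) : ↥N ≃* ↥N where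
  toFun n := ⟨x * n * (x : Γ)⁻¹, hLN x x.2 n n.2⟩
  invFun n := ⟨(x : Γ)⁻¹ * n * x, by simpa using hLN (x : Γ)⁻¹ (inv_mem x.2) n n.2⟩
  left_inv n := by apply Subtype.ext; simp [mul_assoc]
  right_inv n := by apply Subtype.ext; simp [mul_assoc]
  map_mul' a b := by apply Subtype.ext; simp [mul_assoc]

theorem cjL_coe (hLN : ∀ x ∈ L, ∀ n ∈ N, x * n * x⁻¹ ∈ N) (x : L) (n : N) :
    ((cjL L N hLN x n : N) : Γ) = x * n * (x : Γ)⁻¹ := rfl

/-- `L` acts on the irreducible constituents of an `L`-invariant function on `N`. -/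
@[reducible] noncomputable def omegaAct [Fintype N] (hLN : ∀ x ∈ L, ∀ n ∈ N, x * n * x⁻¹ ∈ N)
    (F : N → ℂ) (hF : ∀ (x : L) (n : N), F (cjL L N hLN x n) = F n) :
    MulAction L {θ : IrrCharacter N // classInner F θ.1 ≠ 0} where
  smul x θ := ⟨⟨fun n => θ.1.1 (cjL L N hLN x⁻¹ n),
      Clifford.isIrrCharacter_comp_equiv (cjL L N hLN x⁻¹) θ.1.2⟩, by
    have h := Clifford.classInner_comp_equiv (cjL L N hLN x⁻¹) F θ.1.1
    have h2 : (fun a => F (cjL L N hLN x⁻¹ a)) = F := funext (hF x⁻¹)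
    rw [h2] at h
    show classInner F (fun n => θ.1.1 (cjL L N hLN x⁻¹ n)) ≠ 0
    rw [h]; exact θ.2⟩
  one_smul θ := by
    apply Subtype.ext; apply Subtype.ext; funext n
    show θ.1.1 (cjL L N hLN (1 : L)⁻¹ n) = θ.1.1 n
    refine congrArg θ.1.1 (Subtype.ext ?_)
    simp [cjL_coe]
  mul_smul x y θ := by
    apply Subtype.ext; apply Subtype.ext; funext n
    show θ.1.1 (cjL L N hLN (x * y)⁻¹ n) = θ.1.1 (cjL L N hLN y⁻¹ (cjL L N hLN x⁻¹ n))
    refine congrArg θ.1.1 (Subtype.ext ?_)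
    simp [cjL_coe, mul_assoc]

theorem omegaAct_apply [Fintype N] (hLN : ∀ x ∈ L, ∀ n ∈ N, x * n * x⁻¹ ∈ N)
    (F : N → ℂ) (hF : ∀ (x : L) (n : N), F (cjL L N hLN x n) = F n) (x : L)
    (θ : {θ : IrrCharacter N // classInner F θ.1 ≠ 0}) (n : N) :
    ((omegaAct L N hLN F hF).smul x θ).1.1 n = θ.1.1 (cjL L N hLN x⁻¹ n) := rfl

end Setup

/-- Inside a finite group Γ let S normalise G and also normalise a normal subgroup N of G, with the order of S coprime to the index of N in G and S or G/N solvable. Then for every S-invariant irreducible character χ of G, the restriction of χ to N has an S-invariant irreducible constituent. -/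
theorem result {Γ : Type*} [Group Γ] [Fintype Γ] (G S N : Subgroup Γ) [Fintype G] [Fintype N] (hnorm : ∀ s ∈ S, ∀ g ∈ G, s * g * s⁻¹ ∈ G) (hNG : N ≤ G) [hNn : (N.subgroupOf G).Normal] (hNS : ∀ s ∈ S, ∀ n ∈ N, s * n * s⁻¹ ∈ N) (hcop : (N.relIndex G).Coprime (Nat.card S)) (hsolv : Group.IsSolvable S ∨ Group.IsSolvable (G ⧸ N.subgroupOf G)) (χ : Cfsg.IrrCharacter G) (hinv : (∀ s ∈ S, ∀ g g' : G, (g' : Γ) = s * g * s⁻¹ → (χ : G → ℂ) g' = (χ : G → ℂ) g)) : ∃ θ : Cfsg.IrrCharacter N, Cfsg.classInner (fun n : N => (χ : G → ℂ) ⟨n, hNG n.2⟩) (θ : N → ℂ) ≠ 0 ∧ (∀ s ∈ S, ∀ g g' : N, (g' : Γ) = s * g * s⁻¹ → (θ : N → ℂ) g' = (θ : N → ℂ) g) := by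
  classical
  set L : Subgroup Γ := G ⊔ S with hL
  have hGL : G ≤ L := le_sup_left
  have hSL : S ≤ L := le_sup_right
  have keyG : ∀ g ∈ G, ∀ n ∈ N, g * n * g⁻¹ ∈ N := by
    intro g hg n hn
    have h1 : (⟨n, hNG hn⟩ : G) ∈ N.subgroupOf G := by rw [Subgroup.mem_subgroupOf]; exact hn
    have h2 := hNn.conj_mem _ h1 ⟨g, hg⟩
    rw [Subgroup.mem_subgroupOf] at h2
    simpa using h2
  have normOf : ∀ (A B : Subgroup Γ), (∀ a ∈ A, ∀ n ∈ B, a * n * a⁻¹ ∈ B) →
      A ≤ Subgroup.normalizer (B : Set Γ) := by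
    intro A B hA a ha
    rw [Subgroup.mem_normalizer_iff]
    intro n
    constructor
    · exact hA a ha n
    · intro h
      have := hA a⁻¹ (inv_mem ha) _ h
      simpa [mul_assoc] using this
  have hLN' : L ≤ Subgroup.normalizer (N : Set Γ) := sup_le (normOf G N keyG) (normOf S N hNS)
  have hLN : ∀ x ∈ L, ∀ n ∈ N, x * n * x⁻¹ ∈ N := by
    intro x hx n hn
    exact (Subgroup.mem_normalizer_iff.mp (hLN' hx) n).mp hn
  have hLG' : L ≤ Subgroup.normalizer (G : Set Γ) := sup_le Subgroup.le_normalizer (normOf S G hnorm)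
  -- invariance of χ|N under L
  set F0 : Γ → ℂ := fun y => if h : y ∈ N then χ.1 ⟨y, hNG h⟩ else 0 with hF0
  let T : Subgroup Γ :=
    { carrier := {x | ∀ y, F0 (x * y * x⁻¹) = F0 y}
      mul_mem' := by
        intro a b ha hb y
        have h1 := ha (b * y * b⁻¹)
        rw [hb y] at h1
        rw [← h1]; congr 1; group
      one_mem' := by intro y; simp
      inv_mem' := by
        intro a ha y
        have h1 := ha (a⁻¹ * y * a⁻¹⁻¹)
        rw [← h1]; congr 1; group }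
  have hχc : IsClassFunction G χ.1 := isClassFunction_of_isCharacter (isCharacter_of_isIrrCharacter χ.2)
  have memT : ∀ (A : Subgroup Γ), (∀ a ∈ A, ∀ n ∈ N, a * n * a⁻¹ ∈ N) →
      (∀ a ∈ A, ∀ (y : Γ) (hy : y ∈ N) (hy' : a * y * a⁻¹ ∈ N),
        χ.1 ⟨a * y * a⁻¹, hNG hy'⟩ = χ.1 ⟨y, hNG hy⟩) → A ≤ T := by
    intro A hA hA2 a ha y
    by_cases hy : y ∈ N
    · have hy' : a * y * a⁻¹ ∈ N := hA a ha y hy
      show F0 (a * y * a⁻¹) = F0 y
      rw [hF0]
      simp only [dif_pos hy, dif_pos hy']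
      exact hA2 a ha y hy hy'
    · have hy' : a * y * a⁻¹ ∉ N := by
        intro h
        apply hy
        have := hA a⁻¹ (inv_mem ha) _ h
        simpa [mul_assoc] using this
      show F0 (a * y * a⁻¹) = F0 y
      rw [hF0]
      simp only [dif_neg hy, dif_neg hy']
  have hGT : G ≤ T := by
    apply memT G keyG
    intro a ha y hy hy'
    exact hχc ⟨y, hNG hy⟩ ⟨a, ha⟩
  have hST : S ≤ T := by
    apply memT S hNS
    intro a ha y hy hy'
    exact hinv a ha ⟨y, hNG hy⟩ ⟨a * y * a⁻¹, hNG hy'⟩ rfl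
  have hLT : L ≤ T := sup_le hGT hST
  set F : N → ℂ := fun n : N => (χ : G → ℂ) ⟨n, hNG n.2⟩ with hFdef
  have hF : ∀ (x : L) (n : N), F (cjL L N hLN x n) = F n := by
    intro x n
    have h1 : F0 ((x : Γ) * n * (x : Γ)⁻¹) = F0 n := hLT x.2 n
    have h2 : (x : Γ) * n * (x : Γ)⁻¹ ∈ N := hLN x x.2 n n.2
    rw [hF0] at h1
    simp only [dif_pos h2, dif_pos n.2] at h1
    exact h1
  letI act := omegaAct L N hLN F hF
  let Ω := {θ : IrrCharacter N // classInner F θ.1 ≠ 0}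
  haveI : Nonempty Ω := by
    by_contra hne
    have hres : IsClassFunction N F := by
      intro a b
      exact hχc ⟨a, hNG a.2⟩ ⟨b, hNG b.2⟩
    have h0 := eq_zero_of_inner_irr_eq_zero hres (fun θ => by
      by_contra h; exact hne ⟨⟨θ, h⟩⟩)
    have h1 := congrFun h0 1
    exact irr_one_ne_zero χ h1
  -- Clifford: G is transitive
  have htransG : ∀ θ₁ θ₂ : Ω, ∃ g : L, (g : Γ) ∈ G ∧ g • θ₁ = θ₂ := by
    intro θ₁ θ₂
    haveI : Fintype ↥(N.subgroupOf G) := Fintype.ofFinite _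
    let e : ↥(N.subgroupOf G) ≃* ↥N := Subgroup.subgroupOfEquivOfLe hNG
    have hirr1 := Clifford.isIrrCharacter_comp_equiv e θ₁.1.2
    have hirr2 := Clifford.isIrrCharacter_comp_equiv e θ₂.1.2
    have hFe : (fun n : ↥(N.subgroupOf G) => χ.1 (n : G)) = fun n => F (e n) := by
      funext n; rfl
    have hc1 : classInner (fun n : ↥(N.subgroupOf G) => χ.1 (n : G)) (fun n => θ₁.1.1 (e n)) ≠ 0 := by
      rw [hFe, Clifford.classInner_comp_equiv e F θ₁.1.1]; exact θ₁.2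
    have hc2 : classInner (fun n : ↥(N.subgroupOf G) => χ.1 (n : G)) (fun n => θ₂.1.1 (e n)) ≠ 0 := by
      rw [hFe, Clifford.classInner_comp_equiv e F θ₂.1.1]; exact θ₂.2
    obtain ⟨g, hg⟩ := Clifford.clifford_conj (N.subgroupOf G) χ.2 hirr1 hirr2 hc1 hc2
    refine ⟨⟨(g : Γ)⁻¹, hGL (inv_mem g.2)⟩, inv_mem g.2, ?_⟩
    apply Subtype.ext; apply Subtype.ext; funext m
    have h1 := congrFun hg (e.symm m)
    rw [Clifford.conjChar_apply] at h1
    simp only [MulEquiv.apply_symm_apply] at h1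
    show θ₁.1.1 (cjL L N hLN (⟨(g : Γ)⁻¹, hGL (inv_mem g.2)⟩ : L)⁻¹ m) = θ₂.1.1 m
    rw [h1]
    refine congrArg θ₁.1.1 (Subtype.ext ?_)
    simp [cjL_coe, e]
  -- the permutation group
  let f : ↥L →* Equiv.Perm Ω := MulAction.toPermHom ↥L Ω
  let f' : ↥L →* ↥f.range := f.rangeRestrict
  have hf' : Function.Surjective f' := f.rangeRestrict_surjective
  haveI : Finite ↥f.range := Finite.of_surjective f' hf'
  let K : Subgroup ↥f.range := (G.subgroupOf L).map f'
  let H : Subgroup ↥f.range := (S.subgroupOf L).map f'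
  haveI hGLn : (G.subgroupOf L).Normal := Subgroup.normal_subgroupOf_of_le_normalizer hLG'
  haveI hKn : K.Normal := Subgroup.Normal.map hGLn f' hf'
  have hf'apply : ∀ (x : L) (θ : Ω), (f' x) • θ = x • θ := fun x θ => rfl
  have hkerN : N.subgroupOf L ≤ f'.ker := by
    intro x hx
    rw [Subgroup.mem_subgroupOf] at hx
    rw [MonoidHom.mem_ker]
    apply Subtype.ext
    show f x = 1
    apply Equiv.ext; intro θ
    show x • θ = θ
    apply Subtype.ext; apply Subtype.ext; funext n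
    show θ.1.1 (cjL L N hLN x⁻¹ n) = θ.1.1 n
    have hcf := isClassFunction_of_isCharacter (isCharacter_of_isIrrCharacter θ.1.2)
    have h1 := hcf n ⟨(x : Γ)⁻¹, inv_mem hx⟩
    rw [← h1]
    refine congrArg θ.1.1 (Subtype.ext ?_)
    simp [cjL_coe]
  have hKcard : Nat.card K ∣ N.relIndex G := by
    have h1 : Nat.card K = f'.ker.relIndex (G.subgroupOf L) := (Subgroup.relIndex_ker _ f').symm
    rw [h1]
    have h2 := Subgroup.relIndex_dvd_of_le_left (G.subgroupOf L) hkerN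
    rwa [Subgroup.relIndex_subgroupOf hGL] at h2
  have hHcard : Nat.card H ∣ Nat.card S := by
    have h1 := Subgroup.card_map_dvd (S.subgroupOf L) f'
    rwa [Nat.card_congr (Subgroup.subgroupOfEquivOfLe hSL).toEquiv] at h1
  have hcopKH : (Nat.card K).Coprime (Nat.card H) :=
    (hcop.coprime_dvd_left hKcard).coprime_dvd_right hHcard
  have hsup : K ⊔ H = ⊤ := by
    show (G.subgroupOf L).map f' ⊔ (S.subgroupOf L).map f' = ⊤
    rw [← Subgroup.map_sup, ← Subgroup.subgroupOf_sup hGL hSL]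
    show ((G ⊔ S).subgroupOf (G ⊔ S)).map f' = ⊤
    rw [Subgroup.subgroupOf_self]
    exact Subgroup.map_top_of_surjective f' hf'
  have hmul : (K : Set ↥f.range) * (H : Set ↥f.range) = Set.univ := by
    rw [← Subgroup.normal_mul, hsup]; rfl
  have hc : Subgroup.IsComplement' K H :=
    Subgroup.isComplement'_of_disjoint_and_mul_eq_univ
      (disjoint_iff.mpr (Subgroup.inf_eq_bot_of_coprime hcopKH)) hmul
  have hcop' : (Nat.card K).Coprime K.index := by
    rw [hc.symm.index_eq_card]; exact hcopKH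
  have hsolv' : Group.IsSolvable K ∨ Group.IsSolvable (↥f.range ⧸ K) := by
    rcases hsolv with hs | hs
    · right
      let φ : ↥S →* ↥f.range ⧸ K := (QuotientGroup.mk' K).comp (f'.comp (Subgroup.inclusion hSL))
      apply solvable_of_surjective (f := φ)
      intro q
      obtain ⟨q0, rfl⟩ := QuotientGroup.mk_surjective q
      have hq0 : q0 ∈ (K : Set ↥f.range) * (H : Set ↥f.range) := by rw [hmul]; trivial
      obtain ⟨k, hk, h, hh, rfl⟩ := Set.mem_mul.mp hq0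
      obtain ⟨s, hs', rfl⟩ := hh
      rw [SetLike.mem_coe, Subgroup.mem_subgroupOf] at hs'
      refine ⟨⟨s, hs'⟩, ?_⟩
      show QuotientGroup.mk' K (f' (Subgroup.inclusion hSL ⟨s, hs'⟩)) = QuotientGroup.mk (k * f' s)
      rw [QuotientGroup.mk_mul, (QuotientGroup.eq_one_iff k).mpr hk, one_mul]
      rfl
    · left
      let φ : ↥G →* ↥f.range := f'.comp (Subgroup.inclusion hGL)
      have hφker : N.subgroupOf G ≤ φ.ker := by
        intro x hx
        rw [Subgroup.mem_subgroupOf] at hx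
        rw [MonoidHom.mem_ker]
        have : Subgroup.inclusion hGL x ∈ f'.ker := hkerN (by
          rw [Subgroup.mem_subgroupOf]; exact hx)
        exact this
      let ψ : ↥G ⧸ N.subgroupOf G →* ↥f.range := QuotientGroup.lift (N.subgroupOf G) φ hφker
      have hψK : ∀ x, ψ x ∈ K := by
        intro x
        obtain ⟨g, rfl⟩ := QuotientGroup.mk_surjective x
        show φ g ∈ K
        exact ⟨Subgroup.inclusion hGL g, by rw [SetLike.mem_coe, Subgroup.mem_subgroupOf]; exact g.2, rfl⟩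
      apply solvable_of_surjective (f := ψ.codRestrict K hψK)
      intro k
      obtain ⟨x, hx, hxk⟩ := k.2
      rw [SetLike.mem_coe, Subgroup.mem_subgroupOf] at hx
      refine ⟨QuotientGroup.mk ⟨x, hx⟩, ?_⟩
      apply Subtype.ext
      show φ ⟨x, hx⟩ = k
      rw [← hxk]; rfl
  have htrans : MulAction.IsPretransitive K Ω := by
    constructor
    intro θ₁ θ₂
    obtain ⟨g, hg, hg2⟩ := htransG θ₁ θ₂
    refine ⟨⟨f' g, ⟨g, by rw [SetLike.mem_coe, Subgroup.mem_subgroupOf]; exact hg, rfl⟩⟩, ?_⟩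
    exact hg2
  obtain ⟨⟨ω, hω⟩, -⟩ := Cfsg.Agent.S0059.aux K H hc hcop' hsolv' htrans
  refine ⟨ω.1, ω.2, ?_⟩
  intro s hs g g' hgg'
  have h1 : f' ⟨s, hSL hs⟩ ∈ H :=
    ⟨⟨s, hSL hs⟩, by rw [SetLike.mem_coe, Subgroup.mem_subgroupOf]; exact hs, rfl⟩
  have h2 : (⟨s, hSL hs⟩ : L) • ω = ω := hω _ h1
  have h3 := congrArg (fun w : Ω => w.1.1 g') h2
  have h4 : ((⟨s, hSL hs⟩ : L) • ω).1.1 g' = ω.1.1 (cjL L N hLN (⟨s, hSL hs⟩ : L)⁻¹ g') := rfl
  simp only [h4] at h3
  rw [← h3]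
  refine congrArg ω.1.1 (Subtype.ext ?_)
  rw [cjL_coe, hgg']
  simp [mul_assoc]

end Cfsg.Agent.S4447
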