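import Cfsg.Statements.S4451
import Cfsg.Agent.Lib.Glaub.SemiMain

set_option autoImplicit false
open Cfsg

namespace Cfsg.Agent.S4451

/-- Let the finite group Γ be generated by a normal subgroup G and a cyclic subgroup S of coprime orders such that every non-identity element of S has the same centraliser C = G ⊓ C(S) in G. Let χ be an S-invariant irreducible character of G, χ̂ its canonical extension to Γ (determinantal order coprime to the order of S), and β the irreducible character of C with χ̂(c s) = ε₀ β(c) for c ∈ C and generators s of S (ε₀ = ±1). Then there are a sign ε = ±1, which may differ from ε₀, and a linear character μ of S with μ² = 1, such that: (a) χ̂(c x) = ε β(c) μ(x) for all c ∈ C and all x ∈ S other than 1; (b) the restriction of χ to C equals |S|·ϑ + ε β for some character ϑ of C or ϑ = 0; (c) |S| divides χ(1) − ε β(1). -/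
theorem result {Γ : Type*} [Group Γ] [Fintype Γ] (G S : Subgroup Γ) [Fintype G] (hnorm : ∀ s ∈ S, ∀ g ∈ G, s * g * s⁻¹ ∈ G) (hcop : (Nat.card G).Coprime (Nat.card S)) (htop : G ⊔ S = ⊤) (hcyc : IsCyclic S) (C : Subgroup Γ) [Fintype C] (hC : C = G ⊓ Subgroup.centralizer (S : Set Γ)) (hCG : C ≤ G) (hfpf : ∀ x ∈ S, x ≠ 1 → G ⊓ Subgroup.centralizer ({x} : Set Γ) = C) (χ : Cfsg.IrrCharacter G) (hinv : (∀ s ∈ S, ∀ g g' : G, (g' : Γ) = s * g * s⁻¹ → (χ : G → ℂ) g' = (χ : G → ℂ) g)) (χh : Cfsg.IrrCharacter Γ) (hext : (∀ g : G, (χh : Γ → ℂ) g = (χ : G → ℂ) g)) (hdet : (Cfsg.detOrder (χh : Γ → ℂ)).Coprime (Nat.card S)) (β : Cfsg.IrrCharacter C) (ε₀ : ℤ) (hε₀ : ε₀ = 1 ∨ ε₀ = -1) (hβ : ∀ c : C, ∀ s : Γ, Subgroup.zpowers s = S → (χh : Γ → ℂ) ((c : Γ) * s) = (ε₀ : ℂ) * (β : C → ℂ) c) : ∃ ε : ℤ, (ε = 1 ∨ ε = -1) ∧ (∃ μ : S → ℂ, Cfsg.IsCharacter S μ ∧ μ 1 = 1 ∧ (∀ x : S, μ x * μ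 x = 1) ∧ ∀ c : C, ∀ x : S, x ≠ 1 → (χh : Γ → ℂ) ((c : Γ) * x) = (ε : ℂ) * (β : C → ℂ) c * μ x) ∧ (∃ ϑ : C → ℂ, Cfsg.IsCharacter C ϑ ∧ (fun c : C => (χ : G → ℂ) ⟨c, hCG c.2⟩) = fun c => (Nat.card S : ℂ) * ϑ c + (ε : ℂ) * (β : C → ℂ) c) ∧ (Nat.card S : ℤ) ∣ (Cfsg.charDegree (χ : G → ℂ) : ℤ) - ε * (Cfsg.charDegree (β : C → ℂ) : ℤ) := by
  subst hC
  classical
  -- `G` is normal in `Γ`
  have hG : G.Normal := by
    rw [← Subgroup.normalizer_eq_top_iff, eq_top_iff, ← htop, sup_le_iff]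
    refine ⟨Subgroup.le_normalizer, fun t ht => ?_⟩
    rw [Subgroup.mem_normalizer_iff]
    intro n
    refine ⟨fun hn => hnorm t ht n hn, fun hn => ?_⟩
    have := hnorm t⁻¹ (S.inv_mem ht) _ hn
    have h2 : t⁻¹ * (t * n * t⁻¹) * t⁻¹⁻¹ = n := by group
    rwa [h2] at this
  -- a generator of `S`
  obtain ⟨s0', hs0'⟩ := isCyclic_iff_exists_zpowers_eq_top.mp hcyc
  have hgen : Subgroup.zpowers (s0' : Γ) = S := by
    have h1 := MonoidHom.map_zpowers S.subtype s0'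
    rw [hs0', ← MonoidHom.range_eq_map, Subgroup.range_subtype] at h1
    exact h1.symm
  obtain ⟨s0, hs0S⟩ := s0'
  have hset : Glaub.Setup G S s0 := ⟨hG, hcop, htop, hgen⟩
  have hcanon : Glaub.IsCanonExt G χ.1 χh.1 :=
    ⟨χh.2, hext, by rw [hset.index_eq]; exact hdet⟩
  obtain ⟨ε, hε, ⟨μ, hμ, hμ1, hμsq, hval⟩, ⟨ϑ, hϑ, hres⟩⟩ :=
    hset.semi hfpf χ.2 hcanon β ε₀ hε₀ (fun c => hβ c s0 hgen)
  have hres' : (fun c : (G ⊓ Subgroup.centralizer (S : Set Γ) : Subgroup Γ) =>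
      (χ : G → ℂ) ⟨c, hCG c.2⟩) =
      fun c => (Nat.card S : ℂ) * ϑ c + (ε : ℂ) * β.1 c := by
    rw [← hres]
    funext c
    exact (hext ⟨c, hCG c.2⟩).symm
  refine ⟨ε, hε, ⟨μ, hμ, hμ1, hμsq, hval⟩, ⟨ϑ, hϑ, hres'⟩, ?_⟩
  obtain ⟨r, hr, -⟩ := Cfsg.Agent.H82.isCharacter_one_nat hϑ
  have h1 := congrFun hres' 1
  have h2 : (χ : G → ℂ) ⟨((1 : (G ⊓ Subgroup.centralizer (S : Set Γ) : Subgroup Γ)) : Γ),
      hCG (1 : (G ⊓ Subgroup.centralizer (S : Set Γ) : Subgroup Γ)).2⟩ = (χ : G → ℂ) 1 := rfl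
  rw [h2, Cfsg.Agent.H82.irr_one_eq_charDegree, Cfsg.Agent.H82.irr_one_eq_charDegree, hr] at h1
  have h3 : (Cfsg.charDegree (χ : G → ℂ) : ℤ) - ε * (Cfsg.charDegree β.1 : ℤ) =
      (Nat.card S : ℤ) * (r : ℤ) := by
    have h4 : ((Cfsg.charDegree (χ : G → ℂ) : ℤ) : ℂ) =
        (((Nat.card S : ℤ) * (r : ℤ) + ε * (Cfsg.charDegree β.1 : ℤ) : ℤ) : ℂ) := by
      push_cast
      exact h1
    have h5 := Int.cast_injective h4
    omega
  exact ⟨r, h3⟩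

end Cfsg.Agent.S4451
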