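import Cfsg.Statements.S4452
import Cfsg.Agent.S4444
import Cfsg.Agent.H92.CoprimeHall

set_option autoImplicit false
open Cfsg

namespace Cfsg.Agent.S4452

/-- Let the finite group G be the product of a normal subgroup K and a solvable subgroup H of coprime orders, and let N = N_G(H). Then the number of irreducible characters of G of degree coprime to the order of H equals the number of irreducible characters of N of degree coprime to the order of H. (The two sets are in fact in a canonical bijection; only the equality of their sizes is stated here.) -/
theorem result {G : Type*} [Group G] [Finite G] (K H : Subgroup G) [K.Normal] (hKH : K ⊔ H = ⊤) (hcop : (Nat.card K).Coprime (Nat.card H)) (hsolv : Group.IsSolvable H) : Nat.card {χ : Cfsg.IrrCharacter G // (Cfsg.charDegree (χ : G → ℂ)).Coprime (Nat.card H)} = Nat.card {η : Cfsg.IrrCharacter (Subgroup.normalizer (H : Set G)) // (Cfsg.charDegree (η : Subgroup.normalizer (H : Set G) → ℂ)).Coprime (Nat.card H)} := by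
  classical
  haveI : Fintype G := Fintype.ofFinite G
  have hGl : Cfsg.Agent.H92.GlaubP G := fun G₀ S _ hnorm hcop p hp hS C _ hC hCG =>
    Cfsg.Agent.S4444.result G₀ S hnorm hcop p hp hS C hC hCG
  exact Cfsg.Agent.H92.card_coprime_deg_normalizer hGl K H hKH hcop hsolv


end Cfsg.Agent.S4452
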