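import Cfsg.Statements.S4455
import Cfsg.Agent.H82.CanonExt
import Cfsg.Agent.H82.OrbitCount
import Cfsg.Agent.H82.SumSq
import Cfsg.Agent.H2.Transfer

set_option autoImplicit false
set_option linter.style.haveILetI false
set_option linter.unusedSectionVars false
open Cfsg

namespace Cfsg.Agent.S4455

open Cfsg.Agent.H4 Cfsg.Agent.H82 Cfsg.Agent.Clifford

universe u

/-- If `G = O^p(G)` then no determinantal order is divisible by `p`. -/
theorem not_dvd_detOrder {G : Type u} [Group G] [Finite G] {p : ℕ} (hp : p.Prime)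
    (htop : pResidual p G = ⊤) (χ : G → ℂ) : ¬ p ∣ detOrder χ := by
  intro hdvd
  obtain ⟨n, hn⟩ := hdvd
  have hpos := detOrder_pos χ
  have hn0 : 0 < n := by
    rcases Nat.eq_zero_or_pos n with h | h
    · rw [h, mul_zero] at hn; omega
    · exact h
  have hker : pResidual p G ≤ ((detHom χ) ^ n).ker := by
    unfold pResidual
    rw [Subgroup.closure_le]
    intro g hg
    show g ∈ ((detHom χ) ^ n).ker
    rw [MonoidHom.mem_ker, MonoidHom.pow_apply]
    have h1 : ((detHom χ g) ^ n) ^ p = 1 := by
      rw [← pow_mul, mul_comm, ← hn]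
      apply Units.ext
      rw [Units.val_pow_eq_pow_val, detHom_apply, detChar_pow_detOrder, Units.val_one]
    have h2 : ((detHom χ g) ^ n) ^ orderOf g = 1 := by
      rw [← pow_mul, mul_comm, pow_mul, ← map_pow, pow_orderOf_eq_one, map_one, one_pow]
    have h3 : orderOf ((detHom χ g) ^ n) ∣ Nat.gcd (orderOf g) p :=
      Nat.dvd_gcd (orderOf_dvd_of_pow_eq_one h2) (orderOf_dvd_of_pow_eq_one h1)
    have hg' : Nat.Coprime (orderOf g) p := hg
    rw [hg'.gcd_eq_one, Nat.dvd_one, orderOf_eq_one_iff] at h3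
    exact h3
  rw [htop] at hker
  have hall : ∀ g : G, detChar χ g ^ n = 1 := by
    intro g
    have : g ∈ ((detHom χ) ^ n).ker := hker (Subgroup.mem_top g)
    rw [MonoidHom.mem_ker, MonoidHom.pow_apply] at this
    have h := congrArg (fun u : ℂˣ => (u : ℂ)) this
    simpa [Units.val_pow_eq_pow_val, detHom_apply] using h
  have hd := (detOrder_dvd_iff χ n).mpr hall
  have hle := Nat.le_of_dvd hn0 hd
  rw [hn] at hle
  have : 2 ≤ p := hp.two_le
  nlinarith

/-- If `O^p(G) ≠ G` there is a normal subgroup of index `p` containing `O^p(G)`. -/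
theorem exists_normal_index_prime {G : Type u} [Group G] [Finite G] {p : ℕ} [hp : Fact p.Prime]
    (h : pResidual p G ≠ ⊤) :
    ∃ M : Subgroup G, M.Normal ∧ M.index = p ∧ pResidual p G ≤ M := by
  haveI := Cfsg.Agent.H2.pResidual_normal (G := G) p
  have hPG : IsPGroup p (G ⧸ pResidual p G) := Cfsg.Agent.H2.isPGroup_quotient_pResidual p
  obtain ⟨n, hn⟩ := IsPGroup.iff_card.mp hPG
  have hn0 : n ≠ 0 := by
    intro h0
    rw [h0, pow_zero] at hn
    apply h
    rw [← Subgroup.index_eq_one, Subgroup.index_eq_card]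
    exact hn
  obtain ⟨k, rfl⟩ := Nat.exists_eq_succ_of_ne_zero hn0
  obtain ⟨K, hK⟩ := Sylow.exists_subgroup_card_pow_prime p (G := G ⧸ pResidual p G) (n := k)
    (by rw [hn]; exact pow_dvd_pow p (Nat.le_succ k))
  have hidx : K.index = p := by
    have := K.card_mul_index
    rw [hK, hn, pow_succ] at this
    exact Nat.eq_of_mul_eq_mul_left (pow_pos hp.out.pos k) this
  have hKn : K.Normal := by
    apply Subgroup.normal_of_index_eq_minFac_card
    rw [hidx, hn, Nat.pow_minFac (Nat.succ_ne_zero k), Nat.Prime.minFac_eq hp.out]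
  refine ⟨K.comap (QuotientGroup.mk' (pResidual p G)), hKn.comap _, ?_, ?_⟩
  · rw [Subgroup.index_comap_of_surjective _ (QuotientGroup.mk'_surjective _), hidx]
  · intro x hx
    rw [Subgroup.mem_comap]
    have : (QuotientGroup.mk' (pResidual p G)) x = 1 := (QuotientGroup.eq_one_iff x).mpr hx
    rw [this]
    exact K.one_mem

theorem card_pResidual_subgroup {G : Type u} [Group G] (p : ℕ) (M : Subgroup G)
    (hM : pResidual p G ≤ M) : Nat.card (pResidual p M) = Nat.card (pResidual p G) := by
  have hmap : (pResidual p M).map M.subtype = pResidual p G := by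
    unfold pResidual
    rw [MonoidHom.map_closure]
    congr 1
    ext g
    constructor
    · rintro ⟨m, hm, rfl⟩
      show Nat.Coprime (orderOf (m : G)) p
      rw [Subgroup.orderOf_coe]
      exact hm
    · intro hg
      have hgM : g ∈ M := hM (Subgroup.subset_closure hg)
      refine ⟨⟨g, hgM⟩, ?_, rfl⟩
      show Nat.Coprime (orderOf (⟨g, hgM⟩ : M)) p
      rw [← Subgroup.orderOf_coe]
      exact hg
  rw [← hmap]
  exact Nat.card_congr
    ((pResidual p M).equivMapOfInjective M.subtype M.subtype_injective).toEquiv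

section Main

variable {G : Type u} [Group G] [Finite G] (M : Subgroup G) [hM : M.Normal]

/-- Conjugation by `g` as a permutation of `Irr(M)`. -/
noncomputable def conjPerm (g : G) : Equiv.Perm (IrrCharacter M) where
  toFun ψ := ⟨conjChar M ψ.1 g, isIrrCharacter_conjChar M ψ.2 g⟩
  invFun ψ := ⟨conjChar M ψ.1 g⁻¹, isIrrCharacter_conjChar M ψ.2 g⁻¹⟩
  left_inv ψ := by
    apply Subtype.ext
    show conjChar M (conjChar M ψ.1 g) g⁻¹ = ψ.1
    rw [conjChar_conjChar, mul_inv_cancel, conjChar_one]
  right_inv ψ := by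
    apply Subtype.ext
    show conjChar M (conjChar M ψ.1 g⁻¹) g = ψ.1
    rw [conjChar_conjChar, inv_mul_cancel, conjChar_one]

theorem conjPerm_apply (g : G) (ψ : IrrCharacter M) :
    (conjPerm M g ψ).1 = conjChar M ψ.1 g := rfl

theorem conjPerm_pow (g : G) (n : ℕ) (ψ : IrrCharacter M) :
    ((conjPerm M g ^ n) ψ).1 = conjChar M ψ.1 (g ^ n) := by
  induction n with
  | zero => rw [pow_zero, pow_zero, Equiv.Perm.one_apply, conjChar_one]
  | succ n ih =>
    rw [pow_succ', Equiv.Perm.mul_apply, conjPerm_apply, ih, conjChar_conjChar, pow_succ]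

/-- A subgroup containing `M` (of prime index) and an element outside `M` is everything. -/
theorem eq_top_of_prime_index {p : ℕ} (hp : p.Prime) (hidx : M.index = p) (I : Subgroup G)
    (hle : M ≤ I) (g₀ : G) (hg₀ : g₀ ∉ M) (hg₀I : g₀ ∈ I) : I = ⊤ := by
  have hmul := Subgroup.relIndex_mul_index hle
  rw [hidx] at hmul
  have hd : I.index ∣ p := Dvd.intro_left _ hmul
  rcases (Nat.dvd_prime hp).mp hd with h | h
  · exact Subgroup.index_eq_one.mp h
  · exfalso
    rw [h] at hmul
    have hrel : M.relIndex I = 1 := Nat.eq_of_mul_eq_mul_right hp.pos (by rw [hmul, one_mul])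
    exact hg₀ (Subgroup.relIndex_eq_one.mp hrel hg₀I)

end Main

theorem main (p : ℕ) (hp : p.Prime) : ∀ (n : ℕ) (G : Type u) [Group G] [Finite G],
    Nat.card G = n →
    ((Nat.card (pResidual p G) : ℕ) : ℤ) ≡
      ∑ᶠ χ ∈ {χ : IrrCharacter G | ¬ p ∣ charDegree (χ : G → ℂ) ∧ ¬ p ∣ detOrder (χ : G → ℂ)},
        (charDegree (χ : G → ℂ) : ℤ) ^ 2 [ZMOD p] := by
  intro n
  induction n using Nat.strong_induction_on with
  | _ n ih =>
  intro G _ _ hn
  classical
  haveI : Fact p.Prime := ⟨hp⟩
  letI := fintypeIrr G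
  have hfs : ∀ (H : Type u) [Group H] [Fintype (IrrCharacter H)],
      ∑ᶠ χ ∈ {χ : IrrCharacter H | ¬ p ∣ charDegree (χ : H → ℂ) ∧ ¬ p ∣ detOrder (χ : H → ℂ)},
        (charDegree (χ : H → ℂ) : ℤ) ^ 2 =
      ∑ χ ∈ Finset.univ.filter (fun χ : IrrCharacter H =>
        ¬ p ∣ charDegree χ.1 ∧ ¬ p ∣ detOrder χ.1), (charDegree χ.1 : ℤ) ^ 2 := by
    intro H _ _
    rw [finsum_mem_eq_finite_toFinset_sum _ (Set.toFinite _)]
    apply Finset.sum_congr _ (fun _ _ => rfl)
    ext χ
    simp
  rw [hfs G]
  by_cases htop : pResidual p G = ⊤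
  · have hX : Finset.univ.filter (fun χ : IrrCharacter G =>
        ¬ p ∣ charDegree χ.1 ∧ ¬ p ∣ detOrder χ.1) =
        Finset.univ.filter (fun χ : IrrCharacter G => ¬ p ∣ charDegree χ.1) := by
      ext χ
      simp [not_dvd_detOrder hp htop]
    rw [hX, htop, Subgroup.card_top, ← sum_sq_nat G]
    push_cast
    rw [← Finset.sum_filter_add_sum_filter_not Finset.univ
      (fun χ : IrrCharacter G => ¬ p ∣ charDegree χ.1)]
    have h0 : (p : ℤ) ∣ ∑ χ ∈ Finset.univ.filter (fun χ : IrrCharacter G =>
        ¬ ¬ p ∣ charDegree χ.1), (charDegree χ.1 : ℤ) ^ 2 := by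
      apply Finset.dvd_sum
      intro χ hχ
      have := (Finset.mem_filter.mp hχ).2
      rw [not_not] at this
      have h' : (p : ℤ) ∣ (charDegree χ.1 : ℤ) := by exact_mod_cast this
      exact Dvd.dvd.pow h' two_ne_zero
    have := Int.ModEq.add_left (∑ χ ∈ Finset.univ.filter (fun χ : IrrCharacter G =>
        ¬ p ∣ charDegree χ.1), (charDegree χ.1 : ℤ) ^ 2) ((Int.modEq_zero_iff_dvd).mpr h0)
    rwa [add_zero] at this
  · obtain ⟨M, hMn, hidx, hRM⟩ := exists_normal_index_prime htop
    haveI := hMn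
    letI := fintypeIrr M
    have hlt : Nat.card M < n := by
      rw [← hn]
      have := M.card_mul_index
      rw [hidx] at this
      have h2 := hp.two_le
      have hpos : 0 < Nat.card M := Nat.card_pos
      nlinarith
    have hIH := ih (Nat.card M) hlt M rfl
    rw [card_pResidual_subgroup p M hRM, hfs M] at hIH
    refine hIH.trans ?_
    obtain ⟨g₀, hg₀⟩ : ∃ g₀ : G, g₀ ∉ M := by
      by_contra hall
      push Not at hall
      have : M = ⊤ := (Subgroup.eq_top_iff' M).mpr hall
      rw [this, Subgroup.index_top] at hidx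
      exact hp.one_lt.ne hidx
    set σ := conjPerm M g₀ with hσ
    have hσp : σ ^ p = 1 := by
      apply Equiv.ext
      intro ψ
      apply Subtype.ext
      rw [hσ, conjPerm_pow]
      have hmem : g₀ ^ p ∈ M := pow_mem_of_index_eq M hidx g₀
      exact (mem_inertia M).mp (le_inertia M
        (isClassFunction_of_isCharacter (isCharacter_of_isIrrCharacter ψ.2)) hmem)
    set sM := Finset.univ.filter (fun ψ : IrrCharacter M =>
      ¬ p ∣ charDegree ψ.1 ∧ ¬ p ∣ detOrder ψ.1) with hsM
    have hdegσ : ∀ ψ : IrrCharacter M, charDegree (σ ψ).1 = charDegree ψ.1 := by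
      intro ψ
      apply charDegree_eq_of_one_eq
      show conjChar M ψ.1 g₀ 1 = ψ.1 1
      rw [conjChar_apply]
      exact congrArg ψ.1 (Subtype.ext (by simp))
    have hordσ : ∀ ψ : IrrCharacter M, detOrder (σ ψ).1 = detOrder ψ.1 := by
      intro ψ
      show detOrder (conjChar M ψ.1 g₀) = _
      rw [conjChar_eq_comp]
      exact detOrder_comp_equiv (MulAut.conjNormal g₀) (isCharacter_of_isIrrCharacter ψ.2)
    have hstab : ∀ ψ, σ ψ ∈ sM ↔ ψ ∈ sM := by
      intro ψ
      simp only [hsM, Finset.mem_filter, Finset.mem_univ, true_and, hdegσ, hordσ]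
    have hW := sum_modEq_sum_fixed σ hσp sM hstab (fun ψ => (charDegree ψ.1 : ℤ) ^ 2)
      (fun ψ => by simp only [hdegσ])
    refine hW.trans ?_
    have hbij : ∑ χ ∈ Finset.univ.filter (fun χ : IrrCharacter G =>
        ¬ p ∣ charDegree χ.1 ∧ ¬ p ∣ detOrder χ.1), (charDegree χ.1 : ℤ) ^ 2 =
        ∑ ψ ∈ sM.filter (fun ψ => σ ψ = ψ), (charDegree ψ.1 : ℤ) ^ 2 := by
      apply Finset.sum_bij (fun (χ : IrrCharacter G) hχ =>
        (⟨fun n : M => χ.1 n, res_irr_of_prime_index M hp hidx χ.2
          (Finset.mem_filter.mp hχ).2.1⟩ : IrrCharacter M))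
      · intro χ hχ
        have hχ' := (Finset.mem_filter.mp hχ).2
        have hχc := isCharacter_of_isIrrCharacter χ.2
        rw [Finset.mem_filter, hsM, Finset.mem_filter]
        refine ⟨⟨Finset.mem_univ _, ?_, ?_⟩, ?_⟩
        · have : charDegree (fun n : M => χ.1 n) = charDegree χ.1 :=
            charDegree_eq_of_one_eq (by simp)
          show ¬ p ∣ charDegree (fun n : M => χ.1 n)
          rw [this]
          exact hχ'.1
        · intro hdv
          exact hχ'.2 (dvd_trans hdv (detOrder_res_dvd M hχc))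
        · apply Subtype.ext
          show conjChar M (fun n : M => χ.1 n) g₀ = fun n : M => χ.1 n
          exact conjChar_res M (isClassFunction_of_isCharacter hχc) g₀
      · intro χ₁ h₁ χ₂ h₂ heq
        have h₁' := (Finset.mem_filter.mp h₁).2
        have h₂' := (Finset.mem_filter.mp h₂).2
        apply Subtype.ext
        have hres : ∀ n : M, χ₁.1 n = χ₂.1 n := fun n => congrFun (congrArg Subtype.val heq) n
        have hirr : IsIrrCharacter M (fun n : M => χ₂.1 n) :=
          res_irr_of_prime_index M hp hidx χ₂.2 h₂'.1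
        have hinv : ∀ (g : G) (n : M),
            (fun n : M => χ₂.1 n) ⟨g * n * g⁻¹, hMn.conj_mem (n : G) n.2 g⟩ =
              (fun n : M => χ₂.1 n) n := by
          intro g n
          exact irr_conj χ₂ (n : G) g
        have hdeg : ¬ p ∣ charDegree (fun n : M => χ₂.1 n) := by
          have : charDegree (fun n : M => χ₂.1 n) = charDegree χ₂.1 :=
            charDegree_eq_of_one_eq (by simp)
          rw [this]
          exact h₂'.1
        exact canon_ext_unique M hp hidx hirr hinv hdeg χ₁.2 χ₂.2 hres (fun n => rfl)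
          h₁'.2 h₂'.2
      · intro ψ hψ
        rw [Finset.mem_filter, hsM, Finset.mem_filter] at hψ
        obtain ⟨⟨-, hd, ho⟩, hfix⟩ := hψ
        have hψcf := isClassFunction_of_isCharacter (isCharacter_of_isIrrCharacter ψ.2)
        have hI : inertia M ψ.1 = ⊤ := by
          apply eq_top_of_prime_index M hp hidx _ (le_inertia M hψcf) g₀ hg₀
          rw [mem_inertia]
          exact congrArg Subtype.val hfix
        have hinv : ∀ (g : G) (n : M),
            ψ.1 ⟨g * n * g⁻¹, hMn.conj_mem (n : G) n.2 g⟩ = ψ.1 n := by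
          intro g
          have hg : g ∈ inertia M ψ.1 := by rw [hI]; exact Subgroup.mem_top g
          exact (mem_inertia_iff M).mp hg
        obtain ⟨χ, hχ, hext, hdv⟩ := exists_canon_ext M hp hidx ψ.2 hinv hd ho
        refine ⟨⟨χ, hχ⟩, ?_, ?_⟩
        · rw [Finset.mem_filter]
          refine ⟨Finset.mem_univ _, ?_, ?_⟩
          · have : charDegree χ = charDegree ψ.1 :=
              charDegree_eq_of_one_eq (by have := hext 1; simpa using this)
            show ¬ p ∣ charDegree χ
            rw [this]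
            exact hd
          · intro h
            exact ho (dvd_trans h hdv)
        · apply Subtype.ext
          exact funext hext
      · intro χ hχ
        have : charDegree (fun n : M => χ.1 n) = charDegree χ.1 :=
          charDegree_eq_of_one_eq (by simp)
        show (charDegree χ.1 : ℤ) ^ 2 = (charDegree (fun n : M => χ.1 n) : ℤ) ^ 2
        rw [this]
    rw [hbij]

/-- Fix a prime p and a finite group G. Let s be the sum of χ(1)² over the irreducible characters χ of G whose degree is not divisible by p and whose determinantal order o(χ) is not divisible by p. Then the order of O^p(G), the subgroup generated by the elements of order prime to p, is congruent to s modulo p. -/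
theorem result {G : Type*} [Group G] [Finite G] (p : ℕ) (hp : p.Prime) : (Nat.card (Cfsg.pResidual p G) : ℤ) ≡ (∑ᶠ χ ∈ {χ : Cfsg.IrrCharacter G | ¬ p ∣ Cfsg.charDegree (χ : G → ℂ) ∧ ¬ p ∣ Cfsg.detOrder (χ : G → ℂ)}, (Cfsg.charDegree (χ : G → ℂ) : ℤ) ^ 2) [ZMOD p] :=
  main p hp (Nat.card G) G rfl

end Cfsg.Agent.S4455
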