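import Cfsg.Statements.S4457
import Cfsg.Agent.H82.TwoDegD

set_option autoImplicit false
open Cfsg

namespace Cfsg.Agent.S4457

/-- Let G be a finite group whose irreducible character degrees are exactly 1 and m (m ≠ 1). Then either G has an abelian normal subgroup of index m, or m is a power of a prime p and G is the direct product of a p-group and an abelian group: there are normal subgroups P and A with P a p-group, A abelian, P ⊓ A = 1 and P ⊔ A = G. -/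
theorem result {G : Type*} [Group G] [Finite G] (m : ℕ) (hcd : ∀ χ : Cfsg.IrrCharacter G, Cfsg.charDegree (χ : G → ℂ) = 1 ∨ Cfsg.charDegree (χ : G → ℂ) = m) (hm : ∃ χ : Cfsg.IrrCharacter G, Cfsg.charDegree (χ : G → ℂ) = m) (hm1 : m ≠ 1) : (∃ A : Subgroup G, A.Normal ∧ (∀ a ∈ A, ∀ b ∈ A, a * b = b * a) ∧ A.index = m) ∨ ∃ p e : ℕ, p.Prime ∧ m = p ^ e ∧ ∃ P A : Subgroup G, P.Normal ∧ A.Normal ∧ IsPGroup p P ∧ (∀ a ∈ A, ∀ b ∈ A, a * b = b * a) ∧ P ⊓ A = ⊥ ∧ P ⊔ A = ⊤ := by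
  classical
  obtain ⟨χ₀, hχ₀⟩ := hm
  have hm0 : 0 < m := by rw [← hχ₀]; exact Cfsg.Agent.H82.charDegree_pos χ₀
  obtain ⟨A, hAn, hAab, hAc, hAc2, hAnil⟩ := Cfsg.Agent.H82.exists_hall_abelian m hm0 hcd
  haveI := hAn
  by_cases hcen : A ≤ Subgroup.center G
  · right
    haveI := hAnil hcen
    exact Cfsg.Agent.H82.nilpotent_case m hm1 hcd ⟨χ₀, hχ₀⟩
  · left
    obtain ⟨C, hCn, hCab, hCi, -⟩ :=
      Cfsg.Agent.H82.exists_abelian_index A m hcd hAc hAc2 hAab hcen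
    exact ⟨C, hCn, hCab, hCi⟩

end Cfsg.Agent.S4457
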