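import Cfsg.Statements.S4459
import Cfsg.Agent.H32.DegP
import Cfsg.Agent.S4457
import Cfsg.Agent.S0179
import Cfsg.Agent.H4.Ito

open Cfsg.Agent.H4 Cfsg.Agent.H82 Cfsg.Agent.H32

set_option autoImplicit false
open Cfsg

namespace Cfsg.Agent.S4459

/-- Let G be a non-abelian finite group and p a prime. Then the irreducible character degrees of G are exactly 1 and p if and only if either G has an abelian normal subgroup of index p or the centre of G has index p³. -/
theorem result {G : Type*} [Group G] [Finite G] (hG : ∃ a b : G, a * b ≠ b * a) (p : ℕ) (hp : p.Prime) : ((∀ χ : Cfsg.IrrCharacter G, Cfsg.charDegree (χ : G → ℂ) = 1 ∨ Cfsg.charDegree (χ : G → ℂ) = p) ∧ ∃ χ : Cfsg.IrrCharacter G, Cfsg.charDegree (χ : G → ℂ) = p) ↔ ((∃ A : Subgroup G, A.Normal ∧ (∀ a ∈ A, ∀ b ∈ A, a * b = b * a) ∧ A.index = p) ∨ (Subgroup.center G).index = p ^ 3) := by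
  classical
  constructor
  · rintro ⟨hcd, hm⟩
    rcases Cfsg.Agent.S4457.result p hcd hm hp.one_lt.ne' with
      h | ⟨p', e, hp', hpe, P, A, hPn, hAn, hP, hA, hPA, hPAtop⟩
    · exact Or.inl h
    · have hpp : p' = p := ((hp.pow_eq_iff).mp hpe.symm).1
      subst hpp
      have hdec : ∀ g : G, ∃ u ∈ P, ∃ a ∈ A, g = u * a := by
        intro g
        have hg : g ∈ ((P ⊔ A : Subgroup G) : Set G) := by rw [hPAtop]; exact Set.mem_univ g
        haveI := hAn
        rw [Subgroup.mul_normal P A] at hg
        obtain ⟨u, hu, a, ha, rfl⟩ := Set.mem_mul.mp hg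
        exact ⟨u, hu, a, ha, rfl⟩
      have hAcen : ∀ a ∈ A, ∀ g : G, a * g = g * a := by
        intro a ha g
        obtain ⟨u, hu, b, hb, rfl⟩ := hdec g
        have h1 : u * a = a * u :=
          Subgroup.commute_of_normal_of_disjoint P A hPn hAn (disjoint_iff.mpr hPA) u a hu ha
        have h2 : a * b = b * a := hA a ha b hb
        calc a * (u * b) = (a * u) * b := by group
          _ = (u * a) * b := by rw [h1]
          _ = u * (a * b) := by group
          _ = u * (b * a) := by rw [h2]
          _ = u * b * a := by group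
      have hcommP : ∀ x y : G, x * y * x⁻¹ * y⁻¹ ∈ P := by
        intro x y
        obtain ⟨u, hu, a, ha, rfl⟩ := hdec x
        have h1 : a * y * a⁻¹ = y := by rw [hAcen a ha y]; group
        have h2 : u * a * y * (u * a)⁻¹ * y⁻¹ = u * (a * y * a⁻¹) * u⁻¹ * y⁻¹ := by group
        rw [h2, h1]
        have h3 : u * y * u⁻¹ * y⁻¹ = u * (y * u⁻¹ * y⁻¹) := by group
        rw [h3]
        exact P.mul_mem hu (hPn.conj_mem _ (P.inv_mem hu) y)
      haveI := hAn
      have hcomm1 : ∀ x y : G, (QuotientGroup.mk x : G ⧸ A) * QuotientGroup.mk y =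
          QuotientGroup.mk y * QuotientGroup.mk x → x * y = y * x := by
        intro x y h
        apply comm_of_comm_eq_one
        have h1 : x * y * x⁻¹ * y⁻¹ ∈ P ⊓ A := ⟨hcommP x y, comm_mem_of_mk_comm A x y h⟩
        rw [hPA] at h1
        exact Subgroup.mem_bot.mp h1
      have hQp : IsPGroup p' (G ⧸ A) := by
        intro q
        obtain ⟨g, rfl⟩ := QuotientGroup.mk_surjective q
        obtain ⟨u, hu, a, ha, rfl⟩ := hdec g
        obtain ⟨k, hk⟩ := hP ⟨u, hu⟩
        refine ⟨k, ?_⟩
        have hk' : u ^ p' ^ k = 1 := by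
          have := congrArg Subtype.val hk
          simpa using this
        rw [QuotientGroup.mk_mul_of_mem u ha, ← QuotientGroup.mk_pow, hk']
        rfl
      have hQcd : ∀ χ : IrrCharacter (G ⧸ A), charDegree χ.1 = 1 ∨ charDegree χ.1 = p' := by
        intro χ
        have h1 := hcd (inflate A χ)
        rwa [charDegree_inflate] at h1
      rcases pgroup_deg_p p' hp _ (G ⧸ A) rfl hQp hQcd with h | ⟨Bbar, hBn, hBc, hBi⟩ | h
      · exfalso
        obtain ⟨a, b, hab⟩ := hG
        exact hab (hcomm1 a b (h _ _))
      · left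
        refine ⟨Bbar.comap (QuotientGroup.mk' A), hBn.comap _, ?_, ?_⟩
        · intro x hx y hy
          exact hcomm1 x y (hBc _ hx _ hy)
        · rw [Subgroup.index_comap_of_surjective _ (QuotientGroup.mk'_surjective A)]
          exact hBi
      · right
        have hcomap : (Subgroup.center (G ⧸ A)).comap (QuotientGroup.mk' A) =
            Subgroup.center G := by
          ext z
          rw [Subgroup.mem_comap]
          constructor
          · intro hz
            rw [Subgroup.mem_center_iff]
            intro g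
            exact hcomm1 g z (Subgroup.mem_center_iff.mp hz (QuotientGroup.mk g))
          · intro hz
            rw [Subgroup.mem_center_iff]
            intro q
            obtain ⟨g, rfl⟩ := QuotientGroup.mk_surjective q
            change (QuotientGroup.mk g : G ⧸ A) * QuotientGroup.mk z =
              QuotientGroup.mk z * QuotientGroup.mk g
            rw [← QuotientGroup.mk_mul, ← QuotientGroup.mk_mul, Subgroup.mem_center_iff.mp hz g]
        rw [← hcomap, Subgroup.index_comap_of_surjective _ (QuotientGroup.mk'_surjective A)]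
        exact h
  · intro h
    have hdegs : ∀ χ : IrrCharacter G, charDegree χ.1 = 1 ∨ charDegree χ.1 = p := by
      intro χ
      obtain ⟨n, ρ, hirr, hρ, hn, h1, hdeg⟩ := irr_rep χ
      haveI := hirr
      rcases h with ⟨A, hAn, hA, hAi⟩ | hZ
      · haveI := hAn
        have hd := ito_dvd_index ρ A hA
        rw [Module.finrank_fin_fun, hAi, ← hdeg] at hd
        exact (Nat.dvd_prime hp).mp hd
      · have hd := Cfsg.Agent.S0179.result ρ
        rw [Module.finrank_fin_fun, hZ, ← hdeg] at hd
        obtain ⟨j, hj3, hj⟩ := (Nat.dvd_prime_pow hp).mp hd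
        have hsq := sq_le_index_center χ
        rw [hZ, hj, ← pow_mul] at hsq
        have h2 : j * 2 ≤ 3 := (Nat.pow_le_pow_iff_right hp.one_lt).mp hsq
        have hj01 : j = 0 ∨ j = 1 := by omega
        rcases hj01 with rfl | rfl
        · left; rw [hj, pow_zero]
        · right; rw [hj, pow_one]
    refine ⟨hdegs, ?_⟩
    obtain ⟨χ, hχ⟩ := exists_nonlinear_of_nonabelian hG
    exact ⟨χ, (hdegs χ).resolve_left hχ⟩

end Cfsg.Agent.S4459
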