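import Cfsg.Statements.S4462
import Cfsg.Agent.H32.Garrison

set_option autoImplicit false
open Cfsg

namespace Cfsg.Agent.S4462

/-- Let G be a finite solvable group with exactly n distinct irreducible character degrees. Then G has normal subgroups 1 = N₀ ≤ N₁ ≤ ⋯ ≤ Nₙ = G with every quotient N_{i+1}/N_i nilpotent (the nilpotent length of G is at most n). -/
theorem result {G : Type*} [Group G] [Finite G] (hsolv : Group.IsSolvable G) (n : ℕ) (hcd : Nat.card {d : ℕ // ∃ χ : Cfsg.IrrCharacter G, Cfsg.charDegree (χ : G → ℂ) = d} = n) : ∃ N : Fin (n + 1) → Subgroup G, N 0 = ⊥ ∧ N (Fin.last n) = ⊤ ∧ Monotone N ∧ (∀ i, (N i).Normal) ∧ ∀ i : Fin n, ∀ h : (N i.castSucc).subgroupOf (N i.succ) |>.Normal, Group.IsNilpotent (↥(N i.succ) ⧸ (N i.castSucc).subgroupOf (N i.succ)) := by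
  classical
  letI := Cfsg.Agent.H4.fintypeIrr G
  obtain ⟨S, hS⟩ : ∃ S : Finset ℕ, S = Finset.univ.image
      (fun χ : Cfsg.IrrCharacter G => Cfsg.charDegree (χ : G → ℂ)) := ⟨_, rfl⟩
  have hSmem : ∀ χ : Cfsg.IrrCharacter G, Cfsg.charDegree (χ : G → ℂ) ∈ S := fun χ => by
    rw [hS]; exact Finset.mem_image_of_mem _ (Finset.mem_univ χ)
  have hn : S.card = n := by
    rw [← hcd, ← Fintype.card_coe S, ← Nat.card_eq_fintype_card]
    apply Nat.card_congr
    apply Equiv.subtypeEquivRight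
    intro d
    rw [hS, Finset.mem_image]
    constructor
    · rintro ⟨χ, -, h⟩; exact ⟨χ, h⟩
    · rintro ⟨χ, h⟩; exact ⟨χ, Finset.mem_univ χ, h⟩
  have htop := Cfsg.Agent.H32.fitSeries_card_degrees hsolv S hSmem
  rw [hn] at htop
  refine ⟨fun i => (Cfsg.Agent.H32.fitSeries G i).1, rfl, ?_, ?_,
    fun i => (Cfsg.Agent.H32.fitSeries G i).2, ?_⟩
  · exact htop
  · intro a b hab
    exact Cfsg.Agent.H32.fitSeries_mono (Fin.le_def.mp hab)
  · intro i
    show ∀ h : ((Cfsg.Agent.H32.fitSeries G (i : ℕ)).1.subgroupOf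
        (Cfsg.Agent.H32.fitSeries G ((i : ℕ) + 1)).1).Normal,
      Group.IsNilpotent (↥(Cfsg.Agent.H32.fitSeries G ((i : ℕ) + 1)).1 ⧸
        (Cfsg.Agent.H32.fitSeries G (i : ℕ)).1.subgroupOf
          (Cfsg.Agent.H32.fitSeries G ((i : ℕ) + 1)).1)
    exact fun h => Cfsg.Agent.H32.fitSeries_quot_nilpotent (i : ℕ) h

end Cfsg.Agent.S4462
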