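import Cfsg.Statements.S4463
import Cfsg.Agent.H83.AbIdxTop
import Cfsg.Agent.H83.AbIdxACenter
import Cfsg.Agent.H83.AbIdxBSmall
import Cfsg.Agent.H53.AbIdxCaseA
import Cfsg.Agent.H53.AbIdxCaseB
import Cfsg.Agent.H65.AbIdxNonSolv
import Cfsg.Agent.H65.AbIdxBNorm
import Cfsg.Agent.H18.AbIdxArith
import Cfsg.Agent.H18.AbIdxHalf
import Cfsg.Agent.H79.AbIdxCoreFree
import Cfsg.Agent.H79.AbIdxSmallClass
import Cfsg.Agent.H27.AbIdxSolv4
import Cfsg.Agent.H27.AbIdxRes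
import Cfsg.Agent.H25.AbIdxL1Ext
import Cfsg.Agent.H25.AbIdxL1
import Cfsg.Agent.H68.AbIdxSimple4
import Cfsg.Agent.H54.AbIdxBVanish
import Cfsg.Agent.H54.AbIdxBetaTrick

set_option autoImplicit false
open Cfsg

namespace Cfsg.Agent.S4463

/-- Let b be the largest irreducible character degree of the finite group G. Then G has an abelian subgroup of index at most (b!)². -/
theorem result {G : Type*} [Group G] [Finite G] (b : ℕ) (hb : IsGreatest {d : ℕ | ∃ χ : Cfsg.IrrCharacter G, Cfsg.charDegree (χ : G → ℂ) = d} b) : ∃ A : Subgroup G, (∀ x ∈ A, ∀ y ∈ A, x * y = y * x) ∧ A.index ≤ (Nat.factorial b) ^ 2 := by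
  have hres := Cfsg.Agent.H27.AbIdx.res
  have hl1 := Cfsg.Agent.H25.AbIdx.l1 Cfsg.Agent.H25.AbIdx.l1Ext
  have harith := Cfsg.Agent.H18.AbIdx.arith
  have hhalf := Cfsg.Agent.H18.AbIdx.half
  have hA := Cfsg.Agent.H53.AbIdx.caseA Cfsg.Agent.H83.AbIdx.aCenter
    (Cfsg.Agent.H54.AbIdx.betaTrick hl1) harith
  have hB := Cfsg.Agent.H53.AbIdx.caseB hres (Cfsg.Agent.H54.AbIdx.bVanish hl1)
    Cfsg.Agent.H83.AbIdx.bIndexH83 Cfsg.Agent.H65.AbIdx.bNorm Cfsg.Agent.H83.AbIdx.bTwoH83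
    hhalf harith
  have hN := Cfsg.Agent.H65.AbIdx.nonSolv hres hl1 hhalf Cfsg.Agent.H79.AbIdx.smallClass
    (Cfsg.Agent.H27.AbIdx.solv4 Cfsg.Agent.H68.AbIdx.simple4 hres)
    Cfsg.Agent.H79.AbIdx.coreFree harith
  exact Cfsg.Agent.H83.AbIdx.main hA hB hN b G (fun χ => hb.2 ⟨χ, rfl⟩)

end Cfsg.Agent.S4463
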