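import Mathlib
import Cfsg.Statements.S4473
import Cfsg.Agent.H4.Clifford
import Cfsg.Agent.H4.Monomial
import Cfsg.Agent.H4.MaxDeg
import Cfsg.Agent.H70.Prim2a
import Cfsg.Agent.H70.Prim2b

set_option autoImplicit false
open Cfsg

namespace Cfsg.Agent.S4473

/-- Let the finite group G have a faithful irreducible character χ of degree 2 that is primitive: χ is not induced from a character of any proper subgroup. Then the centre of G has index 12, 24 or 60. -/
theorem result {G : Type*} [Group G] [Fintype G] (χ : Cfsg.IrrCharacter G) (hfaith : ∀ g : G, (χ : G → ℂ) g = (χ : G → ℂ) 1 → g = 1) (h2 : Cfsg.charDegree (χ : G → ℂ) = 2) (hprim : ∀ H : Subgroup G, H ≠ ⊤ → ∀ θ : H → ℂ, Cfsg.IsCharacter H θ → (χ : G → ℂ) ≠ Cfsg.indFun H θ) : (Subgroup.center G).index = 12 ∨ (Subgroup.center G).index = 24 ∨ (Subgroup.center G).index = 60 := by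
  obtain ⟨n, ρ, hirr, hχ⟩ := χ.2
  rw [← hχ] at hfaith h2 hprim
  have := hirr
  have hdim : Module.finrank ℂ (Fin n → ℂ) = 2 := by
    have h1 : ρ.character 1 = (n : ℂ) := by rw [Representation.char_one]; simp
    have := Cfsg.Agent.H4.charDegree_of_natCast h1
    rw [Module.finrank_fin_fun]; omega
  have hinj : Function.Injective ρ := by
    intro a b hab
    have h1 : ρ (a * b⁻¹) = 1 := by rw [map_mul, hab, ← map_mul, mul_inv_cancel, map_one]
    have h3 : ρ.character (a * b⁻¹) = ρ.character 1 := by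
      have h4 : ρ (a * b⁻¹) = ρ 1 := by rw [h1, map_one]
      exact congrArg (LinearMap.trace ℂ (Fin n → ℂ)) h4
    exact mul_inv_eq_one.1 (hfaith _ h3)
  have hns : ∀ x : G, x ∉ Subgroup.center G →
      ¬ ∃ c : ℂ, ρ x = c • (LinearMap.id : (Fin n → ℂ) →ₗ[ℂ] (Fin n → ℂ)) := by
    rintro x hx ⟨c, hc⟩
    apply hx
    rw [Subgroup.mem_center_iff]
    intro g
    apply hinj
    rw [map_mul, map_mul, hc]
    ext v
    simp
  have H1 : ∀ x : G, x ∉ Subgroup.center G → ∀ a b : G, a * x = x * a → b * x = x * b →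
      a * b = b * a :=
    fun x hx a b ha hb =>
      Cfsg.Agent.H70.Prim2.comm_of_commute ρ hdim hinj x (hns x hx) a b ha hb
  have H2 : ∀ x : G, x ∉ Subgroup.center G → ∀ g h : G,
      (g * x * g⁻¹) * x = x * (g * x * g⁻¹) → (h * x * h⁻¹) * x = x * (h * x * h⁻¹) →
      g * x ≠ x * g → h * x ≠ x * h → (g * h) * x = x * (g * h) :=
    fun x hx g h hg hh hg' hh' =>
      Cfsg.Agent.H70.Prim2.mul_commute_of_conj ρ hdim hinj x (hns x hx) g h hg hh hg' hh'
  have key : ∀ (A : Subgroup G) [A.Normal], (∀ a ∈ A, ∀ b ∈ A, a * b = b * a) →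
      (∃ a ∈ A, ¬ ∃ c : ℂ, ρ a = c • (LinearMap.id : (Fin n → ℂ) →ₗ[ℂ] (Fin n → ℂ))) →
      False := by
    intro A _ hcomm hex
    obtain ⟨T, ψ, hT, hψ, hind⟩ := Cfsg.Agent.H4.exists_induced_of_comm ρ A
      (fun a ha b hb => by
        show ρ a * ρ b = ρ b * ρ a
        rw [← map_mul, ← map_mul, hcomm a ha b hb]) hex
    exact hprim T hT ψ (Cfsg.Agent.H4.isCharacter_of_isIrrCharacter hψ) hind
  have hex : ∃ x : G, x ∉ Subgroup.center G := by
    by_contra hcon
    push Not at hcon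
    have hne : Cfsg.Agent.H4.scalarSubgroup ρ ≠ ⊤ :=
      Cfsg.Agent.H4.scalarSubgroup_ne_top ρ (by rw [hdim]; norm_num)
    obtain ⟨a, ha⟩ : ∃ a : G, a ∉ Cfsg.Agent.H4.scalarSubgroup ρ := by
      by_contra hall
      push Not at hall
      exact hne (Subgroup.eq_top_iff' _ |>.2 hall)
    refine key ⊤ (fun a _ b _ => ?_) ⟨a, Subgroup.mem_top a, ha⟩
    exact (Subgroup.mem_center_iff.1 (hcon b) a)
  rcases Cfsg.Agent.H70.Prim2.ca_main H1 H2 hex with h | h | h | ⟨x, hx, hidx⟩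
  · exact Or.inl h
  · exact Or.inr (Or.inl h)
  · exact Or.inr (Or.inr h)
  · exfalso
    have : (Cfsg.Agent.H70.Prim2.cz x).Normal := Subgroup.normal_of_index_eq_two hidx
    exact key (Cfsg.Agent.H70.Prim2.cz x)
      (fun a ha b hb => H1 x hx a b (Cfsg.Agent.H70.Prim2.mem_cz.1 ha)
        (Cfsg.Agent.H70.Prim2.mem_cz.1 hb))
      ⟨x, Cfsg.Agent.H70.Prim2.mem_cz.2 rfl, hns x hx⟩

end Cfsg.Agent.S4473
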