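import Cfsg.Statements.S4476
import Cfsg.Agent.H78.BrauerFowler2

set_option autoImplicit false
open Cfsg

namespace Cfsg.Agent.S4476

/-- Let G be a finite group of even order g with exactly t involutions, and put α = (g − 1)/t (a rational number). Then (a) some non-identity element x of G has at most α² conjugates; and (b) some non-principal real-valued irreducible character of G has degree at most α. -/
theorem result {G : Type*} [Group G] [Fintype G] (heven : Even (Nat.card G)) (t : ℕ) (ht : Nat.card {x : G // orderOf x = 2} = t) : (∃ x : G, x ≠ 1 ∧ ((Subgroup.centralizer ({x} : Set G)).index : ℚ) ≤ (((Nat.card G : ℚ) - 1) / t) ^ 2) ∧ ∃ χ : Cfsg.IrrCharacter G, (χ : G → ℂ) ≠ (fun _ => 1) ∧ (∀ g : G, ((χ : G → ℂ) g).im = 0) ∧ (Cfsg.charDegree (χ : G → ℂ) : ℚ) ≤ ((Nat.card G : ℚ) - 1) / t := by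
  have hpos : 0 < Nat.card G := Nat.card_pos
  have hg2 : 2 ≤ Nat.card G := by
    obtain ⟨m, hm⟩ := heven
    omega
  have ht1 : 1 ≤ t := by
    have := Fact.mk Nat.prime_two
    obtain ⟨x, hx⟩ := exists_prime_orderOf_dvd_card' 2 heven.two_dvd
    rw [← ht]
    have : Nonempty {x : G // orderOf x = 2} := ⟨⟨x, hx⟩⟩
    exact Nat.card_pos
  have htq : (0 : ℚ) < t := by exact_mod_cast ht1
  have hgq : ((Nat.card G : ℚ) - 1) = ((Nat.card G - 1 : ℕ) : ℚ) := by
    rw [Nat.cast_sub (by omega)]
    simp
  constructor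
  · obtain ⟨x, hx1, hx⟩ := Cfsg.Agent.H78.exists_centralizer_large t ht hg2
    refine ⟨x, hx1, ?_⟩
    rw [div_pow, le_div_iff₀ (by positivity), hgq]
    have h2 : Nat.card (Subgroup.centralizer ({x} : Set G)) *
        (Subgroup.centralizer ({x} : Set G)).index = Nat.card G := Subgroup.card_mul_index _
    have hc : 0 < Nat.card (Subgroup.centralizer ({x} : Set G)) := Nat.card_pos
    have h3 : (Subgroup.centralizer ({x} : Set G)).index * t ^ 2 ≤ (Nat.card G - 1) ^ 2 := by
      have h4 : Nat.card (Subgroup.centralizer ({x} : Set G)) *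
          ((Subgroup.centralizer ({x} : Set G)).index * t ^ 2) ≤
          Nat.card (Subgroup.centralizer ({x} : Set G)) * (Nat.card G - 1) ^ 2 := by
        calc Nat.card (Subgroup.centralizer ({x} : Set G)) *
              ((Subgroup.centralizer ({x} : Set G)).index * t ^ 2)
            = (Nat.card (Subgroup.centralizer ({x} : Set G)) *
              (Subgroup.centralizer ({x} : Set G)).index) * t ^ 2 := by ring
          _ = Nat.card G * t ^ 2 := by rw [h2]
          _ ≤ (Nat.card G - 1) ^ 2 * Nat.card (Subgroup.centralizer ({x} : Set G)) := hx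
          _ = Nat.card (Subgroup.centralizer ({x} : Set G)) * (Nat.card G - 1) ^ 2 := by ring
      exact Nat.le_of_mul_le_mul_left h4 hc
    exact_mod_cast h3
  · obtain ⟨χ, hχ, hle⟩ := Cfsg.Agent.H78.exists_real_irr_degree_le t ht ht1
    obtain ⟨hne, hreal⟩ := Cfsg.Agent.H78.mem_realIrr.mp hχ
    refine ⟨χ, ?_, hreal, ?_⟩
    · intro h
      apply hne
      exact Subtype.ext h
    · rw [le_div_iff₀ htq, hgq]
      have : Cfsg.charDegree χ.1 * t ≤ Nat.card G - 1 := by omega
      exact_mod_cast this

end Cfsg.Agent.S4476
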