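import Cfsg.Statements.S4478
import Cfsg.Agent.H78.DefZeroInvol

set_option autoImplicit false
open Cfsg

namespace Cfsg.Agent.S4478

/-- Let G be a finite group of even order and χ an irreducible character of G whose degree x is divisible by the full power of 2 dividing the order of G and, for every odd prime p such that G has an element of order 2p, by the full power of p dividing the order of G. Then all involutions of G are conjugate, the centralizer of every involution has order exactly x with x coprime to its index, and the Frobenius–Schur indicator of χ equals 1. -/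
theorem result {G : Type*} [Group G] [Fintype G] (heven : Even (Nat.card G)) (χ : Cfsg.IrrCharacter G) (h2 : 2 ^ (Nat.card G).factorization 2 ∣ Cfsg.charDegree (χ : G → ℂ)) (hp : ∀ p : ℕ, p.Prime → p ≠ 2 → (∃ g : G, orderOf g = 2 * p) → p ^ (Nat.card G).factorization p ∣ Cfsg.charDegree (χ : G → ℂ)) : (∀ s t : G, orderOf s = 2 → orderOf t = 2 → IsConj s t) ∧ (∀ s : G, orderOf s = 2 → Nat.card (Subgroup.centralizer ({s} : Set G)) = Cfsg.charDegree (χ : G → ℂ) ∧ (Nat.card (Subgroup.centralizer ({s} : Set G))).Coprime (Subgroup.centralizer ({s} : Set G)).index) ∧ (Nat.card G : ℂ)⁻¹ * ∑ g : G, (χ : G → ℂ) (g * g) = 1 := by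
  exact Cfsg.Agent.H78.dzi_main χ h2 hp heven

end Cfsg.Agent.S4478
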