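import Cfsg.Statements.S4480
import Cfsg.Agent.H78.Klein5

set_option autoImplicit false
open Cfsg

namespace Cfsg.Agent.S4480

/-- Same setting as the Klein-four order formula: G of order 4·g₀ (g₀ odd) with no normal 2-complement, P a Sylow 2-subgroup, J an involution of P, M over 2, principal 2-block {1, χ₁, χ₂, χ₃} with χ_i(J) = ε_i = ±1. Suppose ε₁ε₂ε₃ = −1 and ε₃ = −1, and put q = x₃ = χ₃(1). Then there is a natural number m with 4·c(J) = m·c(P)·(q + 1), and the order of G equals (m³·c(P)/4)·(q³ − q)/2, that is 8·#G = m³·c(P)·(q³ − q). -/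
theorem result {G : Type*} [Group G] [Finite G] (M : Ideal Cfsg.AlgInt) (hM : Cfsg.IsPModular 2 M) (g₀ : ℕ) (hg₀ : Odd g₀) (hG : Nat.card G = 4 * g₀) (hnc : ¬ ∃ N : Subgroup G, N.Normal ∧ Nat.card N = g₀) (P : Sylow 2 G) (J : G) (hJ : J ∈ (P : Subgroup G)) (hJ2 : orderOf J = 2) (χ₁ χ₂ χ₃ : Cfsg.IrrCharacter G) (ε₁ ε₂ ε₃ : ℤ) (hB : Cfsg.principalBlock M G = {χ : Cfsg.IrrCharacter G | (χ : G → ℂ) = (fun _ => 1) ∨ χ = χ₁ ∨ χ = χ₂ ∨ χ = χ₃}) (hdist : (χ₁ : G → ℂ) ≠ (fun _ => 1) ∧ (χ₂ : G → ℂ) ≠ (fun _ => 1) ∧ (χ₃ : G → ℂ) ≠ (fun _ => 1) ∧ χ₁ ≠ χ₂ ∧ χ₁ ≠ χ₃ ∧ χ₂ ≠ χ₃) (hε : (ε₁ = 1 ∨ ε₁ = -1) ∧ (ε₂ = 1 ∨ ε₂ = -1) ∧ (ε₃ = 1 ∨ ε₃ = -1)) (hval : (χ₁ : G → ℂ) J = ε₁ ∧ (χ₂ : G → ℂ) J = ε₂ ∧ (χ₃ : G → ℂ) J = ε₃) (hprod : ε₁ * ε₂ * ε₃ = -1) (hε₃ : ε₃ = -1) : ∃ m : ℕ, 4 * Nat.card (Subgroup.centralizer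 ({J} : Set G)) = m * Nat.card (Subgroup.centralizer ((P : Subgroup G) : Set G)) * (Cfsg.charDegree (χ₃ : G → ℂ) + 1) ∧ 8 * Nat.card G = m ^ 3 * Nat.card (Subgroup.centralizer ((P : Subgroup G) : Set G)) * (Cfsg.charDegree (χ₃ : G → ℂ) ^ 3 - Cfsg.charDegree (χ₃ : G → ℂ)) := by
  classical
  letI : Fintype G := Fintype.ofFinite G
  have h : Cfsg.Agent.H78.Klein.Hyp G g₀ := ⟨hg₀, hG, hnc⟩
  have D : Cfsg.Agent.H78.Klein.KData M J χ₁ χ₂ χ₃ ε₁ ε₂ ε₃ :=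
    ⟨hM, hJ2, hB, hdist.1, hdist.2.1, hdist.2.2.1, hdist.2.2.2.1, hdist.2.2.2.2.1,
      hdist.2.2.2.2.2, hε.1, hε.2.1, hε.2.2, hval.1, hval.2.1, hval.2.2⟩
  exact Cfsg.Agent.H78.Klein.klein_order h P D hprod hε₃

end Cfsg.Agent.S4480
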