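import Cfsg.Statements.S4483
import Cfsg.Agent.H78.RealOdd2

set_option autoImplicit false
set_option linter.style.haveILetI false
open Cfsg

namespace Cfsg.Agent.S4483

/-- Let G be a finite group of order 2^n·g₀ with g₀ odd, and M a maximal ideal of the algebraic integers containing 2. Every real-valued irreducible character of G of odd degree lies in the principal 2-block; consequently G has at most 2^(2n) real-valued irreducible characters of odd degree. -/
theorem result {G : Type*} [Group G] [Finite G] (M : Ideal Cfsg.AlgInt) (hM : Cfsg.IsPModular 2 M) : (∀ χ : Cfsg.IrrCharacter G, (∀ g : G, ((χ : G → ℂ) g).im = 0) → Odd (Cfsg.charDegree (χ : G → ℂ)) → χ ∈ Cfsg.principalBlock M G) ∧ Nat.card {χ : Cfsg.IrrCharacter G // (∀ g : G, ((χ : G → ℂ) g).im = 0) ∧ Odd (Cfsg.charDegree (χ : G → ℂ))} ≤ 2 ^ (2 * (Nat.card G).factorization 2) := by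
  classical
  letI : Fintype G := Fintype.ofFinite G
  letI := Cfsg.Agent.H4.fintypeIrr G
  refine ⟨fun χ hχ hχo => Cfsg.Agent.H78.real_odd_mem_principalBlock hM χ hχ hχo, ?_⟩
  rw [Nat.card_eq_fintype_card, Fintype.card_subtype]
  exact Cfsg.Agent.H78.card_real_odd_le hM

end Cfsg.Agent.S4483
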