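import Cfsg.Statements.S4487
import Cfsg.Agent.H20.Nilpotent
import Cfsg.Agent.H14.Cores
import Cfsg.Agent.H81.Counting

set_option autoImplicit false
set_option linter.style.haveILetI false
open Cfsg

namespace Cfsg.Agent.S4487

open Cfsg.Agent.H20 Cfsg.Agent.H4 in
/-- If `g` lies in the normal `p`-subgroup `P`, then the central character of `χ` at `g` is
congruent to the class size of `g` modulo the local ideal. -/
theorem centralChar_sub_index_memLocalIdeal {G : Type*} [Group G] [Fintype G] (p : ℕ)
    [Fact p.Prime] {M : Ideal Cfsg.AlgInt} (hM : Cfsg.IsPModular p M) (P : Subgroup G)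
    [hPn : P.Normal] (hP : IsPGroup p P) (g : G) (hg : g ∈ P) (χ : Cfsg.IrrCharacter G) :
    Cfsg.MemLocalIdeal M (Cfsg.centralChar (χ : G → ℂ) g
      - ((Subgroup.centralizer ({g} : Set G)).index : ℂ)) := by
  classical
  have hconjP : ∀ x : G, IsConj g x → x ∈ P := by
    intro x hx
    obtain ⟨c, hc⟩ := isConj_iff.mp hx
    rw [← hc]
    exact hPn.conj_mem g hg c
  have h := omega_memLocalIdeal_of_fiber_sum hM P hP
    (fun x => (if IsConj g x then (1 : ℤ) else 0)
      - (if x = 1 then ((Subgroup.centralizer ({g} : Set G)).index : ℤ) else 0))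
    (fun x h => by
      have h1 : IsConj g (h * x * h⁻¹) ↔ IsConj g x :=
        ⟨fun hc => hc.trans (isConj_iff.mpr ⟨h, rfl⟩).symm,
          fun hc => hc.trans (isConj_iff.mpr ⟨h, rfl⟩)⟩
      have h2 : h * x * h⁻¹ = 1 ↔ x = 1 := by
        constructor
        · intro h3
          have : x = h⁻¹ * (h * x * h⁻¹) * h := by group
          rw [this, h3]; group
        · intro h3; rw [h3]; group
      simp only [h1, h2])
    (fun c => by
      rw [Finset.sum_sub_distrib, ← Finset.sum_filter, ← Finset.sum_filter, Finset.sum_const,
        Finset.sum_const, Finset.filter_filter, Finset.filter_filter]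
      by_cases hc : c = ((1 : G) : G ⧸ P)
      · have e1 : (Finset.univ.filter
            (fun x : G => (QuotientGroup.mk x : G ⧸ P) = c ∧ IsConj g x))
            = Finset.univ.filter (fun x : G => IsConj g x) := by
          ext x
          simp only [Finset.mem_filter, Finset.mem_univ, true_and]
          constructor
          · exact fun h => h.2
          · intro hx
            exact ⟨by rw [hc]; exact (QuotientGroup.eq_one_iff x).mpr (hconjP x hx), hx⟩
        have e2 : (Finset.univ.filter
            (fun x : G => (QuotientGroup.mk x : G ⧸ P) = c ∧ x = 1)) = {1} := by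
          ext x
          simp only [Finset.mem_filter, Finset.mem_univ, true_and, Finset.mem_singleton]
          constructor
          · exact fun h => h.2
          · intro hx
            exact ⟨by rw [hc, hx], hx⟩
        rw [e1, e2, card_conj_eq_index]
        simp
      · have e1 : (Finset.univ.filter
            (fun x : G => (QuotientGroup.mk x : G ⧸ P) = c ∧ IsConj g x)) = ∅ := by
          ext x
          simp only [Finset.mem_filter, Finset.mem_univ, true_and, Finset.notMem_empty,
            iff_false, not_and]
          intro hx hx2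
          apply hc
          rw [← hx]
          exact (QuotientGroup.eq_one_iff x).mpr (hconjP x hx2)
        have e2 : (Finset.univ.filter
            (fun x : G => (QuotientGroup.mk x : G ⧸ P) = c ∧ x = 1)) = ∅ := by
          ext x
          simp only [Finset.mem_filter, Finset.mem_univ, true_and, Finset.notMem_empty,
            iff_false, not_and]
          intro hx hx2
          apply hc
          rw [← hx, hx2]
        rw [e1, e2]
        simp) χ
  have h1 : (χ : G → ℂ) 1 ≠ 0 := Cfsg.Agent.H81.irr_one_ne_zero χ
  have e : (∑ x : G, (((fun x => (if IsConj g x then (1 : ℤ) else 0)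
      - (if x = 1 then ((Subgroup.centralizer ({g} : Set G)).index : ℤ) else 0)) x : ℤ) : ℂ)
        * (χ : G → ℂ) x) / (χ : G → ℂ) 1
      = Cfsg.centralChar (χ : G → ℂ) g - ((Subgroup.centralizer ({g} : Set G)).index : ℂ) := by
    rw [← omega_classSum _ (irr_isClassFunction χ)]
    unfold omega
    rw [eq_sub_iff_add_eq, div_add' _ _ _ h1]
    congr 1
    simp only [coeff_classSum]
    push_cast
    simp only [sub_mul, Finset.sum_sub_distrib, ite_mul, zero_mul]
    rw [Finset.sum_ite_eq' Finset.univ (1 : G)]
    simp
  rw [← e]
  exact h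

/-- Let G be a finite group and p a prime such that G has no non-trivial normal subgroup of order prime to p and C_G(O_p(G)) ≤ O_p(G). Then G has a single p-block: any two irreducible characters lie in the same block relative to every maximal ideal M of the algebraic integers containing p. -/
theorem result {G : Type*} [Group G] [Finite G] (p : ℕ) [Fact p.Prime] (M : Ideal Cfsg.AlgInt) (hM : Cfsg.IsPModular p M) (hcore : Cfsg.pPrimeCore p G = ⊥) (hconstr : Subgroup.centralizer ((Cfsg.pCore p G) : Set G) ≤ Cfsg.pCore p G) (χ ψ : Cfsg.IrrCharacter G) : Cfsg.SameBlock M (χ : G → ℂ) (ψ : G → ℂ) := by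
  classical
  intro g
  haveI : Fintype G := Fintype.ofFinite G
  have hMp := Cfsg.Agent.H20.isPrime_of_isPModular hM
  haveI hPn : (Cfsg.pCore p G).Normal := Cfsg.Agent.H14.pCore_normal p G
  have hP : IsPGroup p (Cfsg.pCore p G) := Cfsg.Agent.H14.pCore_isPGroup p G
  by_cases hg : g ∈ Subgroup.centralizer ((Cfsg.pCore p G) : Set G)
  · have hgP := hconstr hg
    have h1 := centralChar_sub_index_memLocalIdeal p hM _ hP g hgP χ
    have h2 := centralChar_sub_index_memLocalIdeal p hM _ hP g hgP ψ
    have h3 := Cfsg.Agent.H20.memLocalIdeal_sub hMp h1 h2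
    have e : Cfsg.centralChar (χ : G → ℂ) g - Cfsg.centralChar (ψ : G → ℂ) g
        = (Cfsg.centralChar (χ : G → ℂ) g - ((Subgroup.centralizer ({g} : Set G)).index : ℂ))
          - (Cfsg.centralChar (ψ : G → ℂ) g
            - ((Subgroup.centralizer ({g} : Set G)).index : ℂ)) := by ring
    rw [e]
    exact h3
  · exact Cfsg.Agent.H20.memLocalIdeal_sub hMp
      (Cfsg.Agent.H20.centralChar_memLocalIdeal_of_not_mem_centralizer hM _ hP g hg χ)
      (Cfsg.Agent.H20.centralChar_memLocalIdeal_of_not_mem_centralizer hM _ hP g hg ψ)

end Cfsg.Agent.S4487
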