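import Cfsg.Statements.S4490
import Cfsg.Agent.H20.RealBlock

set_option autoImplicit false
set_option linter.style.haveILetI false
open Cfsg

namespace Cfsg.Agent.S4490

/-- Let G be a finite group and M a maximal ideal of the algebraic integers containing 2. Every 2-block B of G whose defect groups are the Sylow 2-subgroups of G (a block of full defect) and which is not the principal block is different from its complex-conjugate block, the block formed by the complex conjugates of the members of B. -/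
theorem result {G : Type*} [Group G] [Finite G] (M : Ideal Cfsg.AlgInt) (hM : Cfsg.IsPModular 2 M) (B : Set (Cfsg.IrrCharacter G)) (hB : Cfsg.IsPBlock M B) (P : Sylow 2 G) (hfull : Cfsg.IsDefectGroup 2 M B (P : Subgroup G)) (hnp : B ≠ Cfsg.principalBlock M G) : {ψ : Cfsg.IrrCharacter G | ∃ χ ∈ B, (ψ : G → ℂ) = fun g => (starRingEnd ℂ) ((χ : G → ℂ) g)} ≠ B := by
  classical
  letI : Fintype G := Fintype.ofFinite G
  have hMp := Cfsg.Agent.H20.isPrime_of_isPModular hM
  obtain ⟨χ₀, rfl⟩ := hB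
  intro hreal
  apply hnp
  have hcl : ∀ χ ∈ Cfsg.blockOf M (χ₀ : G → ℂ),
      Cfsg.Agent.H4.irrConj χ ∈ Cfsg.blockOf M (χ₀ : G → ℂ) := by
    intro χ hχ
    have : Cfsg.Agent.H4.irrConj χ ∈ {ψ : Cfsg.IrrCharacter G |
        ∃ χ ∈ Cfsg.blockOf M (χ₀ : G → ℂ),
          (ψ : G → ℂ) = fun g => (starRingEnd ℂ) ((χ : G → ℂ) g)} := ⟨χ, hχ, rfl⟩
    rw [hreal] at this
    exact this
  have hc1 := Cfsg.Agent.H20.card_defectGroup hM χ₀ (P : Subgroup G) hfull
  have hc2 : Nat.card (P : Subgroup G) = 2 ^ (Nat.card G).factorization 2 :=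
    P.card_eq_multiplicity
  rw [hc2] at hc1
  have hd := Nat.pow_right_injective (le_refl 2) hc1
  have hne : ((fun ψ : Cfsg.IrrCharacter G =>
      (Cfsg.charDegree (ψ : G → ℂ)).factorization 2) '' Cfsg.blockOf M (χ₀ : G → ℂ)).Nonempty :=
    ⟨_, χ₀, Cfsg.Agent.H80.mem_blockOf_self hMp χ₀, rfl⟩
  obtain ⟨χ, hχ, hχmin⟩ := Nat.sInf_mem hne
  have hle : (Cfsg.charDegree (χ : G → ℂ)).factorization 2 ≤ (Nat.card G).factorization 2 := by
    have hdv := Cfsg.Agent.H81.irr_charDegree_dvd χ
    have hpos := (Cfsg.Agent.H81.irr_charDegree χ).2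
    exact (Nat.factorization_le_iff_dvd hpos.ne' Nat.card_pos.ne').mpr hdv 2
  have hzero : (Cfsg.charDegree (χ : G → ℂ)).factorization 2 = 0 := by
    unfold Cfsg.blockDefect at hd
    simp only at hχmin hd
    omega
  have hodd : ¬ 2 ∣ Cfsg.charDegree (χ : G → ℂ) := by
    rcases (Nat.factorization_eq_zero_iff _ _).mp hzero with h | h | h
    · exact absurd Nat.prime_two h
    · exact h
    · exact absurd h (Cfsg.Agent.H81.irr_charDegree χ).2.ne'
  have htriv := Cfsg.Agent.H20.trivChar_mem_of_real_of_odd hM χ₀ hcl χ hχ hodd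
  rw [Cfsg.Agent.H80.principalBlock_eq]
  exact (Cfsg.Agent.H80.blockOf_eq_of_mem hMp htriv).symm

end Cfsg.Agent.S4490
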