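import Cfsg.Statements.S4498
import Cfsg.Agent.H78.TwoBlocks

set_option autoImplicit false
open Cfsg

namespace Cfsg.Agent.S4498

/-- Let p and q be distinct primes dividing the order of the finite group G, and suppose G has no element of order p·q. Fix maximal ideals M_p over p and M_q over q of the algebraic integers. Then the principal p-block and the principal q-block of G have a non-principal irreducible character in common. -/
theorem result {G : Type*} [Group G] [Finite G] (p q : ℕ) [Fact p.Prime] [Fact q.Prime] (hpq : p ≠ q) (hp : p ∣ Nat.card G) (hq : q ∣ Nat.card G) (hno : ∀ g : G, orderOf g ≠ p * q) (Mp Mq : Ideal Cfsg.AlgInt) (hMp : Cfsg.IsPModular p Mp) (hMq : Cfsg.IsPModular q Mq) : ∃ χ : Cfsg.IrrCharacter G, (χ : G → ℂ) ≠ (fun _ => 1) ∧ χ ∈ Cfsg.principalBlock Mp G ∧ χ ∈ Cfsg.principalBlock Mq G := by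
  exact Cfsg.Agent.H78.exists_nonprincipal_in_principal_blocks p q hpq hp hq hno Mp Mq hMp hMq

end Cfsg.Agent.S4498
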