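import Cfsg.Statements.S4505
import Cfsg.Agent.H81.DefectCount2

set_option autoImplicit false
open Cfsg

namespace Cfsg.Agent.S4505

/-- Let G be a finite group, p a prime and M a maximal ideal of the algebraic integers containing p. For every σ, the number of p-blocks of defect exactly σ is at most the number of conjugacy classes of p-regular elements whose centralizer has order divisible by p^σ but not by p^(σ+1). -/
theorem result {G : Type*} [Group G] [Finite G] (p : ℕ) [Fact p.Prime] (M : Ideal Cfsg.AlgInt) (hM : Cfsg.IsPModular p M) (σ : ℕ) : Nat.card {B : Set (Cfsg.IrrCharacter G) // Cfsg.IsPBlock M B ∧ Cfsg.blockDefect p B = σ} ≤ Nat.card {C : ConjClasses G // ∃ g : G, ConjClasses.mk g = C ∧ ¬ p ∣ orderOf g ∧ (Nat.card (Subgroup.centralizer ({g} : Set G))).factorization p = σ} := by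
  classical
  haveI : Fintype G := Fintype.ofFinite G
  refine Cfsg.Agent.H81.card_blocks_le_card_classes hM
    (fun B => Cfsg.blockDefect p B = σ)
    (fun g => ¬ p ∣ orderOf g ∧
      (Nat.card (Subgroup.centralizer ({g} : Set G))).factorization p = σ) ?_ ?_
  · intro h x hh
    rw [Cfsg.Agent.H81.orderOf_conj_eq, Cfsg.Agent.H81.card_centralizer_conj]
    exact hh
  · intro χ₀ ψ h0 hψ h hh
    by_cases hs : p ∣ orderOf h
    · exact Cfsg.Agent.H81.blockCoeff_mul_centralChar_mem_of_singular hM χ₀ ψ h hs
    · have hne : (Nat.card (Subgroup.centralizer ({h} : Set G))).factorization p ≠ σ :=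
        fun he => hh ⟨hs, he⟩
      rcases lt_or_gt_of_ne hne with hlt | hgt
      · apply Cfsg.Agent.H81.blockCoeff_mul_centralChar_mem_of_lt hM χ₀ ψ h
        rw [hψ]
        exact hlt
      · apply Cfsg.Agent.H81.blockCoeff_mul_centralChar_mem_of_gt hM χ₀ ψ h
        rw [h0]
        exact hgt

end Cfsg.Agent.S4505
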