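import Cfsg.Statements.S4506
import Cfsg.Agent.H81.PConj
import Cfsg.Agent.H81.Reg

set_option autoImplicit false
open Cfsg

namespace Cfsg.Agent.S4506

/-- Let G be a finite group, p a prime, p^a the p-part of the order of G and g′ its p′-part. Call two irreducible characters p-conjugate when one is obtained from the other by applying a field automorphism of ℂ that fixes the g′-th roots of unity, and let r be the number of characters p-conjugate to the irreducible character χ (χ included). Then the exponent of p in r·χ(1) is at most a; and if p^a divides r·χ(1) then p^a already divides χ(1). -/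
theorem result {G : Type*} [Group G] [Finite G] (p : ℕ) (hp : p.Prime) (χ : Cfsg.IrrCharacter G) (r : ℕ) (hr : Nat.card {ψ : Cfsg.IrrCharacter G // ∃ σ : ℂ ≃+* ℂ, σ (Complex.exp (2 * Real.pi * Complex.I / ((Nat.card G / p ^ (Nat.card G).factorization p) : ℕ))) = Complex.exp (2 * Real.pi * Complex.I / ((Nat.card G / p ^ (Nat.card G).factorization p) : ℕ)) ∧ (ψ : G → ℂ) = fun g => σ ((χ : G → ℂ) g)} = r) : (r * Cfsg.charDegree (χ : G → ℂ)).factorization p ≤ (Nat.card G).factorization p ∧ (p ^ (Nat.card G).factorization p ∣ r * Cfsg.charDegree (χ : G → ℂ) → p ^ (Nat.card G).factorization p ∣ Cfsg.charDegree (χ : G → ℂ)) := by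
  classical
  have hn0 : Nat.card G ≠ 0 := (Nat.card_pos (α := G)).ne'
  have hmul := Nat.ordProj_mul_ordCompl_eq_self (Nat.card G) p
  have hcop0 := Nat.coprime_ordCompl hp hn0
  obtain ⟨a, ha⟩ : ∃ a, a = (Nat.card G).factorization p := ⟨_, rfl⟩
  rw [← ha] at hr hmul hcop0 ⊢
  rcases Nat.eq_zero_or_eq_succ_pred a with h0 | hsucc
  · -- `p` does not divide `|G|`
    rw [h0] at hr ⊢
    rw [pow_zero, Nat.div_one] at hr
    have hr1 : r = 1 := by rw [← hr]; exact Cfsg.Agent.H81.card_conj_eq_one χ
    rw [hr1, one_mul, pow_zero]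
    refine ⟨?_, fun _ => one_dvd _⟩
    have hdvd := Cfsg.Agent.H81.irr_charDegree_dvd χ
    by_contra hcon
    have hpd : p ∣ Cfsg.charDegree (χ : G → ℂ) :=
      Nat.dvd_of_factorization_pos (by omega)
    have h1 := (hp.pow_dvd_iff_le_factorization hn0 (k := 1)).mp
      (by rw [pow_one]; exact hpd.trans hdvd)
    rw [← ha, h0] at h1
    omega
  · obtain ⟨b, hb⟩ : ∃ b, a = b + 1 := ⟨a - 1, hsucc⟩
    rw [hb] at hr hmul hcop0 ⊢
    exact Cfsg.Agent.H81.pconj_main hp b (Nat.Coprime.pow_left _ hcop0) hmul.symm χ r hr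

end Cfsg.Agent.S4506
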