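import Cfsg.Statements.S4507
import Cfsg.Agent.S4502
import Cfsg.Agent.H82.P3H
import Cfsg.Agent.H81.PConj
import Cfsg.Agent.H20.BrauerMap

set_option autoImplicit false
set_option linter.style.haveILetI false
open Cfsg

namespace Cfsg.Agent.S4507

open Cfsg.Agent.H82 Cfsg.Agent.H82.BL Cfsg.Agent.H82.P1 in
/-- Let G be a finite group whose order g is divisible by the prime p exactly once, g′ = g/p, and fix a maximal ideal M of the algebraic integers containing p. Call two irreducible characters p-conjugate when a field automorphism of ℂ fixing the g′-th roots of unity carries one to the other. Let B be a p-block of positive defect (its defect group is a Sylow p-subgroup). Then B contains a subset Y (the exceptional family) such that: Y is a full p-conjugacy class (its members are pairwise p-conjugate and every p-conjugate of a member of Y lies in Y); every member of B outside Y is p-conjugate only to itself; the size t of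 Y divides p − 1 and B has exactly t + (p − 1)/t members; and there are signs δ_χ = ±1 (χ ∈ B) such that for every p-regular element x and every θ ∈ Y, Σ_{χ ∈ B ∖ Y} δ_χ χ(x) + δ_θ θ(x) = 0. -/
theorem result {G : Type*} [Group G] [Finite G] (p : ℕ) [Fact p.Prime] (M : Ideal Cfsg.AlgInt) (hM : Cfsg.IsPModular p M) (hdiv : p ∣ Nat.card G) (hsq : ¬ p ^ 2 ∣ Nat.card G) (B : Set (Cfsg.IrrCharacter G)) (hB : Cfsg.IsPBlock M B) (hd : 0 < Cfsg.blockDefect p B) : ∃ Y : Set (Cfsg.IrrCharacter G), Y ⊆ B ∧ Y.Nonempty ∧ (∀ θ ∈ Y, ∀ ψ : Cfsg.IrrCharacter G, (∃ σ : ℂ ≃+* ℂ, σ (Complex.exp (2 * Real.pi * Complex.I / ((Nat.card G / p ^ (Nat.card G).factorization p) : ℕ))) = Complex.exp (2 * Real.pi * Complex.I / ((Nat.card G / p ^ (Nat.card G).factorization p) : ℕ)) ∧ (ψ : G → ℂ) = fun g => σ ((θ : G → ℂ) g)) ↔ ψ ∈ Y) ∧ (∀ χ ∈ B, χ ∉ Y → ∀ ψ : Cfsg.IrrCharacter G, (∃ σ : ℂ ≃+* ℂ, σ (Complex.exp (2 * Real.pi * Complex.I / ((Nat.card G / p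 ^ (Nat.card G).factorization p) : ℕ))) = Complex.exp (2 * Real.pi * Complex.I / ((Nat.card G / p ^ (Nat.card G).factorization p) : ℕ)) ∧ (ψ : G → ℂ) = fun g => σ ((χ : G → ℂ) g)) → ψ = χ) ∧ Nat.card Y ∣ p - 1 ∧ Nat.card B = Nat.card Y + (p - 1) / Nat.card Y ∧ ∃ δ : Cfsg.IrrCharacter G → ℤ, (∀ χ ∈ B, δ χ = 1 ∨ δ χ = -1) ∧ ∀ x : G, ¬ p ∣ orderOf x → ∀ θ ∈ Y, (∑ᶠ χ ∈ B \ Y, (δ χ : ℂ) * (χ : G → ℂ) x) + (δ θ : ℂ) * (θ : G → ℂ) x = 0 := by
  classical
  letI : Fintype G := Fintype.ofFinite G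
  have hp : p.Prime := Fact.out
  have hMp := Cfsg.Agent.H20.isPrime_of_isPModular hM
  obtain ⟨P⟩ : Nonempty (Sylow p G) := inferInstance
  have hP : Nat.card P = p := card_sylow_eq P hdiv hsq
  obtain ⟨S⟩ := exists_setup_of_card P hP
  letI : Fintype ↥(NN P) := Fintype.ofFinite _
  letI : Fintype ↥(CC P) := Fintype.ofFinite _
  letI : Fintype (IrrCharacter G) := Cfsg.Agent.H4.fintypeIrr G
  letI : Fintype (IrrCharacter ↥(NN P)) := Cfsg.Agent.H4.fintypeIrr _
  letI : Fintype (IrrCharacter ↥(CC P)) := Cfsg.Agent.H4.fintypeIrr _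
  letI : Fintype ↥((P : Subgroup G).subgroupOf (CC P)) := Fintype.ofFinite _
  have hcomm : ∀ a b : ↥((P : Subgroup G).subgroupOf (CC P)), a * b = b * a := by
    intro a b
    apply Subtype.ext
    apply Subtype.ext
    have := S.cent (a : G) (Subgroup.mem_subgroupOf.mp a.2) (b : G) (b : ↥(CC P)).2
    simpa using this
  haveI : Finite (↥((P : Subgroup G).subgroupOf (CC P)) →* ℂˣ) := (card_hom_units hcomm).1
  letI : Fintype (↥((P : Subgroup G).subgroupOf (CC P)) →* ℂˣ) := Fintype.ofFinite _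
  have hP' : Nat.card ↥(P : Subgroup G) = p := hP
  have hGcard := Cfsg.Agent.H82.Md.sylp_card P hP
  have hidx := Cfsg.Agent.H82.Md.sylp_not_dvd_index P hP
  have hcount := Cfsg.Agent.S4502.result p hdiv hsq P
  have heq : Fintype.card (IrrCharacter ↥(NN P)) ≤
      (Finset.univ.filter fun χ : IrrCharacter G =>
        ¬ Nat.card ↥(P : Subgroup G) ∣ charDegree χ.1).card := by
    rw [hP']
    have h := hcount
    rw [← Cfsg.Agent.H4.card_irr_eq_card_conjClasses, Nat.card_eq_fintype_card,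
      Nat.card_eq_fintype_card, Fintype.card_subtype] at h
    exact h.symm.le
  have hcyc := isCyclic_norm_mod_cent P hP S
  have hpC : p ∣ Nat.card ↥(CC P) := by
    have h1 : Nat.card ↥(P : Subgroup G) ∣ Nat.card ↥(CC P) := Subgroup.card_dvd_of_le S.hPC
    rwa [hP'] at h1
  have hk : ¬ p ∣ Nat.card ↥(CC P) / p := by
    obtain ⟨k, hk'⟩ := hpC
    rw [hk', Nat.mul_div_cancel_left k hp.pos]
    intro h
    have h1 : Nat.card ↥(CC P) ∣ Nat.card G := Subgroup.card_subgroup_dvd_card _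
    rw [hk', hGcard] at h1
    exact hidx (dvd_trans h ((Nat.mul_dvd_mul_iff_left hp.pos).mp h1))
  -- the exponent of `p` in `|G|`
  have hG0 : Nat.card G ≠ 0 := Nat.card_pos.ne'
  have hfact : (Nat.card G).factorization p = 1 := by
    have h2 : 1 ≤ (Nat.card G).factorization p :=
      (hp.pow_dvd_iff_le_factorization hG0).mp (by rwa [pow_one])
    have h3 : ¬ 2 ≤ (Nat.card G).factorization p := fun h =>
      hsq ((hp.pow_dvd_iff_le_factorization hG0).mpr h)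
    omega
  -- a character of degree prime to `p` in `B`
  obtain ⟨χ₂, hχ₂⟩ := hB
  have hχ₂B : χ₂ ∈ B := by
    rw [hχ₂]
    exact Cfsg.Agent.H80.sameBlock_refl hMp _
  obtain ⟨χ₁, hχ₁B, hχ₁⟩ : ∃ χ₁ ∈ B, ¬ p ∣ charDegree χ₁.1 := by
    have hne : ((fun χ : IrrCharacter G => (charDegree χ.1).factorization p) '' B).Nonempty :=
      ⟨_, χ₂, hχ₂B, rfl⟩
    obtain ⟨χ₁, hχ₁B, hχ₁⟩ := Nat.sInf_mem hne
    have h0 : sInf ((fun χ : IrrCharacter G => (charDegree χ.1).factorization p) '' B) = 0 := by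
      unfold blockDefect at hd
      rw [hfact] at hd
      omega
    rw [h0] at hχ₁
    refine ⟨χ₁, hχ₁B, ?_⟩
    have hχ₁' : (charDegree χ₁.1).factorization p = 0 := hχ₁
    rcases (Nat.factorization_eq_zero_iff _ _).mp hχ₁' with h | h | h
    · exact absurd hp h
    · exact h
    · exact absurd h (Cfsg.Agent.H82.charDegree_pos χ₁).ne'
  obtain ⟨ϑ, hχ₁X⟩ : ∃ ϑ : Irr0 S, χ₁ ∈ setX S ϑ := by
    have h1 : χ₁ ∈ (Finset.univ.filter fun χ : IrrCharacter G =>
        ¬ Nat.card ↥(P : Subgroup G) ∣ charDegree χ.1) := by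
      rw [Finset.mem_filter, hP']
      exact ⟨Finset.mem_univ _, hχ₁⟩
    have h2 := filter_subset_biUnion S h1
    rw [Finset.mem_biUnion] at h2
    obtain ⟨ϑ, -, h3⟩ := h2
    exact ⟨ϑ, h3⟩
  -- the induced block
  obtain ⟨χ₀, hindB, -⟩ := Cfsg.Agent.H20.exists_isInducedBlock hM P.isPGroup' S.hPC
    (le_refl (CC P)) S.hCN ϑ.1
  obtain ⟨e, he⟩ : ∃ e : ℕ, (stabT S ϑ.1).card = e * Nat.card ↥(CC P) :=
    ⟨_, (card_setA_mul S hcyc ϑ.1).symm⟩
  obtain ⟨he0, hediv, hBX, w, b', s, hw, hwc, hwb, hs, hbinj, hBw, hYc, hvalX, hvalY, hregid⟩ :=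
    block_full S hM hP' hcyc heq hpC hk ϑ e he (blockOf M χ₀.1) (blockOf M ϑ.1.1) hindB
      (Cfsg.Agent.H80.sameBlock_refl hMp _)
  have hχ₁B' : χ₁ ∈ blockOf M χ₀.1 := (hBX χ₁).mpr hχ₁X
  have hBeq : B = blockOf M χ₀.1 := by
    rw [hχ₂] at hχ₁B ⊢
    ext χ
    constructor
    · intro h
      exact Cfsg.Agent.H80.sameBlock_trans hMp hχ₁B'
        (Cfsg.Agent.H80.sameBlock_trans hMp (Cfsg.Agent.H80.sameBlock_symm hχ₁B) h)
    · intro h
      exact Cfsg.Agent.H80.sameBlock_trans hMp hχ₁B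
        (Cfsg.Agent.H80.sameBlock_trans hMp (Cfsg.Agent.H80.sameBlock_symm hχ₁B') h)
  rw [← hBeq] at hBw
  have hs0 : (s : ℂ) ≠ 0 := by
    rcases hs with h | h <;> rw [h] <;> norm_num
  -- the exceptional characters agree on the regular elements
  have hagree : ∀ (μ₁ μ₂ : {μ : ↥((P : Subgroup G).subgroupOf (CC P)) →* ℂˣ // μ ≠ 1}) (g : G),
      ¬ p ∣ orderOf g → (b' (LamN S μ₁ ϑ)).1 g = (b' (LamN S μ₂ ϑ)).1 g := by
    intro μ₁ μ₂ g hg
    have h1 := hregid μ₁ g hg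
    have h2 := hregid μ₂ g hg
    apply mul_left_cancel₀ hs0
    linear_combination h1 - h2
  -- the exceptional family
  obtain ⟨Yf, hYf⟩ : ∃ Yf : Finset (IrrCharacter G), Yf = Finset.univ.image
      (fun μ : {μ : ↥((P : Subgroup G).subgroupOf (CC P)) →* ℂˣ // μ ≠ 1} =>
        b' (LamN S μ ϑ)) := ⟨_, rfl⟩
  rw [← hYf] at hYc
  have hYmem : ∀ χ, χ ∈ Yf ↔
      ∃ μ : {μ : ↥((P : Subgroup G).subgroupOf (CC P)) →* ℂˣ // μ ≠ 1},
        χ = b' (LamN S μ ϑ) := by
    intro χ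
    rw [hYf]
    simp only [Finset.mem_image, Finset.mem_univ, true_and]
    constructor
    · rintro ⟨μ, rfl⟩
      exact ⟨μ, rfl⟩
    · rintro ⟨μ, rfl⟩
      exact ⟨μ, rfl⟩
  have hYw : ∀ χ ∈ Yf, w χ = 0 := by
    intro χ hχ
    obtain ⟨μ, rfl⟩ := (hYmem χ).mp hχ
    exact hwb μ
  have hBiff : ∀ χ, χ ∈ B ↔ (w χ ≠ 0 ∨ χ ∈ Yf) := by
    intro χ
    rw [hBw χ, hYmem χ]
  have hp1 : 0 < p - 1 := Nat.sub_pos_of_lt hp.one_lt
  have hYpos : 0 < Yf.card := by
    rcases Nat.eq_zero_or_pos Yf.card with h | h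
    · rw [h, zero_mul] at hYc
      omega
    · exact h
  -- the `p`-conjugation
  have hn : Nat.card G = p ^ (Nat.card G).factorization p *
      (Nat.card G / p ^ (Nat.card G).factorization p) :=
    (Nat.ordProj_mul_ordCompl_eq_self (Nat.card G) p).symm
  have hcop : Nat.Coprime (p ^ (Nat.card G).factorization p)
      (Nat.card G / p ^ (Nat.card G).factorization p) :=
    (Nat.coprime_ordCompl hp hG0).pow_left _
  have hkfacts : ∀ u : (ZMod (p ^ (Nat.card G).factorization p))ˣ,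
      (Cfsg.Agent.H81.kexp hcop u).Coprime (Nat.card G) ∧
      (∀ g : G, ¬ p ∣ orderOf g → g ^ Cfsg.Agent.H81.kexp hcop u = g) := by
    intro u
    have hk1 : (Cfsg.Agent.H81.kexp hcop u).Coprime (Nat.card G) := by
      have h := Cfsg.Agent.H81.kexp_coprime hcop u
      rw [← hn] at h
      exact h
    refine ⟨hk1, ?_⟩
    intro g hg
    have h1 : orderOf g ∣ p ^ (Nat.card G).factorization p *
        (Nat.card G / p ^ (Nat.card G).factorization p) := by
      rw [← hn]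
      exact orderOf_dvd_natCard g
    have h2 : (orderOf g).Coprime (p ^ (Nat.card G).factorization p) :=
      (((Nat.Prime.coprime_iff_not_dvd hp).mpr hg).symm).pow_right _
    have h3 : orderOf g ∣ Nat.card G / p ^ (Nat.card G).factorization p :=
      h2.dvd_of_dvd_mul_left h1
    have h4 : Cfsg.Agent.H81.kexp hcop u ≡ 1 [MOD orderOf g] :=
      Nat.ModEq.of_dvd h3 (Cfsg.Agent.H81.kexp_modEq_right hcop u)
    have h5 := pow_eq_pow_iff_modEq.mpr h4
    rwa [pow_one] at h5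
  have hcardD : Nat.card ↥((P : Subgroup G).subgroupOf (CC P)) = p := by
    rw [Nat.card_congr (Subgroup.subgroupOfEquivOfLe S.hPC).toEquiv, hP']
  have hpowμ : ∀ (μ : ↥((P : Subgroup G).subgroupOf (CC P)) →* ℂˣ)
      (x : ↥((P : Subgroup G).subgroupOf (CC P))), μ x ^ p = 1 := by
    intro μ x
    have h1 := pow_card_eq_one' (G := ↥((P : Subgroup G).subgroupOf (CC P))) (x := x)
    rw [hcardD] at h1
    rw [← map_pow, h1, map_one]
  -- the signs
  obtain ⟨δ, hδ⟩ : ∃ δ : IrrCharacter G → ℤ, δ = fun χ => if χ ∈ Yf then s else w χ :=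
    ⟨_, rfl⟩
  refine ⟨{χ | χ ∈ Yf}, ?_, ?_, ?_, ?_, ?_, ?_, δ, ?_, ?_⟩
  · intro χ hχ
    exact (hBiff χ).mpr (Or.inr hχ)
  · obtain ⟨χ, hχ⟩ := Finset.card_pos.mp hYpos
    exact ⟨χ, hχ⟩
  · -- the exceptional family is a `p`-conjugacy class
    intro θ hθ ψ
    have hθ' : θ ∈ Yf := hθ
    obtain ⟨μ₁, hμ₁⟩ := (hYmem θ).mp hθ'
    rw [Cfsg.Agent.H81.exists_sigma_iff hcop hn θ ψ]
    constructor
    · rintro ⟨u, hu⟩
      obtain ⟨hk1, hk2⟩ := hkfacts u
      obtain ⟨μ₂, hμ₂⟩ : ∃ μ₂ : ↥((P : Subgroup G).subgroupOf (CC P)) →* ℂˣ,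
          μ₂ = μ₁.1 ^ Cfsg.Agent.H81.kexp hcop u := ⟨_, rfl⟩
      have hμ : ∀ x : ↥((P : Subgroup G).subgroupOf (CC P)),
          μ₁.1 x ^ Cfsg.Agent.H81.kexp hcop u = μ₂ x := by
        intro x
        rw [hμ₂]
        rfl
      have hkp : (Cfsg.Agent.H81.kexp hcop u).Coprime p :=
        Nat.Coprime.coprime_dvd_right hdiv hk1
      have hμ₂1 : μ₂ ≠ 1 := pow_hom_ne_one S hP' μ₁.1 μ₁.2 _ hkp μ₂ hμ
      show ψ ∈ Yf
      rw [hYmem ψ]
      refine ⟨⟨μ₂, hμ₂1⟩, ?_⟩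
      rw [hu]
      apply Subtype.ext
      funext g
      rw [Cfsg.Agent.H81.pconj_apply, hμ₁]
      exact exc_pow S ϑ μ₁.1 μ₂ (b' (LamN S μ₁ ϑ)) (b' (LamN S ⟨μ₂, hμ₂1⟩ ϑ)) s
        (hvalY μ₁) (hvalY ⟨μ₂, hμ₂1⟩) (hagree μ₁ ⟨μ₂, hμ₂1⟩) _ hk1 hk2 hμ g
    · intro hψ
      have hψ' : ψ ∈ Yf := hψ
      obtain ⟨μ₂, hμ₂⟩ := (hYmem ψ).mp hψ'
      obtain ⟨a, hpa, ha⟩ := exists_pow_hom S hp hP' μ₁.1 μ₂.1 μ₁.2 μ₂.2
      have hacop : a.Coprime (p ^ (Nat.card G).factorization p) :=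
        (((Nat.Prime.coprime_iff_not_dvd hp).mpr hpa).symm).pow_right _
      refine ⟨ZMod.unitOfCoprime a hacop, ?_⟩
      obtain ⟨hk1, hk2⟩ := hkfacts (ZMod.unitOfCoprime a hacop)
      have hka : Cfsg.Agent.H81.kexp hcop (ZMod.unitOfCoprime a hacop) ≡ a [MOD p] := by
        have h1 := Cfsg.Agent.H81.kexp_modEq_left hcop (ZMod.unitOfCoprime a hacop)
        rw [ZMod.coe_unitOfCoprime, ZMod.val_natCast] at h1
        have h2 : Cfsg.Agent.H81.kexp hcop (ZMod.unitOfCoprime a hacop) ≡ a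
            [MOD p ^ (Nat.card G).factorization p] := h1.trans (Nat.mod_modEq _ _)
        have h3 : p ∣ p ^ (Nat.card G).factorization p :=
          dvd_pow_self p (by rw [hfact]; exact one_ne_zero)
        exact Nat.ModEq.of_dvd h3 h2
      have hμ : ∀ x : ↥((P : Subgroup G).subgroupOf (CC P)),
          μ₁.1 x ^ Cfsg.Agent.H81.kexp hcop (ZMod.unitOfCoprime a hacop) = μ₂.1 x := by
        intro x
        rw [ha x]
        apply pow_eq_pow_iff_modEq.mpr
        exact Nat.ModEq.of_dvd (orderOf_dvd_of_pow_eq_one (hpowμ μ₁.1 x)) hka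
      apply Subtype.ext
      funext g
      rw [Cfsg.Agent.H81.pconj_apply, hμ₁, hμ₂]
      exact (exc_pow S ϑ μ₁.1 μ₂.1 (b' (LamN S μ₁ ϑ)) (b' (LamN S μ₂ ϑ)) s
        (hvalY μ₁) (hvalY μ₂) (hagree μ₁ μ₂) _ hk1 hk2 hμ g).symm
  · -- the other characters are `p`-rational
    intro χ hχB hχY ψ hσ
    have hχY' : χ ∉ Yf := hχY
    have hwχ : w χ ≠ 0 := by
      rcases (hBiff χ).mp hχB with h | h
      · exact h
      · exact absurd h hχY'
    obtain ⟨u, hu⟩ := (Cfsg.Agent.H81.exists_sigma_iff hcop hn χ ψ).mp hσ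
    obtain ⟨hk1, hk2⟩ := hkfacts u
    rw [hu]
    apply Subtype.ext
    funext g
    rw [Cfsg.Agent.H81.pconj_apply]
    exact nonexc_pow S ϑ e he0 χ (w χ) (hvalX χ hwχ) _ hk1 hk2 g
  · have h1 : Nat.card ↥{χ : IrrCharacter G | χ ∈ Yf} = Yf.card := by
      show Nat.card {χ : IrrCharacter G // χ ∈ Yf} = Yf.card
      rw [Nat.card_eq_fintype_card, Fintype.card_coe]
    rw [h1]
    exact Dvd.intro _ hYc
  · have h1 : Nat.card ↥{χ : IrrCharacter G | χ ∈ Yf} = Yf.card := by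
      show Nat.card {χ : IrrCharacter G // χ ∈ Yf} = Yf.card
      rw [Nat.card_eq_fintype_card, Fintype.card_coe]
    rw [h1]
    have hdisjF : Disjoint (Finset.univ.filter fun χ : IrrCharacter G => w χ ≠ 0) Yf := by
      rw [Finset.disjoint_left]
      intro χ h1 h2
      exact (Finset.mem_filter.mp h1).2 (hYw χ h2)
    have hBfin : B = (((Finset.univ.filter fun χ : IrrCharacter G => w χ ≠ 0) ∪ Yf :
        Finset (IrrCharacter G)) : Set (IrrCharacter G)) := by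
      ext χ
      rw [hBiff χ]
      simp
    have h2 : (p - 1) / Yf.card = e :=
      Nat.div_eq_of_eq_mul_right hYpos hYc.symm
    rw [hBfin, Nat.card_coe_set_eq, Set.ncard_coe_finset,
      Finset.card_union_of_disjoint hdisjF, hwc, h2, add_comm]
  · intro χ hχ
    rw [hδ]
    by_cases hχY : χ ∈ Yf
    · simp only [if_pos hχY]
      exact hs
    · simp only [if_neg hχY]
      rcases (hBiff χ).mp hχ with h | h
      · rcases hw χ with h' | h' | h'
        · exact absurd h' h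
        · exact Or.inl h'
        · exact Or.inr h'
      · exact absurd h hχY
  · intro x hx θ hθ
    have hθ' : θ ∈ Yf := hθ
    obtain ⟨μ₁, hμ₁⟩ := (hYmem θ).mp hθ'
    have h1 := hregid μ₁ x hx
    rw [← hμ₁] at h1
    have h2 : δ θ = s := by
      rw [hδ]
      simp only [if_pos hθ']
    rw [h2, ← h1]
    congr 1
    rw [finsum_mem_def, finsum_eq_sum_of_fintype]
    refine Finset.sum_congr rfl fun χ _ => ?_
    rw [Set.indicator_apply]
    by_cases hχ : χ ∈ B \ {χ : IrrCharacter G | χ ∈ Yf}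
    · rw [if_pos hχ]
      have hχY : χ ∉ Yf := hχ.2
      rw [hδ]
      simp only [if_neg hχY]
    · rw [if_neg hχ]
      have h0 : w χ = 0 := by
        by_contra hne
        apply hχ
        refine ⟨(hBiff χ).mpr (Or.inl hne), ?_⟩
        intro hY
        exact hne (hYw χ hY)
      rw [h0]
      simp

end Cfsg.Agent.S4507
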