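import Cfsg.Statements.S4508
import Cfsg.Agent.H5.SelfCentChar

set_option autoImplicit false
open Cfsg

namespace Cfsg.Agent.S4508

/-- Let the finite group G contain an element x of prime order p with C_G(x) = ⟨x⟩, and let t be the number of conjugacy classes of elements of order p. If G has an irreducible character of degree p − 1, then t is even or the commutator subgroup has even index. -/
theorem result {G : Type*} [Group G] [Finite G] (p : ℕ) (hp : p.Prime) (x : G) (hx : orderOf x = p) (hC : Subgroup.centralizer ({x} : Set G) = Subgroup.zpowers x) (t : ℕ) (ht : Nat.card {C : ConjClasses G // ∃ g ∈ C.carrier, orderOf g = p} = t) (χ : Cfsg.IrrCharacter G) (hχ : Cfsg.charDegree (χ : G → ℂ) + 1 = p) : Even t ∨ Even (commutator G).index := by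
  classical
  have hSC : Cfsg.Agent.H78.SC p x := ⟨hx, hC⟩
  have hcl := hSC.card_classes hp
  rw [ht] at hcl
  by_cases hte : Even t
  · exact Or.inl hte
  right
  have hodd : Odd t := Nat.not_even_iff_odd.mp hte
  by_cases hp2 : p = 2
  · subst hp2
    have he : (Subgroup.zpowers x).relIndex
        (Subgroup.normalizer (Subgroup.zpowers x : Set G)) = 1 :=
      Nat.eq_one_of_mul_eq_one_left hcl
    rw [(hSC.index_commutator_eq Nat.prime_two he).1]
    exact even_two
  · haveI := Fintype.ofFinite G
    obtain ⟨n, hn0, -, hn⟩ := Cfsg.Agent.H81.irr_degree_dvd χ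
    have hdeg : χ.1 1 = (p : ℂ) - 1 := by
      have h1 : Cfsg.charDegree (χ : G → ℂ) = n := by
        unfold Cfsg.charDegree
        rw [hn]
        simp
      rw [h1] at hχ
      rw [hn, ← hχ]
      push_cast
      ring
    obtain ⟨y, hy⟩ := Cfsg.Agent.H5.SelfCentChar.exists_det_neg_one p hp x hSC hp2 t hodd hcl χ
      hdeg
    exact Cfsg.Agent.H5.DetReg.even_index_commutator χ.1 y hy

end Cfsg.Agent.S4508
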