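import Cfsg.Statements.S4509
import Cfsg.Agent.H78.SelfCent4

set_option autoImplicit false
open Cfsg

namespace Cfsg.Agent.S4509

/-- Let the finite group G contain an element x of prime order p with C_G(x) = ⟨x⟩; let t be the number of conjugacy classes of elements of order p and 1 + n·p the number of subgroups of order p. Then G has a normal subgroup of order 1 + n·p if and only if either t = p − 1, or t < p − 1 and G″ ≠ G′. Moreover, if t = p − 1 then G′ has order 1 + n·p and G/G′ is cyclic of order p; and if t < p − 1 and G″ ≠ G′ then G″ has order 1 + n·p and G′ has order p·(1 + n·p). -/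
theorem result {G : Type*} [Group G] [Finite G] (p : ℕ) (hp : p.Prime) (x : G) (hx : orderOf x = p) (hC : Subgroup.centralizer ({x} : Set G) = Subgroup.zpowers x) (t : ℕ) (ht : Nat.card {C : ConjClasses G // ∃ g ∈ C.carrier, orderOf g = p} = t) (n : ℕ) (hn : Nat.card {H : Subgroup G // Nat.card H = p} = 1 + n * p) : ((∃ S : Subgroup G, S.Normal ∧ Nat.card S = 1 + n * p) ↔ (t = p - 1 ∨ (t < p - 1 ∧ derivedSeries G 2 ≠ derivedSeries G 1))) ∧ (t = p - 1 → Nat.card (commutator G) = 1 + n * p ∧ IsCyclic (G ⧸ commutator G) ∧ (commutator G).index = p) ∧ (t < p - 1 → derivedSeries G 2 ≠ derivedSeries G 1 → Nat.card (derivedSeries G 2) = 1 + n * p ∧ Nat.card (commutator G) = p * (1 + n * p)) := by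
  have h : Cfsg.Agent.H78.SC p x := ⟨hx, hC⟩
  have hT := h.card_classes hp
  rw [ht] at hT
  have hidx := h.card_subgroups hp
  rw [hn] at hidx
  have hpos : 0 < p - 1 := Nat.sub_pos_of_lt hp.one_lt
  have ht_le : t ≤ p - 1 := Nat.le_of_dvd hpos ⟨_, hT.symm⟩
  have key1 : t = p - 1 ↔
      (Subgroup.zpowers x).relIndex (Subgroup.normalizer (Subgroup.zpowers x : Set G)) = 1 := by
    constructor
    · intro heq
      rw [heq] at hT
      exact Nat.eq_of_mul_eq_mul_left hpos (by rw [hT, mul_one])
    · intro h1
      rw [h1, mul_one] at hT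
      exact hT
  have hd1 : derivedSeries G 1 = commutator G := derivedSeries_one G
  have hd2 : derivedSeries G 2 = ⁅commutator G, commutator G⁆ := by
    rw [derivedSeries_succ, derivedSeries_one]
  have partII : t = p - 1 → Nat.card (commutator G) = 1 + n * p ∧ IsCyclic (G ⧸ commutator G) ∧
      (commutator G).index = p := by
    intro heq
    have he1 := key1.mp heq
    obtain ⟨hi, hnd⟩ := h.index_commutator_eq hp he1
    refine ⟨?_, ?_, hi⟩
    · have hNX : Subgroup.normalizer (Subgroup.zpowers x : Set G) = Subgroup.zpowers x :=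
        le_antisymm (Subgroup.relIndex_eq_one.mp he1) Subgroup.le_normalizer
      have h1 : Nat.card (commutator G) * (commutator G).index = Nat.card G := Subgroup.card_mul_index _
      have h2 : Nat.card (Subgroup.zpowers x) * (Subgroup.zpowers x).index = Nat.card G := Subgroup.card_mul_index _
      rw [hi] at h1
      rw [h.card_zpowers] at h2
      rw [hidx, hNX]
      exact Nat.eq_of_mul_eq_mul_right hp.pos (by rw [h1, ← h2, mul_comm])
    · have := Fact.mk hp
      exact isCyclic_of_prime_card (p := p) hi
  have partIII : t < p - 1 → derivedSeries G 2 ≠ derivedSeries G 1 →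
      Nat.card (derivedSeries G 2) = 1 + n * p ∧ Nat.card (commutator G) = p * (1 + n * p) := by
    intro hlt hne
    have he1 : (Subgroup.zpowers x).relIndex (Subgroup.normalizer (Subgroup.zpowers x : Set G)) ≠ 1 := fun h1 =>
      hlt.ne (key1.mpr h1)
    rw [hd2, hd1] at hne
    obtain ⟨hD, hcO, hcG⟩ := h.derived_facts hp he1 hne
    rw [hd2, hD, hcO, hcG, hidx]
    exact ⟨rfl, rfl⟩
  refine ⟨⟨?_, ?_⟩, partII, partIII⟩
  · rintro ⟨S, hSn, hScard⟩
    by_cases heq : t = p - 1
    · exact Or.inl heq
    · right
      have hlt : t < p - 1 := lt_of_le_of_ne ht_le heq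
      refine ⟨hlt, ?_⟩
      have he1 : (Subgroup.zpowers x).relIndex (Subgroup.normalizer (Subgroup.zpowers x : Set G)) ≠ 1 := fun h1 =>
        heq (key1.mpr h1)
      have hS : ¬ p ∣ Nat.card S := by
        rw [hScard]
        intro hdvd
        have : p ∣ 1 := by
          have h2 : p ∣ n * p := Dvd.intro_left n rfl
          exact (Nat.dvd_add_left h2).mp hdvd
        exact hp.one_lt.ne' (Nat.dvd_one.mp this)
      rw [hd2, hd1]
      exact h.derived_ne_of_normal hp he1 S hS (by rw [hScard, hidx])
  · rintro (heq | ⟨hlt, hne⟩)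
    · exact ⟨commutator G, inferInstance, (partII heq).1⟩
    · exact ⟨derivedSeries G 2, inferInstance, (partIII hlt hne).1⟩

end Cfsg.Agent.S4509
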