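import Cfsg.Statements.S4510
import Cfsg.Agent.H81.DefectCount

set_option autoImplicit false
set_option linter.style.haveILetI false
open Cfsg

namespace Cfsg.Agent.S4510

/-- Let G be a finite group, p a prime, M a maximal ideal of the algebraic integers containing p, and call the defect of a conjugacy class the exponent of p in the order of the centralizer of its elements. Two irreducible characters lying in p-blocks of defect exactly d lie in the same block if and only if their central characters (class size times χ(x)/χ(1)) agree modulo the local ideal at M at every p-regular element x whose class has defect exactly d. -/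
theorem result {G : Type*} [Group G] [Finite G] (p : ℕ) [Fact p.Prime] (M : Ideal Cfsg.AlgInt) (hM : Cfsg.IsPModular p M) (d : ℕ) (χ ψ : Cfsg.IrrCharacter G) (hχ : Cfsg.blockDefect p (Cfsg.blockOf M (χ : G → ℂ)) = d) (hψ : Cfsg.blockDefect p (Cfsg.blockOf M (ψ : G → ℂ)) = d) : Cfsg.SameBlock M (χ : G → ℂ) (ψ : G → ℂ) ↔ ∀ x : G, ¬ p ∣ orderOf x → (Nat.card (Subgroup.centralizer ({x} : Set G))).factorization p = d → Cfsg.MemLocalIdeal M (Cfsg.centralChar (χ : G → ℂ) x - Cfsg.centralChar (ψ : G → ℂ) x) := by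
  classical
  haveI : Fintype G := Fintype.ofFinite G
  have hMp : M.IsPrime := Cfsg.Agent.H20.isPrime_of_isPModular hM
  constructor
  · intro h x _ _
    exact h x
  · intro H
    obtain ⟨S, hS⟩ : ∃ S : Finset G, S = Finset.univ.filter (fun x : G => ¬ p ∣ orderOf x ∧
        (Nat.card (Subgroup.centralizer ({x} : Set G))).factorization p = d) := ⟨_, rfl⟩
    have hmemS : ∀ h : G, h ∈ S ↔ (¬ p ∣ orderOf h ∧
        (Nat.card (Subgroup.centralizer ({h} : Set G))).factorization p = d) := by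
      intro h
      rw [hS, Finset.mem_filter]
      simp
    have hSconj : ∀ h ∈ S, ∀ x : G, x * h * x⁻¹ ∈ S := by
      intro h hh x
      rw [hmemS] at hh ⊢
      rw [Cfsg.Agent.H81.orderOf_conj_eq, Cfsg.Agent.H81.card_centralizer_conj]
      exact hh
    have hbad : ∀ (χ₀ ψ' : Cfsg.IrrCharacter G),
        Cfsg.blockDefect p (Cfsg.blockOf M (χ₀ : G → ℂ)) = d →
        Cfsg.blockDefect p (Cfsg.blockOf M (ψ' : G → ℂ)) = d → ∀ h : G, h ∉ S →
        Cfsg.MemLocalIdeal M (Cfsg.blockCoeff (Cfsg.blockOf M (χ₀ : G → ℂ)) h *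
          Cfsg.centralChar (ψ' : G → ℂ) h) := by
      intro χ₀ ψ' h1 h2 h hh
      rw [hmemS] at hh
      by_cases hreg : p ∣ orderOf h
      · exact Cfsg.Agent.H81.blockCoeff_mul_centralChar_mem_of_singular hM χ₀ ψ' h hreg
      · have hne : (Nat.card (Subgroup.centralizer ({h} : Set G))).factorization p ≠ d :=
          fun he => hh ⟨hreg, he⟩
        rcases lt_or_gt_of_ne hne with hlt | hgt
        · exact Cfsg.Agent.H81.blockCoeff_mul_centralChar_mem_of_lt hM χ₀ ψ' h (by rw [h2]; exact hlt)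
        · exact Cfsg.Agent.H81.blockCoeff_mul_centralChar_mem_of_gt hM χ₀ ψ' h (by rw [h1]; exact hgt)
    have key1 := Cfsg.Agent.H81.sum_good_sub_mem hM χ χ S hSconj (hbad χ χ hχ hχ)
    have key2 := Cfsg.Agent.H81.sum_good_sub_mem hM χ ψ S hSconj (hbad χ ψ hχ hψ)
    rw [if_pos (Cfsg.Agent.H80.mem_blockOf_self hMp χ)] at key1
    by_contra hne
    have hψB : ψ ∉ Cfsg.blockOf M (χ : G → ℂ) := hne
    rw [if_neg hψB, sub_zero] at key2
    have hdiff : Cfsg.MemLocalIdeal M (∑ h : G, if h ∈ S then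
        Cfsg.blockCoeff (Cfsg.blockOf M (χ : G → ℂ)) h *
          ((χ : G → ℂ) h / (χ : G → ℂ) 1 - (ψ : G → ℂ) h / (ψ : G → ℂ) 1) else 0) := by
      apply Cfsg.Agent.H20.sum_mem_of_conj_closed (Cfsg.Agent.H20.localIdeal M hMp)
        (fun h => if h ∈ S then Cfsg.blockCoeff (Cfsg.blockOf M (χ : G → ℂ)) h *
          ((χ : G → ℂ) h / (χ : G → ℂ) 1 - (ψ : G → ℂ) h / (ψ : G → ℂ) 1) else 0)
      · intro h x
        have hiff : x * h * x⁻¹ ∈ S ↔ h ∈ S := by
          rw [hmemS, hmemS, Cfsg.Agent.H81.orderOf_conj_eq, Cfsg.Agent.H81.card_centralizer_conj]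
        by_cases hh : h ∈ S
        · rw [if_pos hh, if_pos (hiff.mpr hh), Cfsg.Agent.H20.blockCoeff_conj_invariant,
            Cfsg.Agent.H81.irr_conj, Cfsg.Agent.H81.irr_conj]
        · rw [if_neg hh, if_neg (fun hx => hh (hiff.mp hx))]
      · intro h
        by_cases hh : h ∈ S
        · rw [if_pos hh]
          have hH := H h ((hmemS h).mp hh).1 ((hmemS h).mp hh).2
          have e : ((Subgroup.centralizer ({h} : Set G)).index : ℂ) *
              (Cfsg.blockCoeff (Cfsg.blockOf M (χ : G → ℂ)) h *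
                ((χ : G → ℂ) h / (χ : G → ℂ) 1 - (ψ : G → ℂ) h / (ψ : G → ℂ) 1)) =
              Cfsg.blockCoeff (Cfsg.blockOf M (χ : G → ℂ)) h *
                (Cfsg.centralChar (χ : G → ℂ) h - Cfsg.centralChar (ψ : G → ℂ) h) := by
            unfold Cfsg.centralChar
            ring
          rw [e]
          exact Cfsg.Agent.H20.memLocalIdeal_mul_left hMp
            (Cfsg.Agent.H20.blockCoeff_memLocalRing hMp χ h) hH
        · rw [if_neg hh, mul_zero]
          exact Cfsg.Agent.H20.memLocalIdeal_zero hMp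
      · intro h _ x
        exact Finset.mem_univ _
    have hdiff' : (∑ h : G, if h ∈ S then
        Cfsg.blockCoeff (Cfsg.blockOf M (χ : G → ℂ)) h *
          ((χ : G → ℂ) h / (χ : G → ℂ) 1 - (ψ : G → ℂ) h / (ψ : G → ℂ) 1) else 0) =
        (∑ h ∈ S, Cfsg.blockCoeff (Cfsg.blockOf M (χ : G → ℂ)) h *
          ((χ : G → ℂ) h / (χ : G → ℂ) 1)) -
        ∑ h ∈ S, Cfsg.blockCoeff (Cfsg.blockOf M (χ : G → ℂ)) h *
          ((ψ : G → ℂ) h / (ψ : G → ℂ) 1) := by
      rw [← Finset.sum_sub_distrib, Finset.sum_ite_mem, Finset.univ_inter]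
      apply Finset.sum_congr rfl
      intro h _
      ring
    rw [hdiff'] at hdiff
    have h1 : Cfsg.MemLocalIdeal M (1 : ℂ) := by
      have h2 := Cfsg.Agent.H20.memLocalIdeal_sub hMp
        (Cfsg.Agent.H20.memLocalIdeal_sub hMp hdiff key1) (Cfsg.Agent.H20.memLocalIdeal_neg key2)
      have e : ((∑ h ∈ S, Cfsg.blockCoeff (Cfsg.blockOf M (χ : G → ℂ)) h *
          ((χ : G → ℂ) h / (χ : G → ℂ) 1)) -
        ∑ h ∈ S, Cfsg.blockCoeff (Cfsg.blockOf M (χ : G → ℂ)) h *
          ((ψ : G → ℂ) h / (ψ : G → ℂ) 1)) -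
        ((∑ h ∈ S, Cfsg.blockCoeff (Cfsg.blockOf M (χ : G → ℂ)) h *
          ((χ : G → ℂ) h / (χ : G → ℂ) 1)) - 1) -
        (-∑ h ∈ S, Cfsg.blockCoeff (Cfsg.blockOf M (χ : G → ℂ)) h *
          ((ψ : G → ℂ) h / (ψ : G → ℂ) 1)) = 1 := by ring
      rw [e] at h2
      exact h2
    exact Cfsg.Agent.H20.not_memLocalIdeal_one hMp h1

end Cfsg.Agent.S4510
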