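import Cfsg.Statements.S4513
import Cfsg.Agent.Lib.Defect2.Main

set_option autoImplicit false
open Cfsg

namespace Cfsg.Agent.S4513

/-- Blocks of defect one for p = 2. Let M be a maximal ideal of the algebraic integers containing 2, B a 2-block of the finite group G whose defect group is the subgroup generated by an involution x, C = C_G(x), b a block of C inducing B and θ a member of b taking the same value at x as at 1 (there is exactly one). Then B consists of exactly two irreducible characters, which agree on every element of odd order, and they can be labelled χ₁, χ₂ with signs ε₁, ε₂ = ±1, ε₁ε₂ = −1, such that χᵢ(x y) = εᵢ θ(y) for every element y of C of odd order. -/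
theorem result {G : Type*} [Group G] [Finite G] (M : Ideal Cfsg.AlgInt) (hM : Cfsg.IsPModular 2 M) (x : G) (hx : orderOf x = 2)
    (B : Set (Cfsg.IrrCharacter G)) (hB : Cfsg.IsPBlock M B) (hBD : Cfsg.IsDefectGroup 2 M B (Subgroup.zpowers x))
    (b : Set (Cfsg.IrrCharacter ↥(Subgroup.centralizer ({x} : Set G)))) (hb : Cfsg.IsInducedBlock M (Subgroup.centralizer ({x} : Set G)) b B)
    (θ : Cfsg.IrrCharacter ↥(Subgroup.centralizer ({x} : Set G))) (hθ : θ ∈ b)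
    (hθx : ∀ z : ↥(Subgroup.centralizer ({x} : Set G)), (z : G) = x → (θ : ↥(Subgroup.centralizer ({x} : Set G)) → ℂ) z = (θ : ↥(Subgroup.centralizer ({x} : Set G)) → ℂ) 1) :
    Nat.card B = 2 ∧ (∀ χ ∈ B, ∀ ψ ∈ B, ∀ g : G, ¬ 2 ∣ orderOf g → (χ : G → ℂ) g = (ψ : G → ℂ) g) ∧
      ∃ χ₁ ∈ B, ∃ χ₂ ∈ B, χ₁ ≠ χ₂ ∧ ∃ ε₁ ε₂ : ℤ, (ε₁ = 1 ∨ ε₁ = -1) ∧ (ε₂ = 1 ∨ ε₂ = -1) ∧ ε₁ * ε₂ = -1 ∧
        ∀ y : ↥(Subgroup.centralizer ({x} : Set G)), ¬ 2 ∣ orderOf y →
          (χ₁ : G → ℂ) (x * y) = (ε₁ : ℂ) * (θ : ↥(Subgroup.centralizer ({x} : Set G)) → ℂ) y ∧ (χ₂ : G → ℂ) (x * y) = (ε₂ : ℂ) * (θ : ↥(Subgroup.centralizer ({x} : Set G)) → ℂ) y := by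
  classical
  obtain ⟨χ₁, χ₂, hne, hBeq, hreg, hval⟩ :=
    Cfsg.Agent.Lib.Defect2.defect_two x hM hx B hB hBD b hb θ hθ
      (hθx (Cfsg.Agent.Lib.Defect2.xC x) rfl)
  have h1 : χ₁ ∈ B := by rw [hBeq]; exact Set.mem_insert _ _
  have h2 : χ₂ ∈ B := by rw [hBeq]; exact Set.mem_insert_of_mem _ rfl
  refine ⟨?_, ?_, χ₁, h1, χ₂, h2, hne, 1, -1, Or.inl rfl, Or.inr rfl, by norm_num, ?_⟩
  · rw [hBeq, Nat.card_coe_set_eq, Set.ncard_pair hne]
  · intro χ hχ ψ hψ g hg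
    rw [hBeq] at hχ hψ
    rcases hχ with hχ | hχ <;> rcases hψ with hψ | hψ
    · rw [hχ, hψ]
    · rw [Set.mem_singleton_iff] at hψ; rw [hχ, hψ]; exact hreg g hg
    · rw [Set.mem_singleton_iff] at hχ; rw [hχ, hψ]; exact (hreg g hg).symm
    · rw [Set.mem_singleton_iff] at hχ hψ; rw [hχ, hψ]
  · intro y hy
    obtain ⟨a, b'⟩ := hval y hy
    refine ⟨?_, ?_⟩
    · rw [a]; simp
    · rw [b']; simp

end Cfsg.Agent.S4513
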