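import Cfsg.Statements.S4633
import Cfsg.Agent.H80.IndPair

set_option autoImplicit false
open Cfsg Cfsg.Agent.H80 Cfsg.Agent.H20 Cfsg.Agent.H4

namespace Cfsg.Agent.S4633

/-- Let B be a block of the finite group G relative to a maximal ideal M of the algebraic integers containing the prime p, with a nontrivial cyclic defect group P. Let c be a block of C_G(P) inducing B and T the stabilizer of c in N_G(P) (the elements of N_G(P) conjugating c to itself); T contains C_G(P). Then T/C_G(P) is cyclic of order dividing p − 1, and it acts freely on the non-identity elements of P: an element of T fixing some non-identity element of P under conjugation lies in C_G(P). -/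
theorem result {G : Type*} [Group G] [Finite G] (p : ℕ) [Fact p.Prime] (M : Ideal Cfsg.AlgInt) (hM : Cfsg.IsPModular p M) (B : Set (Cfsg.IrrCharacter G)) (hB : Cfsg.IsPBlock M B) (P : Subgroup G) (hPD : Cfsg.IsDefectGroup p M B P) (hP1 : P ≠ ⊥) (hcyc : IsCyclic P) (c : Set (Cfsg.IrrCharacter (Subgroup.centralizer (P : Set G)))) (hc : Cfsg.IsInducedBlock M (Subgroup.centralizer (P : Set G)) c B) (T : Subgroup G) (hT : ∀ g : G, g ∈ T ↔ (g ∈ Subgroup.normalizer (P : Set G) ∧ Cfsg.StabilizesBlock (Subgroup.centralizer (P : Set G)) c g)) [hn : ((Subgroup.centralizer (P : Set G)).subgroupOf T).Normal] : IsCyclic (T ⧸ (Subgroup.centralizer (P : Set G)).subgroupOf T) ∧ (Subgroup.centralizer (P : Set G)).relIndex T ∣ p - 1 ∧ ∀ g ∈ T, ∀ x ∈ P, x ≠ 1 → g * x * g⁻¹ = x → g ∈ Subgroup.centralizer (P : Set G) := by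
  classical
  haveI : Fintype G := Fintype.ofFinite G
  haveI := hcyc
  have hmax := isMaximal_of_isInducedBlock p hM hPD hc
  have hPp : IsPGroup p P := hmax.1.1.1
  have hPC : P ≤ Subgroup.centralizer (P : Set G) := by
    intro x hx
    rw [Subgroup.mem_centralizer_iff]
    intro q hq
    letI := IsCyclic.commGroup (α := P)
    have hcomm : (⟨q, hq⟩ : P) * ⟨x, hx⟩ = ⟨x, hx⟩ * ⟨q, hq⟩ := mul_comm _ _
    exact congrArg Subtype.val hcomm
  have hcop := not_dvd_relIndex_of_maximal_abelian p hM hmax hPC T hT
  exact cyclic_sub_action p P T hPp (fun t ht => ((hT t).mp ht).1) hcop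

end Cfsg.Agent.S4633
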