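import Cfsg.Statements.S4636

set_option autoImplicit false
open scoped Pointwise
open Cfsg

namespace Cfsg.Agent.S4636

/-- In a finite cyclic subgroup, two subgroups of the same prime order coincide. -/
theorem cyclic_unique_order_p {G : Type*} [Group G] [Finite G] (p : ℕ) (hp : 0 < p)
    (P : Subgroup G) (hcyc : IsCyclic P) (Z₁ Z₂ : Subgroup G) (h₁ : Z₁ ≤ P) (h₂ : Z₂ ≤ P)
    (c₁ : Nat.card Z₁ = p) (c₂ : Nat.card Z₂ = p) : Z₁ = Z₂ := by
  classical
  haveI : Fintype P := Fintype.ofFinite P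
  let S : Set P := {a | a ^ p = 1}
  have hS : S.ncard ≤ p := by
    have := IsCyclic.card_pow_eq_one_le (α := P) hp
    have e : S.ncard = (Finset.univ.filter fun a : P => a ^ p = 1).card := by
      rw [← Set.ncard_coe_finset]
      congr 1
      ext a
      simp [S]
    rw [e]; exact this
  have key : ∀ Z : Subgroup G, Z ≤ P → Nat.card Z = p → ((Z.subgroupOf P : Subgroup P) : Set P) = S := by
    intro Z hZ cZ
    apply Set.eq_of_subset_of_ncard_le
    · intro a ha
      have ha' : (a : G) ∈ Z := ha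
      have h3 : (⟨(a : G), ha'⟩ : Z) ^ p = 1 := by
        rw [← cZ]; exact pow_card_eq_one'
      have h4 : (a : G) ^ p = 1 := by
        have := congrArg (Subtype.val) h3
        simpa using this
      show a ^ p = 1
      ext
      simpa using h4
    · have : ((Z.subgroupOf P : Subgroup P) : Set P).ncard = p := by
        rw [← cZ]
        rw [← Nat.card_coe_set_eq]
        exact Nat.card_congr (Subgroup.subgroupOfEquivOfLe hZ).toEquiv
      rw [this]; exact hS
    · exact Set.toFinite _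
  have e : Z₁.subgroupOf P = Z₂.subgroupOf P := by
    apply SetLike.coe_injective
    rw [key Z₁ h₁ c₁, key Z₂ h₂ c₂]
  have := congrArg (Subgroup.map P.subtype) e
  rwa [Subgroup.map_subgroupOf_eq_of_le h₁, Subgroup.map_subgroupOf_eq_of_le h₂] at this

/-- A nontrivial finite `p`-subgroup contains a subgroup of order `p`. -/
theorem exists_order_p_le {G : Type*} [Group G] [Finite G] (p : ℕ) [Fact p.Prime]
    (Q : Subgroup G) (hQ : IsPGroup p Q) (hQ1 : Q ≠ ⊥) :
    ∃ Z' : Subgroup G, Z' ≤ Q ∧ Nat.card Z' = p := by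
  have hnt : Nontrivial Q := (Subgroup.nontrivial_iff_ne_bot Q).mpr hQ1
  obtain ⟨n, hn⟩ := IsPGroup.iff_card.mp hQ
  have hn0 : n ≠ 0 := by
    rintro rfl
    have : Nat.card Q = 1 := by simpa using hn
    have := (Nat.card_eq_one_iff_unique.mp this).1
    exact not_subsingleton Q this
  have hdvd : p ∣ Nat.card Q := by rw [hn]; exact dvd_pow_self p hn0
  obtain ⟨x, hx⟩ := exists_prime_orderOf_dvd_card' p hdvd
  refine ⟨Subgroup.zpowers (x : G), ?_, ?_⟩
  · rw [Subgroup.zpowers_le]; exact x.2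
  · rw [Nat.card_zpowers, Subgroup.orderOf_coe, hx]

theorem card_conj_smul {G : Type*} [Group G] (x : G) (Z : Subgroup G) :
    Nat.card (MulAut.conj x • Z : Subgroup G) = Nat.card Z :=
  (Nat.card_congr (Subgroup.equivSMul (MulAut.conj x) Z).toEquiv).symm

theorem mem_normalizer_of_conj_smul_eq {G : Type*} [Group G] (x : G) (Z : Subgroup G)
    (h : MulAut.conj x • Z = Z) : x ∈ Subgroup.normalizer (Z : Set G) := by
  rw [Subgroup.mem_normalizer_iff_map_conj_eq]
  rw [Subgroup.pointwise_smul_def] at h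
  exact h

theorem conj_smul_eq_of_mem_normalizer {G : Type*} [Group G] (x : G) (Z : Subgroup G)
    (h : x ∈ Subgroup.normalizer (Z : Set G)) : MulAut.conj x • Z = Z := by
  rw [Subgroup.mem_normalizer_iff_map_conj_eq] at h
  rw [Subgroup.pointwise_smul_def]
  exact h

theorem result {G : Type*} [Group G] [Finite G] (p : ℕ) [Fact p.Prime] (P : Subgroup G) (hP : IsPGroup p P) (hP1 : P ≠ ⊥) (hcyc : IsCyclic P) (Z : Subgroup G) (hZ : Z ≤ P) (hZcard : Nat.card Z = p) : (∀ x : G, x ∉ Subgroup.normalizer (Z : Set G) → P ⊓ MulAut.conj x • P = ⊥) ∧ ∀ Q : Subgroup G, Q ≤ P → Q ≠ ⊥ → Subgroup.normalizer (Q : Set G) ≤ Subgroup.normalizer (Z : Set G) := by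
  have hp : 0 < p := (Fact.out : p.Prime).pos
  constructor
  · intro x hx
    by_contra hne
    obtain ⟨Z', hZ', cZ'⟩ := exists_order_p_le p (P ⊓ MulAut.conj x • P) (hP.to_le inf_le_left) hne
    have e1 : Z' = Z := cyclic_unique_order_p p hp P hcyc Z' Z (hZ'.trans inf_le_left) hZ cZ' hZcard
    have hcyc' : IsCyclic (MulAut.conj x • P : Subgroup G) :=
      isCyclic_of_surjective (Subgroup.equivSMul (MulAut.conj x) P) (Subgroup.equivSMul (MulAut.conj x) P).surjective
    have e2 : Z' = MulAut.conj x • Z :=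
      cyclic_unique_order_p p hp (MulAut.conj x • P) hcyc' Z' (MulAut.conj x • Z) (hZ'.trans inf_le_right)
        (Subgroup.pointwise_smul_le_pointwise_smul_iff.mpr hZ) cZ' (by rw [card_conj_smul, hZcard])
    exact hx (mem_normalizer_of_conj_smul_eq x Z (by rw [← e2, e1]))
  · intro Q hQ hQ1 g hg
    obtain ⟨Z', hZ', cZ'⟩ := exists_order_p_le p Q (hP.to_le hQ) hQ1
    have e1 : Z' = Z := cyclic_unique_order_p p hp P hcyc Z' Z (hZ'.trans hQ) hZ cZ' hZcard
    subst e1
    have hgQ := conj_smul_eq_of_mem_normalizer g Q hg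
    have h3 : MulAut.conj g • Z' ≤ P := by
      calc MulAut.conj g • Z' ≤ MulAut.conj g • Q := Subgroup.pointwise_smul_le_pointwise_smul_iff.mpr hZ'
        _ = Q := hgQ
        _ ≤ P := hQ
    have e2 : MulAut.conj g • Z' = Z' :=
      cyclic_unique_order_p p hp P hcyc _ _ h3 hZ (by rw [card_conj_smul, hZcard]) hZcard
    exact mem_normalizer_of_conj_smul_eq g Z' e2

end Cfsg.Agent.S4636
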