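import Cfsg.Statements.S4637
import Cfsg.Agent.H5.Klein4E

set_option autoImplicit false
open Cfsg

namespace Cfsg.Agent.S4637

/-- Let B be a block of the finite group G relative to a maximal ideal M of the algebraic integers containing 2, with a Klein four defect group P. Let c be a block of C_G(P) inducing B, T the stabilizer of c in N_G(P) and e the index of C_G(P) in T (the inertial index). Then e is 1 or 3, B contains exactly four irreducible characters, and the 2-regular rank of B (its number of irreducible Brauer characters) equals e. -/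
theorem result {G : Type*} [Group G] [Finite G] (M : Ideal Cfsg.AlgInt) (hM : Cfsg.IsPModular 2 M) (B : Set (Cfsg.IrrCharacter G)) (hB : Cfsg.IsPBlock M B) (P : Subgroup G) (hPD : Cfsg.IsDefectGroup 2 M B P) (hV : IsKleinFour P) (c : Set (Cfsg.IrrCharacter (Subgroup.centralizer (P : Set G)))) (hc : Cfsg.IsInducedBlock M (Subgroup.centralizer (P : Set G)) c B) (T : Subgroup G) (hT : ∀ g : G, g ∈ T ↔ (g ∈ Subgroup.normalizer (P : Set G) ∧ Cfsg.StabilizesBlock (Subgroup.centralizer (P : Set G)) c g)) (e : ℕ) (he : (Subgroup.centralizer (P : Set G)).relIndex T = e) : (e = 1 ∨ e = 3) ∧ Nat.card B = 4 ∧ Cfsg.blockRank 2 B = e := by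
  classical
  letI : Fintype G := Fintype.ofFinite G
  haveI : Fact (Nat.Prime 2) := ⟨Nat.prime_two⟩
  haveI := hV
  have hMp := Cfsg.Agent.H20.isPrime_of_isPModular hM
  have hP4 : Nat.card P = 4 := IsKleinFour.card_four
  have hPab := Cfsg.Agent.H5.Klein4.klein_le_centralizer P
  have hmax := Cfsg.Agent.H5.Klein4.isMaximal_of_defect 2 hM B P hPD c hc
  have hodd := Cfsg.Agent.H5.Klein4.relIndex_odd hM B P hPD hPab c hc T hT
  have hTN : T ≤ Subgroup.normalizer (P : Set G) := fun g hg => ((hT g).mp hg).1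
  have hCT : Subgroup.centralizer (P : Set G) ≤ T := fun g hg =>
    (hT g).mpr ⟨Subgroup.centralizer_le_normalizer _ hg,
      Cfsg.Agent.H80.stabilizesBlock_of_mem _ c hg⟩
  have h6 := Cfsg.Agent.H5.Klein4.relIndex_dvd_six P T hCT hTN
  have k4 := Cfsg.Agent.H5.Klein4.card_block_eq_four hM B hB P hPD hP4
  have hT' : ∀ g : G, g ∈ T ↔ Cfsg.Agent.H80.conjPair g ⟨P, c⟩ = ⟨P, c⟩ := fun g => by
    rw [hT g, Cfsg.Agent.H5.Klein4.stab_iff hMp hc.1]
  have key : ∀ n : ℕ, n ≤ 6 → n ∣ 6 → ¬ 2 ∣ n → n = 1 ∨ n = 3 := by decide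
  have he13 : e = 1 ∨ e = 3 := by
    rw [he] at hodd h6
    exact key e (Nat.le_of_dvd (by norm_num) h6) h6 hodd
  refine ⟨he13, k4, ?_⟩
  rcases he13 with h1 | h3
  · rw [h1]
    have hTC : T ≤ Subgroup.centralizer (P : Set G) := Subgroup.relIndex_eq_one.mp (he.trans h1)
    exact Cfsg.Agent.H5.Klein4.blockRank_eq_one hM hmax hP4
      (fun u hu => Cfsg.Agent.H5.Klein4.klein_sq P hu) (fun y hy => hTC ((hT' y).mpr hy))
  · rw [h3]
    have hne : ¬ T ≤ Subgroup.centralizer (P : Set G) := by
      intro h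
      have h1 := Subgroup.relIndex_eq_one.mpr h
      rw [he, h3] at h1
      exact absurd h1 (by norm_num)
    exact Cfsg.Agent.H5.Klein4.blockRank_eq_three hM hmax T hT' hodd hne

end Cfsg.Agent.S4637
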