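import Cfsg.Statements.S4638
import Cfsg.Agent.H5.K4IsoH

set_option autoImplicit false
open Cfsg

namespace Cfsg.Agent.S4638

/-- Let B be a block of the finite group G relative to a maximal ideal M of the algebraic integers containing 2, with a Klein four defect group P, and let c be its Brauer correspondent: the block of N_G(P) with defect group P that induces B. Then there is a perfect isometry from c onto B. -/
theorem result {G : Type*} [Group G] [Finite G] (M : Ideal Cfsg.AlgInt) (hM : Cfsg.IsPModular 2 M) (B : Set (Cfsg.IrrCharacter G)) (hB : Cfsg.IsPBlock M B) (P : Subgroup G) (hPD : Cfsg.IsDefectGroup 2 M B P) (hV : IsKleinFour P) (c : Set (Cfsg.IrrCharacter (Subgroup.normalizer (P : Set G)))) (hcD : Cfsg.IsDefectGroup 2 M c (P.subgroupOf (Subgroup.normalizer (P : Set G)))) (hc : Cfsg.IsInducedBlock M (Subgroup.normalizer (P : Set G)) c B) : ∃ (I : Cfsg.IrrCharacter (Subgroup.normalizer (P : Set G)) → Cfsg.IrrCharacter G) (ε : Cfsg.IrrCharacter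 (Subgroup.normalizer (P : Set G)) → ℤ), Cfsg.IsPerfectIsometry 2 M c B I ε := by
  classical
  letI : Fintype G := Fintype.ofFinite G
  letI : Fintype ↥(Subgroup.normalizer (P : Set G)) := Fintype.ofFinite _
  haveI : Fact (Nat.Prime 2) := ⟨Nat.prime_two⟩
  haveI := hV
  have hP4 : Nat.card P = 4 := IsKleinFour.card_four
  have hPN : P ≤ Subgroup.normalizer (P : Set G) := Subgroup.le_normalizer
  have hP4' : Nat.card (P.subgroupOf (Subgroup.normalizer (P : Set G))) = 4 := by
    rw [← hP4]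
    exact Nat.card_congr (Subgroup.subgroupOfEquivOfLe hPN).toEquiv
  have hkB : Nat.card B = 4 := Cfsg.Agent.H5.Klein4.card_block_eq_four hM B hB P hPD hP4
  have hkc : Nat.card c = 4 := Cfsg.Agent.H5.Klein4.card_block_eq_four hM c hc.1 _ hcD hP4'
  have hdef : ∀ {X : Type _} [Group X] [Fintype X] (A : Set (Cfsg.IrrCharacter X))
      (hA : Cfsg.IsPBlock M A) (Q : Subgroup X) (hQD : Cfsg.IsDefectGroup 2 M A Q)
      (hQ4 : Nat.card Q = 4), Cfsg.blockDefect 2 A = 2 := by
    intro X _ _ A hA Q hQD hQ4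
    obtain ⟨χ₀, rfl⟩ := hA
    have h1 := Cfsg.Agent.H20.card_defectGroup hM χ₀ Q hQD
    rw [hQ4] at h1
    have h2 : (2 : ℕ) ^ 2 = 2 ^ Cfsg.blockDefect 2 (Cfsg.blockOf M (χ₀ : X → ℂ)) := by
      rw [← h1]; norm_num
    exact (Nat.pow_right_injective (le_refl 2) h2).symm
  rcases Cfsg.Agent.H5.Klein4.types_match hM B P hPD (Subgroup.normalizer (P : Set G))
    le_rfl le_rfl c hcD hc with ⟨h1, h2⟩ | ⟨h1, h2⟩
  · exact Cfsg.Agent.H5.Klein4.asm1 hM B c hkB hkc
      (Cfsg.Agent.H5.Klein4.pack1_of_T1 hM B h1) (Cfsg.Agent.H5.Klein4.pack1_of_T1 hM c h2)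
  · exact Cfsg.Agent.H5.Klein4.asm3 hM B c hkB hkc
      (Cfsg.Agent.H5.Klein4.pack3_of_rank hM B hB hkB (hdef B hB P hPD hP4) h1)
      (Cfsg.Agent.H5.Klein4.pack3_of_rank hM c hc.1 hkc (hdef c hc.1 _ hcD hP4') h2)

end Cfsg.Agent.S4638
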