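import Cfsg.Statements.S4672
import Cfsg.Agent.H79.Fong
import Cfsg.Agent.Lib.ItoConv

set_option autoImplicit false
open Cfsg

namespace Cfsg.Agent.S4672

/-- Fix a prime p and a maximal ideal M of the algebraic integers containing p. Let N be a normal subgroup of the finite group G of p-power index and c a p-block of N stable under conjugation by G. Then the idempotent of c is a block idempotent of G: there is a p-block B of G whose idempotent coefficients agree with those of c on N and vanish off N; and for every defect group P of such a block B, G = NP and P ∩ N is a defect group of c. -/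
theorem result {G : Type*} [Group G] [Fintype G] (p : ℕ) [Fact p.Prime] (M : Ideal Cfsg.AlgInt) (hM : Cfsg.IsPModular p M) (N : Subgroup G) [N.Normal] (hN : ∃ k : ℕ, N.index = p ^ k) (c : Set (Cfsg.IrrCharacter N)) (hc : Cfsg.IsPBlock M c) (hst : ∀ x : G, Cfsg.StabilizesBlock N c x) : (∃ B : Set (Cfsg.IrrCharacter G), Cfsg.IsPBlock M B ∧ ∀ g : G, Cfsg.blockCoeff B g = Cfsg.subgroupBlockCoeff N c g) ∧ ∀ B : Set (Cfsg.IrrCharacter G), Cfsg.IsPBlock M B → (∀ g : G, Cfsg.blockCoeff B g = Cfsg.subgroupBlockCoeff N c g) → ∀ P : Subgroup G, Cfsg.IsDefectGroup p M B P → N ⊔ P = ⊤ ∧ Cfsg.IsDefectGroup p M c ((P ⊓ N).subgroupOf N) := by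
  classical
  have : Fintype N := Fintype.ofFinite N
  have hMp := Cfsg.Agent.H20.isPrime_of_isPModular hM
  have hp : p.Prime := Fact.out
  obtain ⟨θ₀, rfl⟩ := hc
  have hsub : ∀ g : G, subgroupBlockCoeff N (blockOf M (θ₀ : N → ℂ)) g
      = extendByZero N (blockCoeff (blockOf M (θ₀ : N → ℂ))) g := by
    intro g
    unfold subgroupBlockCoeff
    by_cases hg : g ∈ N
    · rw [dif_pos hg, Cfsg.Agent.H4.extendByZero_of_mem N _ hg]
    · rw [dif_neg hg, Cfsg.Agent.H4.extendByZero_of_not_mem N _ hg]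
  have hconj : ∀ (x : G) (μ : IrrCharacter N), μ ∈ blockOf M (θ₀ : N → ℂ) →
      Cfsg.Agent.H79.conjIrr N x μ ∈ blockOf M (θ₀ : N → ℂ) := by
    intro x μ hμ
    obtain ⟨-, h2⟩ := hst x⁻¹
    obtain ⟨μ', hμ', hcj⟩ := h2 μ hμ
    have heq : μ' = Cfsg.Agent.H79.conjIrr N x μ := by
      apply Subtype.ext
      funext k'
      rw [Cfsg.Agent.H79.conjIrr_apply]
      exact hcj ⟨x * (k' : G) * x⁻¹, Subgroup.Normal.conj_mem inferInstance (k' : G) k'.2 x⟩ k'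
        (by simp [mul_assoc])
    rw [← heq]
    exact hμ'
  have hbst : ∀ (g : G) (μ : IrrCharacter N),
      Cfsg.Agent.H79.conjIrr N g μ ∈ blockOf M (θ₀ : N → ℂ) ↔ μ ∈ blockOf M (θ₀ : N → ℂ) := by
    intro g μ
    constructor
    · intro h
      have h1 := hconj g⁻¹ _ h
      rwa [Cfsg.Agent.H79.conjIrr_conjIrr, mul_inv_cancel, Cfsg.Agent.H79.conjIrr_one] at h1
    · exact hconj g μ
  obtain ⟨χf, hχirr, hχover⟩ := Cfsg.Agent.ItoConv.exists_irr_over N θ₀.2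
  obtain ⟨χ₁, hχ₁def⟩ : ∃ χ : IrrCharacter G, χ = ⟨χf, hχirr⟩ := ⟨_, rfl⟩
  have hover₁ : classInner (fun n : N => (χ₁ : G → ℂ) n) (θ₀ : N → ℂ) ≠ 0 := by
    rw [hχ₁def]; exact hχover
  have hBC : blockOf M (χ₁ : G → ℂ) = {χ : IrrCharacter G |
      ∃ μ ∈ blockOf M (θ₀ : N → ℂ), classInner (fun n : N => χ.1 n) μ.1 ≠ 0} := by
    ext χ
    constructor
    · intro hχ
      exact Cfsg.Agent.H79.over_closed N hMp θ₀ hbst χ₁
        ⟨θ₀, Cfsg.Agent.H80.mem_blockOf_self hMp θ₀, hover₁⟩ χ hχ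
    · rintro ⟨μ, hμ, hcon⟩
      exact Cfsg.Agent.H79.sameBlock_of_over_sameBlock_of_index_pow N hM hN χ₁ χ θ₀ μ
        hover₁ hcon hμ
  have hcoeff₁ : ∀ g, blockCoeff (blockOf M (χ₁ : G → ℂ)) g
      = subgroupBlockCoeff N (blockOf M (θ₀ : N → ℂ)) g := by
    intro g
    rw [hsub, hBC]
    exact Cfsg.Agent.H79.blockCoeff_over_eq N _ hbst g
  refine ⟨⟨_, ⟨χ₁, rfl⟩, hcoeff₁⟩, ?_⟩
  rintro B ⟨χ₂, rfl⟩ hcoeff P hP
  have hχ₂ : χ₂ ∈ blockOf M (χ₁ : G → ℂ) := by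
    by_contra hnot
    have h1 := Cfsg.Agent.H79.sum_blockCoeff_mul_irr (blockOf M (χ₁ : G → ℂ)) χ₂
    rw [if_neg hnot] at h1
    have h2 := Cfsg.Agent.H79.sum_blockCoeff_mul_irr (blockOf M (χ₂ : G → ℂ)) χ₂
    rw [if_pos (Cfsg.Agent.H80.mem_blockOf_self hMp χ₂)] at h2
    have h3 : ∑ g, blockCoeff (blockOf M (χ₁ : G → ℂ)) g * (χ₂ : G → ℂ) g
        = ∑ g, blockCoeff (blockOf M (χ₂ : G → ℂ)) g * (χ₂ : G → ℂ) g := by
      apply Finset.sum_congr rfl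
      intro g _
      rw [hcoeff₁, hcoeff]
    rw [h1, h2] at h3
    exact Cfsg.Agent.H4.irr_one_ne_zero χ₂ h3.symm
  have hcov₂ : ∃ μ ∈ blockOf M (θ₀ : N → ℂ),
      classInner (fun n : N => (χ₂ : G → ℂ) n) (μ : N → ℂ) ≠ 0 := by
    have h1 : χ₂ ∈ {χ : IrrCharacter G |
        ∃ μ ∈ blockOf M (θ₀ : N → ℂ), classInner (fun n : N => χ.1 n) μ.1 ≠ 0} := by
      rw [← hBC]; exact hχ₂
    exact h1
  have hmax : ∀ χ' : IrrCharacter G,
      (∃ μ ∈ blockOf M (θ₀ : N → ℂ), classInner (fun n : N => (χ' : G → ℂ) n) (μ : N → ℂ) ≠ 0) →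
      blockDefect p (blockOf M (χ' : G → ℂ)) ≤ blockDefect p (blockOf M (χ₂ : G → ℂ)) := by
    intro χ' hχ'
    have h1 : χ' ∈ blockOf M (χ₁ : G → ℂ) := by
      rw [hBC]; exact hχ'
    rw [Cfsg.Agent.H80.blockOf_eq_of_mem hMp h1, Cfsg.Agent.H80.blockOf_eq_of_mem hMp hχ₂]
  obtain ⟨h1, h2, -⟩ := Cfsg.Agent.H79.fong N hM θ₀ hbst χ₂ hcov₂ hmax P hP
  refine ⟨?_, h2⟩
  obtain ⟨k, hk⟩ := hN
  have h3 : (P ⊔ N).index ∣ p ^ k := by
    rw [← hk]
    exact Subgroup.index_dvd_of_le le_sup_right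
  obtain ⟨j, -, hj⟩ := (Nat.dvd_prime_pow hp).mp h3
  have hj0 : j = 0 := by
    by_contra hne
    apply h1
    rw [hj]
    exact dvd_pow_self p hne
  rw [hj0, pow_zero, Subgroup.index_eq_one] at hj
  rw [sup_comm]
  exact hj

end Cfsg.Agent.S4672
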