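import Cfsg.Statements.S4640
import Cfsg.Agent.S4672
import Cfsg.Agent.H80.AbelIndex

set_option autoImplicit false
open Cfsg Cfsg.Agent.H80 Cfsg.Agent.H20 Cfsg.Agent.H4

namespace Cfsg.Agent.S4640

/-- Let N be a normal subgroup of the finite group G of index a power of the prime p, M a maximal ideal of the algebraic integers containing p, b a block of N stabilized by every element of G, and B a block of G covering b (some member of B has a member of b as a constituent of its restriction to N). Suppose that B has a commutative defect group P. Then G = NP and P ∩ N is a defect group of b; every member of B restricts to a member of b; every member of b is the restriction of exactly [G : N] members of B; B contains exactly [G : N] times as many irreducible characters as b; and B and b have the same p-regular rank. -/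
theorem result {G : Type*} [Group G] [Fintype G] (p : ℕ) [Fact p.Prime] (M : Ideal Cfsg.AlgInt) (hM : Cfsg.IsPModular p M) (N : Subgroup G) [N.Normal] [Fintype N] (hNi : ∃ k : ℕ, N.index = p ^ k) (b : Set (Cfsg.IrrCharacter N)) (hb : Cfsg.IsPBlock M b) (hstab : ∀ g : G, Cfsg.StabilizesBlock N b g) (B : Set (Cfsg.IrrCharacter G)) (hB : Cfsg.IsPBlock M B) (hcov : ∃ χ ∈ B, ∃ θ ∈ b, Cfsg.classInner (fun n : N => (χ : G → ℂ) n) (θ : N → ℂ) ≠ 0) (P : Subgroup G) (hPD : Cfsg.IsDefectGroup p M B P) (hPab : ∀ x ∈ P, ∀ y ∈ P, x * y = y * x) : N ⊔ P = ⊤ ∧ Cfsg.IsDefectGroup p M b ((P ⊓ N).subgroupOf N) ∧ (∀ χ ∈ B, ∃ θ ∈ b, ∀ n : N, (χ : G → ℂ) n = (θ : N → ℂ) n) ∧ (∀ θ ∈ b, Nat.card {χ : Cfsg.IrrCharacter G // χ ∈ B ∧ ∀ n : N, (χ : G → ℂ) n = (θ : N → ℂ) n} = N.index) ∧ Nat.card B = N.index * Nat.card b ∧ Cfsg.blockRank p B = Cfsg.blockRank p b := by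
  classical
  have hMp := isPrime_of_isPModular hM
  have hp : p.Prime := Fact.out
  obtain ⟨θ₀, rfl⟩ := hb
  have hsub : ∀ g : G, subgroupBlockCoeff N (blockOf M (θ₀ : N → ℂ)) g
      = extendByZero N (blockCoeff (blockOf M (θ₀ : N → ℂ))) g := by
    intro g
    unfold subgroupBlockCoeff
    by_cases hg : g ∈ N
    · rw [dif_pos hg, Cfsg.Agent.H4.extendByZero_of_mem N _ hg]
    · rw [dif_neg hg, Cfsg.Agent.H4.extendByZero_of_not_mem N _ hg]
  have hconj : ∀ (x : G) (μ : IrrCharacter N), μ ∈ blockOf M (θ₀ : N → ℂ) →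
      Cfsg.Agent.H79.conjIrr N x μ ∈ blockOf M (θ₀ : N → ℂ) := by
    intro x μ hμ
    obtain ⟨-, h2⟩ := hstab x⁻¹
    obtain ⟨μ', hμ', hcj⟩ := h2 μ hμ
    have heq : μ' = Cfsg.Agent.H79.conjIrr N x μ := by
      apply Subtype.ext
      funext k'
      rw [Cfsg.Agent.H79.conjIrr_apply]
      exact hcj ⟨x * (k' : G) * x⁻¹, Subgroup.Normal.conj_mem inferInstance (k' : G) k'.2 x⟩ k'
        (by simp [mul_assoc])
    rw [← heq]
    exact hμ'
  have hbst : ∀ (g : G) (μ : IrrCharacter N),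
      Cfsg.Agent.H79.conjIrr N g μ ∈ blockOf M (θ₀ : N → ℂ) ↔ μ ∈ blockOf M (θ₀ : N → ℂ) := by
    intro g μ
    constructor
    · intro h
      have h1 := hconj g⁻¹ _ h
      rwa [Cfsg.Agent.H79.conjIrr_conjIrr, mul_inv_cancel, Cfsg.Agent.H79.conjIrr_one] at h1
    · exact hconj g μ
  obtain ⟨χ₁, hχ₁B, θ, hθ, hover₁⟩ := hcov
  obtain ⟨χ₀, rfl⟩ := hB
  have hBeq : blockOf M (χ₀ : G → ℂ) = blockOf M (χ₁ : G → ℂ) :=
    (blockOf_eq_of_mem hMp hχ₁B).symm
  have hBC : blockOf M (χ₀ : G → ℂ) = {χ : IrrCharacter G |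
      ∃ μ ∈ blockOf M (θ₀ : N → ℂ), classInner (fun n : N => χ.1 n) μ.1 ≠ 0} := by
    rw [hBeq]
    ext χ
    constructor
    · intro hχ
      exact Cfsg.Agent.H79.over_closed N hMp θ₀ hbst χ₁ ⟨θ, hθ, hover₁⟩ χ hχ
    · rintro ⟨μ, hμ, hcon⟩
      exact Cfsg.Agent.H79.sameBlock_of_over_sameBlock_of_index_pow N hM hNi χ₁ χ θ μ
        hover₁ hcon (sameBlock_trans hMp (sameBlock_symm hθ) hμ)
  have hcoeff : ∀ g, blockCoeff (blockOf M (χ₀ : G → ℂ)) g
      = subgroupBlockCoeff N (blockOf M (θ₀ : N → ℂ)) g := by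
    intro g
    rw [hsub, hBC]
    exact Cfsg.Agent.H79.blockCoeff_over_eq N _ hbst g
  obtain ⟨h1, h2⟩ := (Cfsg.Agent.S4672.result p M hM N hNi (blockOf M (θ₀ : N → ℂ)) ⟨θ₀, rfl⟩
    hstab).2 (blockOf M (χ₀ : G → ℂ)) ⟨χ₀, rfl⟩ hcoeff P hPD
  obtain ⟨h3, h4⟩ := restrict_of_abelian_defect N hM θ₀ χ₀ hBC hcoeff P hPD hPab h1
  have hsing : ∀ g : G, g ∉ N → p ∣ orderOf g := by
    intro g hg
    obtain ⟨k, hk⟩ := hNi
    have hq : (QuotientGroup.mk g : G ⧸ N) ≠ 1 := fun h => hg ((QuotientGroup.eq_one_iff g).mp h)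
    have h1 : orderOf (QuotientGroup.mk g : G ⧸ N) ∣ p ^ k := by
      rw [← hk, Subgroup.index_eq_card]
      exact orderOf_dvd_natCard _
    obtain ⟨j, -, hj'⟩ := (Nat.dvd_prime_pow hp).mp h1
    have hj0 : j ≠ 0 := by
      rintro rfl
      rw [pow_zero, orderOf_eq_one_iff] at hj'
      exact hq hj'
    have h2 : p ∣ orderOf (QuotientGroup.mk g : G ⧸ N) := by
      rw [hj']; exact dvd_pow_self p hj0
    exact h2.trans (orderOf_map_dvd (QuotientGroup.mk' N) g)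
  have h4' : ∀ θ ∈ blockOf M (θ₀ : N → ℂ), ∃ χ ∈ blockOf M (χ₀ : G → ℂ),
      ∀ n : N, (χ : G → ℂ) n = (θ : N → ℂ) n := by
    intro θ' hθ'
    have hpos : 0 < Nat.card {χ : IrrCharacter G //
        χ ∈ blockOf M (χ₀ : G → ℂ) ∧ ∀ n : N, (χ : G → ℂ) n = (θ' : N → ℂ) n} := by
      rw [h4 θ' hθ']
      exact Nat.pos_of_ne_zero Subgroup.index_ne_zero_of_finite
    obtain ⟨⟨χ, hχ, hres⟩⟩ := (Nat.card_pos_iff.mp hpos).1
    exact ⟨χ, hχ, hres⟩
  refine ⟨h1, h2, h3, h4, ?_, ?_⟩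
  · exact card_eq_mul_of_fibres N _ _ N.index h3 h4
  · exact blockRank_eq_of_restrict p N hsing _ _ h3 h4'

end Cfsg.Agent.S4640
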