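import Cfsg.Statements.S4642
import Cfsg.Agent.H79.FongPrincipal
import Cfsg.Agent.H81.QuotDefect
import Cfsg.Agent.S0906

set_option autoImplicit false
open Cfsg

namespace Cfsg.Agent.S4642

/-- Let G be a finite group, p a prime, M a maximal ideal of the algebraic integers containing p, K the largest normal subgroup of G of order prime to p, and L the preimage in G of the largest normal p-subgroup of G/K. Let Q be a Sylow p-subgroup of L and suppose C_G(Q) ≤ L. Let θ be an irreducible character of K invariant under conjugation by every element of G, and let B be the set of irreducible characters of G whose restriction to K contains θ. Then B is a block of G, every Sylow p-subgroup of G is a defect group of B, and B is of principal type: for every p-subgroup R of G exactly one block of C_G(R) induces B. -/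
theorem result {G : Type*} [Group G] [Fintype G] (p : ℕ) [Fact p.Prime] (M : Ideal Cfsg.AlgInt) (hM : Cfsg.IsPModular p M) (K : Subgroup G) (hK : K = Cfsg.pPrimeCore p G) [Fintype K] (L : Subgroup G) (hL : L = Cfsg.pPrimePCore p G) (Q : Subgroup G) (hQL : Q ≤ L) (hQp : IsPGroup p Q) (hQS : ¬ p ∣ Q.relIndex L) (hCQ : Subgroup.centralizer (Q : Set G) ≤ L) (θ : Cfsg.IrrCharacter K) (hθ : ∀ g : G, Cfsg.IsConjCharOf K g (θ : K → ℂ) (θ : K → ℂ)) (B : Set (Cfsg.IrrCharacter G)) (hBdef : ∀ χ : Cfsg.IrrCharacter G, χ ∈ B ↔ Cfsg.classInner (fun k : K => (χ : G → ℂ) k) (θ : K → ℂ) ≠ 0) : Cfsg.IsPBlock M B ∧ (∀ S : Sylow p G, Cfsg.IsDefectGroup p M B S) ∧ ∀ R : Subgroup G, IsPGroup p R → ∃! f : Set (Cfsg.IrrCharacter (Subgroup.centralizer (R : Set G))), Cfsg.IsInducedBlock M (Subgroup.centralizer (R : Set G)) f B := by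
  classical
  have hp : p.Prime := Fact.out
  have hMp := Cfsg.Agent.H20.isPrime_of_isPModular hM
  have hKn : K.Normal := by
    rw [hK]; exact Cfsg.Agent.H14.pPrimeCore_normal p G
  have hLn : L.Normal := by
    rw [hL]; exact Cfsg.Agent.H39.pPrimePCore_normal' p
  have hcon : Cfsg.IsPConstrained p G :=
    Cfsg.Agent.H79.isPConstrained_of_sylow_centralizer L hL Q hQL hQp hQS hCQ
  have hKL : K ≤ L := by
    rw [hK, hL]; exact Cfsg.Agent.H39.pPrimeCore_le_pPrimePCore p
  have hKp : ¬ p ∣ Nat.card K := by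
    rw [hK]
    exact (Nat.Prime.coprime_iff_not_dvd hp).mp (Cfsg.Agent.H14.pPrimeCore_coprime p G).symm
  have hidx : ∃ a : ℕ, K.relIndex L = p ^ a := by
    rw [hK, hL]; exact Cfsg.Agent.H39.relIndex_pPrimeCore p
  have hcon' : ∀ S : Sylow p L,
      Subgroup.centralizer (((S : Subgroup L).map L.subtype : Subgroup G) : Set G) ≤ L := by
    rw [hL]; exact hcon
  have hinv' : ∀ g : G, Cfsg.Agent.H79.conjIrr K g θ = θ := by
    intro g
    apply Subtype.ext
    funext n
    exact hθ g n ⟨g * n * g⁻¹, hKn.conj_mem n n.2 g⟩ rfl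
  obtain ⟨χ₁, hiff, hdef⟩ := Cfsg.Agent.H79.fong_block hM K L hKL hKp hidx hcon' θ hinv'
  have hBeq : B = Cfsg.blockOf M χ₁.1 := by
    ext χ
    rw [hBdef χ, hiff χ]
  rw [hBeq]
  refine ⟨⟨χ₁, rfl⟩, ?_, ?_⟩
  · -- a defect group
    obtain ⟨y, hy⟩ := Cfsg.Agent.S0906.result p M hM (Cfsg.blockOf M χ₁.1) ⟨χ₁, rfl⟩
    obtain ⟨S⟩ := (inferInstance : Nonempty (Sylow p (Subgroup.centralizer ({y} : Set G))))
    obtain ⟨D₀, hD₀def⟩ : ∃ D₀ : Subgroup G,
        D₀ = (S : Subgroup (Subgroup.centralizer ({y} : Set G))).map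
          (Subgroup.centralizer ({y} : Set G)).subtype := ⟨_, rfl⟩
    have hD₀ : Cfsg.IsDefectGroup p M (Cfsg.blockOf M χ₁.1) D₀ := ⟨y, hy, S, hD₀def⟩
    have hcard : Nat.card D₀ = p ^ (Nat.card G).factorization p := by
      rw [Cfsg.Agent.H20.card_defectGroup hM χ₁ D₀ hD₀, hdef]
    intro P
    obtain ⟨g, hg⟩ := MulAction.exists_smul_eq G (Sylow.ofCard D₀ hcard) P
    have hPeq : (P : Subgroup G) = D₀.map (MulAut.conj g).toMonoidHom := by
      rw [← hg, Sylow.coe_subgroup_smul, Sylow.coe_ofCard]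
      rfl
    rw [hPeq]
    exact Cfsg.Agent.H81.isDefectGroup_map_conj hD₀ g
  · intro R hR
    exact Cfsg.Agent.H79.fong_principal hM hcon K hK θ hinv' χ₁ hiff R hR _ rfl

end Cfsg.Agent.S4642
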