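import Cfsg.Statements.S4650
import Cfsg.Agent.H80.AbelFree

set_option autoImplicit false
open Cfsg Cfsg.Agent.H80 Cfsg.Agent.H20 Cfsg.Agent.H4

namespace Cfsg.Agent.S4650

/-- Let B be a block of the finite group G relative to a maximal ideal M of the algebraic integers containing the prime p, with a nontrivial commutative defect group P; let c be a block of C_G(P) inducing B and T the stabilizer of c in N_G(P). Then T/C_G(P) acts freely on the non-identity elements of P (an element of T fixing a non-identity element of P under conjugation lies in C_G(P)) if and only if, for every nontrivial subgroup Q of P, the block of C_G(Q) induced by c inside C_G(Q) is a nilpotent block of C_G(Q). -/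
theorem result {G : Type*} [Group G] [Finite G] (p : ℕ) [Fact p.Prime] (M : Ideal Cfsg.AlgInt) (hM : Cfsg.IsPModular p M) (B : Set (Cfsg.IrrCharacter G)) (hB : Cfsg.IsPBlock M B) (P : Subgroup G) (hPD : Cfsg.IsDefectGroup p M B P) (hPab : ∀ x ∈ P, ∀ y ∈ P, x * y = y * x) (hP1 : P ≠ ⊥) (c : Set (Cfsg.IrrCharacter (Subgroup.centralizer (P : Set G)))) (hc : Cfsg.IsInducedBlock M (Subgroup.centralizer (P : Set G)) c B) (T : Subgroup G) (hT : ∀ g : G, g ∈ T ↔ (g ∈ Subgroup.normalizer (P : Set G) ∧ Cfsg.StabilizesBlock (Subgroup.centralizer (P : Set G)) c g)) : (∀ g ∈ T, ∀ x ∈ P, x ≠ 1 → g * x * g⁻¹ = x → g ∈ Subgroup.centralizer (P : Set G)) ↔ ∀ Q : Subgroup G, Q ≤ P → Q ≠ ⊥ → ∀ f : Set (Cfsg.IrrCharacter (Subgroup.centralizer (Q : Set G))), Cfsg.IsInducedBlockIn M (Subgroup.centralizer (Q : Set G)) (Subgroup.centralizer (P : Set G)) c f → Cfsg.IsNilpotentBlock p M f := by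
  classical
  haveI : Fintype G := Fintype.ofFinite G
  have hmax := isMaximal_of_isInducedBlock p hM hPD hc
  have hPp : IsPGroup p P := hmax.1.1.1
  constructor
  · intro hfree Q hQP hQ1 f hf
    rw [nilpotent_iff_of_induced_in p hM hmax hPab T hT Q hQP f hf]
    intro x hxQ hxT
    obtain ⟨q, hq1⟩ := (Subgroup.ne_bot_iff_exists_ne_one.mp hQ1)
    have hqQ : (q : G) ∈ Q := q.2
    have hcomm := Subgroup.mem_centralizer_iff.mp hxQ (q : G) hqQ
    refine hfree x hxT (q : G) (hQP hqQ) (fun h => hq1 (Subtype.ext h)) ?_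
    rw [← hcomm, mul_inv_cancel_right]
  · intro hnil g hgT x hxP hx1 hfix
    have hQP : Subgroup.zpowers x ≤ P := (Subgroup.zpowers_le).mpr hxP
    have hQ1 : Subgroup.zpowers x ≠ ⊥ := by
      rw [Ne, Subgroup.zpowers_eq_bot]; exact hx1
    have hgQ : g ∈ Subgroup.centralizer ((Subgroup.zpowers x : Subgroup G) : Set G) := by
      rw [Subgroup.mem_centralizer_iff]
      intro y hy
      obtain ⟨n, rfl⟩ := Subgroup.mem_zpowers_iff.mp hy
      have hc1 : Commute g x := by
        show g * x = x * g
        calc g * x = (g * x * g⁻¹) * g := by group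
          _ = x * g := by rw [hfix]
      exact ((hc1.zpow_right n).eq).symm
    obtain ⟨f, hf⟩ := exists_isInducedBlockIn p hM hPp hPab hc.1 (Subgroup.zpowers x) hQP
    exact ((nilpotent_iff_of_induced_in p hM hmax hPab T hT _ hQP f hf).mp
      (hnil _ hQP hQ1 f hf)) g hgQ hgT

end Cfsg.Agent.S4650
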