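import Cfsg.Statements.S4645
import Cfsg.Agent.H80.CycLocal
import Cfsg.Agent.S4682
import Cfsg.Agent.S4633
import Cfsg.Agent.S4650
import Cfsg.Agent.S4687

set_option autoImplicit false
open Cfsg Cfsg.Agent.H80 Cfsg.Agent.H20 Cfsg.Agent.H4

namespace Cfsg.Agent.S4645

/-- Let B be a block of the finite group G relative to a maximal ideal M of the algebraic integers containing the prime p, with a nontrivial cyclic defect group P; let c be a block of C_G(P) inducing B and T the stabilizer of c in N_G(P). Let Q be a nontrivial subgroup of P (so C_G(P) ≤ C_G(Q)), f the block of C_G(Q) induced by c inside C_G(Q), and T' the stabilizer of f in N_G(Q). Then T' = T·C_G(Q), the index of C_G(Q) in T' equals the index of C_G(P) in T, f has p-regular rank 1, and f is a nilpotent block of C_G(Q). -/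
theorem result {G : Type*} [Group G] [Finite G] (p : ℕ) [Fact p.Prime] (M : Ideal Cfsg.AlgInt) (hM : Cfsg.IsPModular p M) (B : Set (Cfsg.IrrCharacter G)) (hB : Cfsg.IsPBlock M B) (P : Subgroup G) (hPD : Cfsg.IsDefectGroup p M B P) (hP1 : P ≠ ⊥) (hcyc : IsCyclic P) (c : Set (Cfsg.IrrCharacter (Subgroup.centralizer (P : Set G)))) (hc : Cfsg.IsInducedBlock M (Subgroup.centralizer (P : Set G)) c B) (T : Subgroup G) (hT : ∀ g : G, g ∈ T ↔ (g ∈ Subgroup.normalizer (P : Set G) ∧ Cfsg.StabilizesBlock (Subgroup.centralizer (P : Set G)) c g)) (Q : Subgroup G) (hQP : Q ≤ P) (hQ1 : Q ≠ ⊥) (f : Set (Cfsg.IrrCharacter (Subgroup.centralizer (Q : Set G)))) (hf : Cfsg.IsInducedBlockIn M (Subgroup.centralizer (Q : Set G)) (Subgroup.centralizer (P : Set G)) c f) (T' : Subgroup G) (hT' : ∀ g : G, g ∈ T' ↔ (g ∈ Subgroup.normalizer (Q : Set G) ∧ Cfsg.StabilizesBlock (Subgroup.centralizer (Q : Set G)) f g)) : T' = T ⊔ Subgroup.centralizer (Q : Set G) ∧ (Subgroup.centralizer (Q : Set G)).relIndex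 T' = (Subgroup.centralizer (P : Set G)).relIndex T ∧ Cfsg.blockRank p f = 1 ∧ Cfsg.IsNilpotentBlock p M f := by
  classical
  haveI : Fintype G := Fintype.ofFinite G
  haveI : Fintype ↥(Subgroup.centralizer (Q : Set G)) := Fintype.ofFinite _
  have hMp := isPrime_of_isPModular hM
  have hmax := isMaximal_of_isInducedBlock p hM hPD hc
  have hPab := comm_of_isCyclic P hcyc
  have hPe := hmax.1.1
  have hCT : Subgroup.centralizer (P : Set G) ≤ T := fun x hx =>
    (hT x).mpr ⟨Subgroup.centralizer_le_normalizer _ hx, stabilizesBlock_of_mem _ _ hx⟩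
  have hTN : T ≤ Subgroup.normalizer ((Subgroup.centralizer (P : Set G) : Subgroup G) : Set G) :=
    fun y hy => normalizer_le_normalizer_centralizer P ((hT y).mp hy).1
  haveI hn : ((Subgroup.centralizer (P : Set G)).subgroupOf T).Normal :=
    (Subgroup.normal_subgroupOf_iff_le_normalizer hCT).mpr hTN
  have hfree := (Cfsg.Agent.S4633.result p M hM B hB P hPD hP1 hcyc c hc T hT).2.2
  have hnil : IsNilpotentBlock p M f :=
    (Cfsg.Agent.S4650.result p M hM B hB P hPD hPab hP1 c hc T hT).mp hfree Q hQP hQ1 f hf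
  obtain ⟨hle, a, ha1, hmaxH⟩ := induced_in_data p hM hmax hPab Q hQP f hf
  have hPH : P ≤ Subgroup.centralizer (Q : Set G) := by
    intro x hx
    rw [Subgroup.mem_centralizer_iff]
    intro q hq
    exact hPab q (hQP hq) x hx
  -- the rank of `f`
  have hcycH : IsCyclic a.1 := by
    rw [ha1]
    exact (Subgroup.subgroupOfEquivOfLe hPH).isCyclic.mpr hcyc
  have hneH : a.1 ≠ ⊥ := by
    rw [ha1]
    intro h0
    rw [Subgroup.subgroupOf_eq_bot] at h0
    exact hP1 (h0.eq_bot_of_le hPH)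
  have habH : ∀ x ∈ a.1, ∀ y ∈ a.1, x * y = y * x := comm_of_isCyclic a.1 hcycH
  have hstabH := (Cfsg.Agent.S4687.result p M hM f a.1 a.2 hmaxH habH).mp hnil
  have hrank : blockRank p f = 1 :=
    blockRank_eq_one_of_cyclic hM hmaxH hcycH hneH hstabH
  -- the stabilizers
  have h82 := Cfsg.Agent.S4682.result p M hM B P c hmax hPab Q f hQP hf.2.1 hle T' hT' T hT
  have hNN : Subgroup.normalizer (P : Set G) ≤ Subgroup.normalizer (Q : Set G) :=
    normalizer_le_normalizer_of_isCyclic hcyc hQP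
  have hCQT' : Subgroup.centralizer (Q : Set G) ≤ T' := fun x hx =>
    (hT' x).mpr ⟨Subgroup.centralizer_le_normalizer _ hx, stabilizesBlock_of_mem _ _ hx⟩
  have hTT' : T ≤ T' := by
    intro y hy
    obtain ⟨hyNP, hyst⟩ := (hT y).mp hy
    have hyN := hNN hyNP
    refine (hT' y).mpr ⟨hyN, ?_⟩
    have h1 := subpairLE_conj p y hle
    rw [conjPair_eq_of_stab hMp hPe.2 hyNP hyst, conjPair_of_mem_normalizer Q hyN f] at h1
    have h2 := subpairLE_unique hM _ P c rfl hPe Q _ f h1 hle
    have hyC := normalizer_le_normalizer_centralizer Q hyN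
    rw [stabilizesBlock_iff hMp _ hf.2.1]
    exact ⟨hyC, by rw [← conjAut'_eq _ hyC]; exact h2⟩
  have hT'eq : T' = T ⊔ Subgroup.centralizer (Q : Set G) := by
    apply le_antisymm
    · intro x hx
      obtain ⟨y, hy, z, hz, rfl⟩ := h82.1 x hx
      exact mul_mem ((le_sup_left : T ≤ T ⊔ Subgroup.centralizer (Q : Set G)) hy)
        ((le_sup_right : Subgroup.centralizer (Q : Set G) ≤ T ⊔ Subgroup.centralizer (Q : Set G)) hz)
    · exact sup_le hTT' hCQT'
  have hinf1 : T ⊓ Subgroup.normalizer (Q : Set G) = T :=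
    inf_eq_left.mpr (fun y hy => hNN ((hT y).mp hy).1)
  have hinf2 : T ⊓ Subgroup.centralizer (Q : Set G) = Subgroup.centralizer (P : Set G) := by
    apply le_antisymm
    · intro x hx
      obtain ⟨hxT, hxQ⟩ := Subgroup.mem_inf.mp hx
      obtain ⟨q, hq1⟩ := (Subgroup.ne_bot_iff_exists_ne_one.mp hQ1)
      have hqQ : (q : G) ∈ Q := q.2
      have hcomm := Subgroup.mem_centralizer_iff.mp hxQ (q : G) hqQ
      refine hfree x hxT (q : G) (hQP hqQ) (fun h => hq1 (Subtype.ext h)) ?_
      rw [← hcomm, mul_inv_cancel_right]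
    · exact le_inf hCT (Subgroup.centralizer_le hQP)
  refine ⟨hT'eq, ?_, hrank, hnil⟩
  have h2 := h82.2
  rw [hinf1, hinf2] at h2
  exact h2

end Cfsg.Agent.S4645
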