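import Cfsg.Statements.S4651
import Cfsg.Agent.H80.KRChain
import Cfsg.Agent.H80.KRTrans

set_option autoImplicit false
open Cfsg Cfsg.Agent.H80 Cfsg.Agent.H20 Cfsg.Agent.H4

namespace Cfsg.Agent.S4651

/-- An alternating-sum identity over chains of p-subgroups (the character-count form behind the chain reformulation of Alperin's weight conjecture, which holds unconditionally for the difference k − l). Let b be a block of the finite group G relative to a maximal ideal M of the algebraic integers containing the prime p. Consider the nonempty chains s = {Q_0 < Q_1 < ⋯ < Q_m} of nontrivial p-subgroups of G in which every member is normal in the largest member; let N_G(s) be the intersection of the normalizers of the members (the stabilizer of the chain), and let b_s be the set of irreducible characters of N_G(s) lying in blocks of N_G(s) that induce b. Then #G · (k(b) − l(b)) equals the sum over all such chains s of (−1)^m · #N_G(s) · (k(b_s) − l(b_s)), where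 k counts irreducible characters and l is the p-regular rank; equivalently, k(b) − l(b) is the alternating sum of k(b_s) − l(b_s) over representatives of the conjugacy classes of such chains. -/
theorem result {G : Type*} [Group G] [Finite G] (p : ℕ) [Fact p.Prime] (M : Ideal Cfsg.AlgInt) (hM : Cfsg.IsPModular p M) (b : Set (Cfsg.IrrCharacter G)) (hb : Cfsg.IsPBlock M b) : (Nat.card G : ℤ) * ((Nat.card b : ℤ) - (Cfsg.blockRank p b : ℤ)) = ∑ᶠ s ∈ {s : Finset (Subgroup G) | s.Nonempty ∧ (∀ Q ∈ s, ∀ R ∈ s, Q ≤ R ∨ R ≤ Q) ∧ (∀ Q ∈ s, Q ≠ ⊥ ∧ IsPGroup p Q) ∧ ∃ T ∈ s, ∀ Q ∈ s, Q ≤ T ∧ T ≤ Subgroup.normalizer ((Q : Subgroup G) : Set G)}, (-1 : ℤ) ^ (s.card - 1) * (Nat.card (((⨅ Q ∈ s, Subgroup.normalizer ((Q : Subgroup G) : Set G) : Subgroup G))) : ℤ) * ((Nat.card {ψ : Cfsg.IrrCharacter (((⨅ Q ∈ s, Subgroup.normalizer ((Q : Subgroup G) : Set G) : Subgroup G))) | ∃ β : Set (Cfsg.IrrCharacter (((⨅ Q ∈ s, Subgroup.normalizer ((Q : Subgroup G) : Set G) : Subgroup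 G)))), ψ ∈ β ∧ Cfsg.IsInducedBlock M (((⨅ Q ∈ s, Subgroup.normalizer ((Q : Subgroup G) : Set G) : Subgroup G))) β b} : ℤ) - (Cfsg.blockRank p {ψ : Cfsg.IrrCharacter (((⨅ Q ∈ s, Subgroup.normalizer ((Q : Subgroup G) : Set G) : Subgroup G))) | ∃ β : Set (Cfsg.IrrCharacter (((⨅ Q ∈ s, Subgroup.normalizer ((Q : Subgroup G) : Set G) : Subgroup G)))), ψ ∈ β ∧ Cfsg.IsInducedBlock M (((⨅ Q ∈ s, Subgroup.normalizer ((Q : Subgroup G) : Set G) : Subgroup G))) β b} : ℤ)) := by
  classical
  letI : Fintype G := Fintype.ofFinite G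
  letI : Fintype (Finset (Subgroup G)) := Fintype.ofFinite _
  have hp : p.Prime := Fact.out
  obtain ⟨𝒮, h𝒮⟩ : ∃ 𝒮 : Finset (Finset (Subgroup G)),
      ∀ s, s ∈ 𝒮 ↔ s.Nonempty ∧ IsNChain p s :=
    ⟨Finset.univ.filter (fun s => s.Nonempty ∧ IsNChain p s), fun s => by simp⟩
  have hset : {s : Finset (Subgroup G) | s.Nonempty ∧ (∀ Q ∈ s, ∀ R ∈ s, Q ≤ R ∨ R ≤ Q) ∧
      (∀ Q ∈ s, Q ≠ ⊥ ∧ IsPGroup p Q) ∧ ∃ T ∈ s, ∀ Q ∈ s,
        Q ≤ T ∧ T ≤ Subgroup.normalizer ((Q : Subgroup G) : Set G)}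
      = (𝒮 : Set (Finset (Subgroup G))) := by
    ext s
    rw [Finset.mem_coe, h𝒮]
    constructor
    · rintro ⟨h1, h2, h3, h4⟩
      exact ⟨h1, h2, h3, fun _ => h4⟩
    · rintro ⟨h1, h2, h3, h4⟩
      exact ⟨h1, h2, h3, h4 h1⟩
  rw [hset, finsum_mem_coe_finset, card_sub_blockRank_block hM b hb]
  have hL : ∀ u : G, (if (∃ k : ℕ, orderOf u = p ^ k) ∧ u ≠ 1 then
        krPsi p M b (Subgroup.centralizer ({u} : Set G)) else 0)
      = ∑ s ∈ 𝒮, if u ∈ chainNorm s ∧ (∃ k : ℕ, orderOf u = p ^ k) ∧ u ≠ 1 then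
          (-1 : ℤ) ^ (s.card - 1) *
            krPsi p M b (chainNorm s ⊓ Subgroup.centralizer ({u} : Set G)) else 0 := by
    intro u
    by_cases h : (∃ k : ℕ, orderOf u = p ^ k) ∧ u ≠ 1
    · rw [if_pos h]
      have hup : IsPGroup p (Subgroup.zpowers u) := by
        obtain ⟨k, hk⟩ := h.1
        apply IsPGroup.of_card (n := k)
        rw [Nat.card_zpowers, hk]
      rw [kr_sum u h.2 hup (krPsi p M b) (𝒮.filter (fun s => u ∈ chainNorm s)) (by
        intro s
        rw [Finset.mem_filter, h𝒮]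
        tauto), Finset.sum_filter]
      apply Finset.sum_congr rfl
      intro s _
      by_cases hus : u ∈ chainNorm s
      · rw [if_pos hus, if_pos ⟨hus, h⟩]
      · rw [if_neg hus, if_neg (fun h' => hus h'.1)]
    · rw [if_neg h]
      symm
      apply Finset.sum_eq_zero
      intro s _
      rw [if_neg (fun h' => h h'.2)]
  rw [Finset.sum_congr rfl (fun u _ => hL u), Finset.sum_comm]
  apply Finset.sum_congr rfl
  intro s hs
  show _ = (-1 : ℤ) ^ (s.card - 1) * (Nat.card (chainNorm s) : ℤ) *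
    ((Nat.card {ψ : IrrCharacter (chainNorm s) | ∃ β : Set (IrrCharacter (chainNorm s)),
        ψ ∈ β ∧ IsInducedBlock M (chainNorm s) β b} : ℤ)
      - (blockRank p {ψ : IrrCharacter (chainNorm s) | ∃ β : Set (IrrCharacter (chainNorm s)),
        ψ ∈ β ∧ IsInducedBlock M (chainNorm s) β b} : ℤ))
  rw [mul_assoc, card_sub_blockRank_induced hM (chainNorm s) b, Finset.mul_sum]
  apply Finset.sum_congr rfl
  intro u _
  rw [mul_ite, mul_zero]

end Cfsg.Agent.S4651
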