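import Cfsg.Statements.S4652
import Cfsg.Agent.H80.Block

set_option autoImplicit false

namespace Cfsg.Agent.S4652

open Cfsg Cfsg.Agent.H20 Cfsg.Agent.H4 Cfsg.Agent.H80

/-- Fix a prime p and a maximal ideal M of the algebraic integers containing p. The defect groups of the principal p-block of a finite group G are exactly the Sylow p-subgroups of G: a subgroup D is a defect group of the principal block if and only if D is a Sylow p-subgroup. -/
theorem result {G : Type*} [Group G] [Fintype G] (p : ℕ) [Fact p.Prime] (M : Ideal Cfsg.AlgInt) (hM : Cfsg.IsPModular p M) (D : Subgroup G) : Cfsg.IsDefectGroup p M (Cfsg.principalBlock M G) D ↔ ∃ S : Sylow p G, (S : Subgroup G) = D := by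
  have hMp := isPrime_of_isPModular hM
  constructor
  · rintro ⟨g, ⟨hR, hNI, hχ⟩, P, rfl⟩
    have h1 := hχ (trivChar G) (trivChar_mem_principalBlock hMp)
    have h2 : centralChar ((trivChar G : IrrCharacter G) : G → ℂ) g
        = ((Subgroup.centralizer ({g} : Set G)).index : ℂ) := centralChar_const_one g
    rw [h2, memLocalIdeal_natCast_iff hM] at h1
    obtain ⟨S, hS⟩ := exists_sylow_of_sylow_subgroup p _ h1 P
    exact ⟨S, hS⟩
  · rintro ⟨S, rfl⟩
    have hsum : omega ((trivChar G : IrrCharacter G) : G → ℂ) (blockElt (principalBlock M G)) = 1 := by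
      rw [omega_blockElt, if_pos (trivChar_mem_principalBlock hMp)]
    have hex : ∃ g : G, ¬ MemLocalIdeal M ((blockElt (principalBlock M G)).coeff g
        * centralChar ((trivChar G : IrrCharacter G) : G → ℂ) g) := by
      by_contra hno
      push Not at hno
      have := omega_mem_of_coeff _ (irr_isClassFunction (trivChar G)) (localIdeal M hMp)
        (isCF_blockElt _) hno
      rw [hsum] at this
      exact not_memLocalIdeal_one hMp this
    obtain ⟨g, hg⟩ := hex
    rw [coeff_blockElt] at hg
    have hcc : centralChar ((trivChar G : IrrCharacter G) : G → ℂ) g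
        = ((Subgroup.centralizer ({g} : Set G)).index : ℂ) := centralChar_const_one g
    rw [hcc] at hg
    have hR : MemLocalRing M (blockCoeff (principalBlock M G) g) :=
      blockCoeff_memLocalRing hMp (trivChar G) g
    have hidxR : MemLocalRing M ((Subgroup.centralizer ({g} : Set G)).index : ℂ) :=
      memLocalRing_natCast hMp _
    have hNI : ¬ MemLocalIdeal M (blockCoeff (principalBlock M G) g) :=
      fun h => hg (memLocalIdeal_mul_right hMp h hidxR)
    have hidx : ¬ MemLocalIdeal M ((Subgroup.centralizer ({g} : Set G)).index : ℂ) :=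
      fun h => hg (memLocalIdeal_mul_left hMp hR h)
    have hidx' : ¬ p ∣ (Subgroup.centralizer ({g} : Set G)).index :=
      fun h => hidx ((memLocalIdeal_natCast_iff hM _).mpr h)
    have hdef : IsDefectClass M (principalBlock M G) g := by
      refine ⟨hR, hNI, ?_⟩
      intro χ hχ hmem
      have h1 : MemLocalIdeal M (centralChar (fun _ : G => (1 : ℂ)) g - centralChar (χ : G → ℂ) g) :=
        hχ g
      have h2 := memLocalIdeal_add hMp h1 hmem
      rw [sub_add_cancel, centralChar_const_one] at h2
      exact hidx h2
    obtain ⟨Q₀⟩ : Nonempty (Sylow p (Subgroup.centralizer ({g} : Set G))) := inferInstance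
    obtain ⟨Q, hQ⟩ := exists_sylow_of_sylow_subgroup p _ hidx' Q₀
    obtain ⟨x, hx⟩ := MulAction.exists_smul_eq G Q S
    refine ⟨x * g * x⁻¹, isDefectClass_conj hdef x, ?_⟩
    have hSle : (S : Subgroup G) ≤ Subgroup.centralizer ({x * g * x⁻¹} : Set G) := by
      intro y hy
      rw [← hx, Sylow.coe_subgroup_smul, mem_conj_smul_iff, hQ] at hy
      have hy' : x⁻¹ * y * x ∈ Subgroup.centralizer ({g} : Set G) := Subgroup.map_subtype_le _ hy
      rw [centralizer_conj, Subgroup.mem_map]
      refine ⟨x⁻¹ * y * x, hy', ?_⟩
      show x * (x⁻¹ * y * x) * x⁻¹ = y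
      group
    refine ⟨S.subtype hSle, ?_⟩
    rw [Sylow.coe_subtype, Subgroup.map_subgroupOf_eq_of_le hSle]

end Cfsg.Agent.S4652
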