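import Cfsg.Statements.S4654
import Cfsg.Agent.H80.OrbitBlock

set_option autoImplicit false
set_option linter.style.haveILetI false
open Cfsg

namespace Cfsg.Agent.S4654

open Cfsg.Agent.H20 Cfsg.Agent.H4 Cfsg.Agent.H80

/-- Fix a prime p and a maximal ideal M of the algebraic integers containing p. Let P be a normal p-subgroup of the finite group G, B a p-block of G and e a p-block of C_G(P) such that (P, e) is a Brauer pair of B (as P is normal, this says that e occurs in the idempotent of B, which is supported on C_G(P)). Let T be the stabilizer of e in G under conjugation. Then the idempotent of e is a block idempotent of T: some block E of T has, at every element of T, the same idempotent coefficient as e (zero off C_G(P)); and the idempotent of B is the sum of the distinct G-conjugates of the idempotent of e: its coefficient at g is the sum over all x in G of the coefficient of e at x⁻¹ g x, divided by the order of T. -/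
theorem result {G : Type*} [Group G] [Fintype G] (p : ℕ) [Fact p.Prime] (M : Ideal Cfsg.AlgInt) (hM : Cfsg.IsPModular p M) (P : Subgroup G) [P.Normal] (hP : IsPGroup p P) (B : Set (Cfsg.IrrCharacter G)) (e : Set (Cfsg.IrrCharacter (Subgroup.centralizer (P : Set G)))) (hBe : Cfsg.IsBrauerPairOf p M B P e) (T : Subgroup G) (hT : ∀ x : G, x ∈ T ↔ Cfsg.StabilizesBlock (Subgroup.centralizer (P : Set G)) e x) : (∃ E : Set (Cfsg.IrrCharacter T), Cfsg.IsPBlock M E ∧ ∀ t : T, Cfsg.blockCoeff E t = Cfsg.subgroupBlockCoeff (Subgroup.centralizer (P : Set G)) e (t : G)) ∧ ∀ g : G, Cfsg.blockCoeff B g = (Nat.card T : ℂ)⁻¹ * ∑ x : G, Cfsg.subgroupBlockCoeff (Subgroup.centralizer (P : Set G)) e (x⁻¹ * g * x) := by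
  classical
  haveI : Fintype ↥(Subgroup.centralizer (P : Set G)) := Fintype.ofFinite _
  haveI : Fintype ↥T := Fintype.ofFinite _
  have hMp := isPrime_of_isPModular hM
  obtain ⟨⟨-, he⟩, hB, hlam⟩ := hBe
  have hCT : Subgroup.centralizer (P : Set G) ≤ T := fun x hx =>
    (hT x).mpr (stabilizesBlock_of_mem _ e hx)
  have hPT : P ≤ T := fun x hx =>
    (hT x).mpr (stabilizesBlock_of_commute _ e
      (fun k hk => Subgroup.mem_centralizer_iff.mp hk x hx))
  have hTN : T ≤ Subgroup.normalizer (P : Set G) := by
    rw [Subgroup.normalizer_eq_top]; exact le_top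
  constructor
  · obtain ⟨E, hE, hEe⟩ := exists_block_of_stable_centralizer p hM P T hP hPT hTN hCT he
      (fun x hx => (hT x).mp hx)
    refine ⟨E, hE, fun t => ?_⟩
    rw [← coeff_blockElt, hEe, coeff_truncTo, subgroupBlockCoeff_eq]
    rfl
  · have hCn : ∀ x : G, x ∈ Subgroup.normalizer
        ((Subgroup.centralizer (P : Set G) : Subgroup G) : Set G) := by
      intro x
      rw [Subgroup.normalizer_eq_top]
      exact Subgroup.mem_top x
    apply blockElt_eq_orbit hMp _ hCn he T hT hB
    · intro g hg
      exact Cfsg.Agent.S4653.result p M hM P hP B hB g hg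
    · intro ξ hξ
      have := hlam ξ hξ
      rwa [brauerOmega_eq P (blockCoeff B) (blockElt B) (fun g => (coeff_blockElt B g).symm)]
        at this

end Cfsg.Agent.S4654
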