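-- Statement S4664 (row 4664).
import Cfsg.Statements.S4664
import Cfsg.Agent.H79.CharValues
import Cfsg.Agent.H84.BlockDom
import Cfsg.Agent.H20.BlockIdem
import Cfsg.Agent.H4.IrrCount

set_option autoImplicit false
open Cfsg

namespace Cfsg.Agent.S4664

open Cfsg.Agent.H79 Cfsg.Agent.H20 Cfsg.Agent.H4
open scoped ComplexConjugate

/-- Values of an irreducible character at the powers of an element of order dividing `m` lie in
the `m`-th cyclotomic field. -/
theorem irr_pow_mem_adjoin {G : Type*} [Group G] (χ : IrrCharacter G) (g : G) (m : ℕ)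
    (hm : 0 < m) (hg : g ^ m = 1) (k : ℕ) :
    (χ : G → ℂ) (g ^ k) ∈ IntermediateField.adjoin ℚ
      ({Complex.exp (2 * Real.pi * Complex.I / (m : ℂ))} : Set ℂ) := by
  obtain ⟨n, ρ, -, hρ⟩ := χ.2
  have hζ : IsPrimitiveRoot (Complex.exp (2 * Real.pi * Complex.I / (m : ℂ))) m :=
    Complex.isPrimitiveRoot_exp m hm.ne'
  obtain ⟨f, -, -, hf⟩ := char_pow_eq_eval ρ g m hm hg _ hζ
  rw [← hρ, hf k, Polynomial.aeval_eq_sum_range]
  have hη : Complex.exp (2 * Real.pi * Complex.I / (m : ℂ)) ∈ IntermediateField.adjoin ℚ
      ({Complex.exp (2 * Real.pi * Complex.I / (m : ℂ))} : Set ℂ) :=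
    IntermediateField.subset_adjoin ℚ _ (Set.mem_singleton _)
  apply sum_mem
  intro i _
  rw [zsmul_eq_mul]
  exact mul_mem (intCast_mem _ _) (pow_mem (pow_mem hη k) i)

/-- Fix a prime p and a maximal ideal M of the algebraic integers containing p, and let B be a p-block of the finite group G. Let m be the p'-part of the order of G and η = exp(2πi/m). Then every coefficient of the idempotent of B lies in the cyclotomic field ℚ(η). -/
theorem result {G : Type*} [Group G] [Fintype G] (p : ℕ) [Fact p.Prime] (M : Ideal Cfsg.AlgInt) (hM : Cfsg.IsPModular p M) (B : Set (Cfsg.IrrCharacter G)) (hB : Cfsg.IsPBlock M B) (g : G) : Cfsg.blockCoeff B g ∈ IntermediateField.adjoin ℚ ({Complex.exp (2 * Real.pi * Complex.I / ((Nat.card G / p ^ (Nat.card G).factorization p : ℕ) : ℂ))} : Set ℂ) := by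
  classical
  have hp : p.Prime := Fact.out
  obtain ⟨χ₀, rfl⟩ := hB
  by_cases hsing : p ∣ orderOf g
  · rw [Cfsg.Agent.H84.blockCoeff_eq_zero_of_singular hM χ₀ g hsing]
    exact zero_mem _
  · have hGpos : 0 < Nat.card G := Nat.card_pos
    have hmpos : 0 < Nat.card G / p ^ (Nat.card G).factorization p :=
      Nat.ordCompl_pos p hGpos.ne'
    have hgm : g ^ (Nat.card G / p ^ (Nat.card G).factorization p) = 1 := by
      apply orderOf_dvd_iff_pow_eq_one.mp
      have h1 : orderOf g ∣ p ^ (Nat.card G).factorization p *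
          (Nat.card G / p ^ (Nat.card G).factorization p) := by
        rw [Nat.ordProj_mul_ordCompl_eq_self]
        exact orderOf_dvd_natCard g
      have h2 : Nat.Coprime (orderOf g) (p ^ (Nat.card G).factorization p) :=
        Nat.Coprime.pow_right _ ((Nat.Prime.coprime_iff_not_dvd hp).mpr hsing).symm
      exact h2.dvd_of_dvd_mul_left h1
    rw [blockCoeff_eq]
    apply mul_mem
    · exact inv_mem (natCast_mem _ _)
    · apply sum_mem
      intro χ _
      split_ifs with hχ
      · apply mul_mem
        · have h1 := irr_pow_mem_adjoin χ g _ hmpos hgm 0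
          rw [pow_zero] at h1
          exact h1
        · rw [irr_conj]
          have h1 := irr_pow_mem_adjoin χ g _ hmpos hgm
            (Nat.card G / p ^ (Nat.card G).factorization p - 1)
          have h2 : g ^ (Nat.card G / p ^ (Nat.card G).factorization p - 1) = g⁻¹ := by
            apply eq_inv_of_mul_eq_one_left
            rw [← pow_succ, Nat.sub_add_cancel hmpos, hgm]
          rw [h2] at h1
          exact h1
      · exact zero_mem _

end Cfsg.Agent.S4664
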