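import Cfsg.Statements.S4665
import Cfsg.Agent.H80.Basic

set_option autoImplicit false
set_option linter.style.haveILetI false
set_option linter.unusedVariables false
open Cfsg

namespace Cfsg.Agent.S4665

open Cfsg.Agent.H80

/-- Sum over a subgroup of an integer combination (a `finsum` over a set `B`) of irreducible
characters is the order of the subgroup times an integer. -/
theorem sum_subgroup_intcomb {G : Type*} [Group G] [Finite G] (H : Subgroup G)
    (B : Set (IrrCharacter G)) (n : IrrCharacter G → ℤ) :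
    ∃ k : ℤ, ∑ᶠ x : H, (∑ᶠ ψ ∈ B, (n ψ : ℂ) * (ψ : G → ℂ) (x : G)) = (Nat.card H : ℂ) * k := by
  classical
  haveI := irr_finite G
  letI : Fintype (IrrCharacter G) := Fintype.ofFinite _
  letI : Fintype H := Fintype.ofFinite H
  choose m hm using fun ψ : IrrCharacter G => sum_subgroup_character H (ψ : G → ℂ) (isCharacter_of_irr ψ)
  refine ⟨∑ ψ ∈ B.toFinset, n ψ * (m ψ : ℤ), ?_⟩
  have h1 : ∀ x : H, (∑ᶠ ψ ∈ B, (n ψ : ℂ) * (ψ : G → ℂ) (x : G)) =
      ∑ ψ ∈ B.toFinset, (n ψ : ℂ) * (ψ : G → ℂ) (x : G) := by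
    intro x
    rw [finsum_mem_eq_finite_toFinset_sum _ (Set.toFinite B)]
    apply Finset.sum_congr
    · ext; simp
    · intros; rfl
  simp only [h1]
  rw [finsum_eq_sum_of_fintype, Finset.sum_comm]
  push_cast
  rw [Finset.mul_sum]
  apply Finset.sum_congr rfl
  intro ψ _
  rw [← Finset.mul_sum]
  have := hm ψ
  rw [finsum_eq_sum_of_fintype] at this
  rw [this]
  ring

theorem result {G : Type*} [Group G] [Fintype G] (p : ℕ) [Fact p.Prime] (M : Ideal Cfsg.AlgInt) (hM : Cfsg.IsPModular p M) (B : Set (Cfsg.IrrCharacter G)) (hB : Cfsg.IsPBlock M B) (χ : G → ℂ) (hχ : (∃ n : Cfsg.IrrCharacter G → ℤ, ∀ g : G, χ g = ∑ᶠ ψ ∈ B, (n ψ : ℂ) * (ψ : G → ℂ) g)) (h0 : (∃ n : Cfsg.IrrCharacter G → ℤ, ∀ g : G, Cfsg.pRegularPart p χ g = ∑ᶠ ψ ∈ B, (n ψ : ℂ) * (ψ : G → ℂ) g)) : ∃ k : ℤ, χ 1 = (p ^ (Nat.card G).factorization p : ℂ) * k := by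
  classical
  obtain ⟨n, hn⟩ := h0
  obtain ⟨P⟩ : Nonempty (Sylow p G) := inferInstance
  obtain ⟨k, hk⟩ := sum_subgroup_intcomb (P : Subgroup G) B n
  refine ⟨k, ?_⟩
  have hcard : Nat.card (P : Subgroup G) = p ^ (Nat.card G).factorization p := Sylow.card_eq_multiplicity P
  have h1 : ∑ᶠ x : (P : Subgroup G), Cfsg.pRegularPart p χ (x : G) = χ 1 := by
    rw [finsum_eq_single _ (1 : (P : Subgroup G))]
    · simp [Cfsg.pRegularPart, Cfsg.IsPRegular, (Fact.out : p.Prime).one_lt.ne']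
    · intro x hx
      have hx1 : (x : G) ≠ 1 := fun h => hx (Subtype.ext h)
      obtain ⟨j, hj⟩ := (IsPGroup.iff_orderOf.mp P.isPGroup') x
      have hj0 : j ≠ 0 := by
        rintro rfl
        rw [pow_zero, orderOf_eq_one_iff] at hj
        exact hx hj
      have hdvd : p ∣ orderOf x := by
        rw [hj]; exact dvd_pow_self p hj0
      simp only [Cfsg.pRegularPart, Cfsg.IsPRegular, Subgroup.orderOf_coe]
      rw [if_neg (not_not.mpr hdvd)]
  rw [← h1]
  simp only [hn]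
  rw [hk, hcard]
  push_cast
  rfl

end Cfsg.Agent.S4665
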