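import Cfsg.Statements.S4668
import Cfsg.Agent.H79.NormalSupport
import Cfsg.Agent.H54.CharP2

set_option autoImplicit false
open Cfsg

namespace Cfsg.Agent.S4668

/-- Fix a prime p and a maximal ideal M of the algebraic integers containing p. Let Q₀ < Q₁ < ⋯ < Q_m be a strictly increasing chain of p-subgroups of the finite group G and N the intersection of their normalizers. Then every block idempotent of N is supported on C_G(Q_m): for every p-block E of N, the idempotent coefficient of E vanishes at every element of N outside C_G(Q_m). -/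
theorem result {G : Type*} [Group G] [Fintype G] (p : ℕ) [Fact p.Prime] (M : Ideal Cfsg.AlgInt) (hM : Cfsg.IsPModular p M) (m : ℕ) (Q : Fin (m + 1) → Subgroup G) (hQ : StrictMono Q) (hQp : ∀ i, IsPGroup p (Q i)) (N : Subgroup G) (hN : ∀ g : G, g ∈ N ↔ ∀ i, g ∈ Subgroup.normalizer (Q i : Set G)) (E : Set (Cfsg.IrrCharacter N)) (hE : Cfsg.IsPBlock M E) (n : N) (hn : (n : G) ∉ Subgroup.centralizer (Q (Fin.last m) : Set G)) : Cfsg.blockCoeff E n = 0 := by
  classical
  have hMp := Cfsg.Agent.H20.isPrime_of_isPModular hM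
  have hp : p.Prime := Fact.out
  obtain ⟨ξ₀, rfl⟩ := hE
  by_contra hne
  -- `n` is `p`-regular
  have hreg : ¬ p ∣ orderOf (n : G) := by
    intro hdvd
    apply hne
    have hdvd' : p ∣ orderOf n := by
      rw [← Subgroup.orderOf_coe]; exact hdvd
    exact Cfsg.Agent.H84.blockCoeff_eq_zero_of_singular hM ξ₀ n hdvd'
  have hcop : (orderOf (n : G)).Coprime p :=
    (Nat.Coprime.symm ((Nat.Prime.coprime_iff_not_dvd hp).mpr hreg))
  have hmono : ∀ i j : Fin (m + 1), i ≤ j → Q i ≤ Q j := fun i j hij => hQ.monotone hij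
  -- the normal `p`-subgroup `Q_m ∩ N` of `N`
  have hNnorm : ∀ x : N, ∀ i, (x : G) ∈ Subgroup.normalizer (Q i : Set G) := fun x i =>
    (hN (x : G)).mp x.2 i
  have hRn : ((Q (Fin.last m)).subgroupOf N).Normal := by
    constructor
    intro r hr x
    rw [Subgroup.mem_subgroupOf] at hr ⊢
    have h1 := hNnorm x (Fin.last m)
    rw [Subgroup.mem_normalizer_iff] at h1
    have h2 := (h1 (r : G)).mp hr
    simpa using h2
  have hRp : IsPGroup p ((Q (Fin.last m)).subgroupOf N) := by
    have h1 : IsPGroup p ((Q (Fin.last m)).comap N.subtype) :=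
      (hQp (Fin.last m)).comap_of_injective N.subtype N.subtype_injective
    exact h1
  have hcent : n ∈ Subgroup.centralizer (((Q (Fin.last m)).subgroupOf N : Subgroup N) : Set N) := by
    by_contra hnc
    exact hne (Cfsg.Agent.H79.blockCoeff_eq_zero_of_not_mem_centralizer hM
      ((Q (Fin.last m)).subgroupOf N) hRp ξ₀ n hnc)
  have hcomm : ∀ x : G, x ∈ Q (Fin.last m) → x ∈ N → (n : G) * x = x * (n : G) := by
    intro x hxQ hxN
    have h1 := Subgroup.mem_centralizer_iff.mp hcent ⟨x, hxN⟩
      (by rw [SetLike.mem_coe, Subgroup.mem_subgroupOf]; exact hxQ)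
    have h2 := congrArg (Subtype.val) h1
    simpa using h2.symm
  -- induction along the chain
  have hind : ∀ k : ℕ, ∀ hk : k < m + 1, ∀ x ∈ Q ⟨k, hk⟩, (n : G) * x = x * (n : G) := by
    intro k
    induction k with
    | zero =>
      intro hk x hx
      apply hcomm x (hmono _ _ (Fin.le_last _) hx)
      rw [hN]
      intro i
      exact Subgroup.le_normalizer (hmono ⟨0, hk⟩ i (Fin.zero_le i) hx)
    | succ k ih =>
      intro hk
      have hk' : k < m + 1 := by omega
      have ih' := ih hk'
      apply Cfsg.Agent.H54.thompson_AxB_elt (p := p) (n : G) (Q ⟨k, hk'⟩) (Q ⟨k + 1, hk⟩)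
        (hQp _) hcop ih' (hQp _) (hNnorm n _)
      · exact (hmono ⟨k, hk'⟩ ⟨k + 1, hk⟩ (by simp [Fin.le_def])).trans Subgroup.le_normalizer
      · intro x hx hxc
        apply hcomm x (hmono _ _ (Fin.le_last _) hx)
        rw [hN]
        intro i
        by_cases hi : (i : ℕ) ≤ k
        · have hxcent : x ∈ Subgroup.centralizer (Q i : Set G) := by
            rw [Subgroup.mem_centralizer_iff]
            intro b hb
            exact hxc b (hmono i ⟨k, hk'⟩ (by simpa [Fin.le_def] using hi) hb)
          exact Subgroup.centralizer_le_normalizer (Q i : Set G) hxcent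
        · have hi' : (⟨k + 1, hk⟩ : Fin (m + 1)) ≤ i := by
            rw [Fin.le_def]; simp only; omega
          exact Subgroup.le_normalizer (hmono _ i hi' hx)
  apply hn
  rw [Subgroup.mem_centralizer_iff]
  intro x hx
  have h1 := hind m (by omega) x (by simpa [Fin.last] using hx)
  exact h1.symm

end Cfsg.Agent.S4668
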