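import Cfsg.Statements.S4669
import Cfsg.Agent.H79.CentralDefect
import Cfsg.Agent.H81.Proj

set_option autoImplicit false
open Cfsg

namespace Cfsg.Agent.S4669

open Cfsg.Agent.H20 Cfsg.Agent.H4 Cfsg.Agent.H79
open scoped ComplexConjugate

/-- A p-block with central defect group has l(B) = 1. -/
theorem result {G : Type*} [Group G] [Fintype G] (p : ℕ) [Fact p.Prime] (M : Ideal Cfsg.AlgInt) (hM : Cfsg.IsPModular p M) (B : Set (Cfsg.IrrCharacter G)) (hB : Cfsg.IsPBlock M B) (P : Subgroup G) (hD : Cfsg.IsDefectGroup p M B P) (hPZ : P ≤ Subgroup.center G) : Cfsg.blockRank p B = 1 := by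
  classical
  have hp : p.Prime := Fact.out
  have hMp := isPrime_of_isPModular hM
  obtain ⟨χ₀, rfl⟩ := hB
  have hfP : Fintype P := Fintype.ofFinite P
  have hPp : IsPGroup p P := by
    obtain ⟨g₀, -, S, rfl⟩ := hD
    exact S.isPGroup'.map _
  obtain ⟨⟨χ₁, hχ₁B, hdeg⟩, -⟩ := exists_height_zero_of_defectGroup hM χ₀ P hD
  have hBeq : blockOf M (χ₁ : G → ℂ) = blockOf M (χ₀ : G → ℂ) :=
    Cfsg.Agent.H80.blockOf_eq_of_sameBlock hMp hχ₁B
  -- every member of the block agrees with `χ₁` on the `p`-regular elements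
  have hall : ∀ ψ ∈ blockOf M (χ₀ : G → ℂ),
      pRegularPart p (ψ : G → ℂ) = pRegularPart p (χ₁ : G → ℂ) := by
    intro ψ hψ
    obtain ⟨μ, hμ⟩ := exists_constituent_res P ψ
    have hover : OverOn P (μ : P → ℂ) (ψ : G → ℂ) := by
      rcases sum_twist P hPZ μ ψ with ⟨-, hover, -⟩ | ⟨hzero, -⟩
      · exact hover
      · exact absurd hzero hμ
    obtain ⟨ψ', -, -, huniq, -, -, hval⟩ := exists_unique_over hM P hPp hPZ χ₁ hdeg μ
    have hψ' : ψ = ψ' := huniq ψ (hBeq ▸ hψ) hover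
    funext g
    by_cases hg : p ∣ orderOf g
    · rw [Cfsg.Agent.H81.pRegularPart_of_dvd p _ hg, Cfsg.Agent.H81.pRegularPart_of_dvd p _ hg]
    · rw [Cfsg.Agent.H81.pRegularPart_of_not_dvd p _ hg,
        Cfsg.Agent.H81.pRegularPart_of_not_dvd p _ hg, hψ', hval g hg]
  have himage : (fun χ : IrrCharacter G => pRegularPart p (χ : G → ℂ)) '' blockOf M (χ₀ : G → ℂ)
      = {pRegularPart p (χ₁ : G → ℂ)} := by
    ext v
    constructor
    · rintro ⟨ψ, hψ, rfl⟩
      exact hall ψ hψ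
    · intro hv
      rw [Set.mem_singleton_iff] at hv
      exact ⟨χ₁, hχ₁B, hv.symm⟩
  unfold blockRank
  rw [himage]
  apply finrank_span_singleton
  intro h0
  have h1 := congrFun h0 1
  have h1reg : ¬ p ∣ orderOf (1 : G) := by
    rw [orderOf_one]
    exact hp.not_dvd_one
  rw [Cfsg.Agent.H81.pRegularPart_of_not_dvd p _ h1reg] at h1
  exact Cfsg.Agent.H4.irr_one_ne_zero χ₁ h1

end Cfsg.Agent.S4669
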