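import Cfsg.Statements.S4670
import Cfsg.Agent.H20.BrauerOver

set_option autoImplicit false
set_option linter.style.haveILetI false
open Cfsg

namespace Cfsg.Agent.S4670

/-- Fix a prime p and a maximal ideal M of the algebraic integers containing p. Let P be a p-subgroup of the finite group G and H a subgroup containing N_G(P). For every p-block B of G with defect group P there is exactly one p-block c of H with defect group P whose idempotent agrees with that of B, modulo the local ideal at M, at every element of C_G(P) (their Brauer-map images at P coincide); and every p-block c of H with defect group P arises in this way from exactly one such B. This is the Brauer correspondence over H. -/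
theorem result {G : Type*} [Group G] [Fintype G] (p : ℕ) [Fact p.Prime] (M : Ideal Cfsg.AlgInt) (hM : Cfsg.IsPModular p M) (P H : Subgroup G) (hP : IsPGroup p P) (hH : Subgroup.normalizer (P : Set G) ≤ H) : (∀ B : Set (Cfsg.IrrCharacter G), Cfsg.IsPBlock M B → Cfsg.IsDefectGroup p M B P → ∃! c : Set (Cfsg.IrrCharacter H), Cfsg.IsPBlock M c ∧ Cfsg.IsDefectGroup p M c (P.subgroupOf H) ∧ ∀ x : G, x ∈ Subgroup.centralizer (P : Set G) → Cfsg.MemLocalIdeal M (Cfsg.blockCoeff B x - Cfsg.subgroupBlockCoeff H c x)) ∧ (∀ c : Set (Cfsg.IrrCharacter H), Cfsg.IsPBlock M c → Cfsg.IsDefectGroup p M c (P.subgroupOf H) → ∃! B : Set (Cfsg.IrrCharacter G), Cfsg.IsPBlock M B ∧ Cfsg.IsDefectGroup p M B P ∧ ∀ x : G, x ∈ Subgroup.centralizer (P : Set G) → Cfsg.MemLocalIdeal M (Cfsg.blockCoeff B x - Cfsg.subgroupBlockCoeff H c x)) := by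
  classical
  letI : Fintype H := Fintype.ofFinite H
  have hMp := Cfsg.Agent.H20.isPrime_of_isPModular hM
  have hCN : Subgroup.centralizer (P : Set G) ≤ Subgroup.normalizer (P : Set G) :=
    Subgroup.centralizer_le_normalizer _
  have hPH : P ≤ H := Subgroup.le_normalizer.trans hH
  have hPHp : IsPGroup p (P.subgroupOf H) := hP.comap_subtype
  have hsub : ∀ (c : Set (Cfsg.IrrCharacter H)) (x : G) (hx : x ∈ H),
      Cfsg.subgroupBlockCoeff H c x = Cfsg.blockCoeff c ⟨x, hx⟩ := by
    intro c x hx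
    unfold Cfsg.subgroupBlockCoeff
    rw [dif_pos hx]
  constructor
  · rintro B ⟨χB, rfl⟩ hdefB
    obtain ⟨ξ₀, hdefN, hcongG⟩ :=
      Cfsg.Agent.H20.exists_normalizer_block_coeff hM P hP χB hdefB
    obtain ⟨χc, hdefH, hcongH⟩ :=
      Cfsg.Agent.H20.exists_block_over_of_normalizer_coeff hM P H hP hH ξ₀ hdefN
    refine ⟨Cfsg.blockOf M (χc : H → ℂ), ⟨⟨χc, rfl⟩, hdefH, ?_⟩, ?_⟩
    · intro x hx
      rw [hsub _ x (hH (hCN hx))]
      have h1 := hcongG x (hCN hx) hx
      have h2 := hcongH x (hCN hx) hx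
      have := Cfsg.Agent.H20.memLocalIdeal_sub hMp h1 h2
      convert this using 1
      ring
    · rintro c' ⟨⟨χ', rfl⟩, hdef', hcong'⟩
      obtain ⟨y, hyC, hy1⟩ := Cfsg.Agent.H20.exists_mem_centralizer_of_isDefectGroup _ _ hdef'
      apply Cfsg.Agent.H20.block_eq_of_coeff_congr hM (P.subgroupOf H) hPHp χ' χc y hyC hy1
      intro z hz
      have hzG : (z : G) ∈ Subgroup.centralizer (P : Set G) := by
        rw [Subgroup.mem_centralizer_iff] at hz ⊢
        intro d hd
        have := hz ⟨d, hPH hd⟩ (Subgroup.mem_subgroupOf.mpr hd)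
        exact congrArg Subtype.val this
      have h1 := hcong' (z : G) hzG
      rw [hsub _ (z : G) z.2] at h1
      have h2 := hcongG (z : G) (hCN hzG) hzG
      have h3 := hcongH (z : G) (hCN hzG) hzG
      have := Cfsg.Agent.H20.memLocalIdeal_add hMp (Cfsg.Agent.H20.memLocalIdeal_sub hMp h2 h1)
        (Cfsg.Agent.H20.memLocalIdeal_neg h3)
      convert this using 1
      ring
  · rintro c ⟨χc, rfl⟩ hdefc
    obtain ⟨ξ₀, hdefN, hcongH⟩ :=
      Cfsg.Agent.H20.exists_normalizer_block_coeff_over hM P H hP hH χc hdefc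
    obtain ⟨χB, hdefB, hcongG⟩ :=
      Cfsg.Agent.H20.exists_block_of_normalizer_coeff hM P hP ξ₀ hdefN
    refine ⟨Cfsg.blockOf M (χB : G → ℂ), ⟨⟨χB, rfl⟩, hdefB, ?_⟩, ?_⟩
    · intro x hx
      rw [hsub _ x (hH (hCN hx))]
      have h1 := hcongG x (hCN hx) hx
      have h2 := hcongH x (hCN hx) hx
      have := Cfsg.Agent.H20.memLocalIdeal_sub hMp h1 h2
      convert this using 1
      ring
    · rintro B' ⟨⟨χ', rfl⟩, hdef', hcong'⟩
      obtain ⟨y, hyC, hy1⟩ := Cfsg.Agent.H20.exists_mem_centralizer_of_isDefectGroup _ _ hdef'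
      apply Cfsg.Agent.H20.block_eq_of_coeff_congr hM P hP χ' χB y hyC hy1
      intro x hx
      have h1 := hcong' x hx
      rw [hsub _ x (hH (hCN hx))] at h1
      have h2 := hcongG x (hCN hx) hx
      have h3 := hcongH x (hCN hx) hx
      have := Cfsg.Agent.H20.memLocalIdeal_sub hMp (Cfsg.Agent.H20.memLocalIdeal_add hMp h1 h3) h2
      convert this using 1
      ring

end Cfsg.Agent.S4670
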