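import Cfsg.Statements.S4671
import Cfsg.Agent.H79.KnorrCover

set_option autoImplicit false
open Cfsg

namespace Cfsg.Agent.S4671

/-- Fix a prime p and a maximal ideal M of the algebraic integers containing p. Let N be a normal subgroup of the finite group G, B a p-block of G and P a defect group of B. Then there is a p-block c of N, stable under conjugation by P and covered by B (some member of B has a constituent in c on restriction to N), such that P ∩ N is a defect group of c. -/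
theorem result {G : Type*} [Group G] [Fintype G] (p : ℕ) [Fact p.Prime] (M : Ideal Cfsg.AlgInt) (hM : Cfsg.IsPModular p M) (N : Subgroup G) [N.Normal] [Fintype N] (B : Set (Cfsg.IrrCharacter G)) (hB : Cfsg.IsPBlock M B) (P : Subgroup G) (hP : Cfsg.IsDefectGroup p M B P) : ∃ c : Set (Cfsg.IrrCharacter N), Cfsg.IsPBlock M c ∧ (∀ x ∈ P, Cfsg.StabilizesBlock N c x) ∧ (∃ χ ∈ B, ∃ θ ∈ c, Cfsg.classInner (fun n : N => (χ : G → ℂ) n) (θ : N → ℂ) ≠ 0) ∧ Cfsg.IsDefectGroup p M c ((P ⊓ N).subgroupOf N) := by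
  classical
  obtain ⟨χ₀, rfl⟩ := hB
  have hMp := Cfsg.Agent.H20.isPrime_of_isPModular hM
  obtain ⟨θ, hθst, ⟨μ, hμθ, hμover⟩, hdef⟩ := Cfsg.Agent.H79.knorr N hM P χ₀ hP
  refine ⟨Cfsg.blockOf M θ.1, ⟨θ, rfl⟩, ?_, ⟨χ₀, Cfsg.Agent.H80.mem_blockOf_self hMp χ₀, μ, hμθ, hμover⟩, hdef⟩
  intro x hx
  refine ⟨?_, ?_⟩
  · rw [Subgroup.normalizer_eq_top]
    exact Subgroup.mem_top x
  · intro χ hχ
    refine ⟨Cfsg.Agent.H79.conjIrr N x⁻¹ χ, (hθst x⁻¹ (P.inv_mem hx) χ).mpr hχ, ?_⟩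
    intro k k' hk
    rw [Cfsg.Agent.H79.conjIrr_apply]
    refine congrArg χ.1 (Subtype.ext ?_)
    show x⁻¹ * (k' : G) * x⁻¹⁻¹ = (k : G)
    rw [hk]
    group

end Cfsg.Agent.S4671
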