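import Cfsg.Statements.S4686
import Cfsg.Agent.H80.NilFusion

set_option autoImplicit false
open Cfsg Cfsg.Agent.H80 Cfsg.Agent.H20 Cfsg.Agent.H4

namespace Cfsg.Agent.S4686

/-- Fix a prime p and a maximal ideal M of the algebraic integers containing p, a p-block B of the finite group G with maximal Brauer pair (P, e) and fusion system F on P. Then B is nilpotent (for every Brauer pair (Q, f) of B the stabilizer of f in N_G(Q) is C_G(Q) extended by a p-group) if and only if F is the inner fusion system of P: its maps from each subgroup of P are exactly the conjugations by elements of P. -/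
theorem result {G : Type*} [Group G] [Fintype G] (p : ℕ) [Fact p.Prime] (M : Ideal Cfsg.AlgInt) (hM : Cfsg.IsPModular p M) (B : Set (Cfsg.IrrCharacter G)) (P : Subgroup G) (e : Set (Cfsg.IrrCharacter (Subgroup.centralizer (P : Set G)))) (hmax : Cfsg.IsMaximalBrauerPair p M B P e) (F : Cfsg.FusionSystem P) (hF : Cfsg.IsBlockFusionSystemOn p M B P e F) : Cfsg.IsNilpotentBlock p M B ↔ ∀ Q : Subgroup G, F.Hom Q = (Cfsg.innerFusionSystem P).Hom Q := by
  classical
  have hMp := isPrime_of_isPModular hM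
  have hpp := (Fact.out : p.Prime)
  have hPe := hmax.1.1
  constructor
  · intro hnil Q
    ext φ
    constructor
    · intro hφ
      obtain ⟨hQP, g, hφg, hgP, f, hle, hle'⟩ := (hF.2 Q φ).mp hφ
      obtain ⟨u, hu, hux⟩ := exists_inner_of_nilpotent p hM hmax hnil _ Q f g rfl hle hle'
      exact ⟨hQP, u, hu, fun x => by rw [hφg]; exact hux x x.2⟩
    · rintro ⟨hQP, g, hg, hφg⟩
      have h1 : conjHom Q g ∈ F.Hom Q := F.conj_mem hQP hg
      have h2 : φ = conjHom Q g := MonoidHom.ext (fun x => hφg x)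
      rw [h2]
      exact h1
  · intro h
    refine ⟨hmax.1.2.1, ?_⟩
    intro Q' f' hQf x hxN hxst hxreg
    obtain ⟨y, hy⟩ := exists_conj_subpairLE p hM hmax hQf
    have hle : SubpairLE p M (Q'.map (MulAut.conj y).toMonoidHom) (conjBlock Q' y f') P e := hy
    have hQP : Q'.map (MulAut.conj y).toMonoidHom ≤ P := subpairLE_le hy
    have hf : IsPBlock M (conjBlock Q' y f') := isPBlock_conjBlock Q' y hQf.1.2
    have hx'N : y * x * y⁻¹ ∈ Subgroup.normalizer
        ((Q'.map (MulAut.conj y).toMonoidHom : Subgroup G) : Set G) := by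
      rw [mem_normalizer_map_conj_iff]
      have e1 : y⁻¹ * (y * x * y⁻¹) * y = x := by group
      rw [e1]
      exact hxN
    have hx'st := stabilizesBlock_conjBlock Q' y hxst
    have hφ : conjHom (Q'.map (MulAut.conj y).toMonoidHom) (y * x * y⁻¹)
        ∈ F.Hom (Q'.map (MulAut.conj y).toMonoidHom) := by
      rw [hF.2]
      have hcp := conjPair_eq_of_stab hMp hf hx'N hx'st
      refine ⟨hQP, y * x * y⁻¹, fun u => rfl, ?_, conjBlock Q' y f', hle, ?_⟩
      · rw [(map_conj_eq_iff_mem_normalizer _ _).mpr hx'N]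
        exact hQP
      · show Relation.ReflTransGen (NormalSubpairRel p M)
          (conjPair (y * x * y⁻¹) ⟨Q'.map (MulAut.conj y).toMonoidHom, conjBlock Q' y f'⟩) ⟨P, e⟩
        rw [hcp]
        exact hle
    rw [h] at hφ
    obtain ⟨-, u, hu, hφu⟩ := hφ
    have hrel : ∀ q ∈ Q'.map (MulAut.conj y).toMonoidHom,
        (y * x * y⁻¹) * q * (y * x * y⁻¹)⁻¹ = u * q * u⁻¹ := fun q hq => hφu ⟨q, hq⟩
    have hinv : ∀ q' ∈ Q'.map (MulAut.conj y).toMonoidHom,
        u⁻¹ * q' * u = (y * x * y⁻¹)⁻¹ * q' * (y * x * y⁻¹) := by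
      intro q' hq'
      have hq'' : (y * x * y⁻¹)⁻¹ * q' * (y * x * y⁻¹) ∈ Q'.map (MulAut.conj y).toMonoidHom := by
        have := (Subgroup.mem_normalizer_iff.mp (inv_mem hx'N) q').mp hq'
        simpa using this
      have h1 := hrel _ hq''
      calc u⁻¹ * q' * u
          = u⁻¹ * ((y * x * y⁻¹) * ((y * x * y⁻¹)⁻¹ * q' * (y * x * y⁻¹)) * (y * x * y⁻¹)⁻¹) * u := by
            group
        _ = u⁻¹ * (u * ((y * x * y⁻¹)⁻¹ * q' * (y * x * y⁻¹)) * u⁻¹) * u := by rw [h1]
        _ = (y * x * y⁻¹)⁻¹ * q' * (y * x * y⁻¹) := by group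
    have hc' : (y * x * y⁻¹) * u⁻¹ ∈ Subgroup.centralizer
        ((Q'.map (MulAut.conj y).toMonoidHom : Subgroup G) : Set G) := by
      rw [Subgroup.mem_centralizer_iff]
      intro q hq
      have h1 := hinv q hq
      calc q * ((y * x * y⁻¹) * u⁻¹)
          = (y * x * y⁻¹) * ((y * x * y⁻¹)⁻¹ * q * (y * x * y⁻¹)) * u⁻¹ := by group
        _ = (y * x * y⁻¹) * (u⁻¹ * q * u) * u⁻¹ := by rw [h1]
        _ = (y * x * y⁻¹) * u⁻¹ * q := by group
    have huN : u ∈ Subgroup.normalizer
        ((Q'.map (MulAut.conj y).toMonoidHom : Subgroup G) : Set G) := by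
      rw [Subgroup.mem_normalizer_iff]
      intro q
      constructor
      · intro hq
        rw [← hrel q hq]
        exact (Subgroup.mem_normalizer_iff.mp hx'N q).mp hq
      · intro hq
        have h1 := hinv _ hq
        have h2 : (y * x * y⁻¹)⁻¹ * (u * q * u⁻¹) * (y * x * y⁻¹)
            ∈ Q'.map (MulAut.conj y).toMonoidHom := by
          have := (Subgroup.mem_normalizer_iff.mp (inv_mem hx'N) _).mp hq
          simpa using this
        rw [← h1] at h2
        have e : u⁻¹ * (u * q * u⁻¹) * u = q := by group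
        rwa [e] at h2
    obtain ⟨j, hj⟩ := hPe.1 ⟨u, hu⟩
    have huj : u ^ (p ^ j) = 1 := by
      have := congrArg Subtype.val hj
      simpa using this
    obtain ⟨c'', hc'', hpow⟩ := pow_mem_mul_of_normalizer _ hc'
      (normalizer_le_normalizer_centralizer _ huN) (p ^ j)
    have e5 : (y * x * y⁻¹) * u⁻¹ * u = y * x * y⁻¹ := by group
    rw [e5, huj, mul_one] at hpow
    have hxpow : (y * x * y⁻¹) ^ (p ^ j) ∈ Subgroup.centralizer
        ((Q'.map (MulAut.conj y).toMonoidHom : Subgroup G) : Set G) := by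
      rw [hpow]; exact hc''
    have hord : orderOf (y * x * y⁻¹) = orderOf x :=
      orderOf_injective (MulAut.conj y).toMonoidHom (MulEquiv.injective _) x
    have hcop : (p ^ j).Coprime (orderOf (y * x * y⁻¹)) := by
      rw [hord]
      exact Nat.Coprime.pow_left _ ((Nat.Prime.coprime_iff_not_dvd hpp).mpr hxreg)
    obtain ⟨m, hm⟩ := exists_pow_eq_self_of_coprime hcop
    have hx'C : y * x * y⁻¹ ∈ Subgroup.centralizer
        ((Q'.map (MulAut.conj y).toMonoidHom : Subgroup G) : Set G) := by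
      rw [← hm]
      exact pow_mem hxpow m
    rw [mem_centralizer_map_conj_iff] at hx'C
    have e1 : y⁻¹ * (y * x * y⁻¹) * y = x := by group
    rw [e1] at hx'C
    exact hx'C

end Cfsg.Agent.S4686
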