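import Cfsg.Statements.S4693
import Cfsg.Agent.H80.CentricNil

set_option autoImplicit false
open Cfsg Cfsg.Agent.H80 Cfsg.Agent.H20 Cfsg.Agent.H4

namespace Cfsg.Agent.S4693

/-- Fix a prime p and a maximal ideal M of the algebraic integers containing p, a p-block B of the finite group G with maximal Brauer pair (P, e) and fusion system F on P, and a Brauer pair (Q, f) ≤ (P, e) with Q centric in F. Suppose every element of G normalizes Q and stabilizes f. Then the idempotent of B agrees with that of f modulo M at every element of G, and f is the idempotent of a nilpotent block of Q·C_G(Q): some p-block of Q·C_G(Q) has the idempotent coefficients of f and is nilpotent. -/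
theorem result {G : Type*} [Group G] [Fintype G] (p : ℕ) [Fact p.Prime] (M : Ideal Cfsg.AlgInt) (hM : Cfsg.IsPModular p M) (B : Set (Cfsg.IrrCharacter G)) (P : Subgroup G) (e : Set (Cfsg.IrrCharacter (Subgroup.centralizer (P : Set G)))) (hmax : Cfsg.IsMaximalBrauerPair p M B P e) (F : Cfsg.FusionSystem P) (hF : Cfsg.IsBlockFusionSystemOn p M B P e F) (Q : Subgroup G) (f : Set (Cfsg.IrrCharacter (Subgroup.centralizer (Q : Set G)))) (hQP : Q ≤ P) (hf : Cfsg.IsPBlock M f) (hle : Cfsg.SubpairLE p M Q f P e) (hcen : F.IsCentric Q) (hG : ∀ x : G, x ∈ Subgroup.normalizer (Q : Set G) ∧ Cfsg.StabilizesBlock (Subgroup.centralizer (Q : Set G)) f x) : (∀ g : G, Cfsg.MemLocalIdeal M (Cfsg.blockCoeff B g - Cfsg.subgroupBlockCoeff (Subgroup.centralizer (Q : Set G)) f g)) ∧ ∃ F' : Set (Cfsg.IrrCharacter ↥(Q ⊔ Subgroup.centralizer (Q : Set G))), Cfsg.IsPBlock M F' ∧ (∀ t : ↥(Q ⊔ Subgroup.centralizer (Q : Set G)), Cfsg.blockCoeff F' t = Cfsg.subgroupBlockCoeff (Subgroup.centralizer (Q : Set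 G)) f (t : G)) ∧ Cfsg.IsNilpotentBlock p M F' := by
  have hMp := isPrime_of_isPModular hM
  have hPe := hmax.1.1
  have hQf : IsBrauerPair p M Q f := isBrauerPair_of_subpairLE hle hPe
  obtain ⟨B₀, hB₀, hB₀c⟩ := exists_block_of_stable_top p hM hQf hG
  have hnormQQ : IsNormalSubpair p M Q f Q f :=
    normalSubpair_of_le_of_le p hM hQf le_rfl Subgroup.le_normalizer
      Relation.ReflTransGen.refl Relation.ReflTransGen.refl
  have hBpair : IsBrauerPairOf p M B Q f :=
    isBrauerPairOf_of_ge p hM (a := ⟨Q, f⟩) (b := ⟨P, e⟩) hmax.1 hle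
  have hB₀pair : IsBrauerPairOf p M B₀ Q f := by
    refine ⟨hQf, hB₀, fun ξ hξ => ?_⟩
    have h1 : blockCoeff B₀ = subgroupBlockCoeff (Subgroup.centralizer (Q : Set G)) f :=
      funext hB₀c
    rw [h1]
    exact hnormQQ.2.2.2.2.2 ξ hξ
  have hBB₀ : B = B₀ := block_unique_of_isBrauerPairOf p hM hBpair hB₀pair
  refine ⟨fun g => ?_, ?_⟩
  · rw [hBB₀, hB₀c, sub_self]
    exact memLocalIdeal_zero hMp
  · obtain ⟨F', hF', hF'c⟩ := exists_block_between p hM hQf
      (Q ⊔ Subgroup.centralizer (Q : Set G)) le_sup_left (fun x _ => (hG x).1) le_sup_right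
      (fun x _ => (hG x).2)
    exact ⟨F', hF', hF'c, isNilpotentBlock_sup_centralizer p hM hQf
      ((centric_iff p hM hF hle).mp hcen) hF' hF'c⟩

end Cfsg.Agent.S4693
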