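import Cfsg.Statements.S4694
import Cfsg.Agent.H79.WeightDefect

set_option autoImplicit false
open Cfsg

namespace Cfsg.Agent.S4694

/-- Fix a prime p and a maximal ideal M of the algebraic integers containing p, a p-block B of the finite group G and a Brauer pair (Q, e) of B. Let T be the stabilizer of e in N_G(Q) and suppose that (Q, e) carries a weight: the block of T whose idempotent is that of e contains an irreducible character χ that is constant on the cosets of Q and whose degree has p-part equal to the p-part of the index of Q in T. Then Z(Q) is a defect group of e as a block of C_G(Q), and Q is the largest normal p-subgroup of T: every p-subgroup of T normalized by T lies in Q. -/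
theorem result {G : Type*} [Group G] [Fintype G] (p : ℕ) [Fact p.Prime] (M : Ideal Cfsg.AlgInt) (hM : Cfsg.IsPModular p M) (B : Set (Cfsg.IrrCharacter G)) (Q : Subgroup G) (e : Set (Cfsg.IrrCharacter (Subgroup.centralizer (Q : Set G)))) (hQe : Cfsg.IsBrauerPairOf p M B Q e) (T : Subgroup G) (hT : ∀ y : G, y ∈ T ↔ y ∈ Subgroup.normalizer (Q : Set G) ∧ Cfsg.StabilizesBlock (Subgroup.centralizer (Q : Set G)) e y) (F' : Set (Cfsg.IrrCharacter T)) (hF' : Cfsg.IsPBlock M F') (hF'e : ∀ t : T, Cfsg.blockCoeff F' t = Cfsg.subgroupBlockCoeff (Subgroup.centralizer (Q : Set G)) e (t : G)) (χ : Cfsg.IrrCharacter T) (hχ : χ ∈ F') (hχQ : ∀ q : G, q ∈ Q → ∀ t : T, ∀ t' : T, (t' : G) = q * (t : G) → (χ : T → ℂ) t' = (χ : T → ℂ) t) (hdeg : (Cfsg.charDegree (χ : T → ℂ)).factorization p + (Nat.card Q).factorization p = (Nat.card T).factorization p) : Cfsg.IsDefectGroup p M e ((Q ⊓ Subgroup.centralizer (Q : Set G)).subgroupOf (Subgroup.centralizer (Q : Set G))) ∧ ∀ R : Subgroup G, R ≤ T → IsPGroup p R → (∀ t ∈ T, t ∈ Subgroup.normalizer (R :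 Set G)) → R ≤ Q := by
  exact Cfsg.Agent.H79.weight_centric_radical hM B Q e hQe T hT F' hF'e χ hχ hχQ hdeg

end Cfsg.Agent.S4694
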