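import Cfsg.Statements.S4708
import Cfsg.Agent.H92.PrincCover

set_option autoImplicit false
open Cfsg

namespace Cfsg.Agent.S4708

/-- Let p be a prime, M a maximal ideal of the algebraic integers containing p, G a finite group and H a normal subgroup. Write λ(X) for the sum of the squares of the degrees of the irreducible characters in the principal p-block of a group X. Then λ(H) ≤ λ(G) ≤ [G : H]·λ(H). -/
theorem result {G : Type*} [Group G] [Finite G] (p : ℕ) [Fact p.Prime] (M : Ideal Cfsg.AlgInt) (hM : Cfsg.IsPModular p M) (H : Subgroup G) [H.Normal] : (∑ᶠ θ ∈ Cfsg.principalBlock M H, Cfsg.charDegree (θ : H → ℂ) ^ 2) ≤ (∑ᶠ χ ∈ Cfsg.principalBlock M G, Cfsg.charDegree (χ : G → ℂ) ^ 2) ∧ (∑ᶠ χ ∈ Cfsg.principalBlock M G, Cfsg.charDegree (χ : G → ℂ) ^ 2) ≤ H.index * ∑ᶠ θ ∈ Cfsg.principalBlock M H, Cfsg.charDegree (θ : H → ℂ) ^ 2 := by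
  classical
  letI : Fintype G := Fintype.ofFinite G
  letI : Fintype H := Fintype.ofFinite H
  exact Cfsg.Agent.H92.PrincCover.lambda_bounds H hM


end Cfsg.Agent.S4708
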