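import Cfsg.Statements.S4713
import Cfsg.Agent.Lib.ItoConv

set_option autoImplicit false
open Cfsg

namespace Cfsg.Agent.S4713

/-- Let p be a prime and G a finite p-solvable group. Then G has a normal abelian Sylow p-subgroup if and only if the degree of every irreducible character of G is prime to p. -/
theorem result {G : Type*} [Group G] [Finite G] (p : ℕ) [Fact p.Prime] (hsolv : Cfsg.IsPSolvable p G) (P : Sylow p G) : ((P : Subgroup G).Normal ∧ IsMulCommutative P) ↔ ∀ χ : Cfsg.IrrCharacter G, ¬ p ∣ Cfsg.charDegree (χ : G → ℂ) := by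
  have hp : p.Prime := Fact.out
  constructor
  · rintro ⟨hPn, hc⟩
    haveI := hPn
    refine Cfsg.Agent.ItoConv.pPrimeDeg_of_normal_abelian (P : Subgroup G) ?_ P.not_dvd_index
    intro a ha b hb
    have h1 := hc.is_comm.comm (⟨a, ha⟩ : P) ⟨b, hb⟩
    exact congrArg Subtype.val h1
  · intro h
    obtain ⟨P₀, h1, h2, h3, h4⟩ :=
      Cfsg.Agent.ItoConv.exists_normal_abelian_sylow p _ G rfl hsolv h
    haveI := h1
    have hle : P₀ ≤ (P : Subgroup G) := by
      have hsup : IsPGroup p (P₀ ⊔ (P : Subgroup G) : Subgroup G) :=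
        IsPGroup.to_sup_of_normal_left h2 P.isPGroup'
      have := P.is_maximal' hsup le_sup_right
      rw [← this]
      exact le_sup_left
    have heq : P₀ = (P : Subgroup G) := by
      apply le_antisymm hle
      rw [← Subgroup.relIndex_eq_one]
      have hmul := Subgroup.relIndex_mul_index hle
      have hdvd : P₀.relIndex (P : Subgroup G) ∣ Nat.card (P : Subgroup G) :=
        Subgroup.relIndex_dvd_card P₀ (P : Subgroup G)
      obtain ⟨k, hk⟩ := IsPGroup.iff_card.mp P.isPGroup'
      rw [hk] at hdvd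
      obtain ⟨j, -, hj⟩ := (Nat.dvd_prime_pow hp).mp hdvd
      rcases Nat.eq_zero_or_pos j with h0 | h0
      · rw [hj, h0, pow_zero]
      · exfalso
        apply h3
        rw [← hmul, hj]
        exact Dvd.dvd.mul_right (dvd_pow_self p h0.ne') _
    refine ⟨heq ▸ h1, ⟨⟨fun a b => ?_⟩⟩⟩
    apply Subtype.ext
    exact h4 a (heq ▸ a.2) b (heq ▸ b.2)

end Cfsg.Agent.S4713
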