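import Cfsg.Statements.S4714
import Cfsg.Agent.H79.PCBlockValues

set_option autoImplicit false
open Cfsg

namespace Cfsg.Agent.S4714

/-- Let p be a prime, M a maximal ideal of the algebraic integers containing p, D a p-subgroup of the finite group G with G = D·C_G(D), and B a p-block with defect group D. Let χ be a member of B having D in its kernel (there is exactly one, the canonical character of B). Then the irreducible characters in B are exactly the functions θ on G for which there is an irreducible character ζ of D such that θ(yx) = ζ(y)χ(x) whenever y ∈ D, x has order prime to p and x commutes with y, and θ(z) = 0 whenever the p-part of z does not lie in D. -/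
theorem result {G : Type*} [Group G] [Finite G] (p : ℕ) [Fact p.Prime] (M : Ideal Cfsg.AlgInt) (hM : Cfsg.IsPModular p M) (D : Subgroup G) (hD : IsPGroup p D) (hG : D ⊔ Subgroup.centralizer (D : Set G) = ⊤) (B : Set (Cfsg.IrrCharacter G)) (hB : Cfsg.IsPBlock M B) (hBD : Cfsg.IsDefectGroup p M B D) (χ : Cfsg.IrrCharacter G) (hχ : χ ∈ B) (hχD : ∀ y ∈ D, (χ : G → ℂ) y = (χ : G → ℂ) 1) : (∀ θ : Cfsg.IrrCharacter G, θ ∈ B ↔ ∃ ζ : Cfsg.IrrCharacter D, (∀ (y : D) (x : G), ¬ p ∣ orderOf x → Commute (y : G) x → (θ : G → ℂ) ((y : G) * x) = (ζ : D → ℂ) y * (χ : G → ℂ) x) ∧ (∀ z : G, (∀ y : G, Cfsg.IsPPart p z y → y ∉ D) → (θ : G → ℂ) z = 0)) ∧ ∀ ζ : Cfsg.IrrCharacter D, ∃ θ ∈ B, (∀ (y : D) (x : G), ¬ p ∣ orderOf x → Commute (y : G) x → (θ : G → ℂ) ((y : G) * x) = (ζ : D → ℂ) y * (χ : G → ℂ) x) ∧ (∀ z : G, (∀ y : G, Cfsg.IsPPart p z y → y ∉ D) → (θ : G → ℂ) z = 0) := by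
  classical
  obtain ⟨χ₀, rfl⟩ := hB
  have hfG : Fintype G := Fintype.ofFinite G
  have hp : p.Prime := hM.1
  have hMp := Cfsg.Agent.H20.isPrime_of_isPModular hM
  have hPn : D.Normal := Cfsg.Agent.H79.normal_of_sup_centralizer_eq_top D hG
  obtain ⟨-, hge⟩ := Cfsg.Agent.H79.exists_height_zero_of_defectGroup hM χ₀ D hBD
  obtain ⟨χb, hχb⟩ := Cfsg.Agent.H82.exists_deflate D χ hχD
  have hχdeg : (charDegree (χ : G → ℂ)).factorization p = D.index.factorization p := by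
    have h1 := (Cfsg.Agent.H79.degree_of_ker hp D χb (by
      rw [← Cfsg.Agent.H82.charDegree_inflate D χb, hχb]
      exact hge χ hχ)).1
    rw [← Cfsg.Agent.H82.charDegree_inflate D χb, hχb] at h1
    exact h1
  choose ζof ψof hof using Cfsg.Agent.H79.exists_prod_decomp D hG
  have hsame : ∀ θ ∈ blockOf M (χ₀ : G → ℂ), SameBlock M (χ : G → ℂ) (θ : G → ℂ) :=
    fun θ hθ => Cfsg.Agent.H80.sameBlock_trans hMp (Cfsg.Agent.H80.sameBlock_symm hχ) hθ
  have hfwd : ∀ θ ∈ blockOf M (χ₀ : G → ℂ),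
      (∀ (y : D) (x : G), ¬ p ∣ orderOf x → Commute (y : G) x →
        (θ : G → ℂ) ((y : G) * x) = (ζof θ : D → ℂ) y * (χ : G → ℂ) x) ∧
      (∀ z : G, (∀ y : G, Cfsg.IsPPart p z y → y ∉ D) → (θ : G → ℂ) z = 0) := by
    intro θ hθ
    obtain ⟨hreg, hvan⟩ := Cfsg.Agent.H79.component_values hM D hD hG χ θ hχD hχdeg
      (hsame θ hθ) (ζof θ) (ψof θ) (hof θ)
    constructor
    · intro y x hx hcomm
      have hxC : x ∈ Subgroup.centralizer (D : Set G) :=
        Cfsg.Agent.H79.regular_mem_centralizer hp D hD hG x hx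
      have e1 := hof θ y ⟨x, hxC⟩
      have e2 := hreg ⟨x, hxC⟩ (by rw [Subgroup.orderOf_mk]; exact hx)
      rw [e1, e2]
    · intro z hz
      obtain ⟨y₁, c, rfl⟩ := Cfsg.Agent.H79.exists_mul_of_sup_eq_top D hG z
      rw [hof θ y₁ c]
      have hc0 : (ψof θ).1 c = 0 := by
        apply hvan c
        intro z₀ hz₀
        by_contra hreg'
        have hz₀D : (z₀ : G) ∈ D := Subgroup.mem_subgroupOf.mp hz₀
        have hmemD : (y₁ : G) * (z₀ : G)⁻¹ ∈ D := D.mul_mem y₁.2 (D.inv_mem hz₀D)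
        have hcz : (z₀ : G) * (c : G) = (c : G) * (z₀ : G) :=
          Subgroup.mem_centralizer_iff.mp c.2 (z₀ : G) hz₀D
        apply hz ((y₁ : G) * (z₀ : G)⁻¹) _ hmemD
        refine ⟨(c : G) * (z₀ : G), ?_, ?_, ?_, ?_⟩
        · rw [← hcz]; group
        · exact Subgroup.mem_centralizer_iff.mp (c * z₀).2 _ hmemD
        · obtain ⟨k, hk⟩ := (IsPGroup.iff_orderOf.mp hD) ⟨_, hmemD⟩
          exact ⟨k, by rw [← hk, Subgroup.orderOf_mk]⟩
        · intro hdvd
          apply hreg'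
          rw [← Subgroup.orderOf_coe]
          exact hdvd
      rw [hc0, mul_zero]
  refine ⟨fun θ => ⟨fun hθ => ⟨ζof θ, hfwd θ hθ⟩, ?_⟩, ?_⟩
  · rintro ⟨ζ, h1, h2⟩
    obtain ⟨θ', hθ'B, hζ'⟩ := Cfsg.Agent.H79.exists_component hM D hD χ₀ ζ ζof ψof hof
    obtain ⟨h1', h2'⟩ := hfwd θ' hθ'B
    rw [hζ'] at h1'
    have hθeq : θ = θ' := by
      apply Subtype.ext
      funext g
      by_cases hg : ∃ y ∈ D, Cfsg.IsPPart p g y
      · obtain ⟨y, hyD, x, hyx, hcomm, -, hx⟩ := hg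
        rw [← hyx]
        exact (h1 ⟨y, hyD⟩ x hx hcomm).trans (h1' ⟨y, hyD⟩ x hx hcomm).symm
      · have hg' : ∀ y, Cfsg.IsPPart p g y → y ∉ D := fun y hy hyD => hg ⟨y, hyD, hy⟩
        rw [h2 g hg', h2' g hg']
    rw [hθeq]
    exact hθ'B
  · intro ζ
    obtain ⟨θ', hθ'B, hζ'⟩ := Cfsg.Agent.H79.exists_component hM D hD χ₀ ζ ζof ψof hof
    have h3 := hfwd θ' hθ'B
    rw [hζ'] at h3
    exact ⟨θ', hθ'B, h3⟩

end Cfsg.Agent.S4714
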