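import Cfsg.Statements.S4715
import Cfsg.Agent.H20.HeightCenter
import Cfsg.Agent.H80.ExtMain
import Cfsg.Agent.H80.NilFusion
import Cfsg.Agent.S0906
import Cfsg.Agent.S0908
import Cfsg.Agent.S0912

set_option autoImplicit false
set_option linter.style.haveILetI false
open Cfsg Cfsg.Agent.H80 Cfsg.Agent.H20 Cfsg.Agent.H84 Cfsg.Agent.H4

namespace Cfsg.Agent.S4715

/-- Let p be a prime, M a maximal ideal of the algebraic integers containing p, B a p-block of the finite group G with defect group D of order p^d, H = D·C_G(D), b a block of H inducing B, T the stabilizer of b in N_G(D) and e = [T : H] the inertial index of B; let n be the integer with p^n ≤ e < p^(n+1) and p^c the order of the centre of D. Then every irreducible character in B has height h with h + c ≤ n + d. -/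
theorem result {G : Type*} [Group G] [Finite G] (p : ℕ) [Fact p.Prime] (M : Ideal Cfsg.AlgInt) (hM : Cfsg.IsPModular p M) (B : Set (Cfsg.IrrCharacter G)) (hB : Cfsg.IsPBlock M B) (D : Subgroup G) (hBD : Cfsg.IsDefectGroup p M B D) (d : ℕ) (hDd : Nat.card D = p ^ d) (H : Subgroup G) (hH : H = D ⊔ Subgroup.centralizer (D : Set G)) (b : Set (Cfsg.IrrCharacter H)) (hind : Cfsg.IsInducedBlock M H b B) (T : Subgroup G) (hT : ∀ g : G, g ∈ T ↔ (g ∈ Subgroup.normalizer (D : Set G) ∧ ∀ θ ∈ b, ∀ θ' : Cfsg.IrrCharacter H, (∀ h h' : H, (h' : G) = g * h * g⁻¹ → (θ' : H → ℂ) h' = (θ : H → ℂ) h) → θ' ∈ b)) (e : ℕ) (he : H.relIndex T = e) (n : ℕ) (hn : p ^ n ≤ e ∧ e < p ^ (n + 1)) (c : ℕ) (hc : Nat.card (Subgroup.center D) = p ^ c) : ∀ χ ∈ B, Cfsg.blockHeight p B (χ : G → ℂ) + c ≤ n + d := by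
  classical
  haveI : Fintype G := Fintype.ofFinite G
  have hp : p.Prime := hM.1
  have hMp := isPrime_of_isPModular hM
  intro χ hχ
  have hb : IsPBlock M b := hind.1
  have hDH : D ≤ H := by rw [hH]; exact le_sup_left
  have hmap : (D.subgroupOf H).map H.subtype = D := Subgroup.map_subgroupOf_eq_of_le hDH
  have hDp : IsPGroup p D := by
    obtain ⟨g, -, S, hS⟩ := id hBD
    rw [hS]
    exact S.isPGroup'.map _
  have hR : IsPGroup p (D.subgroupOf H) := hDp.comap_subtype
  have hdB : blockDefect p B = d := by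
    have h1 := Cfsg.Agent.S0908.result p M hM B hB D hBD
    rw [hDd] at h1
    exact (Nat.pow_right_injective hp.two_le h1).symm
  have hHN : H ≤ Subgroup.normalizer (D : Set G) := by
    rw [hH]
    exact sup_le Subgroup.le_normalizer (Subgroup.centralizer_le_normalizer _)
  -- `b` has defect group `D`
  have hbR : IsDefectGroup p M b (D.subgroupOf H) := by
    obtain ⟨g, hg⟩ := Cfsg.Agent.S0906.result p M hM b hb
    obtain ⟨S⟩ : Nonempty (Sylow p (Subgroup.centralizer ({g} : Set H))) := inferInstance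
    have hR' : IsDefectGroup p M b ((S : Subgroup (Subgroup.centralizer ({g} : Set H))).map
        (Subgroup.centralizer ({g} : Set H)).subtype) := ⟨g, hg, S, rfl⟩
    have hcard' := Cfsg.Agent.S0908.result p M hM b hb _ hR'
    have hcore := Cfsg.Agent.S0912.result p M hM b hb _ hR'
    have hnormal : (D.subgroupOf H).Normal := by
      constructor
      intro n hn t
      rw [Subgroup.mem_subgroupOf] at hn ⊢
      exact (Subgroup.mem_normalizer_iff.mp (hHN t.2) (n : G)).mp hn
    have hle : D.subgroupOf H ≤ (S : Subgroup (Subgroup.centralizer ({g} : Set H))).map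
        (Subgroup.centralizer ({g} : Set H)).subtype :=
      le_trans (le_sSup (show D.subgroupOf H ∈ {N : Subgroup H | N.Normal ∧ IsPGroup p N} from
        ⟨hnormal, hR⟩)) hcore
    have hcardR : Nat.card (D.subgroupOf H) = p ^ d := by
      rw [← hDd]
      exact Nat.card_congr (Subgroup.subgroupOfEquivOfLe hDH).toEquiv
    have hdle := defect_le_of_isInducedBlock hM H b B hind
    have heq : D.subgroupOf H = (S : Subgroup (Subgroup.centralizer ({g} : Set H))).map
        (Subgroup.centralizer ({g} : Set H)).subtype := by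
      apply Subgroup.eq_of_le_of_card_ge hle
      rw [hcard', hcardR]
      exact Nat.pow_le_pow_right hp.pos (by rw [← hdB]; exact hdle)
    rw [heq]
    exact hR'
  -- the maximal Brauer pair
  have hH' : H = (D.subgroupOf H).map H.subtype ⊔
      Subgroup.centralizer (((D.subgroupOf H).map H.subtype : Subgroup G) : Set G) := by
    rw [hmap]; exact hH
  have ha : Subgroup.centralizer (((D.subgroupOf H).map H.subtype : Subgroup G) : Set G) ≤ H := by
    conv_rhs => rw [hH']
    exact le_sup_right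
  obtain ⟨e', hpair, hbc, hpairG⟩ :=
    exists_pair_of_sup_centralizer p hM H (D.subgroupOf H) hR hH' hb hbR hind
  have he₁ : IsPBlock M (upBlock H (D.subgroupOf H) e') := hpairG.1.2
  have hDef : IsDefectGroup p M B ((D.subgroupOf H).map H.subtype) := by
    rw [hmap]; exact hBD
  have hmax : IsMaximalBrauerPair p M B ((D.subgroupOf H).map H.subtype)
      (upBlock H (D.subgroupOf H) e') :=
    isMaximal_of_card_defectGroup p hM hpairG hDef le_rfl
  -- the stabilizer
  have hNH : ∀ g : G,
      g ∈ Subgroup.normalizer (((D.subgroupOf H).map H.subtype : Subgroup G) : Set G) →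
      g ∈ Subgroup.normalizer (H : Set G) := by
    intro g hg
    have h1 := mem_normalizer_sup hg (normalizer_le_normalizer_centralizer _ hg)
    have e : (((D.subgroupOf H).map H.subtype ⊔
        Subgroup.centralizer (((D.subgroupOf H).map H.subtype : Subgroup G) : Set G)
        : Subgroup G) : Set G) = (H : Set G) := by rw [← hH']
    rw [e] at h1
    exact h1
  have hT' : ∀ g : G, g ∈ T ↔
      (g ∈ Subgroup.normalizer (((D.subgroupOf H).map H.subtype : Subgroup G) : Set G) ∧
      ∀ θ ∈ b, ∀ θ' : IrrCharacter H,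
        (∀ h h' : H, (h' : G) = g * h * g⁻¹ → (θ' : H → ℂ) h' = (θ : H → ℂ) h) → θ' ∈ b) := by
    rw [hmap]; exact hT
  have hT₁ : ∀ g : G, g ∈ T ↔
      g ∈ Subgroup.normalizer (((D.subgroupOf H).map H.subtype : Subgroup G) : Set G) ∧
      StabilizesBlock (Subgroup.centralizer (((D.subgroupOf H).map H.subtype : Subgroup G) : Set G))
        (upBlock H (D.subgroupOf H) e') g := by
    intro g
    rw [hT']
    constructor
    · rintro ⟨hg, hS⟩
      refine ⟨hg, ?_⟩
      have hgH := hNH g hg
      have hgC := normalizer_le_normalizer_centralizer _ hg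
      rw [stab_cond_iff hMp H hb g hgH, autIrr_image_eq_iff_of_coeff H _ ha hbc g hgH hgC] at hS
      exact (stabilizesBlock_iff hMp _ he₁ g).mpr ⟨hgC, hS⟩
    · rintro ⟨hg, hS⟩
      refine ⟨hg, ?_⟩
      have hgH := hNH g hg
      have hgC := normalizer_le_normalizer_centralizer _ hg
      obtain ⟨hgC', hS'⟩ := (stabilizesBlock_iff hMp _ he₁ g).mp hS
      rw [stab_cond_iff hMp H hb g hgH, autIrr_image_eq_iff_of_coeff H _ ha hbc g hgH hgC]
      exact hS'
  have he0 : 0 < e := lt_of_lt_of_le (pow_pos hp.pos n) hn.1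
  -- the orbits of the stabilizer on the centre
  have hfus : ∀ z ∈ (D.subgroupOf H).map H.subtype,
      (∀ d ∈ (D.subgroupOf H).map H.subtype, d * z = z * d) →
      Set.ncard {z' : G | ∃ t : G,
        conjPair t ⟨(D.subgroupOf H).map H.subtype, upBlock H (D.subgroupOf H) e'⟩ =
          ⟨(D.subgroupOf H).map H.subtype, upBlock H (D.subgroupOf H) e'⟩ ∧
        t * z * t⁻¹ = z'} ≤ e := by
    intro z hz hzc
    rw [hmap] at hz hzc
    have hHz : ∀ h ∈ H, h * z = z * h := by
      have h1 : H ≤ Subgroup.centralizer ({z} : Set G) := by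
        rw [hH]
        apply sup_le
        · intro d hd
          rw [Subgroup.mem_centralizer_singleton_iff]
          exact hzc d hd
        · intro x hx
          rw [Subgroup.mem_centralizer_singleton_iff]
          exact (Subgroup.mem_centralizer_iff.mp hx z hz).symm
      intro h hh
      exact Subgroup.mem_centralizer_singleton_iff.mp (h1 hh)
    have hwd : ∀ t₁ t₂ : T, (QuotientGroup.leftRel (H.subgroupOf T)) t₁ t₂ →
        (t₁ : G) * z * (t₁ : G)⁻¹ = (t₂ : G) * z * (t₂ : G)⁻¹ := by
      intro t₁ t₂ h12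
      rw [QuotientGroup.leftRel_apply, Subgroup.mem_subgroupOf] at h12
      have h1 := hHz _ h12
      have h2 : ((t₁⁻¹ * t₂ : T) : G) = (t₁ : G)⁻¹ * (t₂ : G) := by simp
      rw [h2] at h1
      calc (t₁ : G) * z * (t₁ : G)⁻¹
          = (t₁ : G) * (z * ((t₁ : G)⁻¹ * (t₂ : G))) * (t₂ : G)⁻¹ := by group
        _ = (t₁ : G) * ((t₁ : G)⁻¹ * (t₂ : G) * z) * (t₂ : G)⁻¹ := by rw [h1]
        _ = (t₂ : G) * z * (t₂ : G)⁻¹ := by group
    obtain ⟨F, hF⟩ : ∃ F : T ⧸ H.subgroupOf T → G,
        ∀ t : T, F (QuotientGroup.mk t) = (t : G) * z * (t : G)⁻¹ :=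
      ⟨fun q => Quotient.liftOn' q (fun t : T => (t : G) * z * (t : G)⁻¹) hwd, fun t => rfl⟩
    have hsub : {z' : G | ∃ t : G,
        conjPair t ⟨(D.subgroupOf H).map H.subtype, upBlock H (D.subgroupOf H) e'⟩ =
          ⟨(D.subgroupOf H).map H.subtype, upBlock H (D.subgroupOf H) e'⟩ ∧
        t * z * t⁻¹ = z'} ⊆ F '' Set.univ := by
      rintro z' ⟨t, ht, rfl⟩
      obtain ⟨ht1, ht2⟩ := stab_of_conjPair_eq hMp he₁ ht
      have htT : t ∈ T := (hT₁ t).mpr ⟨ht1, ht2⟩
      exact ⟨QuotientGroup.mk (⟨t, htT⟩ : T), Set.mem_univ _, hF _⟩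
    have h1 := Set.ncard_le_ncard hsub (Set.toFinite _)
    have h2 : (F '' Set.univ).ncard ≤ (Set.univ : Set (T ⧸ H.subgroupOf T)).ncard :=
      Set.ncard_image_le (Set.toFinite _)
    rw [Set.ncard_univ] at h2
    have h3 : Nat.card (T ⧸ H.subgroupOf T) = e := he
    omega
  -- the centre
  obtain ⟨W, hWdef⟩ : ∃ W : Subgroup G, W = (Subgroup.center D).map D.subtype := ⟨_, rfl⟩
  have hW : ∀ z : G, z ∈ W ↔ z ∈ (D.subgroupOf H).map H.subtype ∧
      ∀ d ∈ (D.subgroupOf H).map H.subtype, d * z = z * d := by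
    intro z
    rw [hmap, hWdef]
    constructor
    · rintro ⟨x, hx, rfl⟩
      refine ⟨x.2, fun d hd => ?_⟩
      have h1 := Subgroup.mem_center_iff.mp hx ⟨d, hd⟩
      exact congrArg Subtype.val h1
    · rintro ⟨hz, hzc⟩
      refine ⟨⟨z, hz⟩, ?_, rfl⟩
      show (⟨z, hz⟩ : D) ∈ Subgroup.center D
      rw [Subgroup.mem_center_iff]
      intro g
      exact Subtype.ext (hzc g g.2)
  have hWcard : Nat.card W = p ^ c := by
    rw [hWdef, Subgroup.card_map_of_injective (Subgroup.subtype_injective _), hc]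
  have hmain := height_center_bound hM hmax e he0 hfus W hW χ hχ
  rw [hWcard, hdB] at hmain
  have h1 : p ^ (c + blockHeight p B (χ : G → ℂ)) < p ^ (n + 1 + d) := by
    rw [pow_add, pow_add]
    calc p ^ c * p ^ blockHeight p B (χ : G → ℂ) ≤ e * p ^ d := hmain
      _ < p ^ (n + 1) * p ^ d := Nat.mul_lt_mul_of_pos_right hn.2 (pow_pos hp.pos d)
  have h2 := (Nat.pow_lt_pow_iff_right hp.one_lt).mp h1
  omega

end Cfsg.Agent.S4715
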