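import Cfsg.Statements.S4726
import Cfsg.Agent.H20.CentDefect

set_option autoImplicit false
set_option linter.style.haveILetI false
open Cfsg

namespace Cfsg.Agent.S4726

/-- Let p be a prime, M a maximal ideal of the algebraic integers containing p, H a subgroup of the finite group G and b a p-block of H with defect group D₀ such that C_G(D₀) ≤ H. Then b induces a block of G, and for every block B of G induced by b there is a defect group D of B with Z(D) ≤ Z(D₀) ≤ D₀ ≤ D (as subgroups of G). In particular, if the defect groups of B are abelian then D₀ is a defect group of B. -/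
theorem result {G : Type*} [Group G] [Finite G] (p : ℕ) [Fact p.Prime] (M : Ideal Cfsg.AlgInt) (hM : Cfsg.IsPModular p M) (H : Subgroup G) (b : Set (Cfsg.IrrCharacter ↥H)) (hb : Cfsg.IsPBlock M b) (D₀ : Subgroup ↥H) (hD₀ : Cfsg.IsDefectGroup p M b D₀) (hC : Subgroup.centralizer ((D₀.map H.subtype : Subgroup G) : Set G) ≤ H) : Cfsg.InducedBlockDefined M H b ∧ ∀ B : Set (Cfsg.IrrCharacter G), Cfsg.IsInducedBlock M H b B → (∃ D : Subgroup G, Cfsg.IsDefectGroup p M B D ∧ (Subgroup.center ↥D).map D.subtype ≤ ((Subgroup.center ↥D₀).map D₀.subtype).map H.subtype ∧ ((Subgroup.center ↥D₀).map D₀.subtype).map H.subtype ≤ D₀.map H.subtype ∧ D₀.map H.subtype ≤ D) ∧ (∀ D : Subgroup G, Cfsg.IsDefectGroup p M B D → IsMulCommutative ↥D → Cfsg.IsDefectGroup p M B (D₀.map H.subtype)) := by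
  classical
  letI : Fintype G := Fintype.ofFinite G
  letI : Fintype H := Fintype.ofFinite H
  have hMp := Cfsg.Agent.H20.isPrime_of_isPModular hM
  obtain ⟨ψ, rfl⟩ := hb
  obtain ⟨Q, hQdef⟩ : ∃ Q : Subgroup G, Q = D₀.map H.subtype := ⟨_, rfl⟩
  rw [← hQdef] at hC ⊢
  have hD₀p : IsPGroup p D₀ := Cfsg.Agent.H20.isPGroup_of_isDefectGroup hD₀
  have hQp : IsPGroup p Q := by rw [hQdef]; exact hD₀p.map _
  obtain ⟨N₀, ξ₀, hQN₀, hCN₀, hN₀N, hξ₀def, hξ₀iff⟩ :=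
    Cfsg.Agent.H20.exists_normalizer_root' hM H ψ D₀ Q hQdef hD₀ hC
  letI : Fintype ↥N₀ := Fintype.ofFinite _
  obtain ⟨χ₀, hχ₀, -⟩ := Cfsg.Agent.H20.exists_isInducedBlock hM hQp hQN₀ hCN₀ hN₀N ξ₀
  have hψχ₀ := (hξ₀iff χ₀).mp (fun g => hχ₀.2.2 ξ₀ (Cfsg.Agent.H80.mem_blockOf_self hMp ξ₀) χ₀
    (Cfsg.Agent.H80.mem_blockOf_self hMp χ₀) g)
  refine ⟨⟨_, Cfsg.Agent.H79.isInducedBlock_of_congr hMp H ψ χ₀ hψχ₀⟩, ?_⟩
  intro B hB
  obtain ⟨χ, rfl⟩ := hB.2.1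
  have hind : ∀ g, Cfsg.MemLocalIdeal M (Cfsg.inducedCentralChar H ψ.1 g - Cfsg.centralChar χ.1 g) :=
    fun g => hB.2.2 ψ (Cfsg.Agent.H80.mem_blockOf_self hMp ψ) χ
      (Cfsg.Agent.H80.mem_blockOf_self hMp χ) g
  obtain ⟨D, hD, hQD, hZ⟩ := Cfsg.Agent.H20.cent_defect_aux hM _ H ψ D₀ χ hD₀
    (by rw [← hQdef]; exact hC) hind le_rfl
  rw [← hQdef] at hQD hZ
  constructor
  · refine ⟨D, hD, ?_, ?_, hQD⟩
    · rintro _ ⟨z, hz, rfl⟩
      have hzc : ∀ d ∈ D, (z : G) * d = d * (z : G) := by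
        intro d hd
        have h := Subgroup.mem_center_iff.mp hz ⟨d, hd⟩
        exact (congrArg Subtype.val h).symm
      have hzQ := hZ (z : G) z.2 hzc
      rw [hQdef] at hzQ
      obtain ⟨d₀, hd₀, hd₀z⟩ := hzQ
      refine ⟨d₀, ⟨⟨d₀, hd₀⟩, ?_, rfl⟩, hd₀z⟩
      apply Subgroup.mem_center_iff.mpr
      intro e
      apply Subtype.ext
      apply Subtype.ext
      have heD : ((e : H) : G) ∈ D := hQD (by rw [hQdef]; exact ⟨(e : H), e.2, rfl⟩)
      have h := hzc _ heD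
      have hd₀z' : ((d₀ : H) : G) = (z : G) := hd₀z
      show ((e : H) : G) * ((d₀ : H) : G) = ((d₀ : H) : G) * ((e : H) : G)
      rw [hd₀z']
      exact h.symm
    · rw [hQdef]
      exact Subgroup.map_mono (Subgroup.map_subtype_le _)
  · intro D' hD' hcomm
    obtain ⟨x, hx⟩ := Cfsg.Agent.H80.isDefectGroup_conj_eq p hM ⟨χ, rfl⟩ hD' hD
    have hall : ∀ z ∈ D, ∀ d ∈ D, z * d = d * z := by
      rw [← hx]
      rintro _ ⟨z₀, hz₀, rfl⟩ _ ⟨d₀, hd₀, rfl⟩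
      have hc : z₀ * d₀ = d₀ * z₀ := by
        have h := hcomm.is_comm.comm (⟨z₀, hz₀⟩ : D') ⟨d₀, hd₀⟩
        exact congrArg Subtype.val h
      show x * z₀ * x⁻¹ * (x * d₀ * x⁻¹) = x * d₀ * x⁻¹ * (x * z₀ * x⁻¹)
      calc x * z₀ * x⁻¹ * (x * d₀ * x⁻¹) = x * (z₀ * d₀) * x⁻¹ := by group
        _ = x * (d₀ * z₀) * x⁻¹ := by rw [hc]
        _ = x * d₀ * x⁻¹ * (x * z₀ * x⁻¹) := by group
    have hDQ : D = Q := le_antisymm (fun z hz => hZ z hz (hall z hz)) hQD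
    rw [← hDQ]
    exact hD

end Cfsg.Agent.S4726
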