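import Cfsg.Statements.S4734
import Cfsg.Agent.H5.BlockKer

set_option autoImplicit false
open Cfsg

namespace Cfsg.Agent.S4734

/-- Let p be a prime, π a set of primes containing p, M a maximal ideal of the algebraic integers containing p, B a p-block of the finite group G with defect group D, and B₁ the block of N_G(D) with defect group D inducing B. Write O_π'(X) for the largest normal subgroup of X whose order has no prime divisor in π, and suppose every element of O_π'(N_G(D)) lies in the kernel of every member of B₁. Let G₀ be a subgroup and B₀ a block of G₀ with defect group D₀ such that C_G(D₀) ≤ G₀ and B₀ induces B. Then every element of O_π'(G₀) lies in the kernel of every member of B₀. -/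
theorem result {G : Type*} [Group G] [Finite G] (p : ℕ) [Fact p.Prime] (M : Ideal Cfsg.AlgInt) (hM : Cfsg.IsPModular p M) (π : Set ℕ) (hpπ : p ∈ π) (B : Set (Cfsg.IrrCharacter G)) (hB : Cfsg.IsPBlock M B) (D : Subgroup G) (hBD : Cfsg.IsDefectGroup p M B D) (B₁ : Set (Cfsg.IrrCharacter ↥(Subgroup.normalizer (D : Set G)))) (hB₁ : Cfsg.IsInducedBlock M (Subgroup.normalizer (D : Set G)) B₁ B) (hB₁D : Cfsg.IsDefectGroup p M B₁ (D.subgroupOf (Subgroup.normalizer (D : Set G)))) (hker : ∀ n : ↥(Subgroup.normalizer (D : Set G)), n ∈ Cfsg.piCore {q | q ∉ π} ↥(Subgroup.normalizer (D : Set G)) → n ∈ Cfsg.blockKer B₁) (G₀ : Subgroup G) (B₀ : Set (Cfsg.IrrCharacter ↥G₀)) (hB₀ : Cfsg.IsInducedBlock M G₀ B₀ B) (D₀ : Subgroup ↥G₀) (hD₀ : Cfsg.IsDefectGroup p M B₀ D₀) (hC : Subgroup.centralizer ((D₀.map G₀.subtype : Subgroup G) : Set G) ≤ G₀) : ∀ x : ↥G₀, x ∈ Cfsg.piCore {q | q ∉ π} ↥G₀ → x ∈ Cfsg.blockKer B₀ := by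
  classical
  letI : Fintype G := Fintype.ofFinite G
  letI : Fintype (Subgroup.normalizer (D : Set G)) := Fintype.ofFinite _
  letI : Fintype G₀ := Fintype.ofFinite _
  have hMp := Cfsg.Agent.H20.isPrime_of_isPModular hM
  obtain ⟨χ₀, rfl⟩ := hB
  obtain ⟨ξ₁, rfl⟩ := hB₁.1
  intro x hx
  show ∀ χ ∈ B₀, (χ : ↥G₀ → ℂ) x = (χ : ↥G₀ → ℂ) 1
  intro ψ hψ
  obtain ⟨ψ₀, hψ₀⟩ := hB₀.1
  have hB₀eq : B₀ = Cfsg.blockOf M ψ.1 := by
    rw [hψ₀] at hψ ⊢
    exact (Cfsg.Agent.H80.blockOf_eq_of_mem hMp hψ).symm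
  rw [hB₀eq] at hD₀
  have hind : Cfsg.Agent.H5.BlockKer.IndVia M G₀.subtype ψ.1 χ₀.1 := fun g => by
    rw [Cfsg.Agent.H5.BlockKer.icc_subtype]
    exact hB₀.2.2 ψ hψ χ₀ (Cfsg.Agent.H80.mem_blockOf_self hMp χ₀) g
  letI : Fintype (Subgroup.normalizer (D₀ : Set G₀)) := Fintype.ofFinite _
  have hCX : Subgroup.centralizer ((D₀.map G₀.subtype : Subgroup G) : Set G)
      ≤ G₀.subtype.range := by
    rw [Subgroup.range_subtype]
    exact hC
  obtain ⟨ξ₃, hind3, hind3G, hC3⟩ := Cfsg.Agent.H5.BlockKer.down_step hM G₀.subtype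
    (Subgroup.subtype_injective _) ψ χ₀.1 hind D₀ hD₀ hCX
  have hmain := Cfsg.Agent.H5.BlockKer.claimD hM π hpπ χ₀ D hBD ξ₁ hB₁ hB₁D hker _
    (Subgroup.normalizer (D₀ : Set G₀)) (G₀.subtype.comp (Subgroup.normalizer (D₀ : Set G₀)).subtype)
    ((Subgroup.subtype_injective _).comp (Subgroup.subtype_injective _)) ξ₃ hind3G
    (D₀.subgroupOf (Subgroup.normalizer (D₀ : Set G₀))) Subgroup.normal_in_normalizer
    ((Cfsg.Agent.H20.isPGroup_of_isDefectGroup hD₀).comap_of_injective _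
      (Subgroup.subtype_injective _)) hC3 rfl
  exact (Cfsg.Agent.H5.BlockKer.ker_iff hM _ (Subgroup.subtype_injective _) ξ₃ ψ hind3
    (Cfsg.piCore {q | q ∉ π} _) (Cfsg.Agent.H5.BlockKer.not_dvd_card_piCore π hpπ)).mpr
      (fun y hy => hmain y (Cfsg.Agent.H5.BlockKer.mem_piCore_of_map_mem _ _
        (Subgroup.subtype_injective _) y hy)) x hx

end Cfsg.Agent.S4734
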