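import Cfsg.Statements.S4727
import Cfsg.Agent.H5.BlockKer
import Cfsg.Agent.S4734

set_option autoImplicit false
open Cfsg

namespace Cfsg.Agent.S4727

/-- Let p be a prime, π a set of primes containing p, M a maximal ideal of the algebraic integers containing p, and B a p-block of the finite group G with defect group D; let B₁ be the block of N_G(D) with defect group D that induces B (the Brauer correspondent of B). Suppose every element of O_π'(N_G(D)), the largest normal subgroup of N_G(D) whose order has no prime divisor in π, lies in the kernel of every member of B₁. If y is a p-element whose centralizer C has a normal Hall π'-subgroup (every element of C whose order has no prime divisor in π lies in O_π'(C)), then χ(y x) = χ(y) for every χ ∈ B and every x ∈ C whose order has no prime divisor in π. -/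
theorem result {G : Type*} [Group G] [Finite G] (p : ℕ) [Fact p.Prime] (M : Ideal Cfsg.AlgInt) (hM : Cfsg.IsPModular p M) (π : Set ℕ) (hpπ : p ∈ π) (B : Set (Cfsg.IrrCharacter G)) (hB : Cfsg.IsPBlock M B) (D : Subgroup G) (hBD : Cfsg.IsDefectGroup p M B D) (B₁ : Set (Cfsg.IrrCharacter ↥(Subgroup.normalizer (D : Set G)))) (hB₁ : Cfsg.IsInducedBlock M (Subgroup.normalizer (D : Set G)) B₁ B) (hB₁D : Cfsg.IsDefectGroup p M B₁ (D.subgroupOf (Subgroup.normalizer (D : Set G)))) (hker : ∀ n : ↥(Subgroup.normalizer (D : Set G)), n ∈ Cfsg.piCore {q | q ∉ π} ↥(Subgroup.normalizer (D : Set G)) → n ∈ Cfsg.blockKer B₁) (y : G) (hy : ∃ k : ℕ, orderOf y = p ^ k) (hC : ∀ x : ↥(Subgroup.centralizer ({y} : Set G)), (∀ q : ℕ, q.Prime → q ∣ orderOf x → q ∉ π) → x ∈ Cfsg.piCore {q | q ∉ π} ↥(Subgroup.centralizer ({y} : Set G))) : ∀ χ ∈ B, ∀ x : G, x ∈ Subgroup.centralizer ({y} : Set G) → (∀ q : ℕ, q.Prime → q ∣ orderOf x → q ∉ π) → (χ : G → ℂ) (y * x) = (χ : G → ℂ) y := by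
  classical
  letI : Fintype G := Fintype.ofFinite G
  letI : Fintype (Subgroup.centralizer ({y} : Set G)) := Fintype.ofFinite _
  have hMp := Cfsg.Agent.H20.isPrime_of_isPModular hM
  obtain ⟨χ₁, rfl⟩ := hB
  intro χ hχ x hxC hxπ
  obtain ⟨k, hk⟩ := hy
  have hyC : y ∈ Subgroup.centralizer ({y} : Set G) :=
    Subgroup.mem_centralizer_singleton_iff.mpr rfl
  have hϑ : Cfsg.IsClassFunction (Subgroup.centralizer ({y} : Set G))
      (fun c : Subgroup.centralizer ({y} : Set G) => (χ : G → ℂ) (y * (c : G))) := by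
    intro c h
    show (χ : G → ℂ) (y * ((h * c * h⁻¹ : Subgroup.centralizer ({y} : Set G)) : G))
      = (χ : G → ℂ) (y * (c : G))
    have hhx : Commute (h : G) y := Subgroup.mem_centralizer_singleton_iff.mp h.2
    have e : y * ((h * c * h⁻¹ : Subgroup.centralizer ({y} : Set G)) : G)
        = (h : G) * (y * (c : G)) * (h : G)⁻¹ := by
      push_cast
      rw [← mul_assoc, ← mul_assoc, ← hhx.eq]
      simp only [mul_assoc]
    rw [e, Cfsg.Agent.H4.irr_isClassFunction]
  have h1 := Cfsg.Agent.H20.classFunction_eq_sum_blockPart (M := M) hMp hϑ ⟨x, hxC⟩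
  have h2 := Cfsg.Agent.H20.classFunction_eq_sum_blockPart (M := M) hMp hϑ 1
  have e2 : (χ : G → ℂ) (y * ((1 : Subgroup.centralizer ({y} : Set G)) : G))
      = (χ : G → ℂ) y := by
    rw [OneMemClass.coe_one, mul_one]
  rw [← e2]
  refine h1.trans (Eq.trans ?_ h2.symm)
  apply Finset.sum_congr rfl
  intro b hb
  obtain ⟨ξ₀, rfl⟩ := Cfsg.Agent.H80.mem_blocksFinset.mp hb
  have hxreg : ¬ p ∣ orderOf (⟨x, hxC⟩ : Subgroup.centralizer ({y} : Set G)) := by
    rw [Subgroup.orderOf_mk]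
    intro hdvd
    exact hxπ p (Fact.out) hdvd hpπ
  by_cases hindb : Cfsg.IsInducedBlock M (Subgroup.centralizer ({y} : Set G))
      (Cfsg.blockOf M (ξ₀ : Subgroup.centralizer ({y} : Set G) → ℂ)) (Cfsg.blockOf M (χ₁ : G → ℂ))
  · apply finsum_mem_congr rfl
    intro ψ hψ
    congr 1
    obtain ⟨D₀, hD₀⟩ := Cfsg.Agent.H5.BlockKer.exists_isDefectGroup hM ξ₀
    have hz : ∀ c : Subgroup.centralizer ({y} : Set G),
        c * (⟨y, hyC⟩ : Subgroup.centralizer ({y} : Set G)) = ⟨y, hyC⟩ * c := by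
      intro c
      apply Subtype.ext
      exact Subgroup.mem_centralizer_singleton_iff.mp c.2
    haveI hn : (Subgroup.zpowers (⟨y, hyC⟩ : Subgroup.centralizer ({y} : Set G))).Normal := by
      constructor
      rintro n ⟨i, rfl⟩ c
      have hc : Commute c (⟨y, hyC⟩ : Subgroup.centralizer ({y} : Set G)) := hz c
      have e : c * (⟨y, hyC⟩ : Subgroup.centralizer ({y} : Set G)) ^ i * c⁻¹
          = (⟨y, hyC⟩ : Subgroup.centralizer ({y} : Set G)) ^ i := by
        rw [(hc.zpow_right i).eq, mul_inv_cancel_right]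
      show c * (⟨y, hyC⟩ : Subgroup.centralizer ({y} : Set G)) ^ i * c⁻¹ ∈ _
      rw [e]
      exact ⟨i, rfl⟩
    have hpg : IsPGroup p (Subgroup.zpowers (⟨y, hyC⟩ : Subgroup.centralizer ({y} : Set G))) := by
      apply IsPGroup.of_card (n := k)
      rw [Nat.card_zpowers, Subgroup.orderOf_mk]
      exact hk
    have hyD₀ : (⟨y, hyC⟩ : Subgroup.centralizer ({y} : Set G)) ∈ D₀ :=
      Cfsg.Agent.H79.normal_le_defectGroup hM _ hpg ξ₀ D₀ hD₀ (Subgroup.mem_zpowers _)
    have hCC : Subgroup.centralizer ((D₀.map (Subgroup.centralizer ({y} : Set G)).subtype :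
        Subgroup G) : Set G) ≤ Subgroup.centralizer ({y} : Set G) := by
      intro g hg
      rw [Subgroup.mem_centralizer_singleton_iff]
      exact (Subgroup.mem_centralizer_iff.mp hg y ⟨⟨y, hyC⟩, hyD₀, rfl⟩).symm
    exact Cfsg.Agent.S4734.result p M hM π hpπ (Cfsg.blockOf M (χ₁ : G → ℂ)) ⟨χ₁, rfl⟩ D hBD B₁
      hB₁ hB₁D hker (Subgroup.centralizer ({y} : Set G)) _ hindb D₀ hD₀ hCC ⟨x, hxC⟩
      (hC ⟨x, hxC⟩ (fun q hq hdvd => hxπ q hq (by rwa [Subgroup.orderOf_mk] at hdvd))) ψ hψ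
  · rw [Cfsg.Agent.H20.second_main hM y hk χ₁ χ hχ ξ₀ hindb ⟨x, hxC⟩ hxreg,
      Cfsg.Agent.H20.second_main hM y hk χ₁ χ hχ ξ₀ hindb 1 (by
        rw [orderOf_one]
        exact (Fact.out : p.Prime).one_lt.ne' ∘ Nat.dvd_one.mp)]

end Cfsg.Agent.S4727
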