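import Cfsg.Statements.S4728
import Cfsg.Agent.H5.BlockKer

set_option autoImplicit false
open Cfsg

namespace Cfsg.Agent.S4728

/-- Let p be a prime, π a set of primes containing p, M a maximal ideal of the algebraic integers containing p, B a p-block of the finite group G with defect group D, and B₁ the block of N_G(D) with defect group D inducing B. Let D₀ be a p-subgroup, H₀ = D₀·C_G(D₀), and b a block of H₀ inducing B. Write O_π'(X) for the largest normal subgroup of X whose order has no prime divisor in π. Suppose that O_π'(C_G(D₀)) is a normal Hall π'-subgroup of C_G(D₀) (it contains every element of C_G(D₀) whose order has no prime divisor in π) and that every element of it lies in the kernel of every member of b. Then every element of O_π'(N_G(D)) lies in the kernel of every member of B₁. -/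
theorem result {G : Type*} [Group G] [Finite G] (p : ℕ) [Fact p.Prime] (M : Ideal Cfsg.AlgInt) (hM : Cfsg.IsPModular p M) (π : Set ℕ) (hpπ : p ∈ π) (B : Set (Cfsg.IrrCharacter G)) (hB : Cfsg.IsPBlock M B) (D : Subgroup G) (hBD : Cfsg.IsDefectGroup p M B D) (B₁ : Set (Cfsg.IrrCharacter ↥(Subgroup.normalizer (D : Set G)))) (hB₁ : Cfsg.IsInducedBlock M (Subgroup.normalizer (D : Set G)) B₁ B) (hB₁D : Cfsg.IsDefectGroup p M B₁ (D.subgroupOf (Subgroup.normalizer (D : Set G)))) (D₀ : Subgroup G) (hD₀ : IsPGroup p D₀) (H₀ : Subgroup G) (hH₀ : H₀ = D₀ ⊔ Subgroup.centralizer (D₀ : Set G)) (b : Set (Cfsg.IrrCharacter ↥H₀)) (hb : Cfsg.IsInducedBlock M H₀ b B) (hcompl : ∀ x : ↥(Subgroup.centralizer (D₀ : Set G)), (∀ q : ℕ, q.Prime → q ∣ orderOf x → q ∉ π) → x ∈ Cfsg.piCore {q | q ∉ π} ↥(Subgroup.centralizer (D₀ : Set G))) (hkerb : ∀ x : ↥(Subgroup.centralizer (D₀ : Set G)), x ∈ Cfsg.piCore {q | q ∉ π} ↥(Subgroup.centralizer (D₀ : Set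 G)) → ∀ θ ∈ b, ∀ h : ↥H₀, (h : G) = (x : G) → (θ : ↥H₀ → ℂ) h = (θ : ↥H₀ → ℂ) 1) : ∀ n : ↥(Subgroup.normalizer (D : Set G)), n ∈ Cfsg.piCore {q | q ∉ π} ↥(Subgroup.normalizer (D : Set G)) → n ∈ Cfsg.blockKer B₁ := by
  classical
  letI : Fintype G := Fintype.ofFinite G
  letI : Fintype (Subgroup.normalizer (D : Set G)) := Fintype.ofFinite _
  letI : Fintype H₀ := Fintype.ofFinite _
  have hMp := Cfsg.Agent.H20.isPrime_of_isPModular hM
  obtain ⟨χ₀, rfl⟩ := hB
  obtain ⟨ξ₁, rfl⟩ := hB₁.1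
  obtain ⟨θ₀, rfl⟩ := hb.1
  have hθ₀ := Cfsg.Agent.H80.mem_blockOf_self hMp θ₀
  have hind : Cfsg.Agent.H5.BlockKer.IndVia M H₀.subtype θ₀.1 χ₀.1 := fun g => by
    rw [Cfsg.Agent.H5.BlockKer.icc_subtype]
    exact hb.2.2 θ₀ hθ₀ χ₀ (Cfsg.Agent.H80.mem_blockOf_self hMp χ₀) g
  have hDH : D₀ ≤ H₀ := by rw [hH₀]; exact le_sup_left
  have hCH : Subgroup.centralizer (D₀ : Set G) ≤ H₀ := by rw [hH₀]; exact le_sup_right
  have hHN : H₀ ≤ Subgroup.normalizer (D₀ : Set G) := by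
    rw [hH₀]
    exact sup_le Subgroup.le_normalizer (Subgroup.centralizer_le_normalizer _)
  have hPn : (D₀.subgroupOf H₀).Normal :=
    (Subgroup.normal_subgroupOf_iff_le_normalizer hDH).mpr hHN
  have hmap : (D₀.subgroupOf H₀).map H₀.subtype = D₀ := Subgroup.map_subgroupOf_eq_of_le hDH
  have hC : Subgroup.centralizer ((((D₀.subgroupOf H₀).map H₀.subtype : Subgroup G)) : Set G)
      ≤ H₀.subtype.range := by
    rw [hmap, Subgroup.range_subtype]
    exact hCH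
  have hK : ∀ g : G, g ∈ Cfsg.piCoreOf {q | q ∉ π} (Subgroup.centralizer (D₀ : Set G)) ↔
      g ∈ Subgroup.centralizer ((((D₀.subgroupOf H₀).map H₀.subtype : Subgroup G)) : Set G) ∧
        ∀ q : ℕ, q.Prime → q ∣ orderOf g → q ∉ π := by
    intro g
    rw [hmap]
    constructor
    · rintro ⟨c, hc, rfl⟩
      refine ⟨c.2, ?_⟩
      intro q hq hdvd
      have h1 : orderOf c ∣ Nat.card (Cfsg.piCore {q | q ∉ π}
          ↥(Subgroup.centralizer (D₀ : Set G))) := by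
        have := orderOf_dvd_natCard (⟨c, hc⟩ : Cfsg.piCore {q | q ∉ π}
          ↥(Subgroup.centralizer (D₀ : Set G)))
        rwa [Subgroup.orderOf_mk] at this
      have hdvd' : q ∣ orderOf c := by
        rw [← Subgroup.orderOf_coe]
        exact hdvd
      exact Cfsg.Agent.Lib.Helper30.piCore_isPi _ q hq (dvd_trans hdvd' h1)
    · rintro ⟨hg, hgπ⟩
      exact ⟨⟨g, hg⟩, hcompl ⟨g, hg⟩ (fun q hq hdvd => hgπ q hq
        (by rwa [Subgroup.orderOf_mk] at hdvd)), rfl⟩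
  have hχK : ∀ x : ↥H₀, H₀.subtype x ∈ Cfsg.piCoreOf {q | q ∉ π}
      (Subgroup.centralizer (D₀ : Set G)) → θ₀.1 x = θ₀.1 1 := by
    rintro x ⟨c, hc, hcx⟩
    exact hkerb c hc θ₀ hθ₀ x hcx.symm
  intro n hn
  show ∀ χ ∈ Cfsg.blockOf M ξ₁.1,
    (χ : ↥(Subgroup.normalizer (D : Set G)) → ℂ) n = (χ : ↥(Subgroup.normalizer (D : Set G)) → ℂ) 1
  exact Cfsg.Agent.H5.BlockKer.claimUp hM π hpπ χ₀ D hBD ξ₁ hB₁ hB₁D _ ↥H₀ H₀.subtype
    (Subgroup.subtype_injective _) θ₀ hind (D₀.subgroupOf H₀) hPn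
    (hD₀.comap_of_injective _ (Subgroup.subtype_injective _)) hC _ hK hχK rfl n hn

end Cfsg.Agent.S4728
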