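import Cfsg.Statements.S4730
import Cfsg.Agent.H81.BlockDeg

set_option linter.style.haveILetI false

set_option autoImplicit false
open Cfsg

namespace Cfsg.Agent.S4730

/-- Let p be a prime, M a maximal ideal of the algebraic integers containing p, and G a finite group with trivial centre, Sylow p-subgroup P of order p^a and centre Z(P) of order p^b. If χ is a faithful irreducible character of G whose degree is a power of p, then the p-block of χ has defect at most a − b; in particular, if P is abelian then χ lies in a block of defect zero. -/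
theorem result {G : Type*} [Group G] [Finite G] (p : ℕ) [Fact p.Prime] (M : Ideal Cfsg.AlgInt) (hM : Cfsg.IsPModular p M) (hZ : Subgroup.center G = ⊥) (P : Sylow p G) (a b : ℕ) (ha : Nat.card P = p ^ a) (hb : Nat.card (Subgroup.center ↥(P : Subgroup G)) = p ^ b) (χ : Cfsg.IrrCharacter G) (hfaith : ∀ g : G, (χ : G → ℂ) g = (χ : G → ℂ) 1 → g = 1) (n : ℕ) (hdeg : Cfsg.charDegree (χ : G → ℂ) = p ^ n) : Cfsg.blockDefect p (Cfsg.blockOf M (χ : G → ℂ)) ≤ a - b ∧ (IsMulCommutative ↥(P : Subgroup G) → Cfsg.blockDefect p (Cfsg.blockOf M (χ : G → ℂ)) = 0) := by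
  classical
  have hp : p.Prime := Fact.out
  have ha' : Nat.card (P : Subgroup G) = p ^ a := ha
  set Z : Subgroup G := (Subgroup.center ↥(P : Subgroup G)).map (P : Subgroup G).subtype with hZdef
  have hZcard : Nat.card Z = p ^ b := by
    rw [hZdef, Subgroup.card_map_of_injective (Subgroup.subtype_injective _)]
    exact hb
  have hPle : ∀ z ∈ Z, (P : Subgroup G) ≤ Subgroup.centralizer ({z} : Set G) := by
    intro z hz y hy
    obtain ⟨c, hc, rfl⟩ := Subgroup.mem_map.mp hz
    rw [Subgroup.mem_centralizer_singleton_iff]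
    have h1 := Subgroup.mem_center_iff.mp hc ⟨y, hy⟩
    have h2 := congrArg Subtype.val h1
    simpa using h2
  have hidx : ∀ z ∈ Z, z ≠ 1 → ¬ p ∣ (Subgroup.centralizer ({z} : Set G)).index := by
    intro z hz _ hdvd
    exact P.not_dvd_index (hdvd.trans (Subgroup.index_dvd_of_le (hPle z hz)))
  have hvan : ∀ z ∈ Z, z ≠ 1 → (χ : G → ℂ) z = 0 := by
    intro z hz hz1
    obtain ⟨n0, ρ, hρ, hχ⟩ := χ.2
    haveI := hρ
    have hfin : Module.finrank ℂ (Fin n0 → ℂ) = p ^ n := by
      have h1 : (χ : G → ℂ) 1 = (Module.finrank ℂ (Fin n0 → ℂ) : ℂ) := by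
        rw [← hχ, Representation.char_one]
      have h2 := (Cfsg.Agent.H81.irr_charDegree χ).1
      rw [hdeg] at h2
      rw [h2] at h1
      exact_mod_cast h1.symm
    have hcop : Nat.Coprime (Module.finrank ℂ (Fin n0 → ℂ))
        (Subgroup.centralizer ({z} : Set G)).index := by
      rw [hfin]
      exact Nat.Coprime.pow_left n ((Nat.Prime.coprime_iff_not_dvd hp).mpr (hidx z hz hz1))
    rcases Cfsg.Agent.H81.burnside_coprime ρ z hcop with h0 | hnorm
    · rw [← hχ]; exact h0
    · exfalso
      obtain ⟨ω, hω⟩ := (Cfsg.Agent.H4.character_norm_eq_iff ρ z).mp hnorm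
      apply hz1
      have hzc : z ∈ Subgroup.center G := by
        rw [Subgroup.mem_center_iff]
        intro g
        have h1 : ρ (g * z) = ρ (z * g) := by
          rw [map_mul, map_mul, hω]
          ext v
          simp
        have h2 : ρ (g * z * (z * g)⁻¹) = 1 := by
          rw [map_mul, h1, ← map_mul, mul_inv_cancel, map_one]
        have h3 : (χ : G → ℂ) (g * z * (z * g)⁻¹) = (χ : G → ℂ) 1 := by
          rw [← hχ]
          show LinearMap.trace ℂ (Fin n0 → ℂ) (ρ (g * z * (z * g)⁻¹)) =
            LinearMap.trace ℂ (Fin n0 → ℂ) (ρ 1)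
          rw [h2, map_one ρ]
        have h4 := hfaith _ h3
        exact mul_inv_eq_one.mp h4
      rw [hZ] at hzc
      exact Subgroup.mem_bot.mp hzc
  have hB : ∀ ψ ∈ Cfsg.blockOf M (χ : G → ℂ),
      b ≤ (Cfsg.charDegree (ψ : G → ℂ)).factorization p :=
    fun ψ hψ => Cfsg.Agent.H81.factorization_charDegree_of_vanish hM χ ψ hψ Z b hZcard hvan hidx
  have hafact : (Nat.card G).factorization p = a := by
    have h1 := P.card_eq_multiplicity
    rw [ha'] at h1
    exact (Nat.pow_right_injective hp.two_le h1).symm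
  have hdef : Cfsg.blockDefect p (Cfsg.blockOf M (χ : G → ℂ)) ≤ a - b := by
    unfold Cfsg.blockDefect
    rw [hafact]
    apply Nat.sub_le_sub_left
    have hne : ((fun ψ : IrrCharacter G => (Cfsg.charDegree (ψ : G → ℂ)).factorization p) ''
        Cfsg.blockOf M (χ : G → ℂ)).Nonempty :=
      ⟨_, ⟨χ, Cfsg.Agent.H81.mem_blockOf_self hM χ, rfl⟩⟩
    obtain ⟨ψ, hψ, hval⟩ := Nat.sInf_mem hne
    rw [← hval]
    exact hB ψ hψ
  refine ⟨hdef, fun hcomm => ?_⟩
  have hba : b = a := by
    have hc : Subgroup.center ↥(P : Subgroup G) = ⊤ := by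
      rw [Subgroup.eq_top_iff']
      intro z
      rw [Subgroup.mem_center_iff]
      intro g
      exact hcomm.is_comm.comm g z
    rw [hc, Subgroup.card_top, ha'] at hb
    exact (Nat.pow_right_injective hp.two_le hb).symm
  rw [hba] at hdef
  omega

end Cfsg.Agent.S4730
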