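import Cfsg.Statements.S4731
import Cfsg.Agent.H81.PQ

set_option autoImplicit false
open Cfsg

namespace Cfsg.Agent.S4731

/-- Let p ≠ q be primes, M_p and M_q maximal ideals of the algebraic integers containing p and q respectively, and G a finite group with no element of order pq; let q^b be the q-part of the order of G. For a p-block B_p (relative to M_p), a q-block B_q (relative to M_q) and a p-singular element y, the sum of χ(1)χ(y) over the irreducible characters χ lying in both B_p and B_q is q^b times an algebraic integer. -/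
theorem result {G : Type*} [Group G] [Finite G] (p q : ℕ) [Fact p.Prime] [Fact q.Prime] (hpq : p ≠ q) (Mp Mq : Ideal Cfsg.AlgInt) (hMp : Cfsg.IsPModular p Mp) (hMq : Cfsg.IsPModular q Mq) (hno : ∀ g : G, orderOf g ≠ p * q) (b : ℕ) (hb : (Nat.card G).factorization q = b) (Bp : Set (Cfsg.IrrCharacter G)) (hBp : Cfsg.IsPBlock Mp Bp) (Bq : Set (Cfsg.IrrCharacter G)) (hBq : Cfsg.IsPBlock Mq Bq) (y : G) (hy : p ∣ orderOf y) : ∃ ω : Cfsg.AlgInt, ∑ᶠ χ ∈ Bp ∩ Bq, (Cfsg.charDegree (χ : G → ℂ) : ℂ) * (χ : G → ℂ) y = (q : ℂ) ^ b * (ω : ℂ) := by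
  obtain ⟨χp, rfl⟩ := hBp
  obtain ⟨χq, rfl⟩ := hBq
  obtain ⟨ω, hω, h⟩ := Cfsg.Agent.H81.sum_inter_blocks hpq hMp hMq hno χp χq y hy
  refine ⟨⟨ω, hω⟩, ?_⟩
  subst hb
  have hdeg : ∀ χ : Cfsg.IrrCharacter G, (Cfsg.charDegree (χ : G → ℂ) : ℂ) = (χ : G → ℂ) 1 :=
    fun χ => ((Cfsg.Agent.H81.irr_charDegree χ).1).symm
  simp_rw [hdeg]
  rw [h]
  push_cast
  rfl

end Cfsg.Agent.S4731
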