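-- Statement S4955: k(X) + |G| ≤ |C_G(v)| |V| + k(G) for X = V ⋊ G, V abelian normal Sylow.
import Mathlib
import Cfsg.Statements.S4955
import Cfsg.Agent.H84.KnoerrBound

set_option autoImplicit false
open Cfsg

namespace Cfsg.Agent.S4955

open Cfsg.Agent.H84

/-- Let X be a finite group with an abelian normal Sylow p-subgroup V (a normal p-subgroup of index prime to p in which any two elements commute), and let G be a complement to V in X. Then for every v in V, writing C for the centralizer of v in G, the number k(X) of conjugacy classes of X satisfies k(X) ≤ (order of C)·(order of V) − ((order of G) − k(G)); the statement is written with the subtracted term moved to the left. In particular, if some v in V is centralized by no nonidentity element of G, then k(X) is at most the order of V. -/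
theorem result {X : Type*} [Group X] [Finite X] (p : ℕ) [Fact p.Prime] (V : Subgroup X) [V.Normal] (hVp : IsPGroup p V) (hidx : ¬ p ∣ V.index) (hab : ∀ a ∈ V, ∀ b ∈ V, a * b = b * a) (G : Subgroup X) (hGV : Subgroup.IsComplement' V G) (v : X) (hv : v ∈ V) : Nat.card (ConjClasses X) + Nat.card G ≤ Nat.card ↥(G ⊓ Subgroup.centralizer ({v} : Set X)) * Nat.card V + Nat.card (ConjClasses G) := by
  classical
  let _ : CommGroup ↥V :=
    { (inferInstance : Group ↥V) with mul_comm := fun a b => Subtype.ext (hab a a.2 b b.2) }
  -- the conjugation action of `G` on `V`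
  let φ : ↥G →* MulAut ↥V :=
    (V.normalizerMonoidHom).comp (Subgroup.inclusion (V.normalizer_eq_top ▸ le_top))
  have hφ : ∀ (g : ↥G) (v : ↥V), ((φ g v : ↥V) : X) = (g : X) * (v : X) * (g : X)⁻¹ :=
    fun g v => rfl
  have e : ↥V ⋊[φ] ↥G ≃* X := SemidirectProduct.mulEquivSubgroup hGV
  rw [← card_conjClasses_congr e]
  obtain ⟨a, ha⟩ := IsPGroup.iff_card.mp hVp
  have hG : ¬ p ∣ Nat.card ↥G := by
    rw [← hGV.symm.index_eq_card]
    exact hidx
  have key := knoerr_bound φ p (Fact.out : p.Prime) a ha hG ⟨v, hv⟩
  have hfix : Nat.card (fixer φ (⟨v, hv⟩ : ↥V)) =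
      Nat.card ↥(G ⊓ Subgroup.centralizer ({v} : Set X)) := by
    have hmem : ∀ g : ↥G, φ g ⟨v, hv⟩ = ⟨v, hv⟩ ↔
        (g : X) ∈ Subgroup.centralizer ({v} : Set X) := by
      intro g
      rw [Subgroup.mem_centralizer_iff, Subtype.ext_iff, hφ]
      simp only [Set.mem_singleton_iff, forall_eq]
      constructor
      · intro h
        rw [mul_inv_eq_iff_eq_mul] at h
        exact h.symm
      · intro h
        rw [mul_inv_eq_iff_eq_mul]
        exact h.symm
    refine Nat.card_congr
      { toFun := fun c => ⟨((c : ↥G) : X), ⟨(c : ↥G).2, (hmem c).mp c.2⟩⟩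
        invFun := fun x => ⟨⟨(x : X), x.2.1⟩, (hmem ⟨(x : X), x.2.1⟩).mpr x.2.2⟩
        left_inv := fun c => rfl
        right_inv := fun x => rfl }
  rw [hfix] at key
  exact key

end Cfsg.Agent.S4955
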