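-- Statement S4956: k(VG) = Σ_s k(C_G(s)) for coprime V ⋊ G with V abelian.
import Mathlib
import Cfsg.Statements.S4956
import Cfsg.Agent.H84.SdpClasses

set_option autoImplicit false
open Cfsg

namespace Cfsg.Agent.S4956

open Cfsg.Agent.H84

/-- Let X be a finite group, V an abelian normal subgroup of X (any two elements of V commute) and G a complement to V in X whose order is coprime to that of V. Let S be a set of representatives of the orbits of G on V under conjugation: S lies in V and every element of V is conjugate under G to exactly one member of S. Then the number of conjugacy classes of X equals the sum, over s in S, of the number of conjugacy classes of the centralizer of s in G. -/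
theorem result {X : Type*} [Group X] [Finite X] (V : Subgroup X) [V.Normal] (hab : ∀ a ∈ V, ∀ b ∈ V, a * b = b * a) (G : Subgroup X) (hGV : Subgroup.IsComplement' V G) (hcop : (Nat.card V).Coprime (Nat.card G)) (S : Finset X) (hSV : ∀ s ∈ S, s ∈ V) (hrep : ∀ v ∈ V, ∃! s, s ∈ S ∧ ∃ g ∈ G, g * v * g⁻¹ = s) : Nat.card (ConjClasses X) = ∑ s ∈ S, Nat.card (ConjClasses ↥(G ⊓ Subgroup.centralizer ({s} : Set X))) := by
  classical
  letI : CommGroup ↥V :=
    { (inferInstance : Group ↥V) with mul_comm := fun a b => Subtype.ext (hab a a.2 b b.2) }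
  -- the conjugation action of `G` on `V`
  let φ : ↥G →* MulAut ↥V :=
    (V.normalizerMonoidHom).comp (Subgroup.inclusion (V.normalizer_eq_top ▸ le_top))
  have hφ : ∀ (g : ↥G) (v : ↥V), ((φ g v : ↥V) : X) = (g : X) * (v : X) * (g : X)⁻¹ :=
    fun g v => rfl
  have e : ↥V ⋊[φ] ↥G ≃* X := SemidirectProduct.mulEquivSubgroup hGV
  rw [← card_conjClasses_congr e]
  -- orbit representatives inside `V`
  have hS' : ∀ n : ↥V, ∃! s, s ∈ S.subtype (· ∈ V) ∧ ∃ g : ↥G, φ g n = s := by
    intro n
    obtain ⟨s₀, ⟨hs₀, g, hg, hgs⟩, huniq⟩ := hrep n n.2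
    refine ⟨⟨s₀, hSV s₀ hs₀⟩, ⟨Finset.mem_subtype.mpr hs₀, ⟨g, hg⟩, Subtype.ext ?_⟩, ?_⟩
    · rw [hφ]; exact hgs
    · rintro s' ⟨hs', g', hg'⟩
      apply Subtype.ext
      apply huniq
      refine ⟨Finset.mem_subtype.mp hs', g', g'.2, ?_⟩
      rw [← hg', hφ]
  rw [card_conjClasses_sdp φ hcop (S.subtype (· ∈ V)) hS']
  -- identify the stabilizers
  have hfix : ∀ s' : ↥V, Nat.card (ConjClasses (fixer φ s')) =
      Nat.card (ConjClasses ↥(G ⊓ Subgroup.centralizer ({(s' : X)} : Set X))) := by
    intro s'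
    have hmem : ∀ g : ↥G, φ g s' = s' ↔
        (g : X) ∈ Subgroup.centralizer ({(s' : X)} : Set X) := by
      intro g
      rw [Subgroup.mem_centralizer_iff, Subtype.ext_iff, hφ]
      simp only [Set.mem_singleton_iff, forall_eq]
      constructor
      · intro h
        rw [mul_inv_eq_iff_eq_mul] at h
        exact h.symm
      · intro h
        rw [mul_inv_eq_iff_eq_mul]
        exact h.symm
    refine card_conjClasses_congr
      { toFun := fun c => ⟨((c : ↥G) : X), ⟨(c : ↥G).2, (hmem c).mp c.2⟩⟩
        invFun := fun x => ⟨⟨(x : X), x.2.1⟩, (hmem ⟨(x : X), x.2.1⟩).mpr x.2.2⟩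
        left_inv := fun c => rfl
        right_inv := fun x => rfl
        map_mul' := fun a b => rfl }
  rw [Finset.sum_congr rfl (fun s' _ => hfix s')]
  conv_rhs => rw [← Finset.subtype_map_of_mem hSV]
  rw [Finset.sum_map]
  rfl
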