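-- Statement S4964: inflation bijection of blocks between G/D' and G for a normal p-subgroup D.
import Mathlib
import Cfsg.Statements.S4964
import Cfsg.Agent.H84.BlockDom
import Cfsg.Agent.H84.CoprimeAut

set_option autoImplicit false
open Cfsg

namespace Cfsg.Agent.S4964

open Cfsg.Agent.H84

/-- Let D be a normal p-subgroup of the finite group G, let D′ be its commutator subgroup (normal in G), and fix a maximal ideal M of the algebraic integers containing p. Then (i) two irreducible characters of G ⧸ D′ lie in the same p-block if and only if their inflations to G do, and (ii) every p-block of G contains the inflation of some irreducible character of G ⧸ D′; so inflation induces a bijection between the p-blocks of G ⧸ D′ and the p-blocks of G. -/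
theorem result {G : Type*} [Group G] [Finite G] (p : ℕ) [Fact p.Prime] (M : Ideal Cfsg.AlgInt) (hM : Cfsg.IsPModular p M) (D : Subgroup G) [D.Normal] (hD : IsPGroup p D) : (∀ χ ψ : Cfsg.IrrCharacter (G ⧸ ⁅D, D⁆), Cfsg.SameBlock M (χ : G ⧸ ⁅D, D⁆ → ℂ) (ψ : G ⧸ ⁅D, D⁆ → ℂ) ↔ Cfsg.SameBlock M ((χ : G ⧸ ⁅D, D⁆ → ℂ) ∘ QuotientGroup.mk) ((ψ : G ⧸ ⁅D, D⁆ → ℂ) ∘ QuotientGroup.mk)) ∧ ∀ B : Set (Cfsg.IrrCharacter G), Cfsg.IsPBlock M B → ∃ χ : Cfsg.IrrCharacter (G ⧸ ⁅D, D⁆), ∃ θ ∈ B, (θ : G → ℂ) = (χ : G ⧸ ⁅D, D⁆ → ℂ) ∘ QuotientGroup.mk := by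
  classical
  have _ : Fintype G := Fintype.ofFinite G
  have hMp := Cfsg.Agent.H20.isPrime_of_isPModular hM
  have hp : p.Prime := Fact.out
  have hN : IsPGroup p (⁅D, D⁆ : Subgroup G) := hD.to_le (Subgroup.commutator_le_self D)
  refine ⟨fun χ ψ => ⟨fun h => sameBlock_comp_mk hMp _ _ _ h, fun h => ?_⟩, ?_⟩
  · refine sameBlock_of_comp_mk hM _ hN ?_ χ ψ h
    intro q hq
    by_cases hqc : q ∈ Subgroup.centralizer
        ((D.map (QuotientGroup.mk' ⁅D, D⁆) : Subgroup (G ⧸ ⁅D, D⁆)) : Set (G ⧸ ⁅D, D⁆))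
    · left
      obtain ⟨g, rfl, hg⟩ := exists_regular_lift hp _ q hq
      refine ⟨g, rfl, hg, ?_⟩
      have hgD : g ∈ Subgroup.centralizer (D : Set G) := by
        apply mem_centralizer_of_coprime p D hD g hg
        intro d hd
        have h1 := (Subgroup.mem_centralizer_iff.mp hqc) (d : G ⧸ ⁅D, D⁆)
          (Subgroup.mem_map_of_mem _ hd)
        rw [← QuotientGroup.eq_one_iff]
        simp only [QuotientGroup.mk_mul, QuotientGroup.mk_inv]
        rw [← h1]
        group
      exact Subgroup.centralizer_le (SetLike.coe_subset_coe.mpr (Subgroup.commutator_le_self D)) hgD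
    · right
      intro θ
      haveI : (D.map (QuotientGroup.mk' ⁅D, D⁆)).Normal :=
        Subgroup.Normal.map inferInstance _ (QuotientGroup.mk'_surjective _)
      exact centralChar_memLocalIdeal_of_not_mem_centralizer hM
        (D.map (QuotientGroup.mk' ⁅D, D⁆)) (hD.map _) q hqc θ
  · rintro B ⟨χ₀, rfl⟩
    obtain ⟨θ, hθB, hθker⟩ := exists_mem_block_ker hM ⁅D, D⁆ hN χ₀
    obtain ⟨χ, hχ⟩ := Cfsg.Agent.H82.exists_deflate ⁅D, D⁆ θ hθker
    exact ⟨χ, θ, hθB, by rw [← hχ]; rfl⟩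

end Cfsg.Agent.S4964
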