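-- Statement S4965: k(X) ≤ k(V ⋊ X/V).
import Mathlib
import Cfsg.Statements.S4965

set_option autoImplicit false
open Cfsg

namespace Cfsg.Agent.S4965

/-- Let X be a finite group with an abelian normal subgroup V (any two elements of V commute), and let φ be the action of X ⧸ V on V induced by conjugation (well defined because V is abelian; the hypothesis hφ says that the class of x acts as conjugation by x). Then X has at most as many conjugacy classes as the semidirect product of V by X ⧸ V formed with this action: the split extension has the largest class number among extensions with the given action. -/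
theorem result {X : Type*} [Group X] [Finite X] (V : Subgroup X) [V.Normal] (hab : ∀ a ∈ V, ∀ b ∈ V, a * b = b * a) (φ : X ⧸ V →* MulAut ↥V) (hφ : ∀ (x : X) (v : ↥V), ((φ (QuotientGroup.mk x) v : ↥V) : X) = x * v * x⁻¹) : Nat.card (ConjClasses X) ≤ Nat.card (ConjClasses (SemidirectProduct ↥V (X ⧸ V) φ)) := by
  classical
  have hX : Nat.card {p : X × X // Commute p.1 p.2} = Nat.card (ConjClasses X) * Nat.card X :=
    card_comm_eq_card_conjClasses_mul_card X
  have hS : Nat.card {p : SemidirectProduct ↥V (X ⧸ V) φ × SemidirectProduct ↥V (X ⧸ V) φ //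
      Commute p.1 p.2} =
      Nat.card (ConjClasses (SemidirectProduct ↥V (X ⧸ V) φ)) *
        Nat.card (SemidirectProduct ↥V (X ⧸ V) φ) :=
    card_comm_eq_card_conjClasses_mul_card _
  have hcard : Nat.card (SemidirectProduct ↥V (X ⧸ V) φ) = Nat.card X := by
    rw [SemidirectProduct.card, ← Subgroup.index_eq_card, Subgroup.card_mul_index]
  have hφ' : ∀ (a : X ⧸ V) (c : X), (QuotientGroup.mk c : X ⧸ V) = a → ∀ v : ↥V,
      ((φ a v : ↥V) : X) = c * v * c⁻¹ := by
    intro a c hc v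
    rw [← hc, hφ]
  have key : ∀ (x₁ x₂ c y : X), Commute x₁ x₂ → Commute c y →
      x₁ * c⁻¹ * (c * (x₂ * y⁻¹) * c⁻¹) = x₂ * y⁻¹ * (y * (x₁ * c⁻¹) * y⁻¹) := by
    intro x₁ x₂ c y hp hc
    have e1 : x₁ * c⁻¹ * (c * (x₂ * y⁻¹) * c⁻¹) = x₁ * x₂ * (y⁻¹ * c⁻¹) := by group
    have e2 : x₂ * y⁻¹ * (y * (x₁ * c⁻¹) * y⁻¹) = x₂ * x₁ * (c⁻¹ * y⁻¹) := by group
    rw [e1, e2, hp.eq, ← mul_inv_rev, ← mul_inv_rev, hc.eq]
  -- chosen commuting representatives for a pair of cosets
  let rep : (X ⧸ V) → (X ⧸ V) → X × X := fun a b =>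
    if h : ∃ q : X × X, Commute q.1 q.2 ∧ (QuotientGroup.mk q.1 : X ⧸ V) = a ∧
        (QuotientGroup.mk q.2 : X ⧸ V) = b then h.choose else (1, 1)
  have hrep : ∀ p : X × X, Commute p.1 p.2 →
      Commute (rep (QuotientGroup.mk p.1) (QuotientGroup.mk p.2)).1
        (rep (QuotientGroup.mk p.1) (QuotientGroup.mk p.2)).2 ∧
      (QuotientGroup.mk (rep (QuotientGroup.mk p.1) (QuotientGroup.mk p.2)).1 : X ⧸ V) =
        QuotientGroup.mk p.1 ∧
      (QuotientGroup.mk (rep (QuotientGroup.mk p.1) (QuotientGroup.mk p.2)).2 : X ⧸ V) =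
        QuotientGroup.mk p.2 := by
    intro p hp
    have h : ∃ q : X × X, Commute q.1 q.2 ∧
        (QuotientGroup.mk q.1 : X ⧸ V) = QuotientGroup.mk p.1 ∧
        (QuotientGroup.mk q.2 : X ⧸ V) = QuotientGroup.mk p.2 := ⟨p, hp, rfl, rfl⟩
    simp only [rep, dif_pos h]
    exact h.choose_spec
  have hmem1 : ∀ p : X × X, Commute p.1 p.2 →
      p.1 * ((rep (QuotientGroup.mk p.1) (QuotientGroup.mk p.2)).1)⁻¹ ∈ V := by
    intro p hp
    have := (hrep p hp).2.1
    rw [← div_eq_mul_inv, ← QuotientGroup.eq_iff_div_mem]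
    exact this.symm
  have hmem2 : ∀ p : X × X, Commute p.1 p.2 →
      p.2 * ((rep (QuotientGroup.mk p.1) (QuotientGroup.mk p.2)).2)⁻¹ ∈ V := by
    intro p hp
    have := (hrep p hp).2.2
    rw [← div_eq_mul_inv, ← QuotientGroup.eq_iff_div_mem]
    exact this.symm
  -- the injection on commuting pairs
  let f : {p : X × X // Commute p.1 p.2} →
      {p : SemidirectProduct ↥V (X ⧸ V) φ × SemidirectProduct ↥V (X ⧸ V) φ // Commute p.1 p.2} :=
    fun p => ⟨(⟨⟨_, hmem1 p.1 p.2⟩, QuotientGroup.mk p.1.1⟩,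
              ⟨⟨_, hmem2 p.1 p.2⟩, QuotientGroup.mk p.1.2⟩), by
      obtain ⟨⟨x₁, x₂⟩, hp⟩ := p
      obtain ⟨hc, h1, h2⟩ := hrep (x₁, x₂) hp
      simp only at hc h1 h2 hp ⊢
      have hab' : (QuotientGroup.mk x₁ : X ⧸ V) * QuotientGroup.mk x₂ =
          QuotientGroup.mk x₂ * QuotientGroup.mk x₁ := by
        rw [← QuotientGroup.mk_mul, ← QuotientGroup.mk_mul, hp.eq]
      rw [commute_iff_eq]
      apply SemidirectProduct.ext
      · apply Subtype.ext
        simp only [SemidirectProduct.mul_left, Subgroup.coe_mul]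
        rw [hφ' _ _ h1, hφ' _ _ h2]
        exact key _ _ _ _ hp hc
      · simp only [SemidirectProduct.mul_right]
        exact hab'⟩
  have hinj : Function.Injective f := by
    rintro ⟨⟨x₁, x₂⟩, hp⟩ ⟨⟨x₁', x₂'⟩, hp'⟩ h
    have h' := congrArg Subtype.val h
    have ha : (QuotientGroup.mk x₁ : X ⧸ V) = QuotientGroup.mk x₁' :=
      congrArg (fun q => q.1.right) h'
    have hb : (QuotientGroup.mk x₂ : X ⧸ V) = QuotientGroup.mk x₂' :=
      congrArg (fun q => q.2.right) h'
    have h1 : x₁ * ((rep (QuotientGroup.mk x₁) (QuotientGroup.mk x₂)).1)⁻¹ =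
        x₁' * ((rep (QuotientGroup.mk x₁') (QuotientGroup.mk x₂')).1)⁻¹ :=
      congrArg (fun q => (q.1.left : X)) h'
    have h2 : x₂ * ((rep (QuotientGroup.mk x₁) (QuotientGroup.mk x₂)).2)⁻¹ =
        x₂' * ((rep (QuotientGroup.mk x₁') (QuotientGroup.mk x₂')).2)⁻¹ :=
      congrArg (fun q => (q.2.left : X)) h'
    rw [← ha, ← hb] at h1 h2
    have e1 : x₁ = x₁' := mul_right_cancel h1
    have e2 : x₂ = x₂' := mul_right_cancel h2
    subst e1 e2
    rfl
  haveI : Finite (SemidirectProduct ↥V (X ⧸ V) φ) :=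
    Finite.of_equiv _ SemidirectProduct.equivProd.symm
  have hle : Nat.card {p : X × X // Commute p.1 p.2} ≤
      Nat.card {p : SemidirectProduct ↥V (X ⧸ V) φ × SemidirectProduct ↥V (X ⧸ V) φ //
        Commute p.1 p.2} :=
    Nat.card_le_card_of_injective f hinj
  rw [hX, hS, hcard] at hle
  exact Nat.le_of_mul_le_mul_right hle Nat.card_pos
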