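import Cfsg.Statements.S4966
import Cfsg.Agent.H98.SelfDual

set_option autoImplicit false
open Cfsg

namespace Cfsg.Agent.S4966

/-- Let F be a finite field of characteristic p, G a finite group of order prime to p, and V a finite-dimensional representation of G over F carrying a nondegenerate G-invariant bilinear form (equivalently, V is self-dual). Then V is the direct sum of two G-invariant subspaces U and W such that U carries a G-invariant alternating bilinear form that is nondegenerate on U and W carries a G-invariant symmetric bilinear form that is nondegenerate on W; moreover when p = 2 the decomposition can be chosen with G acting trivially on W. -/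
theorem result {F : Type*} [Field F] [Fintype F] (p : ℕ) [Fact p.Prime] [CharP F p] {G : Type*} [Group G] [Finite G] (hcop : ¬ p ∣ Nat.card G) {V : Type*} [AddCommGroup V] [Module F V] [FiniteDimensional F V] (ρ : Representation F G V) (B : LinearMap.BilinForm F V) (hB : B.Nondegenerate) (hBinv : ∀ g : G, ∀ x y : V, B (ρ g x) (ρ g y) = B x y) : ∃ U W : Submodule F V, IsCompl U W ∧ (∀ g : G, ∀ u ∈ U, ρ g u ∈ U) ∧ (∀ g : G, ∀ w ∈ W, ρ g w ∈ W) ∧ (∃ A : LinearMap.BilinForm F V, (∀ x : V, A x x = 0) ∧ (∀ g : G, ∀ x ∈ U, ∀ y ∈ U, A (ρ g x) (ρ g y) = A x y) ∧ (∀ x ∈ U, (∀ y ∈ U, A x y = 0) → x = 0)) ∧ (∃ S : LinearMap.BilinForm F V, (∀ x y : V, S x y = S y x) ∧ (∀ g : G, ∀ x ∈ W, ∀ y ∈ W, S (ρ g x) (ρ g y) = S x y) ∧ (∀ x ∈ W, (∀ y ∈ W, S x y = 0) → x = 0)) ∧ (p = 2 → ∀ g : G, ∀ w ∈ W, ρ g w = w) := by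
  haveI : NeZero (Nat.card G : F) := ⟨fun h =>
    hcop ((CharP.cast_eq_zero_iff F p (Nat.card G)).mp h)⟩
  by_cases hp2 : p = 2
  · subst hp2
    obtain ⟨U, W, h1, h2, h3, h4, h5, h6⟩ := Cfsg.Agent.H98.SelfDual.result_even ρ B hB hBinv
    exact ⟨U, W, h1, h2, h3, h4, h5, fun _ => h6⟩
  · have h2F : (2 : F) ≠ 0 := by
      intro h
      have h' : ((2 : ℕ) : F) = 0 := by exact_mod_cast h
      have hd := (CharP.cast_eq_zero_iff F p 2).mp h'
      exact hp2 ((Nat.prime_dvd_prime_iff_eq Fact.out Nat.prime_two).mp hd)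
    obtain ⟨U, W, h1, h2, h3, h4, h5⟩ := Cfsg.Agent.H98.SelfDual.result_odd h2F ρ B hB hBinv
    exact ⟨U, W, h1, h2, h3, h4, h5, fun h => absurd h hp2⟩

end Cfsg.Agent.S4966
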