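import Cfsg.Statements.S5005
import Cfsg.Agent.H33.B22.MainQ

set_option autoImplicit false
open Cfsg

namespace Cfsg.Agent.S5005

/-- All irreducible complex characters of the Mathieu group `M₂₂` lie in a single 2-block: any two of them lie in the same block relative to every maximal ideal of the algebraic integers containing 2. -/
theorem result (M : Ideal Cfsg.AlgInt) (hM : Cfsg.IsPModular 2 M)
    (χ ψ : Cfsg.IrrCharacter ↥Cfsg.Spor.M22) : Cfsg.SameBlock M (χ : ↥Cfsg.Spor.M22 → ℂ) (ψ : ↥Cfsg.Spor.M22 → ℂ) :=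
  Cfsg.Agent.H33.B22.m22_sameBlock M hM χ ψ

end Cfsg.Agent.S5005
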