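import Cfsg.Statements.S5015
import Cfsg.Agent.H85.RankOne

set_option autoImplicit false
open Cfsg

namespace Cfsg.Agent.S5015

/-- Let a group Y act doubly transitively on a set Ω with at least three points, and suppose that the stabilizer of a point α contains a nilpotent subgroup A, normalized by that stabilizer, which acts regularly on the points other than α. Then for any y in Y moving α, the subgroups A and y A y⁻¹ are the unipotent subgroups of a rank one group, and the normal closure of A in Y (the subgroup generated by all conjugates of A) is generated by A and y A y⁻¹ alone. -/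
theorem result {Y Ω : Type*} [Group Y] [MulAction Y Ω]
    (h2 : MulAction.IsMultiplyPretransitive Y Ω 2) (hΩ : 3 ≤ ENat.card Ω) (α : Ω) (A : Subgroup Y)
    (hA : A ≤ MulAction.stabilizer Y α) (hAn : ∀ y ∈ MulAction.stabilizer Y α, Cfsg.conjBy A y = A)
    (hnil : Group.IsNilpotent A) (hreg : ∀ β γ : Ω, β ≠ α → γ ≠ α → ∃! a : Y, a ∈ A ∧ a • β = γ)
    (y : Y) (hy : y ∉ MulAction.stabilizer Y α) :
    Cfsg.IsRankOnePair A (Cfsg.conjBy A y) ∧ Subgroup.normalClosure (A : Set Y) = A ⊔ Cfsg.conjBy A y := by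
  open Cfsg.Agent.H85 in
  -- basic facts
  have hAfix : ∀ a ∈ A, a • α = α := fun a ha => MulAction.mem_stabilizer_iff.mp (hA ha)
  have hβ : y • α ≠ α := fun he => hy (MulAction.mem_stabilizer_iff.mpr he)
  set β := y • α with hβdef
  -- conjugates depend only on the image of α
  have L1 : ∀ g g' : Y, g • α = g' • α → conjBy A g = conjBy A g' := by
    intro g g' he
    have hs : g⁻¹ * g' ∈ MulAction.stabilizer Y α := by
      rw [MulAction.mem_stabilizer_iff, mul_smul, ← he, inv_smul_smul]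
    have := hAn _ hs
    calc conjBy A g = conjBy (conjBy A (g⁻¹ * g')) g := by rw [this]
      _ = conjBy A g' := by rw [conjBy_conjBy]; simp
  -- nonidentity elements of A have no fixed points other than α
  have hAfree : ∀ a ∈ A, ∀ γ, γ ≠ α → a • γ = γ → a = 1 := by
    intro a ha γ hγ hfix
    obtain ⟨a₀, -, huniq⟩ := hreg γ γ hγ hγ
    rw [huniq a ⟨ha, hfix⟩, huniq 1 ⟨A.one_mem, one_smul _ _⟩]
  have hBfix : ∀ b ∈ conjBy A y, b • β = β := by
    intro b hb
    rw [mem_conjBy] at hb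
    have := hAfix _ hb
    rw [mul_smul, mul_smul] at this
    calc b • β = y • (y⁻¹ • b • y • α) := by rw [smul_inv_smul]
      _ = β := by rw [this]
  have hBtrans : ∀ γ δ, γ ≠ β → δ ≠ β → ∃ b ∈ conjBy A y, b • γ = δ := by
    intro γ δ hγ hδ
    have hγ' : y⁻¹ • γ ≠ α := by
      intro he; apply hγ; rw [hβdef, ← he, smul_inv_smul]
    have hδ' : y⁻¹ • δ ≠ α := by
      intro he; apply hδ; rw [hβdef, ← he, smul_inv_smul]
    obtain ⟨a, ⟨ha, hae⟩, -⟩ := hreg _ _ hγ' hδ'
    refine ⟨y * a * y⁻¹, conj_mem_conjBy ha y, ?_⟩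
    rw [mul_smul, mul_smul, hae, smul_inv_smul]
  have hBfree : ∀ b ∈ conjBy A y, ∀ γ, γ ≠ β → b • γ = γ → b = 1 := by
    intro b hb γ hγ hfix
    rw [mem_conjBy] at hb
    have hγ' : y⁻¹ • γ ≠ α := by
      intro he; apply hγ; rw [hβdef, ← he, smul_inv_smul]
    have : (y⁻¹ * b * y) • (y⁻¹ • γ) = y⁻¹ • γ := by
      rw [mul_smul, mul_smul, smul_inv_smul, hfix]
    have h1 := hAfree _ hb _ hγ' this
    calc b = y * (y⁻¹ * b * y) * y⁻¹ := by group
      _ = 1 := by rw [h1]; group
  -- a third point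
  obtain ⟨γ₀, hγ₀α, hγ₀β⟩ : ∃ γ₀ : Ω, γ₀ ≠ α ∧ γ₀ ≠ β := by
    by_contra hcon
    push Not at hcon
    have hsub : (Set.univ : Set Ω) ⊆ {α, β} := by
      intro γ _
      by_cases hγ : γ = α
      · left; exact hγ
      · right; exact hcon γ hγ
    have h3 : ENat.card Ω ≤ 2 := by
      rw [← Set.encard_univ]
      exact (Set.encard_le_encard hsub).trans (by rw [Set.encard_pair (Ne.symm hβ)])
    exact absurd (hΩ.trans h3) (by decide)
  have hpair : IsRankOnePair A (conjBy A y) := by
    refine ⟨?_, hnil, conjBy_nilpotent hnil y, ?_, ?_⟩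
    · intro he
      obtain ⟨a, ⟨ha, hae⟩, -⟩ := hreg β γ₀ hβ hγ₀α
      have : a • β = β := hBfix a (he ▸ ha)
      exact hγ₀β (hae.symm.trans this)
    · intro a ha ha1
      have hγβ : a⁻¹ • β ≠ β := by
        intro he
        have := hAfree a⁻¹ (A.inv_mem ha) β hβ he
        exact ha1 (inv_eq_one.mp this)
      have hγα : a⁻¹ • β ≠ α := by
        intro he
        apply hβ
        have : β = a • α := by rw [← he, smul_inv_smul]
        rw [this, hAfix a ha]
      obtain ⟨b₀, hb₀, hb₀e⟩ := hBtrans α (a⁻¹ • β) (Ne.symm hβ) hγβ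
      refine ⟨b₀⁻¹, Subgroup.inv_mem _ hb₀, ?_, ?_⟩
      · intro he
        rw [inv_eq_one] at he
        rw [he, one_smul] at hb₀e
        exact hγα hb₀e.symm
      · rw [inv_inv, conjBy_conjBy]
        apply L1
        rw [hb₀e, mul_smul]
    · intro b hb hb1
      have hγα : b⁻¹ • α ≠ α := by
        intro he
        have := hBfree b⁻¹ (Subgroup.inv_mem _ hb) α (Ne.symm hβ) he
        exact hb1 (inv_eq_one.mp this)
      have hγβ : b⁻¹ • α ≠ β := by
        intro he
        apply hβ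
        have h1 : b⁻¹ • β = β := hBfix _ (Subgroup.inv_mem _ hb)
        have : b⁻¹ • α = b⁻¹ • β := he.trans h1.symm
        exact (smul_left_cancel _ this).symm
      obtain ⟨a₀, ⟨ha₀, ha₀e⟩, -⟩ := hreg β (b⁻¹ • α) hβ hγα
      refine ⟨a₀⁻¹, A.inv_mem ha₀, ?_, ?_⟩
      · intro he
        rw [inv_eq_one] at he
        rw [he, one_smul] at ha₀e
        exact hγβ ha₀e.symm
      · rw [inv_inv, conjBy_conjBy]
        apply L1
        rw [mul_smul, ha₀e]
  refine ⟨hpair, ?_⟩
  apply le_antisymm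
  · have htrans : ∀ γ : Ω, ∃ x ∈ A ⊔ conjBy A y, x • α = γ := by
      intro γ
      by_cases hγα : γ = α
      · exact ⟨1, Subgroup.one_mem _, by rw [one_smul, hγα]⟩
      · by_cases hγβ : γ = β
        · obtain ⟨b, hb, hbe⟩ := hBtrans α γ₀ (Ne.symm hβ) hγ₀β
          obtain ⟨a, ⟨ha, hae⟩, -⟩ := hreg γ₀ β hγ₀α hβ
          exact ⟨a * b, Subgroup.mul_mem _ (Subgroup.mem_sup_left ha) (Subgroup.mem_sup_right hb),
            by rw [mul_smul, hbe, hae, hγβ]⟩
        · obtain ⟨b, hb, hbe⟩ := hBtrans α γ (Ne.symm hβ) hγβ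
          exact ⟨b, Subgroup.mem_sup_right hb, hbe⟩
    rw [Subgroup.normalClosure, Subgroup.closure_le]
    intro z hz
    rw [Group.mem_conjugatesOfSet_iff] at hz
    obtain ⟨a, ha, hconj⟩ := hz
    rw [isConj_iff] at hconj
    obtain ⟨g, rfl⟩ := hconj
    obtain ⟨x, hx, hxe⟩ := htrans (g • α)
    have hmem : g * a * g⁻¹ ∈ conjBy A x := by
      rw [L1 x g hxe]; exact conj_mem_conjBy ha g
    rw [mem_conjBy] at hmem
    have e : g * a * g⁻¹ = x * (x⁻¹ * (g * a * g⁻¹) * x) * x⁻¹ := by group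
    rw [SetLike.mem_coe, e]
    exact Subgroup.mul_mem _ (Subgroup.mul_mem _ hx (Subgroup.mem_sup_left hmem)) (Subgroup.inv_mem _ hx)
  · apply sup_le Subgroup.le_normalClosure
    intro z hz
    rw [mem_conjBy] at hz
    have := (Subgroup.normalClosure_normal (s := (A : Set Y))).conj_mem _ (Subgroup.le_normalClosure hz) y
    have e : y * (y⁻¹ * z * y) * y⁻¹ = z := by group
    rwa [e] at this

end Cfsg.Agent.S5015
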