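import Cfsg.Statements.S5019
import Cfsg.Agent.H85.Quadratic

set_option autoImplicit false
open Cfsg

namespace Cfsg.Agent.S5019

/-- Let X be a rank one group with abelian unipotent subgroups A and B, and suppose X acts on an abelian group N (written additively) in such a way that A acts quadratically, meaning a' • (a • n − n) = a • n − n for all a, a' in A and n in N, while X as a whole does not: y • (x • n − n) ≠ x • n − n for some x, y in X and n in N. Then X is a special rank one group. -/
theorem result {X : Type*} [Group X] {A B : Subgroup X} (h : Cfsg.IsRankOneGroup X A B)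
    (hab : Cfsg.HasAbelianUnipotents A B) {N : Type*} [AddCommGroup N] [DistribMulAction X N]
    (hq : ∀ a ∈ A, ∀ a' ∈ A, ∀ n : N, a' • (a • n - n) = a • n - n)
    (hX : ∃ x y : X, ∃ n : N, y • (x • n - n) ≠ x • n - n) : Cfsg.IsSpecialRankOnePair A B := by
  open Cfsg.Agent.H85 in
  set ρ := DistribMulAction.toAddMonoidEnd X N with hρ
  have hQA : QuadOn ρ A := quadOn_of_action hq
  have hker : ∀ x : X, ρ x = 1 → x ∈ Subgroup.center X := by
    rcases rog_dichotomy h (MonoidHom.ker ρ) (MonoidHom.normal_ker ρ) with h1 | h1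
    · exfalso
      obtain ⟨x, y, n, hne⟩ := hX
      apply hne
      have hx : x ∈ MonoidHom.ker ρ ⊔ A := h1 ▸ Subgroup.mem_top x
      have hy : y ∈ MonoidHom.ker ρ ⊔ A := h1 ▸ Subgroup.mem_top y
      have hN := MonoidHom.normal_ker ρ
      rw [Subgroup.mem_sup_of_normal_left] at hx hy
      obtain ⟨k, hk, a', ha', rfl⟩ := hx
      obtain ⟨k', hk', a'', ha'', rfl⟩ := hy
      have hk1 : ∀ v : N, k • v = v := (act_eq_one_iff k).mp (MonoidHom.mem_ker.mp hk)
      have hk1' : ∀ v : N, k' • v = v := (act_eq_one_iff k').mp (MonoidHom.mem_ker.mp hk')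
      rw [mul_smul, mul_smul, hk1, hk1', hq a' ha' a'' ha'']
    · intro x hx
      exact h1 (MonoidHom.mem_ker.mpr hx)
  refine ⟨h.2, ?_⟩
  intro a ha _ b hb _ hconj
  exact quad_special h hQA hker ha hb hconj

end Cfsg.Agent.S5019
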