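import Cfsg.Statements.S5020
import Cfsg.Agent.H85.SpecialSmall
import Cfsg.Agent.H85.SpecialBig

set_option autoImplicit false
open Cfsg.Agent.H85
open Cfsg

namespace Cfsg.Agent.S5020

/-- Let X be a special rank one group with abelian unipotent subgroups A and B, and H = N(A) ∩ N(B) its diagonal subgroup. Then either A has at most three elements and X is isomorphic to SL₂(2), SL₂(3) or PSL₂(3); or X = X' A with the commutator subgroup X' quasisimple and the commutator subgroup ⁅A, H⁆ having more than three elements. -/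
theorem result {X : Type*} [Group X] {A B : Subgroup X} (h : Cfsg.IsRankOneGroup X A B)
    (hs : Cfsg.IsSpecialRankOnePair A B) (hab : Cfsg.HasAbelianUnipotents A B) :
    (ENat.card A ≤ 3 ∧ (Nonempty (X ≃* Matrix.SpecialLinearGroup (Fin 2) (ZMod 2)) ∨
        Nonempty (X ≃* Matrix.SpecialLinearGroup (Fin 2) (ZMod 3)) ∨
        Nonempty (X ≃* Matrix.ProjectiveSpecialLinearGroup (Fin 2) (ZMod 3)))) ∨
    (commutator X ⊔ A = ⊤ ∧ Cfsg.IsQuasisimple (commutator X) ∧
      3 < ENat.card ↥(⁅A, Cfsg.rankOneDiagonal A B⁆ : Subgroup X)) := by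
  by_cases hc : 3 < ENat.card A
  · right
    obtain ⟨h1, h2⟩ := special_rank_one_quasisimple h hs hab hc
    exact ⟨h1, h2, lt_of_lt_of_le hc (enat_card_mono (hua_le_commutator hs hab.1 hab.2 hc))⟩
  · left
    have hle : ENat.card A ≤ 3 := not_lt.mp hc
    refine ⟨hle, ?_⟩
    have hfin : Finite A := by
      by_contra hinf
      rw [not_finite_iff_infinite] at hinf
      rw [ENat.card_eq_top_of_infinite] at hle
      exact absurd hle (by decide)
    have hle' : Nat.card A ≤ 3 := by
      rw [ENat.card_eq_coe_natCard] at hle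
      exact_mod_cast hle
    have hpos : 0 < Nat.card A := Nat.card_pos
    have hne1 : Nat.card A ≠ 1 := by
      intro h1
      exact rop_left_ne_bot h.2 (Subgroup.eq_bot_of_card_eq A h1)
    have hcases : Nat.card A = 2 ∨ Nat.card A = 3 := by omega
    rcases hcases with h2 | h3
    · have : Fact (Nat.Prime 2) := ⟨Nat.prime_two⟩
      obtain ⟨φ, hφ, hk⟩ := special_small_sl2 h hs (Or.inl rfl) h2
      have hker : φ.ker = ⊥ := by
        rcases hk with hk | ⟨h23, _⟩
        · exact hk
        · exact absurd h23 (by decide)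
      left
      exact ⟨(MulEquiv.ofBijective φ ⟨(MonoidHom.ker_eq_bot_iff φ).mp hker, hφ⟩).symm⟩
    · have : Fact (Nat.Prime 3) := ⟨Nat.prime_three⟩
      obtain ⟨φ, hφ, hk⟩ := special_small_sl2 h hs (Or.inr rfl) h3
      right
      rcases hk with hk | ⟨_, hk⟩
      · left
        exact ⟨(MulEquiv.ofBijective φ ⟨(MonoidHom.ker_eq_bot_iff φ).mp hk, hφ⟩).symm⟩
      · right
        exact ⟨((QuotientGroup.quotientMulEquivOfEq hk).symm.trans
          (QuotientGroup.quotientKerEquivOfSurjective φ hφ)).symm⟩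

end Cfsg.Agent.S5020
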