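import Cfsg.Statements.S5022
import Cfsg.Agent.H85.SteinbergApp

set_option autoImplicit false
open Cfsg.Agent.H85
open Cfsg

namespace Cfsg.Agent.S5022

/-- Let X be a special rank one group with abelian unipotent subgroups A and B, where A is an elementary abelian p-group for the prime p. Then for every non-identity a in A and the non-identity b in B with b⁻¹ A b = a⁻¹ B a, the subgroup generated by a and b is isomorphic to SL₂(p) or to PSL₂(p). -/
theorem result {X : Type*} [Group X] {A B : Subgroup X} (h : Cfsg.IsRankOneGroup X A B)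
    (hs : Cfsg.IsSpecialRankOnePair A B) (hab : Cfsg.HasAbelianUnipotents A B)
    {p : ℕ} [Fact p.Prime] (hA : Cfsg.IsElementaryAbelian p A)
    {a b : X} (ha : a ∈ A) (ha1 : a ≠ 1) (hb : b ∈ B) (hb1 : b ≠ 1) (hab' : Cfsg.conjBy A b⁻¹ = Cfsg.conjBy B a⁻¹) :
    Nonempty (↥(Subgroup.closure ({a, b} : Set X)) ≃* Matrix.SpecialLinearGroup (Fin 2) (ZMod p)) ∨
    Nonempty (↥(Subgroup.closure ({a, b} : Set X)) ≃* Matrix.ProjectiveSpecialLinearGroup (Fin 2) (ZMod p)) := by
  have hm0 : Matched A B a⁻¹ b⁻¹ :=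
    ⟨A.inv_mem ha, inv_ne_one.mpr ha1, B.inv_mem hb, inv_ne_one.mpr hb1, hab'⟩
  have hm : Matched A B a b := by
    have := matched_inv hs hm0
    rwa [inv_inv, inv_inv] at this
  have hap : a ^ p = 1 := hA.2 a ha
  obtain ⟨φ, hrange, hker⟩ := matched_sl2 hs hm hap
  rcases hker with hk | hk
  · left
    exact ⟨((MonoidHom.ofInjective ((MonoidHom.ker_eq_bot_iff φ).mp hk)).trans
      (MulEquiv.subgroupCongr hrange)).symm⟩
  · right
    exact ⟨((QuotientGroup.quotientMulEquivOfEq hk).symm.trans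
      ((QuotientGroup.quotientKerEquivRange φ).trans (MulEquiv.subgroupCongr hrange))).symm⟩

end Cfsg.Agent.S5022
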