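import Cfsg.Statements.S5023
import Cfsg.Agent.H85.Quadratic

set_option autoImplicit false
open Cfsg

namespace Cfsg.Agent.S5023

/-- Let X be a rank one group with unipotent subgroups A and B that acts faithfully on an abelian group V (written additively) with A acting quadratically: a' • (a • v − v) = a • v − v for all a, a' in A and v in V. Then A is either torsion-free or an elementary abelian p-group for some prime p. -/
theorem result {X : Type*} [Group X] {A B : Subgroup X} (h : Cfsg.IsRankOneGroup X A B)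
    {V : Type*} [AddCommGroup V] [DistribMulAction X V] (hf : ∀ x : X, (∀ v : V, x • v = v) → x = 1)
    (hq : ∀ a ∈ A, ∀ a' ∈ A, ∀ v : V, a' • (a • v - v) = a • v - v) :
    (∀ a ∈ A, a ≠ 1 → ¬ IsOfFinOrder a) ∨ ∃ p : ℕ, p.Prime ∧ Cfsg.IsElementaryAbelian p A := by
  open Cfsg.Agent.H85 in
  set ρ := DistribMulAction.toAddMonoidEnd X V with hρ
  have hQA : QuadOn ρ A := quadOn_of_action hq
  have hQB := quadOn_right h.2 hQA
  have hinj : ∀ x : X, ρ x = 1 → x = 1 := fun x hx => hf x ((act_eq_one_iff x).mp hx)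
  have hker : ∀ x : X, ρ x = 1 → x ∈ Subgroup.center X := fun x hx => by
    rw [hinj x hx]; exact Subgroup.one_mem _
  by_cases hall : ∀ a ∈ A, a ≠ 1 → ¬ IsOfFinOrder a
  · exact Or.inl hall
  · right
    push Not at hall
    obtain ⟨a₀, ha₀, ha₀1, hfin⟩ := hall
    have hn1 : orderOf a₀ ≠ 1 := fun h1 => ha₀1 (orderOf_eq_one_iff.mp h1)
    have hnpos : 0 < orderOf a₀ := hfin.orderOf_pos
    set p := (orderOf a₀).minFac with hp
    have hpp : p.Prime := Nat.minFac_prime hn1
    have hpd : p ∣ orderOf a₀ := Nat.minFac_dvd _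
    set a := a₀ ^ (orderOf a₀ / p) with hadef
    have haA : a ∈ A := A.pow_mem ha₀ _
    have hap : a ^ p = 1 := by
      rw [hadef, ← pow_mul, Nat.div_mul_cancel hpd, pow_orderOf_eq_one]
    have ha1 : a ≠ 1 := by
      apply pow_ne_one_of_lt_orderOf
      · exact (Nat.div_pos (Nat.le_of_dvd hnpos hpd) hpp.pos).ne'
      · exact Nat.div_lt_self hnpos hpp.one_lt
    have hpow : ∀ (g : X), (ρ g - 1) * (ρ g - 1) = 0 → ∀ n : ℕ, ρ (g ^ n) - 1 = n • (ρ g - 1) := by
      intro g hg n
      induction n with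
      | zero => simp
      | succ n ih =>
        have e : ρ (g ^ (n + 1)) - 1 = (ρ (g ^ n) - 1) * (ρ g - 1) + (ρ (g ^ n) - 1) + (ρ g - 1) := by
          rw [pow_succ, map_mul]; noncomm_ring
        rw [e, ih, smul_mul_assoc, hg, nsmul_zero, zero_add, succ_nsmul]
    have hpα : p • (ρ a - 1) = 0 := by
      rw [← hpow a (hQA a haA a haA) p, hap, map_one, sub_self]
    obtain ⟨b, hb, -, hconj⟩ := h.2.cond_left a haA ha1
    refine ⟨p, hpp, ?_⟩
    unfold IsElementaryAbelian
    refine ⟨?_, ?_⟩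
    · refine ⟨⟨fun x y => ?_⟩⟩
      apply Subtype.ext
      have e : ρ ((x : X) * y) = ρ ((y : X) * x) := by
        have h1 := hQA x x.2 y y.2
        have h2 := hQA y y.2 x x.2
        have e1 : ρ (x : X) * ρ (y : X) =
            (ρ (x : X) - 1) * (ρ (y : X) - 1) + ρ (x : X) + ρ (y : X) - 1 := by noncomm_ring
        have e2 : ρ (y : X) * ρ (x : X) =
            (ρ (y : X) - 1) * (ρ (x : X) - 1) + ρ (x : X) + ρ (y : X) - 1 := by noncomm_ring
        rw [map_mul, map_mul, e1, e2, h1, h2]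
      have h3 : ρ ((x : X) * y * ((y : X) * x)⁻¹) = 1 := by
        rw [map_mul, e, rho_mul_inv]
      have := hinj _ h3
      exact mul_inv_eq_one.mp this
    · intro a' ha'
      have hA : ∀ x : X, (ρ x - 1) * ((ρ a - 1) * (ρ b - 1) * (ρ a' - 1) - (ρ a' - 1)) = 0 :=
        quad_claimA h.1 hQA hQB haA hb ha' hconj
      have hmem : a' ^ p ∈ quadKer ρ := by
        rw [mem_quadKer]
        intro y
        rw [hpow a' (hQA a' ha' a' ha') p]
        have e : p • (ρ a' - 1) = (p • (ρ a - 1)) * (ρ b - 1) * (ρ a' - 1) -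
            p • ((ρ a - 1) * (ρ b - 1) * (ρ a' - 1) - (ρ a' - 1)) := by
          rw [smul_mul_assoc, smul_mul_assoc, ← nsmul_sub]; congr 1; noncomm_ring
        rw [e, hpα, zero_mul, zero_mul, zero_sub, mul_neg, mul_smul_comm, hA y, nsmul_zero, neg_zero]
      have hcen := quadKer_le_center h hQA hker hmem
      exact rog_eq_one_of_mem_center h (A.pow_mem ha' p) hcen

end Cfsg.Agent.S5023
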