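import Cfsg.Statements.S5024
import Cfsg.Agent.H85.RootSub

set_option autoImplicit false
open Cfsg

namespace Cfsg.Agent.S5024

/-- Let S be a set of abstract root subgroups of G, A and C members of S, B a rank one partner of A in S and D a rank one partner of C in S. If the rank one group ⟨A, B⟩ is contained in ⟨C, D⟩ then the two coincide, and C and D are conjugates of A inside ⟨A, B⟩. -/
theorem result {G : Type*} [Group G] {S : Set (Subgroup G)} (hS : Cfsg.IsRootSubgroupSet S)
    {A B C D : Subgroup G} (hA : A ∈ S) (hC : C ∈ S) (hB : B ∈ Cfsg.rankOnePartners S A) (hD : D ∈ Cfsg.rankOnePartners S C)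
    (hle : A ⊔ B ≤ C ⊔ D) : A ⊔ B = C ⊔ D ∧ C ∈ Cfsg.unipotentSubgroups A B ∧ D ∈ Cfsg.unipotentSubgroups A B := by
  open Cfsg.Agent.H85 in
  obtain ⟨h1, h2⟩ := root_rank_one_le hS hA hB.1 hC hB.2 hD.2 hle
  exact ⟨h1, h2 ▸ left_mem_unipotent C D, h2 ▸ rop_right_mem_unipotent hD.2⟩

end Cfsg.Agent.S5024
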