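import Cfsg.Statements.S5026
import Cfsg.Agent.H85.RootSub

set_option autoImplicit false
open Cfsg

namespace Cfsg.Agent.S5026

/-- Let S be a degenerate set of abstract root subgroups of G (a set of abstract transvection groups) and let a, b be commuting non-identity elements of members of S with a b ≠ 1. Then the members of S centralizing a b are exactly those centralizing both a and b. -/
theorem result {G : Type*} [Group G] {S : Set (Subgroup G)} (hS : Cfsg.IsRootSubgroupSet S) (hdeg : Cfsg.IsDegenerateRootSet S)
    {a b : G} (ha : a ∈ Cfsg.rootElements S) (hb : b ∈ Cfsg.rootElements S) (hab : a * b = b * a) (hab1 : a * b ≠ 1) :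
    Cfsg.centralizingMembers S (Subgroup.zpowers (a * b)) =
      Cfsg.centralizingMembers S (Subgroup.zpowers a) ∩ Cfsg.centralizingMembers S (Subgroup.zpowers b) := by
  open Cfsg.Agent.H85 in
  have key : ∀ {a b : G}, a ∈ rootElements S → b ∈ rootElements S → a * b = b * a → a * b ≠ 1 →
      ∀ E ∈ S, (∀ e ∈ E, e * (a * b) = (a * b) * e) → ∀ e ∈ E, e * a = a * e := by
    intro a b ha hb hab hab1 E hE hEab
    obtain ⟨ha1, A, hA, haA⟩ := ha
    obtain ⟨hb1, B, hB, hbB⟩ := hb
    by_contra hcon
    push Not at hcon
    obtain ⟨e, he, hea⟩ := hcon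
    have hEA : IsRankOnePair E A := by
      rcases root_trichotomy hS hE hA with h0 | h1 | h2
      · exact absurd (comm_of_commutator_eq_bot h0 he haA) hea
      · exact h1
      · exact absurd h2 (hdeg E hE A hA)
    have hAE := rop_symm hEA
    have hBA : ⁅B, A⁆ = ⊥ := by
      rcases root_trichotomy hS hB hA with h0 | h1 | h2
      · exact h0
      · exact absurd hab.symm (rop_not_commute h1 hbB hb1 haA ha1)
      · exact absurd h2 (hdeg B hB A hA)
    have hBE : IsRankOnePair B E := by
      rcases root_trichotomy hS hB hE with h0 | h1 | h2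
      · exfalso
        apply hea
        have h3 := comm_of_commutator_eq_bot h0 hbB he
        have h4 := hEab e he
        calc e * a = e * (a * b) * b⁻¹ := by group
          _ = a * b * e * b⁻¹ := by rw [h4]
          _ = a * (b * e) * b⁻¹ := by group
          _ = a * (e * b) * b⁻¹ := by rw [h3]
          _ = a * e := by group
      · exact h1
      · exact absurd h2 (hdeg B hB E hE)
    have hnorm : conjBy E (b * a) = E := by
      apply conjBy_eq_of_comm
      intro d hd
      rw [← hab]; exact (hEab d hd).symm
    have hconj : conjBy E a = conjBy E b⁻¹ := by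
      have : conjBy E a = conjBy (conjBy E (b * a)) b⁻¹ := by
        rw [conjBy_conjBy]; simp
      rw [this, hnorm]
    obtain ⟨e₁, he₁, -, h1⟩ := roc_exists hAE.cond_left haA ha1
    obtain ⟨e₂, he₂, -, h2⟩ := roc_exists hBE.cond_left (B.inv_mem hbB) (by simpa using hb1)
    have hB_eq : B = conjBy A (e₂⁻¹ * e₁) := by
      rw [← conjBy_conjBy, h1, hconj, ← h2, conjBy_conjBy]; simp [conjBy_one]
    have hBmem : B ∈ unipotentSubgroups A E :=
      ⟨e₂⁻¹ * e₁, Subgroup.mul_mem _ (Subgroup.inv_mem _ (Subgroup.mem_sup_right he₂))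
        (Subgroup.mem_sup_right he₁), hB_eq⟩
    by_cases hBA' : B = A
    · have habA : a * b ∈ A := A.mul_mem haA (hBA' ▸ hbB)
      obtain ⟨e', he', he'1⟩ := rop_exists_right hAE
      exact rop_not_commute hAE habA hab1 he' he'1 (hEab e' he').symm
    · apply hb1
      apply rop_eq_one_of_commute hAE hBmem (left_mem_unipotent A E) hBA' hbB
      intro d hd
      exact comm_of_commutator_eq_bot hBA hbB hd
  ext E
  simp only [centralizingMembers, Set.mem_ofPred_eq, Set.mem_inter_iff, le_centralizer_zpowers_iff]
  constructor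
  · rintro ⟨hE, hEab⟩
    have h1 := key ha hb hab hab1 E hE hEab
    have h2 := key hb ha hab.symm (by rw [← hab]; exact hab1) E hE (by rw [← hab]; exact hEab)
    exact ⟨⟨hE, h1⟩, ⟨hE, h2⟩⟩
  · rintro ⟨⟨hE, h1⟩, ⟨-, h2⟩⟩
    refine ⟨hE, fun e he => ?_⟩
    calc e * (a * b) = (e * a) * b := by group
      _ = a * (e * b) := by rw [h1 e he]; group
      _ = a * b * e := by rw [h2 e he]; group

end Cfsg.Agent.S5026
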