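import Cfsg.Statements.S5027
import Cfsg.Agent.H85.RootSub

set_option autoImplicit false
open scoped commutatorElement
open Cfsg

namespace Cfsg.Agent.S5027

/-- Let S be a set of abstract root subgroups of G such that every member of S has a rank one partner in S (the graph of rank one pairs on S has no isolated vertex). Then the second centre of G equals its centre. -/
theorem result {G : Type*} [Group G] {S : Set (Subgroup G)} (hS : Cfsg.IsRootSubgroupSet S)
    (hF : ∀ A ∈ S, ¬ Cfsg.IsIsolatedIn (Cfsg.FAdj S) S A) : Subgroup.upperCentralSeries G 2 = Subgroup.center G := by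
  open Cfsg.Agent.H85 in
  apply le_antisymm
  · intro z hz
    have hz' : z ∈ Subgroup.upperCentralSeries G (1 + 1) := hz
    rw [Subgroup.mem_upperCentralSeries_succ_iff] at hz'
    simp only [Subgroup.upperCentralSeries_one] at hz'
    have hcen : ∀ a : G, ∀ g : G, ⁅z, a⁆ * g = g * ⁅z, a⁆ :=
      fun a g => (Subgroup.mem_center_iff.mp (hz' a) g).symm
    have helt : ∀ a : G, z * a * z⁻¹ = ⁅z, a⁆ * a := fun a => by
      rw [commutatorElement_def]; group
    have hcomm : ∀ A ∈ S, ∀ a ∈ A, z * a = a * z := by
      intro A hA
      obtain ⟨B, hB, hAB⟩ := exists_partner (hF A hA) hA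
      have hES : conjBy A z ∈ S := hS.conj_mem A hA z
      have hconj : ∀ a : G, conjBy B (z * a * z⁻¹) = conjBy B a := by
        intro a
        rw [helt, ← conjBy_conjBy]
        apply conjBy_eq_of_comm
        intro d _
        exact hcen a d
      have hnorm : conjBy A z = A := by
        obtain ⟨a, ha, ha1⟩ := rop_exists_left hAB
        have hea : z * a * z⁻¹ ∈ conjBy A z := conj_mem_conjBy ha z
        have hea1 : z * a * z⁻¹ ≠ 1 := by
          intro he
          apply ha1
          calc a = z⁻¹ * (z * a * z⁻¹) * z := by group
            _ = 1 := by rw [he]; group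
        rcases root_trichotomy hS hES hB with h0 | h1 | h2
        · exfalso
          obtain ⟨b, hb, hb1⟩ := rop_exists_right hAB
          have h3 := comm_of_commutator_eq_bot h0 hea hb
          rw [helt] at h3
          apply rop_not_commute hAB ha ha1 hb hb1
          have h4 := hcen a b
          calc a * b = ⁅z, a⁆⁻¹ * (⁅z, a⁆ * a * b) := by group
            _ = ⁅z, a⁆⁻¹ * (b * (⁅z, a⁆ * a)) := by rw [h3]
            _ = ⁅z, a⁆⁻¹ * (b * ⁅z, a⁆) * a := by group
            _ = ⁅z, a⁆⁻¹ * (⁅z, a⁆ * b) * a := by rw [h4]
            _ = b * a := by group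
        · obtain ⟨b', hb', -, hEb'⟩ := roc_exists h1.cond_left hea hea1
          obtain ⟨b, hb, -, hAb⟩ := roc_exists hAB.cond_left ha ha1
          have hEmem : conjBy A z ∈ unipotentSubgroups A B := by
            refine ⟨b'⁻¹ * b, Subgroup.mul_mem _ (Subgroup.inv_mem _ (Subgroup.mem_sup_right hb'))
              (Subgroup.mem_sup_right hb), ?_⟩
            rw [← conjBy_conjBy A, hAb, ← hconj a, ← hEb', conjBy_conjBy]; simp [conjBy_one]
          by_contra hne
          apply hea1
          apply rop_eq_one_of_commute hAB hEmem (left_mem_unipotent A B) hne hea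
          intro d hd
          rw [helt]
          have h4 := hcen a d
          have h5 := comm_of_isMulCommutative (hS.commutative A hA) ha hd
          calc ⁅z, a⁆ * a * d = ⁅z, a⁆ * (a * d) := by group
            _ = ⁅z, a⁆ * (d * a) := by rw [h5]
            _ = (⁅z, a⁆ * d) * a := by group
            _ = d * ⁅z, a⁆ * a := by rw [h4]
            _ = d * (⁅z, a⁆ * a) := by group
        · exfalso
          apply rop_not_conj_comm hAB ha ha1
          rw [← hconj a]
          exact rcc_conj_comm hS hB h2 hea
      intro a ha
      have h1 : ⁅z, a⁆ ∈ A := by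
        rw [commutatorElement_def]
        have : z * a * z⁻¹ ∈ conjBy A z := conj_mem_conjBy ha z
        rw [hnorm] at this
        exact A.mul_mem this (A.inv_mem ha)
      have h2 : ⁅z, a⁆ = 1 := by
        by_contra hne
        obtain ⟨b, hb, hb1⟩ := rop_exists_right hAB
        exact rop_not_commute hAB h1 hne hb hb1 (hcen a b)
      rw [commutatorElement_eq_one_iff_mul_comm] at h2
      exact h2
    have hle : (⨆ A ∈ S, A) ≤ Subgroup.centralizer ({z} : Set G) := by
      apply iSup₂_le
      intro A hA a ha
      rw [Subgroup.mem_centralizer_iff]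
      intro g hg
      rw [Set.mem_singleton_iff] at hg
      rw [hg]
      exact hcomm A hA a ha
    rw [hS.generates] at hle
    rw [Subgroup.mem_center_iff]
    intro g
    have := hle (Subgroup.mem_top g)
    rw [Subgroup.mem_centralizer_iff] at this
    exact (this z rfl).symm
  · rw [← Subgroup.upperCentralSeries_one]
    exact Subgroup.upperCentralSeries_mono G (by norm_num)

end Cfsg.Agent.S5027
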