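import Cfsg.Statements.S5030
import Cfsg.Agent.H85.RootNil

set_option autoImplicit false
open Cfsg

namespace Cfsg.Agent.S5030

/-- Let S be a set of abstract root subgroups of G and A, B, C ∈ S with ⁅A, B⁆ ∈ S and ⁅B, C⁆ ∈ S, where A and C are different and commute. For a non-identity b ∈ B put X = ⟨A, b⁻¹ C b⟩ and Y = ⟨b⁻¹ A b, C⟩ and R = ⟨A, B, C⟩. Then X and Y are either both abelian or both nilpotent of class exactly two; X and Y commute elementwise; XY is normal in R with R = (XY) B; and R is nilpotent. -/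
theorem result {G : Type*} [Group G] {S : Set (Subgroup G)} (hS : Cfsg.IsRootSubgroupSet S)
    {A B C : Subgroup G} (hA : A ∈ S) (hB : B ∈ S) (hC : C ∈ S) (hAB : ⁅A, B⁆ ∈ S) (hBC : ⁅B, C⁆ ∈ S)
    (hAC : C ∈ Cfsg.commutingPartners S A)
    {b : G} (hb : b ∈ B) (hb1 : b ≠ 1) :
    ((IsMulCommutative ↥(A ⊔ Cfsg.conjBy C b⁻¹) ∧ IsMulCommutative ↥(Cfsg.conjBy A b⁻¹ ⊔ C)) ∨
      ((¬ IsMulCommutative ↥(A ⊔ Cfsg.conjBy C b⁻¹) ∧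
          ⁅⁅A ⊔ Cfsg.conjBy C b⁻¹, A ⊔ Cfsg.conjBy C b⁻¹⁆, A ⊔ Cfsg.conjBy C b⁻¹⁆ = ⊥) ∧
        (¬ IsMulCommutative ↥(Cfsg.conjBy A b⁻¹ ⊔ C) ∧
          ⁅⁅Cfsg.conjBy A b⁻¹ ⊔ C, Cfsg.conjBy A b⁻¹ ⊔ C⁆, Cfsg.conjBy A b⁻¹ ⊔ C⁆ = ⊥))) ∧
    ⁅A ⊔ Cfsg.conjBy C b⁻¹, Cfsg.conjBy A b⁻¹ ⊔ C⁆ = ⊥ ∧
    (∀ r ∈ A ⊔ B ⊔ C, Cfsg.conjBy ((A ⊔ Cfsg.conjBy C b⁻¹) ⊔ (Cfsg.conjBy A b⁻¹ ⊔ C)) r =
      (A ⊔ Cfsg.conjBy C b⁻¹) ⊔ (Cfsg.conjBy A b⁻¹ ⊔ C)) ∧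
    ((A ⊔ Cfsg.conjBy C b⁻¹) ⊔ (Cfsg.conjBy A b⁻¹ ⊔ C)) ⊔ B = A ⊔ B ⊔ C ∧
    Group.IsNilpotent ↥(A ⊔ B ⊔ C) := by
  open Cfsg.Agent.H85 in
  have hE := rcc_of_commutator_mem hS hA hB hAB
  have hCB : ⁅C, B⁆ ∈ S := by rw [Subgroup.commutator_comm]; exact hBC
  have hF := rcc_of_commutator_mem hS hC hB hCB
  have hAC' : ∀ a ∈ A, ∀ c ∈ C, a * c = c * a :=
    fun a ha c hc => comm_of_commutator_eq_bot hAC.2.2 ha hc
  have hCA : ∀ c ∈ C, ∀ a ∈ A, c * a = a * c := fun c hc a ha => (hAC' a ha c hc).symm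
  have hbi : b⁻¹ ∈ B := B.inv_mem hb
  have hbi1 : b⁻¹ ≠ 1 := inv_ne_one.mpr hb1
  obtain ⟨hnorm, hnil⟩ := rcc3_nilpotent hS hA hB hC hE hF hAC' hbi hbi1
  have hsup : ((A ⊔ conjBy C b⁻¹) ⊔ (conjBy A b⁻¹ ⊔ C)) ⊔ B = A ⊔ B ⊔ C := by
    rw [rcc3_N_eq hE hF hbi hbi1]
    apply le_antisymm
    · refine sup_le (sup_le (sup_le (le_sup_left.trans le_sup_left)
        ((commutator_le_sup' A B).trans le_sup_left)) (sup_le le_sup_right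
        ((commutator_le_sup' C B).trans (sup_le le_sup_right (le_sup_right.trans le_sup_left)))))
        (le_sup_right.trans le_sup_left)
    · refine sup_le (sup_le (le_sup_left.trans (le_sup_left.trans le_sup_left)) le_sup_right)
        (le_sup_left.trans (le_sup_right.trans le_sup_left))
  refine ⟨?_, ?_, ?_, hsup, ?_⟩
  · by_cases h0 : ⁅A, ⁅C, B⁆⁆ = ⊥
    · left
      have h0' := rcc3_bot_imp hAC' h0
      refine ⟨rcc3_X_comm_of_eq_bot hS hA hC hF hAC' hbi h0, ?_⟩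
      have := rcc3_X_comm_of_eq_bot hS hC hA hE hCA hbi h0'
      rw [sup_comm] at this
      exact this
    · right
      have h0' : ⁅C, ⁅A, B⁆⁆ ≠ ⊥ := fun h => h0 (rcc3_bot_imp hCA h)
      refine ⟨⟨fun hX => h0 (rcc3_eq_bot_of_X_comm hF hAC' hbi hbi1 hX),
        rcc3_X_class_two hS hA hC hF hAC' hbi⟩,
        ⟨fun hY => h0' (rcc3_eq_bot_of_X_comm hE hCA hbi hbi1 (by rw [sup_comm]; exact hY)), ?_⟩⟩
      have := rcc3_X_class_two hS hC hA hE hCA hbi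
      rw [sup_comm] at this
      exact this
  · exact commutator_eq_bot_of_comm (rcc3_X_Y_comm hS hA hC hE hF hAC' hbi)
  · intro r hr
    rw [conjBy_eq_self_iff]
    have hle : A ⊔ B ⊔ C ≤ Subgroup.normalizer
        ((((A ⊔ conjBy C b⁻¹) ⊔ (conjBy A b⁻¹ ⊔ C) : Subgroup G)) : Set G) := by
      rw [← hsup]
      exact sup_le Subgroup.le_normalizer hnorm
    exact hle hr
  · rw [← hsup]; exact hnil

end Cfsg.Agent.S5030
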