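import Cfsg.Statements.S5035
import Cfsg.Agent.H86.RootImage

set_option autoImplicit false
open Cfsg

namespace Cfsg.Agent.S5035

/-- Let S be a set of abstract root subgroups of G whose graph of rank one pairs is connected, and f a homomorphism from G onto a group H. Then either the images of the members of S form a set of abstract root subgroups of H whose graph of rank one pairs is again connected, or H equals the image of a member of S. -/
theorem result {G H : Type*} [Group G] [Group H] {S : Set (Subgroup G)} (hS : Cfsg.IsRootSubgroupSet S)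
    (hc : Cfsg.IsConnectedFamily (Cfsg.FAdj S) S) (f : G →* H) (hf : Function.Surjective f) :
    (Cfsg.IsRootSubgroupSet ((fun A : Subgroup G => A.map f) '' S) ∧
      Cfsg.IsConnectedFamily (Cfsg.FAdj ((fun A : Subgroup G => A.map f) '' S)) ((fun A : Subgroup G => A.map f) '' S)) ∨
    ∃ A ∈ S, A.map f = ⊤ := by
  by_cases hbot : ∃ A ∈ S, A.map f = ⊥
  · right
    obtain ⟨A, hA, hAbot⟩ := hbot
    exact ⟨A, hA, by rw [hAbot, Cfsg.Agent.H86.top_eq_bot_of_map_eq_bot hS hc f hf hA hAbot]⟩
  · left
    have hne : ∀ A ∈ S, A.map f ≠ ⊥ := fun A hA h => hbot ⟨A, hA, h⟩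
    exact ⟨Cfsg.Agent.H86.isRootSubgroupSet_map hS f hf hne, Cfsg.Agent.H86.isConnectedFamily_map hS hc f⟩

end Cfsg.Agent.S5035
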