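import Cfsg.Statements.S5045
import Cfsg.Agent.H85.RootInv

set_option autoImplicit false
open Cfsg

namespace Cfsg.Agent.S5045

/-- Let G be a finite group generated by a set D of root involutions, and W the set of members of D whose product with every other member of D has even order or is trivial (the isolated vertices of the odd-order-product graph on D). Then W is conjugation-invariant and generates a normal 2-subgroup of G meeting D in exactly W; the commutator of two members of D lying in different connected components of that graph, each with more than one member, lies in the subgroup generated by W; and for a in such a component, every member of D commuting with a, different from a and with product with a in D, lies in that component or in W. -/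
theorem result {G : Type*} [Group G] [Finite G] {D : Set G} (hD : Cfsg.IsRootInvolutionSet D) :
    (∀ w ∈ {w | Cfsg.IsIsolatedElem (Cfsg.OddAdj D) D w}, ∀ g : G, g * w * g⁻¹ ∈ {w | Cfsg.IsIsolatedElem (Cfsg.OddAdj D) D w}) ∧
    (Subgroup.closure {w | Cfsg.IsIsolatedElem (Cfsg.OddAdj D) D w}).Normal ∧
    IsPGroup 2 ↥(Subgroup.closure {w | Cfsg.IsIsolatedElem (Cfsg.OddAdj D) D w}) ∧
    (Subgroup.closure {w | Cfsg.IsIsolatedElem (Cfsg.OddAdj D) D w} : Set G) ∩ D = {w | Cfsg.IsIsolatedElem (Cfsg.OddAdj D) D w} ∧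
    (∀ a ∈ D, ∀ b ∈ D, (∃ a' ∈ Cfsg.elemComponentOf (Cfsg.OddAdj D) D a, a' ≠ a) →
      (∃ b' ∈ Cfsg.elemComponentOf (Cfsg.OddAdj D) D b, b' ≠ b) →
      Cfsg.elemComponentOf (Cfsg.OddAdj D) D a ≠ Cfsg.elemComponentOf (Cfsg.OddAdj D) D b →
        a * b * a⁻¹ * b⁻¹ ∈ Subgroup.closure {w | Cfsg.IsIsolatedElem (Cfsg.OddAdj D) D w}) ∧
    (∀ a ∈ D, (∃ a' ∈ Cfsg.elemComponentOf (Cfsg.OddAdj D) D a, a' ≠ a) →
      Cfsg.productPartners D a ⊆ Cfsg.elemComponentOf (Cfsg.OddAdj D) D a ∪ {w | Cfsg.IsIsolatedElem (Cfsg.OddAdj D) D w}) := by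
  refine ⟨fun w hw g => Cfsg.Agent.H85.ri_isolated_conj hD hw g,
    Cfsg.Agent.H85.ri_closure_normal (fun w hw g => Cfsg.Agent.H85.ri_isolated_conj hD hw g),
    Cfsg.Agent.H85.ri_isolated_pgroup hD, Cfsg.Agent.H85.ri_isolated_inter hD,
    fun a ha b hb hnta hntb hne => Cfsg.Agent.H85.ri_comm_mem hD ha hb hnta hntb hne,
    fun a ha hnt => Cfsg.Agent.H85.ri_partners hD ha hnt⟩

end Cfsg.Agent.S5045
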