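import Cfsg.Statements.S5046
import Cfsg.Agent.H85.RTMain
import Cfsg.Agent.H85.RTCaseA
import Cfsg.Agent.H53.RTCard
import Cfsg.Agent.H53.RT4GL
import Cfsg.Agent.H53.RTTri
import Cfsg.Agent.H8.RTCommConj
import Cfsg.Agent.H8.RTVOdd
import Cfsg.Agent.H62.RTC1
import Cfsg.Agent.H62.RTFwd
import Cfsg.Agent.H62.RTTrans
import Cfsg.Agent.H75.RTTwComm
import Cfsg.Agent.H75.RTP2

set_option autoImplicit false
open Cfsg

namespace Cfsg.Agent.S5046

/-- Let G be a finite group generated by a set D of root involutions whose odd-order-product graph is connected, and d ∈ D. Then the members e of D with the same commuting members as d are exactly those for which the union of the commuting members of d and the members whose product with d has order 4 equals the corresponding union for e. -/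
theorem result {G : Type*} [Group G] [Finite G] {D : Set G} (hD : Cfsg.IsRootInvolutionSet D)
    (hc : Cfsg.IsConnectedSet (Cfsg.OddAdj D) D) {d : G} (hd : d ∈ D) :
    Cfsg.sameCommutingClass D d =
      {e | e ∈ D ∧ Cfsg.commutingMembers D d ∪ Cfsg.fourPartners D d = Cfsg.commutingMembers D e ∪ Cfsg.fourPartners D e} := by
  exact Cfsg.Agent.H85.RT.s5046_of_pieces Cfsg.Agent.H62.RT.fwd Cfsg.Agent.H53.RT.tri
    (Cfsg.Agent.H85.RT.cent_of_pieces Cfsg.Agent.H53.RT.card
      (Cfsg.Agent.H53.RT.four_gl Cfsg.Agent.H53.RT.card)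
      (Cfsg.Agent.H75.RT.p2 Cfsg.Agent.H62.RT.trans
        (Cfsg.Agent.H75.RT.tw_comm (Cfsg.Agent.H53.RT.four_gl Cfsg.Agent.H53.RT.card)))
      (Cfsg.Agent.H85.RT.caseA Cfsg.Agent.H62.RT.c1
        (Cfsg.Agent.H53.RT.four_gl Cfsg.Agent.H53.RT.card)
        Cfsg.Agent.H8.RT.v_odd
        (Cfsg.Agent.H8.RT.comm_conj (Cfsg.Agent.H53.RT.four_gl Cfsg.Agent.H53.RT.card))))
    hD hc hd

end Cfsg.Agent.S5046
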