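import Cfsg.Statements.S5047
import Cfsg.Agent.H85.RXMain
import Cfsg.Agent.H85.RTCent
import Cfsg.Agent.H11.RXOddMul
import Cfsg.Agent.H11.RXClaim1
import Cfsg.Agent.H62.RXPhiMem
import Cfsg.Agent.H62.RXInjA
import Cfsg.Agent.H54.RXS4
import Cfsg.Agent.H54.RXInjB

set_option autoImplicit false
open Cfsg

namespace Cfsg.Agent.S5047

/-- Let G be a finite group generated by a set D of root involutions whose odd-order-product graph is connected, a ∈ D, and b a member of D different from a, commuting with a, with ab ∈ D, but not having the same commuting members as a. Then some member x of D with bx of order 4 has ax of order 3. -/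
theorem result {G : Type*} [Group G] [Finite G] {D : Set G} (hD : Cfsg.IsRootInvolutionSet D)
    (hc : Cfsg.IsConnectedSet (Cfsg.OddAdj D) D) {a b : G} (ha : a ∈ D) (hb : b ∈ Cfsg.productPartners D a)
    (hbE : b ∉ Cfsg.sameCommutingClass D a) : ∃ x ∈ Cfsg.fourPartners D b, orderOf (a * x) = 3 := by
  exact Cfsg.Agent.H85.RX.s5047_of_pieces Cfsg.Agent.H85.RT.cent (Cfsg.Agent.H11.RX.claim1 Cfsg.Agent.H53.RT.card (Cfsg.Agent.H62.RX.phi_mem Cfsg.Agent.H8.RT.v_odd) (Cfsg.Agent.H62.RX.inj_a Cfsg.Agent.H8.RT.v_odd Cfsg.Agent.H11.RX.odd_mul) (Cfsg.Agent.H54.RX.inj_b Cfsg.Agent.H11.RX.odd_mul)) (Cfsg.Agent.H54.RX.s4 Cfsg.Agent.H11.RX.odd_mul) hD hc ha hb hbE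

end Cfsg.Agent.S5047
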