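import Cfsg.Statements.S5049
import Cfsg.Agent.H86.OddTransp

set_option autoImplicit false
open Cfsg

namespace Cfsg.Agent.S5049

/-- Let G be a finite group generated by a set D of odd transpositions (root involutions with no product of order 4), Q = O₂(G), and for a ∈ D let Q_a be the commutator subgroup of Q with a. Then every member of D commuting with a centralizes Q_a; and for b ∈ D with ab of odd order greater than 1, the centralizer of ab in Q is the intersection of the centralizers of a and b in Q. -/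
theorem result {G : Type*} [Group G] [Finite G] {D : Set G} (hD : Cfsg.IsOddTranspositionSet D) {a : G} (ha : a ∈ D) :
    (∀ e ∈ Cfsg.commutingMembers D a, ∀ q ∈ ⁅Cfsg.pCore 2 G, Subgroup.zpowers a⁆, e * q = q * e) ∧
    (∀ b ∈ Cfsg.oddPartners D a,
      Cfsg.pCore 2 G ⊓ Subgroup.centralizer {a * b} = Cfsg.pCore 2 G ⊓ Subgroup.centralizer {a} ⊓ Subgroup.centralizer {b}) := by
  have hQn : (Cfsg.pCore 2 G).Normal := Cfsg.Agent.H86.pCore_normal 2 G
  have hQ : ∀ x ∈ Cfsg.pCore 2 G, ∀ m : ℕ, Odd m → x ^ m = 1 → x = 1 :=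
    fun x hx m hm hxm => Cfsg.Agent.H86.eq_one_of_mem_pCore_two hx hm hxm
  constructor
  · rintro e ⟨he, hea⟩
    exact Cfsg.Agent.H86.comm_commutator_of_comm hD hQn hQ ha he hea
  · rintro b ⟨hb, hba, hodd⟩
    ext q
    simp only [Subgroup.mem_inf, Subgroup.mem_centralizer_iff, Set.mem_singleton_iff, forall_eq]
    constructor
    · rintro ⟨hq, hqr⟩
      have hqa := Cfsg.Agent.H86.comm_of_comm_mul hD hQn hQ ha hb hba hodd hq hqr
      refine ⟨⟨hq, hqa⟩, ?_⟩
      have hainv := Cfsg.Agent.H86.rootInv_inv hD.1 ha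
      calc b * q = a⁻¹ * ((a * b) * q) := by group
        _ = a⁻¹ * (q * (a * b)) := by rw [hqr]
        _ = a * q * (a * b) := by rw [hainv]; group
        _ = q * a * (a * b) := by rw [hqa]
        _ = q * (a * a) * b := by group
        _ = q * b := by rw [Cfsg.Agent.H86.rootInv_mul_self hD.1 ha, mul_one]
    · rintro ⟨⟨hq, hqa⟩, hqb⟩
      refine ⟨hq, ?_⟩
      calc a * b * q = a * (b * q) := by group
        _ = a * (q * b) := by rw [hqb]
        _ = (a * q) * b := by group
        _ = q * a * b := by rw [hqa]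
        _ = q * (a * b) := by group

end Cfsg.Agent.S5049
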