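import Cfsg.Statements.S5057
import Cfsg.Agent.H86.AltSix

set_option autoImplicit false
open Cfsg

namespace Cfsg.Agent.S5057

/-- The involutions of the alternating group of degree 6 form a class of root involutions (a single conjugacy class of involutions generating the group, any two of which commute, have product of odd order, or have product of order 4 whose square is again an involution of the class), and the product of any two of them has order at most 5. -/
theorem result :
    Cfsg.IsRootInvolutionClass {g : ↥(alternatingGroup (Fin 6)) | orderOf g = 2} ∧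
    ∀ d ∈ {g : ↥(alternatingGroup (Fin 6)) | orderOf g = 2}, ∀ e ∈ {g : ↥(alternatingGroup (Fin 6)) | orderOf g = 2},
      orderOf (d * e) ≤ 5 := by
  refine ⟨⟨⟨fun d hd => hd, Cfsg.Agent.H86.altSix_closure_involutions, ?_, ?_⟩, ?_, ?_⟩, ?_⟩
  · intro d hd g
    show orderOf (g * d * g⁻¹) = 2
    have h := (MulAut.conj g).orderOf_eq d
    rw [MulAut.conj_apply] at h
    rw [h]
    exact hd
  · intro a ha b hb
    have ha2 : a * a = 1 := by
      have := pow_orderOf_eq_one a
      rwa [show orderOf a = 2 from ha, pow_two] at this
    have hb2 : b * b = 1 := by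
      have := pow_orderOf_eq_one b
      rwa [show orderOf b = 2 from hb, pow_two] at this
    rcases Cfsg.Agent.H86.altSix_orderOf (a * b) with h | h | h | h | h
    · left
      have h1 : a * b = 1 := orderOf_eq_one_iff.1 h
      have h2 : b = a⁻¹ := eq_inv_of_mul_eq_one_right h1
      rw [h2, mul_inv_cancel, inv_mul_cancel]
    · left
      have h1 : (a * b) * (a * b) = 1 := by
        have := pow_orderOf_eq_one (a * b)
        rwa [h, pow_two] at this
      calc a * b = a * b * ((a * b) * (b * a)) := by
            rw [show a * b * (b * a) = a * (b * b) * a by group, hb2, mul_one, ha2, mul_one]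
        _ = ((a * b) * (a * b)) * (b * a) := by group
        _ = b * a := by rw [h1, one_mul]
    · right; left
      rw [h]; decide
    · right; right
      refine ⟨h, ?_⟩
      show orderOf ((a * b) ^ 2) = 2
      rw [orderOf_pow' (a * b) (by norm_num : (2 : ℕ) ≠ 0), h]
      rfl
    · right; left
      rw [h]; decide
  · exact Cfsg.Agent.H86.altSix_exists_involution
  · intro a ha b hb
    obtain ⟨c, hc⟩ := isConj_iff.1 (Cfsg.Agent.H86.altSix_isConj_of_orderOf_two ha hb)
    exact ⟨c, hc.symm⟩
  · intro d _ e _
    rcases Cfsg.Agent.H86.altSix_orderOf (d * e) with h | h | h | h | h <;> omega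

end Cfsg.Agent.S5057
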