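import Cfsg.Statements.S5060
import Cfsg.Agent.H95.SL2Gen
import Cfsg.Agent.H95.SL2Fin

set_option autoImplicit false
open Cfsg

namespace Cfsg.Agent.S5060

/-- Let k ⊆ K be fields with the characteristic of k not 2 and k not of order 3, and let α ∈ K be a non-zero element algebraic over k. Then the subgroup of SL₂(K) generated by the upper unitriangular matrices with entry c and the lower unitriangular matrices with entry cα, c ranging over k, is exactly the group of matrices of SL₂(K) with all entries in k(α). -/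
theorem result {k K : Type*} [Field k] [Field K] [Algebra k K] (hk2 : ringChar k ≠ 2) (hk3 : Nat.card k ≠ 3)
    (α : K) (hα : IsAlgebraic k α) (hα0 : α ≠ 0) :
    (Subgroup.closure ({g : Matrix.SpecialLinearGroup (Fin 2) K | ∃ c : k, (g : Matrix (Fin 2) (Fin 2) K) = !![1, algebraMap k K c; 0, 1]} ∪
        {g : Matrix.SpecialLinearGroup (Fin 2) K | ∃ c : k, (g : Matrix (Fin 2) (Fin 2) K) = !![1, 0; algebraMap k K c * α, 1]}) :
      Set (Matrix.SpecialLinearGroup (Fin 2) K)) =
    {g : Matrix.SpecialLinearGroup (Fin 2) K | ∀ i j : Fin 2, (g : Matrix (Fin 2) (Fin 2) K) i j ∈ IntermediateField.adjoin k ({α} : Set K)} := by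
  classical
  obtain ⟨L, hLdef⟩ : ∃ L : IntermediateField k K, L = IntermediateField.adjoin k ({α} : Set K) :=
    ⟨_, rfl⟩
  rw [← hLdef]
  have hset : ({g : Matrix.SpecialLinearGroup (Fin 2) K | ∃ c : k, (g : Matrix (Fin 2) (Fin 2) K) = !![1, algebraMap k K c; 0, 1]} ∪
        {g : Matrix.SpecialLinearGroup (Fin 2) K | ∃ c : k, (g : Matrix (Fin 2) (Fin 2) K) = !![1, 0; algebraMap k K c * α, 1]}) =
      Cfsg.Agent.H95.SG.gens k α := by
    ext g
    simp only [Cfsg.Agent.H95.SG.gens, Set.mem_union, Set.mem_ofPred_eq, Set.mem_range]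
    constructor
    · rintro (⟨c, hc⟩ | ⟨c, hc⟩)
      · left; exact ⟨c, Subtype.ext hc.symm⟩
      · right; exact ⟨c, Subtype.ext hc.symm⟩
    · rintro (⟨c, rfl⟩ | ⟨c, rfl⟩)
      · left; exact ⟨c, rfl⟩
      · right; exact ⟨c, rfl⟩
  rw [hset]
  have hH := Cfsg.Agent.H95.SG.hyp_closure (k := k) α
  have h2 : (2 : k) ≠ 0 := Ring.two_ne_zero hk2
  have hαL : α ∈ L := by rw [hLdef]; exact IntermediateField.mem_adjoin_simple_self k α
  have hent : ∀ g ∈ Subgroup.closure (Cfsg.Agent.H95.SG.gens k α),
      g.1 0 0 ∈ L ∧ g.1 0 1 ∈ L ∧ g.1 1 0 ∈ L ∧ g.1 1 1 ∈ L :=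
    fun g hg => Cfsg.Agent.H95.SG.entries_mem α L.toSubalgebra hαL hg
  ext g
  simp only [SetLike.mem_coe, Set.mem_ofPred_eq]
  constructor
  · intro hg
    obtain ⟨h0, h1, h2', h3⟩ := hent g hg
    intro i j
    fin_cases i <;> fin_cases j <;> assumption
  · intro hg
    have hu : ∀ t ∈ L, Cfsg.Agent.H29.Dk.uT t ∈ Subgroup.closure (Cfsg.Agent.H95.SG.gens k α) := by
      intro t ht
      rcases finite_or_infinite k with hfin | hinf
      · have hcard : 4 ≤ Nat.card k := by
          let _ : Fintype k := Fintype.ofFinite k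
          have h1 : 1 < Nat.card k := Finite.one_lt_card
          have h2' : Nat.card k ≠ 2 := by
            intro h
            apply h2
            have := Nat.cast_card_eq_zero k
            rw [← Nat.card_eq_fintype_card, h] at this
            exact_mod_cast this
          omega
        rw [hLdef] at ht
        exact Cfsg.Agent.H95.SF.uT_mem_of_finite h2 hcard hα hα0 hH ht
      · have : FiniteDimensional k L := by
          rw [hLdef]; exact IntermediateField.adjoin.finiteDimensional hα.isIntegral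
        apply Cfsg.Agent.H95.SG.uT_mem_of_infinite hH h2 hα0 L (fun g hg => (hent g hg).2.2.1)
        have hadj : L.toSubalgebra = Algebra.adjoin k {α} := by
          rw [hLdef]
          exact IntermediateField.adjoin_simple_toSubalgebra_of_isAlgebraic hα
        rw [← hadj]
        exact ht
    have hlα : Cfsg.Agent.H29.Dk.lT α ∈ Subgroup.closure (Cfsg.Agent.H95.SG.gens k α) := by
      have := hH.hl 1
      rwa [map_one, one_mul] at this
    exact Cfsg.Agent.H95.SG.mem_of_uT hα0 L hαL hlα hu g ⟨hg 0 0, hg 0 1, hg 1 0, hg 1 1⟩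

end Cfsg.Agent.S5060
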