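-- Statement S5078: a receptive subgroup is fully centralized.
import Cfsg.Statements.S5078
import Cfsg.Agent.H86.FusAut

set_option autoImplicit false
open Cfsg

namespace Cfsg.Agent.S5078

open Cfsg.Agent.H86 Cfsg.FusionSystem

/-- In any fusion system over a finite subgroup S, a receptive subgroup is fully centralized. -/
theorem result {Ω : Type*} [Group Ω] {S : Subgroup Ω} [Finite S] (F : Cfsg.FusionSystem S) (P : Subgroup Ω) (hP : F.IsReceptive P) : F.IsFullyCentralized P := by
  refine ⟨hP.1, fun Q hQ => ?_⟩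
  obtain ⟨f, hf, himg⟩ := isConj_iff.1 (isConj_symm hQ)
  obtain ⟨f', hf', hff'⟩ := receptive_extend' hP hf himg
  have hC : centralizerIn S Q ≤ extSub S Q f := centralizerIn_le_extSub hf
  have hQle : Q ≤ extSub S Q f := le_extSub hf
  have hmaps : ∀ c : centralizerIn S Q, f' c ∈ centralizerIn S P := by
    intro c
    rw [mem_centralizerIn_iff]
    refine ⟨hf'.mem (hC c.2), ?_⟩
    intro y hy
    rw [← himg] at hy
    obtain ⟨x, hx, rfl⟩ := hf.mem_imgS.1 hy
    rw [← hff' x hx, ← hf'.map_mul (hQle hx) (hC c.2), ← hf'.map_mul (hC c.2) (hQle hx)]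
    rw [(mem_centralizerIn_iff.1 c.2).2 x hx]
  have : Finite (centralizerIn S P) := finite_of_le (S := S) inf_le_left
  refine Nat.card_le_card_of_injective (fun c : centralizerIn S Q => (⟨f' c, hmaps c⟩ : centralizerIn S P)) ?_
  intro c d hcd
  have h1 : f' c = f' d := congrArg Subtype.val hcd
  exact Subtype.ext (hf'.injOn (hC c.2) (hC d.2) h1)

end Cfsg.Agent.S5078
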