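import Cfsg.Statements.S5088
import Cfsg.Agent.H86.FusChain

set_option autoImplicit false
set_option maxHeartbeats 400000
open Cfsg

namespace Cfsg.Agent.S5088

open Cfsg.Agent.H86 in
/-- In a saturated fusion system over a finite p-group, a subgroup Q is normal in the system if and only if there is a chain of subgroups 1 = Q₀ ≤ Q₁ ≤ ⋯ ≤ Qₙ = Q such that each Qᵢ with i ≥ 1 is strongly closed in the system and [Q, Qᵢ] ≤ Qᵢ₋₁. -/
theorem result {Ω : Type*} [Group Ω] {S : Subgroup Ω} [Finite S] (p : ℕ) [Fact p.Prime] (hS : IsPGroup p S) (F : Cfsg.FusionSystem S) (hF : F.IsSaturated p) (Q : Subgroup Ω) : F.IsNormal Q ↔ ∃ (n : ℕ) (Qs : Fin (n + 1) → Subgroup Ω), Qs 0 = ⊥ ∧ Qs (Fin.last n) = Q ∧ Monotone Qs ∧ ∀ i : Fin n, F.StronglyClosed (Qs i.succ) ∧ ⁅Q, Qs i.succ⁆ ≤ Qs (Fin.castSucc i) := by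
  constructor
  · intro hQ
    have hQS : Q ≤ S := hQ.1
    have : Finite Q := finite_of_le hQS
    have hQp : IsPGroup p Q := hS.to_le hQS
    have hnil : Group.IsNilpotent Q := hQp.isNilpotent
    refine ⟨Group.nilpotencyClass Q, fun i => (Subgroup.upperCentralSeries Q i).map Q.subtype, ?_, ?_, ?_, ?_⟩
    · show (Subgroup.upperCentralSeries Q 0).map Q.subtype = ⊥
      rw [Subgroup.upperCentralSeries_zero, Subgroup.map_bot]
    · show (Subgroup.upperCentralSeries Q (Group.nilpotencyClass Q)).map Q.subtype = Q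
      rw [Subgroup.upperCentralSeries_nilpotencyClass, ← MonoidHom.range_eq_map, Subgroup.range_subtype]
    · intro a b hab
      exact Subgroup.map_mono (Subgroup.upperCentralSeries_mono Q (by exact_mod_cast hab))
    · intro i
      have hle : (Subgroup.upperCentralSeries Q (i.succ : ℕ)).map Q.subtype ≤ Q := by
        rintro _ ⟨x, -, rfl⟩
        exact x.2
      have hsub : ((Subgroup.upperCentralSeries Q (i.succ : ℕ)).map Q.subtype).subgroupOf Q
          = Subgroup.upperCentralSeries Q (i.succ : ℕ) :=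
        Subgroup.comap_map_eq_self_of_injective Q.subtype_injective _
      have hchar : (((Subgroup.upperCentralSeries Q (i.succ : ℕ)).map Q.subtype).subgroupOf Q).Characteristic := by
        rw [hsub]; infer_instance
      refine ⟨IsNormal.stronglyClosed (isNormal_of_characteristic hQ hle hchar), ?_⟩
      show ⁅Q, (Subgroup.upperCentralSeries Q (i.succ : ℕ)).map Q.subtype⁆
        ≤ (Subgroup.upperCentralSeries Q (i.castSucc : ℕ)).map Q.subtype
      have h1 : (⊤ : Subgroup Q).map Q.subtype = Q := by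
        rw [← MonoidHom.range_eq_map, Subgroup.range_subtype]
      have h2 : ⁅Q, (Subgroup.upperCentralSeries Q (i.succ : ℕ)).map Q.subtype⁆
          = ⁅(⊤ : Subgroup Q).map Q.subtype, (Subgroup.upperCentralSeries Q (i.succ : ℕ)).map Q.subtype⁆ :=
        congrArg (fun X => ⁅X, (Subgroup.upperCentralSeries Q (i.succ : ℕ)).map Q.subtype⁆) h1.symm
      rw [h2, ← Subgroup.map_commutator, Subgroup.commutator_comm]
      apply Subgroup.map_mono
      have := Subgroup.commutator_upperCentralSeries_top_le Q (i : ℕ)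
      simpa using this
  · rintro ⟨n, Qs, h0, hlast, hmono, hQs⟩
    have hM : ∀ j : ℕ, min j n < n + 1 := fun j => by omega
    have hQsc : F.StronglyClosed Q := by
      rcases Nat.eq_zero_or_pos n with hn | hn
      · subst hn
        have : Q = ⊥ := by rw [← hlast, ← h0]; rfl
        rw [this]
        exact stronglyClosed_bot F
      · have h1 := (hQs ⟨n - 1, by omega⟩).1
        have h2 : (⟨n - 1, by omega⟩ : Fin n).succ = Fin.last n := by
          apply Fin.ext
          show n - 1 + 1 = n
          omega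
        rw [h2, hlast] at h1
        exact h1
    refine isNormal_of_chain hS hF hQsc (fun j => Qs ⟨min j n, hM j⟩) n ?_ ?_ ?_ ?_
    · show Qs ⟨min 0 n, hM 0⟩ = ⊥
      rw [← h0]
      congr 1
    · intro a b hab
      apply hmono
      show (⟨min a n, hM a⟩ : Fin (n + 1)) ≤ ⟨min b n, hM b⟩
      rw [Fin.mk_le_mk]
      omega
    · show Qs ⟨min n n, hM n⟩ = Q
      rw [← hlast]
      congr 1
      apply Fin.ext
      show min n n = n
      omega
    · intro j hj
      have e1 : (⟨min (j + 1) n, hM (j + 1)⟩ : Fin (n + 1)) = (⟨j, hj⟩ : Fin n).succ := by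
        apply Fin.ext
        show min (j + 1) n = j + 1
        omega
      have e2 : (⟨min j n, hM j⟩ : Fin (n + 1)) = Fin.castSucc (⟨j, hj⟩ : Fin n) := by
        apply Fin.ext
        show min j n = j
        omega
      show F.StronglyClosed (Qs ⟨min (j + 1) n, hM (j + 1)⟩) ∧
        ⁅Q, Qs ⟨min (j + 1) n, hM (j + 1)⟩⁆ ≤ Qs ⟨min j n, hM j⟩
      rw [e1, e2]
      exact hQs ⟨j, hj⟩

end Cfsg.Agent.S5088
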