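import Cfsg.Statements.S5092
import Cfsg.Agent.H87.Hyp

set_option autoImplicit false
open Cfsg

namespace Cfsg.Agent.S5092

/-- For a saturated fusion system over a finite p-group S, the focal subgroup is the product of the hyperfocal subgroup and the derived subgroup of S. -/
theorem result {Ω : Type*} [Group Ω] {S : Subgroup Ω} [Finite S] (p : ℕ) [Fact p.Prime] (hS : IsPGroup p S) (F : Cfsg.FusionSystem S) (hF : F.IsSaturated p) : F.focalSubgroup = F.hyperfocalSubgroup p ⊔ ⁅(S : Subgroup Ω), (S : Subgroup Ω)⁆ := by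
  open Cfsg.Agent.H86 Cfsg.Agent.H87 in
  open scoped commutatorElement in
  apply le_antisymm
  · unfold Cfsg.FusionSystem.focalSubgroup
    rw [Subgroup.closure_le]
    rintro _ ⟨P, φ, x, hφ, rfl⟩
    obtain ⟨s, hs, hsx⟩ := mor_mod_hyperfocal hS hF (mor_extFun hφ)
    have h1 := hsx x x.2
    rw [extFun_apply] at h1
    have hxS : (x : Ω) ∈ S := (F.le_of_mem hφ).1 x.2
    have h2 : (x : Ω)⁻¹ * φ x = ⁅(x : Ω)⁻¹, s⁆ * ((s * (x : Ω) * s⁻¹)⁻¹ * φ x) := by
      rw [commutatorElement_def]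
      group
    rw [h2]
    exact Subgroup.mul_mem _
      ((le_sup_right : ⁅(S : Subgroup Ω), (S : Subgroup Ω)⁆ ≤ _)
        (Subgroup.commutator_mem_commutator (S.inv_mem hxS) hs))
      ((le_sup_left : F.hyperfocalSubgroup p ≤ _) h1)
  · refine sup_le ?_ ?_
    · conv_lhs => unfold Cfsg.FusionSystem.hyperfocalSubgroup
      rw [Subgroup.closure_le]
      rintro _ ⟨P, α, x, hP, -, rfl⟩
      obtain ⟨φ, hφ, hφα⟩ := (mem_autGroup_iff hP (α : MulAut P)).1 α.2
      refine Subgroup.subset_closure ⟨P, φ, x, hφ, ?_⟩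
      rw [hφα, autFun_apply]
    · rw [Subgroup.commutator_le]
      intro x hx s hs
      have hφ : Cfsg.conjHom S s ∈ F.Hom S := F.conj_mem le_rfl hs
      refine Subgroup.subset_closure ⟨S, Cfsg.conjHom S s, ⟨x⁻¹, S.inv_mem hx⟩, hφ, ?_⟩
      rw [commutatorElement_def]
      show x * s * x⁻¹ * s⁻¹ = x⁻¹⁻¹ * (s * x⁻¹ * s⁻¹)
      group

end Cfsg.Agent.S5092
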