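import Cfsg.Statements.S5100
import Cfsg.Agent.H87.Syl

set_option autoImplicit false
open Cfsg

namespace Cfsg.Agent.S5100

/-- In the fusion system of a finite group G on a Sylow p-subgroup S, a subgroup P ≤ S is fully normalized if and only if N_S(P) is a Sylow p-subgroup of N_G(P). -/
theorem result {G : Type*} [Group G] [Finite G] (p : ℕ) [Fact p.Prime] (S : Sylow p G) (P : Subgroup G) (hP : P ≤ S) : (Cfsg.groupFusionSystem (S : Subgroup G)).IsFullyNormalized P ↔ ∃ R : Sylow p ↥(Subgroup.normalizer (P : Set G)), (R : Subgroup ↥(Subgroup.normalizer (P : Set G))) = (Cfsg.FusionSystem.normalizerIn (S : Subgroup G) P).subgroupOf (Subgroup.normalizer (P : Set G)) := by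
  open Cfsg.Agent.H87 Cfsg.FusionSystem in
  constructor
  · intro hfn
    obtain ⟨g, hQS, hsyl⟩ := exists_conj_normalizerIn_sylow S P hP
    have hconj : (Cfsg.groupFusionSystem (S : Subgroup G)).IsConj P (P.map (MulAut.conj g).toMonoidHom) :=
      groupFusionSystem_isConj_iff.mpr ⟨hP, hQS, g, rfl⟩
    have h1 := hfn.2 _ hconj
    have h2 := (isSylIn_iff_card (normalizerIn_le_normalizer _ _)).mp hsyl
    rw [normalizer_map_conj, card_map_conj] at h2
    have h3 := card_dvd_of_isPGroup_le (normalizerIn_le_normalizer (S : Subgroup G) P)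
      (S.isPGroup'.to_le inf_le_left)
    apply (isSylIn_iff_card (normalizerIn_le_normalizer _ _)).mpr
    exact le_antisymm (Nat.le_of_dvd (pow_pos (Fact.out : p.Prime).pos _) h3) (h2 ▸ h1)
  · intro hsyl
    refine ⟨hP, fun Q hQ => ?_⟩
    obtain ⟨-, hQS, g, rfl⟩ := groupFusionSystem_isConj_iff.mp hQ
    have h2 := (isSylIn_iff_card (normalizerIn_le_normalizer _ _)).mp hsyl
    have h3 := card_dvd_of_isPGroup_le
      (normalizerIn_le_normalizer (S : Subgroup G) (P.map (MulAut.conj g).toMonoidHom))
      (S.isPGroup'.to_le inf_le_left)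
    rw [normalizer_map_conj, card_map_conj] at h3
    rw [h2]
    exact Nat.le_of_dvd (pow_pos (Fact.out : p.Prime).pos _) h3

end Cfsg.Agent.S5100
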