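import Cfsg.Statements.S5102
import Cfsg.Agent.H87.Syl

set_option autoImplicit false
open Cfsg

namespace Cfsg.Agent.S5102

/-- A normal p-subgroup of a finite group G is normal in the fusion system of G on a Sylow p-subgroup. -/
theorem result {G : Type*} [Group G] [Finite G] (p : ℕ) [Fact p.Prime] (S : Sylow p G) (R : Subgroup G) [R.Normal] (hR : IsPGroup p R) : (Cfsg.groupFusionSystem (S : Subgroup G)).IsNormal R := by
  open Cfsg.Agent.H87 Cfsg.FusionSystem in
  have hRS : R ≤ (S : Subgroup G) := hR.le_sylow_of_normal S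
  refine ⟨hRS, ?_⟩
  rintro P φ ⟨hP, hφS, g, hg⟩
  have hPR : P ⊔ R ≤ (S : Subgroup G) := sup_le hP hRS
  have hconj : ∀ x ∈ P ⊔ R, g * x * g⁻¹ ∈ (S : Subgroup G) := by
    rw [← map_conj_le_iff, Subgroup.map_sup]
    refine sup_le ?_ ?_
    · rw [map_conj_le_iff]
      intro x hx
      rw [← hg ⟨x, hx⟩]
      exact hφS _
    · rw [map_conj_le_iff]
      intro x hx
      exact hRS (Subgroup.Normal.conj_mem inferInstance x hx g)
  refine ⟨Cfsg.conjHom (P ⊔ R) g, ⟨hPR, fun x => hconj x x.2, g, fun x => rfl⟩, fun x => (hg x).symm, ?_⟩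
  ext y
  constructor
  · rintro ⟨x, hx, rfl⟩
    exact Subgroup.Normal.conj_mem inferInstance _ (Subgroup.mem_subgroupOf.mp hx) g
  · intro hy
    have hx : g⁻¹ * y * g ∈ R := by
      simpa using Subgroup.Normal.conj_mem (inferInstance : R.Normal) y hy g⁻¹
    refine ⟨⟨g⁻¹ * y * g, (le_sup_right : R ≤ P ⊔ R) hx⟩, Subgroup.mem_subgroupOf.mpr hx, ?_⟩
    show g * (g⁻¹ * y * g) * g⁻¹ = y
    group

end Cfsg.Agent.S5102
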