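import Cfsg.Statements.S5105
import Cfsg.Agent.H87.Rigid

set_option autoImplicit false
open Cfsg

namespace Cfsg.Agent.S5105

/-- Model Theorem, rigidity: if G is a model of a constrained fusion system over a finite p-group S (through ι : S → G), then every automorphism of G fixing ι(S) elementwise is conjugation by ι(z) for some z in the centre of S. -/
theorem result {Ω : Type*} [Group Ω] {S : Subgroup Ω} [Finite S] (p : ℕ) [Fact p.Prime] (hS : IsPGroup p S) (F : Cfsg.FusionSystem S) (hF : F.IsConstrained p) {G : Type*} [Group G] (ι : S →* G) (hG : F.IsModel p G ι) (ψ : G ≃* G) (hψ : ∀ x : S, ψ (ι x) = ι x) : ∃ z : S, z ∈ Subgroup.center S ∧ ∀ g : G, ψ g = ι z * g * (ι z)⁻¹ := by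
  open Cfsg.Agent.H87 Subgroup in
  obtain ⟨hfin, ⟨hinj, -⟩, ⟨T, hT⟩, hC⟩ := hG
  have := hfin
  have hQn : (Cfsg.pCore p G).Normal := Cfsg.pCore_normal p G
  have hQT : Cfsg.pCore p G ≤ T := pCore_le_sylow T
  have hCT : centralizer ((Cfsg.pCore p G : Subgroup G) : Set G) ≤ T := hC.trans hQT
  have hCn : (centralizer ((Cfsg.pCore p G : Subgroup G) : Set G)).Normal := inferInstance
  have hcomm : ∀ a ∈ centralizer ((Cfsg.pCore p G : Subgroup G) : Set G),
      ∀ b ∈ centralizer ((Cfsg.pCore p G : Subgroup G) : Set G), a * b = b * a :=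
    fun a ha b hb => hb a (hC ha)
  have hψT : ∀ x ∈ (T : Subgroup G), ψ x = x := by
    intro x hx
    rw [hT] at hx
    obtain ⟨s, rfl⟩ := hx
    exact hψ s
  have hu : ∀ g : G, ψ g * g⁻¹ ∈ centralizer ((Cfsg.pCore p G : Subgroup G) : Set G) := by
    intro g
    have h1 : g⁻¹ * ψ g ∈ centralizer ((Cfsg.pCore p G : Subgroup G) : Set G) := by
      rw [mem_centralizer_iff]
      intro x hx
      have hx1 : ψ x = x := hψT x (hQT hx)
      have hx2 : ψ (g * x * g⁻¹) = g * x * g⁻¹ := hψT _ (hQT (hQn.conj_mem x hx g))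
      rw [map_mul, map_mul, map_inv, hx1] at hx2
      calc x * (g⁻¹ * ψ g) = g⁻¹ * (g * x * g⁻¹) * ψ g := by group
        _ = g⁻¹ * (ψ g * x * (ψ g)⁻¹) * ψ g := by rw [hx2]
        _ = g⁻¹ * ψ g * x := by group
    have h2 : ψ g * g⁻¹ = g * (g⁻¹ * ψ g) * g⁻¹ := by group
    rw [h2]
    exact hCn.conj_mem _ h1 g
  obtain ⟨w, hw, hconj⟩ := aut_eq_conj_of_fix_sylow T _ hCT hcomm ψ hψT hu
  have hwT : w ∈ ι.range := hT ▸ hCT hw
  obtain ⟨z, rfl⟩ := hwT
  refine ⟨z, ?_, hconj⟩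
  rw [Subgroup.mem_center_iff]
  intro s
  apply hinj
  rw [map_mul, map_mul]
  have h3 := hconj (ι s)
  rw [hψ s] at h3
  calc ι s * ι z = (ι z * ι s * (ι z)⁻¹) * ι z := by rw [← h3]
    _ = ι z * ι s := by group

end Cfsg.Agent.S5105
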