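import Cfsg.Statements.S5106
import Cfsg.Agent.H90.NormalAut

set_option autoImplicit false
open Cfsg

namespace Cfsg.Agent.S5106

open Cfsg.FusionSystem Cfsg.Agent.H86 Cfsg.Agent.H90

/-- In a saturated fusion system over a finite p-group S, a subgroup R ≤ S is normal in the system if and only if every map of the system whose source is a subgroup of R is the restriction of an element of Aut_F(R). -/
theorem result {Ω : Type*} [Group Ω] {S : Subgroup Ω} [Finite S] (p : ℕ) [Fact p.Prime] (hS : IsPGroup p S) (F : Cfsg.FusionSystem S) (hF : F.IsSaturated p) (R : Subgroup Ω) (hRS : R ≤ S) : F.IsNormal R ↔ ∀ (P : Subgroup Ω) (hPR : P ≤ R) (φ : P →* Ω), φ ∈ F.Hom P → ∃ α ∈ F.autGroup R, ∀ x : P, ((α (Subgroup.inclusion hPR x) : R) : Ω) = φ x := by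
  rw [isNormal_iff_extends_aut hS hF hRS]
  constructor
  · intro h P hPR φ hφ
    obtain ⟨g, hg, himg, hgf⟩ := h P hPR _ (mor_extFun hφ)
    refine ⟨mkAut hg himg, mkAut_mem hg himg, fun x => ?_⟩
    rw [mkAut_apply]
    show g x = φ x
    rw [hgf x x.2, extFun_apply]
  · intro h P hPR f hf
    obtain ⟨φ, hφ, hφf⟩ := hf
    obtain ⟨α, hα, hαφ⟩ := h P hPR φ hφ
    have hαm := (mem_autGroup_iff hRS α).1 hα
    refine ⟨autFun R α, hαm, imgS_autFun hαm, fun x hx => ?_⟩
    rw [autFun_of_mem α (hPR hx), ← hφf ⟨x, hx⟩, ← hαφ ⟨x, hx⟩]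
    rfl

end Cfsg.Agent.S5106
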