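import Cfsg.Statements.S5107
import Cfsg.Agent.H87.Class2

set_option autoImplicit false
open Cfsg

namespace Cfsg.Agent.S5107

/-- If a Sylow p-subgroup S of a finite group G has nilpotency class at most two and its centre is strongly closed in S with respect to G, then every map of the fusion system of G on S is conjugation by an element of N_G(S), and S is the largest subgroup normal in that fusion system. -/
theorem result {G : Type*} [Group G] [Finite G] (p : ℕ) [Fact p.Prime] (S : Sylow p G) (hcl : ⁅(S : Subgroup G), (S : Subgroup G)⁆ ≤ (S : Subgroup G) ⊓ Subgroup.centralizer ((S : Subgroup G) : Set G)) (hZ : Cfsg.IsStronglyClosed ((S : Subgroup G) ⊓ Subgroup.centralizer ((S : Subgroup G) : Set G)) (S : Subgroup G)) : (∀ (P : Subgroup G) (φ : P →* G), φ ∈ (Cfsg.groupFusionSystem (S : Subgroup G)).Hom P → ∃ g ∈ Subgroup.normalizer ((S : Subgroup G) : Set G), ∀ x : P, φ x = g * (x : G) * g⁻¹) ∧ (Cfsg.groupFusionSystem (S : Subgroup G)).core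 = S := by
  open Cfsg.Agent.H87 Subgroup in
  have key : ∀ (P : Subgroup G) (φ : P →* G), φ ∈ (Cfsg.groupFusionSystem (S : Subgroup G)).Hom P →
      ∃ g ∈ Subgroup.normalizer ((S : Subgroup G) : Set G), ∀ x : P, φ x = g * (x : G) * g⁻¹ := by
    rintro P φ ⟨hP, hφS, g, hg⟩
    have hg' : ∀ x ∈ P, g * x * g⁻¹ ∈ (S : Subgroup G) := by
      intro x hx
      rw [← hg ⟨x, hx⟩]
      exact hφS _
    obtain ⟨n, hn, hnx⟩ := class2_control S hcl hZ P hP g hg'
    exact ⟨n, hn, fun x => by rw [hg, hnx x x.2]⟩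
  refine ⟨key, le_antisymm (sSup_le (fun Q hQ => hQ.1)) (le_sSup ?_)⟩
  refine ⟨le_rfl, ?_⟩
  intro P φ hφ
  obtain ⟨n, hn, hnx⟩ := key P φ hφ
  have hPS : P ⊔ (S : Subgroup G) ≤ (S : Subgroup G) := sup_le hφ.1 le_rfl
  have hconj : ∀ x ∈ (S : Subgroup G), n * x * n⁻¹ ∈ (S : Subgroup G) := fun x hx =>
    (mem_normalizer_iff.mp hn x).mp hx
  refine ⟨Cfsg.conjHom (P ⊔ (S : Subgroup G)) n, ⟨hPS, fun x => hconj x (hPS x.2), n, fun x => rfl⟩,
    fun x => (hnx x).symm, ?_⟩
  ext y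
  constructor
  · rintro ⟨x, hx, rfl⟩
    exact hconj _ (Subgroup.mem_subgroupOf.mp hx)
  · intro hy
    have hx : n⁻¹ * y * n ∈ (S : Subgroup G) := by
      have := (mem_normalizer_iff.mp (inv_mem hn) y).mp hy
      simpa using this
    refine ⟨⟨n⁻¹ * y * n, (le_sup_right : (S : Subgroup G) ≤ P ⊔ (S : Subgroup G)) hx⟩,
      Subgroup.mem_subgroupOf.mpr hx, ?_⟩
    show n * (n⁻¹ * y * n) * n⁻¹ = y
    group

end Cfsg.Agent.S5107
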