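import Cfsg.Statements.S5119
import Cfsg.Agent.H87.Invariant

set_option autoImplicit false
open Cfsg

namespace Cfsg.Agent.S5119

/-- Let F be a saturated fusion system over a finite p-group S and E a subsystem of F over a subgroup T that is strongly closed in F. Then E is invariant in F (invariance under Aut_F(T) plus the Frattini condition) if and only if the strong invariance condition holds: for P ≤ Q ≤ T, every map φ of E from P into Q and every map ψ of F with source Q, the transported map ψ φ ψ⁻¹ on ψ(P) is a map of E. -/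
theorem result {Ω : Type*} [Group Ω] {S : Subgroup Ω} [Finite S] (p : ℕ) [Fact p.Prime] (hS : IsPGroup p S) (F : Cfsg.FusionSystem S) (hF : F.IsSaturated p) {T : Subgroup Ω} (E : Cfsg.FusionSystem T) (hE : E.IsSubsystemOf F) (hT : F.StronglyClosed T) : E.IsInvariantIn F ↔ ∀ (P Q : Subgroup Ω) (hPQ : P ≤ Q) (_ : Q ≤ T) (φ : P →* Ω) (_ : φ ∈ E.Hom P) (hφQ : ∀ x : P, φ x ∈ Q) (ψ : Q →* Ω) (_ : ψ ∈ F.Hom Q), ∃ χ ∈ E.Hom ((P.subgroupOf Q).map ψ), ∀ (x : P) (hx : ψ (Subgroup.inclusion hPQ x) ∈ (P.subgroupOf Q).map ψ), χ ⟨ψ (Subgroup.inclusion hPQ x), hx⟩ = ψ ⟨φ x, hφQ x⟩ := by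
  exact (Cfsg.Agent.H87.invariant_iff_strongInv hS hF hE hT).trans Cfsg.Agent.H87.strongInv_iff.symm

end Cfsg.Agent.S5119
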