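import Cfsg.Statements.S5121
import Cfsg.Agent.H90.NSMain
import Cfsg.Agent.H90.NSA11
import Cfsg.Agent.H37.NSA1
import Cfsg.Agent.H82.NSA2
import Cfsg.Agent.H15.NSA3
import Cfsg.Agent.H28.NSA4
import Cfsg.Agent.H82.NSA5
import Cfsg.Agent.H16.NSA6
import Cfsg.Agent.H15.NSA7
import Cfsg.Agent.H98.NSA8
import Cfsg.Agent.Lib.Helper96.NSA9
import Cfsg.Agent.H31.NSA10
import Cfsg.Agent.H82.NSA12
import Cfsg.Agent.H28.NSA13
import Cfsg.Agent.H37.NSA14

set_option autoImplicit false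
open Cfsg

namespace Cfsg.Agent.S5121

/-- Let G be a finite group with Sylow p-subgroup S and C_G(O_p(G)) ≤ O_p(G). For every subgroup T ≤ S and every normal subsystem E over T of the fusion system of G on S there is exactly one normal subgroup H of G containing T as a Sylow p-subgroup whose fusion system on T is E. -/
theorem result {G : Type*} [Group G] [Finite G] (p : ℕ) [Fact p.Prime] (S : Sylow p G) (hG : Subgroup.centralizer ((Cfsg.pCore p G : Subgroup G) : Set G) ≤ Cfsg.pCore p G) (T : Subgroup G) (hTS : T ≤ S) (E : Cfsg.FusionSystem T) (hE : E.IsNormalIn (Cfsg.groupFusionSystem (S : Subgroup G)) p) : ∃ H : Subgroup G, (∃ hTH : T ≤ H, H.Normal ∧ (∃ R : Sylow p H, (R : Subgroup H) = T.subgroupOf H) ∧ ∀ P : Subgroup G, E.Hom P = (Cfsg.fusionSystemOfSubgroup H T hTH).Hom P) ∧ ∀ H' : Subgroup G, (∃ hTH' : T ≤ H', H'.Normal ∧ (∃ R : Sylow p H', (R : Subgroup H') = T.subgroupOf H') ∧ ∀ P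 : Subgroup G, E.Hom P = (Cfsg.fusionSystemOfSubgroup H' T hTH').Hom P) → H' = H := by
  exact Cfsg.Agent.H90.NS.main Cfsg.Agent.H37.NS.a1 Cfsg.Agent.H82.NS.a2 Cfsg.Agent.H15.NS.a3
    Cfsg.Agent.H28.NS.a4 Cfsg.Agent.H82.NS.a5 Cfsg.Agent.H16.NS.a6 Cfsg.Agent.H15.NS.a7
    Cfsg.Agent.H98.NS.a8 Cfsg.Agent.Lib.Helper96.NS.a9 Cfsg.Agent.H31.NS.a10
    Cfsg.Agent.H90.NS.a11 Cfsg.Agent.H82.NS.a12 Cfsg.Agent.H28.NS.a13 Cfsg.Agent.H37.NS.a14
    p S hG T hTS E hE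

end Cfsg.Agent.S5121
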