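import Cfsg.Statements.S5159
import Cfsg.Agent.H90.SolvExt

set_option autoImplicit false
open Cfsg

namespace Cfsg.Agent.S5159

/-- Let F be a saturated fusion system over a finite p-group S, E a normal subsystem over T, and D the factor system of F modulo T (read through any homomorphism on S with kernel T). Then F is solvable if and only if E and D are solvable (solvable, for a system over a subgroup S: for every subgroup R other than S that is strongly closed in F, the factor system of F modulo R has a nontrivial subgroup normal in it). -/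
theorem result {Ω : Type*} [Group Ω] {S : Subgroup Ω} [Finite S] (p : ℕ) [Fact p.Prime] (hS : IsPGroup p S) (F : Cfsg.FusionSystem S) (hF : F.IsSaturated p) {T : Subgroup Ω} (E : Cfsg.FusionSystem T) (hE : E.IsNormalIn F p) {Ω' : Type*} [Group Ω'] {S' : Subgroup Ω'} (θ : S →* Ω') (D : Cfsg.FusionSystem S') (hD : F.IsFactorSystem T θ D) : F.IsSolvableSystem ↔ (E.IsSolvableSystem ∧ D.IsSolvableSystem) := by
  obtain ⟨⟨hEsat, -, hEinv⟩, -⟩ := hE
  have hTsc : F.StronglyClosed T := hEinv.2.1
  have hTS : T ≤ S := hTsc.1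
  obtain ⟨hsub, -, hAI, hFr⟩ := (Cfsg.Agent.H87.isInvariantIn_iff hTS).1 hEinv
  haveI : Finite T := Cfsg.Agent.H86.finite_of_le hTS
  have hTp : IsPGroup p T := hS.to_le hTS
  haveI : Finite S' := by
    rw [← hD.2.2.1]
    exact Finite.of_surjective θ.rangeRestrict θ.rangeRestrict_surjective
  have hS' : IsPGroup p S' := by
    rintro ⟨y, hy⟩
    obtain ⟨x, hxS, rfl⟩ := Cfsg.Agent.H88.exists_tot_eq hD hy
    obtain ⟨k, hk⟩ := hS ⟨x, hxS⟩
    refine ⟨k, Subtype.ext ?_⟩
    rw [Subgroup.coe_pow, Subgroup.coe_one]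
    show Cfsg.Agent.H88.tot θ x ^ p ^ k = 1
    rw [Cfsg.Agent.H88.tot_of_mem θ hxS, ← map_pow, hk, map_one]
  have hDsat : D.IsSaturated p := Cfsg.Agent.H88.factor_saturated hS hF hTsc hD
  constructor
  · intro hsol
    have hch := Cfsg.Agent.H88.hasChain_of_solvable hS hF hsol
    exact ⟨Cfsg.Agent.H88.solvable_of_hasChain hTp hEsat
        (Cfsg.Agent.H90.se_hasChain_sub hTS hsub (hch ⊥ (Cfsg.Agent.H88.stronglyClosed_bot F))),
      Cfsg.Agent.H88.solvable_of_hasChain hS' hDsat
        (Cfsg.Agent.H90.se_hasChain_image hD (hch T hTsc))⟩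
  · rintro ⟨hEsol, hDsol⟩
    have hchE := Cfsg.Agent.H88.hasChain_of_solvable hTp hEsat hEsol ⊥
      (Cfsg.Agent.H88.stronglyClosed_bot E)
    have hchD := Cfsg.Agent.H88.hasChain_of_solvable hS' hDsat hDsol ⊥
      (Cfsg.Agent.H88.stronglyClosed_bot D)
    exact Cfsg.Agent.H88.solvable_of_hasChain hS hF
      (Cfsg.Agent.H90.se_hasChain_bot hTS hAI hFr hchE
        (Cfsg.Agent.H90.se_hasChain_preimage hS hF hTsc hD hchD))

end Cfsg.Agent.S5159
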