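import Cfsg.Statements.S5160
import Cfsg.Agent.H88.SimpleCrit

set_option autoImplicit false
open Cfsg

namespace Cfsg.Agent.S5160

/-- Let G be a finite group with nontrivial Sylow p-subgroup S and F its fusion system on S. Suppose (a) no nontrivial proper subgroup of S is strongly closed in F, and (b) the automorphisms of S induced by G are generated by those induced, for R running over the fully normalized radical centric subgroups of F, by the subgroup of N_G(R) generated by its elements of p-power order. Then F is simple. -/
theorem result {G : Type*} [Group G] [Finite G] (p : ℕ) [Fact p.Prime] (S : Sylow p G) (hS1 : (S : Subgroup G) ≠ ⊥) (ha : ∀ T : Subgroup G, (Cfsg.groupFusionSystem (S : Subgroup G)).StronglyClosed T → T = ⊥ ∨ T = (S : Subgroup G)) (hb : Cfsg.autInducedBy ⊤ (S : Subgroup G) = ⨆ (R : Subgroup G) (_ : (Cfsg.groupFusionSystem (S : Subgroup G)).IsFullyNormalized R ∧ (Cfsg.groupFusionSystem (S : Subgroup G)).IsRadical p R ∧ (Cfsg.groupFusionSystem (S : Subgroup G)).IsCentric R), Cfsg.autInducedBy (Subgroup.closure {g : G | g ∈ Subgroup.normalizer (R : Set G)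 ∧ ∃ k : ℕ, orderOf g = p ^ k}) (S : Subgroup G)) : (Cfsg.groupFusionSystem (S : Subgroup G)).IsSimple p := by
  exact Cfsg.Agent.H88.simple_of_group_crit p S hS1 ha hb


end Cfsg.Agent.S5160
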