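import Cfsg.Statements.S5163
import Cfsg.Agent.H88.PSLnC

set_option autoImplicit false
open Cfsg

namespace Cfsg.Agent.S5163

/-- For a finite field K of characteristic p and n ≥ 3, the p-fusion system of the projective special linear group PSL_n(K) on a Sylow p-subgroup is simple. -/
theorem result {K : Type*} [Field K] [Fintype K] (p : ℕ) [Fact p.Prime] [CharP K p] (n : ℕ) (hn : 3 ≤ n) (S : Sylow p (Matrix.ProjectiveSpecialLinearGroup (Fin n) K)) : (Cfsg.groupFusionSystem (S : Subgroup (Matrix.ProjectiveSpecialLinearGroup (Fin n) K))).IsSimple p := by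
  exact Cfsg.Agent.H88.Ln.psl_fusion_simple p n hn S

end Cfsg.Agent.S5163
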