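import Cfsg.Statements.S5165
import Cfsg.Agent.H88.AltFMain
import Cfsg.Agent.H88.AltFSCa
import Cfsg.Agent.H51.AltFCB
import Cfsg.Agent.H86.AltFCQ
import Cfsg.Agent.H86.AltFNB
import Cfsg.Agent.H86.AltFSCB
import Cfsg.Agent.H72.AltFDQ
import Cfsg.Agent.H72.AltFNormB
import Cfsg.Agent.H32.AltFDNQR
import Cfsg.Agent.H71.AltFAltGen
import Cfsg.Agent.H71.AltFDiagK
import Cfsg.Agent.H5.AltFGen
import Cfsg.Agent.H87.AltFGenP
import Cfsg.Agent.H87.AltFIso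
import Cfsg.Agent.H87.AltFSNS
import Cfsg.Agent.H87.AltFSNA
import Cfsg.Agent.H24.AltFSC2

set_option autoImplicit false
open Cfsg

namespace Cfsg.Agent.S5165

/-- For n ≥ 6, a prime p with p² ≤ n, and n congruent to 0 or 1 modulo p, the p-fusion system of the alternating group of degree n on a Sylow p-subgroup is simple. -/
theorem result (n p : ℕ) (hn : 6 ≤ n) [Fact p.Prime] (hnp : p ^ 2 ≤ n) (hb : n % p ≤ 1) (S : Sylow p (alternatingGroup (Fin n))) : (Cfsg.groupFusionSystem (S : Subgroup (alternatingGroup (Fin n)))).IsSimple p :=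
  Cfsg.Agent.H88.AltF.main
    (Cfsg.Agent.H88.AltF.modelOdd Cfsg.Agent.H51.AltF.cb Cfsg.Agent.H86.AltF.cq
      Cfsg.Agent.H86.AltF.nb Cfsg.Agent.H72.AltF.dQ Cfsg.Agent.H32.AltF.dn Cfsg.Agent.H32.AltF.qr
      (Cfsg.Agent.H5.AltF.gen Cfsg.Agent.H72.AltF.normB Cfsg.Agent.H71.AltF.altGen
        (Cfsg.Agent.H71.AltF.diagK Cfsg.Agent.H71.AltF.altGen))
      (Cfsg.Agent.H88.AltF.sca Cfsg.Agent.H86.AltF.nb Cfsg.Agent.H51.AltF.cb)
      Cfsg.Agent.H86.AltF.scb Cfsg.Agent.H87.AltF.genP_main)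
    Cfsg.Agent.H87.AltF.iso_main (Cfsg.Agent.H87.AltF.selfNormAlt Cfsg.Agent.H87.AltF.sns_main)
    Cfsg.Agent.H24.AltF.sc2 n p hn hnp hb S

end Cfsg.Agent.S5165
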