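import Cfsg.Statements.S5171
import Cfsg.Agent.H88.SpnF

set_option autoImplicit false
open Cfsg

namespace Cfsg.Agent.S5171

/-- For a finite field K of characteristic p and m ≥ 2, excluding the case m = 2 with K of two elements, the p-fusion system of the projective symplectic group PSp_{2m}(K) on a Sylow p-subgroup is simple. -/
theorem result {K : Type*} [Field K] [Fintype K] (p : ℕ) [Fact p.Prime] [CharP K p] (m : ℕ) (hm : 2 ≤ m) (hex : m = 2 → 3 ≤ Fintype.card K) (S : Sylow p (Cfsg.PSp m K)) : (Cfsg.groupFusionSystem (S : Subgroup (Cfsg.PSp m K))).IsSimple p := by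
  exact Cfsg.Agent.H88.Spn.psp_fusion_simple p m hm hex S


end Cfsg.Agent.S5171
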