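import Cfsg.Statements.S5311
import Cfsg.Agent.H87.Layer

set_option autoImplicit false
open Cfsg

namespace Cfsg.Agent.S5311

/-- The layer of a saturated fusion system F over a finite p-group S is characteristic in F: for every automorphism α of S that is an automorphism of F (α and its inverse are morphisms from F to F) and every layer E of F over T, α carries T onto T and, for every map φ of E with source P, the map induced by α on α(P) (that is, α ∘ φ ∘ α⁻¹) is a map of E. -/
theorem result {Ω : Type*} [Group Ω] {S : Subgroup Ω} [Finite S] (p : ℕ) [Fact p.Prime] (hS : IsPGroup p S) (F : Cfsg.FusionSystem S) (hF : F.IsSaturated p)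
    (α : ↥S ≃* ↥S) (hα : F.IsMorphism F (S.subtype.comp α.toMonoidHom))
    (hα' : F.IsMorphism F (S.subtype.comp α.symm.toMonoidHom))
    {T : Subgroup Ω} (E : Cfsg.FusionSystem T) (hE : E.IsLayerOf F p) :
    Cfsg.FusionSystem.imageAlong (S.subtype.comp α.toMonoidHom) T = T ∧
      ∀ (P : Subgroup Ω) (φ : ↥P →* Ω), φ ∈ E.Hom P →
        ∀ φ' : ↥(Cfsg.FusionSystem.imageAlong (S.subtype.comp α.toMonoidHom) P) →* Ω,
          Cfsg.FusionSystem.InducedAlong (S.subtype.comp α.toMonoidHom) φ φ' →
            φ' ∈ E.Hom (Cfsg.FusionSystem.imageAlong (S.subtype.comp α.toMonoidHom) P) := by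
  exact Cfsg.Agent.H87.layer_characteristic p F hF α hα hα' E hE

end Cfsg.Agent.S5311
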