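import Cfsg.Statements.S5344

set_option autoImplicit false
open Cfsg

namespace Cfsg.Agent.S5344

open Equiv

/-- the 24 shortlex normal forms of the Coxeter group of type A₃ -/
def NF : List (List (Fin 3)) :=
  [[], [2], [2, 1], [2, 1, 0], [1], [1, 2], [1, 2, 1], [1, 2, 1, 0], [1, 0], [1, 0, 2], [1, 0, 2, 1], [1, 0, 2, 1, 0], [0], [0, 2], [0, 2, 1], [0, 2, 1, 0], [0, 1], [0, 1, 2], [0, 1, 2, 1], [0, 1, 2, 1, 0], [0, 1, 0], [0, 1, 0, 2], [0, 1, 0, 2, 1], [0, 1, 0, 2, 1, 0]]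

def tblData : List ((Fin 3 × List (Fin 3)) × List (Fin 3)) :=
  [(((0 : Fin 3), []), [0]),
   (((0 : Fin 3), [2]), [0, 2]),
   (((0 : Fin 3), [2, 1]), [0, 2, 1]),
   (((0 : Fin 3), [2, 1, 0]), [0, 2, 1, 0]),
   (((0 : Fin 3), [1]), [0, 1]),
   (((0 : Fin 3), [1, 2]), [0, 1, 2]),
   (((0 : Fin 3), [1, 2, 1]), [0, 1, 2, 1]),
   (((0 : Fin 3), [1, 2, 1, 0]), [0, 1, 2, 1, 0]),
   (((0 : Fin 3), [1, 0]), [0, 1, 0]),
   (((0 : Fin 3), [1, 0, 2]), [0, 1, 0, 2]),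
   (((0 : Fin 3), [1, 0, 2, 1]), [0, 1, 0, 2, 1]),
   (((0 : Fin 3), [1, 0, 2, 1, 0]), [0, 1, 0, 2, 1, 0]),
   (((0 : Fin 3), [0]), []),
   (((0 : Fin 3), [0, 2]), [2]),
   (((0 : Fin 3), [0, 2, 1]), [2, 1]),
   (((0 : Fin 3), [0, 2, 1, 0]), [2, 1, 0]),
   (((0 : Fin 3), [0, 1]), [1]),
   (((0 : Fin 3), [0, 1, 2]), [1, 2]),
   (((0 : Fin 3), [0, 1, 2, 1]), [1, 2, 1]),
   (((0 : Fin 3), [0, 1, 2, 1, 0]), [1, 2, 1, 0]),
   (((0 : Fin 3), [0, 1, 0]), [1, 0]),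
   (((0 : Fin 3), [0, 1, 0, 2]), [1, 0, 2]),
   (((0 : Fin 3), [0, 1, 0, 2, 1]), [1, 0, 2, 1]),
   (((0 : Fin 3), [0, 1, 0, 2, 1, 0]), [1, 0, 2, 1, 0]),
   (((1 : Fin 3), []), [1]),
   (((1 : Fin 3), [2]), [1, 2]),
   (((1 : Fin 3), [2, 1]), [1, 2, 1]),
   (((1 : Fin 3), [2, 1, 0]), [1, 2, 1, 0]),
   (((1 : Fin 3), [1]), []),
   (((1 : Fin 3), [1, 2]), [2]),
   (((1 : Fin 3), [1, 2, 1]), [2, 1]),
   (((1 : Fin 3), [1, 2, 1, 0]), [2, 1, 0]),
   (((1 : Fin 3), [1, 0]), [0]),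
   (((1 : Fin 3), [1, 0, 2]), [0, 2]),
   (((1 : Fin 3), [1, 0, 2, 1]), [0, 2, 1]),
   (((1 : Fin 3), [1, 0, 2, 1, 0]), [0, 2, 1, 0]),
   (((1 : Fin 3), [0]), [1, 0]),
   (((1 : Fin 3), [0, 2]), [1, 0, 2]),
   (((1 : Fin 3), [0, 2, 1]), [1, 0, 2, 1]),
   (((1 : Fin 3), [0, 2, 1, 0]), [1, 0, 2, 1, 0]),
   (((1 : Fin 3), [0, 1]), [0, 1, 0]),
   (((1 : Fin 3), [0, 1, 2]), [0, 1, 0, 2]),
   (((1 : Fin 3), [0, 1, 2, 1]), [0, 1, 0, 2, 1]),
   (((1 : Fin 3), [0, 1, 2, 1, 0]), [0, 1, 0, 2, 1, 0]),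
   (((1 : Fin 3), [0, 1, 0]), [0, 1]),
   (((1 : Fin 3), [0, 1, 0, 2]), [0, 1, 2]),
   (((1 : Fin 3), [0, 1, 0, 2, 1]), [0, 1, 2, 1]),
   (((1 : Fin 3), [0, 1, 0, 2, 1, 0]), [0, 1, 2, 1, 0]),
   (((2 : Fin 3), []), [2]),
   (((2 : Fin 3), [2]), []),
   (((2 : Fin 3), [2, 1]), [1]),
   (((2 : Fin 3), [2, 1, 0]), [1, 0]),
   (((2 : Fin 3), [1]), [2, 1]),
   (((2 : Fin 3), [1, 2]), [1, 2, 1]),
   (((2 : Fin 3), [1, 2, 1]), [1, 2]),
   (((2 : Fin 3), [1, 2, 1, 0]), [1, 0, 2]),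
   (((2 : Fin 3), [1, 0]), [2, 1, 0]),
   (((2 : Fin 3), [1, 0, 2]), [1, 2, 1, 0]),
   (((2 : Fin 3), [1, 0, 2, 1]), [1, 0, 2, 1, 0]),
   (((2 : Fin 3), [1, 0, 2, 1, 0]), [1, 0, 2, 1]),
   (((2 : Fin 3), [0]), [0, 2]),
   (((2 : Fin 3), [0, 2]), [0]),
   (((2 : Fin 3), [0, 2, 1]), [0, 1]),
   (((2 : Fin 3), [0, 2, 1, 0]), [0, 1, 0]),
   (((2 : Fin 3), [0, 1]), [0, 2, 1]),
   (((2 : Fin 3), [0, 1, 2]), [0, 1, 2, 1]),
   (((2 : Fin 3), [0, 1, 2, 1]), [0, 1, 2]),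
   (((2 : Fin 3), [0, 1, 2, 1, 0]), [0, 1, 0, 2]),
   (((2 : Fin 3), [0, 1, 0]), [0, 2, 1, 0]),
   (((2 : Fin 3), [0, 1, 0, 2]), [0, 1, 2, 1, 0]),
   (((2 : Fin 3), [0, 1, 0, 2, 1]), [0, 1, 0, 2, 1, 0]),
   (((2 : Fin 3), [0, 1, 0, 2, 1, 0]), [0, 1, 0, 2, 1])]

/-- left multiplication by a generator on normal forms -/
def tbl (s : Fin 3) (u : List (Fin 3)) : List (Fin 3) :=
  match tblData.find? (fun e => e.1 = (s, u)) with
  | some e => e.2
  | none => []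

/-- evaluation of a word -/
def ev {H : Type*} [Monoid H] (x : Fin 3 → H) (w : List (Fin 3)) : H := (w.map x).prod

theorem ev_nil {H : Type*} [Monoid H] (x : Fin 3 → H) : ev x [] = 1 := rfl

theorem ev_cons {H : Type*} [Monoid H] (x : Fin 3 → H) (s : Fin 3) (w : List (Fin 3)) :
    ev x (s :: w) = x s * ev x w := by
  simp [ev]

theorem ev_append {H : Type*} [Monoid H] (x : Fin 3 → H) (w₁ w₂ : List (Fin 3)) :
    ev x (w₁ ++ w₂) = ev x w₁ * ev x w₂ := by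
  simp [ev]

/-- the Coxeter relations of type A₃ -/
structure Rel {H : Type*} [Group H] (x : Fin 3 → H) : Prop where
  aa : x 0 * x 0 = 1
  bb : x 1 * x 1 = 1
  cc : x 2 * x 2 = 1
  ca : x 2 * x 0 = x 0 * x 2
  bab : x 1 * (x 0 * x 1) = x 0 * (x 1 * x 0)
  cbc : x 2 * (x 1 * x 2) = x 1 * (x 2 * x 1)

theorem tblData_sound {H : Type*} [Group H] (x : Fin 3 → H) (hx : Rel x) :
    ∀ e ∈ tblData, x e.1.1 * ev x e.1.2 = ev x e.2 := by
  have aa := hx.aa
  have bb := hx.bb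
  have cc := hx.cc
  have ca := hx.ca
  have bab := hx.bab
  have cbc := hx.cbc
  have aa' : ∀ y, x 0 * (x 0 * y) = y := fun y => by rw [← mul_assoc, aa, one_mul]
  have bb' : ∀ y, x 1 * (x 1 * y) = y := fun y => by rw [← mul_assoc, bb, one_mul]
  have cc' : ∀ y, x 2 * (x 2 * y) = y := fun y => by rw [← mul_assoc, cc, one_mul]
  have ca' : ∀ y, x 2 * (x 0 * y) = x 0 * (x 2 * y) := fun y => by
    rw [← mul_assoc, ca, mul_assoc]
  have bab' : ∀ y, x 1 * (x 0 * (x 1 * y)) = x 0 * (x 1 * (x 0 * y)) := fun y => by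
    rw [← mul_assoc (x 0) (x 1) y, ← mul_assoc (x 1), bab]; simp only [mul_assoc]
  have cbc' : ∀ y, x 2 * (x 1 * (x 2 * y)) = x 1 * (x 2 * (x 1 * y)) := fun y => by
    rw [← mul_assoc (x 1) (x 2) y, ← mul_assoc (x 2), cbc]; simp only [mul_assoc]
  have cbac : x 2 * (x 1 * (x 0 * x 2)) = x 1 * (x 2 * (x 1 * x 0)) := by
    rw [← ca, cbc']
  have cbac' : ∀ y, x 2 * (x 1 * (x 0 * (x 2 * y))) = x 1 * (x 2 * (x 1 * (x 0 * y))) :=
    fun y => by rw [← ca', cbc']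
  simp only [tblData, List.forall_mem_cons, ev, List.map_cons, List.map_nil, List.prod_cons,
    List.prod_nil, mul_one, aa, bb, cc, ca, bab, cbc, cbac, aa', bb', cc', ca',
    bab', cbc', cbac', and_self, List.not_mem_nil, false_imp_iff, implies_true]

theorem tbl_spec : ∀ s : Fin 3, ∀ u ∈ NF, ((s, u), tbl s u) ∈ tblData ∧ tbl s u ∈ NF := by
  decide

/-- the normal form of a word -/
def nform : List (Fin 3) → List (Fin 3)
  | [] => []
  | s :: w => tbl s (nform w)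

theorem nform_mem (w : List (Fin 3)) : nform w ∈ NF := by
  induction w with
  | nil => decide
  | cons s w ih => exact (tbl_spec s _ ih).2

theorem ev_nform {H : Type*} [Group H] (x : Fin 3 → H) (hx : Rel x) (w : List (Fin 3)) :
    ev x (nform w) = ev x w := by
  induction w with
  | nil => rfl
  | cons s w ih =>
    have h1 := tblData_sound x hx _ (tbl_spec s _ (nform_mem w)).1
    show ev x (tbl s (nform w)) = ev x (s :: w)
    rw [ev_cons, ← ih]
    exact h1.symm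

/-- the Coxeter generators of the symmetric group of degree 4 -/
def sw : Fin 3 → Perm (Fin 4) := ![swap 0 1, swap 1 2, swap 2 3]

theorem rel_sw : Rel sw := by
  constructor <;> decide

theorem pv_inj : ∀ u ∈ NF, ∀ v ∈ NF, ev sw u = ev sw v → u = v := by
  decide

theorem pv_surj : ∀ σ : Perm (Fin 4), ∃ u ∈ NF, ev sw u = σ := by
  decide

theorem key {H : Type*} [Group H] (x : Fin 3 → H) (hx : Rel x) (w₁ w₂ : List (Fin 3))
    (h : ev sw w₁ = ev sw w₂) : ev x w₁ = ev x w₂ := by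
  have h1 : nform w₁ = nform w₂ :=
    pv_inj _ (nform_mem w₁) _ (nform_mem w₂) (by rw [ev_nform sw rel_sw, ev_nform sw rel_sw, h])
  rw [← ev_nform x hx w₁, ← ev_nform x hx w₂, h1]

/-- a word for each permutation -/
noncomputable def wordOf (σ : Perm (Fin 4)) : List (Fin 3) := Classical.choose (pv_surj σ)

theorem wordOf_spec (σ : Perm (Fin 4)) : ev sw (wordOf σ) = σ :=
  (Classical.choose_spec (pv_surj σ)).2

/-- the homomorphism out of the symmetric group of degree 4 given by elements satisfying the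
Coxeter relations -/
noncomputable def lift {H : Type*} [Group H] (x : Fin 3 → H) (hx : Rel x) : Perm (Fin 4) →* H :=
  MonoidHom.mk' (fun σ => ev x (wordOf σ)) (by
    intro σ τ
    have : ev sw (wordOf (σ * τ)) = ev sw (wordOf σ ++ wordOf τ) := by
      rw [wordOf_spec, ev_append, wordOf_spec, wordOf_spec]
    rw [key x hx _ _ this, ev_append])

theorem lift_gen {H : Type*} [Group H] (x : Fin 3 → H) (hx : Rel x) (s : Fin 3) :
    lift x hx (sw s) = x s := by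
  show ev x (wordOf (sw s)) = x s
  have : ev sw (wordOf (sw s)) = ev sw [s] := by
    rw [wordOf_spec, ev_cons, ev_nil, mul_one]
  rw [key x hx _ _ this, ev_cons, ev_nil, mul_one]

theorem normal_closure_S4 : ∀ σ : Perm (Fin 4), σ ≠ 1 → ∃ τ₁ τ₂ : Perm (Fin 4),
    τ₁ * σ * τ₁⁻¹ * (τ₂ * σ⁻¹ * τ₂⁻¹) = swap 0 1 * swap 2 3 := by
  decide +kernel

theorem lift_injective {H : Type*} [Group H] (x : Fin 3 → H) (hx : Rel x) (hne : x 0 ≠ x 2) :
    Function.Injective (lift x hx) := by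
  rw [injective_iff_map_eq_one]
  intro σ hσ
  by_contra hσ1
  obtain ⟨τ₁, τ₂, h⟩ := normal_closure_S4 σ hσ1
  have h2 := congrArg (lift x hx) h
  have h3 : lift x hx (swap 0 1) = x 0 := lift_gen x hx 0
  have h4 : lift x hx (swap 2 3) = x 2 := lift_gen x hx 2
  simp only [map_mul, map_inv, hσ, h3, h4] at h2
  have h5 : x 0 * x 2 = 1 := by
    rw [← h2]; group
  apply hne
  have h6 : x 0 = (x 2)⁻¹ := eq_inv_of_mul_eq_one_left h5
  rw [h6]
  exact inv_eq_of_mul_eq_one_right hx.cc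

theorem braid_of_not_commute {G : Type*} [Group G] {a b : G} (ha : a * a = 1) (hb : b * b = 1)
    (h : (a * b) ^ 2 = 1 ∨ (a * b) ^ 3 = 1) (hab : ¬ Commute a b) :
    b * (a * b) = a * (b * a) := by
  have ha' : a⁻¹ = a := inv_eq_of_mul_eq_one_right ha
  have hb' : b⁻¹ = b := inv_eq_of_mul_eq_one_right hb
  rcases h with h | h
  · exfalso
    apply hab
    have h1 : a * b * (a * b) = 1 := by rw [← pow_two]; exact h
    have h2 : a * b = (a * b)⁻¹ := eq_inv_of_mul_eq_one_left h1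
    rw [mul_inv_rev, ha', hb'] at h2
    exact h2
  · have h1 : a * (b * a) * (b * (a * b)) = 1 := by
      rw [← h]; simp only [pow_succ, pow_zero, one_mul, mul_assoc]
    have h2 : a * (b * a) = (b * (a * b))⁻¹ := eq_inv_of_mul_eq_one_left h1
    rw [h2, mul_inv_rev, mul_inv_rev, ha', hb', mul_assoc]

/-- In a set of 3-transpositions, let a, b, c be members with a and c different and commuting, while neither a nor c commutes with b (a 3-string). Then there is an injective homomorphism from the symmetric group of degree 4 into the ambient group sending the transpositions (0 1), (1 2), (2 3) to a, b, c; so a, b, c generate a copy of the symmetric group of degree 4 in which they are transpositions. -/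
theorem result {G : Type*} [Group G] {D : Set G} (hD : Cfsg.IsThreeTranspositionSet D) {a b c : G} (ha : a ∈ D) (hb : b ∈ D) (hc : c ∈ D) (hac : a ≠ c) (hac' : Commute a c) (hab : ¬ Commute a b) (hbc : ¬ Commute b c) : ∃ φ : Equiv.Perm (Fin 4) →* G, Function.Injective φ ∧ φ (Equiv.swap 0 1) = a ∧ φ (Equiv.swap 1 2) = b ∧ φ (Equiv.swap 2 3) = c := by
  have haa : a * a = 1 := by
    have := hD.1 a ha
    rw [← pow_two, ← this, pow_orderOf_eq_one]
  have hbb : b * b = 1 := by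
    have := hD.1 b hb
    rw [← pow_two, ← this, pow_orderOf_eq_one]
  have hcc : c * c = 1 := by
    have := hD.1 c hc
    rw [← pow_two, ← this, pow_orderOf_eq_one]
  have hcb : ¬ Commute c b := fun h => hbc h.symm
  have hx : Rel ![a, b, c] := by
    refine ⟨haa, hbb, hcc, hac'.eq.symm, ?_, ?_⟩
    · exact braid_of_not_commute haa hbb (hD.2 a ha b hb) hab
    · exact braid_of_not_commute hbb hcc (hD.2 b hb c hc) hbc
  refine ⟨lift ![a, b, c] hx, lift_injective _ hx hac, ?_, ?_, ?_⟩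
  · exact lift_gen _ hx 0
  · exact lift_gen _ hx 1
  · exact lift_gen _ hx 2

end Cfsg.Agent.S5344
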