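import Cfsg.Statements.S5351
import Cfsg.Agent.H91.TTLayer
import Cfsg.Agent.S0201

set_option autoImplicit false
open Cfsg

namespace Cfsg.Agent.S5351

open Cfsg.Agent.H91

/-- Let D be a conjugacy class of 3-transpositions generating the finite group G, with at least two members. Then for every prime p > 3 the largest normal p-subgroup of G is central, and exactly one of the following holds: the largest normal 2-subgroup of G is not central; the largest normal 3-subgroup of G is not central; the layer of G (the product of its components) is non-trivial. -/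
theorem result {G : Type*} [Group G] [Finite G] {D : Set G} (hD : Cfsg.IsThreeTranspositionClass D) (hD2 : ∃ a ∈ D, ∃ b ∈ D, a ≠ b) : (∀ p : ℕ, p.Prime → 3 < p → Cfsg.pCore p G ≤ Subgroup.center G) ∧ ((¬ Cfsg.pCore 2 G ≤ Subgroup.center G ∧ Cfsg.pCore 3 G ≤ Subgroup.center G ∧ Cfsg.layer G = ⊥) ∨ (Cfsg.pCore 2 G ≤ Subgroup.center G ∧ ¬ Cfsg.pCore 3 G ≤ Subgroup.center G ∧ Cfsg.layer G = ⊥) ∨ (Cfsg.pCore 2 G ≤ Subgroup.center G ∧ Cfsg.pCore 3 G ≤ Subgroup.center G ∧ Cfsg.layer G ≠ ⊥)) := by
  have hBS : Cfsg.Agent.H75.BrauerSuzukiStmt :=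
    fun _ _ _ S n ⟨e⟩ hO => Cfsg.Agent.S0201.result S n e hO
  have h5 : ∀ p : ℕ, p.Prime → 3 < p → Cfsg.pCore p G ≤ Subgroup.center G :=
    fun p hp h3 => pCore_le_center_of_three_lt hD hp h3
  refine ⟨h5, ?_⟩
  by_cases h2 : Cfsg.pCore 2 G ≤ Subgroup.center G
  · by_cases h3 : Cfsg.pCore 3 G ≤ Subgroup.center G
    · right; right
      refine ⟨h2, h3, layer_ne_bot_of_central hD hD2 ?_⟩
      intro p hp
      by_cases hp2 : p = 2
      · subst hp2; exact h2
      · by_cases hp3 : p = 3
        · subst hp3; exact h3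
        · apply h5 p hp
          have := hp.two_le
          omega
    · right; left
      refine ⟨h2, h3, ?_⟩
      apply layer_eq_bot_of_commute hD.2.2
      intro d hd
      exact layer_commute_of_solvable d (layerComm_solvable_of_three hBS hD h3 hd)
  · left
    refine ⟨h2, ?_, ?_⟩
    · by_contra h3
      obtain ⟨d, hd, -⟩ := hD2
      exact not_both_noncentral hD hd h2 h3
    · apply layer_eq_bot_of_commute hD.2.2
      intro d hd
      exact layer_commute_of_solvable d (layerComm_solvable_of_two hD h2 hd)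

end Cfsg.Agent.S5351
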