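import Cfsg.Statements.S5352
import Cfsg.Agent.H91.TTComp
import Cfsg.Agent.S0201

set_option autoImplicit false
open Cfsg

namespace Cfsg.Agent.S5352

open Cfsg.Agent.H91

/-- Let D be a conjugacy class of 3-transpositions generating the finite group G, with at least two members, and suppose the largest normal 2-subgroup and the largest normal 3-subgroup of G are both central. Then G has a quasisimple normal subgroup L such that the generalized Fitting subgroup of G is the product of L and the centre; and either L = G or the image of D in G/L has width 1, in the sense that two members of D whose commutator lies in L have the same image modulo L. -/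
theorem result {G : Type*} [Group G] [Finite G] {D : Set G} (hD : Cfsg.IsThreeTranspositionClass D) (hD2 : ∃ a ∈ D, ∃ b ∈ D, a ≠ b) (h2 : Cfsg.pCore 2 G ≤ Subgroup.center G) (h3 : Cfsg.pCore 3 G ≤ Subgroup.center G) : ∃ L : Subgroup G, L.Normal ∧ Cfsg.IsQuasisimple L ∧ Cfsg.generalizedFittingSubgroup G = L ⊔ Subgroup.center G ∧ (L = ⊤ ∨ ∀ a ∈ D, ∀ b ∈ D, a * b * a⁻¹ * b⁻¹ ∈ L → a⁻¹ * b ∈ L) := by
  have hBS : Cfsg.Agent.H75.BrauerSuzukiStmt :=
    fun _ _ _ S n ⟨e⟩ hO => Cfsg.Agent.S0201.result S n e hO
  obtain ⟨L, hL, hLn, hlayer⟩ := exists_component_eq_layer hBS hD hD2 h2 h3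
  refine ⟨L, hLn, hL.2, ?_, Or.inr ?_⟩
  · unfold Cfsg.generalizedFittingSubgroup
    rw [hlayer, fitting_eq_center (pCore_le_center_of_two_three hD h2 h3)]
  · intro a ha b hb hab
    exact inv_mul_mem_of_comm_mem hD hL ha hb hab

end Cfsg.Agent.S5352
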