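import Cfsg.Statements.S5354
import Cfsg.Agent.H91.TTMax
import Cfsg.Agent.H91.TTFischer
import Cfsg.Agent.S0201

set_option autoImplicit false
open Cfsg

namespace Cfsg.Agent.S5354
open Cfsg.Agent.H91

/-- Let D be a conjugation-invariant generating set of 3-transpositions of the finite group G on which G acts primitively by conjugation, and suppose two different members of D commute (width at least 2). Then G has a quasisimple normal subgroup L of index at most 2 with the generalized Fitting subgroup of G equal to L times the centre, the commuting graph of D is connected, and for d in D the subgroup generated by the members of D commuting with d is a maximal D-subgroup: it is proper, and every subgroup generated by members of D that contains it is either it or G. -/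
theorem result {G : Type*} [Group G] [Finite G] {D : Set G} (hD : Cfsg.IsThreeTranspositionGroup D) (hprim : Cfsg.IsPrimitiveUnderConj D) (hw : ∃ a ∈ D, ∃ b ∈ D, a ≠ b ∧ Commute a b) : (∃ L : Subgroup G, L.Normal ∧ Cfsg.IsQuasisimple L ∧ L.index ≤ 2 ∧ Cfsg.generalizedFittingSubgroup G = L ⊔ Subgroup.center G) ∧ (Cfsg.commutingGraph D).Connected ∧ ∀ d ∈ D, Subgroup.closure {y : G | y ∈ D ∧ Commute d y} ≠ ⊤ ∧ ∀ H : Subgroup G, Cfsg.IsDSubgroup D H → Subgroup.closure {y : G | y ∈ D ∧ Commute d y} ≤ H → H = Subgroup.closure {y : G | y ∈ D ∧ Commute d y} ∨ H = ⊤ := by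
  have hBS : Cfsg.Agent.H75.BrauerSuzukiStmt :=
    fun _ _ _ S n ⟨e⟩ hO => Cfsg.Agent.S0201.result S n e hO
  have hconj := hD.2.1
  have hD2 := hprim.2.1
  have hcls : Cfsg.IsThreeTranspositionClass D := class_of_group_of_trans hD hprim.1 hD2
  have h2 := pCore_two_le_center_of_primitive hcls hD2 hprim
  have h3 := pCore_three_le_center_of_primitive hcls hw hprim
  have hconn := connected_of_primitive hcls hw hprim
  obtain ⟨L, hL, hLn, hlay⟩ := exists_component_eq_layer hBS hcls hD2 h2 h3
  have htriv := primitive_rel_trivial hprim hconj
  refine ⟨⟨L, hLn, hL.2, ?_, ?_⟩, hconn, ?_⟩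
  · obtain ⟨d, hd, -⟩ := hD2
    have := hLn
    exact index_le_two_of_connected hcls hL hd hconn
  · unfold Cfsg.generalizedFittingSubgroup
    rw [hlay, fitting_eq_center (pCore_le_center_of_two_three hcls h2 h3)]
  · intro d hd
    constructor
    · intro htop
      have hcen : d ∈ Subgroup.center G := by
        apply mem_center_of_commute_gens htop
        intro y hy
        exact hy.2.eq.symm
      obtain ⟨e, he, hde⟩ := class_exists_not_commute hcls hD2 hd
      apply hde
      exact (Subgroup.mem_center_iff.mp hcen e).symm
    · intro H hH hle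
      by_cases hsub : ∀ x ∈ D, x ∈ H → Commute d x
      · left
        apply le_antisymm _ hle
        have hH' : Subgroup.closure {d : G | d ∈ D ∧ d ∈ H} = H := hH
        calc H = Subgroup.closure {d : G | d ∈ D ∧ d ∈ H} := hH'.symm
          _ ≤ Subgroup.closure {y : G | y ∈ D ∧ Commute d y} := by
            apply Subgroup.closure_mono
            intro x hx
            exact ⟨hx.1, hsub x hx.1 hx.2⟩
      · right
        push Not at hsub
        obtain ⟨a, ha, haH, hda⟩ := hsub
        have hDH := subset_of_commuting_of_mem hcls htriv hconn hd ha hda H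
          (fun y hy hc => hle (Subgroup.subset_closure ⟨hy, hc⟩)) haH
        rw [eq_top_iff, ← hD.2.2, Subgroup.closure_le]
        exact hDH

end Cfsg.Agent.S5354
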