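import Cfsg.Statements.S5355
import Cfsg.Agent.H91.ThreeTransp
import Cfsg.Agent.H91.S4Rel

set_option autoImplicit false
open Cfsg

namespace Cfsg.Agent.S5355

open Cfsg.Agent.H91 in
/-- If `u`, `w` are distinct members of `D` commuting with the same members of `D`, and `y` is
a member of `D` not commuting with `u`, then `u * w` does not centralize `y`. -/
theorem sim_conj_ne {G : Type*} [Group G] {D : Set G} (hTS : IsThreeTranspositionSet D)
    {u w y : G} (hs : Sim D u w) (huw : u ≠ w) (hy : y ∈ D) (hyu : ¬ Commute y u) :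
    (u * w) * y * (u * w)⁻¹ ≠ y := by
  intro hcontra
  have hu2 := sq_one (hTS.1 u hs.1)
  have hw2 := sq_one (hTS.1 w hs.2.1)
  have hy2 := sq_one (hTS.1 y hy)
  have hyw : ¬ Commute y w := fun h => hyu (((hs.2.2 y hy).mpr h.symm).symm)
  have h3u : (y * u) ^ 3 = 1 := by
    rcases hTS.2 y hy u hs.1 with h | h
    · exact absurd (commute_of_sq hy2 hu2 h) hyu
    · exact h
  have h3w : (y * w) ^ 3 = 1 := by
    rcases hTS.2 y hy w hs.2.1 with h | h
    · exact absurd (commute_of_sq hy2 hw2 h) hyw
    · exact h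
  have hc : Commute (u * w) y := by
    show (u * w) * y = y * (u * w)
    calc (u * w) * y = ((u * w) * y * (u * w)⁻¹) * (u * w) := by group
      _ = y * (u * w) := by rw [hcontra]
  have hcu : Commute (u * w) u := (Commute.refl u).mul_left hs.commute.symm
  have hcc : (u * w) * (u * w) = 1 := by
    calc (u * w) * (u * w) = u * (w * u) * w := by group
      _ = u * (u * w) * w := by rw [hs.commute.eq]
      _ = (u * u) * (w * w) := by group
      _ = 1 := by rw [hu2, hw2, one_mul]
  have e1 : y * w = (y * u) * (u * w) := by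
    calc y * w = y * 1 * w := by group
      _ = y * (u * u) * w := by rw [hu2]
      _ = (y * u) * (u * w) := by group
  have hc2 : Commute (y * u) (u * w) := hc.symm.mul_left hcu.symm
  rw [e1, hc2.mul_pow, h3u, one_mul, pow_succ, pow_two, hcc, one_mul] at h3w
  apply huw
  have : u = w⁻¹ := eq_inv_of_mul_eq_one_left h3w
  rw [this, inv_self hw2]

/-- Let D be a conjugacy class of 3-transpositions generating the finite group G, with at least two members, and d a member of D. Suppose that every member of D commuting with d commutes with exactly the same members of D as d does, and that exactly one member of D other than d commutes with d. Then G is isomorphic to the symmetric group of degree 4. -/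
theorem result {G : Type*} [Group G] [Finite G] {D : Set G} (hD : Cfsg.IsThreeTranspositionClass D) (hD2 : ∃ a ∈ D, ∃ b ∈ D, a ≠ b) {d : G} (hd : d ∈ D) (hV : {y : G | y ∈ D ∧ Commute d y} = {v : G | v ∈ D ∧ ∀ e ∈ D, Commute v e ↔ Commute d e}) (hm : {y : G | y ∈ D ∧ Commute d y}.ncard = 2) : Nonempty (G ≃* Equiv.Perm (Fin 4)) := by
  classical
  have hTS : IsThreeTranspositionSet D := hD.1
  have hconj := H91.class_conj hD
  have hgen : Subgroup.closure D = ⊤ := hD.2.2
  -- the partner `v` of `d`
  have hdmem : d ∈ {y : G | y ∈ D ∧ Commute d y} := ⟨hd, Commute.refl d⟩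
  obtain ⟨x, y, hxy, hset⟩ := Set.ncard_eq_two.mp hm
  obtain ⟨v, hvd, hvset, hcd⟩ : ∃ v, v ≠ d ∧ v ∈ {y : G | y ∈ D ∧ Commute d y} ∧
      ∀ z ∈ D, Commute d z → z = d ∨ z = v := by
    have hdm := hdmem
    rw [hset] at hdm
    rcases hdm with h | h
    · refine ⟨y, ?_, ?_, ?_⟩
      · rw [h]; exact hxy.symm
      · rw [hset]; simp
      · intro z hz hc
        have hz' : z ∈ ({x, y} : Set G) := by rw [← hset]; exact ⟨hz, hc⟩
        rcases hz' with h1 | h1
        · left; rw [h1, h]
        · right; exact h1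
    · have h' : d = y := h
      refine ⟨x, ?_, ?_, ?_⟩
      · rw [h']; exact hxy
      · rw [hset]; simp
      · intro z hz hc
        have hz' : z ∈ ({x, y} : Set G) := by rw [← hset]; exact ⟨hz, hc⟩
        rcases hz' with h1 | h1
        · right; exact h1
        · left; rw [h']; exact h1
  have hvD : v ∈ D := hvset.1
  have hsim : H91.Sim D d v := by
    have h1 : v ∈ {v : G | v ∈ D ∧ ∀ e ∈ D, Commute v e ↔ Commute d e} := by
      rw [← hV]; exact hvset
    exact ⟨hd, h1.1, fun e he => (h1.2 e he).symm⟩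
  -- uniqueness of partners
  have huniq : ∀ x ∈ D, ∀ y ∈ D, ∀ z ∈ D, Commute x y → y ≠ x → Commute x z → z ≠ x → y = z := by
    intro x hx y hy z hz hxy hyx hxz hzx
    obtain ⟨g, hg⟩ : ∃ g : G, g * d * g⁻¹ = x := by
      obtain ⟨d₀, -, hDeq⟩ := hD.2.1
      have h1 : IsConj d₀ d := by
        have := hd; rw [hDeq] at this; exact this
      have h2 : IsConj d₀ x := by
        have := hx; rw [hDeq] at this; exact this
      exact isConj_iff.mp (h1.symm.trans h2)
    have key : ∀ w ∈ D, Commute x w → w ≠ x → w = g * v * g⁻¹ := by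
      intro w hw hxw hwx
      have hw' : g⁻¹ * w * g⁻¹⁻¹ ∈ D := hconj g⁻¹ w hw
      have hweq : w = g * (g⁻¹ * w * g⁻¹⁻¹) * g⁻¹ := by group
      have hc : Commute d (g⁻¹ * w * g⁻¹⁻¹) := by
        rw [← hg, hweq] at hxw
        exact (Commute.conj_iff g).mp hxw
      rcases hcd _ hw' hc with h | h
      · exfalso; apply hwx
        rw [hweq, h, hg]
      · rw [hweq, h]
    rw [key y hy hxy hyx, key z hz hxz hzx]
  -- an element `e` not commuting with `d`
  obtain ⟨e, heD, hde⟩ := H91.class_exists_not_commute hD hD2 hd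
  have hd2 := H91.sq_one (hTS.1 d hd)
  have hv2 := H91.sq_one (hTS.1 v hvD)
  have he2 := H91.sq_one (hTS.1 e heD)
  have hdi := H91.inv_self hd2
  have hvi := H91.inv_self hv2
  have hei := H91.inv_self he2
  have hdv : Commute d v := hsim.commute
  have hbr : e * d * e = d * e * d := by
    rcases H91.commute_or_braid hTS heD hd with h | h
    · exact absurd h.symm hde
    · exact h
  have hv1 : v ≠ 1 := by
    intro h
    have := hTS.1 v hvD
    rw [h, orderOf_one] at this
    exact absurd this (by decide)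
  have hn₁2 : (d * v) * (d * v) = 1 := by
    calc (d * v) * (d * v) = d * (v * d) * v := by group
      _ = d * (d * v) * v := by rw [hdv.eq]
      _ = (d * d) * (v * v) := by group
      _ = 1 := by rw [hd2, hv2, one_mul]
  have hn₁i : (d * v)⁻¹ = d * v := inv_eq_of_mul_eq_one_right hn₁2
  -- the partner `e'` of `e`
  obtain ⟨e', he'⟩ : ∃ e' : G, e' = (d * v) * e * (d * v)⁻¹ := ⟨_, rfl⟩
  have hsim_e : H91.Sim D e e' := by
    rw [he']; exact (hsim.conj_mul hTS hconj heD).symm'
  have hee' : e ≠ e' := by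
    rw [he']
    exact (sim_conj_ne hTS hsim hvd.symm heD (fun h => hde h.symm)).symm
  have he'2 := H91.sq_one (hTS.1 e' hsim_e.2.1)
  have hn₂2 : (e * e') * (e * e') = 1 := by
    calc (e * e') * (e * e') = e * (e' * e) * e' := by group
      _ = e * (e * e') * e' := by rw [hsim_e.commute.eq]
      _ = (e * e) * (e' * e') := by group
      _ = 1 := by rw [he2, he'2, one_mul]
  have hn₂i : (e * e')⁻¹ = e * e' := inv_eq_of_mul_eq_one_right hn₂2
  -- the third pair
  obtain ⟨f, hf⟩ : ∃ f : G, f = e * d * e⁻¹ := ⟨_, rfl⟩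
  obtain ⟨f', hf'⟩ : ∃ f' : G, f' = e * v * e⁻¹ := ⟨_, rfl⟩
  have hsim_f : H91.Sim D f f' := by
    rw [hf, hf']; exact hsim.conj hconj e
  have hff' : f ≠ f' := by
    rw [hf, hf']
    intro h
    apply hvd
    have h1 : e * d = e * v := mul_right_cancel h
    exact (mul_left_cancel h1).symm
  have hdf : ¬ Commute d f := by
    intro h
    apply hde
    rw [hf, hei, hbr] at h
    have h3 : d * (d * e * d) = (d * e * d) * d := h.eq
    show d * e = e * d
    calc d * e = d * e * (d * d) := by rw [hd2, mul_one]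
      _ = (d * e * d) * d := by group
      _ = d * (d * e * d) := by rw [h3]
      _ = (d * d) * e * d := by group
      _ = e * d := by rw [hd2, one_mul]
  have hn₃2 : (f * f') * (f * f') = 1 := by
    have hf2 := H91.sq_one (hTS.1 f hsim_f.1)
    have hf'2 := H91.sq_one (hTS.1 f' hsim_f.2.1)
    calc (f * f') * (f * f') = f * (f' * f) * f' := by group
      _ = f * (f * f') * f' := by rw [hsim_f.commute.eq]
      _ = (f * f) * (f' * f') := by group
      _ = 1 := by rw [hf2, hf'2, one_mul]
  have hn₃i : (f * f')⁻¹ = f * f' := inv_eq_of_mul_eq_one_right hn₃2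
  -- expressions of the products in terms of `d`, `v`, `e`
  have hn₂eq : e * e' = e * (d * v) * e * (d * v) := by
    rw [he', hn₁i]; group
  have hn₃eq : f * f' = e * (d * v) * e := by
    rw [hf, hf']
    calc (e * d * e⁻¹) * (e * v * e⁻¹) = e * (d * v) * e⁻¹ := by group
      _ = e * (d * v) * e := by rw [hei]
  have hn₃eq' : f * f' = (e * e') * (d * v) := by
    rw [hn₃eq, hn₂eq]
    calc e * (d * v) * e = e * (d * v) * e * 1 := by rw [mul_one]
      _ = e * (d * v) * e * ((d * v) * (d * v)) := by rw [hn₁2]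
      _ = e * (d * v) * e * (d * v) * (d * v) := by group
  -- the conjugation relations
  have hR2 : (e * e') * d * (e * e') = v := by
    have h1 : H91.Sim D ((e * e') * d * (e * e')⁻¹) d := hsim_e.conj_mul hTS hconj hd
    have h2 : (e * e') * d * (e * e')⁻¹ ≠ d := sim_conj_ne hTS hsim_e hee' hd hde
    rw [hn₂i] at h1 h2
    rcases hcd _ h1.1 h1.commute.symm with h | h
    · exact absurd h h2
    · exact h
  have hR1 : (f * f') * d * (f * f') = v := by
    have h1 : H91.Sim D ((f * f') * d * (f * f')⁻¹) d := hsim_f.conj_mul hTS hconj hd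
    have h2 : (f * f') * d * (f * f')⁻¹ ≠ d := sim_conj_ne hTS hsim_f hff' hd hdf
    rw [hn₃i] at h1 h2
    rcases hcd _ h1.1 h1.commute.symm with h | h
    · exact absurd h h2
    · exact h
  -- generation by `d`, `e`, `v`
  have hgen3 : Subgroup.closure ({d, e, v} : Set G) = ⊤ := by
    obtain ⟨K, hK⟩ : ∃ K : Subgroup G, K = Subgroup.closure ({d, e, v} : Set G) := ⟨_, rfl⟩
    rw [← hK]
    have hdK : d ∈ K := by rw [hK]; exact Subgroup.subset_closure (by simp)
    have heK : e ∈ K := by rw [hK]; exact Subgroup.subset_closure (by simp)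
    have hvK : v ∈ K := by rw [hK]; exact Subgroup.subset_closure (by simp)
    have he'K : e' ∈ K := by
      rw [he']
      exact K.mul_mem (K.mul_mem (K.mul_mem hdK hvK) heK) (K.inv_mem (K.mul_mem hdK hvK))
    have hfK : f ∈ K := by
      rw [hf]; exact K.mul_mem (K.mul_mem heK hdK) (K.inv_mem heK)
    have hf'K : f' ∈ K := by
      rw [hf']; exact K.mul_mem (K.mul_mem heK hvK) (K.inv_mem heK)
    rw [eq_top_iff, ← hgen, Subgroup.closure_le]
    intro y hy
    show y ∈ K
    by_cases h1 : Commute d y
    · rcases hcd y hy h1 with h | h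
      · rw [h]; exact hdK
      · rw [h]; exact hvK
    by_cases h2 : Commute e y
    · by_cases h2' : y = e
      · rw [h2']; exact heK
      · have : y = e' := huniq e heD y hy e' hsim_e.2.1 h2 h2' hsim_e.commute hee'.symm
        rw [this]; exact he'K
    by_cases h3 : Commute f y
    · by_cases h3' : y = f
      · rw [h3']; exact hfK
      · have : y = f' := huniq f hsim_f.1 y hy f' hsim_f.2.1 h3 h3' hsim_f.commute hff'.symm
        rw [this]; exact hf'K
    exfalso
    have hs1 : H91.Sim D ((d * v) * y * (d * v)⁻¹) y := hsim.conj_mul hTS hconj hy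
    have hs2 : H91.Sim D ((e * e') * y * (e * e')⁻¹) y := hsim_e.conj_mul hTS hconj hy
    have hne1 : (d * v) * y * (d * v)⁻¹ ≠ y :=
      sim_conj_ne hTS hsim hvd.symm hy (fun h => h1 h.symm)
    have hne2 : (e * e') * y * (e * e')⁻¹ ≠ y :=
      sim_conj_ne hTS hsim_e hee' hy (fun h => h2 h.symm)
    have hne3 : (f * f') * y * (f * f')⁻¹ ≠ y :=
      sim_conj_ne hTS hsim_f hff' hy (fun h => h3 h.symm)
    have h12 : (d * v) * y * (d * v)⁻¹ = (e * e') * y * (e * e')⁻¹ :=
      huniq y hy _ hs1.1 _ hs2.1 hs1.commute.symm hne1 hs2.commute.symm hne2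
    apply hne3
    rw [hn₃eq']
    calc (e * e') * (d * v) * y * ((e * e') * (d * v))⁻¹
        = (e * e') * ((d * v) * y * (d * v)⁻¹) * (e * e')⁻¹ := by group
      _ = (e * e') * ((e * e') * y * (e * e')⁻¹) * (e * e')⁻¹ := by rw [h12]
      _ = ((e * e') * (e * e')) * y * ((e * e') * (e * e'))⁻¹ := by group
      _ = y := by rw [hn₂2]; group
  -- conclusion
  rw [hn₂eq] at hR2 hn₂2
  rw [hn₃eq] at hR1
  exact H91.s4_of_relations d v e hd2 hv2 he2 hdv hbr hde hvd hv1 hR1 hR2 hn₂2 hgen3

end Cfsg.Agent.S5355
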