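import Cfsg.Statements.S5358

set_option autoImplicit false
open scoped MatrixGroups
open Cfsg
open scoped Matrix

namespace Cfsg.Agent.S5358

theorem polarVec_dot (n : ℕ) (Q : QuadraticForm (ZMod 3) (Fin n → ZMod 3)) (u x : Fin n → ZMod 3) :
    Cfsg.polarVec (⇑Q) u ⬝ᵥ x = QuadraticMap.polar (⇑Q) u x := by
  have hx : x = ∑ j, x j • (Pi.single j (1 : ZMod 3) : Fin n → ZMod 3) := by
    ext i
    simp [Finset.sum_apply, Pi.single_apply]
  conv_rhs => rw [hx]
  have h := map_sum (QuadraticMap.polarBilin Q u) (fun j => x j • (Pi.single j (1 : ZMod 3) : Fin n → ZMod 3)) Finset.univ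
  simp only [QuadraticMap.polarBilin_apply_apply, map_smul] at h
  rw [h]
  simp only [dotProduct, Cfsg.polarVec, smul_eq_mul]
  apply Finset.sum_congr rfl
  intro j _
  rw [mul_comm]

theorem refl_mulVec (n : ℕ) (Q : QuadraticForm (ZMod 3) (Fin n → ZMod 3)) (a x : Fin n → ZMod 3) :
    Cfsg.reflectionMatrix (⇑Q) a *ᵥ x = x - ((Q a)⁻¹ * QuadraticMap.polar (⇑Q) a x) • a := by
  unfold Cfsg.reflectionMatrix
  rw [Matrix.sub_mulVec, Matrix.one_mulVec, Matrix.smul_mulVec, Matrix.vecMulVec_mulVec, polarVec_dot]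
  ext i
  simp only [Pi.sub_apply, Pi.smul_apply, smul_eq_mul, MulOpposite.smul_eq_mul_unop, MulOpposite.unop_op]
  ring

theorem zmod3_aux : ∀ c q : ZMod 3, c ≠ 0 → q ≠ 0 → (c = 2 * q ∨ c = -(2 * q)) := by decide

/-- Let Q be a non-degenerate quadratic form on the n-dimensional coordinate space over the field with three elements and u, v vectors of the same non-zero norm Q(u) = Q(v) spanning different lines (v ≠ u and v ≠ −u). Then the reflection matrices of u and v commute if and only if u and v are orthogonal for the polar form of Q. -/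
theorem result (n : ℕ) (Q : QuadraticForm (ZMod 3) (Fin n → ZMod 3)) (hQ : (QuadraticMap.polarBilin Q).Nondegenerate) (u v : Fin n → ZMod 3) (hu : Q u ≠ 0) (huv : Q u = Q v) (h1 : v ≠ u) (h2 : v ≠ -u) : Commute (Cfsg.reflectionMatrix (⇑Q) u) (Cfsg.reflectionMatrix (⇑Q) v) ↔ QuadraticMap.polar (⇑Q) u v = 0 := by
  have hv : Q v ≠ 0 := huv ▸ hu
  have hcomm : QuadraticMap.polar (⇑Q) v u = QuadraticMap.polar (⇑Q) u v := QuadraticMap.polar_comm _ _ _
  have key : ∀ x : Fin n → ZMod 3,
      (Cfsg.reflectionMatrix (⇑Q) u * Cfsg.reflectionMatrix (⇑Q) v) *ᵥ x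
        - (Cfsg.reflectionMatrix (⇑Q) v * Cfsg.reflectionMatrix (⇑Q) u) *ᵥ x
      = ((Q u)⁻¹ * (Q v)⁻¹ * QuadraticMap.polar (⇑Q) u v) •
          (QuadraticMap.polar (⇑Q) v x • u - QuadraticMap.polar (⇑Q) u x • v) := by
    intro x
    rw [← Matrix.mulVec_mulVec, ← Matrix.mulVec_mulVec, refl_mulVec, refl_mulVec, refl_mulVec, refl_mulVec]
    have e1 : QuadraticMap.polar (⇑Q) u (x - ((Q v)⁻¹ * QuadraticMap.polar (⇑Q) v x) • v)
        = QuadraticMap.polar (⇑Q) u x - ((Q v)⁻¹ * QuadraticMap.polar (⇑Q) v x) * QuadraticMap.polar (⇑Q) u v := by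
      rw [QuadraticMap.polar_sub_right, QuadraticMap.polar_smul_right, smul_eq_mul]
    have e2 : QuadraticMap.polar (⇑Q) v (x - ((Q u)⁻¹ * QuadraticMap.polar (⇑Q) u x) • u)
        = QuadraticMap.polar (⇑Q) v x - ((Q u)⁻¹ * QuadraticMap.polar (⇑Q) u x) * QuadraticMap.polar (⇑Q) u v := by
      rw [QuadraticMap.polar_sub_right, QuadraticMap.polar_smul_right, smul_eq_mul, hcomm]
    rw [e1, e2]
    ext i
    simp only [Pi.sub_apply, Pi.smul_apply, smul_eq_mul]
    ring
  constructor
  · intro h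
    by_contra hc
    have hx := key u
    rw [h.eq, sub_self] at hx
    have hne : (Q u)⁻¹ * (Q v)⁻¹ * QuadraticMap.polar (⇑Q) u v ≠ 0 :=
      mul_ne_zero (mul_ne_zero (inv_ne_zero hu) (inv_ne_zero hv)) hc
    have h3 : QuadraticMap.polar (⇑Q) v u • u - QuadraticMap.polar (⇑Q) u u • v = 0 := by
      rcases smul_eq_zero.mp hx.symm with h | h
      · exact (hne h).elim
      · exact h
    rw [hcomm, QuadraticMap.polar_self, sub_eq_zero] at h3
    have h4 : (2 • Q u : ZMod 3) = 2 * Q u := by simp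
    rw [h4] at h3
    rcases zmod3_aux _ _ hc hu with h5 | h5
    · rw [h5] at h3
      have h2q : (2 * Q u : ZMod 3) ≠ 0 := by
        rw [← h5]; exact hc
      have := smul_right_injective (Fin n → ZMod 3) h2q h3
      exact h1 this.symm
    · rw [h5] at h3
      have h2q : (2 * Q u : ZMod 3) ≠ 0 := by
        intro h0; rw [h0, neg_zero] at h5; exact hc h5
      have h6 : (2 * Q u) • (-u) = (2 * Q u) • v := by
        rw [smul_neg, ← neg_smul]; exact h3
      have := smul_right_injective (Fin n → ZMod 3) h2q h6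
      exact h2 this.symm
  · intro h
    show _ * _ = _ * _
    apply Matrix.mulVec_injective
    ext1 x
    have hx := key x
    rw [h, mul_zero, zero_smul, sub_eq_zero] at hx
    exact hx

end Cfsg.Agent.S5358
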