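import Cfsg.Statements.S5357
import Cfsg.Agent.S5358
import Cfsg.Agent.H91.ThreeTransp

set_option autoImplicit false
open scoped MatrixGroups
open Cfsg
open scoped Matrix

namespace Cfsg.Agent.S5357

theorem zmod3_two_ne : ∀ q : ZMod 3, q ≠ 0 → (2 • q : ZMod 3) ≠ 0 := by decide

theorem zmod3_choice : ∀ a p q : ZMod 3, a ≠ 0 → p ≠ 0 → q ≠ 0 → p = a ∨ q = a ∨ p + q = a := by
  decide

theorem zmod3_sq : ∀ a : ZMod 3, a ≠ 0 → a * a = 1 := by decide

/-- In a nondegenerate quadratic space over `𝔽₃` of dimension `n`, a family of fewer than `n`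
pairwise orthogonal anisotropic vectors has an anisotropic vector orthogonal to all of them. -/
theorem exists_perp_aniso (n k : ℕ) (Q : QuadraticForm (ZMod 3) (Fin n → ZMod 3))
    (hQ : (QuadraticMap.polarBilin Q).Nondegenerate) (hk : k < n) (u : Fin k → (Fin n → ZMod 3))
    (horth : ∀ i j, i ≠ j → QuadraticMap.polar (⇑Q) (u i) (u j) = 0) (hani : ∀ i, Q (u i) ≠ 0) :
    ∃ y : Fin n → ZMod 3, (∀ i, QuadraticMap.polar (⇑Q) (u i) y = 0) ∧ Q y ≠ 0 := by
  by_contra hcon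
  push Not at hcon
  let φ : (Fin n → ZMod 3) →ₗ[ZMod 3] (Fin k → ZMod 3) :=
    LinearMap.pi (fun i => QuadraticMap.polarBilin Q (u i))
  have hker : LinearMap.ker φ ≠ ⊥ := LinearMap.ker_ne_bot_of_finrank_lt (by simpa using hk)
  obtain ⟨z, hz, hz0⟩ := (Submodule.ne_bot_iff _).mp hker
  have hzu : ∀ i, QuadraticMap.polar (⇑Q) (u i) z = 0 := by
    intro i
    have := congrFun (LinearMap.mem_ker.mp hz) i
    simpa [φ] using this
  apply hz0
  apply hQ.1 z
  intro y
  rw [QuadraticMap.polarBilin_apply_apply]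
  -- decomposition of `y`
  obtain ⟨coef, hcoef⟩ : ∃ coef : Fin k → ZMod 3, coef = fun i =>
      (QuadraticMap.polar (⇑Q) (u i) (u i))⁻¹ * QuadraticMap.polar (⇑Q) (u i) y := ⟨_, rfl⟩
  obtain ⟨y', hy'⟩ : ∃ y' : Fin n → ZMod 3, y' = y - ∑ i, coef i • u i := ⟨_, rfl⟩
  have hy'u : ∀ j, QuadraticMap.polar (⇑Q) (u j) y' = 0 := by
    intro j
    have h1 : QuadraticMap.polar (⇑Q) (u j) y' = QuadraticMap.polarBilin Q (u j) y' := rfl
    rw [h1, hy', map_sub, map_sum]
    simp only [map_smul, QuadraticMap.polarBilin_apply_apply, smul_eq_mul]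
    rw [Finset.sum_eq_single j]
    · rw [hcoef]
      have hne : QuadraticMap.polar (⇑Q) (u j) (u j) ≠ 0 := by
        rw [QuadraticMap.polar_self]; exact zmod3_two_ne _ (hani j)
      field_simp
      ring
    · intro i _ hij
      rw [horth j i (Ne.symm hij), mul_zero]
    · intro h; exact absurd (Finset.mem_univ j) h
  have hQz : Q z = 0 := hcon z hzu
  have hQy' : Q y' = 0 := hcon y' hy'u
  have hQzy' : Q (z + y') = 0 := by
    apply hcon
    intro i
    rw [QuadraticMap.polar_add_right, hzu, hy'u, add_zero]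
  have hzy' : QuadraticMap.polar (⇑Q) z y' = 0 := by
    unfold QuadraticMap.polar
    rw [hQzy', hQz, hQy']; simp
  have hy : y = y' + ∑ i, coef i • u i := by rw [hy']; abel
  have h2 : QuadraticMap.polar (⇑Q) z y = QuadraticMap.polarBilin Q z y := rfl
  rw [h2, hy, map_add, map_sum]
  simp only [map_smul, QuadraticMap.polarBilin_apply_apply, smul_eq_mul]
  rw [hzy', zero_add]
  apply Finset.sum_eq_zero
  intro i _
  rw [QuadraticMap.polar_comm, hzu, mul_zero]

/-- In a nondegenerate quadratic space over `𝔽₃` of dimension `n`, for a family of `k` pairwise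
orthogonal anisotropic vectors with `k + 1 < n` and every non-zero `a` there is a vector of
norm `a` orthogonal to all of them. -/
theorem exists_perp_norm (n k : ℕ) (Q : QuadraticForm (ZMod 3) (Fin n → ZMod 3))
    (hQ : (QuadraticMap.polarBilin Q).Nondegenerate) (hk : k + 1 < n)
    (u : Fin k → (Fin n → ZMod 3))
    (horth : ∀ i j, i ≠ j → QuadraticMap.polar (⇑Q) (u i) (u j) = 0) (hani : ∀ i, Q (u i) ≠ 0)
    (a : ZMod 3) (ha : a ≠ 0) :
    ∃ t : Fin n → ZMod 3, (∀ i, QuadraticMap.polar (⇑Q) (u i) t = 0) ∧ Q t = a := by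
  obtain ⟨x, hx, hx0⟩ := exists_perp_aniso n k Q hQ (by omega) u horth hani
  have horth' : ∀ i j : Fin (k + 1), i ≠ j →
      QuadraticMap.polar (⇑Q) ((Fin.cons x u : Fin (k + 1) → (Fin n → ZMod 3)) i)
        ((Fin.cons x u : Fin (k + 1) → (Fin n → ZMod 3)) j) = 0 := by
    intro i j
    refine Fin.cases ?_ (fun i' => ?_) i
    · refine Fin.cases ?_ (fun j' => ?_) j
      · intro h; exact absurd rfl h
      · intro _
        rw [Fin.cons_zero, Fin.cons_succ, QuadraticMap.polar_comm]; exact hx j'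
    · refine Fin.cases ?_ (fun j' => ?_) j
      · intro _
        rw [Fin.cons_zero, Fin.cons_succ]; exact hx i'
      · intro h
        rw [Fin.cons_succ, Fin.cons_succ]
        exact horth i' j' (fun h' => h (by rw [h']))
  have hani' : ∀ i : Fin (k + 1), Q ((Fin.cons x u : Fin (k + 1) → (Fin n → ZMod 3)) i) ≠ 0 := by
    intro i
    refine Fin.cases ?_ (fun i' => ?_) i
    · rw [Fin.cons_zero]; exact hx0
    · rw [Fin.cons_succ]; exact hani i'
  obtain ⟨y, hy, hy0⟩ := exists_perp_aniso n (k + 1) Q hQ hk (Fin.cons x u) horth' hani'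
  have hxy : QuadraticMap.polar (⇑Q) x y = 0 := by
    have := hy 0; rwa [Fin.cons_zero] at this
  have hyu : ∀ i, QuadraticMap.polar (⇑Q) (u i) y = 0 := by
    intro i
    have := hy i.succ; rwa [Fin.cons_succ] at this
  have hQxy : Q (x + y) = Q x + Q y := by
    have := QuadraticMap.polar (⇑Q) x y
    have h1 : QuadraticMap.polar (⇑Q) x y = Q (x + y) - Q x - Q y := rfl
    rw [hxy] at h1
    linear_combination -h1
  rcases zmod3_choice a (Q x) (Q y) ha hx0 hy0 with h | h | h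
  · exact ⟨x, hx, h⟩
  · exact ⟨y, hyu, h⟩
  · refine ⟨x + y, fun i => ?_, by rw [hQxy]; exact h⟩
    rw [QuadraticMap.polar_add_right, hx, hyu, add_zero]


open Cfsg.Agent.S5358 in
theorem refl_sq (n : ℕ) (Q : QuadraticForm (ZMod 3) (Fin n → ZMod 3)) (v : Fin n → ZMod 3)
    (hv : Q v ≠ 0) : Cfsg.reflectionMatrix (⇑Q) v * Cfsg.reflectionMatrix (⇑Q) v = 1 := by
  apply Matrix.mulVec_injective
  ext1 x
  rw [← Matrix.mulVec_mulVec, refl_mulVec, refl_mulVec, Matrix.one_mulVec]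
  rw [QuadraticMap.polar_sub_right, QuadraticMap.polar_smul_right, smul_eq_mul,
    QuadraticMap.polar_self]
  have hk : (Q v)⁻¹ * Q v = 1 := inv_mul_cancel₀ hv
  ext i
  simp only [Pi.sub_apply, Pi.smul_apply, smul_eq_mul]
  linear_combination (2 * (Q v)⁻¹ * QuadraticMap.polar (⇑Q) v x * v i) * hk

open Cfsg.Agent.S5358 in
theorem refl_ne_one (n : ℕ) (Q : QuadraticForm (ZMod 3) (Fin n → ZMod 3)) (v : Fin n → ZMod 3)
    (hv : Q v ≠ 0) : Cfsg.reflectionMatrix (⇑Q) v ≠ 1 := by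
  intro h
  have h1 := refl_mulVec n Q v v
  rw [h, Matrix.one_mulVec, QuadraticMap.polar_self] at h1
  have hv0 : v ≠ 0 := by
    intro h0; apply hv; rw [h0]; exact QuadraticMap.map_zero Q
  have h2 : ((Q v)⁻¹ * 2 • Q v) • v = 0 := by
    have : v - ((Q v)⁻¹ * 2 • Q v) • v = v - 0 := by rw [sub_zero]; exact h1.symm
    exact sub_right_injective this
  rcases smul_eq_zero.mp h2 with h3 | h3
  · exact mul_ne_zero (inv_ne_zero hv) (zmod3_two_ne _ hv) h3
  · exact hv0 h3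

open Cfsg.Agent.S5358 in
theorem refl_isometry (n : ℕ) (Q : QuadraticForm (ZMod 3) (Fin n → ZMod 3)) (v : Fin n → ZMod 3)
    (hv : Q v ≠ 0) (x : Fin n → ZMod 3) : Q (Cfsg.reflectionMatrix (⇑Q) v *ᵥ x) = Q x := by
  rw [refl_mulVec, sub_eq_add_neg, ← neg_smul, QuadraticMap.map_add Q, QuadraticMap.map_smul,
    QuadraticMap.polar_smul_right, smul_eq_mul, smul_eq_mul,
    QuadraticMap.polar_comm (⇑Q) x v]
  have hk : (Q v)⁻¹ * Q v = 1 := inv_mul_cancel₀ hv
  linear_combination ((Q v)⁻¹ * QuadraticMap.polar (⇑Q) v x * QuadraticMap.polar (⇑Q) v x) * hk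

open Cfsg.Agent.S5358 in
theorem refl_comm (n : ℕ) (Q : QuadraticForm (ZMod 3) (Fin n → ZMod 3)) (u v : Fin n → ZMod 3)
    (huv : QuadraticMap.polar (⇑Q) u v = 0) :
    Cfsg.reflectionMatrix (⇑Q) u * Cfsg.reflectionMatrix (⇑Q) v
      = Cfsg.reflectionMatrix (⇑Q) v * Cfsg.reflectionMatrix (⇑Q) u := by
  have hvu : QuadraticMap.polar (⇑Q) v u = 0 := by rw [QuadraticMap.polar_comm]; exact huv
  apply Matrix.mulVec_injective
  ext1 x
  rw [← Matrix.mulVec_mulVec, ← Matrix.mulVec_mulVec, refl_mulVec, refl_mulVec, refl_mulVec,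
    refl_mulVec]
  rw [QuadraticMap.polar_sub_right, QuadraticMap.polar_smul_right, QuadraticMap.polar_sub_right,
    QuadraticMap.polar_smul_right, huv, hvu]
  ext i
  simp only [Pi.sub_apply, Pi.smul_apply, smul_eq_mul]
  ring

open Cfsg.Agent.S5358 in
theorem refl_triple (n : ℕ) (Q : QuadraticForm (ZMod 3) (Fin n → ZMod 3)) (c : ZMod 3)
    (hc : c ≠ 0) (u v : Fin n → ZMod 3) (hu : Q u = c) (hv : Q v = c)
    (huv : QuadraticMap.polar (⇑Q) u v ≠ 0) (x : Fin n → ZMod 3) :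
    Cfsg.reflectionMatrix (⇑Q) u *ᵥ (Cfsg.reflectionMatrix (⇑Q) v *ᵥ
      (Cfsg.reflectionMatrix (⇑Q) u *ᵥ x))
    = x - (c⁻¹ * QuadraticMap.polar (⇑Q) u x
          - c⁻¹ * QuadraticMap.polar (⇑Q) u v * (c⁻¹ * QuadraticMap.polar (⇑Q) v x)) • u
        - (c⁻¹ * QuadraticMap.polar (⇑Q) v x
          - c⁻¹ * QuadraticMap.polar (⇑Q) u v * (c⁻¹ * QuadraticMap.polar (⇑Q) u x)) • v := by
  have hvu : QuadraticMap.polar (⇑Q) v u = QuadraticMap.polar (⇑Q) u v :=
    QuadraticMap.polar_comm _ _ _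
  have hk : c⁻¹ * c = 1 := inv_mul_cancel₀ hc
  have hε : (c⁻¹ * QuadraticMap.polar (⇑Q) u v) * (c⁻¹ * QuadraticMap.polar (⇑Q) u v) = 1 :=
    zmod3_sq _ (mul_ne_zero (inv_ne_zero hc) huv)
  rw [refl_mulVec, refl_mulVec, refl_mulVec, hu, hv]
  simp only [QuadraticMap.polar_sub_right, QuadraticMap.polar_smul_right, smul_eq_mul,
    QuadraticMap.polar_self, hu, hvu]
  ext i
  simp only [Pi.sub_apply, Pi.smul_apply, smul_eq_mul]
  linear_combination (2 * c⁻¹ * QuadraticMap.polar (⇑Q) u x * u i) * hk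
    - (c⁻¹ * QuadraticMap.polar (⇑Q) u x * u i) * hε

theorem refl_braid (n : ℕ) (Q : QuadraticForm (ZMod 3) (Fin n → ZMod 3)) (c : ZMod 3)
    (hc : c ≠ 0) (u v : Fin n → ZMod 3) (hu : Q u = c) (hv : Q v = c)
    (huv : QuadraticMap.polar (⇑Q) u v ≠ 0) :
    Cfsg.reflectionMatrix (⇑Q) u * Cfsg.reflectionMatrix (⇑Q) v * Cfsg.reflectionMatrix (⇑Q) u
      = Cfsg.reflectionMatrix (⇑Q) v * Cfsg.reflectionMatrix (⇑Q) u
          * Cfsg.reflectionMatrix (⇑Q) v := by
  have hvu : QuadraticMap.polar (⇑Q) v u = QuadraticMap.polar (⇑Q) u v :=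
    QuadraticMap.polar_comm _ _ _
  apply Matrix.mulVec_injective
  ext1 x
  rw [← Matrix.mulVec_mulVec, ← Matrix.mulVec_mulVec, ← Matrix.mulVec_mulVec,
    ← Matrix.mulVec_mulVec, refl_triple n Q c hc u v hu hv huv,
    refl_triple n Q c hc v u hv hu (by rw [hvu]; exact huv), hvu]
  abel

open Cfsg.Agent.S5358 in
theorem refl_conj (n : ℕ) (Q : QuadraticForm (ZMod 3) (Fin n → ZMod 3))
    (g g' : Matrix (Fin n) (Fin n) (ZMod 3)) (hgg' : g * g' = 1)
    (hg : ∀ x, Q (g *ᵥ x) = Q x) (v : Fin n → ZMod 3) :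
    g * Cfsg.reflectionMatrix (⇑Q) v * g' = Cfsg.reflectionMatrix (⇑Q) (g *ᵥ v) := by
  have hpol : ∀ a b, QuadraticMap.polar (⇑Q) (g *ᵥ a) (g *ᵥ b) = QuadraticMap.polar (⇑Q) a b := by
    intro a b
    unfold QuadraticMap.polar
    rw [← Matrix.mulVec_add, hg, hg, hg]
  apply Matrix.mulVec_injective
  ext1 x
  have hx : g *ᵥ (g' *ᵥ x) = x := by
    rw [Matrix.mulVec_mulVec, hgg', Matrix.one_mulVec]
  rw [← Matrix.mulVec_mulVec, ← Matrix.mulVec_mulVec, refl_mulVec, refl_mulVec,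
    Matrix.mulVec_sub, Matrix.mulVec_smul, hx, hg]
  have : QuadraticMap.polar (⇑Q) (g *ᵥ v) x = QuadraticMap.polar (⇑Q) v (g' *ᵥ x) := by
    conv_lhs => rw [← hx]
    exact hpol _ _
  rw [this]


/-- Let Q be a non-degenerate quadratic form on the n-dimensional coordinate space over the field with three elements, n ≥ 5, and c a non-zero scalar. In the subgroup of the isometry group of Q generated by the reflections in vectors v with Q(v) = c, these reflections form a single conjugacy class of 3-transpositions generating that subgroup. -/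
theorem result (n : ℕ) (hn : 5 ≤ n) (Q : QuadraticForm (ZMod 3) (Fin n → ZMod 3)) (hQ : (QuadraticMap.polarBilin Q).Nondegenerate) (c : ZMod 3) (hc : c ≠ 0) : Cfsg.IsThreeTranspositionClass {g : ↥(Cfsg.reflectionSubgroup (⇑Q) c) | (g : ↥(Cfsg.isometryGroup (ZMod 3) (⇑Q))) ∈ Cfsg.reflectionsOfNorm (⇑Q) c} := by
  obtain ⟨mat, hmat⟩ : ∃ mat : ↥(Cfsg.reflectionSubgroup (⇑Q) c) → Matrix (Fin n) (Fin n) (ZMod 3),
      mat = fun g : ↥(Cfsg.reflectionSubgroup (⇑Q) c) =>
        (((g : ↥(Cfsg.isometryGroup (ZMod 3) (⇑Q))) : GL (Fin n) (ZMod 3)) :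
          Matrix (Fin n) (Fin n) (ZMod 3)) := ⟨_, rfl⟩
  have hext : ∀ g h : ↥(Cfsg.reflectionSubgroup (⇑Q) c), mat g = mat h → g = h := by
    intro g h hgh
    rw [hmat] at hgh
    exact Subtype.ext (Subtype.ext (Units.ext hgh))
  have hmul : ∀ a b : ↥(Cfsg.reflectionSubgroup (⇑Q) c), mat (a * b) = mat a * mat b := by
    intro a b; rw [hmat]; rfl
  have hone : mat 1 = 1 := by rw [hmat]; rfl
  have hiso : ∀ (k : ↥(Cfsg.reflectionSubgroup (⇑Q) c)) (x : Fin n → ZMod 3),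
      Q (mat k *ᵥ x) = Q x := by
    intro k x
    rw [hmat]
    exact (k : ↥(Cfsg.isometryGroup (ZMod 3) (⇑Q))).2 x x
  obtain ⟨D, hDdef⟩ : ∃ D : Set ↥(Cfsg.reflectionSubgroup (⇑Q) c),
      D = {g : ↥(Cfsg.reflectionSubgroup (⇑Q) c) |
        (g : ↥(Cfsg.isometryGroup (ZMod 3) (⇑Q))) ∈ Cfsg.reflectionsOfNorm (⇑Q) c} := ⟨_, rfl⟩
  rw [← hDdef]
  have hDmem : ∀ g : ↥(Cfsg.reflectionSubgroup (⇑Q) c),
      g ∈ D ↔ ∃ v : Fin n → ZMod 3, Q v = c ∧ mat g = Cfsg.reflectionMatrix (⇑Q) v := by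
    intro g; rw [hDdef, hmat]; rfl
  have hne0 : ∀ v : Fin n → ZMod 3, Q v = c → Q v ≠ 0 := fun v hv => by rw [hv]; exact hc
  -- involutions
  have hsq : ∀ g ∈ D, g * g = 1 := by
    intro g hg
    obtain ⟨v, hv, hgv⟩ := (hDmem g).mp hg
    apply hext
    rw [hmul, hgv, hone]
    exact refl_sq n Q v (hne0 v hv)
  have hneone : ∀ g ∈ D, g ≠ 1 := by
    intro g hg h1
    obtain ⟨v, hv, hgv⟩ := (hDmem g).mp hg
    rw [h1, hone] at hgv
    exact refl_ne_one n Q v (hne0 v hv) hgv.symm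
  have hcomm : ∀ g h : ↥(Cfsg.reflectionSubgroup (⇑Q) c), ∀ u v : Fin n → ZMod 3,
      mat g = Cfsg.reflectionMatrix (⇑Q) u → mat h = Cfsg.reflectionMatrix (⇑Q) v →
      QuadraticMap.polar (⇑Q) u v = 0 → g * h = h * g := by
    intro g h u v hg hh huv
    apply hext
    rw [hmul, hmul, hg, hh]
    exact refl_comm n Q u v huv
  have hbraid : ∀ g h : ↥(Cfsg.reflectionSubgroup (⇑Q) c), ∀ u v : Fin n → ZMod 3,
      Q u = c → Q v = c →
      mat g = Cfsg.reflectionMatrix (⇑Q) u → mat h = Cfsg.reflectionMatrix (⇑Q) v →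
      QuadraticMap.polar (⇑Q) u v ≠ 0 → g * h * g = h * g * h := by
    intro g h u v hu hv hg hh huv
    apply hext
    rw [hmul, hmul, hmul, hmul, hg, hh]
    exact refl_braid n Q c hc u v hu hv huv
  have hmk : ∀ v : Fin n → ZMod 3, Q v = c →
      ∃ g : ↥(Cfsg.reflectionSubgroup (⇑Q) c), g ∈ D ∧ mat g = Cfsg.reflectionMatrix (⇑Q) v := by
    intro v hv
    have hv0 : Q v ≠ 0 := hne0 v hv
    let U : GL (Fin n) (ZMod 3) := ⟨Cfsg.reflectionMatrix (⇑Q) v, Cfsg.reflectionMatrix (⇑Q) v,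
      refl_sq n Q v hv0, refl_sq n Q v hv0⟩
    have hU : U ∈ Cfsg.isometryGroup (ZMod 3) (⇑Q) := by
      intro a b
      exact refl_isometry n Q v hv0 a
    have hR : (⟨U, hU⟩ : ↥(Cfsg.isometryGroup (ZMod 3) (⇑Q))) ∈ Cfsg.reflectionsOfNorm (⇑Q) c :=
      ⟨v, hv, rfl⟩
    refine ⟨⟨⟨U, hU⟩, Subgroup.subset_closure hR⟩, ?_, ?_⟩
    · rw [hDdef]; exact hR
    · rw [hmat]
  have hconjD : ∀ k g : ↥(Cfsg.reflectionSubgroup (⇑Q) c), g ∈ D → k * g * k⁻¹ ∈ D := by
    intro k g hg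
    obtain ⟨v, hv, hgv⟩ := (hDmem g).mp hg
    rw [hDmem]
    refine ⟨mat k *ᵥ v, ?_, ?_⟩
    · rw [hiso, hv]
    · rw [hmul, hmul, hgv]
      apply refl_conj n Q (mat k) (mat k⁻¹) _ (hiso k) v
      rw [← hmul, mul_inv_cancel, hone]
  -- conjugacy of two members with non-orthogonal centres
  have hconj1 : ∀ g h : ↥(Cfsg.reflectionSubgroup (⇑Q) c), ∀ u v : Fin n → ZMod 3,
      g ∈ D → h ∈ D → Q u = c → Q v = c →
      mat g = Cfsg.reflectionMatrix (⇑Q) u → mat h = Cfsg.reflectionMatrix (⇑Q) v →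
      QuadraticMap.polar (⇑Q) u v ≠ 0 → IsConj g h := by
    intro g h u v hgD hhD hu hv hg hh huv
    have hb := hbraid g h u v hu hv hg hh huv
    rw [isConj_iff]
    exact ⟨g * h * g, H91.braid_conj_left (hsq g hgD) (hsq h hhD) hb.symm⟩
  have hconj2 : ∀ g ∈ D, ∀ h ∈ D, IsConj g h := by
    intro g hgD h hhD
    obtain ⟨u, hu, hg⟩ := (hDmem g).mp hgD
    obtain ⟨v, hv, hh⟩ := (hDmem h).mp hhD
    by_cases huv : QuadraticMap.polar (⇑Q) u v = 0
    · -- a third vector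
      have horth : ∀ i j : Fin 2, i ≠ j →
          QuadraticMap.polar (⇑Q) ((![u, v] : Fin 2 → (Fin n → ZMod 3)) i)
            ((![u, v] : Fin 2 → (Fin n → ZMod 3)) j) = 0 := by
        intro i j hij
        fin_cases i <;> fin_cases j
        · exact absurd rfl hij
        · exact huv
        · show QuadraticMap.polar (⇑Q) v u = 0
          rw [QuadraticMap.polar_comm]; exact huv
        · exact absurd rfl hij
      have hani : ∀ i : Fin 2, Q ((![u, v] : Fin 2 → (Fin n → ZMod 3)) i) ≠ 0 := by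
        intro i
        fin_cases i
        · exact hne0 u hu
        · exact hne0 v hv
      obtain ⟨t, ht, hQt⟩ := exists_perp_norm n 2 Q hQ (by omega) ![u, v] horth hani (-c)
        (neg_ne_zero.mpr hc)
      have htu : QuadraticMap.polar (⇑Q) u t = 0 := ht 0
      have htv : QuadraticMap.polar (⇑Q) v t = 0 := ht 1
      have hvu : QuadraticMap.polar (⇑Q) v u = 0 := by rw [QuadraticMap.polar_comm]; exact huv
      have hw : Q (u + v + t) = c := by
        rw [QuadraticMap.map_add Q, QuadraticMap.map_add Q, hu, hv, hQt, huv,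
          QuadraticMap.polar_add_left, htu, htv]
        ring
      have huw : QuadraticMap.polar (⇑Q) u (u + v + t) ≠ 0 := by
        rw [QuadraticMap.polar_add_right, QuadraticMap.polar_add_right, huv, htu,
          QuadraticMap.polar_self, add_zero, add_zero]
        exact zmod3_two_ne _ (hne0 u hu)
      have hwv : QuadraticMap.polar (⇑Q) (u + v + t) v ≠ 0 := by
        rw [QuadraticMap.polar_comm, QuadraticMap.polar_add_right, QuadraticMap.polar_add_right,
          hvu, htv, QuadraticMap.polar_self, add_zero, zero_add]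
        exact zmod3_two_ne _ (hne0 v hv)
      obtain ⟨k, hkD, hk⟩ := hmk (u + v + t) hw
      exact (hconj1 g k u (u + v + t) hgD hkD hu hw hg hk huw).trans
        (hconj1 k h (u + v + t) v hkD hhD hw hv hk hh hwv)
    · exact hconj1 g h u v hgD hhD hu hv hg hh huv
  refine ⟨⟨?_, ?_⟩, ?_, ?_⟩
  · intro g hg
    have : Fact (Nat.Prime 2) := ⟨Nat.prime_two⟩
    exact orderOf_eq_prime (by rw [pow_two]; exact hsq g hg) (hneone g hg)
  · intro g hg h hh
    obtain ⟨u, hu, hgu⟩ := (hDmem g).mp hg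
    obtain ⟨v, hv, hhv⟩ := (hDmem h).mp hh
    by_cases huv : QuadraticMap.polar (⇑Q) u v = 0
    · left
      have h1 := hcomm g h u v hgu hhv huv
      rw [pow_two]
      calc (g * h) * (g * h) = g * (h * g) * h := by group
        _ = g * (g * h) * h := by rw [h1]
        _ = (g * g) * (h * h) := by group
        _ = 1 := by rw [hsq g hg, hsq h hh, one_mul]
    · right
      have h1 := hbraid g h u v hu hv hgu hhv huv
      rw [pow_succ, pow_two]
      calc (g * h) * (g * h) * (g * h) = g * (h * g * h) * g * h := by group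
        _ = g * (g * h * g) * g * h := by rw [h1]
        _ = (g * g) * h * (g * g) * h := by group
        _ = 1 := by rw [hsq g hg, one_mul, mul_one, hsq h hh]
  · obtain ⟨v₀, -, hv₀⟩ := exists_perp_norm n 0 Q hQ (by omega) (fun i => Fin.elim0 i)
      (fun i => Fin.elim0 i) (fun i => Fin.elim0 i) c hc
    obtain ⟨d₀, hd₀D, hd₀⟩ := hmk v₀ hv₀
    refine ⟨d₀, hd₀D, ?_⟩
    ext g
    constructor
    · intro hg
      exact hconj2 d₀ hd₀D g hg
    · intro hg
      obtain ⟨k, hk⟩ := isConj_iff.mp (show IsConj d₀ g from hg)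
      rw [← hk]
      exact hconjD k d₀ hd₀D
  · rw [hDdef]
    exact Subgroup.closure_closure_coe_preimage

end Cfsg.Agent.S5357
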