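import Cfsg.Statements.S5359
import Cfsg.Agent.H18.Spin

set_option autoImplicit false
open scoped MatrixGroups
open Cfsg

namespace Cfsg.Agent.S5359

open Matrix

theorem z3_vals : ∀ c q : ZMod 3, c ≠ 0 → q ≠ -c → q = 0 ∨ q = c := by decide

theorem z3_f0 : ∀ c q f : ZMod 3, c ≠ 0 → (q = 0 ∨ q = c) → (q + f = 0 ∨ q + f = c) →
    (q - f = 0 ∨ q - f = c) → f = 0 := by decide

theorem z3_pm : ∀ c f : ZMod 3, c ≠ 0 → (c + c + f = 0 ∨ c + c + f = c) →
    (c + c - f = 0 ∨ c + c - f = c) → (c + c + f = 0 ∨ c + c - f = 0) := by decide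

theorem z3_neg : ∀ c q : ZMod 3, c ≠ 0 → q ≠ 0 → q ≠ c → q = -c := by decide

theorem z3_ne : ∀ c : ZMod 3, c ≠ 0 → -c ≠ c := by decide

theorem z3_sum : ∀ c : ZMod 3, -c + -c + 0 = c := by decide

theorem z3_diff : ∀ c : ZMod 3, -c + -c - 0 = c := by decide

section
variable {n : ℕ} (Q : QuadraticForm (ZMod 3) (Fin n → ZMod 3))

/-- A vector of norm `-c` perpendicular to two given vectors. -/
theorem exists_perp (hn : 5 ≤ n) (hQ : (QuadraticMap.polarBilin Q).Nondegenerate) (c : ZMod 3)
    (hc : c ≠ 0) (u w : Fin n → ZMod 3) (hu : Q u ≠ 0) :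
    ∃ z, Q z = -c ∧ QuadraticMap.polar (⇑Q) u z = 0 ∧ QuadraticMap.polar (⇑Q) w z = 0 := by
  classical
  by_contra H
  push Not at H
  set B := QuadraticMap.polarBilin Q with hB
  have hrefl := H18.polarBilin_isRefl Q
  set U : Submodule (ZMod 3) (Fin n → ZMod 3) := Submodule.span (ZMod 3) {u, w} with hU
  set W := LinearMap.BilinForm.orthogonal B U with hW
  have memW : ∀ z, z ∈ W ↔
      (QuadraticMap.polar (⇑Q) u z = 0 ∧ QuadraticMap.polar (⇑Q) w z = 0) := by
    intro z
    rw [hW, LinearMap.BilinForm.mem_orthogonal_iff]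
    constructor
    · intro h
      exact ⟨h u (Submodule.subset_span (by simp)), h w (Submodule.subset_span (by simp))⟩
    · rintro ⟨h1, h2⟩ x hx
      obtain ⟨a, b, rfl⟩ := Submodule.mem_span_pair.mp hx
      show B (a • u + b • w) z = 0
      rw [hB, QuadraticMap.polarBilin_apply_apply, QuadraticMap.polar_add_left,
        QuadraticMap.polar_smul_left, QuadraticMap.polar_smul_left, h1, h2]
      simp
  have hval : ∀ z ∈ W, Q z = 0 ∨ Q z = c := by
    intro z hz
    obtain ⟨h1, h2⟩ := (memW z).mp hz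
    exact z3_vals c (Q z) hc (fun h => H z h h1 h2)
  have h1 : ∀ z1 ∈ W, Q z1 = 0 → ∀ z2 ∈ W, QuadraticMap.polar (⇑Q) z1 z2 = 0 := by
    intro z1 hz1 hq1 z2 hz2
    have ha := hval (z2 + z1) (W.add_mem hz2 hz1)
    have hs := hval (z2 - z1) (W.sub_mem hz2 hz1)
    rw [H18.Q_add, hq1, add_zero] at ha
    rw [H18.Q_sub, hq1, add_zero] at hs
    have := z3_f0 c (Q z2) (QuadraticMap.polar (⇑Q) z2 z1) hc (hval z2 hz2) ha hs
    rw [QuadraticMap.polar_comm]; exact this
  set e : Fin n → ZMod 3 :=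
    w - (QuadraticMap.polar (⇑Q) u w * (QuadraticMap.polar (⇑Q) u u)⁻¹) • u with he
  have huu : QuadraticMap.polar (⇑Q) u u ≠ 0 := by
    rw [H49.polar_self']
    exact mul_ne_zero (by decide) hu
  have h2 : ∀ z ∈ W, Q z = 0 → ∃ b : ZMod 3, z = b • e := by
    intro z hz hq
    have hzU : z ∈ U := by
      rw [← LinearMap.BilinForm.orthogonal_orthogonal hQ hrefl U,
        LinearMap.BilinForm.mem_orthogonal_iff]
      intro x hx
      show B x z = 0
      rw [hB, QuadraticMap.polarBilin_apply_apply, QuadraticMap.polar_comm]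
      exact h1 z hz hq x hx
    obtain ⟨a, b, rfl⟩ := Submodule.mem_span_pair.mp hzU
    refine ⟨b, ?_⟩
    have hp := ((memW _).mp hz).1
    rw [QuadraticMap.polar_add_right, QuadraticMap.polar_smul_right,
      QuadraticMap.polar_smul_right] at hp
    simp only [smul_eq_mul] at hp
    have ha : a = - (b * (QuadraticMap.polar (⇑Q) u w * (QuadraticMap.polar (⇑Q) u u)⁻¹)) := by
      field_simp
      linear_combination hp
    rw [ha, he]
    ext i
    simp only [Pi.add_apply, Pi.smul_apply, Pi.sub_apply, smul_eq_mul]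
    ring
  have h3 : ∀ z1 ∈ W, ∀ z2 ∈ W, Q z1 = c → Q z2 = c → Q (z1 + z2) = 0 ∨ Q (z1 - z2) = 0 := by
    intro z1 hz1 z2 hz2 hq1 hq2
    have ha := hval (z1 + z2) (W.add_mem hz1 hz2)
    have hs := hval (z1 - z2) (W.sub_mem hz1 hz2)
    rw [H18.Q_add, hq1, hq2] at ha ⊢
    rw [H18.Q_sub, hq1, hq2] at hs ⊢
    exact z3_pm c _ hc ha hs
  obtain ⟨z0, hz0⟩ : ∃ z0 : Fin n → ZMod 3, ∀ z ∈ W, ∃ a b : ZMod 3, z = a • z0 + b • e := by
    by_cases hex : ∃ z0 ∈ W, Q z0 = c
    · obtain ⟨z0, hz0W, hz0⟩ := hex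
      refine ⟨z0, fun z hz => ?_⟩
      rcases hval z hz with hq | hq
      · obtain ⟨b, hb⟩ := h2 z hz hq
        exact ⟨0, b, by rw [hb]; simp⟩
      · rcases h3 z hz z0 hz0W hq hz0 with h | h
        · obtain ⟨b, hb⟩ := h2 _ (W.add_mem hz hz0W) h
          refine ⟨-1, b, ?_⟩
          rw [← hb]; simp
        · obtain ⟨b, hb⟩ := h2 _ (W.sub_mem hz hz0W) h
          refine ⟨1, b, ?_⟩
          rw [← hb]; simp
    · push Not at hex
      refine ⟨0, fun z hz => ?_⟩
      rcases hval z hz with hq | hq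
      · obtain ⟨b, hb⟩ := h2 z hz hq
        exact ⟨0, b, by rw [hb]; simp⟩
      · exact absurd hq (hex z hz)
  have hcard_le : Nat.card W ≤ 9 := by
    have hsub : (W : Set (Fin n → ZMod 3)) ⊆
        Set.range (fun p : ZMod 3 × ZMod 3 => p.1 • z0 + p.2 • e) := by
      intro z hz
      obtain ⟨a, b, hab⟩ := hz0 z hz
      exact ⟨(a, b), hab.symm⟩
    calc Nat.card W = Nat.card (W : Set (Fin n → ZMod 3)) := rfl
      _ ≤ Nat.card (Set.range (fun p : ZMod 3 × ZMod 3 => p.1 • z0 + p.2 • e)) :=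
          Nat.card_mono (Set.toFinite _) hsub
      _ ≤ Nat.card (ZMod 3 × ZMod 3) := Finite.card_range_le _
      _ = 9 := by rw [Nat.card_prod, Nat.card_zmod]
  have hcard_ge : 27 ≤ Nat.card W := by
    have hfin : Module.finrank (ZMod 3) W = n - Module.finrank (ZMod 3) U := by
      rw [hW, LinearMap.BilinForm.finrank_orthogonal hQ U, Module.finrank_fintype_fun_eq_card,
        Fintype.card_fin]
    have hU2 : Module.finrank (ZMod 3) U ≤ 2 := by
      have := finrank_span_finset_le_card (R := ZMod 3) ({u, w} : Finset (Fin n → ZMod 3))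
      rw [Finset.coe_insert, Finset.coe_singleton] at this
      exact this.trans Finset.card_le_two
    have hW3 : 3 ≤ Module.finrank (ZMod 3) W := by omega
    rw [Module.natCard_eq_pow_finrank (K := ZMod 3), Nat.card_zmod]
    calc 27 = 3 ^ 3 := by norm_num
      _ ≤ 3 ^ _ := Nat.pow_le_pow_right (by norm_num) hW3
  omega

theorem reflG_mem (c : ZMod 3) (v : Fin n → ZMod 3) (hv : Q v = c) :
    H49.reflG Q v ∈ Cfsg.reflectionSubgroup (⇑Q) c :=
  Subgroup.subset_closure ⟨v, hv, rfl⟩

/-- Product of two reflections in perpendicular vectors of norm `-c`. -/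
theorem refl_mul_orth (c : ZMod 3) (u w : Fin n → ZMod 3) (hu : Q u = -c)
    (hw : Q w = -c) (huw : QuadraticMap.polar (⇑Q) u w = 0) :
    H49.reflG Q u * H49.reflG Q w = H49.reflG Q (u + w) * H49.reflG Q (u - w) := by
  have h1 : Q (u + w) = c := by rw [H18.Q_add, hu, hw, huw]; exact z3_sum c
  have h2 : Q (u - w) = c := by rw [H18.Q_sub, hu, hw, huw]; exact z3_diff c
  have hwu : QuadraticMap.polar (⇑Q) w u = 0 := by rw [QuadraticMap.polar_comm]; exact huw
  have h3 : (3 : ZMod 3) = 0 := by decide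
  apply H49.isometry_ext
  intro x
  rw [H49.coe_mul_mulVec, H49.coe_mul_mulVec]
  simp only [H49.reflG_coe, H49.reflectionMatrix_mulVec, h1, h2, hu, hw,
    QuadraticMap.polar_add_left, QuadraticMap.polar_sub_left, QuadraticMap.polar_sub_right,
    QuadraticMap.polar_smul_right, H49.polar_self', huw, hwu,
    smul_eq_mul, inv_neg]
  ext i
  simp only [Pi.add_apply, Pi.smul_apply, Pi.sub_apply, smul_eq_mul]
  linear_combination (c⁻¹ * (QuadraticMap.polar (⇑Q) u x * u i
    + QuadraticMap.polar (⇑Q) w x * w i)) * h3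

/-- Product of two reflections of norm `-c` lies in the reflection subgroup of norm `c`. -/
theorem refl_mul_mem (hn : 5 ≤ n) (hQ : (QuadraticMap.polarBilin Q).Nondegenerate) (c : ZMod 3)
    (hc : c ≠ 0) (u w : Fin n → ZMod 3) (hu : Q u = -c) (hw : Q w = -c) :
    H49.reflG Q u * H49.reflG Q w ∈ Cfsg.reflectionSubgroup (⇑Q) c := by
  have horth : ∀ a b : Fin n → ZMod 3, Q a = -c → Q b = -c → QuadraticMap.polar (⇑Q) a b = 0 →
      H49.reflG Q a * H49.reflG Q b ∈ Cfsg.reflectionSubgroup (⇑Q) c := by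
    intro a b ha hb hab
    rw [refl_mul_orth Q c a b ha hb hab]
    exact Subgroup.mul_mem _
      (reflG_mem Q c _ (by rw [H18.Q_add, ha, hb, hab]; exact z3_sum c))
      (reflG_mem Q c _ (by rw [H18.Q_sub, ha, hb, hab]; exact z3_diff c))
  have hu0 : Q u ≠ 0 := by rw [hu]; simpa using hc
  obtain ⟨z, hz, hzu, hzw⟩ := exists_perp Q hn hQ c hc u w hu0
  have : H49.reflG Q u * H49.reflG Q w
      = (H49.reflG Q u * H49.reflG Q z) * (H49.reflG Q z * H49.reflG Q w) := by
    rw [mul_assoc, ← mul_assoc (H49.reflG Q z), H49.reflG_mul_self, one_mul]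
  rw [this]
  exact Subgroup.mul_mem _ (horth u z hu hz hzu)
    (horth z w hz hw (by rw [QuadraticMap.polar_comm]; exact hzw))

/-- The sign of the determinant. -/
noncomputable def sgnDet : ↥(Cfsg.isometryGroup (ZMod 3) (⇑Q)) →* ℤˣ :=
  (quadraticChar (ZMod 3)).toUnitHom.comp (H18.detHom Q)

theorem sgnDet_reflG (v : Fin n → ZMod 3) (hv : Q v ≠ 0) : sgnDet Q (H49.reflG Q v) = -1 := by
  unfold sgnDet
  rw [MonoidHom.comp_apply, H18.detHom_reflG Q v hv]
  apply Units.ext
  rw [MulChar.coe_toUnitHom]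
  decide

/-- A character which is trivial exactly on the reflections of norm `c`. -/
theorem exists_char (c : ZMod 3) (hc : c ≠ 0) :
    ∃ χ : ↥(Cfsg.isometryGroup (ZMod 3) (⇑Q)) →* ℤˣ, ∀ v : Fin n → ZMod 3, Q v ≠ 0 →
      χ (H49.reflG Q v) = if Q v = c then 1 else -1 := by
  have h2 : (2 : ZMod 3) ≠ 0 := by decide
  have hc12 : c = 1 ∨ c = 2 := by revert c; decide
  rcases hc12 with rfl | rfl
  · refine ⟨H49.spinSign Q * sgnDet Q, fun v hv => ?_⟩
    rw [MonoidHom.mul_apply, H49.spinSign_reflG Q h2 v hv, sgnDet_reflG Q v hv]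
    have hq : Q v = 1 ∨ Q v = 2 := by revert hv; generalize Q v = q; revert q; decide
    rcases hq with hq | hq
    · rw [hq, if_pos (by decide), if_pos rfl]; decide
    · rw [hq, if_neg (by decide), if_neg (by decide)]; decide
  · refine ⟨H49.spinSign Q, fun v hv => ?_⟩
    rw [H49.spinSign_reflG Q h2 v hv]
    have hq : Q v = 1 ∨ Q v = 2 := by revert hv; generalize Q v = q; revert q; decide
    rcases hq with hq | hq
    · rw [hq, if_pos (by decide), if_neg (by decide)]
    · rw [hq, if_neg (by decide), if_pos rfl]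

end

/-- Let Q be a non-degenerate quadratic form on the n-dimensional coordinate space over the field with three elements, n odd and at least 5, and c a non-zero scalar. Then the subgroup of the isometry group of Q generated by the reflections in vectors of norm c has index 2 in the isometry group. -/
theorem result (n : ℕ) (hn : 5 ≤ n) (hodd : Odd n) (Q : QuadraticForm (ZMod 3) (Fin n → ZMod 3)) (hQ : (QuadraticMap.polarBilin Q).Nondegenerate) (c : ZMod 3) (hc : c ≠ 0) : (Cfsg.reflectionSubgroup (⇑Q) c).index = 2 := by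
  have h2 : (2 : ZMod 3) ≠ 0 := by decide
  obtain ⟨χ, hχ⟩ := exists_char Q c hc
  set N := Cfsg.reflectionSubgroup (⇑Q) c with hN
  have hle : N ≤ χ.ker := by
    rw [hN, Cfsg.reflectionSubgroup, Subgroup.closure_le]
    rintro g ⟨v, hv, hg⟩
    have hgv : g = H49.reflG Q v := Subtype.ext (Units.ext hg)
    rw [SetLike.mem_coe, MonoidHom.mem_ker, hgv, hχ v (by rw [hv]; exact hc), if_pos hv]
  obtain ⟨u0, hu0⟩ := H18.exists_norm_eq Q h2 hQ (by rw [Fintype.card_fin]; omega) (-c)
  have hu00 : Q u0 ≠ 0 := by rw [hu0]; simpa using hc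
  have hu0c : Q u0 ≠ c := by
    rw [hu0]; exact z3_ne c hc
  have hχu0 : χ (H49.reflG Q u0) = -1 := by rw [hχ u0 hu00, if_neg hu0c]
  have key : ∀ vs : List (Fin n → ZMod 3), (∀ v ∈ vs, Q v ≠ 0) →
      (χ ((vs.map (H49.reflG Q)).prod) = 1 → (vs.map (H49.reflG Q)).prod ∈ N) ∧
      (χ ((vs.map (H49.reflG Q)).prod) = -1 →
        H49.reflG Q u0 * (vs.map (H49.reflG Q)).prod ∈ N) := by
    intro vs
    induction vs with
    | nil =>
      intro _
      refine ⟨fun _ => by simp [one_mem], fun h => ?_⟩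
      rw [List.map_nil, List.prod_nil, map_one] at h
      exact absurd h (by decide)
    | cons v vs ih =>
      intro hvs
      have hv : Q v ≠ 0 := hvs v (by simp)
      obtain ⟨ih1, ih2⟩ := ih (fun w hw => hvs w (by simp [hw]))
      rw [List.map_cons, List.prod_cons, map_mul, hχ v hv]
      set p := (vs.map (H49.reflG Q)).prod with hp
      by_cases hvc : Q v = c
      · rw [if_pos hvc, one_mul]
        refine ⟨fun h => N.mul_mem (reflG_mem Q c v hvc) (ih1 h), fun h => ?_⟩
        have hconj : H49.reflG Q u0 * H49.reflG Q v * (H49.reflG Q u0)⁻¹ ∈ N := by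
          rw [H49.conj_reflG]
          exact reflG_mem Q c _ ((H49.isometry_apply (H49.reflG Q u0) v).trans hvc)
        have : H49.reflG Q u0 * (H49.reflG Q v * p)
            = (H49.reflG Q u0 * H49.reflG Q v * (H49.reflG Q u0)⁻¹) * (H49.reflG Q u0 * p) := by
          group
        rw [this]; exact N.mul_mem hconj (ih2 h)
      · have hvc' : Q v = -c := z3_neg c (Q v) hc hv hvc
        rw [if_neg hvc]
        refine ⟨fun h => ?_, fun h => ?_⟩
        · have hp' : χ p = -1 := by
            rcases Int.units_eq_one_or (χ p) with h' | h'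
            · rw [h'] at h; exact absurd h (by decide)
            · exact h'
          have : H49.reflG Q v * p
              = (H49.reflG Q v * H49.reflG Q u0) * (H49.reflG Q u0 * p) := by
            rw [mul_assoc, ← mul_assoc (H49.reflG Q u0), H49.reflG_mul_self, one_mul]
          rw [this]
          exact N.mul_mem (refl_mul_mem Q hn hQ c hc v u0 hvc' hu0) (ih2 hp')
        · have hp' : χ p = 1 := by
            rcases Int.units_eq_one_or (χ p) with h' | h'
            · exact h'
            · rw [h'] at h; exact absurd h (by decide)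
          rw [← mul_assoc]
          exact N.mul_mem (refl_mul_mem Q hn hQ c hc u0 v hu0 hvc') (ih1 hp')
  have hge : χ.ker ≤ N := by
    intro g hg
    obtain ⟨vs, hvs, rfl⟩ := H18.exists_vectors Q h2 hQ g
    exact (key vs hvs).1 (MonoidHom.mem_ker.mp hg)
  have heq : N = χ.ker := le_antisymm hle hge
  rw [heq, Subgroup.index_ker]
  have hr : χ.range = ⊤ := by
    rw [eq_top_iff]
    intro x _
    rcases Int.units_eq_one_or x with rfl | rfl
    · exact one_mem _
    · exact ⟨H49.reflG Q u0, hχu0⟩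
  rw [hr, Subgroup.card_top, Nat.card_eq_fintype_card, Fintype.card_units_int]

end Cfsg.Agent.S5359
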