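import Cfsg.Statements.S5360
import Cfsg.Agent.H91.ReflF3
import Cfsg.Agent.H91.TTPrim2
import Cfsg.Agent.S5349
import Cfsg.Agent.S5350
import Cfsg.Agent.S5352
import Cfsg.Agent.S5353

set_option autoImplicit false
open scoped MatrixGroups
open Cfsg
open scoped Matrix

namespace Cfsg.Agent.S5360
open Cfsg.Agent.H91

/-- Let Q be a non-degenerate quadratic form on the n-dimensional coordinate space over the field with three elements, n ≥ 5, c a non-zero scalar, and R the subgroup of the isometry group generated by the reflections of norm c. Then the commutator subgroup of R is quasisimple of index at most 2, the generalized Fitting subgroup of R is the product of the centre and the commutator subgroup, and R acts primitively by conjugation on its reflections of norm c. -/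
theorem result (n : ℕ) (hn : 5 ≤ n) (Q : QuadraticForm (ZMod 3) (Fin n → ZMod 3)) (hQ : (QuadraticMap.polarBilin Q).Nondegenerate) (c : ZMod 3) (hc : c ≠ 0) : Cfsg.IsQuasisimple (commutator ↥(Cfsg.reflectionSubgroup (⇑Q) c)) ∧ (commutator ↥(Cfsg.reflectionSubgroup (⇑Q) c)).index ≤ 2 ∧ Cfsg.generalizedFittingSubgroup ↥(Cfsg.reflectionSubgroup (⇑Q) c) = Subgroup.center ↥(Cfsg.reflectionSubgroup (⇑Q) c) ⊔ commutator ↥(Cfsg.reflectionSubgroup (⇑Q) c) ∧ Cfsg.IsPrimitiveUnderConj {g : ↥(Cfsg.reflectionSubgroup (⇑Q) c) | (g : ↥(Cfsg.isometryGroup (ZMod 3) (⇑Q))) ∈ Cfsg.reflectionsOfNorm (⇑Q) c} := by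
  have hDcls := Cfsg.Agent.S5357.result n hn Q hQ c hc
  obtain ⟨mat, hmat⟩ : ∃ mat : ↥(Cfsg.reflectionSubgroup (⇑Q) c) → Matrix (Fin n) (Fin n) (ZMod 3),
      mat = fun g : ↥(Cfsg.reflectionSubgroup (⇑Q) c) =>
        (((g : ↥(Cfsg.isometryGroup (ZMod 3) (⇑Q))) : GL (Fin n) (ZMod 3)) :
          Matrix (Fin n) (Fin n) (ZMod 3)) := ⟨_, rfl⟩
  have hext : ∀ g h : ↥(Cfsg.reflectionSubgroup (⇑Q) c), mat g = mat h → g = h := by
    intro g h hgh
    rw [hmat] at hgh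
    exact Subtype.ext (Subtype.ext (Units.ext hgh))
  have hmul : ∀ a b : ↥(Cfsg.reflectionSubgroup (⇑Q) c), mat (a * b) = mat a * mat b := by
    intro a b; rw [hmat]; rfl
  obtain ⟨D, hDdef⟩ : ∃ D : Set ↥(Cfsg.reflectionSubgroup (⇑Q) c),
      D = {g : ↥(Cfsg.reflectionSubgroup (⇑Q) c) |
        (g : ↥(Cfsg.isometryGroup (ZMod 3) (⇑Q))) ∈ Cfsg.reflectionsOfNorm (⇑Q) c} := ⟨_, rfl⟩
  rw [← hDdef]
  rw [← hDdef] at hDcls
  have hDmem : ∀ g : ↥(Cfsg.reflectionSubgroup (⇑Q) c),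
      g ∈ D ↔ ∃ v : Fin n → ZMod 3, Q v = c ∧ mat g = Cfsg.reflectionMatrix (⇑Q) v := by
    intro g; rw [hDdef, hmat]; rfl
  have hne0 : ∀ v : Fin n → ZMod 3, Q v = c → Q v ≠ 0 := fun v hv => by rw [hv]; exact hc
  have hcomm : ∀ g h : ↥(Cfsg.reflectionSubgroup (⇑Q) c), ∀ u v : Fin n → ZMod 3,
      mat g = Cfsg.reflectionMatrix (⇑Q) u → mat h = Cfsg.reflectionMatrix (⇑Q) v →
      QuadraticMap.polar (⇑Q) u v = 0 → Commute g h := by
    intro g h u v hg hh huv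
    apply hext
    rw [hmul, hmul, hg, hh]
    exact Cfsg.Agent.S5357.refl_comm n Q u v huv
  have hmk : ∀ v : Fin n → ZMod 3, Q v = c →
      ∃ g : ↥(Cfsg.reflectionSubgroup (⇑Q) c), g ∈ D ∧ mat g = Cfsg.reflectionMatrix (⇑Q) v := by
    intro v hv
    have hv0 : Q v ≠ 0 := hne0 v hv
    let U : GL (Fin n) (ZMod 3) := ⟨Cfsg.reflectionMatrix (⇑Q) v, Cfsg.reflectionMatrix (⇑Q) v,
      Cfsg.Agent.S5357.refl_sq n Q v hv0, Cfsg.Agent.S5357.refl_sq n Q v hv0⟩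
    have hU : U ∈ Cfsg.isometryGroup (ZMod 3) (⇑Q) := by
      intro a b
      exact Cfsg.Agent.S5357.refl_isometry n Q v hv0 a
    have hR : (⟨U, hU⟩ : ↥(Cfsg.isometryGroup (ZMod 3) (⇑Q))) ∈ Cfsg.reflectionsOfNorm (⇑Q) c :=
      ⟨v, hv, rfl⟩
    refine ⟨⟨⟨U, hU⟩, Subgroup.subset_closure hR⟩, ?_, ?_⟩
    · rw [hDdef]; exact hR
    · rw [hmat]
  -- members with non-orthogonal centres on different lines do not commute
  have hncomm : ∀ g h : ↥(Cfsg.reflectionSubgroup (⇑Q) c), ∀ u v : Fin n → ZMod 3,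
      Q u = c → Q v = c →
      mat g = Cfsg.reflectionMatrix (⇑Q) u → mat h = Cfsg.reflectionMatrix (⇑Q) v →
      v ≠ u → v ≠ -u → QuadraticMap.polar (⇑Q) u v ≠ 0 → g * h ≠ h * g := by
    intro g h u v hu hv hg hh h1 h2 huv hgh
    have hm : Commute (Cfsg.reflectionMatrix (⇑Q) u) (Cfsg.reflectionMatrix (⇑Q) v) := by
      show Cfsg.reflectionMatrix (⇑Q) u * Cfsg.reflectionMatrix (⇑Q) v
        = Cfsg.reflectionMatrix (⇑Q) v * Cfsg.reflectionMatrix (⇑Q) u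
      rw [← hg, ← hh, ← hmul, ← hmul, hgh]
    exact huv ((Cfsg.Agent.S5358.result n Q hQ u v (hne0 u hu) (hu.trans hv.symm) h1 h2).mp hm)
  have hline : ∀ g h : ↥(Cfsg.reflectionSubgroup (⇑Q) c), ∀ u v : Fin n → ZMod 3,
      mat g = Cfsg.reflectionMatrix (⇑Q) u → mat h = Cfsg.reflectionMatrix (⇑Q) v →
      g ≠ h → v ≠ u ∧ v ≠ -u := by
    intro g h u v hg hh hne
    constructor
    · intro e; apply hne; apply hext; rw [hg, hh, e]
    · intro e; apply hne; apply hext; rw [hg, hh, e, reflF3_neg]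
  have hdiff : ∀ g h : ↥(Cfsg.reflectionSubgroup (⇑Q) c), ∀ u v : Fin n → ZMod 3,
      Q u = c → mat g = Cfsg.reflectionMatrix (⇑Q) u → mat h = Cfsg.reflectionMatrix (⇑Q) v →
      QuadraticMap.polar (⇑Q) u v = 0 → g ≠ h := by
    intro g h u v hu hg hh huv e
    apply reflF3_ne_of_polar_zero n Q u v (hne0 u hu) huv
    rw [← hg, ← hh, e]
  have hgen : Subgroup.closure D = ⊤ := hDcls.2.2
  have hD2 : ∃ a ∈ D, ∃ b ∈ D, a ≠ b := by
    obtain ⟨v₀, -, hv₀⟩ := Cfsg.Agent.S5357.exists_perp_norm n 0 Q hQ (by omega)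
      (fun i => Fin.elim0 i) (fun i => Fin.elim0 i) (fun i => Fin.elim0 i) c hc
    obtain ⟨v₁, hv₁p, hv₁⟩ := Cfsg.Agent.S5357.exists_perp_norm n 1 Q hQ (by omega) ![v₀]
      (fun i j hij => absurd (Subsingleton.elim i j) hij)
      (fun i => by fin_cases i; exact hne0 v₀ hv₀) c hc
    obtain ⟨a, haD, ha⟩ := hmk v₀ hv₀
    obtain ⟨b, hbD, hb⟩ := hmk v₁ hv₁
    exact ⟨a, haD, b, hbD, hdiff a b v₀ v₁ hv₀ ha hb (hv₁p 0)⟩
  have h2 : Cfsg.pCore 2 ↥(Cfsg.reflectionSubgroup (⇑Q) c)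
      ≤ Subgroup.center ↥(Cfsg.reflectionSubgroup (⇑Q) c) := by
    intro g hg
    apply mem_center_of_commute_gens hgen
    intro d hd
    have hV := (Cfsg.Agent.S5349.result hDcls hD2 hd).2
    have hmemV : g * d * g⁻¹ ∈ {v : ↥(Cfsg.reflectionSubgroup (⇑Q) c) |
        ∃ g ∈ Cfsg.pCore 2 ↥(Cfsg.reflectionSubgroup (⇑Q) c), v = g * d * g⁻¹} := ⟨g, hg, rfl⟩
    rw [← hV] at hmemV
    obtain ⟨hvD, hvc⟩ := hmemV
    by_contra hne
    have hvd : g * d * g⁻¹ ≠ d := by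
      intro e; apply hne
      calc d * g = (g * d * g⁻¹) * g := by rw [e]
        _ = g * d := by group
    obtain ⟨x, hx, hvx⟩ := (hDmem _).mp hvD
    obtain ⟨y, hy, hdy⟩ := (hDmem d).mp hd
    obtain ⟨hxy1, hxy2⟩ := hline d (g * d * g⁻¹) y x hdy hvx (Ne.symm hvd)
    by_cases hpol : QuadraticMap.polar (⇑Q) x y = 0
    · obtain ⟨e, hQe, hye, hxe, he1, he2⟩ := exists_norm_comm_not n hn Q hQ c hc y x hy hx
        (by rw [QuadraticMap.polar_comm]; exact hpol)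
      obtain ⟨k, hkD, hk⟩ := hmk e hQe
      have h1 : Commute d k := hcomm d k y e hdy hk hye
      have h2 : Commute (g * d * g⁻¹) k := (hvc k hkD).mpr h1
      exact hncomm (g * d * g⁻¹) k x e hx hQe hvx hk he1 he2 hxe h2.eq
    · have h1 : Commute (g * d * g⁻¹) d := (hvc d hd).mpr (Commute.refl d)
      exact hncomm (g * d * g⁻¹) d x y hx hy hvx hdy (fun e => hxy1 e.symm)
        (fun e => hxy2 (by rw [e, neg_neg])) hpol h1.eq
  have h3 : Cfsg.pCore 3 ↥(Cfsg.reflectionSubgroup (⇑Q) c)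
      ≤ Subgroup.center ↥(Cfsg.reflectionSubgroup (⇑Q) c) := by
    intro g hg
    apply mem_center_of_commute_gens hgen
    intro d hd
    have hW := (Cfsg.Agent.S5350.result hDcls hD2 hd).2
    have hmemW : g * d * g⁻¹ ∈ {w : ↥(Cfsg.reflectionSubgroup (⇑Q) c) |
        ∃ g ∈ Cfsg.pCore 3 ↥(Cfsg.reflectionSubgroup (⇑Q) c), w = g * d * g⁻¹} := ⟨g, hg, rfl⟩
    rw [← hW] at hmemW
    obtain ⟨hwD, hset⟩ := hmemW
    by_contra hne
    have hwd : g * d * g⁻¹ ≠ d := by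
      intro e; apply hne
      calc d * g = (g * d * g⁻¹) * g := by rw [e]
        _ = g * d := by group
    obtain ⟨x, hx, hwx⟩ := (hDmem _).mp hwD
    obtain ⟨y, hy, hdy⟩ := (hDmem d).mp hd
    obtain ⟨hxy1, hxy2⟩ := hline d (g * d * g⁻¹) y x hdy hwx (Ne.symm hwd)
    by_cases hpol : QuadraticMap.polar (⇑Q) y x = 0
    · have hin : g * d * g⁻¹ ∈ {y' : ↥(Cfsg.reflectionSubgroup (⇑Q) c) |
          y' ∈ D ∧ y' ≠ d ∧ Commute d y'} := ⟨hwD, hwd, hcomm d _ y x hdy hwx hpol⟩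
      rw [hset] at hin
      exact hin.2.1 rfl
    · obtain ⟨e, hQe, hye, hxe⟩ := exists_norm_perp_not_perp n Q hQ c hc y x hy hx hpol hxy1 hxy2
      obtain ⟨k, hkD, hk⟩ := hmk e hQe
      have hkd : k ≠ d := (hdiff d k y e hy hdy hk hye).symm
      have hin : k ∈ {y' : ↥(Cfsg.reflectionSubgroup (⇑Q) c) |
          y' ∈ D ∧ y' ≠ d ∧ Commute d y'} := ⟨hkD, hkd, hcomm d k y e hdy hk hye⟩
      rw [hset] at hin
      have he1 : e ≠ x := by
        intro h; rw [h] at hye; exact hpol hye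
      have he2 : e ≠ -x := by
        intro h; rw [h, QuadraticMap.polar_neg_right, neg_eq_zero] at hye; exact hpol hye
      exact hncomm (g * d * g⁻¹) k x e hx hQe hwx hk he1 he2 hxe hin.2.2.eq
  have hconn : (Cfsg.commutingGraph D).Connected := by
    obtain ⟨a₀, ha₀, -⟩ := hD2
    have : Nonempty D := ⟨⟨a₀, ha₀⟩⟩
    refine ⟨fun a b => ?_⟩
    obtain ⟨u, hu, hau⟩ := (hDmem a.1).mp a.2
    obtain ⟨v, hv, hbv⟩ := (hDmem b.1).mp b.2
    obtain ⟨e, hQe, hue, hve⟩ := exists_norm_perp_both n hn Q hQ c hc u v hu hv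
    obtain ⟨k, hkD, hk⟩ := hmk e hQe
    have hak : (Cfsg.commutingGraph D).Adj a ⟨k, hkD⟩ := by
      unfold Cfsg.commutingGraph
      rw [SimpleGraph.fromRel_adj]
      exact ⟨fun h => hdiff a.1 k u e hu hau hk hue (congrArg Subtype.val h),
        Or.inl (hcomm a.1 k u e hau hk hue)⟩
    have hkb : (Cfsg.commutingGraph D).Adj ⟨k, hkD⟩ b := by
      unfold Cfsg.commutingGraph
      rw [SimpleGraph.fromRel_adj]
      exact ⟨fun h => hdiff b.1 k v e hv hbv hk hve (congrArg Subtype.val h).symm,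
        Or.inr (hcomm b.1 k v e hbv hk hve)⟩
    exact hak.reachable.trans hkb.reachable
  obtain ⟨L, hLn, hLq, hF, -⟩ := Cfsg.Agent.S5352.result hDcls hD2 h2 h3
  have h53 := Cfsg.Agent.S5353.result hDcls hD2 h2 h3 L hLq hF
  have hidx := h53.2 hconn
  have hprim := h53.1 hidx
  have hLc : Cfsg.IsComponent L := ⟨Subgroup.Normal.isSubnormal hLn, hLq⟩
  have hcm := commutator_eq_of_index_le_two (Cfsg.Agent.H27.isComponent_perfect hLc) hidx
  rw [hcm]
  exact ⟨hLq, hidx, by rw [hF, sup_comm], hprim⟩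

end Cfsg.Agent.S5360
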