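import Cfsg.Statements.S5361
import Cfsg.Agent.H91.TTPrim2
import Cfsg.Agent.S0201

set_option autoImplicit false
open Cfsg

namespace Cfsg.Agent.S5361

open Cfsg.Agent.H91

/-- Let D be a conjugacy class of 3-transpositions generating the finite group G, and suppose the centre of G is trivial and some two different members of D commute. Then the following are equivalent: (1) the commutator subgroup of G is simple (possibly of prime order); (2) G acts primitively on D by conjugation; (3) the largest normal 2-subgroup and the largest normal 3-subgroup of G are trivial and the commuting graph of D is connected. -/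
theorem result {G : Type*} [Group G] [Finite G] {D : Set G} (hD : Cfsg.IsThreeTranspositionClass D) (hZ : Subgroup.center G = ⊥) (hw : ∃ a ∈ D, ∃ b ∈ D, a ≠ b ∧ Commute a b) : (IsSimpleGroup (commutator G) ↔ Cfsg.IsPrimitiveUnderConj D) ∧ (Cfsg.IsPrimitiveUnderConj D ↔ (Cfsg.pCore 2 G = ⊥ ∧ Cfsg.pCore 3 G = ⊥ ∧ (Cfsg.commutingGraph D).Connected)) := by
  have hBS : Cfsg.Agent.H75.BrauerSuzukiStmt :=
    fun _ _ _ S n ⟨e⟩ hO => Cfsg.Agent.S0201.result S n e hO
  have hD2 : ∃ a ∈ D, ∃ b ∈ D, a ≠ b := by
    obtain ⟨a, ha, b, hb, hab, -⟩ := hw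
    exact ⟨a, ha, b, hb, hab⟩
  constructor
  · exact ⟨fun hs => primitive_of_commutator_simple hD hZ hw hs,
      fun hp => commutator_simple_of_primitive hBS hD hZ hw hp⟩
  · constructor
    · intro hp
      refine ⟨?_, ?_, connected_of_primitive hD hw hp⟩
      · have h2 := pCore_two_le_center_of_primitive hD hD2 hp
        rw [hZ] at h2
        exact le_bot_iff.mp h2
      · have h3 := pCore_three_le_center_of_primitive hD hw hp
        rw [hZ] at h3
        exact le_bot_iff.mp h3
    · rintro ⟨h2, h3, hconn⟩
      have h2' : Cfsg.pCore 2 G ≤ Subgroup.center G := by rw [h2]; exact bot_le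
      have h3' : Cfsg.pCore 3 G ≤ Subgroup.center G := by rw [h3]; exact bot_le
      obtain ⟨L, hL, hLn, -⟩ := exists_component_eq_layer hBS hD hD2 h2' h3'
      have hD2' := hD2
      obtain ⟨d, hd, -⟩ := hD2'
      have hidx := index_le_two_of_connected hD hL hd hconn
      have hFZ := (fitting_eq_center (pCore_le_center_of_two_three hD h2' h3')).le
      exact primitive_of_component hD hD2 hFZ hL hidx

end Cfsg.Agent.S5361
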