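import Cfsg.Statements.S5363

set_option autoImplicit false
open Cfsg

namespace Cfsg.Agent.S5363

theorem sq_one_of_order_two {G : Type*} [Group G] {d : G} (h : orderOf d = 2) : d * d = 1 := by
  rw [← pow_two, ← h]; exact pow_orderOf_eq_one d

theorem commute_of_order_two {G : Type*} [Group G] {a y : G} (ha : a * a = 1) (hy : y * y = 1)
    (h : orderOf (a * y) = 2) : Commute a y := by
  have h1 : (a * y) * (a * y) = 1 := sq_one_of_order_two h
  show a * y = y * a
  calc a * y = (a * y) * ((a * y) * (y * a)) := by
        have : (a * y) * (y * a) = 1 := by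
          calc (a * y) * (y * a) = a * (y * y) * a := by group
            _ = 1 := by rw [hy, mul_one, ha]
        rw [this, mul_one]
    _ = ((a * y) * (a * y)) * (y * a) := by group
    _ = y * a := by rw [h1, one_mul]

/-- if `a`, `b` are distinct commuting involutions and `y` commutes with `a * b`, then the orders of
`a * y` and `b * y` are not both odd. -/
theorem not_both_odd {G : Type*} [Group G] {a b y : G} (ha2 : a * a = 1) (hb2 : b * b = 1)
    (hba : b ≠ a) (hab : Commute a b) (hty : Commute (a * b) y)
    (h1 : Odd (orderOf (a * y))) (h2 : Odd (orderOf (b * y))) : False := by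
  have hta : Commute (a * b) a := (Commute.refl a).mul_left hab.symm
  have htay : Commute (a * b) (a * y) := hta.mul_right hty
  have hby : b * y = (a * b) * (a * y) := by
    calc b * y = (a * a) * b * y := by rw [ha2, one_mul]
      _ = a * (a * b) * y := by group
      _ = a * (b * a) * y := by rw [hab.eq]
      _ = (a * b) * (a * y) := by group
  have hpow : (b * y) ^ (orderOf (a * y) * orderOf (b * y)) = 1 := by
    rw [mul_comm, pow_mul, pow_orderOf_eq_one, one_pow]
  rw [hby, htay.mul_pow, pow_mul (a * y), pow_orderOf_eq_one, one_pow, mul_one] at hpow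
  have hodd : Odd (orderOf (a * y) * orderOf ((a * b) * (a * y))) := by
    rw [← hby]; exact h1.mul h2
  obtain ⟨k, hk⟩ := hodd
  have hab2 : (a * b) * (a * b) = 1 := by
    calc (a * b) * (a * b) = a * (b * a) * b := by group
      _ = a * (a * b) * b := by rw [hab.eq]
      _ = (a * a) * (b * b) := by group
      _ = 1 := by rw [ha2, hb2, one_mul]
  rw [hk, pow_succ, pow_mul, pow_two, hab2, one_pow, one_mul] at hpow
  apply hba
  calc b = (a * a) * b := by rw [ha2, one_mul]
    _ = a * (a * b) := by group
    _ = a := by rw [hpow, mul_one]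

theorem dih_pow {G : Type*} [Group G] {a r : G} (ha2 : a * a = 1) (hara : a * r * a = r⁻¹) :
    ∀ j : ℕ, a * r ^ j * a = (r ^ j)⁻¹ := by
  intro j
  induction j with
  | zero => simpa using ha2
  | succ j ih =>
    calc a * r ^ (j + 1) * a = a * r ^ j * 1 * r * a := by rw [pow_succ]; simp [mul_assoc]
      _ = a * r ^ j * (a * a) * r * a := by rw [ha2]
      _ = (a * r ^ j * a) * (a * r * a) := by simp [mul_assoc]
      _ = (r ^ (j + 1))⁻¹ := by rw [ih, hara, pow_succ', mul_inv_rev]

theorem dih_mem {G : Type*} [Group G] {D : Set G} (hconj : ∀ g : G, ∀ d ∈ D, g * d * g⁻¹ ∈ D)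
    {a r : G} (ha2 : a * a = 1) (hara : a * r * a = r⁻¹) (ha : a ∈ D) (hb : a * r ∈ D) :
    ∀ j : ℕ, a * r ^ j ∈ D ∧ a * r ^ (j + 1) ∈ D := by
  intro j
  induction j with
  | zero =>
    exact ⟨by simpa using ha, by simpa using hb⟩
  | succ j ih =>
    refine ⟨ih.2, ?_⟩
    have h1 := hconj r⁻¹ _ ih.1
    have : r⁻¹ * (a * r ^ j) * r⁻¹⁻¹ = a * r ^ (j + 1 + 1) := by
      rw [inv_inv]
      have h2 : r⁻¹ * a = a * r := by
        rw [← hara]
        calc a * r * a * a = a * r * (a * a) := by simp [mul_assoc]
          _ = a * r := by rw [ha2, mul_one]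
      calc r⁻¹ * (a * r ^ j) * r = (r⁻¹ * a) * r ^ j * r := by simp [mul_assoc]
        _ = a * r * r ^ j * r := by rw [h2]
        _ = a * r ^ (j + 1 + 1) := by rw [pow_succ, pow_succ' r j]; simp [mul_assoc]
    rw [this] at h1; exact h1

/-- Let D be a conjugation-invariant set of involutions of a finite group G. Then every product of two members of D has odd order or order 2 if and only if, for every a in D and every b in D different from a and commuting with a, the members of D commuting with a b are exactly those commuting with both a and b. -/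
theorem result {G : Type*} [Group G] [Finite G] {D : Set G} (hinv : ∀ d ∈ D, orderOf d = 2) (hconj : ∀ g : G, ∀ d ∈ D, g * d * g⁻¹ ∈ D) : (∀ a ∈ D, ∀ b ∈ D, Odd (orderOf (a * b)) ∨ orderOf (a * b) = 2) ↔ ∀ a ∈ D, ∀ b ∈ D, b ≠ a → Commute a b → {y : G | y ∈ D ∧ Commute (a * b) y} = {y : G | y ∈ D ∧ Commute a y} ∩ {y : G | y ∈ D ∧ Commute b y} := by
  constructor
  · intro h a ha b hb hba hab
    have ha2 := sq_one_of_order_two (hinv a ha)
    have hb2 := sq_one_of_order_two (hinv b hb)
    ext y
    constructor
    · rintro ⟨hy, hty⟩
      have hy2 := sq_one_of_order_two (hinv y hy)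
      have hor : Commute a y ∨ Commute b y := by
        rcases h a ha y hy with h1 | h1
        · rcases h b hb y hy with h2 | h2
          · exact (not_both_odd ha2 hb2 hba hab hty h1 h2).elim
          · exact Or.inr (commute_of_order_two hb2 hy2 h2)
        · exact Or.inl (commute_of_order_two ha2 hy2 h1)
      rcases hor with hay | hby
      · refine ⟨⟨hy, hay⟩, ⟨hy, ?_⟩⟩
        have : b = a * (a * b) := by
          calc b = (a * a) * b := by rw [ha2, one_mul]
            _ = a * (a * b) := by group
        rw [this]
        exact hay.mul_left hty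
      · refine ⟨⟨hy, ?_⟩, ⟨hy, hby⟩⟩
        have : a = (a * b) * b := by
          calc a = a * (b * b) := by rw [hb2, mul_one]
            _ = (a * b) * b := by group
        rw [this]
        exact hty.mul_left hby
    · rintro ⟨⟨hy, hay⟩, ⟨-, hby⟩⟩
      exact ⟨hy, hay.mul_left hby⟩
  · intro h a ha b hb
    have ha2 := sq_one_of_order_two (hinv a ha)
    have hb2 := sq_one_of_order_two (hinv b hb)
    rcases Nat.even_or_odd (orderOf (a * b)) with he | ho
    · right
      obtain ⟨k, hk⟩ := he
      have hpos : 0 < orderOf (a * b) := orderOf_pos (a * b)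
      have hk0 : 0 < k := by omega
      obtain ⟨r, hr⟩ : ∃ r, r = a * b := ⟨_, rfl⟩
      rw [← hr] at hk hpos ⊢
      have hrinv : r⁻¹ = b * a := by
        rw [hr]
        apply inv_eq_of_mul_eq_one_right
        calc (a * b) * (b * a) = a * (b * b) * a := by group
          _ = 1 := by rw [hb2, mul_one, ha2]
      have hara : a * r * a = r⁻¹ := by
        rw [hrinv, hr]
        calc a * (a * b) * a = (a * a) * b * a := by group
          _ = b * a := by rw [ha2, one_mul]
      have hbrb : b * r * b = r⁻¹ := by
        rw [hrinv, hr]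
        calc b * (a * b) * b = b * a * (b * b) := by group
          _ = b * a := by rw [hb2, mul_one]
      have har : a * r = b := by
        rw [hr]
        calc a * (a * b) = (a * a) * b := by group
          _ = b := by rw [ha2, one_mul]
      have key := dih_mem hconj ha2 hara ha (by rw [har]; exact hb)
      have hrk : r ^ k * r ^ k = 1 := by
        rw [← pow_add, ← hk]; exact pow_orderOf_eq_one r
      have hrk1 : r ^ k ≠ 1 := by
        intro h1
        have := orderOf_dvd_of_pow_eq_one h1
        have := Nat.le_of_dvd hk0 this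
        omega
      have ha' : a * r ^ k ∈ D := (key k).1
      have hprod : a * (a * r ^ k) = r ^ k := by
        calc a * (a * r ^ k) = (a * a) * r ^ k := by group
          _ = r ^ k := by rw [ha2, one_mul]
      have hne : a * r ^ k ≠ a := by
        intro h1
        apply hrk1
        rw [← hprod, h1, ha2]
      have hrkinv : (r ^ k)⁻¹ = r ^ k := inv_eq_of_mul_eq_one_right hrk
      have hcomm : Commute a (a * r ^ k) := by
        show a * (a * r ^ k) = a * r ^ k * a
        rw [dih_pow ha2 hara k, hrkinv, hprod]
      have hset := h a ha (a * r ^ k) ha' hne hcomm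
      rw [hprod] at hset
      have hbmem : b ∈ {y : G | y ∈ D ∧ Commute (r ^ k) y} := by
        refine ⟨hb, ?_⟩
        show r ^ k * b = b * r ^ k
        have h1 := dih_pow hb2 hbrb k
        rw [hrkinv] at h1
        calc r ^ k * b = (b * r ^ k * b) * b := by rw [h1]
          _ = b * r ^ k * (b * b) := by group
          _ = b * r ^ k := by rw [hb2, mul_one]
      rw [hset] at hbmem
      have hab : Commute a b := hbmem.1.2
      have hr2 : r ^ 2 = 1 := by
        rw [pow_two, hr]
        calc (a * b) * (a * b) = a * (b * a) * b := by group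
          _ = a * (a * b) * b := by rw [hab.eq]
          _ = (a * a) * (b * b) := by group
          _ = 1 := by rw [ha2, hb2, one_mul]
      have hdvd := orderOf_dvd_of_pow_eq_one hr2
      have hle := Nat.le_of_dvd (by norm_num) hdvd
      omega
    · left; exact ho

end Cfsg.Agent.S5363
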