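import Cfsg.Statements.S5366
import Cfsg.Agent.H91.Fischer

set_option autoImplicit false
open Cfsg

namespace Cfsg.Agent.S5366

open Cfsg.LineSystem Cfsg.Agent.H91

theorem span_isSubspace {X : Type*} (L : Set (Set X)) (S : Set X) : IsSubspace L (span L S) := by
  intro l hl x hx y hy hxy hxl hyl z hz T hT
  exact hT.2 l hl x (hx T hT) y (hy T hT) hxy hxl hyl hz

theorem subset_span {X : Type*} (L : Set (Set X)) (S : Set X) : S ⊆ span L S := by
  intro x hx T hT
  exact hT.1 hx

/-- a three-point line through two different points `x`, `y` is `{x, y, z}` -/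
theorem line_eq {X : Type*} (L : Set (Set X)) (h3 : ∀ l ∈ L, l.ncard = 3) {l : Set X} (hl : l ∈ L)
    {x y : X} (hx : x ∈ l) (hy : y ∈ l) (hxy : x ≠ y) : ∃ z, z ≠ x ∧ z ≠ y ∧ l = {x, y, z} := by
  obtain ⟨a, b, c, hab, hac, hbc, rfl⟩ := Set.ncard_eq_three.mp (h3 l hl)
  rcases hx with hx | hx | hx <;> rcases hy with hy | hy | hy
  · exact absurd (hx.trans hy.symm) hxy
  · rw [hx, hy]; exact ⟨c, hac.symm, hbc.symm, rfl⟩
  · have hy' : y = c := hy
    rw [hx, hy']; exact ⟨b, hab.symm, hbc, by ext w; simp; tauto⟩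
  · rw [hx, hy]; exact ⟨c, hbc.symm, hac.symm, by ext w; simp; tauto⟩
  · exact absurd (hx.trans hy.symm) hxy
  · have hy' : y = c := hy
    rw [hx, hy']; exact ⟨a, hab, hac, by ext w; simp; tauto⟩
  · have hx' : x = c := hx
    rw [hx', hy]; exact ⟨b, hbc, hab.symm, by ext w; simp; tauto⟩
  · have hx' : x = c := hx
    rw [hx', hy]; exact ⟨a, hac, hab, by ext w; simp; tauto⟩
  · have hx' : x = c := hx
    have hy' : y = c := hy
    exact absurd (hx'.trans hy'.symm) hxy

theorem third_restrict {X : Type*} {L : Set (Set X)} {P : Set X} {x a b : X} (hx : x ∈ P)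
    (ha : a ∈ P) (hb : b ∈ P) (h : Third L x a b) :
    Third (restrict L P) (⟨x, hx⟩ : P) ⟨a, ha⟩ ⟨b, hb⟩ := by
  rcases h with ⟨h1, h2, h3, h4⟩ | ⟨h1, h2⟩
  · left
    refine ⟨fun h => h1 (congrArg Subtype.val h), fun h => h2 (congrArg Subtype.val h),
      fun h => h3 (congrArg Subtype.val h), ?_⟩
    refine ⟨{x, a, b}, h4, ?_, ?_⟩
    · intro w hw
      rcases hw with h | h | h
      · rw [h]; exact hx
      · rw [h]; exact ha
      · have h' : w = b := h
        rw [h']; exact hb
    · ext y
      simp [Subtype.ext_iff]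
  · right
    refine ⟨?_, Subtype.ext h2⟩
    rintro ⟨z, hz1, hz2, hz3, l₀, hl₀, hl₀P, heq⟩
    apply h1
    refine ⟨z.val, fun h => hz1 (Subtype.ext h), fun h => hz2 (Subtype.ext h),
      fun h => hz3 (Subtype.ext h), ?_⟩
    have hl₀eq : l₀ = {x, a, z.val} := by
      ext w
      constructor
      · intro hw
        have hwP : w ∈ P := hl₀P hw
        have hmem : (⟨w, hwP⟩ : P) ∈ ({⟨x, hx⟩, ⟨a, ha⟩, z} : Set P) := by rw [heq]; exact hw
        rcases hmem with h | h | h
        · left; exact congrArg Subtype.val h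
        · right; left; exact congrArg Subtype.val h
        · right; right
          have h' : (⟨w, hwP⟩ : P) = z := h
          exact congrArg Subtype.val h'
      · intro hw
        rcases hw with h | h | h
        · have hmem : (⟨x, hx⟩ : P) ∈ {y : P | (y : X) ∈ l₀} := by rw [← heq]; simp
          rw [h]; exact hmem
        · have hmem : (⟨a, ha⟩ : P) ∈ {y : P | (y : X) ∈ l₀} := by rw [← heq]; simp
          rw [h]; exact hmem
        · have hmem : z ∈ {y : P | (y : X) ∈ l₀} := by rw [← heq]; simp
          have h' : w = z.val := h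
          rw [h']; exact hmem
    rw [← hl₀eq]; exact hl₀

/-- Let L be a nondegenerate Fischer space on the point type X (every point on a line). Then for every point x the map t(x) — sending a point collinear with x to the third point of their common line and fixing every other point — is a permutation of X of order 2 and an automorphism of the line system; and the set of all t(x) satisfies the 3-transposition order conditions in the permutation group of X (any two have product of order at most 3). -/
theorem result {X : Type*} (L : Set (Set X)) (hL : Cfsg.IsFischerSpace L) (hnd : Cfsg.LineSystem.IsNondegenerate L) : (∀ x : X, ∃ σ : Equiv.Perm X, ⇑σ = Cfsg.LineSystem.lineMap L x ∧ orderOf σ = 2 ∧ Cfsg.LineSystem.IsIso L L σ) ∧ Cfsg.IsThreeTranspositionSet {σ : Equiv.Perm X | ∃ x : X, ⇑σ = Cfsg.LineSystem.lineMap L x} := by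
  obtain ⟨hPL, h3, hplane⟩ := hL
  obtain ⟨t, ht⟩ : ∃ t : X → X → X, t = lineMap L := ⟨_, rfl⟩
  have hT : ∀ x y, Third L x y (t x y) := by rw [ht]; exact third_lineMap L
  have hTu : ∀ x y b, Third L x y b → t x y = b := fun x y b h => third_unique hPL (hT x y) h
  have htxx : ∀ x, t x x = x := by
    intro x
    apply hTu
    right
    exact ⟨by rintro ⟨z, _, _, h, _⟩; exact h rfl, rfl⟩
  have hline : ∀ x y z, z ≠ x → z ≠ y → x ≠ y → ({x, y, z} : Set X) ∈ L → t x y = z := by
    intro x y z h1 h2 h3 h4
    exact hTu x y z (Or.inl ⟨h1, h2, h3, h4⟩)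
  have hinv : ∀ x y, t x (t x y) = y := by
    intro x y
    rcases hT x y with ⟨h1, h2, h3', h4⟩ | ⟨h1, h2⟩
    · apply hline x (t x y) y h3'.symm h2.symm h1.symm
      rw [Set.pair_comm (t x y) y]; exact h4
    · rw [h2]; exact h2
  have tinj : ∀ x, Function.Injective (t x) := fun x =>
    Function.LeftInverse.injective (hinv x)
  obtain ⟨S, hS⟩ : ∃ S : X → Equiv.Perm X, ∀ x y, S x y = t x y :=
    ⟨fun x => ⟨t x, t x, hinv x, hinv x⟩, fun _ _ => rfl⟩
  have hSS : ∀ x, S x * S x = 1 := by
    intro x; ext y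
    rw [Equiv.Perm.mul_apply, hS, hS, hinv]; rfl
  have hmem : ∀ x, ∀ l ∈ L, x ∈ l → ∀ a ∈ l, t x a ∈ l := by
    intro x l hl hxl a ha
    by_cases hax : a = x
    · rw [hax, htxx]; exact hxl
    · obtain ⟨z, hzx, hza, hleq⟩ := line_eq L h3 hl hxl ha (Ne.symm hax)
      rw [hline x a z hzx hza (Ne.symm hax) (hleq ▸ hl), hleq]; simp
  have hSne : ∀ x, S x ≠ 1 := by
    intro x h
    obtain ⟨l, hl, hxl⟩ := hnd x
    obtain ⟨a, b, c, hab, hac, hbc, hlabc⟩ := Set.ncard_eq_three.mp (h3 l hl)
    obtain ⟨y, hyl, hyx⟩ : ∃ y ∈ l, y ≠ x := by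
      rw [hlabc]
      by_cases hxa : x = a
      · exact ⟨b, by simp, by rw [hxa]; exact hab.symm⟩
      · exact ⟨a, by simp, fun h => hxa h.symm⟩
    obtain ⟨z, hzx, hzy, hleq⟩ := line_eq L h3 hl hxl hyl hyx.symm
    have h1 : t x y = z := hline x y z hzx hzy hyx.symm (hleq ▸ hl)
    have h2 : S x y = y := by rw [h]; rfl
    rw [hS, h1] at h2
    exact hzy h2
  have himg : ∀ x, ∀ l ∈ L, (t x) '' l ∈ L := by
    intro x l hl
    by_cases hxl : x ∈ l
    · have heq : (t x) '' l = l := by
        apply Set.Subset.antisymm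
        · rintro _ ⟨a, ha, rfl⟩
          exact hmem x l hl hxl a ha
        · intro a ha
          exact ⟨t x a, hmem x l hl hxl a ha, hinv x a⟩
      rw [heq]; exact hl
    · by_cases hfix : ∀ a ∈ l, t x a = a
      · have heq : (t x) '' l = l := by
          ext b
          constructor
          · rintro ⟨a, ha, rfl⟩
            rw [hfix a ha]; exact ha
          · intro hb
            exact ⟨b, hb, hfix b hb⟩
        rw [heq]; exact hl
      · push Not at hfix
        obtain ⟨a, hal, hta⟩ := hfix
        rcases hT x a with ⟨h1, h2, h3', h4⟩ | ⟨_, h2⟩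
        swap
        · exact absurd h2 hta
        have hlm : l ≠ ({x, a, t x a} : Set X) := by
          intro h; apply hxl; rw [h]; simp
        have hne : (l ∩ {x, a, t x a}).Nonempty := ⟨a, hal, by simp⟩
        obtain ⟨P, hPdef⟩ : ∃ P, P = span L (l ∪ {x, a, t x a}) := ⟨_, rfl⟩
        have hsub : IsSubspace L P := by rw [hPdef]; exact span_isSubspace L _
        have hlP : l ⊆ P := by
          rw [hPdef]; exact (Set.subset_union_left).trans (subset_span L _)
        have hxP : x ∈ P := by
          rw [hPdef]; exact subset_span L _ (Or.inr (by simp))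
        have hA : ThirdLineProp (restrict L P) := by
          rw [hPdef]
          rcases hplane l hl _ h4 hlm hne with ⟨e, he⟩ | ⟨e, he⟩
          · exact thirdLineProp_iso he thirdLineProp_dualAffine
          · exact thirdLineProp_iso he thirdLineProp_affine
        have hlPmem : {y : P | (y : X) ∈ l} ∈ restrict L P := ⟨l, hl, hlP, rfl⟩
        obtain ⟨l', hl', hl'prop⟩ := hA ⟨x, hxP⟩ _ hlPmem
        obtain ⟨l'', hl''L, hl''P, rfl⟩ := hl'
        have himsub : (t x) '' l ⊆ l'' := by
          rintro _ ⟨b, hb, rfl⟩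
          have hbP : b ∈ P := hlP hb
          have htbP : t x b ∈ P := by
            rcases hT x b with ⟨g1, g2, g3, g4⟩ | ⟨_, g2⟩
            · exact hsub _ g4 x hxP b hbP g3 (by simp) (by simp) (by simp)
            · rw [g2]; exact hbP
          exact hl'prop ⟨b, hbP⟩ hb ⟨t x b, htbP⟩ (third_restrict hxP hbP htbP (hT x b))
        have hfin : l''.Finite := Set.finite_of_ncard_ne_zero (by rw [h3 _ hl''L]; norm_num)
        have hcard : l''.ncard ≤ ((t x) '' l).ncard := by
          rw [Set.ncard_image_of_injective _ (tinj x), h3 l hl, h3 _ hl''L]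
        rw [Set.eq_of_subset_of_ncard_le himsub hcard hfin]
        exact hl''L
  have hiso : ∀ x, IsIso L L (S x) := by
    intro x l
    have hfun : ⇑(S x) = t x := funext (hS x)
    rw [hfun]
    constructor
    · exact himg x l
    · intro h
      have h' := himg x _ h
      rwa [← Set.image_comp, (funext (hinv x) : t x ∘ t x = id), Set.image_id] at h'
  have hpartA : ∀ x, ⇑(S x) = lineMap L x ∧ orderOf (S x) = 2 ∧ IsIso L L (S x) := by
    intro x
    refine ⟨?_, ?_, hiso x⟩
    · rw [← ht]; exact funext (hS x)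
    · have : Fact (Nat.Prime 2) := ⟨Nat.prime_two⟩
      exact orderOf_eq_prime (by rw [pow_two]; exact hSS x) (hSne x)
  have hSeq : ∀ (σ : Equiv.Perm X) (x : X), ⇑σ = lineMap L x → σ = S x := by
    intro σ x hσ
    apply Equiv.ext
    intro y
    rw [hσ, hS, ht]
  refine ⟨fun x => ⟨S x, hpartA x⟩, ?_, ?_⟩
  · rintro σ ⟨x, hσ⟩
    rw [hSeq σ x hσ]; exact (hpartA x).2.1
  · rintro σ ⟨x, hσ⟩ τ ⟨y, hτ⟩
    rw [hSeq σ x hσ, hSeq τ y hτ]
    have hconj : ∀ x y w, t x (t y w) = t (t x y) (t x w) := by
      intro x y w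
      have h1 := third_iso (hiso x) (hT y w)
      rw [hS, hS, hS] at h1
      exact (hTu _ _ _ h1).symm
    have hmul : ∀ x y, S x * S y = S (t x y) * S x := by
      intro x y; ext w
      rw [Equiv.Perm.mul_apply, Equiv.Perm.mul_apply, hS, hS, hS, hS]
      exact hconj x y w
    rcases hT x y with ⟨h1, h2, h3', h4⟩ | ⟨h1, h2⟩
    · right
      have hyx : t y x = t x y := by
        apply hline y x (t x y) h2 h1 h3'.symm
        rw [Set.insert_comm]; exact h4
      have m1 := hmul x y
      have m2 := hmul y x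
      rw [hyx] at m2
      rw [pow_succ, pow_two]
      calc (S x * S y) * (S x * S y) * (S x * S y)
          = (S x * S y) * S x * (S y * S x) * S y := by group
        _ = (S (t x y) * S x) * S x * (S (t x y) * S y) * S y := by rw [m1, m2]
        _ = S (t x y) * (S x * S x) * S (t x y) * (S y * S y) := by group
        _ = 1 := by rw [hSS, hSS, mul_one, mul_one, hSS]
    · left
      have m1 := hmul x y
      rw [h2] at m1
      rw [pow_two]
      calc (S x * S y) * (S x * S y) = S x * (S y * S x) * S y := by group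
        _ = S x * (S x * S y) * S y := by rw [m1]
        _ = (S x * S x) * (S y * S y) := by group
        _ = 1 := by rw [hSS, hSS, one_mul]

end Cfsg.Agent.S5366
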