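import Cfsg.Statements.S5367
import Cfsg.Agent.H91.ThreeTransp
import Cfsg.Agent.H91.Fischer
import Cfsg.Agent.H91.Fischer2
import Cfsg.Agent.H91.S4Rel2

set_option autoImplicit false
open Cfsg

namespace Cfsg.Agent.S5367

open Cfsg.LineSystem Cfsg.Agent.H91

/-- the case of the dual affine plane: `y`, `z` commute -/
theorem da_case {G : Type*} [Group G] [Finite G] {D : Set G} (hD : IsThreeTranspositionGroup D)
    {x y z : G} (hx : x ∈ D) (hy : y ∈ D) (hz : z ∈ D) (hxy : ¬ Commute x y)
    (hxz : ¬ Commute x z) (hyz : Commute y z) (hne : y ≠ z) :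
    Isomorphic (restrict (threeTranspositionLines D)
      (span (threeTranspositionLines D) (lineOf D x y ∪ lineOf D x z))) dualAffinePlaneTwo := by
  classical
  obtain ⟨hTS, hconj, -⟩ := hD
  have hx2 := sq_one (hTS.1 x hx)
  have hy2 := sq_one (hTS.1 y hy)
  have hz2 := sq_one (hTS.1 z hz)
  have hxi := inv_self hx2
  have hyi := inv_self hy2
  have hzi := inv_self hz2
  have hbxy : x * y * x = y * x * y := by
    rcases commute_or_braid hTS hx hy with h | h
    · exact absurd h hxy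
    · exact h
  have hbxz : x * z * x = z * x * z := by
    rcases commute_or_braid hTS hx hz with h | h
    · exact absurd h hxz
    · exact h
  have hyzy : y * z * y = z := by
    calc y * z * y = (z * y) * y := by rw [hyz.eq]
      _ = z * (y * y) := by group
      _ = z := by rw [hy2, mul_one]
  have hz1 : z ≠ 1 := by
    intro h
    have := hTS.1 z hz
    rw [h, orderOf_one] at this
    exact absurd this (by decide)
  -- the relations
  have hR1 : (x * (y * z) * x) * y * (x * (y * z) * x) = z := by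
    calc (x * (y * z) * x) * y * (x * (y * z) * x)
        = x * y * z * (x * y * x) * y * z * x := by group
      _ = x * y * z * (y * x * y) * y * z * x := by rw [hbxy]
      _ = x * (y * z * y) * x * (y * y) * z * x := by group
      _ = x * z * x * z * x := by rw [hyzy, hy2]; group
      _ = (x * z * x) * z * x := by group
      _ = (z * x * z) * z * x := by rw [hbxz]
      _ = z * x * (z * z) * x := by group
      _ = z := by rw [hz2, mul_one, mul_assoc, hx2, mul_one]
  -- `w = y z x z y` commutes with `x`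
  have hw : x * (y * z * x * z * y) * x = y * z * x * z * y := by
    calc x * (y * z * x * z * y) * x = x * y * (z * x * z) * y * x := by group
      _ = x * y * (x * z * x) * y * x := by rw [hbxz]
      _ = (x * y * x) * z * (x * y * x) := by group
      _ = (y * x * y) * z * (y * x * y) := by rw [hbxy]
      _ = y * x * (y * z * y) * x * y := by group
      _ = y * x * z * x * y := by rw [hyzy]
      _ = y * (x * z * x) * y := by group
      _ = y * (z * x * z) * y := by rw [hbxz]
      _ = y * z * x * z * y := by group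
  have hn₂ : x * (y * z) * x * (y * z) = x * (y * z * x * z * y) := by
    calc x * (y * z) * x * (y * z) = x * (y * z) * x * (z * y) := by rw [hyz.eq]
      _ = x * (y * z * x * z * y) := by group
  have hw2 : (y * z * x * z * y) * (y * z * x * z * y) = 1 := by
    calc (y * z * x * z * y) * (y * z * x * z * y)
        = y * z * x * z * (y * y) * z * x * z * y := by group
      _ = y * z * x * (z * z) * x * z * y := by rw [hy2]; group
      _ = y * z * (x * x) * z * y := by rw [hz2]; group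
      _ = y * (z * z) * y := by rw [hx2]; group
      _ = 1 := by rw [hz2, mul_one, hy2]
  have hR3 : (x * (y * z) * x * (y * z)) * (x * (y * z) * x * (y * z)) = 1 := by
    rw [hn₂]
    calc (x * (y * z * x * z * y)) * (x * (y * z * x * z * y))
        = (x * (y * z * x * z * y) * x) * (y * z * x * z * y) := by group
      _ = 1 := by rw [hw, hw2]
  have hR2 : (x * (y * z) * x * (y * z)) * y * (x * (y * z) * x * (y * z)) = z := by
    rw [hn₂]
    have h1 : (y * z * x * z * y) * y * (y * z * x * z * y) = x * z * x := by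
      calc (y * z * x * z * y) * y * (y * z * x * z * y)
          = y * z * x * z * (y * y) * (y * z) * x * z * y := by group
        _ = y * z * x * z * (z * y) * x * z * y := by rw [hy2, hyz.eq]; group
        _ = y * z * x * (z * z) * y * x * z * y := by group
        _ = z * (y * x * y) * x * z * y := by rw [hz2, hyz.eq]; group
        _ = z * (x * y * x) * x * z * y := by rw [hbxy]
        _ = z * x * y * (x * x) * z * y := by group
        _ = z * x * (y * z * y) := by rw [hx2]; group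
        _ = z * x * z := by rw [hyzy]
        _ = x * z * x := by rw [hbxz]
    calc (x * (y * z * x * z * y)) * y * (x * (y * z * x * z * y))
        = (x * (y * z * x * z * y)) * y * (x * (y * z * x * z * y)) * 1 := by rw [mul_one]
      _ = (x * (y * z * x * z * y)) * y * (x * (y * z * x * z * y)) * (x * x) := by rw [hx2]
      _ = x * ((y * z * x * z * y) * y * (x * (y * z * x * z * y) * x)) * x := by group
      _ = x * ((y * z * x * z * y) * y * (y * z * x * z * y)) * x := by rw [hw]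
      _ = x * (x * z * x) * x := by rw [h1]
      _ = (x * x) * z * (x * x) := by group
      _ = z := by rw [hx2, one_mul, mul_one]
  -- the subgroup generated by `y`, `x`, `z`
  have hxH : x ∈ Subgroup.closure ({y, x, z} : Set G) := Subgroup.subset_closure (by simp)
  have hyH : y ∈ Subgroup.closure ({y, x, z} : Set G) := Subgroup.subset_closure (by simp)
  have hzH : z ∈ Subgroup.closure ({y, x, z} : Set G) := Subgroup.subset_closure (by simp)
  obtain ⟨X, hX⟩ : ∃ X : Subgroup.closure ({y, x, z} : Set G), (X : G) = x := ⟨⟨x, hxH⟩, rfl⟩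
  obtain ⟨Y, hY⟩ : ∃ Y : Subgroup.closure ({y, x, z} : Set G), (Y : G) = y := ⟨⟨y, hyH⟩, rfl⟩
  obtain ⟨Z, hZ⟩ : ∃ Z : Subgroup.closure ({y, x, z} : Set G), (Z : G) = z := ⟨⟨z, hzH⟩, rfl⟩
  have hgen : Subgroup.closure ({Y, X, Z} : Set (Subgroup.closure ({y, x, z} : Set G))) = ⊤ := by
    have : ({Y, X, Z} : Set (Subgroup.closure ({y, x, z} : Set G))) =
        ((↑) : Subgroup.closure ({y, x, z} : Set G) → G) ⁻¹' ({y, x, z} : Set G) := by
      ext g
      simp only [Set.mem_insert_iff, Set.mem_singleton_iff, Set.mem_preimage, Subtype.ext_iff,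
        hX, hY, hZ]
    rw [this]
    exact Subgroup.closure_closure_coe_preimage
  obtain ⟨ρ, hρz, hρx, hρy⟩ := s4_of_relations_explicit Y Z X
    (Subtype.ext (by simp [hY, hy2])) (Subtype.ext (by simp [hZ, hz2]))
    (Subtype.ext (by simp [hX, hx2]))
    (Subtype.ext (by simp only [Subgroup.coe_mul, hY, hZ]; exact hyz.eq))
    (Subtype.ext (by simp only [Subgroup.coe_mul, hY, hX]; exact hbxy))
    (fun h => hxy (by
      have := congrArg Subtype.val h.eq
      simp only [Subgroup.coe_mul, hY, hX] at this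
      exact this.symm))
    (fun h => hne (by
      have := congrArg Subtype.val h
      rw [hZ, hY] at this
      exact this.symm))
    (fun h => hz1 (by
      have := congrArg Subtype.val h
      rw [hZ] at this
      exact this))
    (Subtype.ext (by simp only [Subgroup.coe_mul, hY, hX, hZ]; exact hR1))
    (Subtype.ext (by simp only [Subgroup.coe_mul, hY, hX, hZ]; exact hR2))
    (Subtype.ext (by simp only [Subgroup.coe_mul, hY, hX, hZ, Subgroup.coe_one]; exact hR3))
    hgen
  obtain ⟨pf1, pf2, pf3, pf4⟩ := perm4_facts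
  -- the map from the model
  obtain ⟨elt, helt⟩ : ∃ elt : DualAffinePoint → G,
      ∀ s, elt s = ((ρ.symm (swapOf s) : Subgroup.closure ({y, x, z} : Set G)) : G) :=
    ⟨_, fun _ => rfl⟩
  have hsymm : ∀ (h : Subgroup.closure ({y, x, z} : Set G)) (σ : Equiv.Perm (Fin 4)),
      ρ h = σ → ρ.symm σ = h := by
    intro h σ hh
    rw [← hh, MulEquiv.symm_apply_apply]
  have e1 : ∀ s, elt s ∈ D := by
    intro s
    obtain ⟨g, hg⟩ := swapOf_isConj s
    rw [helt, hg, map_mul, map_mul, map_inv, hsymm X _ hρx]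
    simp only [Subgroup.coe_mul, Subgroup.coe_inv, hX]
    exact hconj _ x hx
  have e2 : ∀ p q, elt p * elt q * (elt p)⁻¹ = elt (lineMap dualAffinePlaneTwo p q) := by
    intro p q
    have h1 := swapOf_conj p q _ (third_da (third_lineMap dualAffinePlaneTwo p q))
    rw [helt, helt, helt, ← h1, map_mul, map_mul, map_inv]
    simp only [Subgroup.coe_mul, Subgroup.coe_inv]
  have e3 : Function.Injective elt := by
    intro s t h
    rw [helt, helt] at h
    exact swapOf_inj s t (ρ.symm.injective (Subtype.ext h))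
  obtain ⟨U1, U2⟩ := embed_iso hTS dualAffinePlaneTwo (lineMap dualAffinePlaneTwo) da_m1 da_m2
    elt e1 e2 e3
  -- the images of the named elements
  have hmemP : ∀ (h : Subgroup.closure ({y, x, z} : Set G)) (σ : Equiv.Perm (Fin 4)),
      ρ h = σ → (∃ s, swapOf s = σ) → ∃ s, elt s = (h : G) := by
    rintro h σ hh ⟨s, hs⟩
    exact ⟨s, by rw [helt, hs, hsymm h σ hh]⟩
  obtain ⟨sj1, sj2, sj3, sj4, sj5⟩ := swapOf_surj
  have hρY' : ρ (X * Y * X⁻¹) = Equiv.swap 1 3 := by
    rw [map_mul, map_mul, map_inv, hρx, hρy]; exact pf1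
  have hρZ' : ρ (X * Z * X⁻¹) = Equiv.swap 0 2 := by
    rw [map_mul, map_mul, map_inv, hρx, hρz]; exact pf2
  have hρW : ρ (Y * (X * Z * X⁻¹) * Y⁻¹) = Equiv.swap 0 3 := by
    rw [map_mul, map_mul, map_inv, hρZ', hρy]; exact pf3
  have hY'val : ((X * Y * X⁻¹ : Subgroup.closure ({y, x, z} : Set G)) : G) = x * y * x⁻¹ := by
    simp only [Subgroup.coe_mul, Subgroup.coe_inv, hX, hY]
  have hZ'val : ((X * Z * X⁻¹ : Subgroup.closure ({y, x, z} : Set G)) : G) = x * z * x⁻¹ := by
    simp only [Subgroup.coe_mul, Subgroup.coe_inv, hX, hZ]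
  have hWval : ((Y * (X * Z * X⁻¹) * Y⁻¹ : Subgroup.closure ({y, x, z} : Set G)) : G)
      = y * (x * z * x⁻¹) * y⁻¹ := by
    simp only [Subgroup.coe_mul, Subgroup.coe_inv, hX, hZ, hY]
  have ty := (s3_facts hx2 hy2 hbxy).1
  have tz := (s3_facts hx2 hz2 hbxz).1
  have hz'D : x * z * x⁻¹ ∈ D := hconj x z hz
  have hncz'y : ¬ Commute (x * z * x⁻¹) y := by
    intro h
    apply pf4
    have h1 : (X * Z * X⁻¹) * Y = Y * (X * Z * X⁻¹) := by
      apply Subtype.ext
      simp only [Subgroup.coe_mul, Subgroup.coe_inv, hX, hZ, hY]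
      exact h.eq
    have h2 := congrArg ρ h1
    rw [map_mul ρ (X * Z * X⁻¹) Y, map_mul ρ Y (X * Z * X⁻¹), hρZ', hρy] at h2
    exact h2
  -- the span is the image of the model
  have hspan : span (threeTranspositionLines D) (lineOf D x y ∪ lineOf D x z)
      = {d : D | ∃ p, elt p = (d : G)} := by
    apply Set.Subset.antisymm
    · apply span_le _ _ U1
      rintro d (hd | hd)
      · rcases hd with h | h | h
        · rw [Set.mem_ofPred_eq, h, ← hX]; exact hmemP X _ hρx sj1
        · rw [Set.mem_ofPred_eq, h, ← hY]; exact hmemP Y _ hρy sj2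
        · rw [Set.mem_ofPred_eq, h, ← ty, ← hY'val]; exact hmemP _ _ hρY' sj4
      · rcases hd with h | h | h
        · rw [Set.mem_ofPred_eq, h, ← hX]; exact hmemP X _ hρx sj1
        · rw [Set.mem_ofPred_eq, h, ← hZ]; exact hmemP Z _ hρz sj3
        · rw [Set.mem_ofPred_eq, h, ← tz, ← hZ'val]; exact hmemP _ _ hρZ' sj5
    · rintro d ⟨s, hs⟩
      have hl1 : lineOf D x y ⊆ span (threeTranspositionLines D) (lineOf D x y ∪ lineOf D x z) :=
        Set.subset_union_left.trans (sub_span _ _)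
      have hl2 : lineOf D x z ⊆ span (threeTranspositionLines D) (lineOf D x y ∪ lineOf D x z) :=
        Set.subset_union_right.trans (sub_span _ _)
      rw [helt] at hs
      rcases swapOf_cases s with h | h | h | h | h | h
      · rw [h, hsymm X _ hρx, hX] at hs
        exact hl1 (Or.inl hs.symm)
      · rw [h, hsymm Y _ hρy, hY] at hs
        exact hl1 (Or.inr (Or.inl hs.symm))
      · rw [h, hsymm Z _ hρz, hZ] at hs
        exact hl2 (Or.inr (Or.inl hs.symm))
      · rw [h, hsymm _ _ hρY', hY'val, ty] at hs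
        exact hl1 (Or.inr (Or.inr hs.symm))
      · rw [h, hsymm _ _ hρZ', hZ'val, tz] at hs
        exact hl2 (Or.inr (Or.inr hs.symm))
      · rw [h, hsymm _ _ hρW, hWval] at hs
        have hline : lineOf D (x * z * x⁻¹) y ∈ threeTranspositionLines D :=
          lineOf_mem hz'D hy hncz'y
        have hz'span : (⟨x * z * x⁻¹, hz'D⟩ : D) ∈
            span (threeTranspositionLines D) (lineOf D x y ∪ lineOf D x z) :=
          hl2 (Or.inr (Or.inr tz))
        have hyspan : (⟨y, hy⟩ : D) ∈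
            span (threeTranspositionLines D) (lineOf D x y ∪ lineOf D x z) :=
          hl1 (Or.inr (Or.inl rfl))
        have hne' : (⟨x * z * x⁻¹, hz'D⟩ : D) ≠ ⟨y, hy⟩ := by
          intro h'
          apply hncz'y
          have h'' : x * z * x⁻¹ = y := congrArg Subtype.val h'
          rw [h'']
        exact span_sub _ _ _ hline _ hz'span _ hyspan hne' (Or.inl rfl) (Or.inr (Or.inl rfl))
          (Or.inr (Or.inr hs.symm))
  rw [hspan]
  exact U2

/-- the case of the affine plane: no two of the five points commute -/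
theorem ag_case {G : Type*} [Group G] {D : Set G} (hD : IsThreeTranspositionGroup D)
    {x y z : G} (hx : x ∈ D) (hy : y ∈ D) (hz : z ∈ D) (hxy : ¬ Commute x y)
    (hxz : ¬ Commute x z) (hyz : ¬ Commute y z) (hyz' : ¬ Commute y (x * z * x⁻¹))
    (hzy : z ≠ y) (hzy' : z ≠ x * y * x⁻¹) :
    Isomorphic (restrict (threeTranspositionLines D)
      (span (threeTranspositionLines D) (lineOf D x y ∪ lineOf D x z))) affinePlaneThree := by
  classical
  obtain ⟨hTS, hconj, -⟩ := hD
  have hsq : ∀ g ∈ D, g * g = 1 := fun g hg => sq_one (hTS.1 g hg)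
  have hbraid : ∀ u ∈ D, ∀ v ∈ D, ¬ Commute u v → u * v * u = v * u * v := by
    intro u hu v hv h
    rcases commute_or_braid hTS hu hv with h' | h'
    · exact absurd h' h
    · exact h'
  -- conjugating twice by an involution
  have inv2 : ∀ g h k : G, g * g = 1 → g * h * g⁻¹ = k → g * k * g⁻¹ = h := by
    intro g h k hg hk
    have hgi : g⁻¹ = g := inv_eq_of_mul_eq_one_right hg
    rw [← hk, hgi]
    calc g * (g * h * g) * g = (g * g) * h * (g * g) := by group
      _ = h := by rw [hg, one_mul, mul_one]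
  -- the nine points
  obtain ⟨y', hy'⟩ : ∃ y' : G, y' = x * y * x⁻¹ := ⟨_, rfl⟩
  obtain ⟨z', hz'⟩ : ∃ z' : G, z' = x * z * x⁻¹ := ⟨_, rfl⟩
  obtain ⟨a, ha⟩ : ∃ a : G, a = y * z * y⁻¹ := ⟨_, rfl⟩
  obtain ⟨b, hb⟩ : ∃ b : G, b = y * z' * y⁻¹ := ⟨_, rfl⟩
  obtain ⟨c, hc⟩ : ∃ c : G, c = y' * z * y'⁻¹ := ⟨_, rfl⟩
  obtain ⟨d, hd⟩ : ∃ d : G, d = y' * z' * y'⁻¹ := ⟨_, rfl⟩
  rw [← hz'] at hyz'
  rw [← hy'] at hzy'
  have hy'D : y' ∈ D := by rw [hy']; exact hconj x y hy
  have hz'D : z' ∈ D := by rw [hz']; exact hconj x z hz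
  have haD : a ∈ D := by rw [ha]; exact hconj y z hz
  have hbD : b ∈ D := by rw [hb]; exact hconj y z' hz'D
  have hcD : c ∈ D := by rw [hc]; exact hconj y' z hz
  have hdD : d ∈ D := by rw [hd]; exact hconj y' z' hz'D
  have hx2 := hsq x hx
  have hy2 := hsq y hy
  have hz2 := hsq z hz
  have hy'2 := hsq y' hy'D
  have hz'2 := hsq z' hz'D
  -- conjugation by x
  have k_x_x : x * x * x⁻¹ = x := by group
  have k_x_y : x * y * x⁻¹ = y' := hy'.symm
  have k_x_yp : x * y' * x⁻¹ = y := inv2 x y y' hx2 k_x_y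
  have k_x_z : x * z * x⁻¹ = z' := hz'.symm
  have k_x_zp : x * z' * x⁻¹ = z := inv2 x z z' hx2 k_x_z
  have k_x_a : x * a * x⁻¹ = d := by
    rw [ha, hd, hy', hz']; group
  have k_x_d : x * d * x⁻¹ = a := inv2 x a d hx2 k_x_a
  have k_x_b : x * b * x⁻¹ = c := by
    rw [hb, hc]
    calc x * (y * z' * y⁻¹) * x⁻¹ = (x * y * x⁻¹) * (x * z' * x⁻¹) * (x * y * x⁻¹)⁻¹ := by group
      _ = y' * z * y'⁻¹ := by rw [k_x_y, k_x_zp]
  have k_x_c : x * c * x⁻¹ = b := inv2 x b c hx2 k_x_b
  -- non-commuting pairs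
  have hy'z : ¬ Commute y' z := by
    intro h
    apply hyz'
    have h1 : Commute (x * y * x⁻¹) (x * z' * x⁻¹) := by rw [k_x_y, k_x_zp]; exact h
    exact (Commute.conj_iff x).mp h1
  have hy'z' : ¬ Commute y' z' := by
    intro h
    apply hyz
    have h1 : Commute (x * y * x⁻¹) (x * z * x⁻¹) := by rw [k_x_y, k_x_z]; exact h
    exact (Commute.conj_iff x).mp h1
  -- braid-type facts
  have txy := s3_facts hx2 hy2 (hbraid x hx y hy hxy)
  have txz := s3_facts hx2 hz2 (hbraid x hx z hz hxz)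
  have tyz := s3_facts hy2 hz2 (hbraid y hy z hz hyz)
  have tyz' := s3_facts hy2 hz'2 (hbraid y hy z' hz'D hyz')
  have ty'z := s3_facts hy'2 hz2 (hbraid y' hy'D z hz hy'z)
  have ty'z' := s3_facts hy'2 hz'2 (hbraid y' hy'D z' hz'D hy'z')
  -- conjugation by y
  have k_y_x : y * x * y⁻¹ = y' := by rw [hy']; exact txy.1.symm
  have k_y_y : y * y * y⁻¹ = y := by group
  have k_y_yp : y * y' * y⁻¹ = x := inv2 y x y' hy2 k_y_x
  have k_y_z : y * z * y⁻¹ = a := ha.symm
  have k_y_zp : y * z' * y⁻¹ = b := hb.symm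
  have k_y_a : y * a * y⁻¹ = z := inv2 y z a hy2 k_y_z
  have k_y_b : y * b * y⁻¹ = z' := inv2 y z' b hy2 k_y_zp
  have hyy' : y * y' = y' * x := by
    have hxi : x⁻¹ = x := inv_eq_of_mul_eq_one_right hx2
    have hbr := hbraid x hx y hy hxy
    rw [hy', hxi]
    calc y * (x * y * x) = (y * x * y) * x := by group
      _ = (x * y * x) * x := by rw [hbr]
  have k_y_c : y * c * y⁻¹ = d := by
    rw [hc, hd, hz']
    calc y * (y' * z * y'⁻¹) * y⁻¹ = (y * y') * z * (y * y')⁻¹ := by group
      _ = (y' * x) * z * (y' * x)⁻¹ := by rw [hyy']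
      _ = y' * (x * z * x⁻¹) * y'⁻¹ := by group
  have k_y_d : y * d * y⁻¹ = c := inv2 y c d hy2 k_y_c
  -- conjugation by z
  have k_z_x : z * x * z⁻¹ = z' := by rw [hz']; exact txz.1.symm
  have k_z_z : z * z * z⁻¹ = z := by group
  have k_z_zp : z * z' * z⁻¹ = x := inv2 z x z' hz2 k_z_x
  have k_z_y : z * y * z⁻¹ = a := by rw [ha]; exact tyz.1.symm
  have k_z_a : z * a * z⁻¹ = y := inv2 z y a hz2 k_z_y
  have k_z_yp : z * y' * z⁻¹ = c := by rw [hc]; exact ty'z.1.symm
  have k_z_c : z * c * z⁻¹ = y' := inv2 z y' c hz2 k_z_yp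
  have hzz' : z * z' = z' * x := by
    have hxi : x⁻¹ = x := inv_eq_of_mul_eq_one_right hx2
    have hbr := hbraid x hx z hz hxz
    rw [hz', hxi]
    calc z * (x * z * x) = (z * x * z) * x := by group
      _ = (x * z * x) * x := by rw [hbr]
  have k_z_d : z * d * z⁻¹ = b := by
    rw [hd, hb, ty'z'.1]
    calc z * (z' * y' * z'⁻¹) * z⁻¹ = (z * z') * y' * (z * z')⁻¹ := by group
      _ = (z' * x) * y' * (z' * x)⁻¹ := by rw [hzz']
      _ = z' * (x * y' * x⁻¹) * z'⁻¹ := by group
      _ = z' * y * z'⁻¹ := by rw [k_x_yp]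
      _ = y * z' * y⁻¹ := tyz'.1.symm
  have k_z_b : z * b * z⁻¹ = d := inv2 z d b hz2 k_z_d
  -- the table
  have h3 : ∀ k : ZMod 3, k = 0 ∨ k = 1 ∨ k = 2 := by decide
  obtain ⟨T, h00, h01, h02, h10, h11, h12, h20, h21, h22⟩ : ∃ T : ZMod 3 → ZMod 3 → G,
      T 0 0 = x ∧ T 0 1 = z ∧ T 0 2 = z' ∧ T 1 0 = y ∧ T 1 1 = d ∧ T 1 2 = c ∧
      T 2 0 = y' ∧ T 2 1 = b ∧ T 2 2 = a :=
    ⟨fun i j => if i = 0 then (if j = 0 then x else if j = 1 then z else z')
      else if i = 1 then (if j = 0 then y else if j = 1 then d else c)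
      else (if j = 0 then y' else if j = 1 then b else a),
      rfl, rfl, rfl, rfl, rfl, rfl, rfl, rfl, rfl⟩
  have hTD : ∀ i j, T i j ∈ D := by
    intro i j
    rcases h3 i with rfl | rfl | rfl <;> rcases h3 j with rfl | rfl | rfl
    · rw [h00]; exact hx
    · rw [h01]; exact hz
    · rw [h02]; exact hz'D
    · rw [h10]; exact hy
    · rw [h11]; exact hdD
    · rw [h12]; exact hcD
    · rw [h20]; exact hy'D
    · rw [h21]; exact hbD
    · rw [h22]; exact haD
  have hTinv : ∀ i j, (T i j)⁻¹ = T i j := fun i j =>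
    inv_eq_of_mul_eq_one_right (hsq _ (hTD i j))
  have A00 : ∀ k l : ZMod 3, T 0 0 * T k l * (T 0 0)⁻¹ = T (-0 - k) (-0 - l) := by
    intro k l
    rcases h3 k with rfl | rfl | rfl <;> rcases h3 l with rfl | rfl | rfl
    · show T 0 0 * T 0 0 * (T 0 0)⁻¹ = T 0 0
      simp only [h00]
      exact k_x_x
    · show T 0 0 * T 0 1 * (T 0 0)⁻¹ = T 0 2
      simp only [h00, h01, h02]
      exact k_x_z
    · show T 0 0 * T 0 2 * (T 0 0)⁻¹ = T 0 1
      simp only [h00, h02, h01]
      exact k_x_zp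
    · show T 0 0 * T 1 0 * (T 0 0)⁻¹ = T 2 0
      simp only [h00, h10, h20]
      exact k_x_y
    · show T 0 0 * T 1 1 * (T 0 0)⁻¹ = T 2 2
      simp only [h00, h11, h22]
      exact k_x_d
    · show T 0 0 * T 1 2 * (T 0 0)⁻¹ = T 2 1
      simp only [h00, h12, h21]
      exact k_x_c
    · show T 0 0 * T 2 0 * (T 0 0)⁻¹ = T 1 0
      simp only [h00, h20, h10]
      exact k_x_yp
    · show T 0 0 * T 2 1 * (T 0 0)⁻¹ = T 1 2
      simp only [h00, h21, h12]
      exact k_x_b
    · show T 0 0 * T 2 2 * (T 0 0)⁻¹ = T 1 1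
      simp only [h00, h22, h11]
      exact k_x_a
  have A10 : ∀ k l : ZMod 3, T 1 0 * T k l * (T 1 0)⁻¹ = T (-1 - k) (-0 - l) := by
    intro k l
    rcases h3 k with rfl | rfl | rfl <;> rcases h3 l with rfl | rfl | rfl
    · show T 1 0 * T 0 0 * (T 1 0)⁻¹ = T 2 0
      simp only [h10, h00, h20]
      exact k_y_x
    · show T 1 0 * T 0 1 * (T 1 0)⁻¹ = T 2 2
      simp only [h10, h01, h22]
      exact k_y_z
    · show T 1 0 * T 0 2 * (T 1 0)⁻¹ = T 2 1
      simp only [h10, h02, h21]
      exact k_y_zp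
    · show T 1 0 * T 1 0 * (T 1 0)⁻¹ = T 1 0
      simp only [h10]
      exact k_y_y
    · show T 1 0 * T 1 1 * (T 1 0)⁻¹ = T 1 2
      simp only [h10, h11, h12]
      exact k_y_d
    · show T 1 0 * T 1 2 * (T 1 0)⁻¹ = T 1 1
      simp only [h10, h12, h11]
      exact k_y_c
    · show T 1 0 * T 2 0 * (T 1 0)⁻¹ = T 0 0
      simp only [h10, h20, h00]
      exact k_y_yp
    · show T 1 0 * T 2 1 * (T 1 0)⁻¹ = T 0 2
      simp only [h10, h21, h02]
      exact k_y_b
    · show T 1 0 * T 2 2 * (T 1 0)⁻¹ = T 0 1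
      simp only [h10, h22, h01]
      exact k_y_a
  have A01 : ∀ k l : ZMod 3, T 0 1 * T k l * (T 0 1)⁻¹ = T (-0 - k) (-1 - l) := by
    intro k l
    rcases h3 k with rfl | rfl | rfl <;> rcases h3 l with rfl | rfl | rfl
    · show T 0 1 * T 0 0 * (T 0 1)⁻¹ = T 0 2
      simp only [h01, h00, h02]
      exact k_z_x
    · show T 0 1 * T 0 1 * (T 0 1)⁻¹ = T 0 1
      simp only [h01]
      exact k_z_z
    · show T 0 1 * T 0 2 * (T 0 1)⁻¹ = T 0 0
      simp only [h01, h02, h00]
      exact k_z_zp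
    · show T 0 1 * T 1 0 * (T 0 1)⁻¹ = T 2 2
      simp only [h01, h10, h22]
      exact k_z_y
    · show T 0 1 * T 1 1 * (T 0 1)⁻¹ = T 2 1
      simp only [h01, h11, h21]
      exact k_z_d
    · show T 0 1 * T 1 2 * (T 0 1)⁻¹ = T 2 0
      simp only [h01, h12, h20]
      exact k_z_c
    · show T 0 1 * T 2 0 * (T 0 1)⁻¹ = T 1 2
      simp only [h01, h20, h12]
      exact k_z_yp
    · show T 0 1 * T 2 1 * (T 0 1)⁻¹ = T 1 1
      simp only [h01, h21, h11]
      exact k_z_b
    · show T 0 1 * T 2 2 * (T 0 1)⁻¹ = T 1 0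
      simp only [h01, h22, h10]
      exact k_z_a
  have harith : ∀ i₁ i₂ k : ZMod 3, -i₁ - (-i₂ - (-i₁ - k)) = -(-i₁ - i₂) - k := by decide
  have hclos : ∀ i₁ j₁ i₂ j₂ : ZMod 3,
      (∀ k l : ZMod 3, T i₁ j₁ * T k l * (T i₁ j₁)⁻¹ = T (-i₁ - k) (-j₁ - l)) →
      (∀ k l : ZMod 3, T i₂ j₂ * T k l * (T i₂ j₂)⁻¹ = T (-i₂ - k) (-j₂ - l)) →
      ∀ k l : ZMod 3, T (-i₁ - i₂) (-j₁ - j₂) * T k l * (T (-i₁ - i₂) (-j₁ - j₂))⁻¹
        = T (-(-i₁ - i₂) - k) (-(-j₁ - j₂) - l) := by
    intro i₁ j₁ i₂ j₂ hA1 hA2 k l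
    have h1 := hA1 i₂ j₂
    rw [← h1, ← harith i₁ i₂ k, ← harith j₁ j₂ l, ← hA1, ← hA2, ← hA1]
    have e : (T i₁ j₁)⁻¹ * T k l * T i₁ j₁ = T i₁ j₁ * T k l * (T i₁ j₁)⁻¹ := by
      rw [hTinv]
    calc T i₁ j₁ * T i₂ j₂ * (T i₁ j₁)⁻¹ * T k l * (T i₁ j₁ * T i₂ j₂ * (T i₁ j₁)⁻¹)⁻¹
        = T i₁ j₁ * (T i₂ j₂ * ((T i₁ j₁)⁻¹ * T k l * T i₁ j₁) * (T i₂ j₂)⁻¹) * (T i₁ j₁)⁻¹ := by
          group
      _ = T i₁ j₁ * (T i₂ j₂ * (T i₁ j₁ * T k l * (T i₁ j₁)⁻¹) * (T i₂ j₂)⁻¹) * (T i₁ j₁)⁻¹ := by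
          rw [e]
  have A20 : ∀ k l : ZMod 3, T 2 0 * T k l * (T 2 0)⁻¹ = T (-2 - k) (-0 - l) :=
    hclos 0 0 1 0 A00 A10
  have A02 : ∀ k l : ZMod 3, T 0 2 * T k l * (T 0 2)⁻¹ = T (-0 - k) (-2 - l) :=
    hclos 0 0 0 1 A00 A01
  have A22 : ∀ k l : ZMod 3, T 2 2 * T k l * (T 2 2)⁻¹ = T (-2 - k) (-2 - l) :=
    hclos 1 0 0 1 A10 A01
  have A11 : ∀ k l : ZMod 3, T 1 1 * T k l * (T 1 1)⁻¹ = T (-1 - k) (-1 - l) :=
    hclos 2 0 0 2 A20 A02
  have A12 : ∀ k l : ZMod 3, T 1 2 * T k l * (T 1 2)⁻¹ = T (-1 - k) (-2 - l) :=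
    hclos 2 0 0 1 A20 A01
  have A21 : ∀ k l : ZMod 3, T 2 1 * T k l * (T 2 1)⁻¹ = T (-2 - k) (-1 - l) :=
    hclos 1 0 0 2 A10 A02
  have hall : ∀ i j k l : ZMod 3, T i j * T k l * (T i j)⁻¹ = T (-i - k) (-j - l) := by
    intro i j
    rcases h3 i with rfl | rfl | rfl <;> rcases h3 j with rfl | rfl | rfl
    · exact A00
    · exact A01
    · exact A02
    · exact A10
    · exact A11
    · exact A12
    · exact A20
    · exact A21
    · exact A22
  -- the base point differs from the other eight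
  have hax : a ≠ x := by
    intro h
    apply hzy'
    have h1 : y * a * y⁻¹ = y * x * y⁻¹ := by rw [h]
    rw [k_y_a, k_y_x] at h1
    exact h1
  have hbx : b ≠ x := by
    intro h
    apply hzy
    have h1 : y * b * y⁻¹ = y * x * y⁻¹ := by rw [h]
    rw [k_y_b, k_y_x] at h1
    have h2 : x * z' * x⁻¹ = x * y' * x⁻¹ := by rw [h1]
    rw [k_x_zp, k_x_yp] at h2
    exact h2
  have hbase : ∀ i j : ZMod 3, T i j = T 0 0 → i = 0 ∧ j = 0 := by
    intro i j
    rcases h3 i with rfl | rfl | rfl <;> rcases h3 j with rfl | rfl | rfl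
    · intro _; exact ⟨rfl, rfl⟩
    · rw [h01, h00]; intro h; exact absurd (by rw [h]) hxz
    · rw [h02, h00]; intro h
      exfalso; apply hxz
      have h1 : x * z' * x⁻¹ = x * x * x⁻¹ := by rw [h]
      rw [k_x_zp, k_x_x] at h1
      rw [h1]
    · rw [h10, h00]; intro h; exact absurd (by rw [h]) hxy
    · rw [h11, h00]; intro h
      exfalso; apply hax
      have h1 : x * d * x⁻¹ = x * x * x⁻¹ := by rw [h]
      rw [k_x_d, k_x_x] at h1
      exact h1
    · rw [h12, h00]; intro h
      exfalso; apply hbx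
      have h1 : x * c * x⁻¹ = x * x * x⁻¹ := by rw [h]
      rw [k_x_c, k_x_x] at h1
      exact h1
    · rw [h20, h00]; intro h
      exfalso; apply hxy
      have h1 : x * y' * x⁻¹ = x * x * x⁻¹ := by rw [h]
      rw [k_x_yp, k_x_x] at h1
      rw [h1]
    · rw [h21, h00]; intro h; exact absurd h hbx
    · rw [h22, h00]; intro h; exact absurd h hax
  -- the map from the model
  obtain ⟨elt, helt⟩ : ∃ elt : (Fin 2 → ZMod 3) → G, ∀ p, elt p = T (p 0) (p 1) :=
    ⟨fun p => T (p 0) (p 1), fun _ => rfl⟩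
  have e1 : ∀ p, elt p ∈ D := fun p => by rw [helt]; exact hTD _ _
  have e2 : ∀ p q, elt p * elt q * (elt p)⁻¹ = elt (-p - q) := by
    intro p q
    rw [helt, helt, helt]
    exact hall (p 0) (p 1) (q 0) (q 1)
  have e3 : Function.Injective elt := by
    intro p q hpq
    have h1 : elt (-(-p) - p) = elt (-(-p) - q) := by
      rw [← e2, ← e2, hpq]
    have h2 : -(-p) - p = 0 := by abel
    rw [h2, helt, helt] at h1
    obtain ⟨g1, g2⟩ := hbase _ _ h1.symm
    have g1' : p 0 - q 0 = 0 := by simpa using g1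
    have g2' : p 1 - q 1 = 0 := by simpa using g2
    funext i
    fin_cases i
    · exact sub_eq_zero.mp g1'
    · exact sub_eq_zero.mp g2'
  obtain ⟨U1, U2⟩ := embed_iso hTS affinePlaneThree (fun p q => -p - q) ag_m1 ag_m2 elt e1 e2 e3
  -- the span is the image of the model
  have hval : ∀ i j : ZMod 3, elt ![i, j] = T i j := fun i j => by rw [helt]; rfl
  have hspan : span (threeTranspositionLines D) (lineOf D x y ∪ lineOf D x z)
      = {d : D | ∃ p, elt p = (d : G)} := by
    apply Set.Subset.antisymm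
    · apply span_le _ _ U1
      rintro w (hw | hw)
      · rcases hw with h | h | h
        · exact ⟨![0, 0], by rw [hval, h00, h]⟩
        · exact ⟨![1, 0], by rw [hval, h10, h]⟩
        · exact ⟨![2, 0], by rw [hval, h20, h, k_y_x]⟩
      · rcases hw with h | h | h
        · exact ⟨![0, 0], by rw [hval, h00, h]⟩
        · exact ⟨![0, 1], by rw [hval, h01, h]⟩
        · exact ⟨![0, 2], by rw [hval, h02, h, k_z_x]⟩
    · rintro w ⟨p, hp⟩
      have hl1 : lineOf D x y ⊆ span (threeTranspositionLines D) (lineOf D x y ∪ lineOf D x z) :=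
        Set.subset_union_left.trans (sub_span _ _)
      have hl2 : lineOf D x z ⊆ span (threeTranspositionLines D) (lineOf D x y ∪ lineOf D x z) :=
        Set.subset_union_right.trans (sub_span _ _)
      have hys : (⟨y, hy⟩ : D) ∈
          span (threeTranspositionLines D) (lineOf D x y ∪ lineOf D x z) :=
        hl1 (Or.inr (Or.inl rfl))
      have hy's : (⟨y', hy'D⟩ : D) ∈
          span (threeTranspositionLines D) (lineOf D x y ∪ lineOf D x z) :=
        hl1 (Or.inr (Or.inr k_y_x.symm))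
      have hzs : (⟨z, hz⟩ : D) ∈
          span (threeTranspositionLines D) (lineOf D x y ∪ lineOf D x z) :=
        hl2 (Or.inr (Or.inl rfl))
      have hz's : (⟨z', hz'D⟩ : D) ∈
          span (threeTranspositionLines D) (lineOf D x y ∪ lineOf D x z) :=
        hl2 (Or.inr (Or.inr k_z_x.symm))
      have hthird : ∀ (u v : G) (hu : u ∈ D) (hv : v ∈ D), ¬ Commute u v →
          (⟨u, hu⟩ : D) ∈ span (threeTranspositionLines D) (lineOf D x y ∪ lineOf D x z) →
          (⟨v, hv⟩ : D) ∈ span (threeTranspositionLines D) (lineOf D x y ∪ lineOf D x z) →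
          ∀ w : D, (w : G) = v * u * v⁻¹ →
          w ∈ span (threeTranspositionLines D) (lineOf D x y ∪ lineOf D x z) := by
        intro u v hu hv huv hus hvs w hw
        have hne' : (⟨u, hu⟩ : D) ≠ ⟨v, hv⟩ := by
          intro h'
          apply huv
          have h'' : u = v := congrArg Subtype.val h'
          rw [h'']
        exact span_sub _ _ _ (lineOf_mem hu hv huv) _ hus _ hvs hne' (Or.inl rfl)
          (Or.inr (Or.inl rfl)) (Or.inr (Or.inr hw))
      rw [helt] at hp
      rcases h3 (p 0) with g | g | g <;> rcases h3 (p 1) with g' | g' | g' <;> rw [g, g'] at hp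
      · rw [h00] at hp; exact hl1 (Or.inl hp.symm)
      · rw [h01] at hp; exact hl2 (Or.inr (Or.inl hp.symm))
      · rw [h02] at hp; exact hl2 (Or.inr (Or.inr (by rw [← hp, k_z_x])))
      · rw [h10] at hp; exact hl1 (Or.inr (Or.inl hp.symm))
      · rw [h11] at hp
        exact hthird z' y' hz'D hy'D (fun h => hy'z' h.symm) hz's hy's w (by rw [← hp, hd])
      · rw [h12] at hp
        exact hthird z y' hz hy'D (fun h => hy'z h.symm) hzs hy's w (by rw [← hp, hc])
      · rw [h20] at hp; exact hl1 (Or.inr (Or.inr (by rw [← hp, k_y_x])))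
      · rw [h21] at hp
        exact hthird z' y hz'D hy (fun h => hyz' h.symm) hz's hys w (by rw [← hp, hb])
      · rw [h22] at hp
        exact hthird z y hz hy (fun h => hyz h.symm) hzs hys w (by rw [← hp, ha])
  rw [hspan]
  exact U2

/-- Let D be a conjugation-invariant generating set of 3-transpositions of a finite group G. Then the line system on D whose lines are the triples {x, y, y x y⁻¹} for non-commuting members x, y of D is a Fischer space: two points lie on at most one line, lines have three points, and two different meeting lines generate a subspace isomorphic to the dual affine plane of order two or to the affine plane of order three. -/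
theorem result {G : Type*} [Group G] [Finite G] {D : Set G} (hD : Cfsg.IsThreeTranspositionGroup D) : Cfsg.IsFischerSpace (Cfsg.threeTranspositionLines D) := by
  classical
  have hTS := hD.1
  have hconj := hD.2.1
  refine ⟨lines_partialLinear hTS, lines_ncard hconj, ?_⟩
  rintro l hl m hm hlm ⟨x, hxl, hxm⟩
  have hpick : ∀ l ∈ threeTranspositionLines D, ∀ x ∈ l, ∃ y ∈ l, y ≠ x := by
    intro l hl x hx
    have h3 := lines_ncard hconj l hl
    by_contra hcon
    push Not at hcon
    have h1 : l ⊆ {x} := fun y hy => hcon y hy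
    have h2 := Set.ncard_le_ncard h1 (Set.finite_singleton x)
    rw [h3, Set.ncard_singleton] at h2
    omega
  obtain ⟨y, hyl, hyx⟩ := hpick l hl x hxl
  obtain ⟨z, hzm, hzx⟩ := hpick m hm x hxm
  obtain ⟨hxy, hl'⟩ := line_of_two hTS hl hxl hyl (Ne.symm hyx)
  obtain ⟨hxz, hm'⟩ := line_of_two hTS hm hxm hzm (Ne.symm hzx)
  have hx2 := sq_one (hTS.1 x x.2)
  have hy2 := sq_one (hTS.1 y y.2)
  have hz2 := sq_one (hTS.1 z z.2)
  have hbxy : (x : G) * y * x = y * x * y := by
    rcases commute_or_braid hTS x.2 y.2 with h | h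
    · exact absurd h hxy
    · exact h
  have hbxz : (x : G) * z * x = z * x * z := by
    rcases commute_or_braid hTS x.2 z.2 with h | h
    · exact absurd h hxz
    · exact h
  have txy := s3_facts hx2 hy2 hbxy
  have txz := s3_facts hx2 hz2 hbxz
  have hy'D : (x : G) * y * (x : G)⁻¹ ∈ D := hconj x y y.2
  have hz'D : (x : G) * z * (x : G)⁻¹ ∈ D := hconj x z z.2
  have hy'l : (⟨(x : G) * y * (x : G)⁻¹, hy'D⟩ : D) ∈ l := by
    rw [hl']
    exact Or.inr (Or.inr txy.1)
  have hz'm : (⟨(x : G) * z * (x : G)⁻¹, hz'D⟩ : D) ∈ m := by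
    rw [hm']
    exact Or.inr (Or.inr txz.1)
  have hyz_m : ∀ w : D, w ∈ l → w ∈ m → w = x := by
    intro w hwl hwm
    by_contra hwx
    apply hlm
    rw [(line_of_two hTS hl hxl hwl (Ne.symm hwx)).2, (line_of_two hTS hm hxm hwm (Ne.symm hwx)).2]
  have hxz' : ¬ Commute (x : G) ((x : G) * z * (x : G)⁻¹) := by
    intro h
    apply hxz
    have h1 : Commute ((x : G) * x * (x : G)⁻¹) ((x : G) * z * (x : G)⁻¹) := by
      have e : (x : G) * x * (x : G)⁻¹ = x := by group
      rw [e]; exact h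
    exact (Commute.conj_iff (x : G)).mp h1
  have hxy' : ¬ Commute (x : G) ((x : G) * y * (x : G)⁻¹) := by
    intro h
    apply hxy
    have h1 : Commute ((x : G) * x * (x : G)⁻¹) ((x : G) * y * (x : G)⁻¹) := by
      have e : (x : G) * x * (x : G)⁻¹ = x := by group
      rw [e]; exact h
    exact (Commute.conj_iff (x : G)).mp h1
  -- y is not on m, z and z' are not on l
  have hyz_ne : (y : G) ≠ z := by
    intro h
    apply hyx
    apply hyz_m y hyl
    have : y = z := Subtype.ext h
    rw [this]; exact hzm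
  have hyz'_ne : (y : G) ≠ (x : G) * z * (x : G)⁻¹ := by
    intro h
    apply hyx
    apply hyz_m y hyl
    have : y = ⟨(x : G) * z * (x : G)⁻¹, hz'D⟩ := Subtype.ext h
    rw [this]; exact hz'm
  have hzy'_ne : (z : G) ≠ (x : G) * y * (x : G)⁻¹ := by
    intro h
    apply hzx
    apply hyz_m z _ hzm
    have : z = ⟨(x : G) * y * (x : G)⁻¹, hy'D⟩ := Subtype.ext h
    rw [this]; exact hy'l
  by_cases hyz : Commute (y : G) (z : G)
  · left
    have := da_case hD x.2 y.2 z.2 hxy hxz hyz hyz_ne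
    rw [← hl', ← hm'] at this
    exact this
  · by_cases hyz' : Commute (y : G) ((x : G) * z * (x : G)⁻¹)
    · left
      have := da_case hD x.2 y.2 hz'D hxy hxz' hyz' hyz'_ne
      have hm'' : m = lineOf D (x : G) ((x : G) * z * (x : G)⁻¹) := by
        have hne : x ≠ (⟨(x : G) * z * (x : G)⁻¹, hz'D⟩ : D) := by
          intro h
          apply hxz'
          have h' : (x : G) = (x : G) * z * (x : G)⁻¹ := congrArg Subtype.val h
          rw [← h']
        exact (line_of_two hTS hm hxm hz'm hne).2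
      rw [← hl', ← hm''] at this
      exact this
    · right
      have := ag_case hD x.2 y.2 z.2 hxy hxz hyz hyz' (Ne.symm hyz_ne) hzy'_ne
      rw [← hl', ← hm'] at this
      exact this

end Cfsg.Agent.S5367
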