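import Cfsg.Statements.S5387
import Mathlib
import Cfsg.Agent.H91.L34Star
import Cfsg.Agent.H73.L34Ea
import Cfsg.Agent.H73.L34Tr
import Cfsg.Agent.H44.L34Sb
import Cfsg.Agent.H44.L34Fp
import Cfsg.Agent.H18.L34Fus
import Cfsg.Agent.H24.L34Idx
import Cfsg.Agent.H60.L34Cfg

set_option autoImplicit false
open Cfsg

namespace Cfsg.Agent.S5387

/-- Up to isomorphism there is at most one quasisimple group whose centre is elementary abelian of order 4 and whose central quotient is isomorphic to the projective special linear group of dimension 3 over the field with four elements: any two such groups are isomorphic. -/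
theorem result {L₁ L₂ : Type*} [Group L₁] [Finite L₁] [Group L₂] [Finite L₂] (F : Type) [Field F] [Fintype F] (hF : Fintype.card F = 4) (h₁ : Cfsg.IsQuasisimple L₁) (h₂ : Cfsg.IsQuasisimple L₂) (hc₁ : Nat.card (Subgroup.center L₁) = 4) (hc₂ : Nat.card (Subgroup.center L₂) = 4) (he₁ : ∀ x ∈ Subgroup.center L₁, x * x = 1) (he₂ : ∀ x ∈ Subgroup.center L₂, x * x = 1) (e₁ : L₁ ⧸ Subgroup.center L₁ ≃* Matrix.ProjectiveSpecialLinearGroup (Fin 3) F) (e₂ : L₂ ⧸ Subgroup.center L₂ ≃* Matrix.ProjectiveSpecialLinearGroup (Fin 3) F) : Nonempty (L₁ ≃* L₂) := by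
  have hp1 : commutator L₁ = ⊤ := h₁.1.commutator_eq_top
  have hp2 : commutator L₂ = ⊤ := h₂.1.commutator_eq_top
  let π₁ : L₁ →* Matrix.ProjectiveSpecialLinearGroup (Fin 3) F :=
    e₁.toMonoidHom.comp (QuotientGroup.mk' (Subgroup.center L₁))
  let π₂ : L₂ →* Matrix.ProjectiveSpecialLinearGroup (Fin 3) F :=
    e₂.toMonoidHom.comp (QuotientGroup.mk' (Subgroup.center L₂))
  have hs1 : Function.Surjective π₁ :=
    e₁.surjective.comp (QuotientGroup.mk'_surjective _)
  have hs2 : Function.Surjective π₂ :=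
    e₂.surjective.comp (QuotientGroup.mk'_surjective _)
  have hk1 : π₁.ker = Subgroup.center L₁ := by
    ext x
    rw [MonoidHom.mem_ker]
    show e₁ (QuotientGroup.mk' _ x) = 1 ↔ _
    rw [MulEquiv.map_eq_one_iff, QuotientGroup.mk'_apply, QuotientGroup.eq_one_iff]
  have hk2 : π₂.ker = Subgroup.center L₂ := by
    ext x
    rw [MonoidHom.mem_ker]
    show e₂ (QuotientGroup.mk' _ x) = 1 ↔ _
    rw [MulEquiv.map_eq_one_iff, QuotientGroup.mk'_apply, QuotientGroup.eq_one_iff]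
  have hfin : Finite (Matrix.ProjectiveSpecialLinearGroup (Fin 3) F) := by
    unfold Matrix.ProjectiveSpecialLinearGroup
    infer_instance
  exact Cfsg.Agent.H44.L34.fp π₁ π₂ hs1 hs2 hk1 hk2 hp1 hp2 hc₁ hc₂ he₁ he₂
    (fun ρ hs hk he hp =>
      Cfsg.Agent.H91.L34.star Cfsg.Agent.H73.L34.ea Cfsg.Agent.H44.L34.sb Cfsg.Agent.H73.L34.tr
        (Cfsg.Agent.H60.L34.cfg Cfsg.Agent.H18.L34.fus1 Cfsg.Agent.H18.L34.fus2
          Cfsg.Agent.H24.L34.idx hF) ρ hs hk he hp)

end Cfsg.Agent.S5387
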