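import Cfsg.Statements.S5392
import Cfsg.Agent.H93.CoMod2

set_option autoImplicit false
open Cfsg

namespace Cfsg.Agent.S5392

/-- The Leech lattice modulo twice itself is a faithful irreducible module for the first Conway group: an automorphism of the rank-24 lattice built from the length-24 code that moves every lattice vector only by twice a lattice vector lies in the centre of the automorphism group (the centre consists of ±1, which act trivially there, so the kernel is exactly the centre), and an additive subgroup lying between twice the lattice and the lattice that is invariant under all lattice automorphisms is one of the two. -/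
theorem result : (∀ g : ↥Cfsg.Co0, (∀ v : ↥Cfsg.leechLattice, ∃ w : ↥Cfsg.leechLattice, ((g • v : ↥Cfsg.leechLattice) : Cfsg.GolayPt → ℤ) - (v : Cfsg.GolayPt → ℤ) = 2 • (w : Cfsg.GolayPt → ℤ)) → g ∈ Subgroup.center ↥Cfsg.Co0) ∧ ∀ M : AddSubgroup (Cfsg.GolayPt → ℤ), (∀ v ∈ Cfsg.leechLattice, (2 : ℤ) • v ∈ M) → M ≤ Cfsg.leechLattice → (∀ g : ↥Cfsg.Co0, ∀ v : ↥Cfsg.leechLattice, (v : Cfsg.GolayPt → ℤ) ∈ M → ((g • v : ↥Cfsg.leechLattice) : Cfsg.GolayPt → ℤ) ∈ M) → (∀ x ∈ M, ∃ w ∈ Cfsg.leechLattice, x = (2 : ℤ) • w) ∨ M = Cfsg.leechLattice := by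
  exact ⟨Cfsg.Agent.H93.mod2_faithful, fun M h2 hle hinv => Cfsg.Agent.H93.irr_main M hle hinv h2⟩

end Cfsg.Agent.S5392
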