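import Cfsg.Statements.S5393

set_option autoImplicit false
open Cfsg

namespace Cfsg.Agent.S5393

open scoped Pointwise

/-- the shift `x ↦ x + 1` on the 24 points, fixing the extra point -/
def shift : Equiv.Perm GolayPt := Equiv.optionCongr (Equiv.addRight (1 : ZMod 23))

theorem shift_none : shift none = none := rfl
theorem shift_some (x : ZMod 23) : shift (some x) = some (x + 1) := rfl
theorem shift_symm_none : shift.symm none = none := rfl
theorem shift_symm_some (x : ZMod 23) : shift.symm (some x) = some (x - 1) := by
  show some (x + -1) = some (x - 1)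
  rw [sub_eq_add_neg]

theorem qr_shift (t : ZMod 23) : (fun p => qrWord t (shift.symm p)) = qrWord (t + 1) := by
  funext p
  cases p with
  | none => rfl
  | some x =>
    rw [shift_symm_some]
    have : (∃ r : ZMod 23, x - 1 = r ^ 2 + t) ↔ (∃ r : ZMod 23, x = r ^ 2 + (t + 1)) := by
      constructor
      · rintro ⟨r, hr⟩; exact ⟨r, by linear_combination hr⟩
      · rintro ⟨r, hr⟩; exact ⟨r, by linear_combination hr⟩
    simp only [qrWord, this]

theorem qr_shift' (t : ZMod 23) : (fun p => qrWord t (shift p)) = qrWord (t - 1) := by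
  funext p
  cases p with
  | none => rfl
  | some x =>
    rw [shift_some]
    have : (∃ r : ZMod 23, x + 1 = r ^ 2 + t) ↔ (∃ r : ZMod 23, x = r ^ 2 + (t - 1)) := by
      constructor
      · rintro ⟨r, hr⟩; exact ⟨r, by linear_combination hr⟩
      · rintro ⟨r, hr⟩; exact ⟨r, by linear_combination hr⟩
    simp only [qrWord, this]

theorem qr_sum : ∀ t : ZMod 23, ∑ p, qrWord t p = 0 := by decide

theorem qr_dot : ∀ t : ZMod 23, ∑ p, qrWord t p * qrWord 0 p = 0 := by decide

/-- the code is invariant under the shift -/
theorem shift_mem {w : GolayPt → ZMod 2} (hw : w ∈ golayCode) :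
    (fun p => w (shift.symm p)) ∈ golayCode := by
  unfold golayCode at hw ⊢
  induction hw using Submodule.span_induction with
  | mem x hx =>
    rcases hx with ⟨t, rfl⟩ | hx
    · rw [qr_shift]
      exact Submodule.subset_span (Or.inl ⟨t + 1, rfl⟩)
    · rw [Set.mem_singleton_iff] at hx
      subst hx
      exact Submodule.subset_span (Or.inr rfl)
  | zero => exact Submodule.zero_mem _
  | add x y _ _ hx hy => exact Submodule.add_mem _ hx hy
  | smul a x _ hx => exact Submodule.smul_mem _ a hx

theorem shift_mem' {w : GolayPt → ZMod 2} (hw : w ∈ golayCode) :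
    (fun p => w (shift p)) ∈ golayCode := by
  unfold golayCode at hw ⊢
  induction hw using Submodule.span_induction with
  | mem x hx =>
    rcases hx with ⟨t, rfl⟩ | hx
    · rw [qr_shift']
      exact Submodule.subset_span (Or.inl ⟨t - 1, rfl⟩)
    · rw [Set.mem_singleton_iff] at hx
      subst hx
      exact Submodule.subset_span (Or.inr rfl)
  | zero => exact Submodule.zero_mem _
  | add x y _ _ hx hy => exact Submodule.add_mem _ hx hy
  | smul a x _ hx => exact Submodule.smul_mem _ a hx

theorem smul_support₂ (τ : Equiv.Perm GolayPt) (w : GolayPt → ZMod 2) :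
    τ • support₂ w = support₂ (fun p => w (τ.symm p)) := by
  ext p
  simp only [Finset.mem_smul_finset, support₂, Finset.mem_filter, Finset.mem_univ, true_and,
    Equiv.Perm.smul_def]
  constructor
  · rintro ⟨q, hq, rfl⟩
    simpa using hq
  · intro h
    exact ⟨τ.symm p, h, by simp⟩

theorem shift_mem_M24 : shift ∈ M24 := by
  rw [MulAction.mem_stabilizer_iff]
  ext b
  constructor
  · intro hb
    obtain ⟨b₀, ⟨w, hw, rfl⟩, rfl⟩ := Set.mem_smul_set.mp hb
    rw [smul_support₂]
    exact ⟨_, shift_mem hw, rfl⟩
  · rintro ⟨w, hw, rfl⟩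
    have h1 : support₂ w = shift • support₂ (fun p => w (shift p)) := by
      rw [smul_support₂]
      congr 1
      funext p
      simp
    rw [h1]
    exact Set.smul_mem_smul_set ⟨_, shift_mem' hw, rfl⟩

/-- every code word has even weight -/
theorem sum_eq_zero {w : GolayPt → ZMod 2} (hw : w ∈ golayCode) : ∑ p, w p = 0 := by
  unfold golayCode at hw
  induction hw using Submodule.span_induction with
  | mem x hx =>
    rcases hx with ⟨t, rfl⟩ | hx
    · exact qr_sum t
    · rw [Set.mem_singleton_iff] at hx
      subst hx
      decide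
  | zero => simp
  | add x y _ _ hx hy => simp [Finset.sum_add_distrib, hx, hy]
  | smul a x _ hx => simp [← Finset.mul_sum, hx]

/-- every code word is orthogonal to `qrWord 0` -/
theorem dot_eq_zero {w : GolayPt → ZMod 2} (hw : w ∈ golayCode) : ∑ p, w p * qrWord 0 p = 0 := by
  unfold golayCode at hw
  induction hw using Submodule.span_induction with
  | mem x hx =>
    rcases hx with ⟨t, rfl⟩ | hx
    · exact qr_dot t
    · rw [Set.mem_singleton_iff] at hx
      subst hx
      simpa using qr_sum 0
  | zero => simp
  | add x y _ _ hx hy => simp [add_mul, Finset.sum_add_distrib, hx, hy]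
  | smul a x _ hx => simp [mul_assoc, ← Finset.mul_sum, hx]

/-- a word fixed by the shift is constant on the 23 residues -/
theorem const_of_shift_fixed {w : GolayPt → ZMod 2} (h : (fun p => w (shift.symm p)) = w) :
    ∀ x : ZMod 23, w (some x) = w (some 0) := by
  have h1 : ∀ x : ZMod 23, w (some (x - 1)) = w (some x) := by
    intro x
    have := congrFun h (some x)
    simpa [shift_symm_some] using this
  have h2 : ∀ n : ℕ, w (some (n : ZMod 23)) = w (some 0) := by
    intro n
    induction n with
    | zero => simp
    | succ n ih =>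
      have := h1 ((n : ZMod 23) + 1)
      rw [add_sub_cancel_right] at this
      rw [Nat.cast_succ, ← this, ih]
  intro x
  have := h2 x.val
  rwa [ZMod.natCast_zmod_val] at this

/-- the only code words fixed by the shift are zero and the all-ones word -/
theorem fixed_eq {w : GolayPt → ZMod 2} (hw : w ∈ golayCode)
    (h : (fun p => w (shift.symm p)) = w) : w = 0 ∨ w = 1 := by
  have hc := const_of_shift_fixed h
  have hs := sum_eq_zero hw
  rw [Fintype.sum_option] at hs
  have h23 : ∑ x : ZMod 23, w (some x) = w (some 0) := by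
    rw [Finset.sum_congr rfl (fun x _ => hc x)]
    simp only [Finset.sum_const, Finset.card_univ, ZMod.card, nsmul_eq_mul]
    have : ((23 : ℕ) : ZMod 2) = 1 := by decide
    rw [this, one_mul]
  rw [h23] at hs
  have hnone : w none = w (some 0) := by
    have h2 : ∀ a b : ZMod 2, a + b = 0 → a = b := by decide
    exact h2 _ _ hs
  have h01 : ∀ a : ZMod 2, a = 0 ∨ a = 1 := by decide
  rcases h01 (w (some 0)) with h0 | h0
  · left
    funext p
    cases p with
    | none => rw [hnone, h0]; rfl
    | some x => rw [hc x, h0]; rfl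
  · right
    funext p
    cases p with
    | none => rw [hnone, h0]; rfl
    | some x => rw [hc x, h0]; rfl

theorem shift_symm_iterate (n : ℕ) (x : ZMod 23) :
    (shift.symm)^[n] (some x) = some (x - n) := by
  induction n generalizing x with
  | zero => simp
  | succ n ih =>
    rw [Function.iterate_succ_apply, shift_symm_some, ih]
    congr 1
    push_cast
    ring

theorem shift_symm_iterate_23 (p : GolayPt) : (shift.symm)^[23] p = p := by
  cases p with
  | none =>
    have : ∀ n : ℕ, (shift.symm)^[n] none = none := by
      intro n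
      induction n with
      | zero => rfl
      | succ n ih => rw [Function.iterate_succ_apply, shift_symm_none, ih]
    exact this 23
  | some x =>
    rw [shift_symm_iterate]
    congr 1
    have : ((23 : ℕ) : ZMod 23) = 0 := by decide
    rw [this, sub_zero]

/-- the counting step: a shift-invariant subspace of the code containing the all-ones word has
`2 ^ k` elements with `2 ^ k ≡ 2` modulo 23 -/
theorem card_modEq (W : Submodule (ZMod 2) (GolayPt → ZMod 2)) (h1 : (1 : GolayPt → ZMod 2) ∈ W)
    (hW : W ≤ golayCode) (hinv : ∀ w ∈ W, (fun p => w (shift.symm p)) ∈ W) :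
    2 ^ Module.finrank (ZMod 2) W ≡ 2 [MOD 23] := by
  classical
  have : Fact (Nat.Prime 23) := ⟨by norm_num⟩
  let f : Function.End W := fun w => ⟨fun p => w.1 (shift.symm p), hinv w.1 w.2⟩
  have hiter : ∀ n : ℕ, ∀ w : W, ((f^[n] w : W) : GolayPt → ZMod 2) = fun p => w.1 ((shift.symm)^[n] p) := by
    intro n
    induction n with
    | zero => intro w; rfl
    | succ n ih =>
      intro w
      have e : ((f (f^[n] w) : W) : GolayPt → ZMod 2)
          = fun p => ((f^[n] w : W) : GolayPt → ZMod 2) (shift.symm p) := rfl
      rw [Function.iterate_succ_apply', e, ih]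
      funext p
      show w.1 ((shift.symm)^[n] (shift.symm p)) = w.1 ((shift.symm)^[n + 1] p)
      rw [Function.iterate_succ_apply]
  have hf : f ^ 23 ^ 1 = 1 := by
    rw [pow_one]
    have e : ((f ^ 23 : Function.End W) : W → W) = f^[23] :=
      hom_coe_pow (fun g : Function.End W => (g : W → W)) rfl (fun _ _ => rfl) f 23
    funext w
    show (f ^ 23 : Function.End W) w = w
    rw [e]
    apply Subtype.ext
    rw [hiter]
    funext p
    rw [shift_symm_iterate_23]
  have hmod := Equiv.Perm.card_fixedPoints_modEq (f := f) (p := 23) (n := 1) hf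
  have hcard : Fintype.card W = 2 ^ Module.finrank (ZMod 2) W := by
    rw [Module.card_eq_pow_finrank (K := ZMod 2) (V := W), ZMod.card]
  have h0W : (0 : GolayPt → ZMod 2) ∈ W := W.zero_mem
  have hfix : Function.fixedPoints f = {⟨0, h0W⟩, ⟨1, h1⟩} := by
    ext w
    simp only [Set.mem_insert_iff, Set.mem_singleton_iff]
    constructor
    · intro h
      have h' : (fun p => w.1 (shift.symm p)) = w.1 := congrArg Subtype.val h
      rcases fixed_eq (hW w.2) h' with h2 | h2
      · left; exact Subtype.ext h2
      · right; exact Subtype.ext h2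
    · rintro (h | h)
      · subst h; apply Subtype.ext; rfl
      · subst h; apply Subtype.ext; rfl
  have hfixcard : Fintype.card (Function.fixedPoints f) = 2 := by
    rw [Fintype.card_eq_nat_card, Nat.card_coe_set_eq, hfix]
    apply Set.ncard_pair
    intro h
    have h2 : (0 : GolayPt → ZMod 2) = 1 := congrArg Subtype.val h
    have h3 : (0 : GolayPt → ZMod 2) none = (1 : GolayPt → ZMod 2) none := congrFun h2 none
    exact absurd h3 (by decide)
  rw [hcard, hfixcard] at hmod
  exact hmod

theorem finrank_le : Module.finrank (ZMod 2) golayCode ≤ 22 := by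
  let par : (GolayPt → ZMod 2) →ₗ[ZMod 2] ZMod 2 := ∑ p : GolayPt, LinearMap.proj p
  let dot : (GolayPt → ZMod 2) →ₗ[ZMod 2] ZMod 2 := ∑ p : GolayPt, qrWord 0 p • LinearMap.proj p
  have hpar : ∀ w, par w = ∑ p, w p := by
    intro w; simp [par, LinearMap.sum_apply]
  have hdot : ∀ w, dot w = ∑ p, w p * qrWord 0 p := by
    intro w; simp [dot, LinearMap.sum_apply, mul_comm]
  let Φ : (GolayPt → ZMod 2) →ₗ[ZMod 2] (ZMod 2 × ZMod 2) := par.prod dot
  have hle : golayCode ≤ LinearMap.ker Φ := by
    intro w hw
    rw [LinearMap.mem_ker]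
    show (par w, dot w) = 0
    rw [hpar, hdot, sum_eq_zero hw, dot_eq_zero hw]
    rfl
  have hsurj : Function.Surjective Φ := by
    rintro ⟨a, b⟩
    refine ⟨(a + b) • Pi.single none 1 + b • Pi.single (some 0) 1, ?_⟩
    show (par _, dot _) = (a, b)
    rw [hpar, hdot]
    have e1 : ∑ p, (Pi.single (none : GolayPt) (1 : ZMod 2) : GolayPt → ZMod 2) p = 1 := by decide
    have e2 : ∑ p, (Pi.single (some 0 : GolayPt) (1 : ZMod 2) : GolayPt → ZMod 2) p = 1 := by decide
    have e3 : ∑ p, (Pi.single (none : GolayPt) (1 : ZMod 2) : GolayPt → ZMod 2) p * qrWord 0 p = 0 := by decide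
    have e4 : ∑ p, (Pi.single (some 0 : GolayPt) (1 : ZMod 2) : GolayPt → ZMod 2) p * qrWord 0 p = 1 := by decide
    simp only [Pi.add_apply, Pi.smul_apply, smul_eq_mul, add_mul, Finset.sum_add_distrib,
      mul_assoc, ← Finset.mul_sum, e1, e2, e3, e4, mul_one, mul_zero, add_zero, zero_add]
    have h2 : ∀ a b : ZMod 2, a + b + b = a := by decide
    rw [h2]
  have hrange : LinearMap.range Φ = ⊤ := LinearMap.range_eq_top.mpr hsurj
  have hrk := LinearMap.finrank_range_add_finrank_ker Φ
  rw [hrange, finrank_top, Module.finrank_prod, Module.finrank_self, Module.finrank_fintype_fun_eq_card] at hrk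
  have hc : Fintype.card GolayPt = 24 := by decide
  rw [hc] at hrk
  have := Submodule.finrank_mono hle
  omega

theorem arith : ∀ k : Fin 23, 2 ^ (k : ℕ) % 23 = 2 → (k : ℕ) = 1 ∨ (k : ℕ) = 12 := by decide

theorem arith' {k : ℕ} (hk : k ≤ 22) (h : 2 ^ k ≡ 2 [MOD 23]) : k = 1 ∨ k = 12 := by
  have := arith ⟨k, by omega⟩
  exact this h

/-- The length-24 code built from the squares modulo 23 contains the all-ones word, and the code modulo the all-ones word is an irreducible module over the field with two elements for the code's automorphism group: a subspace of the code that contains the all-ones word and is invariant under every coordinate permutation preserving the code is either the span of the all-ones word or the whole code. -/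
theorem result : (fun _ : Cfsg.GolayPt => (1 : ZMod 2)) ∈ Cfsg.golayCode ∧ ∀ W : Submodule (ZMod 2) (Cfsg.GolayPt → ZMod 2), (fun _ => (1 : ZMod 2)) ∈ W → W ≤ Cfsg.golayCode → (∀ σ ∈ Cfsg.M24, ∀ w ∈ W, (fun p => w (σ.symm p)) ∈ W) → W = Submodule.span (ZMod 2) {fun _ => (1 : ZMod 2)} ∨ W = Cfsg.golayCode := by
  have hone : (fun _ : Cfsg.GolayPt => (1 : ZMod 2)) ∈ Cfsg.golayCode :=
    Submodule.subset_span (Set.mem_union_right _ rfl)
  refine ⟨hone, ?_⟩
  intro W h1 hW hinv
  have hm := card_modEq golayCode hone le_rfl (fun w hw => shift_mem hw)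
  have hk := card_modEq W h1 hW (fun w hw => hinv shift shift_mem_M24 w hw)
  have hm22 := finrank_le
  have hkm : Module.finrank (ZMod 2) W ≤ Module.finrank (ZMod 2) golayCode :=
    Submodule.finrank_mono hW
  rcases arith' (by omega) hk with hk1 | hk12
  · left
    have hle : Submodule.span (ZMod 2) {fun _ : Cfsg.GolayPt => (1 : ZMod 2)} ≤ W := by
      rw [Submodule.span_le]
      intro x hx
      rw [Set.mem_singleton_iff] at hx
      subst hx
      exact h1
    have hne : (fun _ : Cfsg.GolayPt => (1 : ZMod 2)) ≠ 0 := by
      intro h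
      have := congrFun h none
      revert this
      decide
    have hfr : Module.finrank (ZMod 2) (Submodule.span (ZMod 2) {fun _ : Cfsg.GolayPt => (1 : ZMod 2)}) = 1 :=
      finrank_span_singleton hne
    exact (Submodule.eq_of_le_of_finrank_eq hle (by rw [hfr, hk1])).symm
  · right
    rcases arith' hm22 hm with hm1 | hm12
    · omega
    · exact Submodule.eq_of_le_of_finrank_eq hW (by rw [hk12, hm12])

end Cfsg.Agent.S5393
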