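import Cfsg.Statements.S5394
import Cfsg.Agent.H94.EltConj

set_option autoImplicit false
open Cfsg

namespace Cfsg.Agent.S5394

open Cfsg.Agent.H9 Cfsg.Agent.H33 Cfsg.Agent.H94
open scoped Pointwise

theorem r8_bits : ∀ i < 24, (lk r8 i = i ↔ Nat.testBit 0x8bc120 i = true) := by decide +kernel

theorem r8e_fixset : (Finset.univ.filter fun p => r8e p = p) = fs 0x8bc120 := by
  ext p
  rw [Finset.mem_filter, mem_fs, ← r8_bits (gIdx p) (gIdx_lt p), ← r8e_rep p]
  constructor
  · rintro ⟨-, h⟩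
    rw [h]
  · intro h
    exact ⟨Finset.mem_univ _, gIdx_injective h⟩

theorem fix8_octad : fs 0x8bc120 ∈ octads :=
  fs_mem_octads (by decide +kernel) (by decide +kernel)

theorem fpf_of_card {g : Equiv.Perm GolayPt}
    (h : (Finset.univ.filter fun p => g p = p).card = 0) : ∀ p, g p ≠ p := by
  rw [Finset.card_eq_zero, Finset.filter_eq_empty_iff] at h
  exact fun p => h (Finset.mem_univ p)

theorem card_of_fpf {g : Equiv.Perm GolayPt} (h : ∀ p, g p ≠ p) :
    (Finset.univ.filter fun p => g p = p).card = 0 := by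
  rw [Finset.card_eq_zero, Finset.filter_eq_empty_iff]
  exact fun p _ => h p

theorem fixset_conj {k g r : Equiv.Perm GolayPt} (h : k * g * k⁻¹ = r) :
    (Finset.univ.filter fun p => g p = p) = k⁻¹ • (Finset.univ.filter fun p => r p = p) := by
  ext p
  rw [Finset.mem_inv_smul_finset_iff, Finset.mem_filter, Finset.mem_filter]
  simp only [Finset.mem_univ, true_and]
  have e : r (k p) = k (g p) := by
    rw [← h]
    simp
  show g p = p ↔ r (k p) = k p
  rw [e]
  constructor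
  · intro h1
    rw [h1]
  · intro h1
    exact k.injective h1

theorem conj_of_same {k1 k2 g h r : Equiv.Perm GolayPt} (h1 : k1 * g * k1⁻¹ = r)
    (h2 : k2 * h * k2⁻¹ = r) : (k2⁻¹ * k1) * g * (k2⁻¹ * k1)⁻¹ = h := by
  have e : h = k2⁻¹ * r * k2 := by
    rw [← h2]
    group
  rw [e, ← h1]
  group


/-- The automorphism group of the length-24 code built from the squares modulo 23 has exactly two conjugacy classes of involutions: an involution either fixes exactly the eight points of an octad or has no fixed points, both kinds occur, and any two involutions of the same kind are conjugate in the group. -/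
theorem result : (∀ g ∈ Cfsg.M24, orderOf g = 2 → (Finset.univ.filter fun p => g p = p) ∈ Cfsg.octads ∨ ∀ p, g p ≠ p) ∧ (∃ g ∈ Cfsg.M24, orderOf g = 2 ∧ (Finset.univ.filter fun p => g p = p) ∈ Cfsg.octads) ∧ (∃ g ∈ Cfsg.M24, orderOf g = 2 ∧ ∀ p, g p ≠ p) ∧ ∀ g ∈ Cfsg.M24, ∀ h ∈ Cfsg.M24, orderOf g = 2 → orderOf h = 2 → ((∀ p, g p ≠ p) ↔ (∀ p, h p ≠ p)) → ∃ k ∈ Cfsg.M24, k * g * k⁻¹ = h := by
  refine ⟨?_, ?_, ?_, ?_⟩
  · intro g hg h2
    obtain ⟨k, hk, hc | hc⟩ := invol_conj hg h2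
    · left
      rw [fixset_conj hc, r8e_fixset]
      exact m24_smul_mem_octads (inv_mem hk) fix8_octad
    · right
      apply fpf_of_card
      rw [← fix_card_conj' k g, hc]
      exact r0e_fix
  · refine ⟨r8e, r8e_mem, r8e_order, ?_⟩
    rw [r8e_fixset]
    exact fix8_octad
  · exact ⟨r0e, r0e_mem, r0e_order, fpf_of_card r0e_fix⟩
  · intro g hg h hh hg2 hh2 hiff
    obtain ⟨k1, hk1, hc1⟩ := invol_conj hg hg2
    obtain ⟨k2, hk2, hc2⟩ := invol_conj hh hh2
    have key : ∀ {k1 k2 : Equiv.Perm GolayPt}, k1 ∈ M24 → k2 ∈ M24 → ∀ {r : Equiv.Perm GolayPt},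
        k1 * g * k1⁻¹ = r → k2 * h * k2⁻¹ = r → ∃ k ∈ M24, k * g * k⁻¹ = h :=
      fun {k1 k2} hk1 hk2 {r} e1 e2 => ⟨k2⁻¹ * k1, mul_mem (inv_mem hk2) hk1, conj_of_same e1 e2⟩
    have fg8 : ∀ {f k : Equiv.Perm GolayPt}, k * f * k⁻¹ = r8e → ¬ ∀ p, f p ≠ p := by
      intro f k e hf
      have h1 := card_of_fpf hf
      rw [← fix_card_conj' k f, e, r8e_fix] at h1
      omega
    have fg0 : ∀ {f k : Equiv.Perm GolayPt}, k * f * k⁻¹ = r0e → ∀ p, f p ≠ p := by
      intro f k e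
      apply fpf_of_card
      rw [← fix_card_conj' k f, e]
      exact r0e_fix
    rcases hc1 with hc1 | hc1 <;> rcases hc2 with hc2 | hc2
    · exact key hk1 hk2 hc1 hc2
    · exact absurd (hiff.mpr (fg0 hc2)) (fg8 hc1)
    · exact absurd (hiff.mp (fg0 hc1)) (fg8 hc2)
    · exact key hk1 hk2 hc1 hc2

end Cfsg.Agent.S5394
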