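import Cfsg.Statements.S5395

set_option autoImplicit false
open Cfsg
open scoped IsMulCommutative

namespace Cfsg.Agent.S5395

/-- the number of homomorphisms from a finite group to a commutative group of order 2 is at most the
order of the abelianization. -/
theorem card_hom_le {E : Type*} [Group E] [Finite E] (Z : Type*) [CommGroup Z] [Finite Z]
    (hZ : Nat.card Z = 2) : Nat.card (E →* Z) ≤ Nat.card (Abelianization E) := by
  have : NeZero (Monoid.exponent (Abelianization E)) := ⟨Monoid.exponent_ne_zero_of_finite⟩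
  have : NeZero (Monoid.exponent Z) := ⟨Monoid.exponent_ne_zero_of_finite⟩
  have h3 : Nat.card (Abelianization E →* ℂˣ) = Nat.card (Abelianization E) :=
    CommGroup.card_monoidHom_of_hasEnoughRootsOfUnity (Abelianization E) ℂ
  have hfin : Finite (Abelianization E →* ℂˣ) := by
    apply Nat.finite_of_card_ne_zero
    rw [h3]; exact Nat.card_pos.ne'
  -- an injective hom Z → ℂˣ
  have hnt : Nontrivial Z := by
    rw [← Finite.one_lt_card_iff_nontrivial, hZ]; norm_num
  obtain ⟨a, ha⟩ := exists_ne (1 : Z)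
  obtain ⟨ι, hι⟩ := CommGroup.exists_apply_ne_one_of_hasEnoughRootsOfUnity Z ℂ ha
  have hinj : Function.Injective ι := by
    rw [injective_iff_map_eq_one]
    intro x hx
    by_contra hx1
    obtain ⟨y, -, hy⟩ := (Nat.card_eq_two_iff' (1 : Z)).mp hZ
    have h1 := hy a ha
    have h2 := hy x hx1
    rw [h2, ← h1] at hx
    exact hι hx
  have h1 : Nat.card (E →* Z) = Nat.card (Abelianization E →* Z) :=
    Nat.card_congr Abelianization.lift
  have h2 : Nat.card (Abelianization E →* Z) ≤ Nat.card (Abelianization E →* ℂˣ) := by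
    apply Nat.card_le_card_of_injective (fun f => ι.comp f)
    intro f g hfg
    apply DFunLike.ext
    intro x
    have := DFunLike.congr_fun hfg x
    exact hinj this
  rw [h1, ← h3]; exact h2

/-- For a finite extraspecial 2-group E, an automorphism of E that induces the identity on E modulo its centre is inner (so these automorphisms form exactly the inner automorphism group, an elementary abelian 2-group of order |E|/2). -/
theorem result {E : Type*} [Group E] [Finite E] (hE : Cfsg.IsExtraspecial 2 E) (φ : E ≃* E) (hφ : ∀ x : E, φ x * x⁻¹ ∈ Subgroup.center E) : ∃ g : E, ∀ x : E, φ x = g * x * g⁻¹ := by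
  obtain ⟨⟨hp, hfrat, hcomm⟩, hcard⟩ := hE
  have hmem : ∀ g x : E, g * x * g⁻¹ * x⁻¹ ∈ Subgroup.center E := by
    intro g x
    rw [← hcomm, commutator_def]
    exact Subgroup.commutator_mem_commutator (Subgroup.mem_top g) (Subgroup.mem_top x)
  have hcen : ∀ c ∈ Subgroup.center E, ∀ x : E, c * x = x * c := by
    intro c hc x
    exact (Subgroup.mem_center_iff.mp hc x).symm
  -- the homomorphism x ↦ [g, x]
  let commHom : E → (E →* Subgroup.center E) := fun g =>
    { toFun := fun x => ⟨g * x * g⁻¹ * x⁻¹, hmem g x⟩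
      map_one' := by ext; simp
      map_mul' := by
        intro x y
        ext
        show g * (x * y) * g⁻¹ * (x * y)⁻¹ = (g * x * g⁻¹ * x⁻¹) * (g * y * g⁻¹ * y⁻¹)
        have h1 := hcen _ (hmem g y) x⁻¹
        calc g * (x * y) * g⁻¹ * (x * y)⁻¹ = g * x * g⁻¹ * ((g * y * g⁻¹ * y⁻¹) * x⁻¹) := by group
          _ = g * x * g⁻¹ * (x⁻¹ * (g * y * g⁻¹ * y⁻¹)) := by rw [h1]
          _ = (g * x * g⁻¹ * x⁻¹) * (g * y * g⁻¹ * y⁻¹) := by group }
  let Ψ : E →* (E →* Subgroup.center E) :=
    { toFun := commHom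
      map_one' := by
        ext x
        show (1 : E) * x * 1⁻¹ * x⁻¹ = 1
        simp
      map_mul' := by
        intro g h
        ext x
        show (g * h) * x * (g * h)⁻¹ * x⁻¹ = (g * x * g⁻¹ * x⁻¹) * (h * x * h⁻¹ * x⁻¹)
        have h1 := hcen _ (hmem h x) (x * g⁻¹ * x⁻¹)
        have h2 := hcen _ (hmem h x) g
        calc (g * h) * x * (g * h)⁻¹ * x⁻¹ = g * (h * x * h⁻¹ * x⁻¹) * x * g⁻¹ * x⁻¹ := by group
          _ = (h * x * h⁻¹ * x⁻¹) * g * x * g⁻¹ * x⁻¹ := by rw [h2]
          _ = (h * x * h⁻¹ * x⁻¹) * (g * x * g⁻¹ * x⁻¹) := by group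
          _ = (g * x * g⁻¹ * x⁻¹) * (h * x * h⁻¹ * x⁻¹) := by
              rw [hcen _ (hmem h x) (g * x * g⁻¹ * x⁻¹)] }
  have hker : Ψ.ker = Subgroup.center E := by
    ext g
    rw [MonoidHom.mem_ker, Subgroup.mem_center_iff]
    constructor
    · intro h x
      have := DFunLike.congr_fun h x
      have h1 : g * x * g⁻¹ * x⁻¹ = 1 := congrArg Subtype.val this
      have h2 : g * x * g⁻¹ = x := by
        have := mul_inv_eq_one.mp h1
        exact this
      calc x * g = (g * x * g⁻¹) * g := by rw [h2]
        _ = g * x := by group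
    · intro h
      ext x
      show g * x * g⁻¹ * x⁻¹ = 1
      rw [← h x]; group
  have hrange : Nat.card Ψ.range = Nat.card (Abelianization E) := by
    rw [← Subgroup.index_ker, hker, ← hcomm]
    exact Subgroup.index_eq_card _
  have hle := card_hom_le (E := E) (Subgroup.center E) hcard
  have hfin : Finite (E →* Subgroup.center E) := by
    apply Finite.of_injective (fun f : E →* Subgroup.center E => (f : E → Subgroup.center E))
    exact DFunLike.coe_injective
  have htop : Ψ.range = ⊤ := by
    apply Subgroup.eq_top_of_card_eq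
    apply le_antisymm
    · exact Subgroup.card_le_card_group _
    · rw [hrange]; exact hle
  let χ : E →* Subgroup.center E :=
    { toFun := fun x => ⟨φ x * x⁻¹, hφ x⟩
      map_one' := by ext; simp
      map_mul' := by
        intro x y
        ext
        show φ (x * y) * (x * y)⁻¹ = (φ x * x⁻¹) * (φ y * y⁻¹)
        have h1 := hcen _ (hφ y) x⁻¹
        calc φ (x * y) * (x * y)⁻¹ = φ x * ((φ y * y⁻¹) * x⁻¹) := by rw [map_mul]; group
          _ = φ x * (x⁻¹ * (φ y * y⁻¹)) := by rw [h1]
          _ = (φ x * x⁻¹) * (φ y * y⁻¹) := by group }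
  have hχ : χ ∈ Ψ.range := by rw [htop]; trivial
  obtain ⟨g, hg⟩ := hχ
  refine ⟨g, fun x => ?_⟩
  have := DFunLike.congr_fun hg x
  have h1 : g * x * g⁻¹ * x⁻¹ = φ x * x⁻¹ := congrArg Subtype.val this
  exact (mul_right_cancel h1).symm

end Cfsg.Agent.S5395
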