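import Cfsg.Statements.S5420
import Cfsg.Agent.H92.Basic

set_option autoImplicit false
open Cfsg Cfsg.Agent.H92

namespace Cfsg.Agent.S5420

/-- Let Q be an extraspecial 2-subgroup of the finite group G whose centralizer in G is its centre Z and which is normal in the centralizer of Z. If Z lies in the largest normal 2-subgroup of G, then Q is a large extraspecial 2-subgroup of G: it normalizes no non-trivial subgroup of G of odd order. -/
theorem result {G : Type*} [Group G] [Finite G] (Q : Subgroup G) (hL1 : Cfsg.IsExtraspecial 2 ↥Q) (hL2 : Subgroup.centralizer (Q : Set G) = ((Subgroup.center ↥Q).map Q.subtype)) (hL3 : Subgroup.centralizer (((Subgroup.center ↥Q).map Q.subtype) : Set G) ≤ Subgroup.normalizer (Q : Set G)) (hZ : ((Subgroup.center ↥Q).map Q.subtype) ≤ Cfsg.pCore 2 G) : Cfsg.IsLargeExtraspecial Q := by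
  have : Fact (Nat.Prime 2) := ⟨Nat.prime_two⟩
  refine ⟨hL1, hL2, hL3, ?_⟩
  intro K hK hQK
  have hQ2 : IsPGroup 2 Q := hL1.1.1
  have hQ2' : IsPGroup 2 (Q : Subgroup G) := hQ2
  have hcore := pCore_isPGroup (G := G) 2
  -- K centralizes Z
  have h1 : K ≤ Subgroup.centralizer (((Subgroup.center ↥Q).map Q.subtype) : Set G) := by
    intro k hk
    rw [Subgroup.mem_centralizer_iff]
    intro z hz
    have hzQ : z ∈ Q := by
      obtain ⟨y, _, rfl⟩ := hz
      exact y.2
    have hzn := hQK hzQ
    have hmem : z * k * z⁻¹ * k⁻¹ ∈ Cfsg.pCore 2 G ⊓ K := by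
      refine ⟨?_, ?_⟩
      · have hzc : z ∈ Cfsg.pCore 2 G := hZ hz
        have : k * z⁻¹ * k⁻¹ ∈ Cfsg.pCore 2 G :=
          (inferInstance : (Cfsg.pCore 2 G).Normal).conj_mem _ ((Cfsg.pCore 2 G).inv_mem hzc) k
        have := (Cfsg.pCore 2 G).mul_mem hzc this
        simpa [mul_assoc] using this
      · have : z * k * z⁻¹ ∈ K := (Subgroup.mem_normalizer_iff.mp hzn k).mp hk
        exact K.mul_mem this (K.inv_mem hk)
    rw [inf_eq_bot_of_two_odd _ K hcore hK] at hmem
    have := Subgroup.mem_bot.mp hmem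
    -- z k z⁻¹ k⁻¹ = 1 → z k = k z
    have h3 : z * k = k * z := by
      have := congrArg (fun t => t * k * z) this
      simpa [mul_assoc] using this
    exact h3
  have h2 : K ≤ Subgroup.normalizer (Q : Set G) := h1.trans hL3
  have h3 : K ≤ Subgroup.centralizer (Q : Set G) := by
    intro k hk
    rw [Subgroup.mem_centralizer_iff]
    intro q hq
    have hqn := hQK hq
    have hkn := h2 hk
    have hmem : q * k * q⁻¹ * k⁻¹ ∈ Q ⊓ K := by
      refine ⟨?_, ?_⟩
      · have : k * q⁻¹ * k⁻¹ ∈ Q := (Subgroup.mem_normalizer_iff.mp hkn q⁻¹).mp (Q.inv_mem hq)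
        have := Q.mul_mem hq this
        simpa [mul_assoc] using this
      · have : q * k * q⁻¹ ∈ K := (Subgroup.mem_normalizer_iff.mp hqn k).mp hk
        exact K.mul_mem this (K.inv_mem hk)
    rw [inf_eq_bot_of_two_odd _ K hQ2' hK] at hmem
    have := Subgroup.mem_bot.mp hmem
    have h3 : q * k = k * q := by
      have := congrArg (fun t => t * k * q) this
      simpa [mul_assoc] using this
    exact h3
  rw [hL2] at h3
  have h4 : K ≤ Q := by
    intro k hk
    obtain ⟨y, _, rfl⟩ := h3 hk
    exact y.2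
  have : K ≤ Q ⊓ K := le_inf h4 le_rfl
  rw [inf_eq_bot_of_two_odd _ K hQ2' hK] at this
  exact eq_bot_iff.mpr this


end Cfsg.Agent.S5420
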