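import Cfsg.Statements.S5423
import Cfsg.Agent.H85.Holomorph2
import Cfsg.Agent.S5420

set_option autoImplicit false
open Cfsg

namespace Cfsg.Agent.S5423

/-- Let G be a finite group that is the split extension of an elementary abelian normal subgroup U of order 2^(n+1), n ≥ 1, by its full automorphism group: U has a complement M in G whose conjugation action on U is faithful and realizes every automorphism of U. Let Z be a subgroup of U of order 2 and Q the largest normal 2-subgroup of the centralizer C of Z. Then Q is extraspecial of order 2^(2n+1) with an elementary abelian subgroup of order 2^(n+1) (plus type), Q is a large extraspecial 2-subgroup of G, and C is the split extension of Q by the general linear group of degree n over the field with two elements. -/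
theorem result {G : Type*} [Group G] [Finite G] (n : ℕ) (hn : 1 ≤ n) (U M : Subgroup G) [U.Normal] (hU : Cfsg.IsElementaryAbelian 2 U) (hUcard : Nat.card ↥U = 2 ^ (n + 1)) (hUM : U ⊓ M = ⊥) (hUM' : U ⊔ M = ⊤) (hfaith : ∀ m ∈ M, (∀ u ∈ U, m * u * m⁻¹ = u) → m = 1) (hfull : ∀ φ : ↥U ≃* ↥U, ∃ m ∈ M, ∀ u : ↥U, ((φ u : ↥U) : G) = m * u * m⁻¹) (Z : Subgroup G) (hZU : Z ≤ U) (hZ : Nat.card ↥Z = 2) (Q : Subgroup G) (hQ : Q = (Cfsg.pCore 2 ↥(Subgroup.centralizer (Z : Set G))).map (Subgroup.centralizer (Z : Set G)).subtype) : Cfsg.IsExtraspecial 2 ↥Q ∧ Nat.card ↥Q = 2 ^ (2 * n + 1) ∧ (∃ E : Subgroup G, E ≤ Q ∧ Cfsg.IsElementaryAbelian 2 E ∧ Nat.card ↥E = 2 ^ (n + 1)) ∧ Cfsg.IsLargeExtraspecial Q ∧ ∃ K : Subgroup G, K ≤ Subgroup.centralizer (Z : Set G) ∧ Q ⊓ K = ⊥ ∧ Q ⊔ K = Subgroup.centralizer (Z : Set G) ∧ Nonempty (↥K ≃* Matrix.GeneralLinearGroup (Fin n) (ZMod 2)) := by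
  have : Fact (Nat.Prime 2) := ⟨Nat.prime_two⟩
  obtain ⟨z0, hz0, hz0u⟩ := (Nat.card_eq_two_iff' (1 : ↥Z)).mp hZ
  have hzZ : (z0 : G) ∈ Z := z0.2
  have hz1 : (z0 : G) ≠ 1 := fun h => hz0 (Subtype.ext h)
  have hZmem : ∀ y ∈ Z, y = 1 ∨ y = (z0 : G) := by
    intro y hy
    by_cases h : y = 1
    · left; exact h
    · right
      have := hz0u ⟨y, hy⟩ (fun h' => h (congrArg Subtype.val h'))
      exact congrArg Subtype.val this
  obtain ⟨ψ, μ, S, hψz⟩ := Cfsg.Agent.H85.Holo.exists_sys n U M hU hUcard hUM hUM' hfaith hfull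
    (z0 : G) (hZU hzZ) hz1
  have P := S.param
  have hqz : ψ (1, 0) * μ (Cfsg.Agent.H85.Holo.tau 0) = (z0 : G) := by
    rw [Cfsg.Agent.H85.Holo.tau_zero, S.mu_refl, mul_one, hψz]
  have hC : ∀ x, x ∈ Subgroup.centralizer (Z : Set G) ↔
      x * (ψ (1, 0) * μ (Cfsg.Agent.H85.Holo.tau 0)) =
        (ψ (1, 0) * μ (Cfsg.Agent.H85.Holo.tau 0)) * x := by
    intro x
    rw [hqz, Subgroup.mem_centralizer_iff]
    constructor
    · intro h; exact (h _ hzZ).symm
    · intro h y hy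
      rcases hZmem y hy with rfl | rfl
      · simp
      · exact h.symm
  have hdec : ∀ x ∈ Subgroup.centralizer (Z : Set G), ∃ a u v g,
      x = ψ (a, v) * μ (Cfsg.Agent.H85.Holo.tau u) * S.kHom g := by
    intro x hx
    have := (hC x).mp hx
    rw [hqz, ← hψz] at this
    exact S.decomp x this
  have hQ0 : Q = P.Q0 := hQ.trans (P.pcore_eq _ hC hdec hn)
  subst hQ0
  have hL1 := P.extraspecial hn
  have hL2 := P.centralizer_eq _ hC hdec
  have hL3 := P.centralizer_center_le _ hC hdec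
  refine ⟨hL1, P.card_Q0, ⟨P.E0, P.E0_le, P.E0_elem, P.card_E0⟩, ?_, P.complement _ hC hdec⟩
  apply Cfsg.Agent.S5420.result _ hL1 hL2 hL3
  intro x hx
  rw [P.mem_centerMap] at hx
  have hUle : U ≤ Cfsg.pCore 2 G := le_sSup ⟨inferInstance, IsPGroup.of_card hUcard⟩
  rcases hx with rfl | rfl
  · exact Subgroup.one_mem _
  · apply hUle
    rw [hqz]
    exact hZU hzZ

end Cfsg.Agent.S5423
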