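import Cfsg.Statements.S5424
import Cfsg.Agent.H85.TransvCentral
import Cfsg.Agent.S5422

set_option autoImplicit false
open Cfsg

namespace Cfsg.Agent.S5424

/-- Let G be the special linear group of degree n + 2 over the field with two elements, n ≥ 2, let z be a transvection, and let Q be the largest normal 2-subgroup of the centralizer C of z. Then Q is extraspecial of order 2^(2n+1) with an elementary abelian subgroup of order 2^(n+1) (plus type), Q is a large extraspecial 2-subgroup of G, and C is the split extension of Q by the special linear group of degree n over the field with two elements. -/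
theorem result (n : ℕ) (hn : 2 ≤ n) (z : Matrix.SpecialLinearGroup (Fin (n + 2)) (ZMod 2)) (hz : (z : Matrix (Fin (n + 2)) (Fin (n + 2)) (ZMod 2)) = Matrix.transvection 0 1 1) (Q : Subgroup (Matrix.SpecialLinearGroup (Fin (n + 2)) (ZMod 2))) (hQ : Q = (Cfsg.pCore 2 ↥(Subgroup.centralizer ({z} : Set (Matrix.SpecialLinearGroup (Fin (n + 2)) (ZMod 2))))).map (Subgroup.centralizer ({z} : Set (Matrix.SpecialLinearGroup (Fin (n + 2)) (ZMod 2)))).subtype) : Cfsg.IsExtraspecial 2 ↥Q ∧ Nat.card ↥Q = 2 ^ (2 * n + 1) ∧ (∃ E : Subgroup (Matrix.SpecialLinearGroup (Fin (n + 2)) (ZMod 2)), E ≤ Q ∧ Cfsg.IsElementaryAbelian 2 E ∧ Nat.card ↥E = 2 ^ (n + 1)) ∧ Cfsg.IsLargeExtraspecial Q ∧ ∃ K : Subgroup (Matrix.SpecialLinearGroup (Fin (n + 2)) (ZMod 2)), K ≤ Subgroup.centralizer ({z} : Set (Matrix.SpecialLinearGroup (Fin (n + 2)) (ZMod 2))) ∧ Q ⊓ K = ⊥ ∧ Q ⊔ K = Subgroup.centralizer ({z} : Set (Matrix.SpecialLinearGroup (Fin (n + 2)) (ZMod 2))) ∧ Nonempty (↥K ≃* Matrix.SpecialLinearGroup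 (Fin n) (ZMod 2)) := by
  have hn1 : 1 ≤ n := by omega
  obtain ⟨q, k, P, hqz, hdec0, hconj⟩ := Cfsg.Agent.H85.TC.main n z hz
  have hC : ∀ x, x ∈ Subgroup.centralizer
      ({z} : Set (Matrix.SpecialLinearGroup (Fin (n + 2)) (ZMod 2))) ↔
      x * q 1 0 0 = q 1 0 0 * x := by
    intro x
    rw [hqz, Subgroup.mem_centralizer_iff]
    constructor
    · intro h; exact (h z rfl).symm
    · intro h y hy
      rw [Set.mem_singleton_iff] at hy
      rw [hy]; exact h.symm
  have hdec : ∀ x ∈ Subgroup.centralizer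
      ({z} : Set (Matrix.SpecialLinearGroup (Fin (n + 2)) (ZMod 2))), ∃ a u v g,
      x = q a u v * k g := by
    intro x hx
    have := (hC x).mp hx
    rw [hqz] at this
    exact hdec0 x this
  have hQ0 : Q = P.Q0 := hQ.trans (P.pcore_eq _ hC hdec hn1)
  subst hQ0
  have hL1 := P.extraspecial hn1
  have hL2 := P.centralizer_eq _ hC hdec
  have hL3 := P.centralizer_center_le _ hC hdec
  obtain ⟨K, hK1, hK2, hK3, ⟨eK⟩⟩ := P.complement _ hC hdec
  refine ⟨hL1, P.card_Q0, ⟨P.E0, P.E0_le, P.E0_elem, P.card_E0⟩, ?_, K, hK1, hK2, hK3,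
    ⟨eK.trans (Cfsg.Agent.H85.TC.glEquivSL n)⟩⟩
  let i0 : Fin n := ⟨0, hn1⟩
  obtain ⟨t, ht⟩ := hconj (Pi.single i0 1)
  have hw : (Pi.single i0 1 : Fin n → ZMod 2) ≠ 0 := by
    intro h
    have := congrFun h i0
    simp at this
  have hnot : q 1 (Pi.single i0 1) 0 ∉ (Subgroup.center ↥P.Q0).map P.Q0.subtype := by
    intro hmem
    rw [P.mem_centerMap] at hmem
    rcases hmem with h | h
    · rw [← P.q_one] at h
      exact one_ne_zero (P.inj _ _ _ _ _ _ h).1
    · exact hw (P.inj _ _ _ _ _ _ h).2.1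
  have hzmem : z ∈ (Subgroup.center ↥P.Q0).map P.Q0.subtype := by
    rw [P.mem_centerMap]; right; exact hqz.symm
  have hg : t ∉ Subgroup.normalizer
      (((Subgroup.center ↥P.Q0).map P.Q0.subtype : Subgroup _) : Set _) := by
    intro hmem
    have := (Subgroup.mem_normalizer_iff.mp hmem z).mp hzmem
    rw [ht] at this
    exact hnot this
  have hZg : ((Subgroup.center ↥P.Q0).map P.Q0.subtype).map (MulAut.conj t).toMonoidHom ≤ P.Q0 := by
    rintro _ ⟨y, hy, rfl⟩
    rw [SetLike.mem_coe, P.mem_centerMap] at hy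
    rcases hy with rfl | rfl
    · simp
    · show t * q 1 0 0 * t⁻¹ ∈ P.Q0
      rw [hqz, ht]
      exact P.q_mem ..
  exact (Cfsg.Agent.S5422.result _ hL1 hL2 hL3 n hn P.card_Q0 t hg hZg).2.2

end Cfsg.Agent.S5424
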