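import Cfsg.Statements.S5426
import Cfsg.Agent.H56.LESGlue

set_option autoImplicit false
open Cfsg

namespace Cfsg.Agent.S5426

/-- Let Q be a large extraspecial 2-subgroup of the finite group G (extraspecial; centralizer equal to its centre; normal in the centralizer of its centre; normalizing no non-trivial subgroup of odd order) with centre generated by z, and let M be the normal closure of z in G. Then one of the following holds: Q is normal in G; or M is abelian and the generalized Fitting subgroup of G is its largest normal 2-subgroup; or M is the generalized Fitting subgroup of G and is a non-abelian simple group; or M is the generalized Fitting subgroup of G and is the direct product of a non-abelian simple subgroup L and its conjugate u L u⁻¹ by some u in Q (the two meet trivially and commute elementwise), with z = z₁ (u z₁ u⁻¹) for some z₁ in L whose centralizer in L is a Sylow 2-subgroup of L with Frattini subgroup inside the subgroup generated by z₁, and Q is not the largest normal 2-subgroup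 of the centralizer of z. -/
theorem result {G : Type*} [Group G] [Finite G] (Q : Subgroup G) (hQ : Cfsg.IsLargeExtraspecial Q) (z : G) (hz : ((Subgroup.center ↥Q).map Q.subtype) = Subgroup.zpowers z) (M : Subgroup G) (hM : M = Subgroup.normalClosure ({z} : Set G)) : Q.Normal ∨ (IsMulCommutative ↥M ∧ Cfsg.generalizedFittingSubgroup G = Cfsg.pCore 2 G) ∨ (M = Cfsg.generalizedFittingSubgroup G ∧ IsSimpleGroup ↥M ∧ ¬ IsMulCommutative ↥M) ∨ (M = Cfsg.generalizedFittingSubgroup G ∧ ∃ (L : Subgroup G) (u : G), u ∈ Q ∧ IsSimpleGroup ↥L ∧ ¬ IsMulCommutative ↥L ∧ L ⊓ (L).map (MulAut.conj u).toMonoidHom = ⊥ ∧ (∀ x ∈ L, ∀ y ∈ (L).map (MulAut.conj u).toMonoidHom, x * y = y * x) ∧ L ⊔ (L).map (MulAut.conj u).toMonoidHom = M ∧ ∃ z₁ ∈ L, z = z₁ * (u * z₁ * u⁻¹) ∧ (∃ R : Sylow 2 ↥L, (R : Subgroup ↥L) = (Subgroup.centralizer ({z₁} : Set G)).subgroupOf L ∧ (frattini ↥(R : Subgroup ↥L)).map ((L.subtype).comp (R : Subgroup ↥L).subtype) ≤ Subgroup.zpowers z₁) ∧ Q ≠ (Cfsg.pCore 2 ↥(Subgroup.centralizer ({z} : Set G))).map (Subgroup.centralizer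 ({z} : Set G)).subtype) := by
  by_cases hO2 : Cfsg.pCore 2 G = ⊥
  swap
  · right; left
    rw [hM]
    exact Cfsg.Agent.H56.LES.caseA Q hQ z hz hO2
  obtain ⟨hyp, hSyl, hME, hgf, hsimp⟩ := Cfsg.Agent.H56.LES.caseB Q hQ z hz hO2
  rcases hyp.main hSyl with ⟨L, hL⟩ |
    ⟨L, u, hu, hL, hne, hpair, hinf, hcomm, z₁, hz₁, hzeq, hR, hp2, hnle⟩
  · right; right; left
    have hLc : Cfsg.IsComponent L := by
      have : L ∈ {K : Subgroup G | Cfsg.IsComponent K} := by rw [hL]; rfl
      exact this
    have hlay : Cfsg.layer G = L := by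
      unfold Cfsg.layer
      rw [hL, sSup_singleton]
    have hML : M = L := by rw [hM, hME, hlay]
    refine ⟨by rw [hgf, hML, hlay], ?_, ?_⟩
    · rw [hML]; exact (hsimp L hLc).1
    · rw [hML]; exact (hsimp L hLc).2
  · right; right; right
    have hlay : Cfsg.layer G = L ⊔ L.map (MulAut.conj u).toMonoidHom := by
      unfold Cfsg.layer
      rw [hpair, sSup_pair]
    refine ⟨by rw [hM, hME, hgf], L, u, hu, (hsimp L hL).1, (hsimp L hL).2, hinf, hcomm, ?_,
      z₁, hz₁, hzeq, hR, ?_⟩
    · rw [hM, hME, hlay]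
    · intro hQeq
      apply hnle
      intro x hx
      obtain ⟨hxE, hxC⟩ := Subgroup.mem_inf.1 hx
      rw [hQeq]
      refine ⟨⟨x, hxC⟩, ?_, rfl⟩
      have hn : ((Cfsg.layer G).subgroupOf (Subgroup.centralizer ({z} : Set G))).Normal :=
        Subgroup.Normal.subgroupOf (Cfsg.Agent.H27.layer_normal G) _
      have hp : IsPGroup 2 ↥((Cfsg.layer G).subgroupOf (Subgroup.centralizer ({z} : Set G))) := by
        rintro ⟨⟨g, hgC⟩, hgE⟩
        obtain ⟨k, hk⟩ := hp2 ⟨g, Subgroup.mem_inf.2 ⟨hgE, hgC⟩⟩
        refine ⟨k, ?_⟩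
        apply Subtype.ext
        apply Subtype.ext
        have := congrArg Subtype.val hk
        simpa using this
      exact (Cfsg.Agent.H60.le_pCore hn hp) hxE

end Cfsg.Agent.S5426
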