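import Cfsg.Statements.S5427
import Cfsg.Agent.H28.ESSimple2

set_option autoImplicit false
open Cfsg

namespace Cfsg.Agent.S5427

/-- Let z be an involution of the finite group G whose centralizer C has generalized Fitting subgroup Q, an extraspecial 2-group of width at least 2 (order 2^(2w+1), w ≥ 2). Let K be a subgroup of G such that the subgroup U generated by the K-conjugates of z is abelian and C is generated by the C-conjugates of U. Suppose that either some K-conjugate of z other than z lies in Q, or some element u of U ∩ Q outside the subgroup generated by z has z in the largest normal 2-subgroup of its centralizer. Then G is simple and Q is a large extraspecial 2-subgroup of G. -/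
theorem result {G : Type*} [Group G] [Finite G] (z : G) (hz : orderOf z = 2) (Q : Subgroup G) (hQC : Q ≤ Subgroup.centralizer ({z} : Set G)) (hF : (Cfsg.generalizedFittingSubgroup ↥(Subgroup.centralizer ({z} : Set G))).map (Subgroup.centralizer ({z} : Set G)).subtype = Q) (hQ : Cfsg.IsExtraspecial 2 ↥Q) (w : ℕ) (hw : 2 ≤ w) (hcard : Nat.card ↥Q = 2 ^ (2 * w + 1)) (K U : Subgroup G) (hU : U = Subgroup.closure {x : G | ∃ k ∈ K, x = k * z * k⁻¹}) (hUab : IsMulCommutative ↥U) (hgen : Subgroup.closure {x : G | ∃ c ∈ Subgroup.centralizer ({z} : Set G), ∃ u ∈ U, x = c * u * c⁻¹} = Subgroup.centralizer ({z} : Set G)) (h3 : (∃ k ∈ K, k * z * k⁻¹ ∈ Q ∧ k * z * k⁻¹ ≠ z) ∨ ∃ u ∈ U ⊓ Q, u ∉ Subgroup.zpowers z ∧ (∃ hz' : z ∈ Subgroup.centralizer ({u} : Set G), (⟨z, hz'⟩ : ↥(Subgroup.centralizer ({u} : Set G))) ∈ Cfsg.pCore 2 ↥(Subgroup.centralizer ({u} : Set G)))) : IsSimpleGroup G ∧ Cfsg.IsLargeExtraspecial Q := by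
  exact Cfsg.Agent.H28.ESS2.s5427 z hz Q hQC hF hQ w hw hcard K U hU hUab hgen h3

end Cfsg.Agent.S5427
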