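import Cfsg.Statements.S5428
import Cfsg.Agent.H28.LargeES3

set_option autoImplicit false
open Cfsg

namespace Cfsg.Agent.S5428

/-- Let z be an involution of the finite group G whose centralizer C has generalized Fitting subgroup Q extraspecial (as a 2-group), let A be a subgroup of C of odd order, and let R be the centralizer of A in Q; suppose R has order at least 32, the largest normal subgroup of odd order of the centralizer of the subgroup generated by A and R lies in A, the order of that centralizer is not divisible by 4, and g is an element of G with g z g⁻¹ in R but outside the centre Z of Q. Let M be the subgroup generated by A and the centralizer of A (A is normal in it). Then: the centralizer in M of the subgroup generated by R and A, joined with A, equals the subgroup generated by A and Z; the image of R in M/A is a large extraspecial 2-subgroup of M/A; and g z g⁻¹ is conjugate to z inside the subgroup generated by R and the centralizer of A in g Q g⁻¹. -/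
theorem result {G : Type*} [Group G] [Finite G] (z : G) (hz : orderOf z = 2) (Q : Subgroup G) (hQC : Q ≤ Subgroup.centralizer ({z} : Set G)) (hF : (Cfsg.generalizedFittingSubgroup ↥(Subgroup.centralizer ({z} : Set G))).map (Subgroup.centralizer ({z} : Set G)).subtype = Q) (hQ : Cfsg.IsExtraspecial 2 ↥Q) (A : Subgroup G) (hA : A ≤ Subgroup.centralizer ({z} : Set G)) (hAodd : Odd (Nat.card ↥A)) (R : Subgroup G) (hR : R = Q ⊓ Subgroup.centralizer (A : Set G)) (hR32 : 32 ≤ Nat.card ↥R) (hO : (Cfsg.oddCore ↥(Subgroup.centralizer ((A ⊔ R : Subgroup G) : Set G))).map (Subgroup.centralizer ((A ⊔ R : Subgroup G) : Set G)).subtype ≤ A) (h4 : ¬ 4 ∣ Nat.card ↥(Subgroup.centralizer ((A ⊔ R : Subgroup G) : Set G))) (g : G) (hgR : g * z * g⁻¹ ∈ R) (hgZ : g * z * g⁻¹ ∉ ((Subgroup.center ↥Q).map Q.subtype)) (M : Subgroup G) (hM : M = Subgroup.centralizer (A : Set G) ⊔ A) [hn : (A.subgroupOf M).Normal] : (M ⊓ Subgroup.centralizer ((R ⊔ A : Subgroup G) : Set G)) ⊔ A = A ⊔ ((Subgroup.center ↥Q).map Q.subtype) ∧ Cfsg.IsLargeExtraspecial ((R.subgroupOf M).map (QuotientGroup.mk'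 (A.subgroupOf M))) ∧ ∃ x ∈ R ⊔ ((Q).map (MulAut.conj g).toMonoidHom ⊓ Subgroup.centralizer (A : Set G)), x * (g * z * g⁻¹) * x⁻¹ = z := by
  exact Cfsg.Agent.H28.LES3.s5428 z hz Q hQC hF hQ A hA hAodd R hR hR32 hO h4 g hgR hgZ M hM

end Cfsg.Agent.S5428
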