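import Cfsg.Statements.S5429
import Cfsg.Agent.H28.LargeES2

set_option autoImplicit false
open Cfsg

namespace Cfsg.Agent.S5429

/-- Let z be an involution of the finite group G with centralizer C whose generalized Fitting subgroup Q is extraspecial of width at least 3 (order 2^(2w+1), w ≥ 3); let g be an element of G with g z g⁻¹ in Q but outside the centre Z of Q, and t an involution lying in both Q and g Q g⁻¹ that is not conjugate to z; write P for the centralizer of t in Q and suppose that the elements of C acting trivially by conjugation on P modulo the subgroup generated by t and z are exactly the elements of Q. Then the image of P in the centralizer of t modulo the subgroup generated by t is a large extraspecial 2-subgroup there, and g z g⁻¹ is conjugate to z inside the subgroup generated by P and the centralizer of t in g Q g⁻¹. -/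
theorem result {G : Type*} [Group G] [Finite G] (z : G) (hz : orderOf z = 2) (Q : Subgroup G) (hQC : Q ≤ Subgroup.centralizer ({z} : Set G)) (hF : (Cfsg.generalizedFittingSubgroup ↥(Subgroup.centralizer ({z} : Set G))).map (Subgroup.centralizer ({z} : Set G)).subtype = Q) (hQ : Cfsg.IsExtraspecial 2 ↥Q) (w : ℕ) (hw : 3 ≤ w) (hcard : Nat.card ↥Q = 2 ^ (2 * w + 1)) (g : G) (hgQ : g * z * g⁻¹ ∈ Q) (hgZ : g * z * g⁻¹ ∉ ((Subgroup.center ↥Q).map Q.subtype)) (t : G) (ht : orderOf t = 2) (htQ : t ∈ Q ⊓ (Q).map (MulAut.conj g).toMonoidHom) (htz : ¬ IsConj z t) (P : Subgroup G) (hP : P = Q ⊓ Subgroup.centralizer ({t} : Set G)) (hCP : ∀ c ∈ Subgroup.centralizer ({z} : Set G), (∀ x ∈ P, ∃ y ∈ Subgroup.closure ({t, z} : Set G), c * x * c⁻¹ = x * y) ↔ c ∈ Q) [hn : ((Subgroup.zpowers t).subgroupOf (Subgroup.centralizer ({t} : Set G))).Normal] : Cfsg.IsLargeExtraspecial ((P.subgroupOf (Subgroup.centralizer ({t} : Set G))).map (QuotientGroup.mk' ((Subgroup.zpowers t).subgroupOf (Subgroup.centralizer ({t} : Set G))))) ∧ ∃ x ∈ P ⊔ ((Q).map (MulAut.conj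 g).toMonoidHom ⊓ Subgroup.centralizer ({t} : Set G)), x * (g * z * g⁻¹) * x⁻¹ = z := by
  exact Cfsg.Agent.H28.LES2.s5429 z hz Q hQC hF hQ w hw hcard g hgQ hgZ t ht htQ htz P hP hCP

end Cfsg.Agent.S5429
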