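import Cfsg.Statements.S5433
import Cfsg.Agent.H92.Basic

set_option autoImplicit false
open Cfsg Cfsg.Agent.H92

namespace Cfsg.Agent.S5433

/-- Let Q be a large extraspecial 2-subgroup of the finite group G (extraspecial; centralizer equal to its centre; normal in the centralizer of its centre; normalizing no non-trivial subgroup of odd order), and L a normal subgroup of G containing Q. Then G is the product of L and the normalizer of Q. -/
theorem result {G : Type*} [Group G] [Finite G] (Q : Subgroup G) (hQ : Cfsg.IsLargeExtraspecial Q) (L : Subgroup G) [L.Normal] (hQL : Q ≤ L) : L ⊔ Subgroup.normalizer (Q : Set G) = ⊤ := by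
  obtain ⟨hL1, hL2, hL3, -⟩ := hQ
  have : Fact (Nat.Prime 2) := ⟨Nat.prime_two⟩
  have hQ2 : IsPGroup 2 Q := hL1.1.1
  have hQ2' : IsPGroup 2 (Q.subgroupOf L) := hQ2.comap_subtype
  obtain ⟨P, hP⟩ := hQ2'.exists_le_sylow
  have hfr := Sylow.normalizer_sup_eq_top P
  obtain ⟨z, hzQ, hz1, hzz, hzc, hZ⟩ := extraspecial_center_gen Q hL1
  set P' : Subgroup G := (P : Subgroup L).map L.subtype with hP'
  have hQP : Q ≤ P' := by
    intro q hq
    exact ⟨⟨q, hQL hq⟩, hP (Subgroup.mem_subgroupOf.mpr hq), rfl⟩
  have hP'2 : IsPGroup 2 P' := P.isPGroup'.map _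
  have hP'ne : P' ≠ ⊥ := by
    intro h
    apply hz1
    have : z ∈ P' := hQP hzQ
    rw [h] at this
    exact Subgroup.mem_bot.mp this
  obtain ⟨c, hcP, hc1, hcc⟩ := exists_central_ne_one P' hP'2 hP'ne
  -- central elements of P' lie in Z
  have hcen : ∀ c ∈ P', (∀ x ∈ P', x * c = c * x) → c = 1 ∨ c = z := by
    intro c hcP hcc
    have : c ∈ Subgroup.centralizer (Q : Set G) := by
      rw [Subgroup.mem_centralizer_iff]
      intro q hq
      exact hcc q (hQP hq)
    rw [hL2] at this
    exact (hZ c).mp this
  have hcz : c = z := (hcen c hcP hcc).resolve_left hc1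
  have hle : Subgroup.normalizer (P' : Set G) ≤ Subgroup.normalizer (Q : Set G) := by
    intro g hg
    apply hL3
    rw [Subgroup.mem_centralizer_iff]
    intro x hx
    rcases (hZ x).mp hx with rfl | rfl
    · simp
    · -- g z g⁻¹ is central in P'
      have hgn := Subgroup.mem_normalizer_iff.mp hg
      have h1 : g * x * g⁻¹ ∈ P' := (hgn x).mp (hQP hzQ)
      have h2 : ∀ y ∈ P', y * (g * x * g⁻¹) = (g * x * g⁻¹) * y := by
        intro y hy
        have hy' : g⁻¹ * y * g ∈ P' := by
          have := (hgn (g⁻¹ * y * g)).mpr (by simpa [mul_assoc] using hy)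
          exact this
        have := hcc _ hy'
        rw [hcz] at this
        have := congrArg (fun t => g * t * g⁻¹) this
        simpa [mul_assoc] using this
      rcases hcen _ h1 h2 with h | h
      · exfalso
        apply hz1
        have := congrArg (fun t => g⁻¹ * t * g) h
        simpa [mul_assoc] using this
      · have := congrArg (fun t => t * g) h
        simpa [mul_assoc] using this.symm
  rw [eq_top_iff, ← hfr, sup_comm]
  exact sup_le_sup_left hle L


end Cfsg.Agent.S5433
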