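import Cfsg.Statements.S5434
import Cfsg.Agent.H92.Extra2

set_option autoImplicit false
open Cfsg Cfsg.Agent.H92

namespace Cfsg.Agent.S5434

/-- Let Q be a large extraspecial 2-subgroup of the finite group G (extraspecial; centralizer equal to its centre; normal in the centralizer of its centre; normalizing no non-trivial subgroup of odd order), and A a non-trivial subgroup of odd order of the normalizer of Q. Then Q is the central product of the centralizer of A in Q and the commutator subgroup [Q, A] (they generate Q and commute elementwise), [Q, A] is extraspecial, and the centralizer of A in Q is either the centre of Q or extraspecial. -/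
theorem result {G : Type*} [Group G] [Finite G] (Q : Subgroup G) (hQ : Cfsg.IsLargeExtraspecial Q) (A : Subgroup G) (hA : A ≤ Subgroup.normalizer (Q : Set G)) (hAodd : Odd (Nat.card ↥A)) (hA1 : A ≠ ⊥) : (Q ⊓ Subgroup.centralizer (A : Set G)) ⊔ ⁅Q, A⁆ = Q ∧ (∀ x ∈ Q ⊓ Subgroup.centralizer (A : Set G), ∀ y ∈ ⁅Q, A⁆, x * y = y * x) ∧ Cfsg.IsExtraspecial 2 ↥⁅Q, A⁆ ∧ (Q ⊓ Subgroup.centralizer (A : Set G) = ((Subgroup.center ↥Q).map Q.subtype) ∨ Cfsg.IsExtraspecial 2 ↥(Q ⊓ Subgroup.centralizer (A : Set G))) := by
  have : Fact (Nat.Prime 2) := ⟨Nat.prime_two⟩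
  obtain ⟨hL1, hL2, hL3, hL4⟩ := hQ
  obtain ⟨z, hE, hZ⟩ := ESPair.of_hyp Q hL1 hL2 hL3
  have hQ2 : IsPGroup 2 ↥Q := hL1.1.1
  have hcop : (Nat.card A).Coprime (Nat.card Q) := by
    obtain ⟨n, hn⟩ := hQ2.exists_card_eq
    rw [hn]
    exact Nat.Coprime.pow_right n (Nat.coprime_two_right.mpr hAodd)
  have hsolv : Group.IsSolvable ↥A ∨ Group.IsSolvable ↥Q := by
    right
    have := hQ2.isNilpotent
    infer_instance
  have hsup : ⁅Q, A⁆ ⊔ (Q ⊓ Subgroup.centralizer (A : Set G)) = Q :=
    Cfsg.Agent.H1.coprime_commutator_sup_centralizer A Q hA hcop hsolv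
  have hDD : ⁅⁅Q, A⁆, A⁆ = ⁅Q, A⁆ := Cfsg.Agent.H1.coprime_commutator_commutator A Q hA hcop hsolv
  generalize hCdef : Q ⊓ Subgroup.centralizer (A : Set G) = C at hsup ⊢
  generalize hDdef : ⁅Q, A⁆ = D at hsup hDD ⊢
  have hDQ : D ≤ Q := by rw [← hsup]; exact le_sup_left
  have hCQ : C ≤ Q := by rw [← hsup]; exact le_sup_right
  have hCA : ∀ c ∈ C, ∀ a ∈ A, a * c = c * a := by
    intro c hc a ha
    rw [← hCdef] at hc
    have := (Subgroup.mem_inf.mp hc).2
    rw [Subgroup.mem_centralizer_iff] at this
    exact this a ha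
  -- A centralizes z
  have hAz : ∀ a ∈ A, a * z = z * a := by
    intro a ha
    have haN := hA ha
    have hmem : ∀ q, q ∈ Q ↔ a * q * a⁻¹ ∈ Q := fun q => Subgroup.mem_normalizer_iff.mp haN q
    have h1 : a * z * a⁻¹ = 1 ∨ a * z * a⁻¹ = z := by
      apply hE.cent
      intro q hq
      have hq' : a⁻¹ * q * a ∈ Q := by
        rw [hmem]; simpa [mul_assoc] using hq
      have h2 := hE.z_central _ hq'
      have := congrArg (fun t => a * t * a⁻¹) h2
      simpa [mul_assoc] using this
    rcases h1 with h1 | h1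
    · exact absurd (conj_eq_one_iff.mp h1) hE.z_ne
    · have := congrArg (fun t => t * a) h1
      simpa [mul_assoc] using this
  have hzC : z ∈ C := by
    rw [← hCdef]
    refine Subgroup.mem_inf.mpr ⟨hE.z_mem, ?_⟩
    rw [Subgroup.mem_centralizer_iff]
    intro a ha
    exact hAz a ha
  -- three subgroups lemma
  have hDC : ⁅D, C⁆ = ⊥ := by
    rw [← hDdef]
    apply Subgroup.commutator_commutator_eq_bot_of_rotate
    · have h1 : ⁅A, C⁆ = ⊥ := by
        rw [Subgroup.commutator_eq_bot_iff_le_centralizer]
        intro a ha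
        rw [Subgroup.mem_centralizer_iff]
        intro c hc
        exact (hCA c hc a ha).symm
      rw [h1]
      exact Subgroup.commutator_bot_left Q
    · rw [Subgroup.commutator_eq_bot_iff_le_centralizer, Subgroup.commutator_le]
      intro c hc q hq
      rw [Subgroup.mem_centralizer_iff]
      intro a ha
      rcases hE.comm c (hCQ hc) q hq with h | h
      · rw [commutatorElement_def, h]; simp
      · rw [commutatorElement_def, h]; exact hAz a ha
  have hDCc : ∀ x ∈ C, ∀ y ∈ D, x * y = y * x := by
    intro x hx y hy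
    have h1 := Subgroup.commutator_eq_bot_iff_le_centralizer.mp hDC hy
    rw [Subgroup.mem_centralizer_iff] at h1
    exact h1 x hx
  -- an element commuting with D and C commutes with Q
  have hall : ∀ c : G, (∀ x ∈ D, x * c = c * x) → (∀ x ∈ C, x * c = c * x) →
      ∀ q ∈ Q, q * c = c * q := by
    intro c h1 h2 q hq
    have hle : D ⊔ C ≤ Subgroup.centralizer ({c} : Set G) := by
      refine sup_le ?_ ?_
      · intro x hx
        rw [Subgroup.mem_centralizer_singleton_iff]; exact h1 x hx
      · intro x hx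
        rw [Subgroup.mem_centralizer_singleton_iff]; exact h2 x hx
    rw [hsup] at hle
    have := hle hq
    rw [Subgroup.mem_centralizer_singleton_iff] at this
    exact this
  -- D is nonabelian
  have hDnab : ∃ x ∈ D, ∃ y ∈ D, x * y ≠ y * x := by
    by_contra hcon
    push Not at hcon
    have hDz : ∀ d ∈ D, d = 1 ∨ d = z := by
      intro d hd
      apply hE.cent
      exact hall d (fun x hx => hcon x hx d hd) (fun x hx => hDCc x hx d hd)
    have hDbot : D = ⊥ := by
      rw [← hDD, Subgroup.commutator_eq_bot_iff_le_centralizer]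
      intro d hd
      rw [Subgroup.mem_centralizer_iff]
      intro a ha
      rcases hDz d hd with h | h
      · rw [h]; simp
      · rw [h]; exact hAz a ha
    have hAcQ : A ≤ Subgroup.centralizer (Q : Set G) := by
      have h1 : ⁅Q, A⁆ = ⊥ := by rw [hDdef, hDbot]
      rw [Subgroup.commutator_eq_bot_iff_le_centralizer] at h1
      intro a ha
      rw [Subgroup.mem_centralizer_iff]
      intro q hq
      have := h1 hq
      rw [Subgroup.mem_centralizer_iff] at this
      exact (this a ha).symm
    apply hA1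
    rw [eq_bot_iff]
    intro a ha
    rw [Subgroup.mem_bot]
    have h1 := hAcQ ha
    rw [hL2, hZ] at h1
    rcases h1 with h1 | h1
    · exact h1
    · exfalso
      have hzA : z ∈ A := h1 ▸ ha
      have hord : orderOf (⟨z, hzA⟩ : ↥A) = 2 := by
        apply orderOf_eq_prime
        · apply Subtype.ext
          simp [pow_two, hE.z_sq]
        · intro h
          exact hE.z_ne (congrArg Subtype.val h)
      have hdvd : 2 ∣ Nat.card ↥A := hord ▸ orderOf_dvd_natCard _
      exact (Nat.not_even_iff_odd.mpr hAodd) (even_iff_two_dvd.mpr hdvd)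
  have hzD : z ∈ D := by
    obtain ⟨x, hx, y, hy, hxy⟩ := hDnab
    rcases hE.comm x (hDQ hx) y (hDQ hy) with h | h
    · exfalso; apply hxy
      have := congrArg (fun t => t * y * x) h
      simpa [mul_assoc] using this
    · rw [← h]
      exact D.mul_mem (D.mul_mem (D.mul_mem hx hy) (D.inv_mem hx)) (D.inv_mem hy)
  refine ⟨?_, hDCc, ?_, ?_⟩
  · rw [sup_comm]; exact hsup
  · exact isExtraspecial_two_of D z hzD hE.z_ne hE.z_sq (fun x hx => hE.z_central x (hDQ hx))
      (fun x hx y hy => hE.comm x (hDQ hx) y (hDQ hy)) (fun x hx => hE.sq x (hDQ hx))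
      (fun c hc h => hE.cent c (hall c h (fun x hx => hDCc x hx c hc))) hDnab
  · by_cases hCab : ∃ x ∈ C, ∃ y ∈ C, x * y ≠ y * x
    · right
      exact isExtraspecial_two_of C z hzC hE.z_ne hE.z_sq (fun x hx => hE.z_central x (hCQ hx))
        (fun x hx y hy => hE.comm x (hCQ hx) y (hCQ hy)) (fun x hx => hE.sq x (hCQ hx))
        (fun c hc h => hE.cent c (hall c (fun x hx => (hDCc c hc x hx).symm) h)) hCab
    · left
      push Not at hCab
      ext c
      rw [hZ]
      constructor
      · intro hc
        apply hE.cent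
        exact hall c (fun x hx => (hDCc c hc x hx).symm) (fun x hx => hCab x hx c hc)
      · rintro (h | h)
        · rw [h]; exact one_mem _
        · rw [h]; exact hzC


end Cfsg.Agent.S5434
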