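import Cfsg.Statements.S5436
import Cfsg.Agent.H28.ESSimple

set_option autoImplicit false
open Cfsg

namespace Cfsg.Agent.S5436

/-- Let z be an involution of the finite group G with centralizer H whose generalized Fitting subgroup Q is extraspecial of width at least 2 (order 2^(2w+1), w ≥ 2); suppose some conjugate of z other than z lies in Q, H/Q is a non-abelian simple group, H acts irreducibly by conjugation on Q modulo the subgroup generated by z (the only H-invariant subgroups of Q containing z are that subgroup and Q), and Q is not the subgroup generated by the conjugates of z lying in H. Then G is simple. -/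
theorem result {G : Type*} [Group G] [Finite G] (z : G) (hz : orderOf z = 2) (Q : Subgroup (Subgroup.centralizer ({z} : Set G))) [Q.Normal] (hF : Cfsg.generalizedFittingSubgroup ↥(Subgroup.centralizer ({z} : Set G)) = Q) (hQ : Cfsg.IsExtraspecial 2 ↥Q) (w : ℕ) (hw : 2 ≤ w) (hcard : Nat.card ↥Q = 2 ^ (2 * w + 1)) (hnwc : ∃ g : G, (∃ hq : g * z * g⁻¹ ∈ Subgroup.centralizer ({z} : Set G), (⟨g * z * g⁻¹, hq⟩ : Subgroup.centralizer ({z} : Set G)) ∈ Q) ∧ g * z * g⁻¹ ≠ z) (hsimp : IsSimpleGroup (↥(Subgroup.centralizer ({z} : Set G)) ⧸ Q)) (hna : ¬ IsMulCommutative (↥(Subgroup.centralizer ({z} : Set G)) ⧸ Q)) (hirr : ∀ W : Subgroup (Subgroup.centralizer ({z} : Set G)), W.Normal → W ≤ Q → (W = Q ∨ ∀ x ∈ W, (x : G) ∈ Subgroup.zpowers z)) (hwcl : Subgroup.closure {x : Subgroup.centralizer ({z} : Set G) | IsConj z (x : G)} ≠ Q) : IsSimpleGroup G := by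
  exact Cfsg.Agent.H28.ESS.simple_of_hyp z hz Q hF hQ hnwc hsimp hirr hwcl

end Cfsg.Agent.S5436
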