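import Cfsg.Statements.S5437
import Cfsg.Agent.H92.Basic

set_option autoImplicit false
open Cfsg Cfsg.Agent.H92

namespace Cfsg.Agent.S5437

/-- Let I be a set of involutions of the finite group G closed under conjugation, and H a subgroup of G. The following are equivalent: (1) for every member x of I lying in H, the conjugates of x lying in H form a single H-class and the centralizer of x lies in H; (2) for every g outside H, no member of I lies in both H and g H g⁻¹; (3) every member of I lying in H fixes exactly one coset in the action of G on the cosets of H. -/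
theorem result {G : Type*} [Group G] [Finite G] (I : Set G) (hI : ∀ x ∈ I, orderOf x = 2) (hIc : ∀ g : G, ∀ x ∈ I, g * x * g⁻¹ ∈ I) (H : Subgroup G) : ((∀ x ∈ I, x ∈ H → (∀ g : G, g * x * g⁻¹ ∈ H → ∃ h ∈ H, h * x * h⁻¹ = g * x * g⁻¹) ∧ Subgroup.centralizer ({x} : Set G) ≤ H) ↔ (∀ g : G, g ∉ H → ∀ x ∈ I, ¬ (x ∈ H ∧ x ∈ (H : Subgroup G).map (MulAut.conj g).toMonoidHom))) ∧ ((∀ g : G, g ∉ H → ∀ x ∈ I, ¬ (x ∈ H ∧ x ∈ (H : Subgroup G).map (MulAut.conj g).toMonoidHom)) ↔ ∀ x ∈ I, x ∈ H → ∃! c : G ⧸ H, x • c = c) := by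
  refine ⟨⟨?_, ?_⟩, ⟨?_, ?_⟩⟩
  · intro h1 g hg x hxI ⟨hxH, hxg⟩
    rw [mem_map_conj_iff] at hxg
    obtain ⟨hconj, hcent⟩ := h1 x hxI hxH
    obtain ⟨h, hh, hhx⟩ := hconj g⁻¹ (by simpa using hxg)
    apply hg
    have : g * h ∈ Subgroup.centralizer ({x} : Set G) := by
      rw [Subgroup.mem_centralizer_singleton_iff]
      have := congrArg (fun t => g * t * g⁻¹ * (g * h)) hhx
      simp only [mul_assoc, inv_inv, inv_mul_cancel_left, inv_mul_cancel, mul_one, mul_inv_cancel_left] at this
      simpa [mul_assoc] using this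
    have := H.mul_mem (hcent this) (H.inv_mem hh)
    simpa using this
  · intro h2 x hxI hxH
    refine ⟨?_, ?_⟩
    · intro g hg
      by_cases hgH : g ∈ H
      · exact ⟨g, hgH, rfl⟩
      · exfalso
        have hgH' : g⁻¹ ∉ H := fun h => hgH (by simpa using H.inv_mem h)
        apply h2 g⁻¹ hgH' x hxI
        refine ⟨hxH, ?_⟩
        rw [mem_map_conj_iff]
        simpa using hg
    · intro c hc
      by_contra hcH
      apply h2 c hcH x hxI
      refine ⟨hxH, ?_⟩
      rw [mem_map_conj_iff]
      rw [Subgroup.mem_centralizer_singleton_iff] at hc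
      have : c⁻¹ * x * c = x := by
        rw [mul_assoc, ← hc]; simp
      rw [this]; exact hxH
  · intro h2 x hxI hxH
    refine ⟨((1 : G) : G ⧸ H), ?_, ?_⟩
    · show x • ((1 : G) : G ⧸ H) = ((1 : G) : G ⧸ H)
      rw [smul_coset_eq_iff]; simpa using hxH
    · intro c hc
      induction c using QuotientGroup.induction_on with
      | H g =>
        rw [smul_coset_eq_iff] at hc
        by_contra hne
        have hgH : g ∉ H := by
          intro hg
          apply hne
          rw [QuotientGroup.eq]; simpa using hg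
        apply h2 g hgH x hxI
        exact ⟨hxH, (mem_map_conj_iff H g x).mpr hc⟩
  · intro h3 g hg x hxI ⟨hxH, hxg⟩
    obtain ⟨c, hc, hu⟩ := h3 x hxI hxH
    have h1 : ((1 : G) : G ⧸ H) = c := hu _ (by
      show x • ((1 : G) : G ⧸ H) = ((1 : G) : G ⧸ H)
      rw [smul_coset_eq_iff]; simpa using hxH)
    have h2 : (g : G ⧸ H) = c := hu _ (by
      show x • (g : G ⧸ H) = (g : G ⧸ H)
      rw [smul_coset_eq_iff]; exact (mem_map_conj_iff H g x).mp hxg)
    apply hg
    have := h1.trans h2.symm
    rw [QuotientGroup.eq] at this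
    simpa using this


end Cfsg.Agent.S5437
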