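import Cfsg.Statements.S5438
import Cfsg.Agent.H92.Basic

set_option autoImplicit false
open Cfsg Cfsg.Agent.H92

namespace Cfsg.Agent.S5438

/-- Let z be a 2-central involution of the finite group G (an involution central in some Sylow 2-subgroup) and H a subgroup containing z such that the coset H is the only coset of H fixed by z (in the action of G on the cosets of H). Then H has odd index in G, and for every 2-element x of H the conjugates of x lying in H form a single H-class. -/
theorem result {G : Type*} [Group G] [Finite G] (z : G) (hz : Cfsg.IsTwoCentralInvolution z) (H : Subgroup G) (hzH : z ∈ H) (hfix : ∀ g : G, g⁻¹ * z * g ∈ H → g ∈ H) : Odd H.index ∧ ∀ x ∈ H, (∃ k : ℕ, orderOf x = 2 ^ k) → ∀ g : G, g * x * g⁻¹ ∈ H → ∃ h ∈ H, h * x * h⁻¹ = g * x * g⁻¹ := by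
  have : Fact (Nat.Prime 2) := ⟨Nat.prime_two⟩
  obtain ⟨hz2, P, hzP, hPz⟩ := hz
  -- centralizer of z lies in H
  have hCH : ∀ c : G, c * z = z * c → c ∈ H := by
    intro c hc
    apply hfix
    have : c⁻¹ * z * c = z := by rw [mul_assoc, ← hc]; simp
    rw [this]; exact hzH
  have hPH : (P : Subgroup G) ≤ H := fun x hx => hCH x (hPz x hx)
  refine ⟨?_, ?_⟩
  · have h1 : ¬ 2 ∣ (P : Subgroup G).index := P.not_dvd_index
    have h2 : H.index ∣ (P : Subgroup G).index := Subgroup.index_dvd_of_le hPH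
    rw [← Nat.not_even_iff_odd, even_iff_two_dvd]
    exact fun h => h1 (h.trans h2)
  · -- key: for a 2-element y of H there is h ∈ H with h⁻¹ z h commuting with y
    have key : ∀ y ∈ H, (∃ k : ℕ, orderOf y = 2 ^ k) →
        ∃ h ∈ H, (h⁻¹ * z * h) * y = y * (h⁻¹ * z * h) := by
      intro y hy ⟨k, hk⟩
      have hk' : orderOf (⟨y, hy⟩ : ↥H) = 2 ^ k := by
        rw [← hk]; exact (Subgroup.orderOf_mk y hy)
      obtain ⟨u, hu⟩ := conj_mem_sylow (P.subtype hPH) (⟨y, hy⟩ : ↥H) k hk'
      have hu' : (u : G) * y * (u : G)⁻¹ ∈ (P : Subgroup G) := by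
        have h0 : u * ⟨y, hy⟩ * u⁻¹ ∈ ((P.subtype hPH : Sylow 2 ↥H) : Subgroup ↥H) := hu
        rw [Sylow.coe_subtype, Subgroup.mem_subgroupOf] at h0
        simpa using h0
      refine ⟨u, u.2, ?_⟩
      have h3 := hPz _ hu'
      have := congrArg (fun t => (u : G)⁻¹ * t * (u : G)) h3
      simp only [mul_assoc, inv_mul_cancel_left, inv_mul_cancel, mul_one] at this
      simp only [mul_assoc]
      exact this.symm
    intro x hxH hx g hgx
    obtain ⟨k, hk⟩ := hx
    obtain ⟨h1, hh1, hc1⟩ := key x hxH ⟨k, hk⟩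
    have hk2 : orderOf (g * x * g⁻¹) = 2 ^ k := by
      rw [← hk]; exact orderOf_conj' g x
    obtain ⟨h2, hh2, hc2⟩ := key (g * x * g⁻¹) hgx ⟨k, hk2⟩
    -- z1 = h1⁻¹ z h1 and z2 = g⁻¹ h2⁻¹ z h2 g both commute with x
    have hc2' : (g⁻¹ * (h2⁻¹ * z * h2) * g) * x = x * (g⁻¹ * (h2⁻¹ * z * h2) * g) := by
      have := congrArg (fun t => g⁻¹ * t * g) hc2
      simp only [mul_assoc, inv_mul_cancel_left, inv_mul_cancel, mul_one] at this
      simp only [mul_assoc]
      exact this
    have hz1C : h1⁻¹ * z * h1 ∈ Subgroup.centralizer ({x} : Set G) := by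
      rw [Subgroup.mem_centralizer_singleton_iff]; exact hc1
    have hz2C : g⁻¹ * (h2⁻¹ * z * h2) * g ∈ Subgroup.centralizer ({x} : Set G) := by
      rw [Subgroup.mem_centralizer_singleton_iff]; exact hc2'
    have ho1 : orderOf (⟨_, hz1C⟩ : ↥(Subgroup.centralizer ({x} : Set G))) = 2 ^ 1 := by
      rw [Subgroup.orderOf_mk, pow_one, ← hz2]
      have := orderOf_conj' h1⁻¹ z
      simpa using this
    have ho2 : orderOf (⟨_, hz2C⟩ : ↥(Subgroup.centralizer ({x} : Set G))) = 2 ^ 1 := by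
      rw [Subgroup.orderOf_mk, pow_one, ← hz2]
      have h := orderOf_conj' (h2 * g)⁻¹ z
      rw [← h]
      congr 1
      simp [mul_assoc]
    obtain ⟨c, T, hcT, hz2T⟩ := exists_common_sylow _ _ 1 1 ho1 ho2
    have hT' : IsPGroup 2 ((T : Subgroup ↥(Subgroup.centralizer ({x} : Set G))).map
        (Subgroup.centralizer ({x} : Set G)).subtype) := T.isPGroup'.map _
    obtain ⟨u, hu⟩ := conj_le_sylow P _ hT'
    have hA : u * ((c : G) * (h1⁻¹ * z * h1) * (c : G)⁻¹) * u⁻¹ ∈ H := by
      apply hPH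
      apply hu
      exact ⟨_, hcT, by simp⟩
    have hB : u * (g⁻¹ * (h2⁻¹ * z * h2) * g) * u⁻¹ ∈ H := by
      apply hPH
      apply hu
      exact ⟨_, hz2T, by simp⟩
    have hA' : h1 * (c : G)⁻¹ * u⁻¹ ∈ H := by
      apply hfix
      simpa [mul_assoc] using hA
    have hB' : h2 * g * u⁻¹ ∈ H := by
      apply hfix
      simpa [mul_assoc] using hB
    have hA'' : u * (c : G) ∈ H := by
      have := H.inv_mem (H.mul_mem (H.inv_mem hh1) hA')
      simpa [mul_assoc] using this
    have hB'' : g * u⁻¹ ∈ H := by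
      have := H.mul_mem (H.inv_mem hh2) hB'
      simpa [mul_assoc] using this
    refine ⟨g * (c : G), ?_, ?_⟩
    · have := H.mul_mem hB'' hA''
      simpa [mul_assoc] using this
    · have hcx := Subgroup.mem_centralizer_singleton_iff.mp c.2
      have : (c : G) * x * (c : G)⁻¹ = x := by rw [hcx]; simp
      calc g * (c : G) * x * (g * (c : G))⁻¹ = g * ((c : G) * x * (c : G)⁻¹) * g⁻¹ := by
            simp [mul_assoc]
        _ = g * x * g⁻¹ := by rw [this]


end Cfsg.Agent.S5438
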