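import Cfsg.Statements.S5439
import Cfsg.Agent.H92.Basic

set_option autoImplicit false
open Cfsg Cfsg.Agent.H92

namespace Cfsg.Agent.S5439

/-- Let I and J be two different conjugacy classes of involutions of the finite group G and H a subgroup such that every member of I ∪ J fixes exactly one coset in the action on the cosets of H, and such that for every a in I ∩ H and every b in (I ∪ J) ∩ H different from a and commuting with it, the centralizer of a b lies in H. Then H = G. -/
theorem result {G : Type*} [Group G] [Finite G] (I J : Set G) (a₀ b₀ : G) (ha₀ : orderOf a₀ = 2) (hb₀ : orderOf b₀ = 2) (hI : I = {x | IsConj a₀ x}) (hJ : J = {x | IsConj b₀ x}) (hIJ : I ≠ J) (H : Subgroup G) (hfix : ∀ x ∈ I ∪ J, ∃! c : G ⧸ H, x • c = c) (hcent : ∀ a ∈ I, a ∈ H → ∀ b ∈ I ∪ J, b ∈ H → a ≠ b → a * b = b * a → Subgroup.centralizer ({a * b} : Set G) ≤ H) : H = ⊤ := by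
  by_contra hne
  obtain ⟨t, ht⟩ : ∃ t, t ∉ H := by
    by_contra h
    exact hne (eq_top_iff.mpr fun x _ => by_contra fun hx => h ⟨x, hx⟩)
  -- two fixed cosets coincide
  have hfixH : ∀ x ∈ I ∪ J, ∀ g k : G, g⁻¹ * x * g ∈ H → k⁻¹ * x * k ∈ H → g⁻¹ * k ∈ H := by
    intro x hx g k hg hk
    obtain ⟨c, hc, hu⟩ := hfix x hx
    have h1 : (g : G ⧸ H) = c := hu _ ((smul_coset_eq_iff H x g).mpr hg)
    have h2 : (k : G ⧸ H) = c := hu _ ((smul_coset_eq_iff H x k).mpr hk)
    exact QuotientGroup.eq.mp (h1.trans h2.symm)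
  have hIconj : ∀ x ∈ I, ∀ g : G, g * x * g⁻¹ ∈ I := by
    intro x hx g
    rw [hI] at hx ⊢
    exact IsConj.trans hx (isConj_iff.mpr ⟨g, rfl⟩)
  have hJconj : ∀ x ∈ J, ∀ g : G, g * x * g⁻¹ ∈ J := by
    intro x hx g
    rw [hJ] at hx ⊢
    exact IsConj.trans hx (isConj_iff.mpr ⟨g, rfl⟩)
  have ha₀I : a₀ ∈ I := by rw [hI]; exact IsConj.refl a₀
  have hb₀J : b₀ ∈ J := by rw [hJ]; exact IsConj.refl b₀
  have hIsq : ∀ x ∈ I, x * x = 1 := by
    intro x hx
    rw [hI] at hx
    obtain ⟨c, rfl⟩ := isConj_iff.mp hx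
    have : a₀ * a₀ = 1 := by rw [← pow_two, ← ha₀, pow_orderOf_eq_one]
    calc c * a₀ * c⁻¹ * (c * a₀ * c⁻¹) = c * (a₀ * a₀) * c⁻¹ := by simp [mul_assoc]
      _ = 1 := by rw [this]; simp
  have hJsq : ∀ x ∈ J, x * x = 1 := by
    intro x hx
    rw [hJ] at hx
    obtain ⟨c, rfl⟩ := isConj_iff.mp hx
    have : b₀ * b₀ = 1 := by rw [← pow_two, ← hb₀, pow_orderOf_eq_one]
    calc c * b₀ * c⁻¹ * (c * b₀ * c⁻¹) = c * (b₀ * b₀) * c⁻¹ := by simp [mul_assoc]
      _ = 1 := by rw [this]; simp
  -- an element a of I in H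
  obtain ⟨a, haI, haH⟩ : ∃ a ∈ I, a ∈ H := by
    obtain ⟨c, hc, -⟩ := hfix a₀ (Or.inl ha₀I)
    induction c using QuotientGroup.induction_on with
    | H g =>
      rw [smul_coset_eq_iff] at hc
      refine ⟨g⁻¹ * a₀ * g, ?_, hc⟩
      have := hIconj a₀ ha₀I g⁻¹
      simpa using this
  -- an element b of J outside H, with t⁻¹ b t ∈ H
  obtain ⟨b, hbJ, hbH, hbt⟩ : ∃ b ∈ J, b ∉ H ∧ t⁻¹ * b * t ∈ H := by
    obtain ⟨c, hc, -⟩ := hfix b₀ (Or.inr hb₀J)
    induction c using QuotientGroup.induction_on with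
    | H g =>
      rw [smul_coset_eq_iff] at hc
      have hb1 : t * (g⁻¹ * b₀ * g) * t⁻¹ ∈ J := by
        have := hJconj b₀ hb₀J (t * g⁻¹)
        simpa [mul_assoc] using this
      have hb2 : t⁻¹ * (t * (g⁻¹ * b₀ * g) * t⁻¹) * t ∈ H := by
        simpa [mul_assoc] using hc
      refine ⟨_, hb1, ?_, hb2⟩
      intro hbH
      have := hfixH _ (Or.inr hb1) 1 t (by simpa using hbH) hb2
      exact ht (by simpa using this)
  have haa := hIsq a haI
  have hbb := hJsq b hbJ
  -- commuting with an element of (I ∪ J) ∩ H forces membership in H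
  have hcomm : ∀ x ∈ I ∪ J, x ∈ H → ∀ y : G, y * x = x * y → y ∈ H := by
    intro x hx hxH y hy
    have h1 : y⁻¹ * x * y ∈ H := by
      have : y⁻¹ * x * y = x := by rw [mul_assoc, ← hy]; simp
      rw [this]; exact hxH
    have := hfixH x hx 1 y (by simpa using hxH) h1
    simpa using this
  -- order of ab is even
  set r := a * b with hr
  have hrpos : 0 < orderOf r := orderOf_pos r
  have hra : a * r * a = r⁻¹ := by
    rw [hr]
    apply eq_inv_of_mul_eq_one_left
    calc a * (a * b) * a * (a * b) = (a * a) * b * (a * a) * b := by simp [mul_assoc]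
      _ = 1 := by rw [haa]; simp [hbb]
  have hrb : b * r * b = r⁻¹ := by
    rw [hr]
    apply eq_inv_of_mul_eq_one_left
    calc b * (a * b) * b * (a * b) = b * a * (b * b) * a * b := by simp [mul_assoc]
      _ = b * (a * a) * b := by rw [hbb]; simp [mul_assoc]
      _ = 1 := by rw [haa]; simp [hbb]
  rcases Nat.even_or_odd' (orderOf r) with ⟨m, hm | hm⟩
  · -- even order 2m
    have hm0 : 0 < m := by omega
    set w := r ^ m with hw
    have hw1 : w ≠ 1 := by
      intro h
      have := orderOf_dvd_of_pow_eq_one h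
      have := Nat.le_of_dvd hm0 this
      omega
    have hww : w * w = 1 := by
      rw [hw, ← pow_add, ← two_mul, ← hm, pow_orderOf_eq_one]
    have hwinv : w⁻¹ = w := inv_eq_of_mul_eq_one_left hww
    -- a w a = w⁻¹ = w
    have haw : a * w = w * a := by
      have h1 : a * w * a = w⁻¹ := by
        have : a * r ^ m * a = (a * r * a) ^ m := by
          have ha' : a⁻¹ = a := inv_eq_of_mul_eq_one_left haa
          calc a * r ^ m * a = a * r ^ m * a⁻¹ := by rw [ha']
            _ = (a * r * a⁻¹) ^ m := (conj_pow).symm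
            _ = (a * r * a) ^ m := by rw [ha']
        rw [hw, this, hra, inv_pow]
      rw [hwinv] at h1
      have := congrArg (fun t => t * a) h1
      simp only [mul_assoc, haa, mul_one] at this
      exact this
    have hbw : b * w = w * b := by
      have h1 : b * w * b = w⁻¹ := by
        have : b * r ^ m * b = (b * r * b) ^ m := by
          have hb' : b⁻¹ = b := inv_eq_of_mul_eq_one_left hbb
          calc b * r ^ m * b = b * r ^ m * b⁻¹ := by rw [hb']
            _ = (b * r * b⁻¹) ^ m := (conj_pow).symm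
            _ = (b * r * b) ^ m := by rw [hb']
        rw [hw, this, hrb, inv_pow]
      rw [hwinv] at h1
      have := congrArg (fun t => t * b) h1
      simp only [mul_assoc, hbb, mul_one] at this
      exact this
    have hwH : w ∈ H := hcomm a (Or.inl haI) haH w haw.symm
    have hawIJ : a * w ∈ I ∪ J := by
      rcases Nat.even_or_odd' m with ⟨j, hj | hj⟩
      · left
        have := (dihedral_conj a b haa hbb j).1
        rw [hI] at haI ⊢
        rw [hw, hj]
        exact haI.trans this
      · right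
        have := (dihedral_conj a b haa hbb j).2
        rw [hJ] at hbJ ⊢
        rw [hw, hj]
        exact hbJ.trans this
    have hne' : a ≠ a * w := by
      intro h
      apply hw1
      have := congrArg (fun t => a * t) h
      simp only [← mul_assoc, haa, one_mul] at this
      exact this.symm
    have hcomm' : a * (a * w) = (a * w) * a := by
      rw [mul_assoc a w a, ← haw]
    have hC := hcent a haI haH (a * w) hawIJ (H.mul_mem haH hwH) hne' hcomm'
    have : a * (a * w) = w := by rw [← mul_assoc, haa, one_mul]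
    rw [this] at hC
    apply hbH
    apply hC
    rw [Subgroup.mem_centralizer_singleton_iff]
    exact hbw
  · -- odd order: a and b conjugate
    exfalso
    apply hIJ
    have h1 := (dihedral_conj a b haa hbb m).2
    rw [← hm, pow_orderOf_eq_one, mul_one] at h1
    -- IsConj b a
    rw [hI, hJ]
    rw [hI] at haI
    rw [hJ] at hbJ
    have hab : IsConj a₀ b₀ := haI.trans (h1.symm.trans hbJ.symm)
    exact Set.ext fun x => ⟨fun h => hab.symm.trans h, fun h => hab.trans h⟩


end Cfsg.Agent.S5439
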