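import Cfsg.Statements.S5452
import Cfsg.Agent.H91.U62Main
import Cfsg.Agent.H64.U62Ea3
import Cfsg.Agent.H64.U62Fus1
import Cfsg.Agent.H62.U62Fus3
import Cfsg.Agent.H62.U62Span
import Cfsg.Agent.H80.U62Fus2
import Cfsg.Agent.H61.U62X
import Cfsg.Agent.H61.U62Levi
import Cfsg.Agent.H54.U62Witt

set_option autoImplicit false
open Cfsg

namespace Cfsg.Agent.S5452
open Cfsg.Agent.H91.U62

/-- Let G be a finite group with an involution d whose centralizer C is quasisimple with C modulo the subgroup generated by d isomorphic to the projective special unitary group of dimension 6 over the field with four elements, and suppose some conjugate of d other than d commutes with d. Then every involution of C modulo the subgroup generated by d is the image of an involution of C, and d is not a square in G. -/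
theorem result {G : Type*} [Group G] [Finite G] (d : G) (hd : orderOf d = 2) (hq : Cfsg.IsQuasisimple ↥(Subgroup.centralizer ({d} : Set G))) [hzn : ((Subgroup.zpowers d).subgroupOf (Subgroup.centralizer ({d} : Set G))).Normal] (K : Type) [Field K] [Fintype K] (hK : Fintype.card K = 4) (e : ↥(Subgroup.centralizer ({d} : Set G)) ⧸ (Subgroup.zpowers d).subgroupOf (Subgroup.centralizer ({d} : Set G)) ≃* Cfsg.PSU 6 K 2) (hnwc : ∃ g : G, g * d * g⁻¹ ∈ Subgroup.centralizer ({d} : Set G) ∧ g * d * g⁻¹ ≠ d) : (∀ x : ↥(Subgroup.centralizer ({d} : Set G)) ⧸ (Subgroup.zpowers d).subgroupOf (Subgroup.centralizer ({d} : Set G)), orderOf x = 2 → ∃ y : ↥(Subgroup.centralizer ({d} : Set G)), orderOf y = 2 ∧ (QuotientGroup.mk y : ↥(Subgroup.centralizer ({d} : Set G)) ⧸ (Subgroup.zpowers d).subgroupOf (Subgroup.centralizer ({d} : Set G))) = x) ∧ ¬ ∃ g : G, g ^ 2 = d := by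
  set C : Subgroup G := Subgroup.centralizer ({d} : Set G) with hC
  set Kd : Subgroup ↥C := (Subgroup.zpowers d).subgroupOf C with hKd
  have hdd : d * d = 1 := by
    have := pow_orderOf_eq_one d
    rw [hd, pow_two] at this
    exact this
  let ρ : ↥C →* Cfsg.PSU 6 K 2 := e.toMonoidHom.comp (QuotientGroup.mk' Kd)
  have hsurj : Function.Surjective ρ := e.surjective.comp (QuotientGroup.mk'_surjective _)
  have hkerρ : ρ.ker = Kd := by
    ext x
    rw [MonoidHom.mem_ker]
    show e (QuotientGroup.mk' _ x) = 1 ↔ _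
    rw [MulEquiv.map_eq_one_iff, QuotientGroup.mk'_apply, QuotientGroup.eq_one_iff]
  have hKd_mem : ∀ z : ↥C, z ∈ Kd → (z : G) = 1 ∨ (z : G) = d := by
    intro z hz
    have hz' : (z : G) ∈ Subgroup.zpowers d := hz
    obtain ⟨k, hk⟩ := Subgroup.mem_zpowers_iff.mp hz'
    rcases Int.emod_two_eq_zero_or_one k with h | h
    · left
      rw [← hk, ← Int.emod_add_mul_ediv k 2, h, zero_add, zpow_mul, zpow_ofNat, pow_two, hdd,
        one_zpow]
    · right
      rw [← hk, ← Int.emod_add_mul_ediv k 2, h, zpow_add, zpow_one, zpow_mul, zpow_ofNat, pow_two,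
        hdd, one_zpow, mul_one]
  have hker : ρ.ker ≤ Subgroup.center ↥C := by
    rw [hkerρ]
    intro z hz
    rw [Subgroup.mem_center_iff]
    intro c
    apply Subtype.ext
    have hc : (c : G) * d = d * (c : G) := by
      have hc' : (c : G) ∈ Subgroup.centralizer ({d} : Set G) := c.2
      exact (Subgroup.mem_centralizer_iff.mp hc' d (Set.mem_singleton d)).symm
    rcases hKd_mem z hz with h | h
    · show (c : G) * (z : G) = (z : G) * (c : G)
      rw [h, mul_one, one_mul]
    · show (c : G) * (z : G) = (z : G) * (c : G)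
      rw [h, hc]
  have hexp : ∀ z ∈ ρ.ker, z * z = 1 := by
    intro z hz
    rw [hkerρ] at hz
    apply Subtype.ext
    rcases hKd_mem z hz with h | h
    · show (z : G) * (z : G) = 1
      rw [h, mul_one]
    · show (z : G) * (z : G) = 1
      rw [h, hdd]
  have key := lift_invol Cfsg.Agent.H64.U62.ea3 Cfsg.Agent.H64.U62.fus1 (Cfsg.Agent.H80.U62.fus2 Cfsg.Agent.H61.U62.levi) (Cfsg.Agent.H62.U62.fus3 Cfsg.Agent.H61.U62.x Cfsg.Agent.H61.U62.levi) Cfsg.Agent.H54.U62.witt (Cfsg.Agent.H62.U62.span Cfsg.Agent.H61.U62.x) hK ρ hsurj hker hexp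
  constructor
  · intro x hx
    obtain ⟨y, rfl⟩ := QuotientGroup.mk_surjective x
    have hxx : (QuotientGroup.mk y : ↥C ⧸ Kd) * QuotientGroup.mk y = 1 := by
      have := pow_orderOf_eq_one (QuotientGroup.mk y : ↥C ⧸ Kd)
      rw [hx, pow_two] at this
      exact this
    have hρ : ρ y * ρ y = 1 := by
      show e (QuotientGroup.mk y) * e (QuotientGroup.mk y) = 1
      rw [← map_mul, hxx, map_one]
    have hyy := key y hρ
    have hy1 : y ≠ 1 := by
      rintro rfl
      rw [QuotientGroup.mk_one, orderOf_one] at hx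
      norm_num at hx
    refine ⟨y, ?_, rfl⟩
    exact orderOf_eq_prime (by rw [pow_two]; exact hyy) hy1
  · rintro ⟨g, hg⟩
    have hgC : g ∈ C := by
      show g ∈ Subgroup.centralizer ({d} : Set G)
      rw [Subgroup.mem_centralizer_iff]
      intro h hh
      rw [Set.mem_singleton_iff] at hh
      rw [hh, ← hg, pow_two]
      group
    have hρ : ρ ⟨g, hgC⟩ * ρ ⟨g, hgC⟩ = 1 := by
      rw [← map_mul, ← MonoidHom.mem_ker, hkerρ]
      show g * g ∈ Subgroup.zpowers d
      rw [← pow_two, hg]
      exact Subgroup.mem_zpowers d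
    have hgg := key ⟨g, hgC⟩ hρ
    have hgg' : g * g = 1 := congrArg Subtype.val hgg
    rw [← pow_two, hg] at hgg'
    rw [hgg', orderOf_one] at hd
    norm_num at hd

end Cfsg.Agent.S5452
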