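import Cfsg.Statements.S5459
import Cfsg.Agent.Helper55.CommGraphLift

set_option autoImplicit false
open Cfsg

namespace Cfsg.Agent.S5459

/-- Let G be a finite group with a quasisimple normal subgroup L and an involution d such that G is generated by L and d, the centre of L has odd order, and d inverts every element of the centre of L. If the commuting graph on the conjugacy class of the image of d in G modulo the centre of L is connected, then the commuting graph on the conjugacy class of d is connected. -/
theorem result {G : Type*} [Group G] [Finite G] (L : Subgroup G) [L.Normal] (hL : Cfsg.IsQuasisimple ↥L) (d : G) (hd : orderOf d = 2) (hgen : L ⊔ Subgroup.zpowers d = ⊤) (hodd : Odd (Nat.card ↥(Subgroup.center ↥L))) (hinv : ∀ c ∈ (Subgroup.center ↥L).map L.subtype, d * c * d⁻¹ = c⁻¹) [hn : ((Subgroup.center ↥L).map L.subtype).Normal] (hconn : (Cfsg.commutingGraph (conjugatesOf (QuotientGroup.mk d : G ⧸ (Subgroup.center ↥L).map L.subtype))).Connected) : (Cfsg.commutingGraph (conjugatesOf d)).Connected :=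
  Cfsg.Agent.Helper55.commutingGraph_connected_lift L hL d hd hodd hinv hconn

end Cfsg.Agent.S5459
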