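import Cfsg.Statements.S5541
-- import your own Cfsg.Agent.* helpers here

set_option autoImplicit false
open Cfsg

namespace Cfsg.Agent.S5541

/-- Let ρ be a representation of a group H on a finite-dimensional real vector space U whose only ρ-invariant subspaces are the zero subspace and U, and suppose U carries a non-zero ρ-invariant symmetric bilinear form. Then the following are equivalent: (1) there is a non-zero ρ-equivariant commutative bilinear product on U of which every ρ-equivariant bilinear product is a scalar multiple; (2) there is a non-zero ρ-invariant trilinear form on U that is symmetric under all permutations of its arguments and of which every ρ-invariant trilinear form is a scalar multiple. -/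
theorem result {H : Type*} [Group H] {U : Type*} [AddCommGroup U] [Module ℝ U] [FiniteDimensional ℝ U] (ρ : Representation ℝ H U) (hirr : ∀ W : Submodule ℝ U, (∀ g : H, W.map (ρ g) ≤ W) → W = ⊥ ∨ W = ⊤) (B : LinearMap.BilinForm ℝ U) (hB0 : B ≠ 0) (hBs : ∀ u v, B u v = B v u) (hBi : ∀ (g : H) (u v : U), B (ρ g u) (ρ g v) = B u v) : (∃ m : U →ₗ[ℝ] U →ₗ[ℝ] U, m ≠ 0 ∧ (∀ u v, m u v = m v u) ∧ (∀ (g : H) (u v : U), m (ρ g u) (ρ g v) = ρ g (m u v)) ∧ ∀ m' : U →ₗ[ℝ] U →ₗ[ℝ] U, (∀ (g : H) (u v : U), m' (ρ g u) (ρ g v) = ρ g (m' u v)) → ∃ c : ℝ, m' = c • m) ↔ (∃ t : U →ₗ[ℝ] U →ₗ[ℝ] U →ₗ[ℝ] ℝ, t ≠ 0 ∧ (∀ u v w, t u v w = t v u w ∧ t u v w = t u w v) ∧ (∀ (g : H) (u v w : U), t (ρ g u) (ρ g v) (ρ g w) = t u v w) ∧ ∀ t' : U →ₗ[ℝ] U →ₗ[ℝ] U →ₗ[ℝ] ℝ, (∀ (g : H) (u v w : U), t' (ρ g u) (ρ g v) (ρ g w) = t' u v w) → ∃ c : ℝ, t' = c • t) := by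
  classical
  -- ρ g is invertible
  have hρinv : ∀ (g : H) (u : U), ρ g (ρ g⁻¹ u) = u := by
    intro g u
    have h1 : ρ g * ρ g⁻¹ = 1 := by rw [← map_mul, mul_inv_cancel, map_one]
    have h2 := congrArg (fun f : U →ₗ[ℝ] U => f u) h1
    simpa using h2
  -- B is injective as a map into the dual, since its kernel is an invariant subspace
  have hinj : Function.Injective B := by
    have hker : ∀ g : H, (LinearMap.ker B).map (ρ g) ≤ LinearMap.ker B := by
      rintro g _ ⟨u, hu, rfl⟩
      have hu' : B u = 0 := hu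
      show B (ρ g u) = 0
      ext w
      have h1 := hBi g u (ρ g⁻¹ w)
      rw [hρinv] at h1
      rw [h1, hu']
      simp
    rcases hirr _ hker with h | h
    · exact LinearMap.ker_eq_bot.mp h
    · exact absurd (LinearMap.ker_eq_top.mp h) hB0
  let φ : U ≃ₗ[ℝ] Module.Dual ℝ U :=
    LinearMap.linearEquivOfInjective B hinj Subspace.dual_finrank_eq.symm
  have hφ : ∀ u w, φ u w = B u w := fun u w => rfl
  have hφs : ∀ (f : Module.Dual ℝ U) (w : U), B (φ.symm f) w = f w := by
    intro f w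
    rw [← hφ, LinearEquiv.apply_symm_apply]
  -- invariance of a trilinear form gives equivariance of the associated product
  have key : ∀ t' : U →ₗ[ℝ] U →ₗ[ℝ] U →ₗ[ℝ] ℝ,
      (∀ (g : H) (u v w : U), t' (ρ g u) (ρ g v) (ρ g w) = t' u v w) →
      ∀ (g : H) (u v : U), φ.symm (t' (ρ g u) (ρ g v)) = ρ g (φ.symm (t' u v)) := by
    intro t' ht' g u v
    apply hinj
    ext w
    rw [hφs]
    have h1 := ht' g u v (ρ g⁻¹ w)
    rw [hρinv] at h1
    have h2 := hBi g (φ.symm (t' u v)) (ρ g⁻¹ w)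
    rw [hρinv] at h2
    rw [h1, h2, hφs]
  constructor
  · rintro ⟨m, hm0, hmc, hme, hmu⟩
    let t : U →ₗ[ℝ] U →ₗ[ℝ] U →ₗ[ℝ] ℝ := m.compr₂ B
    have htapp : ∀ u v w, t u v w = B (m u v) w := fun u v w => rfl
    have htinv : ∀ (g : H) (u v w : U), t (ρ g u) (ρ g v) (ρ g w) = t u v w := by
      intro g u v w
      rw [htapp, htapp, hme, hBi]
    have ht0 : t ≠ 0 := by
      intro h
      apply hm0
      ext u v
      apply hinj
      ext w
      have h1 := congrArg (fun f : U →ₗ[ℝ] U →ₗ[ℝ] U →ₗ[ℝ] ℝ => f u v w) h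
      simp only [htapp] at h1
      simpa using h1
    have htuniq : ∀ t' : U →ₗ[ℝ] U →ₗ[ℝ] U →ₗ[ℝ] ℝ,
        (∀ (g : H) (u v w : U), t' (ρ g u) (ρ g v) (ρ g w) = t' u v w) → ∃ c : ℝ, t' = c • t := by
      intro t' ht'
      obtain ⟨c, hc⟩ := hmu (t'.compr₂ φ.symm.toLinearMap) (by
        intro g u v
        exact key t' ht' g u v)
      refine ⟨c, ?_⟩
      ext u v w
      have h1 := congrArg (fun f : U →ₗ[ℝ] U →ₗ[ℝ] U => B (f u v) w) hc
      simp only [LinearMap.compr₂_apply, LinearEquiv.coe_coe, LinearMap.smul_apply, map_smul] at h1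
      rw [hφs] at h1
      rw [h1]
      simp [htapp]
    have hs1 : ∀ u v w, t u v w = t v u w := by
      intro u v w
      rw [htapp, htapp, hmc]
    refine ⟨t, ht0, ?_, htinv, htuniq⟩
    -- the form with the last two arguments swapped is invariant, hence a multiple of t
    obtain ⟨c, hc⟩ := htuniq (LinearMap.lflip.comp t) (by
      intro g u v w
      exact htinv g u w v)
    have hR : ∀ u v w, t u w v = c * t u v w := by
      intro u v w
      have h1 := congrArg (fun f : U →ₗ[ℝ] U →ₗ[ℝ] U →ₗ[ℝ] ℝ => f u v w) hc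
      simpa using h1
    intro u v w
    refine ⟨hs1 u v w, ?_⟩
    have e2 : t u v w = c * (c * t u v w) := by
      rw [← hR u v w, ← hR u w v]
    have e3 : t u v w = c * (c * (c * t u v w)) := by
      calc t u v w = t v u w := hs1 u v w
        _ = c * t v w u := hR v w u
        _ = c * t w v u := by rw [hs1 v w u]
        _ = c * (c * t w u v) := by rw [hR w u v]
        _ = c * (c * t u w v) := by rw [hs1 w u v]
        _ = c * (c * (c * t u v w)) := by rw [hR u v w]
    rw [hR u v w]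
    calc t u v w = c * (c * (c * t u v w)) := e3
      _ = c * t u v w := by rw [← e2]
  · rintro ⟨t, ht0, hts, hti, htu⟩
    let m : U →ₗ[ℝ] U →ₗ[ℝ] U := t.compr₂ φ.symm.toLinearMap
    have hmB : ∀ u v w, B (m u v) w = t u v w := by
      intro u v w
      exact hφs (t u v) w
    have hm0 : m ≠ 0 := by
      intro h
      apply ht0
      ext u v w
      rw [← hmB, h]
      simp
    have hmc : ∀ u v, m u v = m v u := by
      intro u v
      apply hinj
      ext w
      rw [hmB, hmB]
      exact (hts u v w).1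
    have hme : ∀ (g : H) (u v : U), m (ρ g u) (ρ g v) = ρ g (m u v) := by
      intro g u v
      exact key t hti g u v
    refine ⟨m, hm0, hmc, hme, ?_⟩
    intro m' hm'
    obtain ⟨c, hc⟩ := htu (m'.compr₂ B) (by
      intro g u v w
      show B (m' (ρ g u) (ρ g v)) (ρ g w) = B (m' u v) w
      rw [hm', hBi])
    refine ⟨c, ?_⟩
    ext u v
    apply hinj
    ext w
    have h1 := congrArg (fun f : U →ₗ[ℝ] U →ₗ[ℝ] U →ₗ[ℝ] ℝ => f u v w) hc
    simp only [LinearMap.compr₂_apply, LinearMap.smul_apply] at h1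
    rw [h1, ← hmB]
    simp

end Cfsg.Agent.S5541
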