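import Cfsg.Statements.S5543
-- import your own Cfsg.Agent.* helpers here

set_option autoImplicit false
open Cfsg

namespace Cfsg.Agent.S5543

/-- Let V be a finite-dimensional real vector space with a commutative bilinear product and a positive-definite symmetric bilinear form that associates with the product and satisfies the Norton inequality (the Majorana setting of the definitions). Let X be a group of linear automorphisms of V in which every element squares to the identity, and suppose every non-identity element x of X is a Majorana involution with an axial vector a(x) of squared length 1, such that for any two distinct non-identity x, y the product a(x) ∘ a(y) equals (1/8)(a(x) + a(y) − a(xy)) (the dihedral subalgebra of type 2A whose third axis belongs to the involution xy). Then X has order at most 4. -/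
theorem result {V : Type*} [AddCommGroup V] [Module ℝ V] [FiniteDimensional ℝ V] (mul : V →ₗ[ℝ] V →ₗ[ℝ] V) (B : LinearMap.BilinForm ℝ V) (hV : Cfsg.Axial.IsMajoranaAmbient mul B) (X : Subgroup (V ≃ₗ[ℝ] V)) (hX : ∀ x ∈ X, x * x = 1) (ax : (V ≃ₗ[ℝ] V) → V) (hax : ∀ x ∈ X, x ≠ 1 → Cfsg.Axial.IsMajoranaPair mul B x (ax x)) (h1 : ∀ x ∈ X, x ≠ 1 → B (ax x) (ax x) = 1) (h2A : ∀ x ∈ X, ∀ y ∈ X, x ≠ 1 → y ≠ 1 → x ≠ y → mul (ax x) (ax y) = (1 / 8 : ℝ) • (ax x + ax y - ax (x * y))) : Nat.card ↥X ≤ 4 := by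
  classical
  by_contra hcard
  rw [not_le] at hcard
  have pick : ∀ s : Finset (V ≃ₗ[ℝ] V), s.card ≤ 4 → ∃ z ∈ X, z ∉ s := by
    intro s hs
    by_contra hcon
    simp only [not_exists, not_and, not_not] at hcon
    have hsub : (X : Set (V ≃ₗ[ℝ] V)) ⊆ (s : Set (V ≃ₗ[ℝ] V)) := fun z hz => hcon z hz
    have h1 : Nat.card ↥X = Set.ncard (X : Set (V ≃ₗ[ℝ] V)) := Nat.card_coe_set_eq _
    have h2 := Set.ncard_le_ncard hsub (Finset.finite_toSet s)
    rw [Set.ncard_coe_finset] at h2
    omega
  obtain ⟨x, hxX, hx⟩ := pick {1} (by simp)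
  obtain ⟨y, hyX, hy⟩ := pick {1, x} (le_trans Finset.card_le_two (by norm_num))
  obtain ⟨z, hzX, hz⟩ := pick {1, x, y, x * y} Finset.card_le_four
  simp only [Finset.mem_singleton, Finset.mem_insert, not_or] at hx hy hz
  obtain ⟨hy1, hyx⟩ := hy
  obtain ⟨hz1, hzx, hzy, hzxy⟩ := hz
  -- group facts
  have hxx : x * x = 1 := hX x hxX
  have hyy : y * y = 1 := hX y hyX
  have hzz : z * z = 1 := hX z hzX
  have hcomm : ∀ g ∈ X, ∀ h ∈ X, g * h = h * g := by
    intro g hg h hh
    have h1 := hX g hg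
    have h2 := hX h hh
    have h3 := hX (g * h) (X.mul_mem hg hh)
    have i1 : g⁻¹ = g := inv_eq_of_mul_eq_one_left h1
    have i2 : h⁻¹ = h := inv_eq_of_mul_eq_one_left h2
    have i3 : (g * h)⁻¹ = g * h := inv_eq_of_mul_eq_one_left h3
    calc g * h = (g * h)⁻¹ := i3.symm
      _ = h⁻¹ * g⁻¹ := mul_inv_rev g h
      _ = h * g := by rw [i1, i2]
  have hxy : x * y = y * x := hcomm x hxX y hyX
  have hxz : x * z = z * x := hcomm x hxX z hzX
  have hyz : y * z = z * y := hcomm y hyX z hzX
  have hxyX : x * y ∈ X := X.mul_mem hxX hyX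
  have hxzX : x * z ∈ X := X.mul_mem hxX hzX
  have hyzX : y * z ∈ X := X.mul_mem hyX hzX
  have hxyzX : x * y * z ∈ X := X.mul_mem hxyX hzX
  -- identities for products
  have e1 : x * (x * y) = y := by rw [← mul_assoc, hxx, one_mul]
  have e2 : x * (x * z) = z := by rw [← mul_assoc, hxx, one_mul]
  have e3 : y * (x * z) = x * y * z := by rw [← mul_assoc, hxy]
  have e4 : (x * y) * (x * z) = y * z := by
    rw [hxy, mul_assoc, ← mul_assoc x x z, hxx, one_mul]
  have e5 : x * (y * z) = x * y * z := by rw [mul_assoc]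
  have e6 : x * (x * y * z) = y * z := by rw [mul_assoc, ← mul_assoc, hxx, one_mul]
  have e7 : (y * z) * (x * y * z) = x := by
    rw [hxy, mul_assoc y x z, ← mul_assoc (y * z) y (x * z), hyz, mul_assoc z y y, hyy, mul_one,
      hxz, ← mul_assoc, hzz, one_mul]
  -- non-identity / distinctness
  have n1 : x * y ≠ 1 := by
    intro h
    apply hyx
    calc y = (x * x) * y := by rw [hxx, one_mul]
      _ = x * (x * y) := by rw [mul_assoc]
      _ = x := by rw [h, mul_one]
  have n2 : x * z ≠ 1 := by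
    intro h
    apply hzx
    calc z = (x * x) * z := by rw [hxx, one_mul]
      _ = x * (x * z) := by rw [mul_assoc]
      _ = x := by rw [h, mul_one]
  have n3 : y * z ≠ 1 := by
    intro h
    apply hzy
    calc z = (y * y) * z := by rw [hyy, one_mul]
      _ = y * (y * z) := by rw [mul_assoc]
      _ = y := by rw [h, mul_one]
  have n4 : x * y * z ≠ 1 := by
    intro h
    apply hzxy
    calc z = 1 * z := by rw [one_mul]
      _ = (x * y * z) * z := by rw [h]
      _ = x * y := by rw [mul_assoc, hzz, mul_one]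
  have n5 : x ≠ x * y := by
    intro h
    apply hy1
    calc y = x * (x * y) := e1.symm
      _ = 1 := by rw [← h, hxx]
  have n6 : x ≠ x * z := by
    intro h
    apply hz1
    calc z = x * (x * z) := e2.symm
      _ = 1 := by rw [← h, hxx]
  have n7 : y ≠ x * z := by
    intro h
    apply hzxy
    calc z = x * (x * z) := e2.symm
      _ = x * y := by rw [← h]
  have n8 : x * y ≠ x * z := by
    intro h
    apply hzy
    exact (mul_left_cancel h).symm
  have n9 : x ≠ y * z := by
    intro h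
    apply hzxy
    calc z = (y * y) * z := by rw [hyy, one_mul]
      _ = y * (y * z) := by rw [mul_assoc]
      _ = y * x := by rw [← h]
      _ = x * y := hxy.symm
  have n10 : x ≠ x * y * z := by
    intro h
    apply n3
    calc y * z = x * (x * y * z) := e6.symm
      _ = 1 := by rw [← h, hxx]
  have n11 : y * z ≠ x * y * z := by
    intro h
    apply hx
    have h' : 1 * (y * z) = x * (y * z) := by rw [one_mul, ← mul_assoc]; exact h
    exact (mul_right_cancel h').symm
  -- 2A relations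
  have r_xy := h2A x hxX y hyX hx hy1 (Ne.symm hyx)
  have r_x_xy := h2A x hxX (x * y) hxyX hx n1 n5
  have r_xz := h2A x hxX z hzX hx hz1 (Ne.symm hzx)
  have r_x_xz := h2A x hxX (x * z) hxzX hx n2 n6
  have r_yz := h2A y hyX z hzX hy1 hz1 (Ne.symm hzy)
  have r_y_xz := h2A y hyX (x * z) hxzX hy1 n2 n7
  have r_xy_z := h2A (x * y) hxyX z hzX n1 hz1 (Ne.symm hzxy)
  have r_xy_xz := h2A (x * y) hxyX (x * z) hxzX n1 n2 n8
  have r_x_yz := h2A x hxX (y * z) hyzX hx n3 n9
  have r_x_xyz := h2A x hxX (x * y * z) hxyzX hx n4 n10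
  have r_yz_xyz := h2A (y * z) hyzX (x * y * z) hxyzX n3 n4 n11
  rw [e1] at r_x_xy
  rw [e2] at r_x_xz
  rw [e3] at r_y_xz
  rw [e4] at r_xy_xz
  rw [e5] at r_x_yz
  rw [e6] at r_x_xyz
  rw [e7] at r_yz_xyz
  -- abbreviations
  obtain ⟨-, -, ⟨⟨-, -, -, hfus⟩, -⟩, -⟩ := hax x hxX hx
  obtain ⟨-, -, ⟨⟨-, hidem, -, -⟩, -⟩, -⟩ := hax (y * z) hyzX n3
  have ha1 := h1 x hxX hx
  have hb1 := h1 (y * z) hyzX n3
  generalize ax x = a at *
  generalize ax y = b at *
  generalize ax z = c at *
  generalize ax (x * y) = ab at *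
  generalize ax (x * z) = ac at *
  generalize ax (y * z) = bc at *
  generalize ax (x * y * z) = abc at *
  -- eigenvectors
  have hp : b - ab ∈ Cfsg.Axial.eigen mul a (1 / 4) := by
    show b - ab ∈ Module.End.eigenspace (mul a) (1 / 4)
    rw [Module.End.mem_eigenspace_iff, map_sub, r_xy, r_x_xy]
    module
  have hq : c - ac ∈ Cfsg.Axial.eigen mul a (1 / 4) := by
    show c - ac ∈ Module.End.eigenspace (mul a) (1 / 4)
    rw [Module.End.mem_eigenspace_iff, map_sub, r_xz, r_x_xz]
    module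
  have hpq : mul (b - ab) (c - ac) = (1 / 4 : ℝ) • (abc - bc) := by
    simp only [map_sub, LinearMap.sub_apply]
    rw [r_yz, r_y_xz, r_xy_z, r_xy_xz]
    module
  have hr : mul a (abc - bc) = (1 / 4 : ℝ) • (abc - bc) := by
    rw [map_sub, r_x_xyz, r_x_yz]
    module
  have hmem := hfus (1 / 4) (by simp [Cfsg.Axial.majoranaSpectrum]) (1 / 4)
    (by simp [Cfsg.Axial.majoranaSpectrum]) _ hp _ hq
  have hlaw : Cfsg.Axial.monsterLaw (1 / 4 : ℝ) (1 / 32) (1 / 4) (1 / 4) = {1, 0} := by
    unfold Cfsg.Axial.monsterLaw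
    norm_num
  rw [hlaw, hpq] at hmem
  unfold Cfsg.Axial.eigenSum at hmem
  rw [iSup_pair, Submodule.mem_sup] at hmem
  obtain ⟨r1, hr1, r0, hr0, hsum⟩ := hmem
  have hr1' : mul a r1 = (1 : ℝ) • r1 := Module.End.mem_eigenspace_iff.mp hr1
  have hr0' : mul a r0 = (0 : ℝ) • r0 := Module.End.mem_eigenspace_iff.mp hr0
  rw [one_smul] at hr1'
  rw [zero_smul] at hr0'
  -- apply mul a to hsum
  have h4 : mul a (r1 + r0) = (1 / 4 : ℝ) • (r1 + r0) := by
    rw [hsum, map_smul, hr, smul_smul]
  rw [map_add, hr1', hr0', add_zero] at h4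
  have h5 : r0 = (3 : ℝ) • r1 := by
    have : (4 : ℝ) • r1 = (4 : ℝ) • ((1 / 4 : ℝ) • (r1 + r0)) := by rw [← h4]
    rw [smul_smul] at this
    norm_num at this
    have h' : r0 = (4 : ℝ) • r1 - r1 := by rw [this]; abel
    rw [h']
    module
  have h6 : r1 = 0 := by
    have : mul a r0 = (3 : ℝ) • mul a r1 := by rw [h5, map_smul]
    rw [hr0', hr1'] at this
    have h3 : (3 : ℝ) ≠ 0 := by norm_num
    exact (smul_eq_zero.mp this.symm).resolve_left h3
  have h7 : abc = bc := by
    rw [h6, smul_zero] at h5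
    rw [h6, h5, add_zero] at hsum
    have h4' : (1 / 4 : ℝ) ≠ 0 := by norm_num
    have := (smul_eq_zero.mp hsum.symm).resolve_left h4'
    exact sub_eq_zero.mp this
  rw [h7, hidem] at r_yz_xyz
  have h8 : a = (-6 : ℝ) • bc := by
    have : (8 : ℝ) • bc = (8 : ℝ) • ((1 / 8 : ℝ) • (bc + bc - a)) := by rw [← r_yz_xyz]
    rw [smul_smul] at this
    norm_num at this
    have h' : a = bc + bc - (8 : ℝ) • bc := by rw [this]; abel
    rw [h']
    module
  rw [h8] at ha1
  simp only [map_smul, LinearMap.smul_apply, hb1, smul_eq_mul] at ha1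
  norm_num at ha1

end Cfsg.Agent.S5543
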