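import Cfsg.Statements.S5545
-- import your own Cfsg.Agent.* helpers here

set_option autoImplicit false
set_option linter.unusedSimpArgs false
open Cfsg

namespace Cfsg.Agent.S5545

open Cfsg.Axial in
/-- A vector in the `1/4`-eigenspace that also lies in the sum of the `1`- and `0`-eigenspaces is zero. -/
theorem zero_of_mem_quarter_of_mem_sup {V : Type*} [AddCommGroup V] [Module ℝ V]
    (mul : V →ₗ[ℝ] V →ₗ[ℝ] V) (a r : V) (hr : r ∈ eigen mul a (1 / 4))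
    (hr' : r ∈ eigen mul a 1 ⊔ eigen mul a 0) : r = 0 := by
  have hr4 : mul a r = (1 / 4 : ℝ) • r := Module.End.mem_eigenspace_iff.mp hr
  rw [Submodule.mem_sup] at hr'
  obtain ⟨r1, hr1, r0, hr0, hsum⟩ := hr'
  have hr1' : mul a r1 = (1 : ℝ) • r1 := Module.End.mem_eigenspace_iff.mp hr1
  have hr0' : mul a r0 = (0 : ℝ) • r0 := Module.End.mem_eigenspace_iff.mp hr0
  rw [one_smul] at hr1'
  rw [zero_smul] at hr0'
  have h4 : mul a (r1 + r0) = (1 / 4 : ℝ) • (r1 + r0) := by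
    rw [hsum, hr4]
  rw [map_add, hr1', hr0', add_zero] at h4
  have h5 : r0 = (3 : ℝ) • r1 := by
    have : (4 : ℝ) • r1 = (4 : ℝ) • ((1 / 4 : ℝ) • (r1 + r0)) := by rw [← h4]
    rw [smul_smul] at this
    norm_num at this
    have h' : r0 = (4 : ℝ) • r1 - r1 := by rw [this]; abel
    rw [h']
    module
  have h6 : r1 = 0 := by
    have : mul a r0 = (3 : ℝ) • mul a r1 := by rw [h5, map_smul]
    rw [hr0', hr1'] at this
    have h3 : (3 : ℝ) ≠ 0 := by norm_num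
    exact (smul_eq_zero.mp this.symm).resolve_left h3
  rw [h6, smul_zero] at h5
  rw [← hsum, h6, h5, add_zero]

open Cfsg.Axial in
theorem mem_eigen_map {V : Type*} [AddCommGroup V] [Module ℝ V]
    (mul : V →ₗ[ℝ] V →ₗ[ℝ] V) (σ : V ≃ₗ[ℝ] V) (hσ : ∀ u v : V, σ (mul u v) = mul (σ u) (σ v))
    (a : V) (c : ℝ) (w : V) : w ∈ eigen mul (σ a) c ↔ σ.symm w ∈ eigen mul a c := by
  show w ∈ Module.End.eigenspace (mul (σ a)) c ↔ σ.symm w ∈ Module.End.eigenspace (mul a) c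
  rw [Module.End.mem_eigenspace_iff, Module.End.mem_eigenspace_iff]
  constructor
  · intro h
    apply σ.injective
    rw [hσ, LinearEquiv.apply_symm_apply, map_smul, LinearEquiv.apply_symm_apply, h]
  · intro h
    have h2 := congrArg σ h
    rw [hσ, LinearEquiv.apply_symm_apply, map_smul, LinearEquiv.apply_symm_apply] at h2
    exact h2

open Cfsg.Axial in
theorem eigen_map {V : Type*} [AddCommGroup V] [Module ℝ V]
    (mul : V →ₗ[ℝ] V →ₗ[ℝ] V) (σ : V ≃ₗ[ℝ] V) (hσ : ∀ u v : V, σ (mul u v) = mul (σ u) (σ v))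
    (a : V) (c : ℝ) : eigen mul (σ a) c = (eigen mul a c).map (σ : V →ₗ[ℝ] V) := by
  ext w
  rw [Submodule.mem_map_equiv]
  exact mem_eigen_map mul σ hσ a c w

open Cfsg.Axial in
theorem eigenSum_map {V : Type*} [AddCommGroup V] [Module ℝ V]
    (mul : V →ₗ[ℝ] V →ₗ[ℝ] V) (σ : V ≃ₗ[ℝ] V) (hσ : ∀ u v : V, σ (mul u v) = mul (σ u) (σ v))
    (a : V) (S : Set ℝ) : eigenSum mul (σ a) S = (eigenSum mul a S).map (σ : V →ₗ[ℝ] V) := by
  unfold eigenSum
  rw [Submodule.map_iSup]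
  congr 1
  funext c
  rw [Submodule.map_iSup]
  congr 1
  funext _
  exact eigen_map mul σ hσ a c

open Cfsg.Axial in
/-- Transport of a Majorana pair along an automorphism commuting with the involution. -/
theorem majoranaPair_transport {V : Type*} [AddCommGroup V] [Module ℝ V]
    (mul : V →ₗ[ℝ] V →ₗ[ℝ] V) (B : LinearMap.BilinForm ℝ V) (μ σ : V ≃ₗ[ℝ] V) (a : V)
    (h : IsMajoranaPair mul B μ a) (hσ : ∀ u v : V, σ (mul u v) = mul (σ u) (σ v))
    (hc : σ * μ = μ * σ) : IsMajoranaPair mul B μ (σ a) := by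
  obtain ⟨hμm, hμB, ⟨⟨hne, hidem, htop, hfus⟩, hprim⟩, hfix, hneg⟩ := h
  have hσs : ∀ u v : V, σ.symm (mul u v) = mul (σ.symm u) (σ.symm v) := by
    intro u v
    apply σ.injective
    rw [hσ, LinearEquiv.apply_symm_apply, LinearEquiv.apply_symm_apply, LinearEquiv.apply_symm_apply]
  have hcomm : ∀ w : V, μ (σ w) = σ (μ w) := by
    intro w
    have := congrArg (fun f : V ≃ₗ[ℝ] V => f w) hc
    simp only [LinearEquiv.mul_apply] at this
    exact this.symm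
  refine ⟨hμm, hμB, ⟨⟨?_, ?_, ?_, ?_⟩, ?_⟩, ?_, ?_⟩
  · exact (LinearEquiv.map_ne_zero_iff σ).mpr hne
  · rw [← hσ, hidem]
  · rw [eigenSum_map mul σ hσ, htop, Submodule.map_top]
    exact LinearEquiv.range σ
  · intro c hcS d hdS u hu v hv
    rw [eigenSum_map mul σ hσ, Submodule.mem_map_equiv, hσs]
    exact hfus c hcS d hdS _ ((mem_eigen_map mul σ hσ a c u).mp hu) _ ((mem_eigen_map mul σ hσ a d v).mp hv)
  · rw [eigen_map mul σ hσ, hprim, Submodule.map_span, Set.image_singleton]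
    rfl
  · intro v hv
    rw [eigenSum_map mul σ hσ, Submodule.mem_map_equiv] at hv
    have h1 : μ (σ.symm v) = σ.symm v := hfix _ hv
    show μ v = v
    calc μ v = μ (σ (σ.symm v)) := by rw [LinearEquiv.apply_symm_apply]
      _ = σ (μ (σ.symm v)) := hcomm _
      _ = v := by rw [h1, LinearEquiv.apply_symm_apply]
  · intro v hv
    rw [mem_eigen_map mul σ hσ] at hv
    have h1 : μ (σ.symm v) = -σ.symm v := hneg _ hv
    show μ v = -v
    calc μ v = μ (σ (σ.symm v)) := by rw [LinearEquiv.apply_symm_apply]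
      _ = σ (μ (σ.symm v)) := hcomm _
      _ = -v := by rw [h1, map_neg, LinearEquiv.apply_symm_apply]

open Cfsg.Axial in
/-- One half of the analysis of two axes with commuting involutions: decomposition of `a₀` with respect to `a₁`. -/
theorem half {V : Type*} [AddCommGroup V] [Module ℝ V]
    (mul : V →ₗ[ℝ] V →ₗ[ℝ] V) (B : LinearMap.BilinForm ℝ V) (hV : IsMajoranaAmbient mul B)
    (μ₁ : V ≃ₗ[ℝ] V) (a₀ a₁ : V) (h₁ : IsMajoranaPair mul B μ₁ a₁) (hfixa : μ₁ a₀ = a₀)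
    (hidem₀ : mul a₀ a₀ = a₀) (hn₁ : B a₁ a₁ = 1) :
    mul a₁ (mul a₀ a₁) = (1 / 4 : ℝ) • (mul a₀ a₁ + (3 * B a₀ a₁) • a₁) ∧
    (2 : ℝ) • mul (a₀ + (3 * B a₀ a₁) • a₁ - (4 : ℝ) • mul a₀ a₁) ((4 : ℝ) • mul a₀ a₁ - (4 * B a₀ a₁) • a₁)
      = (1 - B a₀ a₁ / 2) • ((4 : ℝ) • mul a₀ a₁ - (4 * B a₀ a₁) • a₁) := by
  obtain ⟨hcomm, hBsymm, hBpos, hBassoc, hNorton⟩ := hV
  obtain ⟨hμm, hμB, ⟨⟨hne, hidem, htop, hfus⟩, hprim⟩, hfix, hneg⟩ := h₁
  -- decompose a₀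
  have hmem : a₀ ∈ eigenSum mul a₁ majoranaSpectrum := by rw [htop]; trivial
  unfold eigenSum majoranaSpectrum at hmem
  rw [iSup_insert, iSup_insert, iSup_insert, iSup_singleton] at hmem
  rw [Submodule.mem_sup] at hmem
  obtain ⟨w1, hw1, w', hw', hsum1⟩ := hmem
  rw [Submodule.mem_sup] at hw'
  obtain ⟨u, hu, w'', hw'', hsum2⟩ := hw'
  rw [Submodule.mem_sup] at hw''
  obtain ⟨v, hv, wt, hwt, hsum3⟩ := hw''
  -- Miyamoto
  have hS1 : eigen mul a₁ 1 ≤ eigenSum mul a₁ {1, 0, 1 / 4} :=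
    le_biSup (fun c => eigen mul a₁ c) (by simp)
  have hS0 : eigen mul a₁ 0 ≤ eigenSum mul a₁ {1, 0, 1 / 4} :=
    le_biSup (fun c => eigen mul a₁ c) (by simp)
  have hSq : eigen mul a₁ (1 / 4) ≤ eigenSum mul a₁ {1, 0, 1 / 4} :=
    le_biSup (fun c => eigen mul a₁ c) (by simp)
  have f1 : μ₁ w1 = w1 := hfix _ (hS1 hw1)
  have f0 : μ₁ u = u := hfix _ (hS0 hu)
  have fq : μ₁ v = v := hfix _ (hSq hv)
  have ft : μ₁ wt = -wt := hneg _ hwt
  have hwt0 : wt = 0 := by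
    have e1 : a₀ = w1 + (u + (v + wt)) := by rw [hsum3, hsum2, hsum1]
    have e2 : μ₁ a₀ = w1 + (u + (v - wt)) := by
      rw [e1, map_add, map_add, map_add, f1, f0, fq, ft]; abel
    rw [hfixa, e1] at e2
    have e3 : (2 : ℝ) • wt = 0 := by
      have : w1 + (u + (v + wt)) - (w1 + (u + (v - wt))) = 0 := by rw [← e2]; abel
      rw [← this]; module
    have h2 : (2 : ℝ) ≠ 0 := by norm_num
    exact (smul_eq_zero.mp e3).resolve_left h2
  rw [hprim, Submodule.mem_span_singleton] at hw1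
  obtain ⟨lam, rfl⟩ := hw1
  have hdec : a₀ = lam • a₁ + (u + v) := by
    rw [← hsum1, ← hsum2, ← hsum3, hwt0, add_zero]
  have hu0 : mul a₁ u = 0 := by
    have := Module.End.mem_eigenspace_iff.mp hu
    rwa [zero_smul] at this
  have hvq : mul a₁ v = (1 / 4 : ℝ) • v := Module.End.mem_eigenspace_iff.mp hv
  -- lam = B a₀ a₁
  have hBu : B u a₁ = 0 := by
    have : B u (mul a₁ a₁) = B (mul u a₁) a₁ := hBassoc u a₁ a₁
    rw [hidem, hcomm u a₁, hu0] at this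
    rw [this]; simp
  have hBv : B v a₁ = 0 := by
    have : B v (mul a₁ a₁) = B (mul v a₁) a₁ := hBassoc v a₁ a₁
    rw [hidem, hcomm v a₁, hvq] at this
    simp only [map_smul, LinearMap.smul_apply, smul_eq_mul] at this
    linarith
  have hlam : B a₀ a₁ = lam := by
    rw [hdec]
    simp only [map_add, map_smul, LinearMap.add_apply, LinearMap.smul_apply, smul_eq_mul, hBu, hBv, hn₁]
    ring
  rw [hlam]
  -- s
  have hs : mul a₀ a₁ = lam • a₁ + (1 / 4 : ℝ) • v := by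
    rw [hcomm a₀ a₁, hdec, map_add, map_add, map_smul, hidem, hu0, hvq, zero_add]
  have hv' : v = (4 : ℝ) • mul a₀ a₁ - (4 * lam) • a₁ := by
    rw [hs]; module
  have hu' : u = a₀ + (3 * lam) • a₁ - (4 : ℝ) • mul a₀ a₁ := by
    rw [hs]
    nth_rewrite 1 [hdec]
    module
  rw [← hv', ← hu']
  constructor
  · rw [hs, map_add, map_smul, map_smul, hidem, hvq]
    module
  · -- fusion
    have hS : ∀ c ∈ majoranaSpectrum, True := fun _ _ => trivial
    have m0 : (0 : ℝ) ∈ majoranaSpectrum := by simp [majoranaSpectrum]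
    have mq : (1 / 4 : ℝ) ∈ majoranaSpectrum := by simp [majoranaSpectrum]
    have huu := hfus 0 m0 0 m0 u hu u hu
    have hvv := hfus (1 / 4) mq (1 / 4) mq v hv v hv
    have huv := hfus 0 m0 (1 / 4) mq u hu v hv
    have law00 : monsterLaw (1 / 4 : ℝ) (1 / 32) 0 0 = {0} := by
      unfold monsterLaw; norm_num
    have lawqq : monsterLaw (1 / 4 : ℝ) (1 / 32) (1 / 4) (1 / 4) = {1, 0} := by
      unfold monsterLaw; norm_num
    have law0q : monsterLaw (1 / 4 : ℝ) (1 / 32) 0 (1 / 4) = {1 / 4} := by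
      unfold monsterLaw; norm_num
    rw [law00] at huu
    rw [lawqq] at hvv
    rw [law0q] at huv
    unfold eigenSum at huu hvv huv
    rw [iSup_singleton] at huu huv
    rw [iSup_pair] at hvv
    have ha1 : a₁ ∈ eigen mul a₁ 1 := by
      show a₁ ∈ Module.End.eigenspace (mul a₁) 1
      rw [Module.End.mem_eigenspace_iff, hidem, one_smul]
    have hX : v - (lam / 2) • v - (2 : ℝ) • mul u v ∈ eigen mul a₁ (1 / 4) :=
      Submodule.sub_mem _ (Submodule.sub_mem _ hv (Submodule.smul_mem _ _ hv)) (Submodule.smul_mem _ _ huv)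
    have hY : (lam ^ 2) • a₁ + mul u u + mul v v - lam • a₁ - u ∈ eigen mul a₁ 1 ⊔ eigen mul a₁ 0 := by
      refine Submodule.sub_mem _ (Submodule.sub_mem _ (Submodule.add_mem _ (Submodule.add_mem _ ?_ ?_) hvv) ?_) ?_
      · exact Submodule.mem_sup_left (Submodule.smul_mem _ _ ha1)
      · exact Submodule.mem_sup_right huu
      · exact Submodule.mem_sup_left (Submodule.smul_mem _ _ ha1)
      · exact Submodule.mem_sup_right hu
    have hexp : mul a₀ a₀ = (lam ^ 2) • a₁ + mul u u + mul v v + (2 : ℝ) • mul u v + (lam / 2) • v := by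
      rw [hdec]
      simp only [map_add, map_smul, LinearMap.add_apply, LinearMap.smul_apply]
      rw [hcomm u a₁, hcomm v a₁, hcomm v u, hidem, hu0, hvq]
      module
    have hXY : v - (lam / 2) • v - (2 : ℝ) • mul u v = (lam ^ 2) • a₁ + mul u u + mul v v - lam • a₁ - u := by
      have e : lam • a₁ + (u + v) = (lam ^ 2) • a₁ + mul u u + mul v v + (2 : ℝ) • mul u v + (lam / 2) • v := by
        rw [← hexp, hidem₀, ← hdec]
      have e' : lam • a₁ + (u + v) - ((lam ^ 2) • a₁ + mul u u + mul v v + (2 : ℝ) • mul u v + (lam / 2) • v) = 0 :=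
        sub_eq_zero.mpr e
      rw [← sub_eq_zero, ← e']
      module
    have hX0 := zero_of_mem_quarter_of_mem_sup mul a₁ _ hX (hXY ▸ hY)
    have : (2 : ℝ) • mul u v = v - (lam / 2) • v - (v - (lam / 2) • v - (2 : ℝ) • mul u v) := by abel
    rw [this, hX0]
    module

/-- Let V be a finite-dimensional real vector space with a commutative bilinear product and a positive-definite symmetric bilinear form that associates with the product and satisfies the Norton inequality (the Majorana setting of the definitions). Let μ₀, μ₁ be commuting Majorana involutions with distinct axial vectors a₀ ≠ a₁ of squared length 1, each involution having no other axial vector. Then either a₀ and a₁ are orthogonal with a₀ ∘ a₁ = 0 (type 2B), or their inner product is 1/8 and, with a₂ = a₀ + a₁ − 8 a₀ ∘ a₁, the vector a₂ is an idempotent and a₀ ∘ a₂ = (1/8)(a₀ + a₂ − a₁), a₁ ∘ a₂ = (1/8)(a₁ + a₂ − a₀) (type 2A: the three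 idempotents span a subalgebra with aᵢ ∘ aⱼ = (1/8)(aᵢ + aⱼ − aₖ)). -/
theorem result {V : Type*} [AddCommGroup V] [Module ℝ V] [FiniteDimensional ℝ V] (mul : V →ₗ[ℝ] V →ₗ[ℝ] V) (B : LinearMap.BilinForm ℝ V) (hV : Cfsg.Axial.IsMajoranaAmbient mul B) (μ₀ μ₁ : V ≃ₗ[ℝ] V) (a₀ a₁ : V) (h₀ : Cfsg.Axial.IsMajoranaPair mul B μ₀ a₀) (h₁ : Cfsg.Axial.IsMajoranaPair mul B μ₁ a₁) (hu₀ : ∀ a : V, Cfsg.Axial.IsMajoranaPair mul B μ₀ a → a = a₀) (hu₁ : ∀ a : V, Cfsg.Axial.IsMajoranaPair mul B μ₁ a → a = a₁) (hn₀ : B a₀ a₀ = 1) (hn₁ : B a₁ a₁ = 1) (hc : μ₀ * μ₁ = μ₁ * μ₀) (hne : a₀ ≠ a₁) : (B a₀ a₁ = 0 ∧ mul a₀ a₁ = 0) ∨ (B a₀ a₁ = 1 / 8 ∧ mul (a₀ + a₁ - (8 : ℝ) • mul a₀ a₁) (a₀ + a₁ - (8 : ℝ) • mul a₀ a₁) = a₀ + a₁ - (8 : ℝ) • mul a₀ a₁ ∧ mul a₀ (a₀ + a₁ - (8 : ℝ) • mul a₀ a₁) = (1 / 8 : ℝ) • (a₀ + (a₀ + a₁ - (8 : ℝ) • mul a₀ a₁) - a₁) ∧ mul a₁ (a₀ + a₁ - (8 : ℝ) • mul a₀ a₁) = (1 / 8 : ℝ) • (a₁ + (a₀ + a₁ - (8 : ℝ)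 • mul a₀ a₁) - a₀)) := by
  classical
  have hV' := hV
  obtain ⟨hcomm, hBsymm, hBpos, hBassoc, hNorton⟩ := hV
  have hf0 : μ₁ a₀ = a₀ := hu₀ _ (majoranaPair_transport mul B μ₀ μ₁ a₀ h₀ h₁.1 hc.symm)
  have hf1 : μ₀ a₁ = a₁ := hu₁ _ (majoranaPair_transport mul B μ₁ μ₀ a₁ h₁ h₀.1 hc)
  have hid0 : mul a₀ a₀ = a₀ := h₀.2.2.1.1.2.1
  have hid1 : mul a₁ a₁ = a₁ := h₁.2.2.1.1.2.1
  obtain ⟨A1, C1⟩ := half mul B hV' μ₁ a₀ a₁ h₁ hf0 hid0 hn₁
  obtain ⟨A0, C0⟩ := half mul B hV' μ₀ a₁ a₀ h₀ hf1 hid1 hn₀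
  rw [hBsymm a₁ a₀, hcomm a₁ a₀] at A0 C0
  have hNor := hNorton a₀ a₁
  rw [hid0, hid1] at hNor
  obtain ⟨lam, hlam⟩ : ∃ lam, lam = B a₀ a₁ := ⟨_, rfl⟩
  obtain ⟨s, hs⟩ : ∃ s, s = mul a₀ a₁ := ⟨_, rfl⟩
  rw [← hlam, ← hs] at A1 C1 A0 C0
  rw [← hlam, ← hs] at hNor
  simp only [← hs, ← hlam]
  obtain ⟨t, ht⟩ : ∃ t, t = mul s s := ⟨_, rfl⟩
  have hsa₁ : mul s a₁ = (1 / 4 : ℝ) • (s + (3 * lam) • a₁) := by rw [hcomm s a₁]; exact A1
  have hsa₀ : mul s a₀ = (1 / 4 : ℝ) • (s + (3 * lam) • a₀) := by rw [hcomm s a₀]; exact A0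
  have hs' : mul a₁ a₀ = s := by rw [hcomm a₁ a₀, hs]
  have E1 : mul (a₀ + (3 * lam) • a₁ - (4 : ℝ) • s) ((4 : ℝ) • s - (4 * lam) • a₁)
      = (1 + 3 * lam) • s + (3 * lam) • a₀ + (9 * lam ^ 2) • a₁ - (16 : ℝ) • t := by
    simp only [map_add, map_sub, map_smul, LinearMap.add_apply, LinearMap.sub_apply,
      LinearMap.smul_apply, ← hs, ← ht, A1, A0, hsa₁, hsa₀, hid1, hid0, hs']
    module
  have E0 : mul (a₁ + (3 * lam) • a₀ - (4 : ℝ) • s) ((4 : ℝ) • s - (4 * lam) • a₀)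
      = (1 + 3 * lam) • s + (3 * lam) • a₁ + (9 * lam ^ 2) • a₀ - (16 : ℝ) • t := by
    simp only [map_add, map_sub, map_smul, LinearMap.add_apply, LinearMap.sub_apply,
      LinearMap.smul_apply, ← hs, ← ht, A1, A0, hsa₁, hsa₀, hid1, hid0, hs']
    module
  rw [E1] at C1
  rw [E0] at C0
  have h32_1 : (32 : ℝ) • t = (2 : ℝ) • ((1 + 3 * lam) • s + (3 * lam) • a₀ + (9 * lam ^ 2) • a₁)
      - (1 - lam / 2) • ((4 : ℝ) • s - (4 * lam) • a₁) := by
    rw [← C1]; module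
  have h32_0 : (32 : ℝ) • t = (2 : ℝ) • ((1 + 3 * lam) • s + (3 * lam) • a₁ + (9 * lam ^ 2) • a₀)
      - (1 - lam / 2) • ((4 : ℝ) • s - (4 * lam) • a₀) := by
    rw [← C0]; module
  have key : (2 * (lam * (1 - 8 * lam))) • (a₀ - a₁) = 0 := by
    have e : (2 : ℝ) • ((1 + 3 * lam) • s + (3 * lam) • a₀ + (9 * lam ^ 2) • a₁)
        - (1 - lam / 2) • ((4 : ℝ) • s - (4 * lam) • a₁)
        - ((2 : ℝ) • ((1 + 3 * lam) • s + (3 * lam) • a₁ + (9 * lam ^ 2) • a₀)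
        - (1 - lam / 2) • ((4 : ℝ) • s - (4 * lam) • a₀)) = 0 := by
      rw [← h32_1, ← h32_0, sub_self]
    rw [← e]; module
  have hne' : a₀ - a₁ ≠ 0 := sub_ne_zero.mpr hne
  have hl : lam = 0 ∨ lam = 1 / 8 := by
    rcases smul_eq_zero.mp key with h | h
    · rcases mul_eq_zero.mp h with h | h
      · norm_num at h
      · rcases mul_eq_zero.mp h with h | h
        · left; exact h
        · right; linarith
    · exact absurd h hne'
  rcases hl with hl | hl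
  · left
    refine ⟨hl, ?_⟩
    by_contra hs0
    have := hBpos s hs0
    rw [hl] at hNor
    linarith
  · right
    have ht64 : t = (1 / 64 : ℝ) • ((-2 : ℝ) • s + (3 / 2 : ℝ) • (a₀ + a₁)) := by
      have e : t = (1 / 32 : ℝ) • ((32 : ℝ) • t) := by module
      rw [e, h32_1, hl]; module
    refine ⟨hl, ?_, ?_, ?_⟩
    · simp only [map_add, map_sub, map_smul, LinearMap.add_apply, LinearMap.sub_apply,
        LinearMap.smul_apply, ← hs, ← ht, A1, A0, hsa₁, hsa₀, hid1, hid0, hs']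
      rw [ht64, hl]; module
    · simp only [map_add, map_sub, map_smul, LinearMap.add_apply, LinearMap.sub_apply,
        LinearMap.smul_apply, ← hs, ← ht, A1, A0, hsa₁, hsa₀, hid1, hid0, hs']
      rw [hl]; module
    · simp only [map_add, map_sub, map_smul, LinearMap.add_apply, LinearMap.sub_apply,
        LinearMap.smul_apply, ← hs, ← ht, A1, A0, hsa₁, hsa₀, hid1, hid0, hs']
      rw [hl]; module

end Cfsg.Agent.S5545
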