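import Cfsg.Statements.S5546
-- import your own Cfsg.Agent.* helpers here

set_option autoImplicit false
open Cfsg Cfsg.Spor

namespace Cfsg.Agent.S5546

/-- The vector `8 e_i`. -/
def bvec (i : GolayPt) : GolayPt → ℤ := fun p => if p = i then 8 else 0

theorem bvec_mem (i : GolayPt) : bvec i ∈ leechLattice := by
  apply AddSubgroup.subset_closure
  refine mem_leechSet_of_const_mod_four (bvec i) 0 0 (by decide) (fun p => ?_) ?_
  · unfold bvec; split_ifs <;> decide
  · have : ∑ p, bvec i p = 8 := by
      unfold bvec
      rw [Finset.sum_ite_eq']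
      simp
    rw [this]; decide

/-- `8 e_i` as a lattice vector. -/
def E (i : GolayPt) : leechLattice := ⟨bvec i, bvec_mem i⟩

/-- The vector `4 e_i + c e_j`. -/
def svec (i j : GolayPt) (c : ℤ) : GolayPt → ℤ := fun p => if p = i then 4 else if p = j then c else 0

theorem svec_sum (i j : GolayPt) (hij : i ≠ j) (c : ℤ) (f : GolayPt → ℤ) :
    ∑ p, f p * svec i j c p = 4 * f i + c * f j := by
  rw [Fintype.sum_eq_add i j hij]
  · simp [svec, hij.symm]; ring
  · intro x hx
    simp [svec, hx.1, hx.2]

theorem svec_mem (i j : GolayPt) (hij : i ≠ j) (c : ℤ) (hc : c = 4 ∨ c = -4) :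
    svec i j c ∈ leechLattice := by
  apply AddSubgroup.subset_closure
  refine mem_leechSet_of_const_mod_four (svec i j c) 0 0 (by decide) (fun p => ?_) ?_
  · unfold svec
    rcases hc with rfl | rfl <;> split_ifs <;> decide
  · have : ∑ p, svec i j c p = 4 + c := by
      have := svec_sum i j hij c (fun _ => 1)
      simpa using this
    rw [this]
    rcases hc with rfl | rfl <;> decide

theorem eight_smul_eq (x : leechLattice) : (8 : ℤ) • x = ∑ j, (x.1 j) • E j := by
  apply Subtype.ext
  funext p
  simp only [AddSubgroup.coe_zsmul, AddSubgroup.val_finsetSum, Pi.smul_apply, Finset.sum_apply, E, bvec,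
    smul_eq_mul, mul_ite, mul_zero]
  rw [Finset.sum_ite_eq]
  simp; ring


/-- Coordinates of the image of a lattice vector under an additive map, in terms of the images of the `8 e_j`. -/
theorem eight_mul_apply (g : leechLattice → leechLattice) (hg : ∀ v w : leechLattice, g (v + w) = g v + g w)
    (x : leechLattice) (i : GolayPt) : 8 * (g x).1 i = ∑ j, x.1 j * (g (E j)).1 i := by
  have h := congrArg (fun y : leechLattice => ((AddMonoidHom.mk' g hg) y).1 i) (eight_smul_eq x)
  simp only [map_zsmul, map_sum, AddMonoidHom.mk'_apply, AddSubgroup.coe_zsmul, AddSubgroup.val_finsetSum,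
    Pi.smul_apply, Finset.sum_apply, smul_eq_mul] at h
  exact h

/-- The matrix over `ZMod 13` attached to a map of the lattice. -/
def Nmat (g : leechLattice → leechLattice) : Matrix GolayPt GolayPt (ZMod 13) :=
  fun i j => (5 : ZMod 13) * (((g (E j)).1 i : ℤ) : ZMod 13)

/-- Reduction modulo 13 of a lattice vector. -/
def red (x : leechLattice) : GolayPt → ZMod 13 := fun j => ((x.1 j : ℤ) : ZMod 13)

theorem red_apply (g : leechLattice → leechLattice) (hg : ∀ v w : leechLattice, g (v + w) = g v + g w)
    (x : leechLattice) : red (g x) = (Nmat g).mulVec (red x) := by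
  funext i
  have h := congrArg (fun n : ℤ => (n : ZMod 13)) (eight_mul_apply g hg x i)
  simp only [Int.cast_mul, Int.cast_sum, Int.cast_ofNat] at h
  have h8 : (5 : ZMod 13) * 8 = 1 := by decide
  calc red (g x) i = ((5 : ZMod 13) * 8) * (((g x).1 i : ℤ) : ZMod 13) := by rw [h8, one_mul]; rfl
    _ = (5 : ZMod 13) * (8 * (((g x).1 i : ℤ) : ZMod 13)) := by rw [mul_assoc]
    _ = (5 : ZMod 13) * ∑ j, ((x.1 j : ℤ) : ZMod 13) * (((g (E j)).1 i : ℤ) : ZMod 13) := by rw [h]
    _ = (Nmat g).mulVec (red x) i := by
      rw [Finset.mul_sum]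
      simp only [Matrix.mulVec, dotProduct, Nmat, red]
      apply Finset.sum_congr rfl
      intro j _
      ring

theorem Nmat_one : Nmat (fun x => x) = 1 := by
  funext i j
  simp only [Nmat, E, bvec, Matrix.one_apply]
  split_ifs with h
  · simp; decide
  · simp

theorem Nmat_mul (g h : leechLattice → leechLattice) (hg : ∀ v w : leechLattice, g (v + w) = g v + g w) :
    Nmat (fun x => g (h x)) = Nmat g * Nmat h := by
  funext i j
  have h1 := congrFun (red_apply g hg (h (E j))) i
  simp only [Nmat, Matrix.mul_apply]
  simp only [red, Matrix.mulVec, dotProduct, Nmat] at h1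
  rw [h1, Finset.mul_sum]
  apply Finset.sum_congr rfl
  intro k _
  ring


/-- Projection onto the quotient by the fixed vector (coordinates `some k`, with the coordinate `none` folded in). -/
def Pm : Matrix (Fin 23) GolayPt (ZMod 13) :=
  fun k p => (if p = some (show ZMod 23 from k) then 1 else 0) - (if k = 0 ∧ p = none then 1 else 0)

/-- Section of the projection. -/
def Im : Matrix GolayPt (Fin 23) (ZMod 13) := fun p k => if p = some (show ZMod 23 from k) then 1 else 0

/-- The fixed vector `e_∞ + e_0` as a column. -/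
def Um : Matrix GolayPt Unit (ZMod 13) := fun p _ => if p = none ∨ p = some 0 then 1 else 0

/-- The coordinate functional at the extra point as a row. -/
def Em : Matrix Unit GolayPt (ZMod 13) := fun _ p => if p = none then 1 else 0

theorem Pm_Im : Pm * Im = 1 := by decide +kernel
theorem Im_Pm : Im * Pm = 1 - Um * Em := by decide +kernel
theorem Pm_Um : Pm * Um = 0 := by decide +kernel


theorem Pm_mulVec (v : GolayPt → ZMod 13) (k : Fin 23) :
    Pm.mulVec v k = v (some (show ZMod 23 from k)) - if k = 0 then v none else 0 := by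
  simp only [Matrix.mulVec, dotProduct, Pm, sub_mul, ite_mul, one_mul, zero_mul, Finset.sum_sub_distrib]
  rw [Finset.sum_ite_eq']
  by_cases hk : k = 0
  · simp [hk]
  · simp [hk]

theorem sqNorm_add (a b : GolayPt → ℤ) : sqNorm (a + b) = sqNorm a + 2 * dotInt a b + sqNorm b := by
  unfold sqNorm dotInt
  rw [Finset.mul_sum, ← Finset.sum_add_distrib, ← Finset.sum_add_distrib]
  apply Finset.sum_congr rfl
  intro i _
  simp only [Pi.add_apply]; ring

theorem sqNorm_sub_add (a b : GolayPt → ℤ) :
    sqNorm (a - b) + sqNorm (a + b) = 2 * sqNorm a + 2 * sqNorm b := by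
  unfold sqNorm
  rw [Finset.mul_sum, Finset.mul_sum, ← Finset.sum_add_distrib, ← Finset.sum_add_distrib]
  apply Finset.sum_congr rfl
  intro i _
  simp only [Pi.add_apply, Pi.sub_apply]; ring

theorem dot_preserved (g : leechLattice → leechLattice) (hadd : ∀ v w : leechLattice, g (v + w) = g v + g w)
    (hnorm : ∀ v : leechLattice, sqNorm (g v).1 = sqNorm v.1) (x y : leechLattice) :
    dotInt (g x).1 (g y).1 = dotInt x.1 y.1 := by
  have h := hnorm (x + y)
  rw [hadd] at h
  rw [AddSubgroup.coe_add, AddSubgroup.coe_add, sqNorm_add, sqNorm_add, hnorm, hnorm] at h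
  linarith

theorem svec_sqNorm (i j : GolayPt) (hij : i ≠ j) (c : ℤ) (hc : c = 4 ∨ c = -4) :
    sqNorm (svec i j c) = 32 := by
  unfold sqNorm
  rw [Fintype.sum_eq_add i j hij]
  · simp only [svec, hij.symm, if_true, if_false]
    rcases hc with rfl | rfl <;> norm_num
  · intro x hx
    simp [svec, hx.1, hx.2]

theorem Nmat_Um (g : leechLattice → leechLattice) (hadd : ∀ v w : leechLattice, g (v + w) = g v + g w)
    (hu : g leechU = leechU) : Nmat g * Um = Um := by
  funext p u
  have h1 := congrFun (red_apply g hadd leechU) p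
  rw [hu] at h1
  have h2 : ∀ j, red leechU j = 4 * Um j () := by
    intro j
    simp only [red, leechU, vecU, Um]
    split_ifs <;> simp
  simp only [Matrix.mulVec, dotProduct, h2] at h1
  simp only [Matrix.mul_apply]
  have h10 : (10 : ZMod 13) * 4 = 1 := by decide
  have h3 : ∑ j, Nmat g p j * (4 * Um j ()) = 4 * ∑ j, Nmat g p j * Um j () := by
    rw [Finset.mul_sum]
    exact Finset.sum_congr rfl (fun j _ => by ring)
  have h4 : 4 * Um p () = 4 * ∑ j, Nmat g p j * Um j () := h1.trans h3
  have h5 := congrArg (fun t : ZMod 13 => (10 : ZMod 13) * t) h4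
  simp only [← mul_assoc, h10, one_mul] at h5
  exact h5.symm

theorem eq_of_B_one (g : leechLattice → leechLattice) (hadd : ∀ v w : leechLattice, g (v + w) = g v + g w)
    (hnorm : ∀ v : leechLattice, sqNorm (g v).1 = sqNorm v.1) (hu : g leechU = leechU)
    (hB : Pm * Nmat g * Im = 1) : ∀ x : leechLattice, g x = x := by
  have hNU : Nmat g * Um = Um := Nmat_Um g hadd hu
  -- Step A: g x ≡ x modulo 13
  have hA : ∀ x : leechLattice, red (g x) = red x := by
    intro x
    have h1 : red (g x) = (Nmat g).mulVec (red x) := red_apply g hadd x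
    have hdec : red x = Im.mulVec (Pm.mulVec (red x)) + Um.mulVec (Em.mulVec (red x)) := by
      rw [Matrix.mulVec_mulVec, Matrix.mulVec_mulVec, ← Matrix.add_mulVec, Im_Pm, sub_add_cancel,
        Matrix.one_mulVec]
    have h2 : Pm.mulVec (red (g x)) = Pm.mulVec (red x) := by
      rw [h1]
      nth_rewrite 1 [hdec]
      generalize Pm.mulVec (red x) = v
      generalize Em.mulVec (red x) = c
      rw [Matrix.mulVec_add, Matrix.mulVec_mulVec, Matrix.mulVec_mulVec, hNU, Matrix.mulVec_add,
        Matrix.mulVec_mulVec, Matrix.mulVec_mulVec, ← Matrix.mul_assoc, hB, Pm_Um, Matrix.one_mulVec,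
        Matrix.zero_mulVec, add_zero]
    have h3 := dot_preserved g hadd hnorm x leechU
    rw [hu] at h3
    have h4 : ∀ a : GolayPt → ℤ, dotInt a leechU.1 = 4 * a none + 4 * a (some 0) := by
      intro a
      unfold dotInt
      rw [Fintype.sum_eq_add none (some 0) (by decide)]
      · simp [leechU, vecU]; ring
      · intro p hp
        simp [leechU, vecU, hp.1, hp.2]
    rw [h4, h4] at h3
    have h5 := congrArg (fun n : ℤ => (n : ZMod 13)) h3
    simp only [Int.cast_add, Int.cast_mul, Int.cast_ofNat] at h5
    have h10 : (10 : ZMod 13) * 4 = 1 := by decide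
    have h6 : red (g x) none + red (g x) (some 0) = red x none + red x (some 0) := by
      have e : ∀ a b : ZMod 13, a + b = 10 * (4 * a + 4 * b) := by
        intro a b
        calc a + b = (10 * 4) * (a + b) := by rw [h10, one_mul]
          _ = 10 * (4 * a + 4 * b) := by ring
      rw [e (red (g x) none), e (red x none)]
      simp only [red]
      rw [h5]
    have h7 := congrFun h2 (0 : Fin 23)
    rw [Pm_mulVec, Pm_mulVec] at h7
    simp only [if_true] at h7
    have h8 : red (g x) (some 0) = red x (some 0) := by
      have h14 : (7 : ZMod 13) * 2 = 1 := by decide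
      have e : ∀ a b : ZMod 13, a = 7 * ((b + a) + (a - b)) := by
        intro a b
        calc a = (7 * 2) * a := by rw [h14, one_mul]
          _ = 7 * ((b + a) + (a - b)) := by ring
      rw [e (red (g x) (some 0)) (red (g x) none), e (red x (some 0)) (red x none), h6]
      congr 2
    have h9 : red (g x) none = red x none := by
      have := h6
      rw [h8] at this
      exact add_right_cancel this
    funext p
    cases p with
    | none => exact h9
    | some k =>
      by_cases hk : k = 0
      · rw [hk]; exact h8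
      · have h10 := congrFun h2 (show Fin 23 from k)
        rw [Pm_mulVec, Pm_mulVec] at h10
        have hk' : ¬ ((show Fin 23 from k) = 0) := hk
        simp only [hk', if_false, sub_zero] at h10
        exact h10
  -- Step B: vectors of square length 32 are fixed
  have hB' : ∀ s : leechLattice, sqNorm s.1 = 32 → g s = s := by
    intro s hs
    have hr := hA s
    have hpar := sqNorm_sub_add (g s).1 s.1
    rw [hnorm, hs] at hpar
    apply Subtype.ext
    funext p
    have hdvd : (13 : ℤ) ∣ (g s).1 p - s.1 p := by
      have h1 := congrFun hr p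
      simp only [red] at h1
      exact (ZMod.intCast_eq_intCast_iff_dvd_sub _ _ 13).mp h1.symm
    by_contra hne
    have hsq : 169 ≤ ((g s).1 p - s.1 p) ^ 2 := by
      obtain ⟨k, hk⟩ := hdvd
      have hk0 : k ≠ 0 := by
        rintro rfl
        apply hne
        have : (g s).1 p - s.1 p = 0 := by rw [hk]; ring
        linarith
      have hk1 : 1 ≤ k ^ 2 := by
        have : 0 < k ^ 2 := by positivity
        linarith
      rw [hk]
      nlinarith
    have hle : ((g s).1 p - s.1 p) ^ 2 ≤ sqNorm ((g s).1 - s.1) := by
      unfold sqNorm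
      exact Finset.single_le_sum (f := fun i => ((g s).1 - s.1) i ^ 2) (fun i _ => sq_nonneg _)
        (Finset.mem_univ p)
    have hnn : 0 ≤ sqNorm ((g s).1 + s.1) := Finset.sum_nonneg (fun i _ => sq_nonneg _)
    linarith
  -- Step C
  intro x
  apply Subtype.ext
  funext p
  obtain ⟨q, hpq⟩ : ∃ q : GolayPt, p ≠ q := by
    by_cases hp : p = none
    · exact ⟨some 0, by rw [hp]; decide⟩
    · exact ⟨none, hp⟩
  have e1 := dot_preserved g hadd hnorm x ⟨svec p q 4, svec_mem p q hpq 4 (Or.inl rfl)⟩
  have e2 := dot_preserved g hadd hnorm x ⟨svec p q (-4), svec_mem p q hpq (-4) (Or.inr rfl)⟩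
  rw [hB' ⟨svec p q 4, svec_mem p q hpq 4 (Or.inl rfl)⟩ (svec_sqNorm p q hpq 4 (Or.inl rfl))] at e1
  rw [hB' ⟨svec p q (-4), svec_mem p q hpq (-4) (Or.inr rfl)⟩ (svec_sqNorm p q hpq (-4) (Or.inr rfl))] at e2
  unfold dotInt at e1 e2
  simp only [svec_sum p q hpq] at e1 e2
  linarith

/-- The 23-dimensional representation over `ZMod 13`. -/
def Bhom : ↥Co2 →* Matrix (Fin 23) (Fin 23) (ZMod 13) where
  toFun g := Pm * Nmat (fun x => (g : Equiv.Perm leechLattice) x) * Im
  map_one' := by
    show Pm * Nmat (fun x => x) * Im = 1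
    rw [Nmat_one, Matrix.mul_one, Pm_Im]
  map_mul' g h := by
    have hg : ∀ v w : leechLattice, (g : Equiv.Perm leechLattice) (v + w)
        = (g : Equiv.Perm leechLattice) v + (g : Equiv.Perm leechLattice) w := g.2.1.1
    have hgu : (g : Equiv.Perm leechLattice) leechU = leechU := g.2.2
    have hNU : Nmat (fun x => (g : Equiv.Perm leechLattice) x) * Um = Um := Nmat_Um _ hg hgu
    show Pm * Nmat (fun x => (g : Equiv.Perm leechLattice) ((h : Equiv.Perm leechLattice) x)) * Im
      = Pm * Nmat (fun x => (g : Equiv.Perm leechLattice) x) * Im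
        * (Pm * Nmat (fun x => (h : Equiv.Perm leechLattice) x) * Im)
    rw [Nmat_mul _ _ hg]
    generalize Nmat (fun x => (g : Equiv.Perm leechLattice) x) = A at hNU ⊢
    generalize Nmat (fun x => (h : Equiv.Perm leechLattice) x) = B
    calc Pm * (A * B) * Im = Pm * A * (1 - Um * Em + Um * Em) * B * Im := by
          rw [sub_add_cancel, Matrix.mul_one, Matrix.mul_assoc Pm A B]
      _ = Pm * A * (Im * Pm) * B * Im + Pm * (A * Um) * Em * B * Im := by
          rw [← Im_Pm]
          simp only [Matrix.mul_add, Matrix.add_mul, Matrix.mul_assoc]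
      _ = Pm * A * (Im * Pm) * B * Im := by
          rw [hNU, Pm_Um]
          simp
      _ = Pm * A * Im * (Pm * B * Im) := by
          simp only [Matrix.mul_assoc]

/-- The second Conway group (the stabilizer in the Leech lattice automorphism group of the short vector fixed in the definitions) is isomorphic to a subgroup of the general linear group of degree 23 over the field with 13 elements: there is an injective homomorphism into it. -/
theorem result : ∃ f : ↥Cfsg.Spor.Co2 →* GL (Fin 23) (ZMod 13), Function.Injective f := by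
  refine ⟨Bhom.toHomUnits, ?_⟩
  rw [injective_iff_map_eq_one]
  intro g hg
  have h1 : Bhom g = 1 := by
    have h2 := congrArg Units.val hg
    rw [MonoidHom.coe_toHomUnits] at h2
    exact h2
  have hco : (∀ v w : leechLattice, (g : Equiv.Perm leechLattice) (v + w)
      = (g : Equiv.Perm leechLattice) v + (g : Equiv.Perm leechLattice) w) ∧
      ∀ v : leechLattice, sqNorm (((g : Equiv.Perm leechLattice) v : leechLattice) : GolayPt → ℤ)
        = sqNorm (v : GolayPt → ℤ) := g.2.1
  have hgu : (g : Equiv.Perm leechLattice) leechU = leechU := g.2.2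
  apply Subtype.ext
  apply Equiv.ext
  intro x
  exact eq_of_B_one (fun x => (g : Equiv.Perm leechLattice) x) hco.1 hco.2 hgu h1 x

end Cfsg.Agent.S5546
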