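import Cfsg.Statements.S5550
-- import your own Cfsg.Agent.* helpers here
import Cfsg.Agent.H94.Coset
import Cfsg.Agent.H94.ObjDecomp
import Cfsg.Agent.S5613
import Cfsg.Agent.H33.DodMax
import Cfsg.Agent.H9.M12b

set_option autoImplicit false
open Cfsg

namespace Cfsg.Agent.S5550

open Cfsg.Agent.H9 Cfsg.Agent.H33 Cfsg.Agent.H94
open scoped Pointwise

/-- a family of permutations that fixes no non-empty set of at most three points and no sextet -/
def Good (P : Equiv.Perm GolayPt → Prop) : Prop :=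
  (∀ t : Finset GolayPt, t.Nonempty → t.card ≤ 3 → ∃ σ, P σ ∧ σ • t ≠ t) ∧
    ∀ S ∈ sextets, ∃ σ, P σ ∧ σ • S ≠ S

theorem card_stab_sextet (S : Finset (Finset GolayPt)) (hSx : S ∈ sextets) :
    Nat.card (MulAction.stabilizer M24 S) = 138240 := by
  have h1 : Nat.card M24
      = Nat.card (MulAction.orbit M24 S) * Nat.card (MulAction.stabilizer M24 S) := by
    rw [← Nat.card_prod]
    exact Nat.card_congr (MulAction.orbitProdStabilizerEquivGroup M24 S).symm
  have h2 : MulAction.orbit M24 S = sextets := by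
    ext x
    constructor
    · rintro ⟨g, rfl⟩
      exact smul_mem_sextets g.2 hSx
    · intro hx
      obtain ⟨a, ha, rfl⟩ := exists_smul_sext0 hSx
      obtain ⟨b, hb, rfl⟩ := exists_smul_sext0 hx
      refine ⟨⟨b * a⁻¹, mul_mem hb (inv_mem ha)⟩, ?_⟩
      show (b * a⁻¹) • a • sextObj 0 = b • sextObj 0
      rw [mul_smul, inv_smul_smul]
  rw [card_M24, h2, Nat.card_coe_set_eq, sextets_ncard hW hS] at h1
  omega

/-- a subgroup of `M24` whose order does not divide the order of a sextet stabiliser fixes no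
sextet -/
theorem no_sextet (G : Subgroup ↥M24) (hG : ¬ Nat.card G ∣ 138240)
    (S : Finset (Finset GolayPt)) (hSx : S ∈ sextets) :
    ∃ σ : Equiv.Perm GolayPt, (∃ h : σ ∈ M24, (⟨σ, h⟩ : ↥M24) ∈ G) ∧ σ • S ≠ S := by
  by_contra hcon
  apply hG
  rw [← card_stab_sextet S hSx]
  apply Subgroup.card_dvd_of_le
  intro g hg
  rw [MulAction.mem_stabilizer_iff]
  by_contra hne
  exact hcon ⟨g.1, ⟨g.2, hg⟩, hne⟩

theorem exists_notMem (t : Finset GolayPt) (ht : t.card ≤ 3) (d : Finset GolayPt)
    (hd : 8 ≤ d.card) : ∃ q ∈ d, q ∉ t :=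
  Finset.exists_mem_notMem_of_card_lt_card (by omega)

theorem ne_of_moved {σ : Equiv.Perm GolayPt} {t : Finset GolayPt} {p q : GolayPt} (hp : p ∈ t)
    (hq : q ∉ t) (h : σ p = q) : σ • t ≠ t := by
  intro he
  apply hq
  rw [← he, ← h]
  exact Finset.smul_mem_smul_finset hp

theorem good_top : Good (fun σ => σ ∈ M24) := by
  constructor
  · intro t ⟨p, hp⟩ h3
    obtain ⟨q, -, hq⟩ := exists_notMem t h3 Finset.univ (by
      rw [Finset.card_univ, Cfsg.Agent.H9.card_golayPt]; norm_num)
    obtain ⟨g, hg⟩ := MulAction.exists_smul_eq M24 p q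
    exact ⟨g.1, g.2, ne_of_moved hp hq hg⟩
  · intro S hSx
    obtain ⟨a, ha, rfl⟩ := exists_smul_sext0 hSx
    obtain ⟨b, hb, hb'⟩ := exists_smul_sext0 (sext_mem 1 (by norm_num))
    refine ⟨a * b * a⁻¹, mul_mem (mul_mem ha hb) (inv_mem ha), fun h => ?_⟩
    rw [mul_smul, mul_smul, inv_smul_smul, hb'] at h
    have := sext_inj 1 (by norm_num) 0 (by norm_num) (MulAction.injective a h)
    omega

theorem good_oct (o : Finset GolayPt) (ho : o ∈ octads) :
    Good (fun σ => σ ∈ M24 ∧ σ • o = o) := by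
  have hcard := Cfsg.Agent.S5613.card_stab_octad o ho
  constructor
  · intro t ⟨p, hp⟩ h3
    by_contra hcon
    have hfix : ∀ g ∈ MulAction.stabilizer M24 o, ((g : ↥M24) : Equiv.Perm GolayPt) • t = t := by
      intro g hg
      by_contra hne
      exact hcon ⟨g.1, ⟨g.2, MulAction.mem_stabilizer_iff.mp hg⟩, hne⟩
    have horb : MulAction.orbit (MulAction.stabilizer M24 o) p ⊆ (t : Set GolayPt) := by
      rintro _ ⟨g, rfl⟩
      have h1 : ((g : ↥M24) : Equiv.Perm GolayPt) • p ∈ ((g : ↥M24) : Equiv.Perm GolayPt) • t :=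
        Finset.smul_mem_smul_finset hp
      rw [hfix g.1 g.2] at h1
      exact h1
    have hk : (MulAction.orbit (MulAction.stabilizer M24 o) p).ncard ≤ 3 := by
      refine le_trans (Set.ncard_le_ncard horb (Finset.finite_toSet t)) ?_
      rw [Set.ncard_coe_finset]
      exact h3
    have hk0 : 0 < (MulAction.orbit (MulAction.stabilizer M24 o) p).ncard := by
      rw [Set.ncard_pos (Set.toFinite _)]
      exact MulAction.nonempty_orbit p
    have h1 : Nat.card (MulAction.stabilizer M24 o)
        = Nat.card (MulAction.orbit (MulAction.stabilizer M24 o) p)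
          * Nat.card (MulAction.stabilizer (MulAction.stabilizer M24 o) p) := by
      rw [← Nat.card_prod]
      exact Nat.card_congr
        (MulAction.orbitProdStabilizerEquivGroup (MulAction.stabilizer M24 o) p).symm
    rw [hcard, Nat.card_coe_set_eq] at h1
    have h2 : Nat.card (MulAction.stabilizer (MulAction.stabilizer M24 o) p) ∣ 10200960 := by
      rw [← card_stabilizer_point p]
      refine Subgroup.card_dvd_of_injective
        (MonoidHom.codRestrict (((MulAction.stabilizer M24 o).subtype).comp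
          (MulAction.stabilizer (MulAction.stabilizer M24 o) p).subtype)
          (MulAction.stabilizer M24 p) (fun x => x.2)) ?_
      intro x y hxy
      have := congrArg Subtype.val hxy
      exact Subtype.ext (Subtype.ext this)
    generalize (MulAction.orbit (MulAction.stabilizer M24 o) p).ncard = k at hk hk0 h1
    generalize Nat.card (MulAction.stabilizer (MulAction.stabilizer M24 o) p) = m at h1 h2
    interval_cases k
    · have : m = 322560 := by omega
      rw [this] at h2
      norm_num at h2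
    · have : m = 161280 := by omega
      rw [this] at h2
      norm_num at h2
    · have : m = 107520 := by omega
      rw [this] at h2
      norm_num at h2
  · intro S hSx
    obtain ⟨σ, ⟨h, hmem⟩, hne⟩ := no_sextet (MulAction.stabilizer M24 o)
      (by rw [hcard]; norm_num) S hSx
    exact ⟨σ, ⟨h, MulAction.mem_stabilizer_iff.mp hmem⟩, hne⟩

theorem compl_mem_dodecads {d : Finset GolayPt} (hd : d ∈ dodecads) : dᶜ ∈ dodecads := by
  refine ⟨gc_compl hd.1, ?_⟩
  rw [Finset.card_compl, hd.2, Cfsg.Agent.H9.card_golayPt]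

theorem smul_compl (σ : Equiv.Perm GolayPt) (U : Finset GolayPt) : σ • Uᶜ = (σ • U)ᶜ := by
  rw [Finset.compl_eq_univ_sdiff, Finset.smul_finset_sdiff, Finset.smul_finset_univ,
    Finset.compl_eq_univ_sdiff]

theorem good_dod (d : Finset GolayPt) (hd : d ∈ dodecads) :
    Good (fun σ => σ ∈ M24 ∧ σ • d = d) := by
  constructor
  · intro t ⟨p, hp⟩ h3
    by_cases hpd : p ∈ d
    · obtain ⟨q, hqd, hq⟩ := exists_notMem t h3 d (by rw [hd.2]; norm_num)
      obtain ⟨g, hg⟩ := dod_stab_trans_pts hd hpd hqd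
      exact ⟨g.1.1, ⟨g.1.2, MulAction.mem_stabilizer_iff.mp g.2⟩, ne_of_moved hp hq hg⟩
    · have hd' := compl_mem_dodecads hd
      obtain ⟨q, hqd, hq⟩ := exists_notMem t h3 dᶜ (by rw [hd'.2]; norm_num)
      obtain ⟨g, hg⟩ := dod_stab_trans_pts hd' (Finset.mem_compl.mpr hpd) hqd
      have hgd : (g.1.1 : Equiv.Perm GolayPt) • dᶜ = dᶜ := MulAction.mem_stabilizer_iff.mp g.2
      refine ⟨g.1.1, ⟨g.1.2, ?_⟩, ne_of_moved hp hq hg⟩
      rw [smul_compl] at hgd
      exact compl_injective hgd
  · intro S hSx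
    obtain ⟨σ, ⟨h, hmem⟩, hne⟩ := no_sextet (MulAction.stabilizer M24 d)
      (by rw [card_dodecad_stabilizer d hd]; norm_num) S hSx
    exact ⟨σ, ⟨h, MulAction.mem_stabilizer_iff.mp hmem⟩, hne⟩

/-- the main step: a family fixing no small set and no sextet moves every coset outside the
code -/
theorem core_of_good {P : Equiv.Perm GolayPt → Prop} (hP : Good P) (hPM : ∀ σ, P σ → σ ∈ M24)
    {s : Finset GolayPt} (hs : s ∉ GC) : ∃ σ, P σ ∧ symmDiff (σ • s) s ∉ GC := by
  obtain ⟨t, h4, hc⟩ := exists_leader s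
  have htne : t.Nonempty := by
    rw [Finset.nonempty_iff_ne_empty]
    rintro rfl
    apply hs
    have e : symmDiff s (∅ : Finset GolayPt) = s := symmDiff_bot s
    rwa [e] at hc
  have key : ∀ σ ∈ M24, symmDiff (σ • s) s ∈ GC → symmDiff (σ • t) t ∈ GC := by
    intro σ hσ hmem
    have h1 : σ • symmDiff s t ∈ GC := smul_mem_supports hσ hc
    rw [Finset.smul_finset_symmDiff] at h1
    have h2 := gc_symmDiff h1 hc
    rw [symmDiff_symmDiff_symmDiff_comm] at h2
    have h3 := gc_symmDiff hmem h2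
    rwa [symmDiff_symmDiff_cancel_left] at h3
  have hcard : ∀ σ : Equiv.Perm GolayPt, (σ • t).card = t.card :=
    fun σ => Finset.card_smul_finset σ t
  by_cases h3 : t.card ≤ 3
  · obtain ⟨σ, hσ, hne⟩ := hP.1 t htne h3
    refine ⟨σ, hσ, fun hmem => ?_⟩
    rcases leaders_cases (by rw [hcard]; exact h4) h4 (key σ (hPM σ hσ) hmem) with h | ⟨-, h, -⟩
    · exact hne h
    · omega
  · have h0 : t.card = 4 := by omega
    have hsx := sextetOf_mem_sextets hW hS t h0
    obtain ⟨σ, hσ, hne⟩ := hP.2 _ hsx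
    refine ⟨σ, hσ, fun hmem => hne ?_⟩
    have hmemS : σ • t ∈ sextetOf t := by
      rw [mem_sextetOf]
      rcases leaders_cases (by rw [hcard]; exact h4) h4 (key σ (hPM σ hσ) hmem) with
        h | ⟨-, -, hd, ho⟩
      · exact Or.inl h
      · right
        refine ⟨σ • t ∪ t, ⟨ho, Finset.subset_union_right⟩, ?_⟩
        rw [Finset.union_sdiff_cancel_right hd]
    have h1 := sextet_eq_sextetOf hS (σ • t) (by rw [hcard]; exact h0) (σ • sextetOf t)
      (smul_mem_sextets (hPM σ hσ) hsx) (Finset.smul_mem_smul_finset (self_mem_sextetOf t))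
    have h2 := sextet_eq_sextetOf hS (σ • t) (by rw [hcard]; exact h0) (sextetOf t) hsx hmemS
    rw [h1, ← h2]

/-- the statement for supports -/
theorem core {U s : Finset GolayPt} (hU : U ∈ GC) (hs : s ∉ GC) :
    ∃ σ ∈ M24, σ • U = U ∧ symmDiff (σ • s) s ∉ GC := by
  rcases gc_card hW hU with h | h | h | h | h
  · have hU0 : U = ∅ := Finset.card_eq_zero.mp h
    obtain ⟨σ, hσ, hne⟩ := core_of_good good_top (fun σ h => h) hs
    exact ⟨σ, hσ, by rw [hU0, Finset.smul_finset_empty], hne⟩
  · obtain ⟨σ, hσ, hne⟩ := core_of_good (good_oct U ⟨hU, h⟩) (fun σ h => h.1) hs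
    exact ⟨σ, hσ.1, hσ.2, hne⟩
  · obtain ⟨σ, hσ, hne⟩ := core_of_good (good_dod U ⟨hU, h⟩) (fun σ h => h.1) hs
    exact ⟨σ, hσ.1, hσ.2, hne⟩
  · have ho : Uᶜ ∈ octads := by
      refine ⟨gc_compl hU, ?_⟩
      rw [Finset.card_compl, h, Cfsg.Agent.H9.card_golayPt]
    obtain ⟨σ, hσ, hne⟩ := core_of_good (good_oct Uᶜ ho) (fun σ h => h.1) hs
    refine ⟨σ, hσ.1, ?_, hne⟩
    have := hσ.2
    rw [smul_compl] at this
    exact compl_injective this
  · have hU1 : U = Finset.univ := by
      apply Finset.eq_univ_of_card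
      rw [h, Cfsg.Agent.H9.card_golayPt]
    obtain ⟨σ, hσ, hne⟩ := core_of_good good_top (fun σ h => h) hs
    exact ⟨σ, hσ, by rw [hU1, Finset.smul_finset_univ], hne⟩

theorem support₂_perm (σ : Equiv.Perm GolayPt) (w : GolayPt → ZMod 2) :
    support₂ (fun p => w (σ.symm p)) = σ • support₂ w :=
  support₂_permLin σ w

/-- Let u be a word of the length-24 binary Golay code of the definitions (possibly zero or all-ones) and w any binary word of length 24 outside the code. Then some automorphism of the code (a coordinate permutation preserving it) fixes u but moves w to a word not congruent to w modulo the code: the stabilizer of a codeword fixes no non-zero element of the quotient of the space of all words by the code. -/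
theorem result (u : (Cfsg.GolayPt → ZMod 2)) (hu : u ∈ Cfsg.golayCode) (w : (Cfsg.GolayPt → ZMod 2)) (hw : w ∉ Cfsg.golayCode) : ∃ σ ∈ Cfsg.M24, (fun p => u (σ.symm p)) = u ∧ (fun p => w (σ.symm p)) - w ∉ Cfsg.golayCode := by
  have hU : support₂ u ∈ GC := (mem_golayCode_iff_support u).mp hu
  have hs : support₂ w ∉ GC := fun h => hw ((mem_golayCode_iff_support w).mpr h)
  obtain ⟨σ, hσ, hσU, hne⟩ := core hU hs
  refine ⟨σ, hσ, ?_, ?_⟩
  · apply support₂_inj
    rw [support₂_perm, hσU]
  · rw [mem_golayCode_iff_support, support₂_sub, support₂_perm]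
    exact hne

end Cfsg.Agent.S5550
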