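import Cfsg.Statements.S5615
import Cfsg.Agent.H94.D5615

set_option autoImplicit false
open scoped Pointwise
open Cfsg

namespace Cfsg.Agent.S5615

open Cfsg.Agent.H9 Cfsg.Agent.H33 Cfsg.Agent.H94

/-! ### the trios through `oct0` -/

/-- does the `k`-th trio contain the octad `fs octM0`? -/
def memB (k : ℕ) : Bool := (trioL k).any (fun m => Nat.beq m octM0)

theorem memB_iff {k : ℕ} (hk : k < 3795) : oct0 ∈ trioObj k ↔ memB k = true := by
  unfold trioObj memB
  rw [mem_objOf, List.any_eq_true]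
  constructor
  · rintro ⟨m, hm, e⟩
    have := fs_inj ((trioL_ok k hk).1 m hm) (by decide) e
    exact ⟨m, hm, by rw [this]; exact Nat.beq_refl _⟩
  · rintro ⟨m, hm, e⟩
    exact ⟨m, hm, by rw [Nat.eq_of_beq_eq_true e]; rfl⟩

theorem chkA : allB (fun k => !(memB k) || Nat.blt k 15) 3795 = true := by decide +kernel

theorem chkA' : allB memB 15 = true := by decide +kernel

theorem mem15 (k : ℕ) (hk : k < 15) : oct0 ∈ trioObj k :=
  (memB_iff (by omega)).mpr ((allB_iff _ _).mp chkA' k hk)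

theorem through0 (T : Finset (Finset GolayPt)) (hT : T ∈ trios) (ho : oct0 ∈ T) :
    ∃ k < 15, trioObj k = T := by
  obtain ⟨k, hk, rfl⟩ := trio_enum T hT
  refine ⟨k, ?_, rfl⟩
  have h1 := (memB_iff hk).mp ho
  have h2 := (allB_iff _ _).mp chkA k hk
  rw [h1] at h2
  simpa [Nat.blt_eq] using h2

theorem count0 : {T : Finset (Finset GolayPt) | T ∈ trios ∧ oct0 ∈ T}.ncard = 15 := by
  have himg : {T : Finset (Finset GolayPt) | T ∈ trios ∧ oct0 ∈ T}
      = trioObj '' ((Finset.range 15 : Finset ℕ) : Set ℕ) := by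
    ext T
    constructor
    · rintro ⟨hT, ho⟩
      obtain ⟨k, hk, rfl⟩ := through0 T hT ho
      exact ⟨k, by rw [Finset.mem_coe, Finset.mem_range]; exact hk, rfl⟩
    · rintro ⟨k, hk, rfl⟩
      rw [Finset.mem_coe, Finset.mem_range] at hk
      exact ⟨trio_mem k (by omega), mem15 k hk⟩
  rw [himg, Set.InjOn.ncard_image, Set.ncard_coe_finset, Finset.card_range]
  intro j hj k hk hjk
  rw [Finset.mem_coe, Finset.mem_range] at hj hk
  exact trio_inj j (by omega) k (by omega) hjk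

/-! ### double transitivity -/

theorem chkF : allB (fun k => chkInv (fldG f15 k) (fldG f15I k) && (chkM24 (fldG f15 k) &&
    (Nat.beq (imgN (fldG f15 k) octM0) octM0 && trioStep (fldG f15 k) 0 k))) 15 = true := by
  decide +kernel

theorem chkE : allB (fun k => chkInv (fldG e15 k) (fldG e15I k) && (chkM24 (fldG e15 k) &&
    (Nat.beq (imgN (fldG e15 k) octM0) octM0 && (trioStep (fldG e15 k) 0 0 &&
      trioStep (fldG e15 k) 1 (Nat.succ k))))) 14 = true := by
  decide +kernel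

theorem exF (k : ℕ) (hk : k < 15) :
    ∃ f ∈ M24, f • oct0 = oct0 ∧ f • trioObj 0 = trioObj k := by
  have h := (allB_iff _ _).mp chkF k hk
  simp only [Bool.and_eq_true] at h
  obtain ⟨a, b, c, d⟩ := h
  have hm := permOf_mem_M24 _ _ a b
  refine ⟨permOf _ _ a, hm, ?_, trioStep_sound hm (rep_permOf _ _ a) (by omega) (by omega) d⟩
  show permOf _ _ a • fs octM0 = fs octM0
  rw [smul_fs (rep_permOf _ _ a), Nat.eq_of_beq_eq_true c]

theorem exE (k : ℕ) (hk : k < 14) :
    ∃ f ∈ M24, f • oct0 = oct0 ∧ f • trioObj 0 = trioObj 0 ∧ f • trioObj 1 = trioObj (k + 1) := by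
  have h := (allB_iff _ _).mp chkE k hk
  simp only [Bool.and_eq_true] at h
  obtain ⟨a, b, c, d, e⟩ := h
  have hm := permOf_mem_M24 _ _ a b
  refine ⟨permOf _ _ a, hm, ?_, trioStep_sound hm (rep_permOf _ _ a) (by omega) (by omega) d,
    trioStep_sound hm (rep_permOf _ _ a) (by omega) (by omega) e⟩
  show permOf _ _ a • fs octM0 = fs octM0
  rw [smul_fs (rep_permOf _ _ a), Nat.eq_of_beq_eq_true c]

theorem pair_normal (T₁ T₂ : Finset (Finset GolayPt)) (h1 : T₁ ∈ trios) (h2 : T₂ ∈ trios)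
    (ho1 : oct0 ∈ T₁) (ho2 : oct0 ∈ T₂) (hne : T₁ ≠ T₂) :
    ∃ h ∈ M24, h • oct0 = oct0 ∧ h • trioObj 0 = T₁ ∧ h • trioObj 1 = T₂ := by
  obtain ⟨j, hj, rfl⟩ := through0 T₁ h1 ho1
  obtain ⟨f, hf, hfo, hfT⟩ := exF j hj
  have hfo' : f⁻¹ • oct0 = oct0 := by rw [inv_smul_eq_iff, hfo]
  have h3 : f⁻¹ • T₂ ∈ trios := smul_mem_trios (inv_mem hf) h2
  have h4 : oct0 ∈ f⁻¹ • T₂ := by
    rw [← hfo']
    exact Finset.smul_mem_smul_finset ho2
  obtain ⟨k, hk, e⟩ := through0 _ h3 h4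
  have hk0 : k ≠ 0 := by
    rintro rfl
    apply hne
    rw [← hfT, e, smul_inv_smul]
  obtain ⟨e', he', heo, he0, he1⟩ := exE (k - 1) (by omega)
  have hk1 : k - 1 + 1 = k := by omega
  rw [hk1] at he1
  refine ⟨f * e', mul_mem hf he', ?_, ?_, ?_⟩
  · rw [mul_smul, heo, hfo]
  · rw [mul_smul, he0, hfT]
  · rw [mul_smul, he1, e, smul_inv_smul]

theorem two_trans0 (T₁ T₂ T₁' T₂' : Finset (Finset GolayPt)) (h1 : T₁ ∈ trios) (h2 : T₂ ∈ trios)
    (h1' : T₁' ∈ trios) (h2' : T₂' ∈ trios) (ho1 : oct0 ∈ T₁) (ho2 : oct0 ∈ T₂)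
    (ho1' : oct0 ∈ T₁') (ho2' : oct0 ∈ T₂') (hne : T₁ ≠ T₂) (hne' : T₁' ≠ T₂') :
    ∃ g ∈ M24, g • oct0 = oct0 ∧ g • T₁ = T₁' ∧ g • T₂ = T₂' := by
  obtain ⟨a, ha, hao, ha1, ha2⟩ := pair_normal T₁ T₂ h1 h2 ho1 ho2 hne
  obtain ⟨b, hb, hbo, hb1, hb2⟩ := pair_normal T₁' T₂' h1' h2' ho1' ho2' hne'
  refine ⟨b * a⁻¹, mul_mem hb (inv_mem ha), ?_, ?_, ?_⟩
  · rw [mul_smul, inv_smul_eq_iff.mpr hao.symm, hbo]
  · rw [mul_smul, ← ha1, inv_smul_smul, hb1]
  · rw [mul_smul, ← ha2, inv_smul_smul, hb2]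

/-! ### the kernel -/

theorem mem_oct0 {i : ℕ} (hi : i < 24) (h : tb octM0 i = true) : gPt i ∈ oct0 := by
  apply mem_fs.mpr
  rw [gIdx_gPt hi, ← tb_eq]
  exact h

theorem tb_of_mem_oct0 {p : GolayPt} (h : p ∈ oct0) : tb octM0 (gIdx p) = true := by
  rw [tb_eq]
  exact mem_fs.mp h

theorem oct0_cases : ∀ i < 24, tb octM0 i = true →
    i = 0 ∨ i = 1 ∨ i = 2 ∨ i = 3 ∨ i = 4 ∨ i = 7 ∨ i = 10 ∨ i = 12 := by decide

theorem smul_eq_of_pointwise {g : Equiv.Perm GolayPt} {s : Finset GolayPt}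
    (h : ∀ p ∈ s, g p = p) : g • s = s := by
  ext q
  constructor
  · intro hq
    obtain ⟨p, hp, rfl⟩ := Finset.mem_smul_finset.mp hq
    show g p ∈ s
    rw [h p hp]
    exact hp
  · intro hq
    exact Finset.mem_smul_finset.mpr ⟨q, hq, h q hq⟩

theorem chkP : allB (fun j => !(Nat.beq (lk (fldG u5 j) 7) 7) ||
    (Nat.beq (lk (fldG u5 j) 10) 10 && (Nat.beq (lk (fldG u5 j) 12) 12 &&
      allB (fun k => trioStep (fldG u5 j) k k) 15))) 48 = true := by decide +kernel

theorem chkP_spec {j : ℕ} (hj : j < 48) (h7 : lk (fldG u5 j) 7 = 7) :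
    lk (fldG u5 j) 10 = 10 ∧ lk (fldG u5 j) 12 = 12 ∧
      ∀ k < 15, trioStep (fldG u5 j) k k = true := by
  have h := (allB_iff _ _).mp chkP j hj
  rw [h7] at h
  simp only [Nat.beq_refl, Bool.not_true, Bool.false_or, Bool.and_eq_true] at h
  obtain ⟨a, b, c⟩ := h
  exact ⟨Nat.eq_of_beq_eq_true a, Nat.eq_of_beq_eq_true b, (allB_iff _ _).mp c⟩

/-- an element of `u5` fixing the point `7` fixes `oct0` pointwise and all trios through it -/
theorem u_facts {j : ℕ} (hj : j < 48) (h7 : lk (fldG u5 j) 7 = 7) {u : Equiv.Perm GolayPt}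
    (hu : u ∈ Stab [4, 3, 2, 1, 0]) (hr : Rep (fldG u5 j) u) :
    (∀ p ∈ oct0, u p = p) ∧ ∀ T ∈ trios, oct0 ∈ T → u • T = T := by
  obtain ⟨h10, h12, hTs⟩ := chkP_spec hj h7
  constructor
  · intro p hp
    have hp' := tb_of_mem_oct0 hp
    rw [← gPt_gIdx p]
    rcases oct0_cases _ (gIdx_lt p) hp' with h | h | h | h | h | h | h | h <;> rw [h]
    · exact hu.2 0 (by simp)
    · exact hu.2 1 (by simp)
    · exact hu.2 2 (by simp)
    · exact hu.2 3 (by simp)
    · exact hu.2 4 (by simp)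
    · rw [rep_apply hr (by norm_num), h7]
    · rw [rep_apply hr (by norm_num), h10]
    · rw [rep_apply hr (by norm_num), h12]
  · intro T hT ho
    obtain ⟨k, hk, rfl⟩ := through0 T hT ho
    exact trioStep_sound hu.1 hr (by omega) (by omega) (hTs k hk)

theorem fix_trios_of_pointwise {g : Equiv.Perm GolayPt} (hg : g ∈ M24)
    (h : ∀ p ∈ oct0, g p = p) : ∀ T ∈ trios, oct0 ∈ T → g • T = T := by
  have hmem : g ∈ Stab [4, 3, 2, 1, 0] := by
    refine ⟨hg, fun i hi => ?_⟩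
    simp only [List.mem_cons, List.not_mem_nil, or_false] at hi
    rcases hi with rfl | rfl | rfl | rfl | rfl <;> exact h _ (mem_oct0 (by norm_num) (by decide))
  obtain ⟨j, hj, hr⟩ := stab5_enum g hmem
  have h7 : lk (fldG u5 j) 7 = 7 := by
    have h1 := rep_apply hr (i := 7) (by norm_num)
    rw [h _ (mem_oct0 (by norm_num) (by decide))] at h1
    have h2 := congrArg gIdx h1
    rw [gIdx_gPt (by norm_num), gIdx_gPt (Cfsg.Agent.S5614.lk_lt_of_rep hr (by norm_num))] at h2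
    exact h2.symm
  exact (u_facts hj h7 hmem hr).2

theorem anyB_spec (f : ℕ → Bool) (n : ℕ) (h : (!(allB (fun j => !(f j)) n)) = true) :
    ∃ j < n, f j = true := by
  by_contra hcon
  have : allB (fun j => !(f j)) n = true := by
    rw [allB_iff]
    intro j hj
    have h1 : ¬ f j = true := fun h2 => hcon ⟨j, hj, h2⟩
    simpa using h1
  rw [this] at h
  exact absurd h (by decide)

theorem chkOut : allB (fun i => tb octM0 i || !(allB (fun j =>
    !(Nat.beq (lk (fldG u5 j) 7) 7 && Nat.beq (lk (fldG u5 j) i) 5)) 48)) 24 = true := by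
  decide +kernel

theorem out_spec {i : ℕ} (hi : i < 24) (ho : tb octM0 i = false) :
    ∃ j < 48, lk (fldG u5 j) 7 = 7 ∧ lk (fldG u5 j) i = 5 := by
  have h := (allB_iff _ _).mp chkOut i hi
  rw [ho, Bool.false_or] at h
  obtain ⟨j, hj, hh⟩ := anyB_spec _ 48 h
  rw [Bool.and_eq_true] at hh
  exact ⟨j, hj, Nat.eq_of_beq_eq_true hh.1, Nat.eq_of_beq_eq_true hh.2⟩

/-- the octad of the `k`-th trio containing the point `5` -/
def aOf (k : ℕ) : ℕ :=
  bif tb (fld trioA k) 5 then fld trioA k else bif tb (fld trioB k) 5 then fld trioB k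
    else tc (fld trioA k) (fld trioB k)

theorem chkAof : allB (fun k => (trioL k).any (fun m => Nat.beq m (aOf k)) && (tb (aOf k) 5 &&
    (trioL k).all (fun m => !(tb m 5) || Nat.beq m (aOf k)))) 15 = true := by decide +kernel

theorem chkSep : allB (fun i => tb octM0 i || (Nat.beq i 5 || allB (fun i' => Nat.beq i' i ||
    (Nat.beq i' 5 || !(allB (fun k => !(tb (aOf k) i && !(tb (aOf k) i'))) 15))) 24)) 24 = true := by
  decide +kernel

theorem chkFix : allB (fun j => Nat.blt (fixN (fldG u5 j)) 9 ||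
    Nat.beq (fixN (fldG u5 j)) 24) 48 = true := by decide +kernel

/-- nine points outside `oct0` -/
def out9 : Finset GolayPt := ([5, 6, 8, 9, 11, 13, 14, 15, 16].map gPt).toFinset

theorem out9_card : out9.card = 9 := by decide

theorem out9_spec : ∀ p ∈ out9, tb octM0 (gIdx p) = false := by decide

theorem eq_one_of_fix_out {g : Equiv.Perm GolayPt} (hg : g ∈ M24)
    (h : ∀ i < 24, tb octM0 i = false → g (gPt i) = gPt i) : g = 1 := by
  have h9 : 9 ≤ (Finset.univ.filter fun p => g p = p).card := by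
    rw [← out9_card]
    apply Finset.card_le_card
    intro p hp
    rw [Finset.mem_filter]
    refine ⟨Finset.mem_univ _, ?_⟩
    have := h (gIdx p) (gIdx_lt p) (out9_spec p hp)
    rwa [gPt_gIdx] at this
  obtain ⟨a, ha, j, hj, hr⟩ := fix5_normal hg (by omega)
  have hc := fix_card hr
  rw [fix_card_conj] at hc
  have hk := (allB_iff _ _).mp chkFix j hj
  rw [Bool.or_eq_true] at hk
  rcases hk with hk | hk
  · have : fixN (fldG u5 j) < 9 := by simpa [Nat.blt_eq] using hk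
    omega
  · exact conj_eq_one (eq_one_of_fixN hr (Nat.eq_of_beq_eq_true hk))

theorem pointwise_of_fix_trios {g : Equiv.Perm GolayPt} (hg : g ∈ M24) (hgo : g • oct0 = oct0)
    (h : ∀ T ∈ trios, oct0 ∈ T → g • T = T) : ∀ p ∈ oct0, g p = p := by
  -- the image of the point `5` lies outside `oct0`
  have h5 : tb octM0 (gIdx (g (gPt 5))) = false := by
    by_contra hcon
    rw [Bool.not_eq_false] at hcon
    have h1 := mem_oct0 (gIdx_lt _) hcon
    rw [gPt_gIdx] at h1
    have h2 : g • gPt 5 ∈ g • oct0 := by rw [hgo]; exact h1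
    have h3 := (Finset.smul_mem_smul_finset_iff g).mp h2
    have h4 := tb_of_mem_oct0 h3
    rw [gIdx_gPt (by norm_num)] at h4
    exact absurd h4 (by decide)
  obtain ⟨j, hj, h7, hi5⟩ := out_spec (gIdx_lt _) h5
  obtain ⟨u, hu, hru⟩ := exists_of_okElt (l := [4, 3, 2, 1, 0]) (by decide)
    ((allB_iff _ _).mp u5_ok j hj)
  obtain ⟨hup, huT⟩ := u_facts hj h7 hu hru
  have huo : u • oct0 = oct0 := smul_eq_of_pointwise hup
  -- `g' = u * g` fixes the point `5`, the octad and the trios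
  have hg' : u * g ∈ M24 := mul_mem hu.1 hg
  have hg5 : (u * g) (gPt 5) = gPt 5 := by
    show u (g (gPt 5)) = gPt 5
    rw [← gPt_gIdx (g (gPt 5)), rep_apply hru (gIdx_lt _), hi5]
  have hg5' : (u * g) • gPt 5 = gPt 5 := hg5
  have hgT : ∀ T ∈ trios, oct0 ∈ T → (u * g) • T = T := by
    intro T hT ho
    rw [mul_smul, h T hT ho, huT T hT ho]
  have hA : ∀ k < 15, (u * g) • fs (aOf k) = fs (aOf k) := by
    intro k hk
    have hc := (allB_iff _ _).mp chkAof k hk
    simp only [Bool.and_eq_true] at hc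
    obtain ⟨c1, c2, c3⟩ := hc
    obtain ⟨m0, hm0, e0⟩ := List.any_eq_true.mp c1
    have hmem : aOf k ∈ trioL k := by rw [← Nat.eq_of_beq_eq_true e0]; exact hm0
    have hT := hgT (trioObj k) (trio_mem k (by omega)) (mem15 k hk)
    have h1 : (u * g) • fs (aOf k) ∈ trioObj k := by
      rw [← hT]
      exact Finset.smul_mem_smul_finset (mem_objOf.mpr ⟨aOf k, hmem, rfl⟩)
    obtain ⟨m, hm, e⟩ := mem_objOf.mp h1
    have h5a : gPt 5 ∈ fs (aOf k) := by
      apply mem_fs.mpr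
      rw [gIdx_gPt (by norm_num), ← tb_eq]
      exact c2
    have h5m : gPt 5 ∈ fs m := by
      have h6 : (u * g) • gPt 5 ∈ (u * g) • fs (aOf k) := Finset.smul_mem_smul_finset h5a
      rw [hg5', ← e] at h6
      exact h6
    have h5m' : tb m 5 = true := by
      have := mem_fs.mp h5m
      rwa [gIdx_gPt (by norm_num), ← tb_eq] at this
    have hmm := List.all_eq_true.mp c3 m hm
    rw [h5m'] at hmm
    simp only [Bool.not_true, Bool.false_or] at hmm
    rw [← e, Nat.eq_of_beq_eq_true hmm]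
  have hout : ∀ i < 24, tb octM0 i = false → (u * g) (gPt i) = gPt i := by
    intro i hi ho
    by_cases hi5 : i = 5
    · rw [hi5]; exact hg5
    have hc := (allB_iff _ _).mp chkSep i hi
    rw [ho, Bool.false_or, Bool.or_eq_true] at hc
    rcases hc with hc | hc
    · exact absurd (Nat.eq_of_beq_eq_true hc) hi5
    have hc' := (allB_iff _ _).mp hc (gIdx ((u * g) (gPt i))) (gIdx_lt _)
    rw [Bool.or_eq_true, Bool.or_eq_true] at hc'
    rcases hc' with hc' | hc' | hc'
    · have := Nat.eq_of_beq_eq_true hc'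
      have h1 := gPt_gIdx ((u * g) (gPt i))
      rw [this] at h1
      exact h1.symm
    · exfalso
      have h1 := Nat.eq_of_beq_eq_true hc'
      have h2 : (u * g) (gPt i) = (u * g) (gPt 5) := by
        rw [hg5, ← gPt_gIdx ((u * g) (gPt i)), h1]
      have h3 := congrArg gIdx ((u * g).injective h2)
      rw [gIdx_gPt hi, gIdx_gPt (by norm_num)] at h3
      exact hi5 h3
    · exfalso
      obtain ⟨k, hk, hh⟩ := anyB_spec _ 15 hc'
      rw [Bool.and_eq_true] at hh
      obtain ⟨t1, t2⟩ := hh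
      have hq : gPt i ∈ fs (aOf k) := by
        apply mem_fs.mpr
        rw [gIdx_gPt hi, ← tb_eq]
        exact t1
      have hq' : (u * g) • gPt i ∈ (u * g) • fs (aOf k) := Finset.smul_mem_smul_finset hq
      rw [hA k hk] at hq'
      have hq'' : tb (aOf k) (gIdx ((u * g) (gPt i))) = true := by
        rw [tb_eq]
        exact mem_fs.mp hq'
      rw [hq''] at t2
      exact absurd t2 (by decide)
  have hone := eq_one_of_fix_out hg' hout
  intro p hp
  have h1 : u (g p) = p := by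
    have := congrArg (fun f : Equiv.Perm GolayPt => f p) hone
    exact this
  have h2 : u (g p) = u p := by rw [h1, hup p hp]
  exact u.injective h2

theorem kernel0 {g : Equiv.Perm GolayPt} (hg : g ∈ M24) (hgo : g • oct0 = oct0) :
    (∀ T ∈ trios, oct0 ∈ T → g • T = T) ↔ ∀ p ∈ oct0, g p = p :=
  ⟨pointwise_of_fix_trios hg hgo, fix_trios_of_pointwise hg⟩

/-- An octad of the length-24 code lies in exactly 15 trios; the stabiliser of the octad in the code's group acts doubly transitively on these 15 trios, and the kernel of this action is the pointwise stabiliser of the octad. -/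
theorem result (o : Finset Cfsg.GolayPt) (ho : o ∈ Cfsg.octads) : {T : Finset (Finset Cfsg.GolayPt) | T ∈ Cfsg.trios ∧ o ∈ T}.ncard = 15 ∧ (∀ T₁ T₂ T₁' T₂' : Finset (Finset Cfsg.GolayPt), T₁ ∈ Cfsg.trios → T₂ ∈ Cfsg.trios → T₁' ∈ Cfsg.trios → T₂' ∈ Cfsg.trios → o ∈ T₁ → o ∈ T₂ → o ∈ T₁' → o ∈ T₂' → T₁ ≠ T₂ → T₁' ≠ T₂' → ∃ g ∈ Cfsg.M24, g • o = o ∧ g • T₁ = T₁' ∧ g • T₂ = T₂') ∧ ∀ g ∈ Cfsg.M24, g • o = o → ((∀ T ∈ Cfsg.trios, o ∈ T → g • T = T) ↔ ∀ p ∈ o, g p = p) := by
  obtain ⟨a, ha, rfl⟩ := exists_smul_oct0 ho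
  have hai : a⁻¹ ∈ M24 := inv_mem ha
  have hmem : ∀ T : Finset (Finset GolayPt), a • oct0 ∈ T ↔ oct0 ∈ a⁻¹ • T := by
    intro T
    constructor
    · intro h
      have := Finset.smul_mem_smul_finset (a := a⁻¹) h
      rwa [inv_smul_smul] at this
    · intro h
      have := Finset.smul_mem_smul_finset (a := a) h
      rwa [smul_inv_smul] at this
  refine ⟨?_, ?_, ?_⟩
  · have himg : {T : Finset (Finset GolayPt) | T ∈ trios ∧ a • oct0 ∈ T}
        = (fun T => a • T) '' {T : Finset (Finset GolayPt) | T ∈ trios ∧ oct0 ∈ T} := by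
      ext T
      constructor
      · rintro ⟨hT, hoT⟩
        exact ⟨a⁻¹ • T, ⟨smul_mem_trios hai hT, (hmem T).mp hoT⟩, smul_inv_smul a T⟩
      · rintro ⟨T', ⟨hT', hoT'⟩, rfl⟩
        exact ⟨smul_mem_trios ha hT', Finset.smul_mem_smul_finset hoT'⟩
    rw [himg, Set.ncard_image_of_injective _ (MulAction.injective a)]
    exact count0
  · intro T₁ T₂ T₁' T₂' h1 h2 h1' h2' ho1 ho2 ho1' ho2' hne hne'
    obtain ⟨g, hg, hgo, hg1, hg2⟩ := two_trans0 (a⁻¹ • T₁) (a⁻¹ • T₂) (a⁻¹ • T₁') (a⁻¹ • T₂')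
      (smul_mem_trios hai h1) (smul_mem_trios hai h2) (smul_mem_trios hai h1')
      (smul_mem_trios hai h2') ((hmem _).mp ho1) ((hmem _).mp ho2) ((hmem _).mp ho1')
      ((hmem _).mp ho2') (fun h => hne (MulAction.injective a⁻¹ h))
      (fun h => hne' (MulAction.injective a⁻¹ h))
    refine ⟨a * g * a⁻¹, mul_mem (mul_mem ha hg) hai, ?_, ?_, ?_⟩
    · rw [mul_smul, mul_smul, inv_smul_smul, hgo]
    · rw [mul_smul, mul_smul, hg1, smul_inv_smul]
    · rw [mul_smul, mul_smul, hg2, smul_inv_smul]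
  · intro g hg hgo
    have hg' : a⁻¹ * g * a ∈ M24 := conj_mem ha hg
    have hgo' : (a⁻¹ * g * a) • oct0 = oct0 := by
      rw [mul_smul, mul_smul, hgo, inv_smul_smul]
    have hk := kernel0 hg' hgo'
    constructor
    · intro h p hp
      obtain ⟨q, hq, rfl⟩ := Finset.mem_smul_finset.mp hp
      have h1 : ∀ T ∈ trios, oct0 ∈ T → (a⁻¹ * g * a) • T = T := by
        intro T hT hoT
        rw [mul_smul, mul_smul, h (a • T) (smul_mem_trios ha hT)
          (Finset.smul_mem_smul_finset hoT), inv_smul_smul]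
      have h3 : a⁻¹ (g (a q)) = q := hk.mp h1 q hq
      show g (a q) = a q
      have := congrArg a h3
      simpa using this
    · intro h T hT hoT
      have h1 : ∀ p ∈ oct0, (a⁻¹ * g * a) p = p := by
        intro p hp
        show a⁻¹ (g (a p)) = p
        have h2 : g (a p) = a p := h (a p) (Finset.smul_mem_smul_finset hp)
        rw [h2]
        exact a.symm_apply_apply p
      have h2 := hk.mpr h1 (a⁻¹ • T) (smul_mem_trios hai hT) ((hmem T).mp hoT)
      rw [mul_smul, mul_smul, smul_inv_smul] at h2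
      exact MulAction.injective a⁻¹ h2

end Cfsg.Agent.S5615
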