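import Cfsg.Statements.S5548
-- import your own Cfsg.Agent.* helpers here
import Cfsg.Agent.S5550
import Cfsg.Agent.S5615

set_option autoImplicit false
open Cfsg

namespace Cfsg.Agent.S5548

open Cfsg.Agent.H9 Cfsg.Agent.H33 Cfsg.Agent.H94
open scoped Pointwise

/-! ### moving one point while fixing at most four others -/

theorem move (t : Finset GolayPt) (ht : t.card ≤ 4) {a b : GolayPt} (ha : a ∉ t) (hb : b ∉ t)
    (hab : a ≠ b) : ∃ σ ∈ M24, (∀ x ∈ t, σ x = x) ∧ σ a = b := by
  classical
  have hsub : t ⊆ Finset.univ \ {a, b} := by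
    intro x hx
    rw [Finset.mem_sdiff, Finset.mem_insert, Finset.mem_singleton]
    refine ⟨Finset.mem_univ _, ?_⟩
    rintro (rfl | rfl)
    · exact ha hx
    · exact hb hx
  have hbig : 4 ≤ (Finset.univ \ ({a, b} : Finset GolayPt)).card := by
    have h1 := Finset.card_sdiff_add_card_inter (Finset.univ : Finset GolayPt) {a, b}
    have h2 : ((Finset.univ : Finset GolayPt) ∩ {a, b}).card ≤ 2 :=
      (Finset.card_le_card Finset.inter_subset_right).trans Finset.card_le_two
    rw [Finset.card_univ, Cfsg.Agent.H9.card_golayPt] at h1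
    omega
  obtain ⟨Z, htZ, hZ, hZ4⟩ := Finset.exists_subsuperset_card_eq hsub ht hbig
  have haZ : a ∉ Z := fun h => by
    have := hZ h
    simp at this
  have hbZ : b ∉ Z := fun h => by
    have := hZ h
    simp at this
  let e := (Z.equivFinOfCardEq hZ4).symm
  have he : Function.Injective (fun i : Fin 4 => (e i).1) :=
    fun i j h => e.injective (Subtype.ext h)
  have hX : Function.Injective (Fin.cons a (fun i : Fin 4 => (e i).1) : Fin 5 → GolayPt) := by
    rw [Fin.cons_injective_iff]
    refine ⟨?_, he⟩
    rintro ⟨i, hi⟩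
    exact haZ (hi ▸ (e i).2)
  have hY : Function.Injective (Fin.cons b (fun i : Fin 4 => (e i).1) : Fin 5 → GolayPt) := by
    rw [Fin.cons_injective_iff]
    refine ⟨?_, he⟩
    rintro ⟨i, hi⟩
    exact hbZ (hi ▸ (e i).2)
  obtain ⟨σ, hσ, hmap⟩ := exists_map_emb5 ⟨_, hX⟩ ⟨_, hY⟩
  refine ⟨σ, hσ, ?_, ?_⟩
  · intro x hx
    have h1 := hmap (Fin.succ (e.symm ⟨x, htZ hx⟩))
    simp only [Function.Embedding.coeFn_mk, Fin.cons_succ, Equiv.apply_symm_apply] at h1
    exact h1
  · have h1 := hmap 0
    simp only [Function.Embedding.coeFn_mk, Fin.cons_zero] at h1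
    exact h1

/-! ### indicator words in an invariant subspace -/

theorem ind_symmDiff (s s' : Finset GolayPt) : ind (symmDiff s s') = ind s + ind s' := by
  apply support₂_inj
  rw [support₂_add, support₂_ind, support₂_ind, support₂_ind]

theorem ind_smul (σ : Equiv.Perm GolayPt) (s : Finset GolayPt) :
    ind (σ • s) = fun p => ind s (σ.symm p) := by
  apply support₂_inj
  rw [Cfsg.Agent.S5550.support₂_perm, support₂_ind, support₂_ind]

theorem dec_eq_ind (n : ℕ) : dec n = ind (fs n) := by
  apply support₂_inj
  rw [support₂_dec, support₂_ind]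

theorem support₂_zero : support₂ (0 : GolayPt → ZMod 2) = ∅ := by
  ext p
  simp [support₂]

theorem support₂_one : support₂ (1 : GolayPt → ZMod 2) = Finset.univ := by
  ext p
  simp [support₂]

theorem chkBasis : basisL.all (fun b => isGolay b && Nat.beq (pcT b) 8) = true := by
  decide +kernel

theorem basis_octads : ∀ b ∈ basisL, fs b ∈ octads := by
  intro b hb
  have h := List.all_eq_true.mp chkBasis b hb
  rw [Bool.and_eq_true] at h
  obtain ⟨k, hk, rfl⟩ := isGolay_iff.mp h.1
  refine ⟨(mem_supports_iff _).mpr ⟨k, hk, rfl⟩, ?_⟩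
  rw [card_fs']
  exact Nat.eq_of_beq_eq_true h.2

section

variable (W : Submodule (ZMod 2) (GolayPt → ZMod 2))

theorem inW_symmDiff {s s' : Finset GolayPt} (h : ind s ∈ W) (h' : ind s' ∈ W) :
    ind (symmDiff s s') ∈ W := by
  rw [ind_symmDiff]
  exact W.add_mem h h'

variable (hinv : ∀ σ ∈ M24, ∀ w ∈ W, (fun p => w (σ.symm p)) ∈ W)

include hinv

theorem inW_smul {σ : Equiv.Perm GolayPt} (hσ : σ ∈ M24) {s : Finset GolayPt} (h : ind s ∈ W) :
    ind (σ • s) ∈ W := by
  rw [ind_smul]
  exact hinv σ hσ _ h

/-- an invariant subspace containing a word of the code other than zero and the all-ones word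
contains the code -/
theorem code_le {U : Finset GolayPt} (hU : U ∈ GC) (hne : U ≠ ∅) (hnu : U ≠ Finset.univ)
    (hin : ind U ∈ W) : golayCode ≤ W := by
  -- an octad in `W`
  have step1 : ∃ o ∈ octads, ind o ∈ W := by
    rcases gc_card hW hU with h | h | h | h | h
    · exact absurd (Finset.card_eq_zero.mp h) hne
    · exact ⟨U, ⟨hU, h⟩, hin⟩
    · have hd : U ∈ dodecads := ⟨hU, h⟩
      have h495 := dodecad_meet_eight (dodOctHyp_of hW hS) U hd
      have hnon : ({d' : Finset GolayPt | d' ∈ dodecads ∧ (U ∩ d').card = 8}).Nonempty := by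
        rw [← Set.ncard_pos (Set.toFinite _), h495]
        norm_num
      obtain ⟨d', hd', h8⟩ := hnon
      obtain ⟨g, hg⟩ := dodecad_trans U d' hd hd'
      have hg' : (g : Equiv.Perm GolayPt) • U = d' := hg
      have h1 : ind ((g : Equiv.Perm GolayPt) • U) ∈ W := inW_smul W hinv g.2 hin
      rw [hg'] at h1
      refine ⟨symmDiff U d', ⟨gc_symmDiff hU hd'.1, ?_⟩, inW_symmDiff W hin h1⟩
      have := card_symmDiff_add U d'
      rw [h, hd'.2, h8] at this
      omega
    · have ho : Uᶜ ∈ octads := by
        refine ⟨gc_compl hU, ?_⟩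
        rw [Finset.card_compl, h, Cfsg.Agent.H9.card_golayPt]
      have h280 := meetF_four hW hS Uᶜ ho
      obtain ⟨o', ho'⟩ := Finset.card_pos.mp (by rw [h280]; norm_num :
        0 < (meetF Uᶜ 4).card)
      rw [mem_meetF] at ho'
      obtain ⟨g, hg, hgo⟩ := exists_smul_octad ho ho'.1
      have h1 : ind (g • U) ∈ W := inW_smul W hinv hg hin
      have h2 := inW_symmDiff W hin h1
      have e : symmDiff U (g • U) = symmDiff Uᶜ o' := by
        rw [← hgo, Cfsg.Agent.S5550.smul_compl, compl_symmDiff_compl]
      rw [e] at h2
      exact ⟨symmDiff Uᶜ o', symmDiff_mem_octads ho ho'.1 ho'.2, h2⟩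
    · exfalso
      apply hnu
      apply Finset.eq_univ_of_card
      rw [h, Cfsg.Agent.H9.card_golayPt]
  obtain ⟨o, ho, hoW⟩ := step1
  have step2 : ∀ o' ∈ octads, ind o' ∈ W := by
    intro o' ho'
    obtain ⟨g, hg, rfl⟩ := exists_smul_octad ho ho'
    exact inW_smul W hinv hg hoW
  intro w hw
  obtain ⟨k, -, rfl⟩ := (mem_golayCode_iff w).mp hw
  exact map_dec_comb_mem LinearMap.id W basisL (fun b hb => by
    rw [LinearMap.id_apply, dec_eq_ind]
    exact step2 _ (basis_octads b hb)) k

/-- an invariant subspace containing the differences of the translates of a set of one to four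
points contains all words of even weight -/
theorem even_le (t : Finset GolayPt) (ht1 : t.Nonempty) (ht4 : t.card ≤ 4)
    (hin : ∀ σ ∈ M24, ind (symmDiff t (σ • t)) ∈ W) :
    ∀ w : GolayPt → ZMod 2, ∑ p, w p = 0 → w ∈ W := by
  classical
  obtain ⟨x₀, hx₀⟩ := ht1
  obtain ⟨y, -, hy⟩ := Finset.exists_mem_notMem_of_card_lt_card (s := t) (t := Finset.univ)
    (by rw [Finset.card_univ, Cfsg.Agent.H9.card_golayPt]; omega)
  have hxy : x₀ ≠ y := fun h => hy (h ▸ hx₀)
  obtain ⟨σ, hσ, hfix, hσx⟩ := move (t.erase x₀)
    ((Finset.card_erase_le).trans ht4) (a := x₀) (b := y) (Finset.notMem_erase x₀ t)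
    (fun h => hy (Finset.mem_of_mem_erase h)) hxy
  -- the duad `{x₀, y}`
  have hduad : ind ({x₀, y} : Finset GolayPt) ∈ W := by
    have e : symmDiff t (σ • t) = {x₀, y} := by
      have h1 : σ • t = insert y (t.erase x₀) := by
        conv_lhs => rw [← Finset.insert_erase hx₀]
        rw [Finset.smul_finset_insert, Cfsg.Agent.S5615.smul_eq_of_pointwise hfix]
        congr 1
      rw [h1]
      ext q
      simp only [Finset.mem_symmDiff, Finset.mem_insert, Finset.mem_erase, Finset.mem_singleton]
      by_cases hq : q ∈ t <;> by_cases h1 : q = x₀ <;> by_cases h2 : q = y <;> simp_all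
    rw [← e]
    exact hin σ hσ
  -- all duads
  have hall : ∀ a b : GolayPt, a ≠ b → ind ({a, b} : Finset GolayPt) ∈ W := by
    intro a b hab
    obtain ⟨g, hga, hgb⟩ := MulAction.is_two_pretransitive_iff.mp m24_two_transitive hxy hab
    have h1 := inW_smul W hinv g.2 hduad
    have e : (g : Equiv.Perm GolayPt) • ({x₀, y} : Finset GolayPt) = {a, b} := by
      rw [Finset.smul_finset_insert, Finset.smul_finset_singleton]
      have hga' : (g : Equiv.Perm GolayPt) • x₀ = a := hga
      have hgb' : (g : Equiv.Perm GolayPt) • y = b := hgb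
      rw [hga', hgb']
    rwa [e] at h1
  intro w hw
  have hD : ∀ p : GolayPt, (Pi.single p 1 + Pi.single x₀ 1 : GolayPt → ZMod 2) ∈ W := by
    intro p
    by_cases hp : p = x₀
    · rw [hp]
      have : (Pi.single x₀ 1 + Pi.single x₀ 1 : GolayPt → ZMod 2) = 0 := by
        funext q
        have h2 : ∀ a : ZMod 2, a + a = 0 := by decide
        exact h2 _
      rw [this]
      exact W.zero_mem
    · have : (Pi.single p 1 + Pi.single x₀ 1 : GolayPt → ZMod 2) = ind {p, x₀} := by
        funext q
        simp only [Pi.add_apply, Pi.single_apply, ind, Finset.mem_insert, Finset.mem_singleton]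
        by_cases h1 : q = p <;> by_cases h2 : q = x₀ <;> simp_all
      rw [this]
      exact hall p x₀ hp
  have hsum : w = ∑ p, w p • (Pi.single p 1 + Pi.single x₀ 1 : GolayPt → ZMod 2) := by
    funext q
    rw [Finset.sum_apply]
    simp only [Pi.smul_apply, Pi.add_apply, Pi.single_apply, smul_eq_mul, mul_add, mul_ite,
      mul_one, mul_zero]
    rw [Finset.sum_add_distrib, Finset.sum_ite_eq]
    simp only [Finset.mem_univ, if_true]
    by_cases hq : q = x₀
    · simp only [hq, if_true]
      rw [hw, add_zero]
    · simp [hq]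
  rw [hsum]
  exact W.sum_mem (fun p _ => W.smul_mem _ (hD p))

end

/-- For the automorphism group of the length-24 binary Golay code of the definitions (the Mathieu group of degree 24) acting on binary words of length 24 by permuting coordinates, the only invariant subspaces of the space of all words are: zero, the span of the all-ones word, the code itself, the even-weight words, and the whole space. (So the permutation module has a unique composition series.) -/
theorem result (W : Submodule (ZMod 2) (Cfsg.GolayPt → ZMod 2)) (hW : ∀ σ ∈ Cfsg.M24, ∀ w ∈ W, (fun p => w (σ.symm p)) ∈ W) : W = ⊥ ∨ W = Submodule.span (ZMod 2) {fun _ => (1 : ZMod 2)} ∨ W = Cfsg.golayCode ∨ (W : Set (Cfsg.GolayPt → ZMod 2)) = {w | ∑ p, w p = 0} ∨ W = ⊤ := by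
  classical
  by_cases hle : W ≤ golayCode
  · by_cases hex : ∃ c ∈ W, c ≠ 0 ∧ c ≠ 1
    · obtain ⟨c, hc, h0, h1⟩ := hex
      right; right; left
      apply le_antisymm hle
      apply code_le W hW (U := support₂ c) ((mem_golayCode_iff_support c).mp (hle hc))
      · intro h
        apply h0
        apply support₂_inj
        rw [h, support₂_zero]
      · intro h
        apply h1
        apply support₂_inj
        rw [h, support₂_one]
      · rw [ind_support₂]
        exact hc
    · have hex' : ∀ c ∈ W, c = 0 ∨ c = 1 := by
        intro c hc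
        by_contra hcon
        rw [not_or] at hcon
        exact hex ⟨c, hc, hcon.1, hcon.2⟩
      by_cases h1 : (1 : GolayPt → ZMod 2) ∈ W
      · right; left
        apply le_antisymm
        · intro w hw
          rcases hex' w hw with rfl | rfl
          · exact Submodule.zero_mem _
          · exact Submodule.subset_span (Set.mem_singleton _)
        · rw [Submodule.span_le, Set.singleton_subset_iff]
          exact h1
      · left
        rw [eq_bot_iff]
        intro w hw
        rcases hex' w hw with rfl | rfl
        · exact Submodule.zero_mem _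
        · exact absurd hw h1
  · obtain ⟨w, hw, hwC⟩ := SetLike.not_le_iff_exists.mp hle
    have hE : ∀ x : GolayPt → ZMod 2, ∑ p, x p = 0 → x ∈ W := by
      have hs : support₂ w ∉ GC := fun h => hwC ((mem_golayCode_iff_support w).mpr h)
      have hsW : ind (support₂ w) ∈ W := by rw [ind_support₂]; exact hw
      obtain ⟨t, h4, hc⟩ := exists_leader (support₂ w)
      have htne : t.Nonempty := by
        rw [Finset.nonempty_iff_ne_empty]
        rintro rfl
        apply hs
        have e : symmDiff (support₂ w) (∅ : Finset GolayPt) = support₂ w := symmDiff_bot _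
        rwa [e] at hc
      -- it suffices that `t` or its complement is in `W`
      have direct : ind t ∈ W → ∀ x : GolayPt → ZMod 2, ∑ p, x p = 0 → x ∈ W := by
        intro ht
        exact even_le W hW t htne h4
          (fun σ hσ => inW_symmDiff W ht (inW_smul W hW hσ ht))
      by_cases hc0 : symmDiff (support₂ w) t = ∅
      · have : support₂ w = t := symmDiff_eq_bot.mp hc0
        rw [this] at hsW
        exact direct hsW
      by_cases hc1 : symmDiff (support₂ w) t = Finset.univ
      · have hcompl : support₂ w = tᶜ := by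
          have h1 : symmDiff (symmDiff (support₂ w) t) t = symmDiff Finset.univ t := by rw [hc1]
          rw [symmDiff_symmDiff_cancel_right] at h1
          rw [h1]
          ext q
          simp [Finset.mem_symmDiff]
        rw [hcompl] at hsW
        apply even_le W hW t htne h4
        intro σ hσ
        have h1 := inW_symmDiff W hsW (inW_smul W hW hσ hsW)
        rwa [Cfsg.Agent.S5550.smul_compl, compl_symmDiff_compl] at h1
      -- otherwise the code is contained in `W`
      apply direct
      have hcard := gc_card Cfsg.Agent.H33.hW hc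
      have hc8 : 8 ≤ (symmDiff (support₂ w) t).card ∧ (symmDiff (support₂ w) t).card ≤ 16 := by
        rcases hcard with h | h | h | h | h
        · exact absurd (Finset.card_eq_zero.mp h) hc0
        · omega
        · omega
        · omega
        · exfalso
          apply hc1
          apply Finset.eq_univ_of_card
          rw [h, Cfsg.Agent.H9.card_golayPt]
      obtain ⟨a, hac, hat⟩ := Finset.exists_mem_notMem_of_card_lt_card
        (s := t) (t := symmDiff (support₂ w) t) (by omega)
      obtain ⟨b, hbc, hbt⟩ := Finset.exists_mem_notMem_of_card_lt_card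
        (s := t) (t := (symmDiff (support₂ w) t)ᶜ) (by
          rw [Finset.card_compl, Cfsg.Agent.H9.card_golayPt]; omega)
      rw [Finset.mem_compl] at hbc
      have hab : a ≠ b := fun h => hbc (h ▸ hac)
      obtain ⟨σ, hσ, hfix, hσa⟩ := move t h4 hat hbt hab
      have hσt : σ • t = t := Cfsg.Agent.S5615.smul_eq_of_pointwise hfix
      have hs' : support₂ w = symmDiff (symmDiff (support₂ w) t) t :=
        (symmDiff_symmDiff_cancel_right _ _).symm
      have hU : ind (symmDiff (σ • symmDiff (support₂ w) t) (symmDiff (support₂ w) t)) ∈ W := by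
        have h1 := inW_symmDiff W (inW_smul W hW hσ hsW) hsW
        have e : symmDiff (σ • support₂ w) (support₂ w)
            = symmDiff (σ • symmDiff (support₂ w) t) (symmDiff (support₂ w) t) := by
          conv_lhs => rw [hs']
          rw [Finset.smul_finset_symmDiff, hσt, symmDiff_symmDiff_symmDiff_comm, symmDiff_self,
            symmDiff_bot]
        rwa [e] at h1
      have hbU : b ∈ symmDiff (σ • symmDiff (support₂ w) t) (symmDiff (support₂ w) t) := by
        rw [Finset.mem_symmDiff]
        left
        refine ⟨?_, hbc⟩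
        rw [← hσa]
        exact Finset.smul_mem_smul_finset hac
      obtain ⟨x₀, hx₀⟩ := htne
      have hxU : x₀ ∉ symmDiff (σ • symmDiff (support₂ w) t) (symmDiff (support₂ w) t) := by
        have hiff : x₀ ∈ σ • symmDiff (support₂ w) t ↔ x₀ ∈ symmDiff (support₂ w) t := by
          rw [← Finset.inv_smul_mem_iff]
          have : σ⁻¹ • x₀ = x₀ := by
            rw [inv_smul_eq_iff]
            exact (hfix x₀ hx₀).symm
          rw [this]
        rw [Finset.mem_symmDiff]
        tauto
      have hCW : golayCode ≤ W := code_le W hW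
        (gc_symmDiff (smul_mem_supports hσ hc) hc)
        (fun h => by rw [h] at hbU; exact absurd hbU (Finset.notMem_empty b))
        (fun h => by rw [h] at hxU; exact hxU (Finset.mem_univ x₀)) hU
      have hcW : ind (symmDiff (support₂ w) t) ∈ W := by
        apply hCW
        rw [mem_golayCode_iff_support, support₂_ind]
        exact hc
      have h2 := inW_symmDiff W hsW hcW
      rwa [symmDiff_symmDiff_cancel_left] at h2
    by_cases hodd : ∃ x ∈ W, ∑ p, x p ≠ 0
    · right; right; right; right
      obtain ⟨x', hx', hx'1⟩ := hodd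
      rw [eq_top_iff]
      intro x _
      by_cases hx0 : ∑ p, x p = 0
      · exact hE x hx0
      · have h2 : ∀ a b : ZMod 2, a ≠ 0 → b ≠ 0 → a - b = 0 := by decide
        have h3 : ∑ p, (x - x') p = 0 := by
          simp only [Pi.sub_apply, Finset.sum_sub_distrib]
          exact h2 _ _ hx0 hx'1
        have h4 := W.add_mem (hE _ h3) hx'
        rwa [sub_add_cancel] at h4
    · right; right; right; left
      ext x
      simp only [SetLike.mem_coe, Set.mem_ofPred_eq]
      constructor
      · intro hx
        by_contra h
        exact hodd ⟨x, hx, h⟩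
      · exact hE x

end Cfsg.Agent.S5548
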