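import Cfsg.Statements.S5592
import Cfsg.Agent.H93.Leech

set_option autoImplicit false

namespace Cfsg.Agent.S5592

open Cfsg Cfsg.Agent.H93

theorem result (x y : Cfsg.GolayPt → ℤ) (hx : x ∈ Cfsg.leechLattice) (hy : y ∈ Cfsg.leechLattice) (hxy : x ≠ y) (hxn : Cfsg.sqNorm x ≤ 64) (hyn : Cfsg.sqNorm y ≤ 64) (hc : (∃ z ∈ Cfsg.leechLattice, x - y = 2 • z)) :
    x = -y ∨ (Cfsg.sqNorm x = 64 ∧ Cfsg.sqNorm y = 64 ∧ Cfsg.dotInt x y = 0) := by
  obtain ⟨z, hz, hvw⟩ := hc
  have hz' : z + y ∈ leechLattice := add_mem hz hy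
  have hvw' : x + y = (2 : ℕ) • (z + y) := by
    have : x = (2 : ℕ) • z + y := by rw [← hvw]; abel
    rw [this]; simp only [smul_add, two_smul]; abel
  have hpar := sqNorm_sub_add x y
  have hadd := sqNorm_add x y
  rw [hvw, hvw', sqNorm_two_smul, sqNorm_two_smul] at hpar
  rw [hvw', sqNorm_two_smul] at hadd
  have h1 : z ≠ 0 := by
    intro h1
    apply hxy
    have : x - y = 0 := by rw [hvw, h1]; simp
    exact sub_eq_zero.mp this
  by_cases h2 : z + y = 0
  · left
    have : x + y = 0 := by rw [hvw', h2]; simp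
    exact eq_neg_of_add_eq_zero_left this
  · right
    have m1 := min_sqNorm hz h1
    have m2 := min_sqNorm hz' h2
    refine ⟨by linarith, by linarith, by linarith⟩

end Cfsg.Agent.S5592
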