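import Cfsg.Statements.S5594
import Cfsg.Agent.S0432
import Cfsg.Agent.S0433
import Cfsg.Agent.S0372

set_option autoImplicit false

namespace Cfsg.Agent.S5594

open Cfsg

/-- the dodecad of squares -/
def Q : Finset GolayPt := support₂ (qrWord 0)

theorem Q_mem : Q ∈ supports (golayCode : Set (GolayPt → ZMod 2)) :=
  ⟨qrWord 0, Submodule.subset_span (Or.inl ⟨0, rfl⟩), rfl⟩

theorem Q_swap : ∀ i : GolayPt, (i ∈ Q ↔ projInv i ∉ Q) := by
  unfold Q support₂
  decide

theorem projInv_invol : ∀ i : GolayPt, projInv (projInv i) = i := by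
  decide

/-- the underlying function of the monomial map -/
def fFun (v : leechLattice) : leechLattice :=
  ⟨fun i => if i ∈ Q then -((v : GolayPt → ℤ) (projInv i)) else (v : GolayPt → ℤ) (projInv i),
    Cfsg.Agent.S0433.result Q Q_mem (fun i => (v : GolayPt → ℤ) (projInv i))
      (Cfsg.Agent.S0432.result projInv Cfsg.Agent.S0372.result _ v.2)⟩

theorem fFun_apply (v : leechLattice) (i : GolayPt) :
    (fFun v : GolayPt → ℤ) i =
      if i ∈ Q then -((v : GolayPt → ℤ) (projInv i)) else (v : GolayPt → ℤ) (projInv i) := rfl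

theorem fFun_fFun (v : leechLattice) : fFun (fFun v) = -v := by
  apply Subtype.ext
  funext i
  rw [fFun_apply, fFun_apply, projInv_invol]
  have h := Q_swap i
  by_cases hi : i ∈ Q
  · have h' : projInv i ∉ Q := h.1 hi
    simp [hi, h']
  · have h' : projInv i ∈ Q := by
      by_contra hc
      exact hi (h.2 hc)
    simp [hi, h']

theorem fFun_neg (v : leechLattice) : fFun (-v) = -fFun v := by
  apply Subtype.ext
  funext i
  rw [fFun_apply]
  show _ = -((fFun v : GolayPt → ℤ) i)
  rw [fFun_apply]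
  by_cases hi : i ∈ Q <;> simp [hi]

theorem fFun_add (v w : leechLattice) : fFun (v + w) = fFun v + fFun w := by
  apply Subtype.ext
  funext i
  rw [fFun_apply]
  show _ = (fFun v : GolayPt → ℤ) i + (fFun w : GolayPt → ℤ) i
  rw [fFun_apply, fFun_apply]
  by_cases hi : i ∈ Q
  · simp [hi]; ring
  · simp [hi]

theorem fFun_sqNorm (v : leechLattice) :
    sqNorm ((fFun v : leechLattice) : GolayPt → ℤ) = sqNorm (v : GolayPt → ℤ) := by
  unfold sqNorm
  rw [← Equiv.sum_comp projInv (fun i => (v : GolayPt → ℤ) i ^ 2)]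
  apply Finset.sum_congr rfl
  intro i _
  rw [fFun_apply]
  by_cases hi : i ∈ Q <;> simp [hi]

/-- the monomial map as a permutation of the lattice -/
def fPerm : Equiv.Perm leechLattice where
  toFun := fFun
  invFun := fun v => -fFun v
  left_inv := by
    intro v
    show -fFun (fFun v) = v
    rw [fFun_fFun, neg_neg]
  right_inv := by
    intro v
    show fFun (-fFun v) = v
    rw [fFun_neg, fFun_fFun, neg_neg]

theorem fPerm_mem : fPerm ∈ Co0 := ⟨fFun_add, fFun_sqNorm⟩

theorem neg_mem : Equiv.neg leechLattice ∈ Co0 := by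
  refine ⟨fun v w => ?_, fun v => ?_⟩
  · show -(v + w) = -v + -w
    rw [neg_add]
  · show sqNorm (-(v : GolayPt → ℤ)) = _
    unfold sqNorm
    apply Finset.sum_congr rfl
    intro i _
    simp

theorem two_mem : (fun _ => 2 : GolayPt → ℤ) ∈ leechLattice := by
  apply AddSubgroup.subset_closure
  refine ⟨0, fun i => ?_, ?_, fun k => ?_⟩
  · show (2 : ℤ) ≡ 0 [ZMOD 2]
    decide
  · rw [Finset.sum_const]
    decide
  · by_cases hk : (2 : ℤ) ≡ k [ZMOD 4]
    · have : (Finset.univ.filter fun i : GolayPt => (2 : ℤ) ≡ k [ZMOD 4]) = Finset.univ := by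
        simp [hk]
      rw [this]
      refine ⟨1, Submodule.subset_span (Or.inr rfl), ?_⟩
      unfold support₂
      simp
    · have : (Finset.univ.filter fun i : GolayPt => (2 : ℤ) ≡ k [ZMOD 4]) = ∅ := by
        simp [hk]
      rw [this]
      refine ⟨0, Submodule.zero_mem _, ?_⟩
      unfold support₂
      simp

theorem result :
    ∃ n : ↥Cfsg.Co0, (∀ v : ↥Cfsg.leechLattice, ((n • v : ↥Cfsg.leechLattice) : Cfsg.GolayPt → ℤ) = -(v : Cfsg.GolayPt → ℤ)) ∧
    ∀ K : Subgroup ↥Cfsg.Co0, ¬ (Subgroup.zpowers n).IsComplement' K := by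
  set n : ↥Co0 := ⟨Equiv.neg leechLattice, neg_mem⟩ with hn
  set F : ↥Co0 := ⟨fPerm, fPerm_mem⟩ with hF
  have hFF : F * F = n := by
    apply Subtype.ext
    apply Equiv.ext
    intro v
    show fFun (fFun v) = -v
    exact fFun_fFun v
  have hnn : n * n = 1 := by
    apply Subtype.ext
    apply Equiv.ext
    intro v
    show - -v = v
    exact neg_neg v
  have hn1 : n ≠ 1 := by
    intro h
    have h1 := congrArg (fun g : ↥Co0 => ((g : Equiv.Perm leechLattice)
      (⟨_, two_mem⟩ : leechLattice) : GolayPt → ℤ) none) h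
    have h2 : (-(2 : ℤ)) = 2 := h1
    omega
  have hcentral : ∀ g : ↥Co0, n * g = g * n := by
    intro g
    apply Subtype.ext
    apply Equiv.ext
    intro v
    show -((g : Equiv.Perm leechLattice) v) = (g : Equiv.Perm leechLattice) (-v)
    have hadd := g.2.1 v (-v)
    have hzero : (g : Equiv.Perm leechLattice) 0 = 0 := by
      have := g.2.1 0 0
      rw [add_zero] at this
      exact (add_eq_left.1 this.symm)
    rw [add_neg_cancel, hzero] at hadd
    exact (neg_eq_of_add_eq_zero_right hadd.symm)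
  refine ⟨n, fun v => rfl, fun K hK => hn1 ?_⟩
  -- decompose F = z * k
  obtain ⟨⟨⟨z, hz⟩, ⟨k, hk⟩⟩, hzk⟩ := hK.2 F
  simp only at hzk
  have hz2 : z * z = 1 := by
    obtain ⟨m, rfl⟩ := Subgroup.mem_zpowers_iff.1 hz
    rw [← zpow_add, ← two_mul, zpow_mul, zpow_two, hnn, one_zpow]
  have hzc : ∀ g : ↥Co0, z * g = g * z := by
    intro g
    obtain ⟨m, rfl⟩ := Subgroup.mem_zpowers_iff.1 hz
    have : Commute n g := hcentral g
    exact this.zpow_left m
  have hkk : k * k = n := by
    rw [← hFF, ← hzk]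
    calc k * k = (z * z) * (k * k) := by rw [hz2, one_mul]
      _ = z * (z * k) * k := by simp only [mul_assoc]
      _ = z * (k * z) * k := by rw [hzc k]
      _ = z * k * (z * k) := by simp only [mul_assoc]
  have hnK : n ∈ K := by
    rw [← hkk]
    exact K.mul_mem hk hk
  have hdisj := hK.disjoint
  have : n ∈ Subgroup.zpowers n ⊓ K := ⟨Subgroup.mem_zpowers n, hnK⟩
  rw [hdisj.eq_bot] at this
  exact Subgroup.mem_bot.1 this

end Cfsg.Agent.S5594
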