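import Cfsg.Statements.S5599
import Cfsg.Agent.H9.M24b

set_option autoImplicit false
open scoped Pointwise
open Cfsg

namespace Cfsg.Agent.S5599

open Cfsg.Spor Cfsg.Agent.H9

theorem mem_M22 {x : Equiv.Perm GolayPt} :
    x ∈ M22 ↔ x ∈ M24 ∧ x none = none ∧ x (some 0) = some 0 := by
  unfold M22 M23
  rw [Subgroup.mem_inf, Subgroup.mem_inf, and_assoc]
  exact Iff.and Iff.rfl (Iff.and MulAction.mem_stabilizer_iff MulAction.mem_stabilizer_iff)

theorem mem_pair {x : Equiv.Perm GolayPt} :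
    x ∈ M24 ⊓ MulAction.stabilizer (Equiv.Perm GolayPt) ({none, some 0} : Finset GolayPt) ↔
      x ∈ M24 ∧ ((x none = none ∧ x (some 0) = some 0) ∨ (x none = some 0 ∧ x (some 0) = none)) := by
  rw [Subgroup.mem_inf]
  refine Iff.and Iff.rfl ?_
  rw [MulAction.mem_stabilizer_iff, Finset.smul_finset_insert, Finset.smul_finset_singleton]
  show ({x none, x (some 0)} : Finset GolayPt) = {none, some 0} ↔ _
  have hne : x none ≠ x (some 0) := fun h => by
    have := x.injective h
    exact absurd this (by decide)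
  constructor
  · intro h
    have h1 : x none ∈ ({none, some 0} : Finset GolayPt) := by
      rw [← h]; exact Finset.mem_insert_self _ _
    have h2 : x (some 0) ∈ ({none, some 0} : Finset GolayPt) := by
      rw [← h]; exact Finset.mem_insert_of_mem (Finset.mem_singleton_self _)
    rw [Finset.mem_insert, Finset.mem_singleton] at h1 h2
    rcases h1 with h1 | h1 <;> rcases h2 with h2 | h2
    · exact absurd (h1.trans h2.symm) hne
    · exact Or.inl ⟨h1, h2⟩
    · exact Or.inr ⟨h1, h2⟩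
    · exact absurd (h1.trans h2.symm) hne
  · rintro (⟨h1, h2⟩ | ⟨h1, h2⟩)
    · rw [h1, h2]
    · rw [h1, h2, Finset.pair_comm]

/-- an octad through the extra point and not through the residue `0` -/
theorem oct_ok : octOK 0x7ffffe 0x8018ea = true := by decide +kernel

theorem no_swap (z : Equiv.Perm GolayPt) (hz : z ∈ M24) (h1 : z none = some 0)
    (h3 : ∀ p : GolayPt, p ≠ none → p ≠ some 0 → z p = p) : False := by
  have hF : FixesMask z 0x7ffffe := by
    intro p hp
    rw [mem_fs] at hp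
    apply h3
    · rintro rfl
      revert hp
      decide
    · rintro rfl
      revert hp
      decide
  have h4 := smul_octad_eq hz hF oct_ok
  have h5 : (none : GolayPt) ∈ fs 0x8018ea := by decide
  have h6 : z none ∈ z • fs 0x8018ea := Finset.smul_mem_smul_finset h5
  rw [h4, h1] at h6
  revert h6
  decide

theorem exists_fifth (a b c d : GolayPt) : ∃ r : GolayPt, r ≠ a ∧ r ≠ b ∧ r ≠ c ∧ r ≠ d := by
  have h : ({a, b, c, d} : Finset GolayPt).card < (Finset.univ : Finset GolayPt).card := by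
    rw [Finset.card_univ, card_golayPt]
    exact lt_of_le_of_lt Finset.card_le_four (by norm_num)
  obtain ⟨r, -, hr⟩ := Finset.exists_mem_notMem_of_card_lt_card h
  simp only [Finset.mem_insert, Finset.mem_singleton, not_or] at hr
  exact ⟨r, hr.1, hr.2.1, hr.2.2.1, hr.2.2.2⟩

theorem inj5 {a b c d e : GolayPt} (hab : a ≠ b) (hac : a ≠ c) (had : a ≠ d) (hae : a ≠ e)
    (hbc : b ≠ c) (hbd : b ≠ d) (hbe : b ≠ e) (hcd : c ≠ d) (hce : c ≠ e) (hde : d ≠ e) :
    Function.Injective ![a, b, c, d, e] := by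
  intro i j h
  fin_cases i <;> fin_cases j <;> simp_all


/-- In the automorphism group of the length-24 code, the two-point Mathieu group (permutations of the code's group fixing the extra point and the residue 0) has index 2 in the setwise stabiliser of that pair of points, and an element of the code's group interchanging the two points normalises the two-point group and induces on it, by conjugation, an automorphism that is not inner. -/
theorem result (g : Equiv.Perm Cfsg.GolayPt) (hg : g ∈ Cfsg.M24) (h₁ : g none = some 0) (h₂ : g (some 0) = none) : Cfsg.Spor.M22.relIndex (Cfsg.M24 ⊓ MulAction.stabilizer (Equiv.Perm Cfsg.GolayPt) ({none, some 0} : Finset Cfsg.GolayPt)) = 2 ∧ (∀ x ∈ Cfsg.Spor.M22, g * x * g⁻¹ ∈ Cfsg.Spor.M22) ∧ ¬ ∃ h ∈ Cfsg.Spor.M22, ∀ x ∈ Cfsg.Spor.M22, g * x * g⁻¹ = h * x * h⁻¹ := by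
  have hginv1 : g⁻¹ none = some 0 := by rw [Equiv.Perm.inv_eq_iff_eq, h₂]
  have hginv2 : g⁻¹ (some 0) = none := by rw [Equiv.Perm.inv_eq_iff_eq, h₁]
  refine ⟨?_, ?_, ?_⟩
  · -- index 2
    have hgK : g ∈ M24 ⊓ MulAction.stabilizer (Equiv.Perm GolayPt)
        ({none, some 0} : Finset GolayPt) := mem_pair.mpr ⟨hg, Or.inr ⟨h₁, h₂⟩⟩
    unfold Subgroup.relIndex
    rw [Subgroup.index_eq_two_iff]
    refine ⟨⟨g, hgK⟩, ?_⟩
    rintro ⟨b, hb⟩
    rw [Subgroup.mem_subgroupOf, Subgroup.mem_subgroupOf]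
    show Xor' (b * g ∈ M22) (b ∈ M22)
    rw [mem_M22, mem_M22]
    obtain ⟨hbM, hb'⟩ := mem_pair.mp hb
    rcases hb' with ⟨b1, b2⟩ | ⟨b1, b2⟩
    · right
      refine ⟨⟨hbM, b1, b2⟩, ?_⟩
      rintro ⟨-, h5, -⟩
      have h6 : b (g none) = none := h5
      rw [h₁, b2] at h6
      exact absurd h6 (by decide)
    · left
      refine ⟨⟨mul_mem hbM hg, ?_, ?_⟩, ?_⟩
      · show b (g none) = none
        rw [h₁, b2]
      · show b (g (some 0)) = some 0
        rw [h₂, b1]
      · rintro ⟨-, h5, -⟩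
        rw [b1] at h5
        exact absurd h5 (by decide)
  · intro x hx
    obtain ⟨hxM, x1, x2⟩ := mem_M22.mp hx
    refine mem_M22.mpr ⟨mul_mem (mul_mem hg hxM) (inv_mem hg), ?_, ?_⟩
    · show g (x (g⁻¹ none)) = none
      rw [hginv1, x2, h₂]
    · show g (x (g⁻¹ (some 0))) = some 0
      rw [hginv2, x1, h₁]
  · rintro ⟨h, hh, hconj⟩
    obtain ⟨hhM, hh1, hh2⟩ := mem_M22.mp hh
    have hhinv1 : h⁻¹ none = none := by rw [Equiv.Perm.inv_eq_iff_eq, hh1]
    have hhinv2 : h⁻¹ (some 0) = some 0 := by rw [Equiv.Perm.inv_eq_iff_eq, hh2]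
    -- z = h⁻¹ g centralises M22
    have hzM : h⁻¹ * g ∈ M24 := mul_mem (inv_mem hhM) hg
    have hz1 : (h⁻¹ * g) none = some 0 := by
      show h⁻¹ (g none) = some 0
      rw [h₁, hhinv2]
    have hz2 : (h⁻¹ * g) (some 0) = none := by
      show h⁻¹ (g (some 0)) = none
      rw [h₂, hhinv1]
    have hcomm : ∀ x ∈ M22, (h⁻¹ * g) * x = x * (h⁻¹ * g) := by
      intro x hx
      have e := hconj x hx
      have e2 : g * x = h * x * h⁻¹ * g := by
        rw [← e]; group
      calc (h⁻¹ * g) * x = h⁻¹ * (g * x) := by group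
        _ = h⁻¹ * (h * x * h⁻¹ * g) := by rw [e2]
        _ = x * (h⁻¹ * g) := by group
    apply no_swap (h⁻¹ * g) hzM hz1
    intro p hp1 hp2
    by_contra hne
    have hq1 : (h⁻¹ * g) p ≠ none := by
      intro hc
      rw [← hz2] at hc
      exact hp2 ((h⁻¹ * g).injective hc)
    have hq2 : (h⁻¹ * g) p ≠ some 0 := by
      intro hc
      rw [← hz1] at hc
      exact hp1 ((h⁻¹ * g).injective hc)
    obtain ⟨r, hr1, hr2, hr3, hr4⟩ := exists_fifth none (some 0) p ((h⁻¹ * g) p)
    let e₁ : Fin 5 ↪ GolayPt := ⟨![none, some 0, p, (h⁻¹ * g) p, r],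
      inj5 (by decide) (Ne.symm hp1) (Ne.symm hq1) (Ne.symm hr1) (Ne.symm hp2) (Ne.symm hq2)
        (Ne.symm hr2) (Ne.symm hne) (Ne.symm hr3) (Ne.symm hr4)⟩
    let e₂ : Fin 5 ↪ GolayPt := ⟨![none, some 0, p, r, (h⁻¹ * g) p],
      inj5 (by decide) (Ne.symm hp1) (Ne.symm hr1) (Ne.symm hq1) (Ne.symm hp2) (Ne.symm hr2)
        (Ne.symm hq2) (Ne.symm hr3) (Ne.symm hne) hr4⟩
    obtain ⟨x, hxM, hx⟩ := exists_map_emb5 e₁ e₂
    have x0 : x none = none := hx 0
    have x1 : x (some 0) = some 0 := hx 1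
    have x2 : x p = p := hx 2
    have x3 : x ((h⁻¹ * g) p) = r := hx 3
    have hxm : x ∈ M22 := mem_M22.mpr ⟨hxM, x0, x1⟩
    have hc := congrArg (fun f : Equiv.Perm GolayPt => f p) (hcomm x hxm)
    have hc' : (h⁻¹ * g) (x p) = x ((h⁻¹ * g) p) := hc
    rw [x2, x3] at hc'
    exact hr4 hc'.symm

end Cfsg.Agent.S5599
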