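import Cfsg.Statements.S5601
import Cfsg.Agent.H94.EltConj

set_option autoImplicit false
open scoped Pointwise
open Cfsg

namespace Cfsg.Agent.S5601

open Cfsg.Agent.H9 Cfsg.Agent.H33 Cfsg.Agent.H94
open scoped Pointwise

/-- the set of common fixed points of a subgroup -/
def fixSet (X : Subgroup ↥M24) : Set GolayPt :=
  {p : GolayPt | ∀ x ∈ X, ((x : ↥M24) : Equiv.Perm GolayPt) p = p}

theorem exists_gen (X : Subgroup ↥M24) (hX : Nat.card X = 3) :
    ∃ x : ↥M24, orderOf x = 3 ∧ X = Subgroup.zpowers x := by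
  haveI : Finite X := Nat.finite_of_card_ne_zero (by rw [hX]; norm_num)
  have hne : X ≠ ⊥ := by
    intro h
    rw [h, Subgroup.card_bot] at hX
    norm_num at hX
  obtain ⟨x, hx1⟩ := (Subgroup.ne_bot_iff_exists_ne_one).mp hne
  have hx' : (x : ↥M24) ≠ 1 := fun h => hx1 (Subtype.ext h)
  have hd : orderOf (x : ↥M24) ∣ 3 := by
    rw [← hX]
    exact Subgroup.orderOf_dvd_natCard X x.2
  have h3 : orderOf (x : ↥M24) = 3 := by
    rcases (Nat.dvd_prime (by norm_num : Nat.Prime 3)).mp hd with h | h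
    · exact absurd (orderOf_eq_one_iff.mp h) hx'
    · exact h
  refine ⟨x, h3, ?_⟩
  symm
  apply Subgroup.eq_of_le_of_card_ge
  · rw [Subgroup.zpowers_le]
    exact x.2
  · rw [Nat.card_zpowers, h3, hX]

theorem fixSet_zpowers (x : ↥M24) :
    fixSet (Subgroup.zpowers x)
      = ((Finset.univ.filter fun p => (x : Equiv.Perm GolayPt) p = p : Finset GolayPt) :
        Set GolayPt) := by
  ext p
  rw [Finset.mem_coe, Finset.mem_filter]
  simp only [Finset.mem_univ, true_and]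
  constructor
  · intro h
    exact h x (Subgroup.mem_zpowers x)
  · intro h z hz
    obtain ⟨n, rfl⟩ := Subgroup.mem_zpowers_iff.mp hz
    rw [Subgroup.coe_zpow]
    exact Equiv.Perm.zpow_apply_eq_self_of_apply_eq_self h n

theorem ncard_fixSet_zpowers (x : ↥M24) :
    (fixSet (Subgroup.zpowers x)).ncard
      = (Finset.univ.filter fun p => (x : Equiv.Perm GolayPt) p = p).card := by
  rw [fixSet_zpowers, Set.ncard_coe_finset]

theorem conj_zpowers (x y k : ↥M24) (h : k * x * k⁻¹ = y) :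
    MulAut.conj k • Subgroup.zpowers x = Subgroup.zpowers y := by
  change Subgroup.map (MulDistribMulAction.toMonoidHom ↥M24 (MulAut.conj k))
    (Subgroup.zpowers x) = _
  rw [MonoidHom.map_zpowers]
  congr 1

theorem conj_of_same {k1 k2 g h r : Equiv.Perm GolayPt} (h1 : k1 * g * k1⁻¹ = r)
    (h2 : k2 * h * k2⁻¹ = r) : (k2⁻¹ * k1) * g * (k2⁻¹ * k1)⁻¹ = h := by
  have e : h = k2⁻¹ * r * k2 := by
    rw [← h2]
    group
  rw [e, ← h1]
  group

theorem card_zp (x : ↥M24) (h : orderOf x = 3) : Nat.card (Subgroup.zpowers x) = 3 := by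
  rw [Nat.card_zpowers, h]


/-- The group of the length-24 code has exactly two conjugacy classes of subgroups of order 3: a subgroup of order 3 fixes either exactly 6 of the 24 points or none of them, both cases occur, and two subgroups of order 3 with the same number of fixed points are conjugate. -/
theorem result : (∀ X : Subgroup ↥Cfsg.M24, Nat.card X = 3 → {p : Cfsg.GolayPt | ∀ x ∈ X, ((x : ↥Cfsg.M24) : Equiv.Perm Cfsg.GolayPt) p = p}.ncard = 6 ∨ {p : Cfsg.GolayPt | ∀ x ∈ X, ((x : ↥Cfsg.M24) : Equiv.Perm Cfsg.GolayPt) p = p}.ncard = 0) ∧ (∃ X : Subgroup ↥Cfsg.M24, Nat.card X = 3 ∧ {p : Cfsg.GolayPt | ∀ x ∈ X, ((x : ↥Cfsg.M24) : Equiv.Perm Cfsg.GolayPt) p = p}.ncard = 6) ∧ (∃ X : Subgroup ↥Cfsg.M24, Nat.card X = 3 ∧ {p : Cfsg.GolayPt | ∀ x ∈ X, ((x : ↥Cfsg.M24) : Equiv.Perm Cfsg.GolayPt) p = p}.ncard = 0) ∧ ∀ X Y : Subgroup ↥Cfsg.M24, Nat.card X = 3 → Nat.card Y = 3 → {p : Cfsg.GolayPt | ∀ x ∈ X, ((x : ↥Cfsg.M24) : Equiv.Perm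 Cfsg.GolayPt) p = p}.ncard = {p : Cfsg.GolayPt | ∀ x ∈ Y, ((x : ↥Cfsg.M24) : Equiv.Perm Cfsg.GolayPt) p = p}.ncard → ∃ k : ↥Cfsg.M24, MulAut.conj k • X = Y := by
  refine ⟨?_, ?_, ?_, ?_⟩
  · intro X hX
    obtain ⟨x, hx3, rfl⟩ := exists_gen X hX
    have h3 : orderOf (x : Equiv.Perm GolayPt) = 3 := by rw [Subgroup.orderOf_coe, hx3]
    have e := ncard_fixSet_zpowers x
    unfold fixSet at e
    rw [e]
    rcases ord3_facts x.2 h3 with ⟨h6, -⟩ | ⟨h0, -⟩
    · exact Or.inl h6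
    · exact Or.inr h0
  · refine ⟨Subgroup.zpowers ⟨t6e, t6e_mem⟩, card_zp _ (by rw [Subgroup.orderOf_mk, t6e_order]),
      ?_⟩
    have e := ncard_fixSet_zpowers ⟨t6e, t6e_mem⟩
    unfold fixSet at e
    rw [e]
    exact t6e_fix
  · refine ⟨Subgroup.zpowers ⟨t0e, t0e_mem⟩, card_zp _ (by rw [Subgroup.orderOf_mk, t0e_order]),
      ?_⟩
    have e := ncard_fixSet_zpowers ⟨t0e, t0e_mem⟩
    unfold fixSet at e
    rw [e]
    exact t0e_fix
  · intro X Y hX hY hXY
    obtain ⟨x, hx3, rfl⟩ := exists_gen X hX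
    obtain ⟨y, hy3, rfl⟩ := exists_gen Y hY
    have ex := ncard_fixSet_zpowers x
    have ey := ncard_fixSet_zpowers y
    unfold fixSet at ex ey
    rw [ex, ey] at hXY
    have h3x : orderOf (x : Equiv.Perm GolayPt) = 3 := by rw [Subgroup.orderOf_coe, hx3]
    have h3y : orderOf (y : Equiv.Perm GolayPt) = 3 := by rw [Subgroup.orderOf_coe, hy3]
    obtain ⟨k1, hk1, hc1⟩ := ord3_conj x.2 h3x
    obtain ⟨k2, hk2, hc2⟩ := ord3_conj y.2 h3y
    have key : ∀ {r : Equiv.Perm GolayPt}, k1 * (x : Equiv.Perm GolayPt) * k1⁻¹ = r →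
        k2 * (y : Equiv.Perm GolayPt) * k2⁻¹ = r →
        ∃ k : ↥M24, MulAut.conj k • Subgroup.zpowers x = Subgroup.zpowers y := by
      intro r e1 e2
      refine ⟨⟨k2⁻¹ * k1, mul_mem (inv_mem hk2) hk1⟩, conj_zpowers x y _ ?_⟩
      apply Subtype.ext
      exact conj_of_same e1 e2
    have f6 : ∀ {f k : Equiv.Perm GolayPt}, k * f * k⁻¹ = t6e →
        (Finset.univ.filter fun p => f p = p).card = 6 := by
      intro f k e
      rw [← fix_card_conj' k f, e]
      exact t6e_fix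
    have f0 : ∀ {f k : Equiv.Perm GolayPt}, k * f * k⁻¹ = t0e →
        (Finset.univ.filter fun p => f p = p).card = 0 := by
      intro f k e
      rw [← fix_card_conj' k f, e]
      exact t0e_fix
    rcases hc1 with hc1 | hc1 <;> rcases hc2 with hc2 | hc2
    · exact key hc1 hc2
    · have a := f6 hc1
      have b := f0 hc2
      omega
    · have a := f0 hc1
      have b := f6 hc2
      omega
    · exact key hc1 hc2

end Cfsg.Agent.S5601
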