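import Cfsg.Statements.S5606
import Cfsg.Agent.H94.EltCls

set_option autoImplicit false
open scoped Pointwise
open Cfsg

namespace Cfsg.Agent.S5606

open Cfsg.Agent.H9 Cfsg.Agent.H33 Cfsg.Agent.H94

theorem fix_zero {g : Equiv.Perm GolayPt} (h₀ : ∀ p, g p ≠ p) :
    (Finset.univ.filter fun p => g p = p).card = 0 := by
  rw [Finset.card_eq_zero, Finset.filter_eq_empty_iff]
  intro p _
  exact h₀ p

/-- A fixed-point-free involution of the group of the length-24 code maps to themselves exactly 15 octads, exactly 75 trios and exactly 51 sextets. -/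
theorem result (g : Equiv.Perm Cfsg.GolayPt) (hg : g ∈ Cfsg.M24) (h₂ : orderOf g = 2) (h₀ : ∀ p, g p ≠ p) : {o : Finset Cfsg.GolayPt | o ∈ Cfsg.octads ∧ g • o = o}.ncard = 15 ∧ {T : Finset (Finset Cfsg.GolayPt) | T ∈ Cfsg.trios ∧ g • T = T}.ncard = 75 ∧ {S : Finset (Finset Cfsg.GolayPt) | S ∈ Cfsg.sextets ∧ g • S = S}.ncard = 51 := by
  have hz := fix_zero h₀
  rcases invol_facts hg h₂ with ⟨h8, -⟩ | ⟨-, a, b, c⟩
  · omega
  · exact ⟨a, b, c⟩

end Cfsg.Agent.S5606
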