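import Cfsg.Statements.S5609
import Cfsg.Agent.S0359
import Cfsg.Agent.S0363
import Cfsg.Agent.H33.Sextet

set_option autoImplicit false

namespace Cfsg.Agent.S5609

open Cfsg Cfsg.Agent.H33

theorem hW : WeightHyp := Cfsg.Agent.S0359.result

theorem hS : SteinerHyp := Cfsg.Agent.S0363.result

/-- the tetrads of a sextet are pairwise disjoint -/
theorem sextet_disjoint {S : Finset (Finset GolayPt)} (hSx : S ∈ sextets) {t u : Finset GolayPt}
    (ht : t ∈ S) (hu : u ∈ S) (htu : t ≠ u) : Disjoint t u := by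
  have hoct := hSx.2.2 t ht u hu htu
  rw [← Finset.card_union_eq_card_add_card, hoct.2, hSx.2.1 t ht, hSx.2.1 u hu]

/-- two octads meeting in four points have a common disjoint octad -/
theorem exists_disjoint_of_four {o o' : Finset GolayPt} (ho : o ∈ octads) (ho' : o' ∈ octads)
    (h4 : (o ∩ o').card = 4) : ∃ a ∈ octads, Disjoint a o ∧ Disjoint a o' := by
  classical
  set t := o ∩ o' with ht
  have hSx := sextetOf_mem_sextets hW hS t h4
  have ht_mem := self_mem_sextetOf t
  have h1 : o \ t ∈ sextetOf t :=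
    mem_sextetOf.mpr (Or.inr ⟨o, ⟨ho, Finset.inter_subset_left⟩, rfl⟩)
  have h2 : o' \ t ∈ sextetOf t :=
    mem_sextetOf.mpr (Or.inr ⟨o', ⟨ho', Finset.inter_subset_right⟩, rfl⟩)
  have hRcard0 : 3 ≤ ((((sextetOf t).erase t).erase (o \ t)).erase (o' \ t)).card := by
    have e0 := hSx.1
    have e1 := Finset.pred_card_le_card_erase (s := sextetOf t) (a := t)
    have e2 := Finset.pred_card_le_card_erase (s := (sextetOf t).erase t) (a := o \ t)
    have e3 := Finset.pred_card_le_card_erase (s := ((sextetOf t).erase t).erase (o \ t))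
      (a := o' \ t)
    omega
  set R := (((sextetOf t).erase t).erase (o \ t)).erase (o' \ t) with hR
  have hRcard : 3 ≤ R.card := hRcard0
  obtain ⟨u, hu, v, hv, huv⟩ := Finset.one_lt_card.1 (by omega : 1 < R.card)
  simp only [hR, Finset.mem_erase] at hu hv
  obtain ⟨hu3, hu2, hu1, hu0⟩ := hu
  obtain ⟨hv3, hv2, hv1, hv0⟩ := hv
  have eo : o = t ∪ (o \ t) := (Finset.union_sdiff_of_subset Finset.inter_subset_left).symm
  have eo' : o' = t ∪ (o' \ t) := (Finset.union_sdiff_of_subset Finset.inter_subset_right).symm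
  refine ⟨u ∪ v, hSx.2.2 u hu0 v hv0 huv, ?_, ?_⟩
  · rw [eo, Finset.disjoint_union_left, Finset.disjoint_union_right, Finset.disjoint_union_right]
    exact ⟨⟨sextet_disjoint hSx hu0 ht_mem hu1, sextet_disjoint hSx hu0 h1 hu2⟩,
      ⟨sextet_disjoint hSx hv0 ht_mem hv1, sextet_disjoint hSx hv0 h1 hv2⟩⟩
  · rw [eo', Finset.disjoint_union_left, Finset.disjoint_union_right, Finset.disjoint_union_right]
    exact ⟨⟨sextet_disjoint hSx hu0 ht_mem hu1, sextet_disjoint hSx hu0 h2 hu3⟩,
      ⟨sextet_disjoint hSx hv0 ht_mem hv1, sextet_disjoint hSx hv0 h2 hv3⟩⟩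

/-- two octads meeting in two points have no common disjoint octad -/
theorem no_disjoint_of_two {o o' : Finset GolayPt} (ho : o ∈ octads) (ho' : o' ∈ octads)
    (h2 : (o ∩ o').card = 2) (a : Finset GolayPt) (ha : a ∈ octads) (h1 : Disjoint a o)
    (h2' : Disjoint a o') : False := by
  classical
  have hcard : (symmDiff o o').card = 12 := by
    have := card_symmDiff_add o o'
    rw [ho.2, ho'.2, h2] at this
    omega
  have hda : Disjoint a (symmDiff o o') := by
    rw [symmDiff_def, Finset.sup_eq_union, Finset.disjoint_union_right]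
    exact ⟨h1.mono_right Finset.sdiff_subset, h2'.mono_right Finset.sdiff_subset⟩
  have h3 := gc_card hW (gc_symmDiff ha.1 (gc_symmDiff ho.1 ho'.1))
  have h4 := card_symmDiff_add a (symmDiff o o')
  rw [Finset.disjoint_iff_inter_eq_empty.1 hda, Finset.card_empty, ha.2, hcard] at h4
  omega

/-- for two octads meeting in two points, there is an octad disjoint from the first and
meeting the second in four points -/
theorem exists_mid_of_two {o o' : Finset GolayPt} (ho : o ∈ octads) (ho' : o' ∈ octads)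
    (h2 : (o ∩ o').card = 2) : ∃ a ∈ octads, Disjoint a o ∧ (a ∩ o').card = 4 := by
  classical
  have h6 : (o' \ o).card = 6 := by
    have := Finset.card_sdiff_add_card_inter o' o
    rw [Finset.inter_comm, h2, ho'.2] at this
    omega
  obtain ⟨t, ht, ht4⟩ := Finset.exists_subset_card_eq (by omega : 4 ≤ (o' \ o).card)
  have hto' : t ⊆ o' := ht.trans Finset.sdiff_subset
  have hto : Disjoint t o := Finset.disjoint_of_subset_left ht Finset.sdiff_disjoint
  have htne : t.Nonempty := by rw [← Finset.card_pos, ht4]; norm_num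
  have hSx := sextetOf_mem_sextets hW hS t ht4
  have ht_mem := self_mem_sextetOf t
  have hw : o' \ t ∈ sextetOf t := mem_sextetOf.mpr (Or.inr ⟨o', ⟨ho', hto'⟩, rfl⟩)
  have htw : t ≠ o' \ t := by
    intro h
    obtain ⟨x, hx⟩ := htne
    have hx' := hx
    rw [h, Finset.mem_sdiff] at hx'
    exact hx'.2 hx
  set R := ((sextetOf t).erase t).erase (o' \ t) with hR
  have hRcard : R.card = 4 := by
    rw [hR, Finset.card_erase_of_mem (Finset.mem_erase.2 ⟨Ne.symm htw, hw⟩),
      Finset.card_erase_of_mem ht_mem, hSx.1]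
  have hRmem : ∀ u ∈ R, u ∈ sextetOf t ∧ u ≠ t ∧ u ≠ o' \ t := by
    intro u hu
    simp only [hR, Finset.mem_erase] at hu
    exact ⟨hu.2.2, hu.2.1, hu.1⟩
  have eo' : o' = t ∪ (o' \ t) := (Finset.union_sdiff_of_subset hto').symm
  have hRo' : ∀ u ∈ R, Disjoint u o' := by
    intro u hu
    obtain ⟨hu0, hu1, hu2⟩ := hRmem u hu
    rw [eo', Finset.disjoint_union_right]
    exact ⟨sextet_disjoint hSx hu0 ht_mem hu1, sextet_disjoint hSx hu0 hw hu2⟩
  have hex : ∃ u ∈ R, (u ∩ o).card = 0 := by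
    by_contra hcon
    push Not at hcon
    have hge : ∀ u ∈ R, 2 ≤ (u ∩ o).card := by
      intro u hu
      obtain ⟨hu0, hu1, hu2⟩ := hRmem u hu
      have hoct : t ∪ u ∈ octads := hSx.2.2 t ht_mem u hu0 (Ne.symm hu1)
      have hne : t ∪ u ≠ o := by
        intro h
        obtain ⟨x, hx⟩ := htne
        have : x ∈ o := by rw [← h]; exact Finset.mem_union_left _ hx
        exact Finset.disjoint_left.1 hto hx this
      have hic := octad_inter_card hW hoct ho hne
      have e : (t ∪ u) ∩ o = u ∩ o := by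
        rw [Finset.union_inter_distrib_right, Finset.disjoint_iff_inter_eq_empty.1 hto,
          Finset.empty_union]
      rw [e] at hic
      have := hcon u hu
      omega
    have hsum : 2 * R.card ≤ ∑ u ∈ R, (u ∩ o).card := by
      have := Finset.card_nsmul_le_sum R (fun u => (u ∩ o).card) 2 hge
      rw [smul_eq_mul] at this
      omega
    have hbi : (R.biUnion (fun u => u ∩ o)).card = ∑ u ∈ R, (u ∩ o).card := by
      apply Finset.card_biUnion
      intro u hu v hv huv
      obtain ⟨hu0, -, -⟩ := hRmem u hu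
      obtain ⟨hv0, -, -⟩ := hRmem v hv
      exact (sextet_disjoint hSx hu0 hv0 huv).mono Finset.inter_subset_left Finset.inter_subset_left
    have hsub : R.biUnion (fun u => u ∩ o) ⊆ o \ o' := by
      intro x hx
      rw [Finset.mem_biUnion] at hx
      obtain ⟨u, hu, hxu⟩ := hx
      rw [Finset.mem_inter] at hxu
      rw [Finset.mem_sdiff]
      exact ⟨hxu.2, fun h => Finset.disjoint_left.1 (hRo' u hu) hxu.1 h⟩
    have h6' : (o \ o').card = 6 := by
      have := Finset.card_sdiff_add_card_inter o o'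
      rw [h2, ho.2] at this
      omega
    have := Finset.card_le_card hsub
    omega
  obtain ⟨u, hu, hu0⟩ := hex
  obtain ⟨hu1, hu2, hu3⟩ := hRmem u hu
  refine ⟨t ∪ u, hSx.2.2 t ht_mem u hu1 (Ne.symm hu2), ?_, ?_⟩
  · rw [Finset.disjoint_union_left]
    refine ⟨hto, ?_⟩
    rw [Finset.disjoint_iff_inter_eq_empty]
    exact Finset.card_eq_zero.1 hu0
  · have e : (t ∪ u) ∩ o' = t := by
      rw [Finset.union_inter_distrib_right, Finset.disjoint_iff_inter_eq_empty.1 (hRo' u hu),
        Finset.union_empty]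
      exact Finset.inter_eq_left.2 hto'
    rw [e, ht4]

theorem octad_nonempty {o : Finset GolayPt} (ho : o ∈ octads) : o.Nonempty := by
  rw [← Finset.card_pos, ho.2]
  norm_num

theorem adj_iff {a b : Finset GolayPt} (ha : a ∈ octads) (hb : b ∈ octads) :
    (blockGraph octads).Adj ⟨a, ha⟩ ⟨b, hb⟩ ↔ Disjoint a b := by
  unfold blockGraph
  rw [SimpleGraph.fromRel_adj]
  constructor
  · rintro ⟨-, h | h⟩
    · exact h
    · exact h.symm
  · intro h
    refine ⟨?_, Or.inl h⟩
    intro heq
    have : a = b := congrArg Subtype.val heq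
    subst this
    obtain ⟨x, hx⟩ := octad_nonempty ha
    exact Finset.disjoint_left.1 h hx hx

theorem inter_zero_iff {a b : Finset GolayPt} : (a ∩ b).card = 0 ↔ Disjoint a b := by
  rw [Finset.card_eq_zero, Finset.disjoint_iff_inter_eq_empty]

theorem edist_of_zero {o o' : Finset GolayPt} (ho : o ∈ octads) (ho' : o' ∈ octads)
    (h : (o ∩ o').card = 0) : (blockGraph octads).edist ⟨o, ho⟩ ⟨o', ho'⟩ = 1 := by
  rw [SimpleGraph.edist_eq_one_iff_adj, adj_iff]
  exact inter_zero_iff.1 h

theorem edist_of_four {o o' : Finset GolayPt} (ho : o ∈ octads) (ho' : o' ∈ octads)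
    (h : (o ∩ o').card = 4) : (blockGraph octads).edist ⟨o, ho⟩ ⟨o', ho'⟩ = 2 := by
  rw [SimpleGraph.edist_eq_two_iff]
  refine ⟨?_, ?_, ?_⟩
  · intro heq
    have : o = o' := congrArg Subtype.val heq
    subst this
    rw [Finset.inter_self, ho.2] at h
    omega
  · rw [adj_iff, ← inter_zero_iff]
    omega
  · obtain ⟨a, ha, h1, h2⟩ := exists_disjoint_of_four ho ho' h
    refine ⟨⟨a, ha⟩, ?_⟩
    rw [SimpleGraph.mem_commonNeighbors, adj_iff, adj_iff]
    exact ⟨h1.symm, h2.symm⟩

theorem edist_of_two {o o' : Finset GolayPt} (ho : o ∈ octads) (ho' : o' ∈ octads)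
    (h : (o ∩ o').card = 2) : (blockGraph octads).edist ⟨o, ho⟩ ⟨o', ho'⟩ = 3 := by
  apply le_antisymm
  · obtain ⟨a, ha, h1, h2⟩ := exists_mid_of_two ho ho' h
    obtain ⟨b, hb, h3, h4⟩ := exists_disjoint_of_four ha ho' h2
    have := SimpleGraph.edist_le (SimpleGraph.Walk.cons ((adj_iff ho ha).2 h1.symm)
        (SimpleGraph.Walk.cons ((adj_iff ha hb).2 h3.symm)
          (SimpleGraph.Walk.cons ((adj_iff hb ho').2 h4) SimpleGraph.Walk.nil)))
    simp only [SimpleGraph.Walk.length_cons, SimpleGraph.Walk.length_nil] at this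
    exact_mod_cast this
  · have h2lt : 2 < (blockGraph octads).edist ⟨o, ho⟩ ⟨o', ho'⟩ := by
      rw [SimpleGraph.two_lt_edist_iff]
      refine ⟨?_, ?_, ?_⟩
      · intro heq
        have : o = o' := congrArg Subtype.val heq
        subst this
        rw [Finset.inter_self, ho.2] at h
        omega
      · rw [adj_iff, ← inter_zero_iff]
        omega
      · rw [Set.eq_empty_iff_forall_notMem]
        rintro ⟨a, ha⟩ hmem
        rw [SimpleGraph.mem_commonNeighbors, adj_iff, adj_iff] at hmem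
        exact no_disjoint_of_two ho ho' h a ha hmem.1.symm hmem.2.symm
    have := Order.add_one_le_of_lt h2lt
    have e : (2 : ℕ∞) + 1 = 3 := by norm_num
    rwa [e] at this

theorem dist_of_edist {u v : octads} {k : ℕ} (h : (blockGraph octads).edist u v = k) :
    (blockGraph octads).dist u v = k := by
  unfold SimpleGraph.dist
  rw [h]
  rfl

theorem result (o o' : Finset Cfsg.GolayPt) (ho : o ∈ Cfsg.octads) (ho' : o' ∈ Cfsg.octads) (hne : o ≠ o') : (Cfsg.blockGraph Cfsg.octads).Connected ∧ ((Cfsg.blockGraph Cfsg.octads).dist ⟨o, ho⟩ ⟨o', ho'⟩ = 1 ↔ (o ∩ o').card = 0) ∧ ((Cfsg.blockGraph Cfsg.octads).dist ⟨o, ho⟩ ⟨o', ho'⟩ = 2 ↔ (o ∩ o').card = 4) ∧ ((Cfsg.blockGraph Cfsg.octads).dist ⟨o, ho⟩ ⟨o', ho'⟩ = 3 ↔ (o ∩ o').card = 2) := by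
  have d0 : (o ∩ o').card = 0 → (blockGraph octads).dist ⟨o, ho⟩ ⟨o', ho'⟩ = 1 := fun h =>
    dist_of_edist (k := 1) (by exact_mod_cast edist_of_zero ho ho' h)
  have d4 : (o ∩ o').card = 4 → (blockGraph octads).dist ⟨o, ho⟩ ⟨o', ho'⟩ = 2 := fun h =>
    dist_of_edist (k := 2) (by exact_mod_cast edist_of_four ho ho' h)
  have d2 : (o ∩ o').card = 2 → (blockGraph octads).dist ⟨o, ho⟩ ⟨o', ho'⟩ = 3 := fun h =>
    dist_of_edist (k := 3) (by exact_mod_cast edist_of_two ho ho' h)
  have hcases := octad_inter_card hW ho ho' hne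
  refine ⟨?_, ⟨?_, d0⟩, ⟨?_, d4⟩, ⟨?_, d2⟩⟩
  · -- connectedness
    have : Nonempty octads := ⟨⟨o, ho⟩⟩
    refine ⟨?_⟩
    rintro ⟨a, ha⟩ ⟨b, hb⟩
    by_cases hab : a = b
    · subst hab
      exact SimpleGraph.Reachable.refl _
    · apply SimpleGraph.reachable_of_edist_ne_top
      rcases octad_inter_card hW ha hb hab with h | h | h
      · rw [edist_of_zero ha hb h]; exact ENat.one_ne_top
      · rw [edist_of_two ha hb h]; exact ENat.coe_ne_top 3
      · rw [edist_of_four ha hb h]; exact ENat.coe_ne_top 2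
  · intro h
    rcases hcases with h' | h' | h'
    · exact h'
    · rw [d2 h'] at h; omega
    · rw [d4 h'] at h; omega
  · intro h
    rcases hcases with h' | h' | h'
    · rw [d0 h'] at h; omega
    · rw [d2 h'] at h; omega
    · exact h'
  · intro h
    rcases hcases with h' | h' | h'
    · rw [d0 h'] at h; omega
    · exact h'
    · rw [d4 h'] at h; omega

end Cfsg.Agent.S5609
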