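import Cfsg.Statements.S5611
import Cfsg.Agent.H94.D5611

set_option autoImplicit false
open scoped Pointwise
open Cfsg

namespace Cfsg.Agent.S5611

open Cfsg.Agent.H9 Cfsg.Agent.H33 Cfsg.Agent.H94

theorem dec_octads : Decomp (sextObj 0) octads 3 (fun c => d11oN.getD c 0) :=
  decomp_oct (sextObj 0) (sextL 0) (sextL_ok 0 (by norm_num)) (fun g _ h => h)
    (stabL (sextL 0)) (fun g hg => hg) d11G d11Ng d11oF d11oR d11oV d11oN
    (gensL_sound d11G_ok) d11o_ok (by decide) rfl (by decide) d11o_V d11o_N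

theorem dec_trios : Decomp (sextObj 0) trios 4 (fun c => d11tN.getD c 0) :=
  decomp_trio (sextObj 0) (sextL 0) (sextL_ok 0 (by norm_num)) (fun g _ h => h)
    (stabL (sextL 0)) (fun g hg => hg) d11G d11Ng d11tF d11tR d11tV d11tN
    (gensL_sound d11G_ok) d11t_ok (by decide) rfl (by decide) d11t_V d11t_N


/-- The stabiliser of a sextet in the group of the length-24 code has exactly three orbits on the 759 octads, of sizes 15, 360 and 384, and exactly four orbits on the 3795 trios, of sizes 15, 180, 720 and 2880. -/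
theorem result (S : Finset (Finset Cfsg.GolayPt)) (hS : S ∈ Cfsg.sextets) : (∃ X₁ ∈ Cfsg.octads, ∃ X₂ ∈ Cfsg.octads, ∃ X₃ ∈ Cfsg.octads, (MulAction.orbit ↥(MulAction.stabilizer Cfsg.M24 S) X₁).ncard = 15 ∧ (MulAction.orbit ↥(MulAction.stabilizer Cfsg.M24 S) X₂).ncard = 360 ∧ (MulAction.orbit ↥(MulAction.stabilizer Cfsg.M24 S) X₃).ncard = 384 ∧ Cfsg.octads = MulAction.orbit ↥(MulAction.stabilizer Cfsg.M24 S) X₁ ∪ MulAction.orbit ↥(MulAction.stabilizer Cfsg.M24 S) X₂ ∪ MulAction.orbit ↥(MulAction.stabilizer Cfsg.M24 S) X₃) ∧ (∃ Y₁ ∈ Cfsg.trios, ∃ Y₂ ∈ Cfsg.trios, ∃ Y₃ ∈ Cfsg.trios, ∃ Y₄ ∈ Cfsg.trios, (MulAction.orbit ↥(MulAction.stabilizer Cfsg.M24 S) Y₁).ncard = 15 ∧ (MulAction.orbit ↥(MulAction.stabilizer Cfsg.M24 S) Y₂).ncard = 180 ∧ (MulAction.orbit ↥(MulAction.stabilizer Cfsg.M24 S) Y₃).ncard = 720 ∧ (MulAction.orbit ↥(MulAction.stabilizer Cfsg.M24 S) Y₄).ncard = 2880 ∧ Cfsg.trios = MulAction.orbit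 ↥(MulAction.stabilizer Cfsg.M24 S) Y₁ ∪ MulAction.orbit ↥(MulAction.stabilizer Cfsg.M24 S) Y₂ ∪ MulAction.orbit ↥(MulAction.stabilizer Cfsg.M24 S) Y₃ ∪ MulAction.orbit ↥(MulAction.stabilizer Cfsg.M24 S) Y₄) := by
  obtain ⟨a, ha, rfl⟩ := exists_smul_sext0 hS
  exact ⟨(dec_octads.smul (fun g hg z hz => m24_smul_mem_octads hg hz) ha).three,
    (dec_trios.smul (fun g hg z hz => smul_mem_trios hg hz) ha).four⟩

end Cfsg.Agent.S5611
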