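import Cfsg.Statements.S5612
import Cfsg.Agent.H94.D5612

set_option autoImplicit false
open scoped Pointwise
open Cfsg

namespace Cfsg.Agent.S5612

open Cfsg.Agent.H9 Cfsg.Agent.H33 Cfsg.Agent.H94

theorem dec_octads : Decomp (trioObj 0) octads 3 (fun c => d12oN.getD c 0) :=
  decomp_oct (trioObj 0) (trioL 0) (trioL_ok 0 (by norm_num)) (fun g _ h => h)
    (stabL (trioL 0)) (fun g hg => hg) d12G d12Ng d12oF d12oR d12oV d12oN
    (gensL_sound d12G_ok) d12o_ok (by decide) rfl (by decide) d12o_V d12o_N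

theorem dec_sextets : Decomp (trioObj 0) sextets 4 (fun c => d12sN.getD c 0) :=
  decomp_sext (trioObj 0) (trioL 0) (trioL_ok 0 (by norm_num)) (fun g _ h => h)
    (stabL (trioL 0)) (fun g hg => hg) d12G d12Ng d12sF d12sR d12sV d12sN
    (gensL_sound d12G_ok) d12s_ok (by decide) rfl (by decide) d12s_V d12s_N


/-- The stabiliser of a trio in the group of the length-24 code has exactly three orbits on the 759 octads, of sizes 3, 84 and 672, and exactly four orbits on the 1771 sextets, of sizes 7, 84, 336 and 1344. -/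
theorem result (T : Finset (Finset Cfsg.GolayPt)) (hT : T ∈ Cfsg.trios) : (∃ X₁ ∈ Cfsg.octads, ∃ X₂ ∈ Cfsg.octads, ∃ X₃ ∈ Cfsg.octads, (MulAction.orbit ↥(MulAction.stabilizer Cfsg.M24 T) X₁).ncard = 3 ∧ (MulAction.orbit ↥(MulAction.stabilizer Cfsg.M24 T) X₂).ncard = 84 ∧ (MulAction.orbit ↥(MulAction.stabilizer Cfsg.M24 T) X₃).ncard = 672 ∧ Cfsg.octads = MulAction.orbit ↥(MulAction.stabilizer Cfsg.M24 T) X₁ ∪ MulAction.orbit ↥(MulAction.stabilizer Cfsg.M24 T) X₂ ∪ MulAction.orbit ↥(MulAction.stabilizer Cfsg.M24 T) X₃) ∧ (∃ Y₁ ∈ Cfsg.sextets, ∃ Y₂ ∈ Cfsg.sextets, ∃ Y₃ ∈ Cfsg.sextets, ∃ Y₄ ∈ Cfsg.sextets, (MulAction.orbit ↥(MulAction.stabilizer Cfsg.M24 T) Y₁).ncard = 7 ∧ (MulAction.orbit ↥(MulAction.stabilizer Cfsg.M24 T) Y₂).ncard = 84 ∧ (MulAction.orbit ↥(MulAction.stabilizer Cfsg.M24 T) Y₃).ncard = 336 ∧ (MulAction.orbit ↥(MulAction.stabilizer Cfsg.M24 T) Y₄).ncard = 1344 ∧ Cfsg.sextets =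 MulAction.orbit ↥(MulAction.stabilizer Cfsg.M24 T) Y₁ ∪ MulAction.orbit ↥(MulAction.stabilizer Cfsg.M24 T) Y₂ ∪ MulAction.orbit ↥(MulAction.stabilizer Cfsg.M24 T) Y₃ ∪ MulAction.orbit ↥(MulAction.stabilizer Cfsg.M24 T) Y₄) := by
  obtain ⟨a, ha, rfl⟩ := exists_smul_trio0 hT
  exact ⟨(dec_octads.smul (fun g hg z hz => m24_smul_mem_octads hg hz) ha).three,
    (dec_sextets.smul (fun g hg z hz => smul_mem_sextets hg hz) ha).four⟩

end Cfsg.Agent.S5612
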