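import Cfsg.Statements.S5616
import Cfsg.Agent.H94.D5616

set_option autoImplicit false
open scoped Pointwise
open Cfsg

namespace Cfsg.Agent.S5616

open Cfsg.Agent.H9 Cfsg.Agent.H33 Cfsg.Agent.H94

theorem roots_lt : ∀ c < d16sR.length, d16sR.getD c 1771 < 1771 := by decide

theorem base :
    (∀ c < d16sR.length,
      {z | z ∈ sextets ∧ nu (fs 7) z = d16sV.getD c 0}.ncard = d16sN.getD c 0) ∧
    (∀ z ∈ sextets, ∃ c < d16sR.length, nu (fs 7) z = d16sV.getD c 0) ∧
    (∀ z ∈ sextets, ∀ z' ∈ sextets, nu (fs 7) z = nu (fs 7) z' →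
      ∃ g ∈ M24, g • fs 7 = fs 7 ∧ g • z = z') :=
  fiber_of_forest (fs 7) sextets (fun g hg z hz => smul_mem_sextets hg hz) (stabOf [7])
    (fun g hg => ⟨hg.1, hg.2 7 (List.mem_singleton.mpr rfl)⟩) sextObj 1771 sext_enum sext_mem
    sext_inj sextStep
    (fun P g p k hg hrep hp hk hs => sextStep_sound hg.1 hrep hp hk hs)
    d16G d16Ng d16sF d16sR (gens_sound d16G_ok) d16s_ok (by decide)
    (fun z => nu (fs 7) z)
    (fun g hg hgX z => by
      have h1 : nu (fs 7) (g • z) = nu (g • fs 7) (g • z) := by rw [hgX]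
      rw [h1, nu_smul])
    d16sV d16sN rfl (by decide)
    (fun c hc => by
      show nu (fs 7) (objOf (sextL (d16sR.getD c 1771))) = _
      rw [nu_objOf 7 (sextL_ok _ (roots_lt c hc))]
      exact d16s_V c hc)
    d16s_N

theorem fs7 : fs 7 = {gPt 0, gPt 1, gPt 2} := by decide

theorem exists_smul_fs7 (Y : Finset GolayPt) (hY : Y.card = 3) : ∃ a ∈ M24, a • fs 7 = Y := by
  obtain ⟨y0, y1, y2, h01, h02, h12, rfl⟩ := Finset.card_eq_three.mp hY
  haveI := m24_five_transitive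
  haveI : MulAction.IsMultiplyPretransitive M24 GolayPt 3 :=
    MulAction.isMultiplyPretransitive_of_le (n := 5) (by norm_num)
      (by rw [Nat.card_eq_fintype_card, Cfsg.Agent.H9.card_golayPt]; norm_num)
  let e₁ : Fin 3 ↪ GolayPt := ⟨![gPt 0, gPt 1, gPt 2], by decide⟩
  let e₂ : Fin 3 ↪ GolayPt := ⟨![y0, y1, y2], by
    intro i j h
    fin_cases i <;> fin_cases j <;> simp_all⟩
  obtain ⟨g, hg⟩ := MulAction.exists_smul_eq M24 e₁ e₂
  refine ⟨g.1, g.2, ?_⟩
  have h0 : g.1 (gPt 0) = y0 := congrArg (fun e : Fin 3 ↪ GolayPt => e 0) hg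
  have h1 : g.1 (gPt 1) = y1 := congrArg (fun e : Fin 3 ↪ GolayPt => e 1) hg
  have h2 : g.1 (gPt 2) = y2 := congrArg (fun e : Fin 3 ↪ GolayPt => e 2) hg
  rw [fs7, Finset.smul_finset_insert, Finset.smul_finset_insert, Finset.smul_finset_singleton]
  show {g.1 (gPt 0), g.1 (gPt 1), g.1 (gPt 2)} = _
  rw [h0, h1, h2]

theorem fiber_smul (a : Equiv.Perm GolayPt) (ha : a ∈ M24) (Y : Finset GolayPt) (j : ℕ) :
    {S : Finset (Finset GolayPt) | S ∈ sextets ∧ nu (a • Y) S = j}.ncard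
      = {S : Finset (Finset GolayPt) | S ∈ sextets ∧ nu Y S = j}.ncard := by
  have h : {S : Finset (Finset GolayPt) | S ∈ sextets ∧ nu (a • Y) S = j}
      = (fun S => a • S) '' {S : Finset (Finset GolayPt) | S ∈ sextets ∧ nu Y S = j} := by
    ext S
    constructor
    · rintro ⟨hS, hn⟩
      refine ⟨a⁻¹ • S, ⟨smul_mem_sextets (inv_mem ha) hS, ?_⟩, smul_inv_smul a S⟩
      rw [← nu_smul a, smul_inv_smul]
      exact hn
    · rintro ⟨S', ⟨hS', hn⟩, rfl⟩
      exact ⟨smul_mem_sextets ha hS', by rw [nu_smul]; exact hn⟩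
  rw [h, Set.ncard_image_of_injective _ (MulAction.injective a)]


/-- Let Y be a set of 3 of the 24 points. The sextets of the length-24 code whose tetrads meeting Y number 1, 2 or 3 are respectively 21, 630 and 1120 in number, and two sextets with the same number of tetrads meeting Y are conjugate under the setwise stabiliser of Y in the code's group. -/
theorem result (Y : Finset Cfsg.GolayPt) (hY : Y.card = 3) : {S : Finset (Finset Cfsg.GolayPt) | S ∈ Cfsg.sextets ∧ (S.filter fun t => (t ∩ Y).Nonempty).card = 1}.ncard = 21 ∧ {S : Finset (Finset Cfsg.GolayPt) | S ∈ Cfsg.sextets ∧ (S.filter fun t => (t ∩ Y).Nonempty).card = 2}.ncard = 630 ∧ {S : Finset (Finset Cfsg.GolayPt) | S ∈ Cfsg.sextets ∧ (S.filter fun t => (t ∩ Y).Nonempty).card = 3}.ncard = 1120 ∧ ∀ S S' : Finset (Finset Cfsg.GolayPt), S ∈ Cfsg.sextets → S' ∈ Cfsg.sextets → (S.filter fun t => (t ∩ Y).Nonempty).card = (S'.filter fun t => (t ∩ Y).Nonempty).card → ∃ g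 ∈ Cfsg.M24, g • Y = Y ∧ g • S = S' := by
  obtain ⟨a, ha, rfl⟩ := exists_smul_fs7 Y hY
  obtain ⟨h1, -, h3⟩ := base
  refine ⟨?_, ?_, ?_, ?_⟩
  · exact (fiber_smul a ha (fs 7) 1).trans (h1 0 (by decide))
  · exact (fiber_smul a ha (fs 7) 2).trans (h1 1 (by decide))
  · exact (fiber_smul a ha (fs 7) 3).trans (h1 2 (by decide))
  · intro S S' hS hS' hn
    have hn' : nu (fs 7) (a⁻¹ • S) = nu (fs 7) (a⁻¹ • S') := by
      have e1 : nu (a • fs 7) S = nu (fs 7) (a⁻¹ • S) := by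
        rw [← nu_smul a (fs 7) (a⁻¹ • S), smul_inv_smul]
      have e2 : nu (a • fs 7) S' = nu (fs 7) (a⁻¹ • S') := by
        rw [← nu_smul a (fs 7) (a⁻¹ • S'), smul_inv_smul]
      rw [← e1, ← e2]
      exact hn
    obtain ⟨g, hg, hgY, hgS⟩ := h3 _ (smul_mem_sextets (inv_mem ha) hS) _
      (smul_mem_sextets (inv_mem ha) hS') hn'
    refine ⟨a * g * a⁻¹, mul_mem (mul_mem ha hg) (inv_mem ha), ?_, ?_⟩
    · rw [mul_smul, mul_smul, inv_smul_smul, hgY]
    · rw [mul_smul, mul_smul, hgS, smul_inv_smul]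

end Cfsg.Agent.S5616
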