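import Cfsg.Statements.S5617
import Cfsg.Agent.H94.D5617
import Cfsg.Agent.H33.DodStab

set_option autoImplicit false
open scoped Pointwise
open Cfsg

namespace Cfsg.Agent.S5617

open Cfsg.Agent.H9 Cfsg.Agent.H33 Cfsg.Agent.H94

theorem dec_sextets : Decomp (objOf d17L) sextets 3 (fun c => d17sN.getD c 0) :=
  decomp_sext (objOf d17L) d17L (by decide) (fun g _ h => h)
    (stabL d17L) (fun g hg => hg) d17G d17Ng d17sF d17sR d17sV d17sN
    (gensL_sound d17G_ok) d17s_ok (by decide) rfl (by decide) d17s_V d17s_N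

theorem fs_compl0 : fs 0xff9022 = Finset.univ \ fs dodM0 := by
  have h : (0xff9022 : ℕ) = (2 ^ 24 - 1) ^^^ dodM0 := by decide
  rw [h, fs_xor, fs_full]
  ext p
  simp [Finset.mem_symmDiff]

theorem objOf_pair : objOf d17L = {dod0, Finset.univ \ dod0} := by
  have h : objOf d17L = {fs dodM0, fs 0xff9022} := by
    simp [objOf, d17L, dodM0]
  rw [h, fs_compl0]
  rfl

theorem smul_pair (a : Equiv.Perm GolayPt) (d : Finset GolayPt) :
    a • ({d, Finset.univ \ d} : Finset (Finset GolayPt)) = {a • d, Finset.univ \ a • d} := by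
  rw [Finset.smul_finset_insert, Finset.smul_finset_singleton, Finset.smul_finset_sdiff,
    Finset.smul_finset_univ]


/-- The setwise stabiliser, in the group of the length-24 code, of a complementary pair of dodecads has exactly three orbits on the 1771 sextets, of sizes 396, 495 and 880. -/
theorem result (d : Finset Cfsg.GolayPt) (hd : d ∈ Cfsg.dodecads) : ∃ X₁ ∈ Cfsg.sextets, ∃ X₂ ∈ Cfsg.sextets, ∃ X₃ ∈ Cfsg.sextets, (MulAction.orbit ↥(MulAction.stabilizer Cfsg.M24 ({d, Finset.univ \ d} : Finset (Finset Cfsg.GolayPt))) X₁).ncard = 396 ∧ (MulAction.orbit ↥(MulAction.stabilizer Cfsg.M24 ({d, Finset.univ \ d} : Finset (Finset Cfsg.GolayPt))) X₂).ncard = 495 ∧ (MulAction.orbit ↥(MulAction.stabilizer Cfsg.M24 ({d, Finset.univ \ d} : Finset (Finset Cfsg.GolayPt))) X₃).ncard = 880 ∧ Cfsg.sextets = MulAction.orbit ↥(MulAction.stabilizer Cfsg.M24 ({d, Finset.univ \ d} : Finset (Finset Cfsg.GolayPt))) X₁ ∪ MulAction.orbit ↥(MulAction.stabilizer Cfsg.M24 ({d, Finset.univ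 \ d} : Finset (Finset Cfsg.GolayPt))) X₂ ∪ MulAction.orbit ↥(MulAction.stabilizer Cfsg.M24 ({d, Finset.univ \ d} : Finset (Finset Cfsg.GolayPt))) X₃ := by
  obtain ⟨a, ha, rfl⟩ := exists_smul_dod0 hd
  have h := (dec_sextets.smul (fun g hg z hz => smul_mem_sextets hg hz) ha).three
  rw [objOf_pair, smul_pair] at h
  exact h

end Cfsg.Agent.S5617
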