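import Cfsg.Statements.S5620
import Cfsg.Agent.S5594
import Cfsg.Agent.S0372
import Cfsg.Agent.H33.Orbit

set_option autoImplicit false
open scoped Pointwise
open Cfsg

namespace Cfsg.Agent.S5620

open Cfsg.Spor Cfsg.Agent.H9 Cfsg.Agent.H33

/-- a packed element of the group fixing the extra point and the dodecad of squares, moving every
point of that dodecad -/
def XP : ℕ := 0xbadf170ce1a9646a29b0992c84804c

def XQ : ℕ := 0xb95eb3b688acd20b28648b1c690602

theorem XP_inv : chkInv XP XQ = true := by decide +kernel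

theorem XP_m24 : chkM24 XP = true := by decide +kernel

def xe : Equiv.Perm GolayPt := permOf XP XQ XP_inv

theorem xe_rep : Rep XP xe := rep_permOf XP XQ XP_inv

theorem xe_mem : xe ∈ M24 := permOf_mem_M24 XP XQ XP_inv XP_m24

theorem sq_eq : squareDodecad = fs 0x5335f := by
  unfold squareDodecad support₂
  decide

theorem xe_Q : xe • squareDodecad = squareDodecad := by
  rw [sq_eq, smul_fs xe_rep]
  congr 1

theorem xe_none : xe none = none := by
  apply gIdx_injective
  rw [xe_rep none]
  decide +kernel

theorem XP_moves : ∀ i < 24, Nat.testBit 0x5335f i = true → lk XP i ≠ i := by decide +kernel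

theorem xe_moves (q : GolayPt) (hq : q ∈ squareDodecad) : xe q ≠ q := by
  rw [sq_eq, mem_fs] at hq
  intro h
  have h1 := xe_rep q
  rw [h] at h1
  exact XP_moves (gIdx q) (gIdx_lt q) hq h1.symm

theorem zero_mem : (some 0 : GolayPt) ∈ squareDodecad := by
  rw [sq_eq]
  decide

theorem mem_conj {g x : Equiv.Perm GolayPt} {H : Subgroup (Equiv.Perm GolayPt)} :
    x ∈ MulAut.conj g • H ↔ g⁻¹ * x * g ∈ H := by
  rw [Subgroup.mem_pointwise_smul_iff_inv_smul_mem]
  rfl

theorem mem_M12 {x : Equiv.Perm GolayPt} : x ∈ M12 ↔ x ∈ M24 ∧ x • squareDodecad = squareDodecad := by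
  unfold M12
  rw [Subgroup.mem_inf]
  exact Iff.and Iff.rfl MulAction.mem_stabilizer_iff

theorem mem_M11 {x : Equiv.Perm GolayPt} :
    x ∈ M11 ↔ x ∈ M24 ∧ x • squareDodecad = squareDodecad ∧ x (some 0) = some 0 := by
  unfold M11
  rw [Subgroup.mem_inf, mem_M12, and_assoc]
  exact Iff.and Iff.rfl (Iff.and Iff.rfl MulAction.mem_stabilizer_iff)

theorem mem_M11' {x : Equiv.Perm GolayPt} :
    x ∈ M12 ⊓ MulAction.stabilizer (Equiv.Perm GolayPt) (none : GolayPt)
      ↔ x ∈ M24 ∧ x • squareDodecad = squareDodecad ∧ x none = none := by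
  rw [Subgroup.mem_inf, mem_M12, and_assoc]
  exact Iff.and Iff.rfl (Iff.and Iff.rfl MulAction.mem_stabilizer_iff)

theorem projInv_Q : projInv • squareDodecad = Finset.univ \ squareDodecad := by
  ext i
  rw [Finset.mem_smul_finset, Finset.mem_sdiff]
  constructor
  · rintro ⟨j, hj, rfl⟩
    refine ⟨Finset.mem_univ _, ?_⟩
    intro h
    exact (Cfsg.Agent.S5594.Q_swap j).mp hj h
  · rintro ⟨-, hi⟩
    refine ⟨projInv i, ?_, Cfsg.Agent.S5594.projInv_invol i⟩
    by_contra h
    exact hi ((Cfsg.Agent.S5594.Q_swap i).mpr h)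

theorem projInv_zero : projInv (some 0) = none := by decide

theorem projInv_inv : projInv⁻¹ = projInv := by
  rw [inv_eq_iff_mul_eq_one]
  exact Equiv.ext fun i => Cfsg.Agent.S5594.projInv_invol i

theorem smul_compl_iff (x : Equiv.Perm GolayPt) (A : Finset GolayPt) :
    x • (Finset.univ \ A) = Finset.univ \ A ↔ x • A = A := by
  rw [Finset.smul_finset_sdiff, Finset.smul_finset_univ, ← Finset.compl_eq_univ_sdiff,
    ← Finset.compl_eq_univ_sdiff, compl_inj_iff]

theorem conj_eq : MulAut.conj projInv • M11
    = M12 ⊓ MulAction.stabilizer (Equiv.Perm GolayPt) (none : GolayPt) := by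
  ext x
  rw [mem_conj, mem_M11, mem_M11', projInv_inv]
  have hg := Cfsg.Agent.S0372.result
  constructor
  · rintro ⟨h1, h2, h3⟩
    refine ⟨?_, ?_, ?_⟩
    · have := mul_mem (mul_mem hg h1) hg
      have e : projInv * (projInv * x * projInv) * projInv = x := by
        have hpp : projInv * projInv = 1 := by
          rw [← projInv_inv]; exact inv_mul_cancel _
        calc projInv * (projInv * x * projInv) * projInv
            = (projInv * projInv) * x * (projInv * projInv) := by group
          _ = x := by rw [hpp]; group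
      rwa [e] at this
    · rw [mul_smul, mul_smul, projInv_Q] at h2
      have h4 : x • (Finset.univ \ squareDodecad) = projInv⁻¹ • squareDodecad := by
        rw [eq_inv_smul_iff]; exact h2
      rw [projInv_inv, projInv_Q, smul_compl_iff] at h4
      exact h4
    · have h4 : projInv (x (projInv (some 0))) = some 0 := h3
      rw [projInv_zero] at h4
      have h5 := congrArg projInv h4
      rw [Cfsg.Agent.S5594.projInv_invol, projInv_zero] at h5
      exact h5
  · rintro ⟨h1, h2, h3⟩
    refine ⟨mul_mem (mul_mem hg h1) hg, ?_, ?_⟩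
    · rw [mul_smul, mul_smul, projInv_Q, (smul_compl_iff x squareDodecad).mpr h2,
        ← projInv_Q, ← mul_smul]
      have hpp : projInv * projInv = 1 := by
        rw [← projInv_inv]; exact inv_mul_cancel _
      rw [hpp, one_smul]
    · show projInv (x (projInv (some 0))) = some 0
      rw [projInv_zero, h3]
      decide


/-- Inside the stabiliser of the dodecad of squares (a Mathieu group of degree 12), the stabiliser of the residue 0 (a point of the dodecad) and the stabiliser of the extra point (a point outside the dodecad) are isomorphic but not conjugate; conjugation by a suitable element of the code's group that maps the dodecad of squares onto its complement carries the first onto the second. -/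
theorem result : Nonempty (↥(Cfsg.Spor.M12 ⊓ MulAction.stabilizer (Equiv.Perm Cfsg.GolayPt) (none : Cfsg.GolayPt)) ≃* ↥Cfsg.Spor.M11) ∧ (¬ ∃ k ∈ Cfsg.Spor.M12, MulAut.conj k • Cfsg.Spor.M11 = Cfsg.Spor.M12 ⊓ MulAction.stabilizer (Equiv.Perm Cfsg.GolayPt) (none : Cfsg.GolayPt)) ∧ ∃ g ∈ Cfsg.M24, g • Cfsg.Spor.squareDodecad = Finset.univ \ Cfsg.Spor.squareDodecad ∧ MulAut.conj g • Cfsg.Spor.M11 = Cfsg.Spor.M12 ⊓ MulAction.stabilizer (Equiv.Perm Cfsg.GolayPt) (none : Cfsg.GolayPt) := by
  refine ⟨?_, ?_, ?_⟩
  · exact ⟨((Subgroup.equivSMul (MulAut.conj projInv) M11).trans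
      (MulEquiv.subgroupCongr conj_eq)).symm⟩
  · rintro ⟨k, hk, hconj⟩
    have hk' := mem_M12.mp hk
    have hx : xe ∈ MulAut.conj k • M11 := by
      rw [hconj, mem_M11']
      exact ⟨xe_mem, xe_Q, xe_none⟩
    rw [mem_conj, mem_M11] at hx
    obtain ⟨-, -, h3⟩ := hx
    have h4 : k⁻¹ (xe (k (some 0))) = some 0 := h3
    have h5 : xe (k (some 0)) = k (some 0) := by
      have h6 := congrArg k h4
      simpa using h6
    have hq : k (some 0) ∈ squareDodecad := by
      rw [← hk'.2]
      exact Finset.smul_mem_smul_finset zero_mem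
    exact xe_moves _ hq h5
  · exact ⟨projInv, Cfsg.Agent.S0372.result, projInv_Q, conj_eq⟩

end Cfsg.Agent.S5620
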