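import Cfsg.Statements.S5625
import Cfsg.Agent.H8.Steiner

set_option autoImplicit false

namespace Cfsg.Agent.S5625

open Cfsg Finset Cfsg.Agent.H8

theorem sum_choose_inter_any {α : Type*} [Fintype α] [DecidableEq α] (B : Set (Finset α))
    (Y : Finset α) (j : ℕ) :
    ∑ c ∈ blocksThrough B ∅, Nat.choose (c ∩ Y).card j =
      ∑ J ∈ powersetCard j Y, (blocksThrough B J).card := by
  classical
  have h1 : ∀ c : Finset α, Nat.choose (c ∩ Y).card j =
      ∑ J ∈ powersetCard j Y, if J ⊆ c then 1 else 0 := by
    intro c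
    rw [← card_powersetCard, ← card_filter]
    congr 1
    ext J
    simp only [mem_powersetCard, mem_filter, subset_inter_iff]
    tauto
  simp_rw [h1]
  rw [sum_comm]
  apply sum_congr rfl
  intro J _
  rw [← card_filter]
  congr 1
  ext c
  simp only [mem_filter, mem_blocksThrough, empty_subset, and_true]

theorem ncard_eq {α : Type*} [Fintype α] [DecidableEq α] (B : Set (Finset α))
    (Y : Finset α) (i : ℕ) :
    {b : Finset α | b ∈ B ∧ (b ∩ Y).card = i}.ncard =
      ((blocksThrough B ∅).filter (fun b => (b ∩ Y).card = i)).card := by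
  classical
  rw [← Set.ncard_coe_finset]
  congr 1
  ext b
  simp [mem_blocksThrough]

theorem result (α : Type*) [Fintype α] [DecidableEq α] (hα : Fintype.card α = 24) (B : Set (Finset α)) (hB : Cfsg.IsSteinerSystem 5 8 B) (Y : Finset α) (hY : Y.card = 3) : {b : Finset α | b ∈ B ∧ (b ∩ Y).card = 3}.ncard = 21 ∧ {b : Finset α | b ∈ B ∧ (b ∩ Y).card = 2}.ncard = 168 ∧ {b : Finset α | b ∈ B ∧ (b ∩ Y).card = 1}.ncard = 360 ∧ {b : Finset α | b ∈ B ∧ (b ∩ Y).card = 0}.ncard = 210 := by
  classical
  rw [ncard_eq, ncard_eq, ncard_eq, ncard_eq]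
  set S := blocksThrough B ∅ with hS
  -- lambda values
  have lam : ∀ j : ℕ, j ≤ 3 → ∀ J ∈ powersetCard j Y,
      (blocksThrough B J).card * Nat.choose (8 - j) (5 - j) = Nat.choose (24 - j) (5 - j) := by
    intro j hj J hJ
    rw [mem_powersetCard] at hJ
    have := steiner_lambda_finset hB J (by rw [hJ.2]; omega)
    rw [hJ.2, hα] at this
    exact this
  have e0 := sum_choose_inter_any B Y 0
  have e1 := sum_choose_inter_any B Y 1
  have e2 := sum_choose_inter_any B Y 2
  have e3 := sum_choose_inter_any B Y 3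
  have l0 : ∀ J ∈ powersetCard 0 Y, (blocksThrough B J).card = 759 := by
    intro J hJ
    have := lam 0 (by norm_num) J hJ
    have c1 : Nat.choose (8 - 0) (5 - 0) = 56 := by decide
    have c2 : Nat.choose (24 - 0) (5 - 0) = 42504 := by decide
    rw [c1, c2] at this
    omega
  have l1 : ∀ J ∈ powersetCard 1 Y, (blocksThrough B J).card = 253 := by
    intro J hJ
    have := lam 1 (by norm_num) J hJ
    have c1 : Nat.choose (8 - 1) (5 - 1) = 35 := by decide
    have c2 : Nat.choose (24 - 1) (5 - 1) = 8855 := by decide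
    rw [c1, c2] at this
    omega
  have l2 : ∀ J ∈ powersetCard 2 Y, (blocksThrough B J).card = 77 := by
    intro J hJ
    have := lam 2 (by norm_num) J hJ
    have c1 : Nat.choose (8 - 2) (5 - 2) = 20 := by decide
    have c2 : Nat.choose (24 - 2) (5 - 2) = 1540 := by decide
    rw [c1, c2] at this
    omega
  have l3 : ∀ J ∈ powersetCard 3 Y, (blocksThrough B J).card = 21 := by
    intro J hJ
    have := lam 3 (by norm_num) J hJ
    have c1 : Nat.choose (8 - 3) (5 - 3) = 10 := by decide
    have c2 : Nat.choose (24 - 3) (5 - 3) = 210 := by decide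
    rw [c1, c2] at this
    omega
  rw [sum_congr rfl l0, sum_const, card_powersetCard, hY, smul_eq_mul] at e0
  rw [sum_congr rfl l1, sum_const, card_powersetCard, hY, smul_eq_mul] at e1
  rw [sum_congr rfl l2, sum_const, card_powersetCard, hY, smul_eq_mul] at e2
  rw [sum_congr rfl l3, sum_const, card_powersetCard, hY, smul_eq_mul] at e3
  -- split the sums according to the intersection size
  have hle : ∀ c ∈ S, (c ∩ Y).card ∈ range 4 := by
    intro c _
    rw [mem_range]
    have := card_le_card (inter_subset_right (s₁ := c) (s₂ := Y))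
    omega
  have split : ∀ j : ℕ, ∑ c ∈ S, Nat.choose (c ∩ Y).card j =
      ∑ i ∈ range 4, (S.filter (fun b => (b ∩ Y).card = i)).card * Nat.choose i j := by
    intro j
    rw [← sum_fiberwise_of_maps_to hle]
    apply sum_congr rfl
    intro i _
    rw [← smul_eq_mul, ← sum_const]
    apply sum_congr rfl
    intro c hc
    rw [mem_filter] at hc
    rw [hc.2]
  rw [split] at e0 e1 e2 e3
  simp only [sum_range_succ, sum_range_zero, zero_add] at e0 e1 e2 e3
  have k00 : Nat.choose 0 0 = 1 := by decide
  have k10 : Nat.choose 1 0 = 1 := by decide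
  have k20 : Nat.choose 2 0 = 1 := by decide
  have k30 : Nat.choose 3 0 = 1 := by decide
  have k01 : Nat.choose 0 1 = 0 := by decide
  have k11 : Nat.choose 1 1 = 1 := by decide
  have k21 : Nat.choose 2 1 = 2 := by decide
  have k31 : Nat.choose 3 1 = 3 := by decide
  have k02 : Nat.choose 0 2 = 0 := by decide
  have k12 : Nat.choose 1 2 = 0 := by decide
  have k22 : Nat.choose 2 2 = 1 := by decide
  have k32 : Nat.choose 3 2 = 3 := by decide
  have k03 : Nat.choose 0 3 = 0 := by decide
  have k13 : Nat.choose 1 3 = 0 := by decide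
  have k23 : Nat.choose 2 3 = 0 := by decide
  have k33 : Nat.choose 3 3 = 1 := by decide
  rw [k00, k10, k20, k30] at e0
  rw [k01, k11, k21, k31] at e1
  rw [k02, k12, k22, k32] at e2
  rw [k03, k13, k23, k33] at e3
  refine ⟨?_, ?_, ?_, ?_⟩ <;> omega

end Cfsg.Agent.S5625
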