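import Cfsg.Statements.S5631
import Cfsg.Agent.H95.SLMax

set_option autoImplicit false
open Cfsg

namespace Cfsg.Agent.S5631

open Cfsg.Geo Cfsg.Agent.H95
open scoped MatrixGroups Matrix

/-- For a finite field F and n ≥ 13, the stabiliser in SL_n(F) of any proper non-zero subspace W of F^n is a maximal subgroup of SL_n(F). Here SL_n(F) is the kernel of the determinant inside GL_n(F) and the stabiliser is the set of elements of determinant one mapping W onto itself. -/
theorem result {F : Type*} [Field F] [Fintype F] (n : ℕ) (hn : 13 ≤ n) (W : Submodule F (Fin n → F)) (hW0 : W ≠ ⊥) (hW1 : W ≠ ⊤) : Cfsg.Geo.IsMaximalIn (Cfsg.Geo.specialLinear (Fin n) F) (Cfsg.Geo.subspaceStabilizer W ⊓ Cfsg.Geo.specialLinear (Fin n) F) := by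
  classical
  obtain ⟨w₀, hw₀, hw₀0⟩ := Submodule.exists_mem_ne_zero_of_ne_bot hW0
  obtain ⟨v₀, hv₀⟩ : ∃ v₀ : Fin n → F, v₀ ∉ W := by
    by_contra hcon
    push Not at hcon
    exact hW1 (eq_top_iff.mpr fun x _ => hcon x)
  -- functionals separating a vector from a subspace
  have hsepf : ∀ (N : Submodule F (Fin n → F)) (x : Fin n → F), x ∉ N →
      ∃ ψ : (Fin n → F) →ₗ[F] F, ψ x = 1 ∧ ∀ z ∈ N, ψ z = 0 := by
    intro N x hx
    obtain ⟨f, hfx, hNf⟩ := Submodule.exists_le_ker_of_notMem hx
    refine ⟨(f x)⁻¹ • f, ?_, ?_⟩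
    · rw [LinearMap.smul_apply, smul_eq_mul, inv_mul_cancel₀ hfx]
    · intro z hz
      have : f z = 0 := hNf hz
      rw [LinearMap.smul_apply, this, smul_zero]
  -- transvections in the stabiliser
  have hH1 : ∀ (v : Fin n → F) (ψ : (Fin n → F) →ₗ[F] F) (h : ψ v = 0), v ∈ W →
      tvGL v ψ h ∈ subspaceStabilizer W ⊓ specialLinear (Fin n) F := by
    intro v ψ h hv
    refine ⟨mem_subspaceStabilizer_of_forall _ W ?_, tvGL_mem_specialLinear _ _ _⟩
    intro x hx
    rw [tvGL_mulVec]
    exact W.add_mem hx (W.smul_mem _ hv)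
  have hH2 : ∀ (v : Fin n → F) (ψ : (Fin n → F) →ₗ[F] F) (h : ψ v = 0), (∀ z ∈ W, ψ z = 0) →
      tvGL v ψ h ∈ subspaceStabilizer W ⊓ specialLinear (Fin n) F := by
    intro v ψ h hψ
    refine ⟨mem_subspaceStabilizer_of_forall _ W ?_, tvGL_mem_specialLinear _ _ _⟩
    intro x hx
    rw [tvGL_mulVec, hψ x hx, zero_smul, add_zero]
    exact hx
  refine ⟨lt_of_le_of_ne inf_le_right ?_, ?_⟩
  · intro hEq
    have hw₀v : w₀ ∉ Submodule.span F {v₀} := by
      intro hmem
      obtain ⟨a, rfl⟩ := Submodule.mem_span_singleton.mp hmem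
      have ha : a ≠ 0 := by
        rintro rfl
        exact hw₀0 (zero_smul _ _)
      apply hv₀
      have := W.smul_mem a⁻¹ hw₀
      rwa [smul_smul, inv_mul_cancel₀ ha, one_smul] at this
    obtain ⟨ψ, hψ1, hψ0⟩ := hsepf _ w₀ hw₀v
    have hψv : ψ v₀ = 0 := hψ0 v₀ (Submodule.mem_span_singleton_self v₀)
    have hτ : tvGL v₀ ψ hψv ∈ subspaceStabilizer W ⊓ specialLinear (Fin n) F := by
      rw [hEq]
      exact tvGL_mem_specialLinear _ _ _
    have h1 := ((mem_subspaceStabilizer_iff _ W).mp hτ.1 w₀).mp hw₀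
    rw [tvGL_mulVec, hψ1, one_smul] at h1
    apply hv₀
    have := W.sub_mem h1 hw₀
    rwa [add_sub_cancel_left] at this
  · intro M hHM hMS
    by_cases hMH : M = subspaceStabilizer W ⊓ specialLinear (Fin n) F
    · exact Or.inl hMH
    right
    apply le_antisymm hMS
    obtain ⟨g, hgM, hgW⟩ : ∃ g ∈ M, g ∉ subspaceStabilizer W := by
      by_contra hcon
      push Not at hcon
      exact hMH (le_antisymm (fun g hg => ⟨hcon g hg, hMS hg⟩) hHM)
    -- centres with full root groups
    obtain ⟨C, hC⟩ : ∃ C : Set (Fin n → F), ∀ u, u ∈ C ↔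
        ∀ (φ : (Fin n → F) →ₗ[F] F) (h : φ u = 0), tvGL u φ h ∈ M := ⟨{u | _}, fun u => Iff.rfl⟩
    have hWC : ∀ u ∈ W, u ∈ C := by
      intro u hu
      rw [hC]
      intro φ h
      exact hHM (hH1 u φ h hu)
    have hCM : ∀ g' ∈ M, ∀ u ∈ C, (g' : Matrix (Fin n) (Fin n) F) *ᵥ u ∈ C := by
      intro g' hg' u hu
      rw [hC] at hu ⊢
      intro φ h
      have h0 : (φ.comp (Matrix.toLin' (g' : Matrix (Fin n) (Fin n) F))) u = 0 := by
        rw [LinearMap.comp_apply, Matrix.toLin'_apply]
        exact h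
      have h1 := hu _ h0
      have h2 : tvGL ((g' : Matrix (Fin n) (Fin n) F) *ᵥ u) φ h =
          g' * tvGL u (φ.comp (Matrix.toLin' (g' : Matrix (Fin n) (Fin n) F))) h0 * g'⁻¹ := by
        apply gl_ext
        intro x
        rw [tvGL_mulVec, Units.val_mul, Units.val_mul, ← Matrix.mulVec_mulVec, ← Matrix.mulVec_mulVec,
          tvGL_mulVec, Matrix.mulVec_add, Matrix.mulVec_smul, Matrix.mulVec_mulVec, ← Units.val_mul,
          mul_inv_cancel, Units.val_one, Matrix.one_mulVec, LinearMap.comp_apply, Matrix.toLin'_apply,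
          Matrix.mulVec_mulVec, ← Units.val_mul, mul_inv_cancel, Units.val_one, Matrix.one_mulVec]
      rw [h2]
      exact M.mul_mem (M.mul_mem hg' h1) (M.inv_mem hg')
    have hCsmul : ∀ (b : F), b ≠ 0 → ∀ u ∈ C, b • u ∈ C := by
      intro b hb u hu
      rw [hC] at hu ⊢
      intro φ h
      have h0 : (b • φ) u = 0 := by
        rw [LinearMap.smul_apply, ← map_smul]
        exact h
      have h2 : tvGL (b • u) φ h = tvGL u (b • φ) h0 := by
        apply gl_ext
        intro x
        rw [tvGL_mulVec, tvGL_mulVec, LinearMap.smul_apply, smul_smul, smul_eq_mul, mul_comm]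
      rw [h2]
      exact hu _ h0
    -- a centre outside W
    obtain ⟨x, hxC, hxW⟩ : ∃ x ∈ C, x ∉ W := by
      by_contra hcon
      push Not at hcon
      have hMW : ∀ g' ∈ M, ∀ u ∈ W, (g' : Matrix (Fin n) (Fin n) F) *ᵥ u ∈ W :=
        fun g' hg' u hu => hcon _ (hCM g' hg' u (hWC u hu))
      exact hgW (mem_subspaceStabilizer_of_forall g W (hMW g hgM))
    -- moves
    have hmoveW : ∀ y ∈ C, y ∉ W → ∀ v ∈ W, y + v ∈ C := by
      intro y hyC hyW v hv
      have hyv : y ∉ Submodule.span F {v} := by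
        intro hmem
        obtain ⟨a, rfl⟩ := Submodule.mem_span_singleton.mp hmem
        exact hyW (W.smul_mem a hv)
      obtain ⟨ψ, hψ1, hψ0⟩ := hsepf _ y hyv
      have hψv : ψ v = 0 := hψ0 v (Submodule.mem_span_singleton_self v)
      have := hCM _ (hHM (hH1 v ψ hψv hv)) y hyC
      rwa [tvGL_mulVec, hψ1, one_smul] at this
    have hmove2 : ∀ y ∈ C, ∀ v, y ∉ W ⊔ Submodule.span F {v} → y + v ∈ C := by
      intro y hyC v hyv
      obtain ⟨ψ, hψ1, hψ0⟩ := hsepf _ y hyv
      have hψv : ψ v = 0 :=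
        hψ0 v (Submodule.mem_sup_right (Submodule.mem_span_singleton_self v))
      have hψW : ∀ z ∈ W, ψ z = 0 := fun z hz => hψ0 z (Submodule.mem_sup_left hz)
      have := hCM _ (hHM (hH2 v ψ hψv hψW)) y hyC
      rwa [tvGL_mulVec, hψ1, one_smul] at this
    have hall : ∀ y, y ∈ C := by
      intro y
      by_cases hyW : y ∈ W
      · exact hWC y hyW
      by_cases hy : y ∈ W ⊔ Submodule.span F {x}
      · obtain ⟨w, hw, z, hz, rfl⟩ := Submodule.mem_sup.mp hy
        obtain ⟨b, rfl⟩ := Submodule.mem_span_singleton.mp hz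
        have hb : b ≠ 0 := by
          rintro rfl
          apply hyW
          rw [zero_smul, add_zero]
          exact hw
        have h1 := hCsmul b hb x hxC
        have h2 : b • x ∉ W := by
          intro h
          apply hxW
          have := W.smul_mem b⁻¹ h
          rwa [smul_smul, inv_mul_cancel₀ hb, one_smul] at this
        have := hmoveW (b • x) h1 h2 w hw
        rwa [add_comm] at this
      · have hx : x ∉ W ⊔ Submodule.span F {y - x} := by
          intro hmem
          obtain ⟨w, hw, z, hz, hwz⟩ := Submodule.mem_sup.mp hmem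
          obtain ⟨a, rfl⟩ := Submodule.mem_span_singleton.mp hz
          have ha : a ≠ 0 := by
            rintro rfl
            apply hxW
            rw [zero_smul, add_zero] at hwz
            rw [← hwz]
            exact hw
          apply hy
          have h3 : y = (-a⁻¹) • w + (a⁻¹ + 1) • x := by
            have h4 : a • y = x - w + a • x := by
              have h6 : a • (y - x) = x - w := eq_sub_of_add_eq' hwz
              rw [smul_sub] at h6
              exact sub_eq_iff_eq_add.mp h6
            have h5 : y = a⁻¹ • (a • y) := by rw [smul_smul, inv_mul_cancel₀ ha, one_smul]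
            rw [h5, h4, smul_add, smul_sub, smul_smul, inv_mul_cancel₀ ha, one_smul, add_smul, neg_smul,
              one_smul]
            abel
          rw [h3]
          exact Submodule.add_mem _ (Submodule.mem_sup_left (W.smul_mem _ hw))
            (Submodule.mem_sup_right (Submodule.smul_mem _ _ (Submodule.mem_span_singleton_self x)))
        have := hmove2 x hxC (y - x) hx
        rwa [add_sub_cancel] at this
    apply specialLinear_le_of_tv
    intro u φ hφ
    exact (hC u).mp (hall u) φ hφ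

end Cfsg.Agent.S5631
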