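import Cfsg.Statements.S5632

set_option autoImplicit false

namespace Cfsg.Agent.S5632
open Matrix

theorem exists_transv {F : Type*} [Field F] {n : ℕ} (p : Submodule F (Fin n → F))
    (v x : Fin n → F) (hv : v ∈ p) (hx : x ∉ p) :
    ∃ (g : Matrix.GeneralLinearGroup (Fin n) F) (φ : (Fin n → F) →ₗ[F] F),
      g ∈ Cfsg.Geo.specialLinear (Fin n) F ∧
      (∀ y, (g : Matrix (Fin n) (Fin n) F) *ᵥ y = y + φ y • v) ∧
      (∀ y ∈ p, φ y = 0) ∧ φ x ≠ 0 := by
  obtain ⟨φ, hφx, hφp⟩ := Submodule.exists_dual_map_eq_bot_of_notMem hx inferInstance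
  have hp0 : ∀ y ∈ p, φ y = 0 := by
    intro y hy
    have : φ y ∈ p.map φ := Submodule.mem_map_of_mem hy
    rw [hφp] at this
    simpa using this
  set φ' : Fin n → F := fun i => φ (Pi.single i 1) with hφ'
  have hdot : ∀ y, φ' ⬝ᵥ y = φ y := by
    intro y
    rw [LinearMap.pi_apply_eq_sum_univ φ y]
    simp only [dotProduct, hφ', smul_eq_mul]
    apply Finset.sum_congr rfl
    intro i _
    rw [mul_comm]
    congr 2
    ext j
    simp [Pi.single_apply, eq_comm]
  set A : Matrix (Fin n) (Fin n) F := 1 + vecMulVec v φ' with hA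
  have hdet : A.det = 1 := by
    rw [hA, vecMulVec_eq Unit, det_one_add_replicateCol_mul_replicateRow, hdot, hp0 v hv, add_zero]
  refine ⟨Matrix.GeneralLinearGroup.mkOfDetNeZero A (by rw [hdet]; exact one_ne_zero), φ, ?_, ?_, hp0, hφx⟩
  · rw [Cfsg.Geo.specialLinear, MonoidHom.mem_ker]
    ext
    simpa using hdet
  · intro y
    show A *ᵥ y = _
    rw [hA, Matrix.add_mulVec, Matrix.one_mulVec, vecMulVec_mulVec, hdot]
    simp

theorem mem_stab {F : Type*} [Field F] {n : ℕ} (W : Submodule F (Fin n → F))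
    (g : Matrix.GeneralLinearGroup (Fin n) F) :
    g ∈ Cfsg.Geo.subspaceStabilizer W ↔ ∀ v, v ∈ W ↔ (g : Matrix (Fin n) (Fin n) F) *ᵥ v ∈ W :=
  Iff.rfl

theorem result {F : Type*} [Field F] [Fintype F] (n : ℕ) (W U : Submodule F (Fin n → F)) (hW0 : W ≠ ⊥) (hWU : W < U) (hdim : Module.finrank F W + Module.finrank F U = n) : ∃ K : Subgroup (Matrix.GeneralLinearGroup (Fin n) F), Cfsg.Geo.subspaceStabilizer W ⊓ Cfsg.Geo.subspaceStabilizer U ⊓ Cfsg.Geo.specialLinear (Fin n) F < K ∧ K < Cfsg.Geo.specialLinear (Fin n) F := by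
  -- U is a proper subspace
  have hWpos : 0 < Module.finrank F W := by
    rw [Module.finrank_pos_iff_exists_ne_zero]
    obtain ⟨w, hw, hw0⟩ := (Submodule.ne_bot_iff W).1 hW0
    exact ⟨⟨w, hw⟩, fun h => hw0 (congrArg Subtype.val h)⟩
  have hUtop : U ≠ ⊤ := by
    intro h
    rw [h, finrank_top, Module.finrank_fin_fun] at hdim
    omega
  obtain ⟨v, hv⟩ : ∃ v, v ∉ U := by
    by_contra hcon
    push Not at hcon
    exact hUtop (eq_top_iff.2 fun x _ => hcon x)
  obtain ⟨u, huU, huW⟩ := SetLike.exists_of_lt hWU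
  obtain ⟨w, hw, hw0⟩ := (Submodule.ne_bot_iff W).1 hW0
  have hvW : v ∉ W := fun h => hv (hWU.le h)
  refine ⟨Cfsg.Geo.subspaceStabilizer W ⊓ Cfsg.Geo.specialLinear (Fin n) F, ?_, ?_⟩
  · -- an element stabilising W but not U
    have hu : u ∉ W ⊔ Submodule.span F {v} := by
      intro h
      obtain ⟨w', hw', z, hz, rfl⟩ := Submodule.mem_sup.1 h
      obtain ⟨c, rfl⟩ := Submodule.mem_span_singleton.1 hz
      by_cases hc : c = 0
      · apply huW
        rw [hc, zero_smul, add_zero]
        exact hw'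
      · apply hv
        have h1 : c • v ∈ U := by
          have := U.sub_mem huU (hWU.le hw')
          simpa using this
        have h2 := U.smul_mem c⁻¹ h1
        rwa [smul_smul, inv_mul_cancel₀ hc, one_smul] at h2
    obtain ⟨g, φ, hgS, hg, hφ0, hφu⟩ := exists_transv (W ⊔ Submodule.span F {v}) v u
      (Submodule.mem_sup_right (Submodule.mem_span_singleton_self v)) hu
    have hgW : g ∈ Cfsg.Geo.subspaceStabilizer W := by
      rw [mem_stab]
      intro y
      constructor
      · intro hy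
        rw [hg, hφ0 y (Submodule.mem_sup_left hy), zero_smul, add_zero]
        exact hy
      · intro hy
        have h1 := hφ0 _ (Submodule.mem_sup_left hy)
        rw [hg, map_add, map_smul,
          hφ0 v (Submodule.mem_sup_right (Submodule.mem_span_singleton_self v))] at h1
        have h2 : φ y = 0 := by simpa using h1
        rw [hg, h2, zero_smul, add_zero] at hy
        exact hy
    have hgU : g ∉ Cfsg.Geo.subspaceStabilizer U := by
      rw [mem_stab]
      intro h
      have h1 := (h u).1 huU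
      rw [hg] at h1
      have h2 : φ u • v ∈ U := by
        have := U.sub_mem h1 huU
        simpa using this
      have h3 := U.smul_mem (φ u)⁻¹ h2
      rw [smul_smul, inv_mul_cancel₀ hφu, one_smul] at h3
      exact hv h3
    rw [lt_iff_le_and_ne]
    refine ⟨fun x hx => ⟨hx.1.1, hx.2⟩, fun heq => hgU ?_⟩
    have : g ∈ Cfsg.Geo.subspaceStabilizer W ⊓ Cfsg.Geo.specialLinear (Fin n) F := ⟨hgW, hgS⟩
    rw [← heq] at this
    exact this.1.2
  · -- an element of SL not stabilising W
    have hw' : w ∉ Submodule.span F {v} := by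
      intro h
      obtain ⟨c, rfl⟩ := Submodule.mem_span_singleton.1 h
      by_cases hc : c = 0
      · exact hw0 (by rw [hc, zero_smul])
      · apply hvW
        have h2 := W.smul_mem c⁻¹ hw
        rwa [smul_smul, inv_mul_cancel₀ hc, one_smul] at h2
    obtain ⟨g, φ, hgS, hg, hφ0, hφw⟩ := exists_transv (Submodule.span F {v}) v w
      (Submodule.mem_span_singleton_self v) hw'
    have hgW : g ∉ Cfsg.Geo.subspaceStabilizer W := by
      rw [mem_stab]
      intro h
      have h1 := (h w).1 hw
      rw [hg] at h1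
      have h2 : φ w • v ∈ W := by
        have := W.sub_mem h1 hw
        simpa using this
      have h3 := W.smul_mem (φ w)⁻¹ h2
      rw [smul_smul, inv_mul_cancel₀ hφw, one_smul] at h3
      exact hvW h3
    rw [lt_iff_le_and_ne]
    refine ⟨inf_le_right, fun heq => hgW ?_⟩
    rw [← heq] at hgS
    exact hgS.1

end Cfsg.Agent.S5632
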