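import Cfsg.Statements.S5633
import Cfsg.Agent.H95.Basic

set_option autoImplicit false
open Cfsg

namespace Cfsg.Agent.S5633

open Cfsg.Geo Cfsg.Agent.H95
open scoped MatrixGroups Matrix

/-- For a finite field F and complementary non-zero subspaces W ⊕ U = F^n with dim W < dim U, the elements of SL_n(F) stabilising both W and U form a subgroup that is not maximal in SL_n(F): some subgroup lies strictly between it and SL_n(F). -/
theorem result {F : Type*} [Field F] [Fintype F] (n : ℕ) (W U : Submodule F (Fin n → F)) (hW0 : W ≠ ⊥) (hWU : W ⊓ U = ⊥) (hWU' : W ⊔ U = ⊤) (hdim : Module.finrank F W < Module.finrank F U) : ∃ K : Subgroup (Matrix.GeneralLinearGroup (Fin n) F), Cfsg.Geo.subspaceStabilizer W ⊓ Cfsg.Geo.subspaceStabilizer U ⊓ Cfsg.Geo.specialLinear (Fin n) F < K ∧ K < Cfsg.Geo.specialLinear (Fin n) F := by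
  classical
  -- a non-zero vector of W
  obtain ⟨w, hwW, hw0⟩ := (Submodule.ne_bot_iff W).mp hW0
  -- a non-zero vector of U
  have hU0 : U ≠ ⊥ := by
    rintro rfl
    simp at hdim
  obtain ⟨u, huU, hu0⟩ := (Submodule.ne_bot_iff U).mp hU0
  have hwU : w ∉ U := fun h => hw0 (by
    have : w ∈ W ⊓ U := ⟨hwW, h⟩
    rw [hWU] at this
    simpa using this)
  have huW : u ∉ W := fun h => hu0 (by
    have : u ∈ W ⊓ U := ⟨h, huU⟩
    rw [hWU] at this
    simpa using this)
  -- a functional vanishing on W but not at u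
  obtain ⟨φ, hφu, hφW⟩ := Submodule.exists_le_ker_of_notMem huW
  have hφW' : ∀ x ∈ W, φ x = 0 := fun x hx => LinearMap.mem_ker.mp (hφW hx)
  -- a functional vanishing on U but not at w
  obtain ⟨ψ, hψw, hψU⟩ := Submodule.exists_le_ker_of_notMem hwU
  have hψU' : ∀ x ∈ U, ψ x = 0 := fun x hx => LinearMap.mem_ker.mp (hψU hx)
  -- first transvection: x ↦ x + φ x • w, stabilises W, moves U
  have h1 : φ w = 0 := hφW' w hwW
  set g1 : GL (Fin n) F := glOf (LinearEquiv.transvection h1) with hg1
  -- second transvection: x ↦ x + ψ x • u, moves W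
  have h2 : ψ u = 0 := hψU' u huU
  set g2 : GL (Fin n) F := glOf (LinearEquiv.transvection h2) with hg2
  have hg1SL : g1 ∈ specialLinear (Fin n) F := glOf_mem_specialLinear _ (by simp)
  have hg2SL : g2 ∈ specialLinear (Fin n) F := glOf_mem_specialLinear _ (by simp)
  have hg1W : g1 ∈ subspaceStabilizer W := by
    apply mem_subspaceStabilizer_of_forall
    intro v hv
    rw [hg1, glOf_mulVec, LinearEquiv.transvection.apply, hφW' v hv, zero_smul, add_zero]
    exact hv
  have hg1U : g1 ∉ subspaceStabilizer U := by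
    intro h
    rw [mem_subspaceStabilizer_iff] at h
    have h' := (h u).mp huU
    rw [hg1, glOf_mulVec, LinearEquiv.transvection.apply] at h'
    have h'' : φ u • w ∈ U := by
      have := U.sub_mem h' huU
      simpa using this
    exact hwU ((U.smul_mem_iff hφu).mp h'')
  have hg2W : g2 ∉ subspaceStabilizer W := by
    intro h
    rw [mem_subspaceStabilizer_iff] at h
    have h' := (h w).mp hwW
    rw [hg2, glOf_mulVec, LinearEquiv.transvection.apply] at h'
    have h'' : ψ w • u ∈ W := by
      have := W.sub_mem h' hwW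
      simpa using this
    exact huW ((W.smul_mem_iff hψw).mp h'')
  refine ⟨subspaceStabilizer W ⊓ specialLinear (Fin n) F, ?_, ?_⟩
  · refine lt_of_le_of_ne ?_ ?_
    · exact inf_le_inf_right _ inf_le_left
    · intro h
      have : g1 ∈ subspaceStabilizer W ⊓ subspaceStabilizer U ⊓ specialLinear (Fin n) F := by
        rw [h]; exact ⟨hg1W, hg1SL⟩
      exact hg1U this.1.2
  · refine lt_of_le_of_ne inf_le_right ?_
    intro h
    have : g2 ∈ subspaceStabilizer W ⊓ specialLinear (Fin n) F := by
      rw [h]; exact hg2SL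
    exact hg2W this.1

end Cfsg.Agent.S5633
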