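import Cfsg.Statements.S5634
import Cfsg.Agent.H17.MnMain2

set_option autoImplicit false
open Cfsg

namespace Cfsg.Agent.S5634

/-- For a finite field F with q elements and n ≥ 13, let D be a decomposition of F^n into t ≥ 2 independent subspaces of equal dimension m ≥ 1 spanning F^n. Unless m = 1 and q ≤ 4, or m = 2 and q = 2, the elements of SL_n(F) permuting the members of D form a maximal subgroup of SL_n(F). -/
theorem result {F : Type*} [Field F] [Fintype F] (n : ℕ) (hn : 13 ≤ n) {t : ℕ} (m : ℕ) (D : Fin t → Submodule F (Fin n → F)) (hD : Cfsg.Geo.IsMDecomposition m D) (h1 : ¬ (m = 1 ∧ Fintype.card F ≤ 4)) (h2 : ¬ (m = 2 ∧ Fintype.card F = 2)) : Cfsg.Geo.IsMaximalIn (Cfsg.Geo.specialLinear (Fin n) F) (Cfsg.Geo.decompositionStabilizer D ⊓ Cfsg.Geo.specialLinear (Fin n) F) := by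
  classical
  have hm0 : 0 < m := hD.pos
  by_cases hm1 : m = 1
  · subst hm1
    have hq : 5 ≤ Fintype.card F := by
      by_contra hcon
      exact h1 ⟨rfl, by omega⟩
    exact Cfsg.Agent.H17.Mn.max_one n hn D hD hq
  · have hm : 2 ≤ m := by omega
    apply Cfsg.Agent.H17.Mn.max_two_le D hD hm
    intro hm2
    subst hm2
    have hI : DirectSum.IsInternal D :=
      DirectSum.isInternal_submodule_of_iSupIndep_of_iSup_eq_top hD.indep hD.iSup_eq_top
    let bD : ∀ i, Module.Basis (Fin 2) F (D i) := fun i =>
      Module.finBasisOfFinrankEq F (D i) (hD.finrank_eq i)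
    have hnt : n = t * 2 := by
      have h1 := Module.finrank_eq_card_basis (hI.collectedBasis bD)
      simpa using h1
    have hcard : 1 < Fintype.card F := Fintype.one_lt_card
    refine ⟨?_, by omega⟩
    by_contra hcon
    exact h2 ⟨rfl, by omega⟩

end Cfsg.Agent.S5634
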