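import Cfsg.Statements.S5635
import Cfsg.Agent.H95.S5635a

set_option autoImplicit false
open Cfsg

namespace Cfsg.Agent.S5635

open Cfsg.Geo Cfsg.Agent.H95
open scoped MatrixGroups Matrix

/-- For a finite field F with q elements and n ≥ 13, let D be a decomposition of F^n into t ≥ 2 independent subspaces of equal dimension m spanning F^n, where m = 1 and q ≤ 4, or m = 2 and q = 2. Then the elements of SL_n(F) permuting the members of D form a subgroup that is not maximal: some subgroup lies strictly between it and SL_n(F). -/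
theorem result {F : Type*} [Field F] [Fintype F] (n : ℕ) (hn : 13 ≤ n) {t : ℕ} (m : ℕ) (D : Fin t → Submodule F (Fin n → F)) (hD : Cfsg.Geo.IsMDecomposition m D) (h : (m = 1 ∧ Fintype.card F ≤ 4) ∨ (m = 2 ∧ Fintype.card F = 2)) : ∃ K : Subgroup (Matrix.GeneralLinearGroup (Fin n) F), Cfsg.Geo.decompositionStabilizer D ⊓ Cfsg.Geo.specialLinear (Fin n) F < K ∧ K < Cfsg.Geo.specialLinear (Fin n) F := by
  classical
  have hI : DirectSum.IsInternal D :=
    DirectSum.isInternal_submodule_of_iSupIndep_of_iSup_eq_top hD.indep hD.iSup_eq_top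
  let bD : ∀ i, Module.Basis (Fin m) F (D i) := fun i =>
    Module.finBasisOfFinrankEq F (D i) (hD.finrank_eq i)
  have hnt : n = t * m := by
    have h1 := Module.finrank_eq_card_basis (hI.collectedBasis bD)
    simpa using h1
  have ht : 7 ≤ t := by
    rcases h with ⟨rfl, -⟩ | ⟨rfl, -⟩ <;> omega
  have hm0 : 0 < m := hD.pos
  -- distinct indices
  set i1 : Fin t := ⟨0, by omega⟩ with hi1
  set i2 : Fin t := ⟨1, by omega⟩ with hi2
  set i3 : Fin t := ⟨2, by omega⟩ with hi3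
  set i4 : Fin t := ⟨3, by omega⟩ with hi4
  have h12 : i1 ≠ i2 := by simp [hi1, hi2]
  have h13 : i1 ≠ i3 := by simp [hi1, hi3]
  have h14 : i1 ≠ i4 := by simp [hi1, hi4]
  have h23 : i2 ≠ i3 := by simp [hi2, hi3]
  have h24 : i2 ≠ i4 := by simp [hi2, hi4]
  have h34 : i3 ≠ i4 := by simp [hi3, hi4]
  -- the second element
  have hv : ∀ k, ((bD k ⟨0, hm0⟩ : D k) : Fin n → F) ≠ 0 := by
    intro k hk
    exact (bD k).ne_zero ⟨0, hm0⟩ (Subtype.ext hk)
  obtain ⟨g₂, hg₂SL, hg₂⟩ := exists_not_mem_wtGroup hI h12 (Submodule.coe_mem (bD i1 ⟨0, hm0⟩))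
    (hv i1) (Submodule.coe_mem (bD i2 ⟨0, hm0⟩)) (hv i2)
  -- the first element
  have key : ∃ (g : GL (Fin n) F) (x : Fin n → F), g ∈ specialLinear (Fin n) F ∧ g ∈ wtGroup hI ∧
      wt hI ((g : Matrix (Fin n) (Fin n) F) *ᵥ x) ≠ wt hI x := by
    rcases h with ⟨rfl, hq⟩ | ⟨rfl, hq⟩
    · have hq1 : 1 < Fintype.card F := Fintype.one_lt_card
      have hq' : Fintype.card F = 2 ∨ Fintype.card F = 3 ∨ Fintype.card F = 4 := by omega
      rcases hq' with hq' | hq' | hq'
      · exact case_two_one hI bD hq' i1 i2 i3 h12 h13 h23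
      · exact case_three_one hI bD hq' i1 i2 i3 i4 h12 h13 h14 h23 h24 h34
      · exact case_four_one hI bD hq' i1 i2 i3 i4 h12 h13 h14 h23 h24 h34
    · exact case_two_two hI bD hq i1 i2 i3 h12 h13 h23
  obtain ⟨g₁, x₁, hg₁SL, hg₁wt, hx₁⟩ := key
  exact exists_between_of_wt hI g₁ g₂ hg₁SL hg₁wt x₁ hx₁ hg₂SL hg₂

end Cfsg.Agent.S5635
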