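import Cfsg.Statements.S5638
import Cfsg.Agent.H95.Tensor

set_option autoImplicit false
open Cfsg

namespace Cfsg.Agent.S5638

open Cfsg.Geo Cfsg.Agent.H95
open scoped MatrixGroups Matrix Kronecker

lemma two_by_two {F : Type*} [Field F] [Fintype F] (hq : Fintype.card F = 2)
    (a : Matrix (Fin 2) (Fin 2) F) (ha : a.det ≠ 0) :
    a * !![0, 1; 1, 1] = !![0, 1; 1, 1] * a ∨ a * !![0, 1; 1, 1] = !![1, 1; 1, 0] * a := by
  have h2 : (2 : F) = 0 := by
    have := FiniteField.cast_card_eq_zero F
    rw [hq] at this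
    exact_mod_cast this
  have h11 : (1 : F) + 1 = 0 := by linear_combination h2
  have h01 : ∀ a : F, a = 0 ∨ a = 1 := by
    intro a
    have h := FiniteField.pow_card a
    rw [hq] at h
    have h' : a * (a - 1) = 0 := by linear_combination h
    rcases mul_eq_zero.mp h' with h0 | h1
    · exact Or.inl h0
    · exact Or.inr (sub_eq_zero.mp h1)
  rw [Matrix.det_fin_two] at ha
  rcases h01 (a 0 0) with hx | hx <;> rcases h01 (a 0 1) with hy | hy <;>
  rcases h01 (a 1 0) with hz | hz <;> rcases h01 (a 1 1) with hw | hw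
  all_goals first
    | (exfalso; apply ha; simp [hx, hy, hz, hw]; done)
    | (left; ext i j; fin_cases i <;> fin_cases j <;>
        simp [Matrix.mul_apply, Fin.sum_univ_two, hx, hy, hz, hw, h11]; done)
    | (right; ext i j; fin_cases i <;> fin_cases j <;>
        simp [Matrix.mul_apply, Fin.sum_univ_two, hx, hy, hz, hw, h11])

/-- Over the field with 2 elements, for n = 2 n₂ ≥ 13, the stabiliser in SL_n of a tensor decomposition with factors of dimensions 2 and n₂ (the conjugate by any P of the Kronecker-product subgroup transported along any bijection Fin n ≃ Fin 2 × Fin n₂, intersected with SL_n) is not a maximal subgroup: some subgroup lies strictly between it and SL_n. -/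
theorem result {F : Type*} [Field F] [Fintype F] (n : ℕ) (hn : 13 ≤ n) (hq : Fintype.card F = 2) (n₂ : ℕ) (e : Fin n ≃ Fin 2 × Fin n₂) (P : Matrix.GeneralLinearGroup (Fin n) F) : ∃ K : Subgroup (Matrix.GeneralLinearGroup (Fin n) F), Cfsg.Geo.tensorProductSubgroup 2 n₂ e P ⊓ Cfsg.Geo.specialLinear (Fin n) F < K ∧ K < Cfsg.Geo.specialLinear (Fin n) F := by
  classical
  have h2 : (2 : F) = 0 := by
    have := FiniteField.cast_card_eq_zero F
    rw [hq] at this
    exact_mod_cast this
  have h11 : (1 : F) + 1 = 0 := by linear_combination h2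
  have h01 : ∀ a : F, a = 0 ∨ a = 1 := by
    intro a
    have h := FiniteField.pow_card a
    rw [hq] at h
    have h' : a * (a - 1) = 0 := by linear_combination h
    rcases mul_eq_zero.mp h' with h0 | h1
    · exact Or.inl h0
    · exact Or.inr (sub_eq_zero.mp h1)
  have hn₂ : 7 ≤ n₂ := by
    have := Fintype.card_congr e
    simp at this
    omega
  have hdet0 : ∀ {κ : Type} [Fintype κ] [DecidableEq κ] (g : GL κ F),
      (g : Matrix κ κ F).det ≠ 0 := by
    intro κ _ _ g h
    have := (Matrix.isUnit_iff_isUnit_det (g : Matrix κ κ F)).mp g.isUnit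
    rw [h] at this
    exact not_isUnit_zero this
  -- SL is everything
  have hSL : specialLinear (Fin n) F = ⊤ := by
    rw [eq_top_iff]
    intro g _
    rw [mem_specialLinear_iff]
    exact (h01 _).resolve_left (hdet0 g)
  rw [hSL, inf_top_eq, tensorProductSubgroup_eq_map]
  set Φ := tpsIso (n₁ := 2) (n₂ := n₂) e P with hΦ
  suffices h : ∃ K₀ : Subgroup (GL (Fin 2 × Fin n₂) F), kroneckerSubgroup 2 n₂ F < K₀ ∧ K₀ < ⊤ by
    obtain ⟨K₀, h1, h2⟩ := h
    refine ⟨K₀.map Φ.toMonoidHom,
      (Subgroup.map_lt_map_iff_of_injective (f := Φ.toMonoidHom) Φ.injective).mpr h1, ?_⟩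
    have := (Subgroup.map_lt_map_iff_of_injective (f := Φ.toMonoidHom) Φ.injective).mpr h2
    rwa [Subgroup.map_top_of_surjective _ Φ.surjective] at this
  -- the matrices
  set A₀ : Matrix (Fin 2) (Fin 2) F := !![0, 1; 1, 1] with hA₀
  set A₀' : Matrix (Fin 2) (Fin 2) F := !![1, 1; 1, 0] with hA₀'
  set u : Matrix (Fin 2) (Fin 2) F := !![1, 1; 0, 1] with hu
  have hA1 : A₀ * A₀' = 1 := by
    ext i j; fin_cases i <;> fin_cases j <;> simp [hA₀, hA₀', Matrix.mul_apply, Fin.sum_univ_two, h11]
  have hA2 : A₀' * A₀ = 1 := by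
    ext i j; fin_cases i <;> fin_cases j <;> simp [hA₀, hA₀', Matrix.mul_apply, Fin.sum_univ_two, h11]
  have huu : u * u = 1 := by
    ext i j; fin_cases i <;> fin_cases j <;> simp [hu, Matrix.mul_apply, Fin.sum_univ_two, h11]
  set j₀ : Fin n₂ := ⟨0, by omega⟩ with hj₀
  set j₁ : Fin n₂ := ⟨1, by omega⟩ with hj₁
  have hj : j₁ ≠ j₀ := by simp [hj₀, hj₁]
  set J₀ : GL (Fin 2 × Fin n₂) F := blockGL (fun _ => A₀) (fun _ => A₀') (fun _ => hA1) (fun _ => hA2)
    with hJ₀
  have hJ₀val : (J₀ : Matrix (Fin 2 × Fin n₂) (Fin 2 × Fin n₂) F) = Matrix.blockDiagonal (fun _ => A₀) := rfl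
  have hJ₀inv : ((J₀⁻¹ : GL (Fin 2 × Fin n₂) F) : Matrix (Fin 2 × Fin n₂) (Fin 2 × Fin n₂) F) =
      Matrix.blockDiagonal (fun _ => A₀') := rfl
  -- the first element
  set g₁ : GL (Fin 2 × Fin n₂) F := blockGL (fun j => if j = j₀ then A₀ else 1)
    (fun j => if j = j₀ then A₀' else 1)
    (fun j => by split_ifs; exact hA1; exact mul_one 1)
    (fun j => by split_ifs; exact hA2; exact mul_one 1) with hg₁
  have hg₁val : (g₁ : Matrix (Fin 2 × Fin n₂) (Fin 2 × Fin n₂) F) =
      Matrix.blockDiagonal (fun j => if j = j₀ then A₀ else 1) := rfl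
  -- the second element
  set g₂ : GL (Fin 2 × Fin n₂) F := blockGL (fun j => if j = j₀ then u else 1)
    (fun j => if j = j₀ then u else 1)
    (fun j => by split_ifs; exact huu; exact mul_one 1)
    (fun j => by split_ifs; exact huu; exact mul_one 1) with hg₂
  have hg₂val : (g₂ : Matrix (Fin 2 × Fin n₂) (Fin 2 × Fin n₂) F) =
      Matrix.blockDiagonal (fun j => if j = j₀ then u else 1) := rfl
  refine ⟨invNormalizer J₀, lt_of_le_of_ne ?_ ?_, lt_of_le_of_ne le_top ?_⟩
  · intro g hg
    obtain ⟨a, b, hab⟩ := hg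
    rw [mem_invNormalizer_iff]
    rcases two_by_two hq (a : Matrix (Fin 2) (Fin 2) F) (hdet0 a) with h | h
    · left
      apply Units.ext
      rw [Units.val_mul, Units.val_mul, hab, hJ₀val, ← Matrix.kronecker_one,
        ← Matrix.mul_kronecker_mul, ← Matrix.mul_kronecker_mul, h, mul_one, one_mul]
    · right
      apply Units.ext
      rw [Units.val_mul, Units.val_mul, hab, hJ₀val, hJ₀inv, ← Matrix.kronecker_one,
        ← Matrix.kronecker_one, ← Matrix.mul_kronecker_mul, ← Matrix.mul_kronecker_mul, h, mul_one,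
        one_mul]
  · intro h
    have hg₁mem : g₁ ∈ invNormalizer J₀ := by
      rw [mem_invNormalizer_iff]
      left
      apply Units.ext
      rw [Units.val_mul, Units.val_mul, hg₁val, hJ₀val, ← Matrix.blockDiagonal_mul,
        ← Matrix.blockDiagonal_mul]
      congr 1
      funext j
      split_ifs
      · rfl
      · rw [one_mul, mul_one]
    rw [← h] at hg₁mem
    obtain ⟨a, b, hab⟩ := hg₁mem
    rw [hg₁val] at hab
    have e1 := congrFun (congrFun hab (0, j₁)) (0, j₁)
    have e2 := congrFun (congrFun hab (0, j₀)) (0, j₀)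
    have e3 := congrFun (congrFun hab (0, j₀)) (1, j₀)
    simp only [Matrix.blockDiagonal_apply, Matrix.kroneckerMap_apply, if_true, if_neg hj,
      Matrix.one_apply_eq, hA₀, Matrix.of_apply, Matrix.cons_val', Matrix.cons_val_zero,
      Matrix.cons_val_one, Matrix.cons_val_fin_one] at e1 e2 e3
    have ha00 : (a : Matrix (Fin 2) (Fin 2) F) 0 0 ≠ 0 := by
      intro h0
      rw [h0, zero_mul] at e1
      exact one_ne_zero e1
    have hb : (b : Matrix (Fin n₂) (Fin n₂) F) j₀ j₀ = 0 := by
      rcases mul_eq_zero.mp e2.symm with h0 | h0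
      · exact absurd h0 ha00
      · exact h0
    rw [hb, mul_zero] at e3
    exact one_ne_zero e3
  · intro h
    have hg₂mem : g₂ ∈ invNormalizer J₀ := by rw [h]; trivial
    rw [mem_invNormalizer_iff] at hg₂mem
    rcases hg₂mem with h' | h'
    · have h'' := congrArg Units.val h'
      rw [Units.val_mul, Units.val_mul, hg₂val, hJ₀val, ← Matrix.blockDiagonal_mul,
        ← Matrix.blockDiagonal_mul, Matrix.blockDiagonal_inj] at h''
      have e1 := congrFun (congrFun (congrFun h'' j₀) 0) 0
      simp [hu, hA₀, Matrix.mul_apply, Fin.sum_univ_two] at e1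
    · have h'' := congrArg Units.val h'
      rw [Units.val_mul, Units.val_mul, hg₂val, hJ₀val, hJ₀inv, ← Matrix.blockDiagonal_mul,
        ← Matrix.blockDiagonal_mul, Matrix.blockDiagonal_inj] at h''
      have e1 := congrFun (congrFun (congrFun h'' j₁) 0) 0
      simp [hA₀, hA₀', Matrix.mul_apply, Fin.sum_univ_two, hj] at e1

end Cfsg.Agent.S5638
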