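import Cfsg.Statements.S5642
import Cfsg.Agent.H95.SLMax
import Cfsg.Agent.H95.QuadPlane2

set_option autoImplicit false
open Cfsg

namespace Cfsg.Agent.S5642

open Cfsg.Geo Cfsg.Agent.H95
open scoped MatrixGroups Matrix

/-- For a finite field F and n ≥ 13, let f be a non-degenerate symplectic form on F^n (so n is even). Then the elements of SL_n(F) that are similarities of f (f(gu, gv) = c f(u, v) for a non-zero scalar c depending on g) form a maximal subgroup of SL_n(F). -/
theorem result {F : Type*} [Field F] [Fintype F] (n : ℕ) (hn : 13 ≤ n) (f : (Fin n → F) → (Fin n → F) → F) (hf : Cfsg.Geo.IsSymplecticForm f) : Cfsg.Geo.IsMaximalIn (Cfsg.Geo.specialLinear (Fin n) F) (Cfsg.Geo.similarityGroup f ⊓ Cfsg.Geo.specialLinear (Fin n) F) := by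
  classical
  have hb := hf.bilinear
  have hskew := hf.skew
  have halt := hf.alternating
  obtain ⟨B, hB⟩ : ∃ B : LinearMap.BilinForm F (Fin n → F), ∀ x y, B x y = f x y :=
    ⟨bilOf f hb, fun x y => rfl⟩
  have hBnd : B.Nondegenerate := by
    constructor
    · intro x hx
      by_contra hne
      obtain ⟨-, ⟨y, hy⟩⟩ := hf.nondegenerate x hne
      exact hy (by rw [← hB]; exact hx y)
    · intro y hy
      by_contra hne
      obtain ⟨⟨x, hx⟩, -⟩ := hf.nondegenerate y hne
      exact hx (by rw [← hB]; exact hy x)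
  have hfL : ∀ w x, B.flip w x = f x w := fun w x => hB x w
  have hst0 : ∀ (y : Fin n → F) (c : F), (c • B.flip y) y = 0 := by
    intro y c
    rw [LinearMap.smul_apply, hfL, halt, smul_zero]
  have hst_apply : ∀ (y : Fin n → F) (c : F) (x : Fin n → F),
      ((tvGL y (c • B.flip y) (hst0 y c) : GL (Fin n) F) : Matrix (Fin n) (Fin n) F) *ᵥ x =
        x + (c * f x y) • y := by
    intro y c x
    rw [tvGL_mulVec, LinearMap.smul_apply, hfL, smul_eq_mul]
  have hstiso : ∀ (y : Fin n → F) (c : F) (u v : Fin n → F),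
      f (((tvGL y (c • B.flip y) (hst0 y c) : GL (Fin n) F) : Matrix (Fin n) (Fin n) F) *ᵥ u)
        (((tvGL y (c • B.flip y) (hst0 y c) : GL (Fin n) F) : Matrix (Fin n) (Fin n) F) *ᵥ v) = f u v := by
    intro y c u v
    rw [hst_apply, hst_apply]
    simp only [hb.add_left, hb.add_right, hb.smul_left, hb.smul_right, halt]
    rw [hskew y v]
    ring
  have hstH : ∀ (y : Fin n → F) (c : F),
      tvGL y (c • B.flip y) (hst0 y c) ∈ similarityGroup f ⊓ specialLinear (Fin n) F := by
    intro y c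
    refine ⟨⟨1, fun u v => ?_⟩, tvGL_mem_specialLinear _ _ _⟩
    rw [Units.val_one, one_mul]
    exact hstiso y c u v
  have hsep : ∀ p w : Fin n → F, w ∉ Submodule.span F {p} → ∃ y, f p y = 0 ∧ f y w ≠ 0 := by
    intro p w hw
    obtain ⟨y, hy1, hy2⟩ := H17.exists_partner B hBnd w (Submodule.span F {p}) hw
    refine ⟨y, ?_, ?_⟩
    · rw [← hB]
      exact hy2 p (Submodule.mem_span_singleton_self p)
    · rw [hskew, ← hB, hy1]
      exact neg_ne_zero.mpr one_ne_zero
  have hconn : ∀ a a' : Fin n → F, a ≠ 0 → a' ≠ 0 → ∃ z, f a z ≠ 0 ∧ f z a' ≠ 0 := by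
    intro a a' ha ha'
    obtain ⟨x₁, h1⟩ := (hf.nondegenerate a ha).2
    obtain ⟨x₂, h2⟩ := (hf.nondegenerate a' ha').1
    by_cases h3 : f x₁ a' = 0
    · by_cases h4 : f a x₂ = 0
      · refine ⟨x₁ + x₂, ?_, ?_⟩
        · rw [hb.add_right, h4, add_zero]; exact h1
        · rw [hb.add_left, h3, zero_add]; exact h2
      · exact ⟨x₂, h4, h2⟩
    · exact ⟨x₁, h1, h3⟩
  have hn0 : 0 < n := by omega
  obtain ⟨p₀, hp₀⟩ : ∃ p₀ : Fin n → F, p₀ ≠ 0 :=
    ⟨Pi.single ⟨0, hn0⟩ 1, by
      intro h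
      have := congrFun h ⟨0, hn0⟩
      simp at this⟩
  refine ⟨lt_of_le_of_ne inf_le_right ?_, ?_⟩
  · -- proper
    intro hEq
    obtain ⟨-, ⟨y₀, hy₀⟩⟩ := hf.nondegenerate p₀ hp₀
    obtain ⟨w, hw0, hw⟩ := exists_orth_ne_zero B ![p₀, y₀]
      (by rw [Module.finrank_pi]; simp; omega)
    have hwp : f w p₀ = 0 := by
      have := hw 0
      rwa [hB] at this
    have hwy : f w y₀ = 0 := by
      have := hw 1
      rwa [hB] at this
    have hpw : f p₀ w = 0 := by rw [hskew, hwp, neg_zero]
    have hyw : f y₀ w = 0 := by rw [hskew, hwy, neg_zero]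
    have hτ0 : (B.flip w) p₀ = 0 := by rw [hfL]; exact hpw
    have hτ : tvGL p₀ (B.flip w) hτ0 ∈ similarityGroup f ⊓ specialLinear (Fin n) F := by
      rw [hEq]
      exact tvGL_mem_specialLinear _ _ _
    obtain ⟨lam, hlam⟩ := hτ.1
    have hτx : ∀ x, ((tvGL p₀ (B.flip w) hτ0 : GL (Fin n) F) : Matrix (Fin n) (Fin n) F) *ᵥ x =
        x + f x w • p₀ := fun x => by rw [tvGL_mulVec, hfL]
    have hy₀p : f y₀ p₀ ≠ 0 := by rw [hskew]; exact neg_ne_zero.mpr hy₀
    have e1 := hlam y₀ p₀
    rw [hτx, hτx, hpw, hyw, zero_smul, add_zero, add_zero] at e1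
    have hlam1 : (lam : F) = 1 := by
      have : (1 - (lam : F)) * f y₀ p₀ = 0 := by linear_combination e1
      rcases mul_eq_zero.mp this with h | h
      · linear_combination -h
      · exact absurd h hy₀p
    have hwnp : w ∉ Submodule.span F {p₀} := by
      intro hmem
      obtain ⟨a, rfl⟩ := Submodule.mem_span_singleton.mp hmem
      rw [hb.smul_left] at hwy
      rcases mul_eq_zero.mp hwy with h | h
      · apply hw0
        rw [h, zero_smul]
      · exact hy₀ h
    obtain ⟨y, hpy, hyw'⟩ := hsep p₀ w hwnp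
    have e2 := hlam y₀ y
    rw [hτx, hτx, hlam1, one_mul, hyw, zero_smul, add_zero, hb.add_right, hb.smul_right] at e2
    have h3 : f y w * f y₀ p₀ = 0 := by linear_combination e2
    rcases mul_eq_zero.mp h3 with h | h
    · exact hyw' h
    · exact hy₀p h
  · intro M hHM hMS
    by_cases hMH : M = similarityGroup f ⊓ specialLinear (Fin n) F
    · exact Or.inl hMH
    right
    apply le_antisymm hMS
    obtain ⟨g, hgM, hgH⟩ : ∃ g ∈ M, g ∉ similarityGroup f := by
      by_contra hcon
      push Not at hcon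
      exact hMH (le_antisymm (fun g hg => ⟨hcon g hg, hMS hg⟩) hHM)
    obtain ⟨InM, hInM⟩ : ∃ InM : (Fin n → F) → (Fin n → F) → Prop, ∀ u w, InM u w ↔
        ∀ (c : F) (τ : GL (Fin n) F),
          (∀ x, (τ : Matrix (Fin n) (Fin n) F) *ᵥ x = x + (c * f x w) • u) → τ ∈ M :=
      ⟨_, fun u w => Iff.rfl⟩
    have hInM_self : ∀ (u : Fin n → F) (a : F), InM u (a • u) := by
      intro u a
      rw [hInM]
      intro c τ hτ
      have : τ = tvGL u ((c * a) • B.flip u) (hst0 u (c * a)) := by
        apply gl_ext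
        intro x
        rw [hτ, hst_apply, hb.smul_right, mul_assoc]
      rw [this]
      exact hHM (hstH u (c * a))
    have hInM_conj : ∀ (h : GL (Fin n) F), h ∈ M →
        (∀ x y, f ((h : Matrix (Fin n) (Fin n) F) *ᵥ x) ((h : Matrix (Fin n) (Fin n) F) *ᵥ y) = f x y) →
        ∀ u w, InM u w → InM ((h : Matrix (Fin n) (Fin n) F) *ᵥ u) ((h : Matrix (Fin n) (Fin n) F) *ᵥ w) := by
      intro h hhM hiso u w huw
      rw [hInM] at huw ⊢
      intro c τ hτ
      have h1 : h⁻¹ * τ * h ∈ M := by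
        apply huw c
        intro x
        rw [Units.val_mul, Units.val_mul, ← Matrix.mulVec_mulVec, ← Matrix.mulVec_mulVec, hτ, hiso,
          Matrix.mulVec_add, Matrix.mulVec_smul, Matrix.mulVec_mulVec, Matrix.mulVec_mulVec,
          ← Units.val_mul, inv_mul_cancel, Units.val_one, Matrix.one_mulVec, Matrix.one_mulVec]
      have h2 : τ = h * (h⁻¹ * τ * h) * h⁻¹ := by group
      rw [h2]
      exact M.mul_mem (M.mul_mem hhM h1) (M.inv_mem hhM)
    -- a pair that is not symplectic
    obtain ⟨u₀, hu₀⟩ : ∃ u₀, ∀ a : F, ¬ ∀ x,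
        f (((g⁻¹ : GL (Fin n) F) : Matrix (Fin n) (Fin n) F) *ᵥ x) u₀ =
          a * f x ((g : Matrix (Fin n) (Fin n) F) *ᵥ u₀) := by
      by_contra hcon
      push Not at hcon
      choose a ha using hcon
      apply hgH
      have h1 : ∀ u y, f y u = a u * f ((g : Matrix (Fin n) (Fin n) F) *ᵥ y)
          ((g : Matrix (Fin n) (Fin n) F) *ᵥ u) := by
        intro u y
        have := ha u ((g : Matrix (Fin n) (Fin n) F) *ᵥ y)
        rwa [Matrix.mulVec_mulVec, ← Units.val_mul, inv_mul_cancel, Units.val_one,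
          Matrix.one_mulVec] at this
      have ha0 : ∀ u, u ≠ 0 → a u ≠ 0 := by
        intro u hu h0
        obtain ⟨⟨y, hy⟩, -⟩ := hf.nondegenerate u hu
        apply hy
        rw [h1, h0, zero_mul]
      have h2 : ∀ u y, f y u ≠ 0 → a u = a y := by
        intro u y hyu
        have e1 := h1 u y
        have e2 := h1 y u
        rw [hskew u y, hskew ((g : Matrix (Fin n) (Fin n) F) *ᵥ u)
          ((g : Matrix (Fin n) (Fin n) F) *ᵥ y)] at e2
        have e3 : f ((g : Matrix (Fin n) (Fin n) F) *ᵥ y) ((g : Matrix (Fin n) (Fin n) F) *ᵥ u) ≠ 0 := by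
          intro h0
          apply hyu
          rw [e1, h0, mul_zero]
        have e4 : (a u - a y) * f ((g : Matrix (Fin n) (Fin n) F) *ᵥ y)
            ((g : Matrix (Fin n) (Fin n) F) *ᵥ u) = 0 := by
          linear_combination -e1 - e2
        rcases mul_eq_zero.mp e4 with h | h
        · exact sub_eq_zero.mp h
        · exact absurd h e3
      have h3 : ∀ u, u ≠ 0 → a u = a p₀ := by
        intro u hu
        obtain ⟨z, hz1, hz2⟩ := hconn p₀ u hp₀ hu
        have e1 := h2 u z hz2
        have e2 := h2 p₀ z (by rw [hskew]; exact neg_ne_zero.mpr hz1)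
        rw [e1, e2]
      refine ⟨Units.mk0 (a p₀)⁻¹ (inv_ne_zero (ha0 p₀ hp₀)), fun u v => ?_⟩
      rw [Units.val_mk0]
      by_cases hv : v = 0
      · subst hv
        rw [Matrix.mulVec_zero, bil_zero_right hb, bil_zero_right hb, mul_zero]
      · have e := h1 v u
        rw [h3 v hv] at e
        rw [e, ← mul_assoc, inv_mul_cancel₀ (ha0 p₀ hp₀), one_mul]
    obtain ⟨w, hw⟩ : ∃ w, ∀ x, f x w =
        f (((g⁻¹ : GL (Fin n) F) : Matrix (Fin n) (Fin n) F) *ᵥ x) u₀ := by
      obtain ⟨w, hw⟩ := H17.exists_repr_right B hBnd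
        ((B.flip u₀).comp (Matrix.toLin' ((g⁻¹ : GL (Fin n) F) : Matrix (Fin n) (Fin n) F)))
      refine ⟨w, fun x => ?_⟩
      rw [← hB, hw, LinearMap.comp_apply, Matrix.toLin'_apply, hfL]
    obtain ⟨p, hp⟩ : ∃ p, p = (g : Matrix (Fin n) (Fin n) F) *ᵥ u₀ := ⟨_, rfl⟩
    have hpw : f p w = 0 := by
      rw [hw, hp, Matrix.mulVec_mulVec, ← Units.val_mul, inv_mul_cancel, Units.val_one,
        Matrix.one_mulVec, halt]
    have hwp : w ∉ Submodule.span F {p} := by
      intro hmem
      obtain ⟨a, rfl⟩ := Submodule.mem_span_singleton.mp hmem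
      apply hu₀ a
      intro x
      rw [← hw, hb.smul_right, hp]
    have hp0 : p ≠ 0 := by
      intro h0
      apply hwp
      rw [h0]
      have hw0 : w = 0 := by
        by_contra hne
        obtain ⟨⟨x, hx⟩, -⟩ := hf.nondegenerate w hne
        apply hx
        have hu0 : u₀ = 0 := by
          apply mulVec_injective g
          show (g : Matrix (Fin n) (Fin n) F) *ᵥ u₀ = (g : Matrix (Fin n) (Fin n) F) *ᵥ 0
          rw [← hp, h0, Matrix.mulVec_zero]
        rw [hw, hu0, bil_zero_right hb]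
      rw [hw0]
      exact Submodule.zero_mem _
    have hInM_pw : InM p w := by
      rw [hInM]
      intro c τ hτ
      have h1 : τ = g * tvGL u₀ (c • B.flip u₀) (hst0 u₀ c) * g⁻¹ := by
        apply gl_ext
        intro x
        rw [hτ, Units.val_mul, Units.val_mul, ← Matrix.mulVec_mulVec, ← Matrix.mulVec_mulVec,
          hst_apply, Matrix.mulVec_add, Matrix.mulVec_smul, Matrix.mulVec_mulVec, ← Units.val_mul,
          mul_inv_cancel, Units.val_one, Matrix.one_mulVec, hw, hp]
      rw [h1]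
      exact M.mul_mem (M.mul_mem hgM (hHM (hstH u₀ c))) (M.inv_mem hgM)
    have hmove1 : ∀ (p w w' : Fin n → F), InM p w → f p w = 0 → f p w' = 0 → f w w' ≠ 0 →
        InM p w' := by
      intro p w w' hI hpw hpw' hww'
      have h1 := hInM_conj (tvGL (w' - w) ((f w w')⁻¹ • B.flip (w' - w)) (hst0 _ _))
        (hHM (hstH _ _)) (hstiso _ _) p w hI
      have e1 : ((tvGL (w' - w) ((f w w')⁻¹ • B.flip (w' - w)) (hst0 _ _) : GL (Fin n) F) :
          Matrix (Fin n) (Fin n) F) *ᵥ p = p := by
        rw [hst_apply, bil_sub_right hb, hpw', hpw, sub_zero, mul_zero, zero_smul, add_zero]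
      have e2 : ((tvGL (w' - w) ((f w w')⁻¹ • B.flip (w' - w)) (hst0 _ _) : GL (Fin n) F) :
          Matrix (Fin n) (Fin n) F) *ᵥ w = w' := by
        rw [hst_apply, bil_sub_right hb, halt, sub_zero, inv_mul_cancel₀ hww', one_smul,
          add_sub_cancel]
      rwa [e1, e2] at h1
    have hfull_p : ∀ w', f p w' = 0 → InM p w' := by
      intro w' hpw'
      by_cases hw' : w' ∈ Submodule.span F {p}
      · obtain ⟨a, rfl⟩ := Submodule.mem_span_singleton.mp hw'
        exact hInM_self p a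
      · by_cases h0 : f w w' = 0
        · obtain ⟨y₁, hy₁p, hy₁w⟩ := hsep p w hwp
          obtain ⟨y₂, hy₂p, hy₂w⟩ := hsep p w' hw'
          obtain ⟨w'', hpw'', h1, h2⟩ : ∃ w'', f p w'' = 0 ∧ f w w'' ≠ 0 ∧ f w'' w' ≠ 0 := by
            by_cases h3 : f y₁ w' = 0
            · by_cases h4 : f y₂ w = 0
              · refine ⟨y₁ + y₂, ?_, ?_, ?_⟩
                · rw [hb.add_right, hy₁p, hy₂p, add_zero]
                · rw [hb.add_right, hskew w y₁, hskew w y₂, h4, neg_zero, add_zero]
                  exact neg_ne_zero.mpr hy₁w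
                · rw [hb.add_left, h3, zero_add]
                  exact hy₂w
              · exact ⟨y₂, hy₂p, by rw [hskew]; exact neg_ne_zero.mpr h4, hy₂w⟩
            · exact ⟨y₁, hy₁p, by rw [hskew]; exact neg_ne_zero.mpr hy₁w, h3⟩
          exact hmove1 p w'' w' (hmove1 p w w'' hInM_pw hpw hpw'' h1) hpw'' hpw' h2
        · exact hmove1 p w w' hInM_pw hpw hpw' h0
    have hfull_move : ∀ (p p' : Fin n → F), (∀ w', f p w' = 0 → InM p w') → f p p' ≠ 0 →
        (∀ w', f p' w' = 0 → InM p' w') := by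
      intro p p' hfull hpp' w' hw'
      obtain ⟨t, ht⟩ : ∃ t, t = tvGL (p' - p) ((f p p')⁻¹ • B.flip (p' - p)) (hst0 _ _) := ⟨_, rfl⟩
      have htiso : ∀ x y, f ((t : Matrix (Fin n) (Fin n) F) *ᵥ x) ((t : Matrix (Fin n) (Fin n) F) *ᵥ y) = f x y := by
        rw [ht]
        exact hstiso _ _
      have htM : t ∈ M := by
        rw [ht]
        exact hHM (hstH _ _)
      have htp : (t : Matrix (Fin n) (Fin n) F) *ᵥ p = p' := by
        rw [ht, hst_apply, bil_sub_right hb, halt, sub_zero, inv_mul_cancel₀ hpp', one_smul,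
          add_sub_cancel]
      have h1 : f p (((t⁻¹ : GL (Fin n) F) : Matrix (Fin n) (Fin n) F) *ᵥ w') = 0 := by
        have := htiso p (((t⁻¹ : GL (Fin n) F) : Matrix (Fin n) (Fin n) F) *ᵥ w')
        rw [htp, Matrix.mulVec_mulVec, ← Units.val_mul, mul_inv_cancel, Units.val_one,
          Matrix.one_mulVec, hw'] at this
        exact this.symm
      have h2 := hInM_conj t htM htiso p _ (hfull _ h1)
      rwa [htp, Matrix.mulVec_mulVec, ← Units.val_mul, mul_inv_cancel, Units.val_one,
        Matrix.one_mulVec] at h2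
    have hfull_all : ∀ p' w', f p' w' = 0 → InM p' w' := by
      intro p' w' hw'
      by_cases hp' : p' = 0
      · subst hp'
        rw [hInM]
        intro c τ hτ
        have : τ = 1 := by
          apply gl_ext
          intro x
          rw [hτ, smul_zero, add_zero, Units.val_one, Matrix.one_mulVec]
        rw [this]
        exact M.one_mem
      · by_cases h0 : f p p' = 0
        · obtain ⟨z, hz1, hz2⟩ := hconn p p' hp0 hp'
          exact hfull_move z p' (hfull_move p z hfull_p hz1) hz2 w' hw'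
        · exact hfull_move p p' hfull_p h0 w' hw'
    apply specialLinear_le_of_tv
    intro u φ hφ
    obtain ⟨w₁, hw₁⟩ := H17.exists_repr_right B hBnd φ
    have h5 := hfull_all u w₁ (by rw [← hB, hw₁, hφ])
    rw [hInM] at h5
    apply h5 1
    intro x
    rw [tvGL_mulVec, one_mul, ← hB, hw₁]

end Cfsg.Agent.S5642
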