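import Cfsg.Statements.S5645
import Cfsg.Agent.H95.SpWitt

set_option autoImplicit false
open Cfsg

namespace Cfsg.Agent.S5645

open Cfsg.Geo Cfsg.Agent.H95
open scoped MatrixGroups Matrix

/-- For a finite field F and m ≥ 7, in the symplectic group Sp_2m(F) of the standard alternating form on F^(2m) (as a subgroup of GL_2m(F)), the stabiliser of any non-zero subspace on which the form vanishes identically is a maximal subgroup. -/
theorem result {F : Type*} [Field F] [Fintype F] (m : ℕ) (hm : 7 ≤ m) (W : Submodule F (Fin m ⊕ Fin m → F)) (hW0 : W ≠ ⊥) (hW : Cfsg.Geo.IsTotallySingularFor (Cfsg.sympForm m F) W) : Cfsg.Geo.IsMaximalIn (Cfsg.spGL m F) (Cfsg.Geo.subspaceStabilizer W ⊓ Cfsg.spGL m F) := by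
  classical
  have hBapply : ∀ u v, H17.sympBilin m F u v = sympForm m F u v := H17.sympBilin_apply m
  have hBnd : (H17.sympBilin m F).Nondegenerate := H17.sympBilin_nondegenerate m
  have hBalt : (H17.sympBilin m F).IsAlt := H17.sympBilin_isAlt m
  have hBrefl : (H17.sympBilin m F).IsRefl := hBalt.isRefl
  obtain ⟨W', hW'⟩ : ∃ W', W' = (H17.sympBilin m F).orthogonal W := ⟨_, rfl⟩
  have hmemW' : ∀ y, y ∈ W' ↔ ∀ x ∈ W, sympForm m F x y = 0 := by
    intro y
    rw [hW', LinearMap.BilinForm.mem_orthogonal_iff]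
    constructor
    · intro h x hx
      rw [← hBapply]
      exact h x hx
    · intro h x hx
      rw [hBapply]
      exact h x hx
  have horth : ∀ a ∈ W, ∀ b ∈ W', sympForm m F a b = 0 := fun a ha b hb => (hmemW' b).mp hb a ha
  have hperp2 : ∀ z, (∀ y ∈ W', sympForm m F y z = 0) → z ∈ W := by
    intro z hz
    have h := LinearMap.BilinForm.orthogonal_orthogonal hBnd hBrefl W
    rw [← h, LinearMap.BilinForm.mem_orthogonal_iff]
    intro y hy
    rw [← hW'] at hy
    rw [hBapply]
    exact hz y hy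
  obtain ⟨x₀, hx₀, hx₀0⟩ := Submodule.exists_mem_ne_zero_of_ne_bot hW0
  refine ⟨lt_of_le_of_ne inf_le_right ?_, ?_⟩
  · intro hEq
    obtain ⟨y, hy⟩ := H17.sympForm_exists_ne m x₀ hx₀0
    have hg : sympTransv y 1 ∈ subspaceStabilizer W ⊓ spGL m F := by
      rw [hEq]
      exact sympTransv_mem_spGL _ _
    have h1 := ((mem_subspaceStabilizer_iff _ W).mp hg.1 x₀).mp hx₀
    rw [sympTransv_mulVec, one_mul] at h1
    have h2 : sympForm m F x₀ y • y ∈ W := by
      have := W.sub_mem h1 hx₀
      rwa [add_sub_cancel_left] at this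
    have h3 : y ∈ W := by
      have := W.smul_mem (sympForm m F x₀ y)⁻¹ h2
      rwa [smul_smul, inv_mul_cancel₀ hy, one_smul] at this
    exact hy (hW x₀ hx₀ y h3)
  · intro M hHM hMS
    by_cases hMH : M = subspaceStabilizer W ⊓ spGL m F
    · exact Or.inl hMH
    right
    apply le_antisymm hMS
    apply spGL_le_of_transv
    obtain ⟨g, hgM, hgW⟩ : ∃ g ∈ M, g ∉ subspaceStabilizer W := by
      by_contra hcon
      push Not at hcon
      exact hMH (le_antisymm (fun g hg => ⟨hcon g hg, hMS hg⟩) hHM)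
    have hW'C : ∀ b ∈ W', b ∈ transvCenters M := by
      intro b hb c
      apply hHM
      refine ⟨mem_subspaceStabilizer_of_forall _ W ?_, sympTransv_mem_spGL _ _⟩
      intro v hv
      rw [sympTransv_mulVec, horth v hv b hb, mul_zero, zero_smul, add_zero]
      exact hv
    obtain ⟨w, hwC, hwW'⟩ : ∃ w ∈ transvCenters M, w ∉ W' := by
      by_contra hcon
      push Not at hcon
      have hMW' : ∀ g' ∈ M, ∀ b ∈ W', (g' : Matrix (Fin m ⊕ Fin m) (Fin m ⊕ Fin m) F) *ᵥ b ∈ W' :=
        fun g' hg' b hb => hcon _ (transvCenters_mulVec hg' (hMS hg') (hW'C b hb))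
      have hMW : ∀ g' ∈ M, ∀ a ∈ W, (g' : Matrix (Fin m ⊕ Fin m) (Fin m ⊕ Fin m) F) *ᵥ a ∈ W := by
        intro g' hg' a ha
        apply hperp2
        intro y hy
        rw [← spGL_inv_form (hMS hg')]
        have := hMW' g'⁻¹ (M.inv_mem hg') y hy
        rw [sympForm_skew, (hmemW' _).mp this a ha, neg_zero]
      exact hgW (mem_subspaceStabilizer_of_forall g W (hMW g hgM))
    have hw : ∃ a ∈ W, sympForm m F a w ≠ 0 := by
      by_contra hcon
      push Not at hcon
      exact hwW' ((hmemW' w).mpr hcon)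
    intro v c
    by_cases hv : v ∈ W'
    · exact hW'C v hv c
    · have hv' : ∃ a ∈ W, sympForm m F a v ≠ 0 := by
        by_contra hcon
        push Not at hcon
        exact hv ((hmemW' v).mpr hcon)
      obtain ⟨h, hSp, hSt, hhw⟩ := exists_stab_map_of_ti W hW hw hv'
      have := transvCenters_mulVec (hHM ⟨hSt, hSp⟩) hSp hwC
      rw [hhw] at this
      exact this c

end Cfsg.Agent.S5645
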