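import Cfsg.Statements.S5646
import Cfsg.Agent.H95.SpMax

set_option autoImplicit false
open Cfsg

namespace Cfsg.Agent.S5646

open Cfsg.Geo Cfsg.Agent.H95
open scoped MatrixGroups Matrix

/-- For a finite field F and m ≥ 7, in the symplectic group Sp_2m(F) of the standard alternating form on F^(2m), the stabiliser of any non-zero subspace W on which the form is non-degenerate and with dim W < m is a maximal subgroup. -/
theorem result {F : Type*} [Field F] [Fintype F] (m : ℕ) (hm : 7 ≤ m) (W : Submodule F (Fin m ⊕ Fin m → F)) (hW0 : W ≠ ⊥) (hW : Cfsg.Geo.IsNondegenerateOn (Cfsg.sympForm m F) W) (hdim : Module.finrank F W < m) : Cfsg.Geo.IsMaximalIn (Cfsg.spGL m F) (Cfsg.Geo.subspaceStabilizer W ⊓ Cfsg.spGL m F) := by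
  classical
  have hBapply : ∀ u v, H17.sympBilin m F u v = sympForm m F u v := H17.sympBilin_apply m
  have hBalt : (H17.sympBilin m F).IsAlt := H17.sympBilin_isAlt m
  have hBrefl : (H17.sympBilin m F).IsRefl := hBalt.isRefl
  obtain ⟨W', hW'⟩ : ∃ W', W' = (H17.sympBilin m F).orthogonal W := ⟨_, rfl⟩
  have hmemW' : ∀ y, y ∈ W' ↔ ∀ x ∈ W, sympForm m F x y = 0 := by
    intro y
    rw [hW', LinearMap.BilinForm.mem_orthogonal_iff]
    constructor
    · intro h x hx
      rw [← hBapply]
      exact h x hx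
    · intro h x hx
      rw [hBapply]
      exact h x hx
  have horth : ∀ a ∈ W, ∀ b ∈ W', sympForm m F a b = 0 := fun a ha b hb => (hmemW' b).mp hb a ha
  have horth' : ∀ b ∈ W', ∀ a ∈ W, sympForm m F b a = 0 := fun b hb a ha => by
    rw [sympForm_skew, horth a ha b hb, neg_zero]
  have hdisj' : ∀ y, y ∈ W → y ∈ W' → y = 0 := by
    intro y hy hy'
    by_contra hne
    obtain ⟨⟨x, hx, hxy⟩, -⟩ := hW y hy hne
    exact hxy (horth x hx y hy')
  have hdisj : Disjoint W W' := by
    rw [Submodule.disjoint_def]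
    exact hdisj'
  have hcompl : IsCompl W W' := by
    rw [hW']
    rw [hW'] at hdisj
    exact (LinearMap.BilinForm.isCompl_orthogonal_iff_disjoint hBrefl).mpr hdisj
  have hdec : ∀ v : Fin m ⊕ Fin m → F, ∃ a ∈ W, ∃ b ∈ W', v = a + b := by
    intro v
    have : v ∈ W ⊔ W' := by rw [hcompl.sup_eq_top]; trivial
    obtain ⟨a, ha, b, hb, hab⟩ := Submodule.mem_sup.mp this
    exact ⟨a, ha, b, hb, hab.symm⟩
  have hfin : Module.finrank F W + Module.finrank F W' = 2 * m := by
    rw [Submodule.finrank_add_eq_of_isCompl hcompl, Module.finrank_pi]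
    simp
    ring
  have hndW : ∀ a ∈ W, a ≠ 0 → ∃ x ∈ W, sympForm m F a x ≠ 0 := fun a ha ha0 => (hW a ha ha0).2
  have hndW' : ∀ b ∈ W', b ≠ 0 → ∃ y ∈ W', sympForm m F b y ≠ 0 := by
    intro b hb hb0
    obtain ⟨y, hy⟩ := H17.sympForm_exists_ne m b hb0
    obtain ⟨y₁, hy₁, y₂, hy₂, rfl⟩ := hdec y
    refine ⟨y₂, hy₂, ?_⟩
    rwa [sympForm_add_right, horth' b hb y₁ hy₁, zero_add] at hy
  obtain ⟨a₀, ha₀, ha₀0⟩ := Submodule.exists_mem_ne_zero_of_ne_bot hW0
  have hW'0 : W' ≠ ⊥ := by
    intro h
    rw [h, finrank_bot] at hfin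
    omega
  obtain ⟨b₀, hb₀, hb₀0⟩ := Submodule.exists_mem_ne_zero_of_ne_bot hW'0
  refine ⟨lt_of_le_of_ne inf_le_right ?_, ?_⟩
  · -- proper
    intro hEq
    obtain ⟨⟨x, hx, hxa⟩, -⟩ := hW a₀ ha₀ ha₀0
    have hg : sympTransv (a₀ + b₀) 1 ∈ subspaceStabilizer W ⊓ spGL m F := by
      rw [hEq]
      exact sympTransv_mem_spGL _ _
    have h1 := ((mem_subspaceStabilizer_iff _ W).mp hg.1 x).mp hx
    rw [sympTransv_mulVec, one_mul, sympForm_add_right, horth x hx b₀ hb₀, add_zero] at h1
    have h2 : sympForm m F x a₀ • (a₀ + b₀) ∈ W := by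
      have := W.sub_mem h1 hx
      rwa [add_sub_cancel_left] at this
    have h3 : a₀ + b₀ ∈ W := by
      have := W.smul_mem (sympForm m F x a₀)⁻¹ h2
      rwa [smul_smul, inv_mul_cancel₀ hxa, one_smul] at this
    have h4 : b₀ ∈ W := by
      have := W.sub_mem h3 ha₀
      rwa [add_sub_cancel_left] at this
    exact hb₀0 (hdisj' b₀ h4 hb₀)
  · -- maximal
    intro M hHM hMS
    by_cases hMH : M = subspaceStabilizer W ⊓ spGL m F
    · exact Or.inl hMH
    right
    apply le_antisymm hMS
    apply spGL_le_of_transv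
    -- an element of M outside the stabiliser
    obtain ⟨g, hgM, hgW⟩ : ∃ g ∈ M, g ∉ subspaceStabilizer W := by
      by_contra hcon
      push Not at hcon
      exact hMH (le_antisymm (fun g hg => ⟨hcon g hg, hMS hg⟩) hHM)
    have hWC : ∀ a ∈ W, a ∈ transvCenters M := by
      intro a ha c
      apply hHM
      refine ⟨mem_subspaceStabilizer_of_forall _ W ?_, sympTransv_mem_spGL _ _⟩
      intro v hv
      rw [sympTransv_mulVec]
      exact W.add_mem hv (W.smul_mem _ ha)
    have hW'C : ∀ b ∈ W', b ∈ transvCenters M := by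
      intro b hb c
      apply hHM
      refine ⟨mem_subspaceStabilizer_of_forall _ W ?_, sympTransv_mem_spGL _ _⟩
      intro v hv
      rw [sympTransv_mulVec, horth v hv b hb, mul_zero, zero_smul, add_zero]
      exact hv
    -- a centre outside W ∪ W'
    obtain ⟨w, hwC, hwW, hwW'⟩ : ∃ w ∈ transvCenters M, w ∉ W ∧ w ∉ W' := by
      by_contra hcon
      push Not at hcon
      have hcon' : ∀ w ∈ transvCenters M, w ∉ W' → w ∈ W := by
        intro w hw hw'
        by_contra h
        exact hw' (hcon w hw h)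
      have hMW' : ∀ g' ∈ M, ∀ b ∈ W', (g' : Matrix (Fin m ⊕ Fin m) (Fin m ⊕ Fin m) F) *ᵥ b ∈ W' := by
        intro g' hg' b hb
        by_contra hb1
        have hall : ∀ b' ∈ W', (g' : Matrix (Fin m ⊕ Fin m) (Fin m ⊕ Fin m) F) *ᵥ b' ∈ W := by
          intro b' hb'
          by_contra hb'1
          have h1 := hcon _ (transvCenters_mulVec hg' (hMS hg') (hW'C b' hb')) hb'1
          have h2 := hcon' _ (transvCenters_mulVec hg' (hMS hg') (hW'C b hb)) hb1
          have h3 := transvCenters_mulVec hg' (hMS hg') (hW'C (b + b') (W'.add_mem hb hb'))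
          rw [Matrix.mulVec_add] at h3
          by_cases h4 : (g' : Matrix (Fin m ⊕ Fin m) (Fin m ⊕ Fin m) F) *ᵥ b +
              (g' : Matrix (Fin m ⊕ Fin m) (Fin m ⊕ Fin m) F) *ᵥ b' ∈ W
          · apply hb'1
            have := W.sub_mem h4 h2
            rwa [add_sub_cancel_left] at this
          · apply hb1
            have := W'.sub_mem (hcon _ h3 h4) h1
            rwa [add_sub_cancel_right] at this
        -- dimension contradiction
        let φ : W' →ₗ[F] W := LinearMap.codRestrict W
          ((Matrix.toLin' (g' : Matrix (Fin m ⊕ Fin m) (Fin m ⊕ Fin m) F)).domRestrict W')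
          (fun b' => by
            rw [LinearMap.domRestrict_apply, Matrix.toLin'_apply]
            exact hall b' b'.2)
        have hφ : Function.Injective φ := by
          intro x y hxy
          apply Subtype.ext
          apply mulVec_injective g'
          have := congrArg Subtype.val hxy
          simpa [φ] using this
        have := LinearMap.finrank_le_finrank_of_injective hφ
        omega
      have hMW : ∀ g' ∈ M, ∀ a ∈ W, (g' : Matrix (Fin m ⊕ Fin m) (Fin m ⊕ Fin m) F) *ᵥ a ∈ W := by
        intro g' hg' a ha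
        by_contra ha1
        have hall : ∀ a' ∈ W, (g' : Matrix (Fin m ⊕ Fin m) (Fin m ⊕ Fin m) F) *ᵥ a' ∈ W' := by
          intro a' ha'
          by_contra ha'1
          have h1 := hcon' _ (transvCenters_mulVec hg' (hMS hg') (hWC a' ha')) ha'1
          have h2 := hcon _ (transvCenters_mulVec hg' (hMS hg') (hWC a ha)) ha1
          have h3 := transvCenters_mulVec hg' (hMS hg') (hWC (a + a') (W.add_mem ha ha'))
          rw [Matrix.mulVec_add] at h3
          by_cases h4 : (g' : Matrix (Fin m ⊕ Fin m) (Fin m ⊕ Fin m) F) *ᵥ a +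
              (g' : Matrix (Fin m ⊕ Fin m) (Fin m ⊕ Fin m) F) *ᵥ a' ∈ W
          · apply ha1
            have := W.sub_mem h4 h1
            rwa [add_sub_cancel_right] at this
          · apply ha'1
            have := W'.sub_mem (hcon _ h3 h4) h2
            rwa [add_sub_cancel_left] at this
        -- then g' maps everything into W'
        obtain ⟨a₁, ha₁, b₁, hb₁, hab⟩ := hdec
          (((g'⁻¹ : GL (Fin m ⊕ Fin m) F) : Matrix (Fin m ⊕ Fin m) (Fin m ⊕ Fin m) F) *ᵥ a₀)
        have h5 := congrArg (fun x => (g' : Matrix (Fin m ⊕ Fin m) (Fin m ⊕ Fin m) F) *ᵥ x) hab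
        simp only [Matrix.mulVec_mulVec, ← Units.val_mul, mul_inv_cancel, Units.val_one,
          Matrix.one_mulVec, Matrix.mulVec_add] at h5
        have h6 : a₀ ∈ W' := by
          rw [h5]
          exact W'.add_mem (hall a₁ ha₁) (hMW' g' hg' b₁ hb₁)
        exact ha₀0 (hdisj' a₀ ha₀ h6)
      exact hgW (mem_subspaceStabilizer_of_forall g W (hMW g hgM))
    obtain ⟨a, ha, b, hb, rfl⟩ := hdec w
    have ha0 : a ≠ 0 := by
      rintro rfl
      rw [zero_add] at hwW'
      exact hwW' hb
    have hb0 : b ≠ 0 := by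
      rintro rfl
      rw [add_zero] at hwW
      exact hwW ha
    -- every vector is a centre
    have hall : ∀ v, v ∈ transvCenters M := by
      intro v
      obtain ⟨a', ha', b', hb', rfl⟩ := hdec v
      by_cases ha'0 : a' = 0
      · rw [ha'0, zero_add]
        exact hW'C b' hb'
      by_cases hb'0 : b' = 0
      · rw [hb'0, add_zero]
        exact hWC a' ha'
      have h1 := transvCenters_move W W' hWC horth hndW ha ha0 ha' ha'0 hb hwC
      rw [add_comm] at h1
      have h2 := transvCenters_move W' W hW'C horth' hndW' hb hb0 hb' hb'0 ha' h1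
      rwa [add_comm] at h2
    intro v c
    exact hall v c

end Cfsg.Agent.S5646
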