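import Cfsg.Statements.S5647
import Cfsg.Agent.H95.SpDecomp

set_option autoImplicit false
open Cfsg

namespace Cfsg.Agent.S5647

open Cfsg.Geo Cfsg.Agent.H95
open scoped MatrixGroups Matrix

/-- For a finite field F with q elements and m ≥ 7, let D be a decomposition of F^(2m) into t ≥ 2 pairwise orthogonal subspaces of equal dimension k on each of which the standard alternating form is non-degenerate, spanning F^(2m). Unless k = 2 and q = 2, the elements of Sp_2m(F) permuting the members of D form a maximal subgroup of Sp_2m(F). -/
theorem result {F : Type*} [Field F] [Fintype F] (m : ℕ) (hm : 7 ≤ m) {t : ℕ} (k : ℕ) (D : Fin t → Submodule F (Fin m ⊕ Fin m → F)) (hD : Cfsg.Geo.IsNondegenerateMDecomposition (Cfsg.sympForm m F) k D) (hex : ¬ (k = 2 ∧ Fintype.card F = 2)) : Cfsg.Geo.IsMaximalIn (Cfsg.spGL m F) (Cfsg.Geo.decompositionStabilizer D ⊓ Cfsg.spGL m F) := by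
  classical
  have hdec := hD.decomp
  have hI : DirectSum.IsInternal D :=
    DirectSum.isInternal_submodule_of_iSupIndep_of_iSup_eq_top hdec.indep hdec.iSup_eq_top
  have horth : ∀ i j, i ≠ j → ∀ u ∈ D i, ∀ v ∈ D j, sympForm m F u v = 0 := hD.orthogonal
  have hnd : ∀ i, ∀ a ∈ D i, a ≠ 0 → ∃ x ∈ D i, sympForm m F a x ≠ 0 :=
    fun i a ha ha0 => (hD.nondegenerate i a ha ha0).2
  have ht := hdec.two_le
  obtain ⟨i0, hi0⟩ : ∃ i0 : Fin t, i0 = ⟨0, by omega⟩ := ⟨_, rfl⟩
  obtain ⟨i1, hi1⟩ : ∃ i1 : Fin t, i1 = ⟨1, by omega⟩ := ⟨_, rfl⟩
  have h01 : i0 ≠ i1 := by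
    rw [hi0, hi1]
    simp [Fin.ext_iff]
  have hDne : ∀ i, ∃ a ∈ D i, a ≠ 0 := by
    intro i
    have h := hdec.finrank_eq i
    have hpos := hdec.pos
    have : D i ≠ ⊥ := by
      intro hb
      rw [hb, finrank_bot] at h
      omega
    exact Submodule.exists_mem_ne_zero_of_ne_bot this
  have hDC : ∀ (M : Subgroup (GL (Fin m ⊕ Fin m) F)), decompositionStabilizer D ⊓ spGL m F ≤ M →
      ∀ i, ∀ a ∈ D i, a ∈ transvCenters M := by
    intro M hHM i a ha c
    apply hHM
    refine ⟨mem_decompositionStabilizer_of_forall hdec _ (fun j => ⟨j, fun x hx => ?_⟩),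
      sympTransv_mem_spGL _ _⟩
    rw [sympTransv_mulVec]
    by_cases hji : j = i
    · rw [hji] at hx ⊢
      exact (D i).add_mem hx ((D i).smul_mem _ ha)
    · rw [horth j i hji x hx a ha, mul_zero, zero_smul, add_zero]
      exact hx
  have hone : ∀ (i : Fin t) (a : Fin m ⊕ Fin m → F), a ∈ D i → a ≠ 0 →
      ∃ x ∈ D i, sympForm m F a x = 1 := by
    intro i a ha ha0
    obtain ⟨x, hx, hax⟩ := hnd i a ha ha0
    refine ⟨(sympForm m F a x)⁻¹ • x, (D i).smul_mem _ hx, ?_⟩
    rw [sympForm_smul_right, inv_mul_cancel₀ hax]
  refine ⟨lt_of_le_of_ne inf_le_right ?_, ?_⟩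
  · -- proper
    intro hEq
    obtain ⟨a, ha, ha0⟩ := hDne i0
    obtain ⟨b, hb, hb0⟩ := hDne i1
    obtain ⟨x, hx, hax⟩ := hnd i0 a ha ha0
    have hg : sympTransv (a + b) 1 ∈ decompositionStabilizer D ⊓ spGL m F := by
      rw [hEq]
      exact sympTransv_mem_spGL _ _
    have h1 := wt_of_mem_decompositionStabilizer hI hg.1 x
    rw [sympTransv_mulVec, one_mul, sympForm_add_right, horth i0 i1 h01 x hx b hb, add_zero] at h1
    have hx0 : x ≠ 0 := by
      rintro rfl
      exact hax (sympForm_zero_right _)
    rw [wt_of_mem hI hx hx0] at h1
    have hs : sympForm m F x a ≠ 0 := by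
      rw [sympForm_skew]
      exact neg_ne_zero.mpr hax
    have h2 : x + sympForm m F x a • (a + b) =
        (x + sympForm m F x a • a) + sympForm m F x a • b := by
      rw [smul_add]
      abel
    have h3 : x + sympForm m F x a • a ≠ 0 := by
      intro h0
      have := congrArg (fun z => sympForm m F z a) h0
      simp only [sympForm_add_left, sympForm_smul_left, sympForm_self, mul_zero, add_zero,
        sympForm_zero_left] at this
      exact hs this
    rw [h2, wt_add_of_mem hI h01 ((D i0).add_mem hx ((D i0).smul_mem _ ha)) h3
      ((D i1).smul_mem _ hb) (smul_ne_zero hs hb0)] at h1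
    omega
  · -- maximal
    intro M hHM hMS
    by_cases hMH : M = decompositionStabilizer D ⊓ spGL m F
    · exact Or.inl hMH
    right
    apply le_antisymm hMS
    apply spGL_le_of_transv
    have hC := hDC M hHM
    -- block moves
    have hP : ∀ w ∈ transvCenters M, ∀ i, comp hI i w ≠ 0 → ∀ a' ∈ D i, a' ≠ 0 →
        w - comp hI i w + a' ∈ transvCenters M := by
      intro w hw i hwi a' ha' ha'0
      have hb : w - comp hI i w ∈ LinearMap.ker (comp hI i) := by
        rw [LinearMap.mem_ker, map_sub, comp_of_mem hI (comp_mem hI i w), sub_self]
      have horth' : ∀ a ∈ D i, ∀ b ∈ LinearMap.ker (comp hI i), sympForm m F a b = 0 := by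
        intro a ha b hb
        rw [sympForm_comp_right hI horth ha, LinearMap.mem_ker.mp hb, sympForm_zero_right]
      have h0 : comp hI i w + (w - comp hI i w) ∈ transvCenters M := by
        rw [add_sub_cancel]
        exact hw
      have := transvCenters_move (D i) (LinearMap.ker (comp hI i)) (hC i) horth' (hnd i)
        (comp_mem hI i w) hwi ha' ha'0 hb h0
      rwa [add_comm] at this
    -- a centre outside all the D i
    obtain ⟨w, hwC, hwD⟩ : ∃ w ∈ transvCenters M, ∀ i, w ∉ D i := by
      by_contra hcon
      push Not at hcon
      apply hMH
      apply le_antisymm _ hHM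
      intro g hg
      refine ⟨mem_decompositionStabilizer_of_forall hdec g (fun i => ?_), hMS hg⟩
      have hgD : ∀ x ∈ D i, ∃ j, (g : Matrix (Fin m ⊕ Fin m) (Fin m ⊕ Fin m) F) *ᵥ x ∈ D j :=
        fun x hx => hcon _ (transvCenters_mulVec hg (hMS hg) (hC i x hx))
      obtain ⟨x₀, hx₀, hx₀0⟩ := hDne i
      obtain ⟨j, hj⟩ := hgD x₀ hx₀
      refine ⟨j, fun x hx => ?_⟩
      obtain ⟨j', hj'⟩ := hgD x hx
      obtain ⟨j'', hj''⟩ := hgD (x + x₀) ((D i).add_mem hx hx₀)
      rw [Matrix.mulVec_add] at hj''
      have hgx₀ : (g : Matrix (Fin m ⊕ Fin m) (Fin m ⊕ Fin m) F) *ᵥ x₀ ≠ 0 := by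
        intro h0
        apply hx₀0
        apply mulVec_injective g
        simp only
        rw [h0, Matrix.mulVec_zero]
      by_cases hjj : j'' = j
      · rw [hjj] at hj''
        have := (D j).sub_mem hj'' hj
        rwa [add_sub_cancel_right] at this
      · have h1 : comp hI j ((g : Matrix (Fin m ⊕ Fin m) (Fin m ⊕ Fin m) F) *ᵥ x +
            (g : Matrix (Fin m ⊕ Fin m) (Fin m ⊕ Fin m) F) *ᵥ x₀) = 0 :=
          comp_of_mem_ne hI hj'' hjj
        rw [map_add, comp_of_mem hI hj] at h1
        by_cases hj'j : j' = j
        · rw [hj'j] at hj'
          exact hj'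
        · rw [comp_of_mem_ne hI hj' hj'j, zero_add] at h1
          exact absurd h1 hgx₀
    obtain ⟨i, l, hil, hwi, hwl⟩ : ∃ i l, i ≠ l ∧ comp hI i w ≠ 0 ∧ comp hI l w ≠ 0 := by
      by_contra hcon
      push Not at hcon
      by_cases hall : ∀ i, comp hI i w = 0
      · apply hwD i0
        rw [← sum_comp hI w]
        simp [hall]
      · push Not at hall
        obtain ⟨i, hi⟩ := hall
        apply hwD i
        have : w = comp hI i w := by
          conv_lhs => rw [← sum_comp hI w]
          rw [Finset.sum_eq_single i]
          · intro j _ hji
            exact hcon i j (Ne.symm hji) hi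
          · intro h
            exact absurd (Finset.mem_univ i) h
        rw [this]
        exact comp_mem hI i w
    -- a centre with exactly two non-zero components
    obtain ⟨a₀, ha₀, ha₀0, b₀, hb₀, hb₀0, hab₀⟩ : ∃ a₀ ∈ D i, a₀ ≠ 0 ∧ ∃ b₀ ∈ D l, b₀ ≠ 0 ∧
        a₀ + b₀ ∈ transvCenters M := by
      obtain ⟨xi, hxi, hxi1⟩ := hone i _ (comp_mem hI i w) hwi
      obtain ⟨xl, hxl, hxl1⟩ := hone l _ (comp_mem hI l w) hwl
      have hxi0 : xi ≠ 0 := by
        rintro rfl
        rw [sympForm_zero_right] at hxi1
        exact zero_ne_one hxi1
      obtain ⟨ul, hul, hul0, hul1, huls⟩ : ∃ ul ∈ D l, ul ≠ 0 ∧ comp hI l w - ul ≠ 0 ∧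
          1 + sympForm m F (comp hI l w) ul ≠ 0 := by
        by_cases hk2 : k = 2
        · have hq : Fintype.card F ≠ 2 := fun h => hex ⟨hk2, h⟩
          obtain ⟨β, hβ0, hβ1⟩ : ∃ β : F, β ≠ 0 ∧ 1 + β ≠ 0 := by
            by_contra hcon
            push Not at hcon
            have hle : Fintype.card F ≤ 2 := by
              have hsub : (Finset.univ : Finset F) ⊆ {0, -1} := by
                intro β _
                by_cases h : β = 0
                · simp [h]
                · have h1 := hcon β h
                  have h2 : β = -1 := by linear_combination h1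
                  simp [h2]
              calc Fintype.card F = (Finset.univ : Finset F).card := rfl
                _ ≤ ({0, -1} : Finset F).card := Finset.card_le_card hsub
                _ ≤ 2 := Finset.card_le_two
            have h2 : 1 < Fintype.card F := Fintype.one_lt_card
            omega
          refine ⟨β • xl, (D l).smul_mem _ hxl, ?_, ?_, ?_⟩
          · intro h0
            have := congrArg (sympForm m F (comp hI l w)) h0
            rw [sympForm_smul_right, hxl1, mul_one, sympForm_zero_right] at this
            exact hβ0 this
          · intro h0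
            have := congrArg (sympForm m F (comp hI l w)) h0
            rw [sympForm_sub_right, sympForm_self, sympForm_smul_right, hxl1, mul_one,
              sympForm_zero_right, zero_sub, neg_eq_zero] at this
            exact hβ0 this
          · rw [sympForm_smul_right, hxl1, mul_one]
            exact hβ1
        · obtain ⟨y, hy, hyP⟩ : ∃ y ∈ D l, y ∉ Submodule.span F {comp hI l w, xl} := by
            by_contra hcon
            push Not at hcon
            have hle : D l ≤ Submodule.span F {comp hI l w, xl} := hcon
            have hle' : Submodule.span F {comp hI l w, xl} ≤ D l := by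
              rw [Submodule.span_le]
              intro z hz
              rcases hz with rfl | rfl
              · exact comp_mem hI l w
              · exact hxl
            have heq : D l = Submodule.span F {comp hI l w, xl} := le_antisymm hle hle'
            have hfin := hdec.finrank_eq l
            rw [heq] at hfin
            have hli : LinearIndependent F ![comp hI l w, xl] := by
              rw [LinearIndependent.pair_iff]
              intro s t' hst
              have h1 := congrArg (sympForm m F (comp hI l w)) hst
              rw [sympForm_add_right, sympForm_smul_right, sympForm_smul_right, sympForm_self,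
                hxl1, sympForm_zero_right] at h1
              have ht0 : t' = 0 := by simpa using h1
              have h2 := congrArg (fun z => sympForm m F z xl) hst
              simp only [sympForm_add_left, sympForm_smul_left, sympForm_self, hxl1,
                sympForm_zero_left] at h2
              have hs0 : s = 0 := by simpa using h2
              exact ⟨hs0, ht0⟩
            have h2 : Module.finrank F (Submodule.span F {comp hI l w, xl}) = 2 := by
              have h3 := finrank_span_eq_card hli
              have h4 : Set.range ![comp hI l w, xl] = {comp hI l w, xl} := by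
                ext z
                simp only [Set.mem_range, Set.mem_insert_iff, Set.mem_singleton_iff]
                constructor
                · rintro ⟨a, rfl⟩
                  fin_cases a
                  · left; rfl
                  · right; rfl
                · rintro (rfl | rfl)
                  · exact ⟨0, rfl⟩
                  · exact ⟨1, rfl⟩
              rw [h4] at h3
              simpa using h3
            omega
          have hmem : ∀ α β : F, α • comp hI l w + β • xl ∈ Submodule.span F {comp hI l w, xl} :=
            fun α β => Submodule.add_mem _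
              (Submodule.smul_mem _ _ (Submodule.subset_span (by simp)))
              (Submodule.smul_mem _ _ (Submodule.subset_span (by simp)))
          refine ⟨y - sympForm m F (comp hI l w) y • xl,
            (D l).sub_mem hy ((D l).smul_mem _ hxl), ?_, ?_, ?_⟩
          · intro h0
            apply hyP
            have : y = (0 : F) • comp hI l w + sympForm m F (comp hI l w) y • xl := by
              rw [zero_smul, zero_add]
              exact sub_eq_zero.mp h0
            rw [this]
            exact hmem _ _
          · intro h0
            apply hyP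
            have : y = (1 : F) • comp hI l w + sympForm m F (comp hI l w) y • xl := by
              rw [one_smul]
              have h5 := sub_eq_zero.mp h0
              rw [eq_sub_iff_add_eq] at h5
              exact h5.symm
            rw [this]
            exact hmem _ _
          · rw [sympForm_sub_right, sympForm_smul_right, hxl1, mul_one, sub_self, add_zero]
            exact one_ne_zero
      have hw1 : w - comp hI i w + xi ∈ transvCenters M := hP w hwC i hwi xi hxi hxi0
      have hc1 : comp hI l (w - comp hI i w + xi) = comp hI l w := by
        rw [map_add, map_sub, comp_of_mem_ne hI (comp_mem hI i w) hil, comp_of_mem_ne hI hxi hil]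
        simp
      have hu : w - comp hI i w + xi - comp hI l w + ul ∈ transvCenters M := by
        have := hP _ hw1 l (by rw [hc1]; exact hwl) ul hul hul0
        rwa [hc1] at this
      have hform : sympForm m F w (w - comp hI i w + xi - comp hI l w + ul) =
          1 + sympForm m F (comp hI l w) ul := by
        have e1 : w - comp hI i w + xi - comp hI l w + ul =
            w + (xi - comp hI i w) + (ul - comp hI l w) := by abel
        rw [e1, sympForm_add_right, sympForm_add_right, sympForm_self, zero_add,
          sympForm_comp_left hI horth ((D i).sub_mem hxi (comp_mem hI i w)),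
          sympForm_comp_left hI horth ((D l).sub_mem hul (comp_mem hI l w)),
          sympForm_sub_right, sympForm_sub_right, sympForm_self, sympForm_self, hxi1]
        ring
      have h3 := transvCenters_transv hu hwC (-(1 + sympForm m F (comp hI l w) ul)⁻¹)
      rw [hform, neg_mul, inv_mul_cancel₀ huls, neg_smul, one_smul] at h3
      have e2 : w + -(w - comp hI i w + xi - comp hI l w + ul) =
          (comp hI i w - xi) + (comp hI l w - ul) := by abel
      rw [e2] at h3
      refine ⟨comp hI i w - xi, (D i).sub_mem (comp_mem hI i w) hxi, ?_,
        comp hI l w - ul, (D l).sub_mem (comp_mem hI l w) hul, hul1, h3⟩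
      intro h0
      have := congrArg (sympForm m F (comp hI i w)) h0
      rw [sympForm_sub_right, sympForm_self, hxi1, sympForm_zero_right] at this
      simp at this
    have hgood_il : ∀ a ∈ D i, a ≠ 0 → ∀ b ∈ D l, b ≠ 0 → a + b ∈ transvCenters M := by
      intro a ha ha0 b hb hb0
      have hc_i : comp hI i (a₀ + b₀) = a₀ := by
        rw [map_add, comp_of_mem hI ha₀, comp_of_mem_ne hI hb₀ (Ne.symm hil), add_zero]
      have h1 := hP _ hab₀ i (by rw [hc_i]; exact ha₀0) a ha ha0
      rw [hc_i] at h1
      have e1 : a₀ + b₀ - a₀ + a = a + b₀ := by abel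
      rw [e1] at h1
      have hc_l : comp hI l (a + b₀) = b₀ := by
        rw [map_add, comp_of_mem hI hb₀, comp_of_mem_ne hI ha hil, zero_add]
      have h2 := hP _ h1 l (by rw [hc_l]; exact hb₀0) b hb hb0
      rw [hc_l] at h2
      have e2 : a + b₀ - b₀ + b = a + b := by abel
      rwa [e2] at h2
    have hswap : ∀ (i l p p' : Fin t), p ≠ p' →
        (∀ a ∈ D i, a ≠ 0 → ∀ b ∈ D l, b ≠ 0 → a + b ∈ transvCenters M) →
        (∀ a ∈ D (Equiv.swap p p' i), a ≠ 0 → ∀ b ∈ D (Equiv.swap p p' l), b ≠ 0 →
          a + b ∈ transvCenters M) := by
      intro i l p p' hpp hg a ha ha0 b hb hb0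
      obtain ⟨τ, hτSp, hτD, hτ⟩ := exists_block_swap hD hpp
      have hτM : τ ∈ M := hHM ⟨hτD, hτSp⟩
      have h1 := hτ _ a ha
      rw [Equiv.swap_apply_self] at h1
      have h2 := hτ _ b hb
      rw [Equiv.swap_apply_self] at h2
      have hne : ∀ z : Fin m ⊕ Fin m → F, z ≠ 0 →
          (τ : Matrix (Fin m ⊕ Fin m) (Fin m ⊕ Fin m) F) *ᵥ z ≠ 0 := by
        intro z hz h0
        apply hz
        apply mulVec_injective τ
        simp only
        rw [h0, Matrix.mulVec_zero]
      have h3 := hg _ h1 (hne a ha0) _ h2 (hne b hb0)
      rw [← Matrix.mulVec_add] at h3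
      have h4 := transvCenters_mulVec (M.inv_mem hτM) (Subgroup.inv_mem _ hτSp) h3
      rwa [Matrix.mulVec_mulVec, ← Units.val_mul, inv_mul_cancel, Units.val_one,
        Matrix.one_mulVec] at h4
    have hgood : ∀ i' l' : Fin t, i' ≠ l' → ∀ a ∈ D i', a ≠ 0 → ∀ b ∈ D l', b ≠ 0 →
        a + b ∈ transvCenters M := by
      intro i' l' hil'
      have h1 : ∃ l₁, l₁ ≠ i' ∧ (∀ a ∈ D i', a ≠ 0 → ∀ b ∈ D l₁, b ≠ 0 →
          a + b ∈ transvCenters M) := by
        by_cases hii : i = i'
        · refine ⟨l, ?_, ?_⟩
          · rw [← hii]; exact Ne.symm hil
          · rw [← hii]; exact hgood_il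
        · refine ⟨Equiv.swap i i' l, ?_, ?_⟩
          · intro h
            have := congrArg (Equiv.swap i i') h
            rw [Equiv.swap_apply_self, Equiv.swap_apply_right] at this
            exact hil this.symm
          · have := hswap i l i i' hii hgood_il
            rwa [Equiv.swap_apply_left] at this
      obtain ⟨l₁, hl₁, hg₁⟩ := h1
      by_cases hll : l₁ = l'
      · rw [← hll]; exact hg₁
      · have := hswap i' l₁ l₁ l' hll hg₁
        rwa [Equiv.swap_apply_of_ne_of_ne (Ne.symm hl₁) hil', Equiv.swap_apply_left] at this
    have hall : ∀ (S : Finset (Fin t)) (v : Fin m ⊕ Fin m → F),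
        (∀ j, j ∉ S → comp hI j v = 0) → v ∈ transvCenters M := by
      intro S
      induction S using Finset.induction_on with
      | empty =>
        intro v hv
        have hv0 : v = 0 := by
          rw [← sum_comp hI v]
          exact Finset.sum_eq_zero (fun j _ => hv j (Finset.notMem_empty j))
        rw [hv0]
        intro c
        have h1 : sympTransv (0 : Fin m ⊕ Fin m → F) c = 1 := by
          apply Units.ext
          apply H17.matrix_ext_mulVec
          intro x
          rw [sympTransv_mulVec]
          simp
        rw [h1]
        exact M.one_mem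
      | insert j S' hjS' IH =>
        intro v hv
        by_cases hvj : comp hI j v = 0
        · apply IH
          intro p hp
          by_cases hpj : p = j
          · rw [hpj]; exact hvj
          · exact hv p (by simp [hpj, hp])
        · have hv'C : v - comp hI j v ∈ transvCenters M := by
            apply IH
            intro p hp
            rw [map_sub]
            by_cases hpj : p = j
            · rw [hpj, comp_of_mem hI (comp_mem hI j v), sub_self]
            · rw [comp_of_mem_ne hI (comp_mem hI j v) (Ne.symm hpj), sub_zero]
              exact hv p (by simp [hpj, hp])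
          by_cases hv'0 : v - comp hI j v = 0
          · have h1 : v = comp hI j v := sub_eq_zero.mp hv'0
            rw [h1]
            exact hC j _ (comp_mem hI j v)
          · obtain ⟨i, hi⟩ : ∃ i, comp hI i (v - comp hI j v) ≠ 0 := by
              by_contra hcon
              push Not at hcon
              apply hv'0
              rw [← sum_comp hI (v - comp hI j v)]
              exact Finset.sum_eq_zero (fun p _ => hcon p)
            have hij : i ≠ j := by
              rintro rfl
              apply hi
              rw [map_sub, comp_of_mem hI (comp_mem hI i v), sub_self]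
            obtain ⟨a, ha, ha1⟩ := hone i _ (comp_mem hI i (v - comp hI j v)) hi
            have ha0 : a ≠ 0 := by
              rintro rfl
              rw [sympForm_zero_right] at ha1
              exact zero_ne_one ha1
            have huC : a + comp hI j v ∈ transvCenters M :=
              hgood i j hij a ha ha0 _ (comp_mem hI j v) hvj
            have h1 := transvCenters_transv huC hv'C 1
            have hf : sympForm m F (v - comp hI j v) (a + comp hI j v) = 1 := by
              rw [sympForm_add_right, sympForm_comp_left hI horth ha, ha1,
                sympForm_comp_left hI horth (comp_mem hI j v), map_sub,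
                comp_of_mem hI (comp_mem hI j v), sub_self, sympForm_zero_left, add_zero]
            rw [hf, mul_one, one_smul] at h1
            have e1 : v - comp hI j v + (a + comp hI j v) = v + a := by abel
            rw [e1] at h1
            have hci : comp hI i (v + a) = comp hI i (v - comp hI j v) + a := by
              rw [map_add, map_sub, comp_of_mem hI ha,
                comp_of_mem_ne hI (comp_mem hI j v) (Ne.symm hij), sub_zero]
            have hne : comp hI i (v + a) ≠ 0 := by
              rw [hci]
              intro h0
              have := congrArg (sympForm m F (comp hI i (v - comp hI j v))) h0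
              rw [sympForm_add_right, sympForm_self, zero_add, ha1, sympForm_zero_right] at this
              exact one_ne_zero this
            have h2 := hP _ h1 i hne (comp hI i (v - comp hI j v)) (comp_mem hI i _) hi
            rw [hci] at h2
            have e2 : v + a - (comp hI i (v - comp hI j v) + a) + comp hI i (v - comp hI j v) = v := by
              abel
            rwa [e2] at h2
    intro v c
    exact hall Finset.univ v (fun j hj => absurd (Finset.mem_univ j) hj) c

end Cfsg.Agent.S5647
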