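import Cfsg.Statements.S5648
import Cfsg.Agent.H95.S5635a
import Cfsg.Agent.H95.Symp

set_option autoImplicit false
open Cfsg

namespace Cfsg.Agent.S5648

open Cfsg.Geo Cfsg.Agent.H95
open scoped MatrixGroups Matrix

/-- Over the field with 2 elements and for m ≥ 7, let D be a decomposition of F^(2m) into t pairwise orthogonal non-degenerate 2-dimensional subspaces for the standard alternating form (t = m ≥ 2). Then the elements of Sp_2m(2) permuting the members of D form a subgroup that is not maximal: some subgroup lies strictly between it and Sp_2m(2). -/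
theorem result {F : Type*} [Field F] [Fintype F] (m : ℕ) (hm : 7 ≤ m) (hq : Fintype.card F = 2) {t : ℕ} (D : Fin t → Submodule F (Fin m ⊕ Fin m → F)) (hD : Cfsg.Geo.IsNondegenerateMDecomposition (Cfsg.sympForm m F) 2 D) : ∃ K : Subgroup (Matrix.GeneralLinearGroup (Fin m ⊕ Fin m) F), Cfsg.Geo.decompositionStabilizer D ⊓ Cfsg.spGL m F < K ∧ K < Cfsg.spGL m F := by
  classical
  have hI : DirectSum.IsInternal D :=
    DirectSum.isInternal_submodule_of_iSupIndep_of_iSup_eq_top hD.decomp.indep hD.decomp.iSup_eq_top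
  let bD : ∀ i, Module.Basis (Fin 2) F (D i) := fun i =>
    Module.finBasisOfFinrankEq F (D i) (hD.decomp.finrank_eq i)
  have hnt : m + m = t * 2 := by
    have h1 := Module.finrank_eq_card_basis (hI.collectedBasis bD)
    simpa using h1
  have ht : 7 ≤ t := by omega
  have h2 := two_eq_zero_of_card_two hq
  set i1 : Fin t := ⟨0, by omega⟩ with hi1
  set i2 : Fin t := ⟨1, by omega⟩ with hi2
  set i3 : Fin t := ⟨2, by omega⟩ with hi3
  have h12 : i1 ≠ i2 := by simp [hi1, hi2]
  have h13 : i1 ≠ i3 := by simp [hi1, hi3]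
  have h23 : i2 ≠ i3 := by simp [hi2, hi3]
  set a : Fin t → (Fin m ⊕ Fin m → F) →ₗ[F] F := fun k => coord hI bD k 0 with ha
  set b : Fin t → (Fin m ⊕ Fin m → F) →ₗ[F] F := fun k => coord hI bD k 1 with hb
  set e : Fin t → (Fin m ⊕ Fin m → F) := fun k => ((bD k 0 : D k) : Fin m ⊕ Fin m → F) with he
  set f : Fin t → (Fin m ⊕ Fin m → F) := fun k => ((bD k 1 : D k) : Fin m ⊕ Fin m → F) with hf
  have hae : ∀ k k', a k (e k') = if k = k' then 1 else 0 := by
    intro k k'; rw [ha, he]; simp only; rw [coord_basis]; simp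
  have haf : ∀ k k', a k (f k') = 0 := by
    intro k k'; rw [ha, hf]; simp only; rw [coord_basis]; simp
  have hbe : ∀ k k', b k (e k') = 0 := by
    intro k k'; rw [hb, he]; simp only; rw [coord_basis]; simp
  have hbf : ∀ k k', b k (f k') = if k = k' then 1 else 0 := by
    intro k k'; rw [hb, hf]; simp only; rw [coord_basis]; simp
  have hem : ∀ k, e k ∈ D k := fun k => Submodule.coe_mem _
  have hfm : ∀ k, f k ∈ D k := fun k => Submodule.coe_mem _
  have he0 : ∀ k, e k ≠ 0 := by
    intro k h
    have := hae k k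
    rw [h, map_zero] at this
    simp at this
  have hcomp : ∀ k x, comp hI k x = a k x • e k + b k x • f k := by
    intro k x
    rw [comp_eq_sum_coord hI bD, Fin.sum_univ_two]
  -- the form on the basis vectors
  have hfe : ∀ k, sympForm m F (f k) (e k) = 1 := by
    intro k
    obtain ⟨⟨x, hxD, hx⟩, -⟩ := hD.nondegenerate k (e k) (hem k) (he0 k)
    have hx' : x = a k x • e k + b k x • f k := by
      rw [← hcomp, comp_of_mem hI hxD]
    rw [hx', sympForm_add_left, sympForm_smul_left, sympForm_smul_left, sympForm_self, mul_zero,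
      zero_add] at hx
    rcases eq_zero_or_one_of_card_two hq (sympForm m F (f k) (e k)) with h0 | h1
    · rw [h0, mul_zero] at hx
      exact absurd rfl hx
    · exact h1
  have hxe : ∀ k x, sympForm m F x (e k) = b k x := by
    intro k x
    conv_lhs => rw [← sum_comp hI x]
    rw [sympForm_sum_left, Finset.sum_eq_single k]
    · rw [hcomp, sympForm_add_left, sympForm_smul_left, sympForm_smul_left, sympForm_self, hfe]
      ring
    · intro i _ hik
      exact hD.orthogonal i k hik _ (comp_mem hI i x) _ (hem k)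
    · intro h; exact absurd (Finset.mem_univ k) h
  -- the first element
  set g₁ : GL (Fin m ⊕ Fin m) F := sympTransv (e i1 + e i2 + e i3) 1 with hg₁
  have hg₁x : ∀ x, (g₁ : Matrix _ _ F) *ᵥ x = x + (b i1 + b i2 + b i3) x • (e i1 + e i2 + e i3) := by
    intro x
    rw [hg₁, sympTransv_mulVec, one_mul, sympForm_add_right, sympForm_add_right, hxe, hxe, hxe]
    rfl
  obtain ⟨hg₁wt, hg₁w⟩ := case_two_two_aux hI bD hq i1 i2 i3 h12 h13 h23 g₁ hg₁x
  -- the second element
  set g₂ : GL (Fin m ⊕ Fin m) F := sympTransv (e i1 + e i2) 1 with hg₂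
  have hg₂wt : g₂ ∉ wtGroup hI := by
    intro h
    have h1 := h (f i1)
    have hf0 : f i1 ≠ 0 := by
      intro h
      have := hbf i1 i1
      rw [h, map_zero] at this
      simp at this
    have hfe0 : f i1 + e i1 ≠ 0 := by
      intro h
      have := hbf i1 i1
      have h' : b i1 (f i1 + e i1) = 1 := by rw [map_add, hbf, hbe, if_pos rfl, add_zero]
      rw [h, map_zero] at h'
      exact zero_ne_one h'
    have hx : (g₂ : Matrix _ _ F) *ᵥ f i1 = (f i1 + e i1) + e i2 := by
      rw [hg₂, sympTransv_mulVec, one_mul, sympForm_add_right, hxe, hxe, hbf, hbf, if_pos rfl,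
        if_neg h12.symm, add_zero, one_smul]
      abel
    rw [hx, wt_add_of_mem hI h12 ((D i1).add_mem (hfm i1) (hem i1)) hfe0 (hem i2) (he0 i2),
      wt_of_mem hI (hfm i1) hf0] at h1
    have h3 : (1 : F) = 0 := by
      have : ((2 : ℕ) : F) = ((1 : ℕ) : F) := h1
      push_cast at this
      linear_combination this
    exact one_ne_zero h3
  exact exists_between_of_wt' hI (spGL m F) g₁ g₂ (sympTransv_mem_spGL _ _) hg₁wt _ hg₁w
    (sympTransv_mem_spGL _ _) hg₂wt

end Cfsg.Agent.S5648
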