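import Cfsg.Statements.S5652
import Cfsg.Agent.H95.SpMax
import Cfsg.Agent.H95.QF

set_option autoImplicit false
open Cfsg

namespace Cfsg.Agent.S5652

open Cfsg.Geo Cfsg.Agent.H95
open scoped MatrixGroups Matrix

/-- For a finite field F of characteristic two and m ≥ 7, let Q be a non-degenerate quadratic form on F^(2m) whose polar form is the standard alternating form. Then the elements of Sp_2m(F) that are similarities of Q (they are exactly the isometries of Q) form a maximal subgroup of Sp_2m(F). -/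
theorem result {F : Type*} [Field F] [Fintype F] (m : ℕ) (hm : 7 ≤ m) (heven : ¬ Odd (Fintype.card F)) (Q : (Fin m ⊕ Fin m → F) → F) (hQ : Cfsg.Geo.IsNondegenerateQuadraticForm Q) (hpol : ∀ u v, QuadraticMap.polar Q u v = Cfsg.sympForm m F u v) : Cfsg.Geo.IsMaximalIn (Cfsg.spGL m F) (Cfsg.Geo.quadSimilarityGroup Q ⊓ Cfsg.spGL m F) := by
  classical
  have h2 := two_eq_zero_of_not_odd heven
  have hb := hQ.polar_bilinear
  have hcard : 3 ≤ Fintype.card (Fin m ⊕ Fin m) := by
    simp only [Fintype.card_sum, Fintype.card_fin]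
    omega
  -- the value of Q on the image of a transvection
  have hQt : ∀ (u : Fin m ⊕ Fin m → F) (c : F) (x : Fin m ⊕ Fin m → F),
      Q (((sympTransv u c : GL (Fin m ⊕ Fin m) F) : Matrix (Fin m ⊕ Fin m) (Fin m ⊕ Fin m) F) *ᵥ x) =
        Q x + c * (sympForm m F x u) ^ 2 * (c * Q u + 1) := by
    intro u c x
    rw [sympTransv_mulVec, q_add_smul hQ, hpol]
    ring
  -- isometries lie in the subgroup
  have hisoH : ∀ g : GL (Fin m ⊕ Fin m) F, g ∈ isometryGroup F Q →
      g ∈ quadSimilarityGroup Q ⊓ spGL m F := by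
    intro g hg
    refine ⟨⟨1, fun v => ?_⟩, (mem_spGL_iff g).mpr ?_⟩
    · rw [Units.val_one, one_mul]
      exact (mem_isometryGroup_iff Q g).mp hg v
    · intro u v
      rw [← hpol, ← hpol, polar_isometry hg]
  obtain ⟨s₀, hs₀, hQs₀⟩ := exists_singular_ne_zero hQ hcard
  refine ⟨lt_of_le_of_ne inf_le_right ?_, ?_⟩
  · intro hEq
    have ht : sympTransv s₀ 1 ∈ quadSimilarityGroup Q ⊓ spGL m F := by
      rw [hEq]
      exact sympTransv_mem_spGL _ _
    obtain ⟨c, hc⟩ := ht.1
    obtain ⟨z, hQz, hz⟩ := exists_singular_polar_ne hQ hcard hs₀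
    have h3 := hc z
    rw [hQt, hQz, hQs₀, ← hpol] at h3
    have h4 : (QuadraticMap.polar Q z s₀) ^ 2 = 0 := by linear_combination h3
    exact hz ((pow_eq_zero_iff (two_ne_zero)).mp h4)
  · intro M hHM hMS
    by_cases hMH : M = quadSimilarityGroup Q ⊓ spGL m F
    · exact Or.inl hMH
    right
    apply le_antisymm hMS
    apply spGL_le_of_transv
    obtain ⟨g, hgM, hgH⟩ : ∃ g ∈ M, g ∉ quadSimilarityGroup Q := by
      by_contra hcon
      push Not at hcon
      exact hMH (le_antisymm (fun g hg => ⟨hcon g hg, hMS hg⟩) hHM)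
    have hgS := hMS hgM
    have hgpol : ∀ x y, QuadraticMap.polar Q ((g : Matrix (Fin m ⊕ Fin m) (Fin m ⊕ Fin m) F) *ᵥ x)
        ((g : Matrix (Fin m ⊕ Fin m) (Fin m ⊕ Fin m) F) *ᵥ y) = QuadraticMap.polar Q x y := by
      intro x y
      rw [hpol, hpol]
      exact hgS x y
    -- a singular vector whose image is non-singular
    obtain ⟨v₁, hQv₁, hgv₁⟩ : ∃ v₁, Q v₁ = 0 ∧
        Q ((g : Matrix (Fin m ⊕ Fin m) (Fin m ⊕ Fin m) F) *ᵥ v₁) ≠ 0 := by
      by_contra hcon
      push Not at hcon
      apply hgH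
      refine ⟨1, fun v => ?_⟩
      rw [Units.val_one, one_mul]
      have h1 : ∀ z, QuadraticMap.polar Q z s₀ ≠ 0 →
          Q ((g : Matrix (Fin m ⊕ Fin m) (Fin m ⊕ Fin m) F) *ᵥ z) = Q z := by
        intro z hz
        have hsing : Q (z - (Q z / QuadraticMap.polar Q z s₀) • s₀) = 0 := by
          have := q_add_smul hQ z s₀ (-(Q z / QuadraticMap.polar Q z s₀))
          rw [neg_smul, ← sub_eq_add_neg] at this
          rw [this, hQs₀]
          field_simp
          ring
        have h5 := hcon _ hsing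
        have h6 := q_add_smul hQ ((g : Matrix (Fin m ⊕ Fin m) (Fin m ⊕ Fin m) F) *ᵥ z)
          ((g : Matrix (Fin m ⊕ Fin m) (Fin m ⊕ Fin m) F) *ᵥ s₀) (-(Q z / QuadraticMap.polar Q z s₀))
        rw [neg_smul, ← sub_eq_add_neg, ← Matrix.mulVec_smul, ← Matrix.mulVec_sub, h5,
          hcon s₀ hQs₀, hgpol] at h6
        field_simp at h6
        have h7 : Q ((g : Matrix (Fin m ⊕ Fin m) (Fin m ⊕ Fin m) F) *ᵥ z) * QuadraticMap.polar Q z s₀ ^ 2 =
            Q z * QuadraticMap.polar Q z s₀ ^ 2 := by linear_combination -h6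
        exact mul_right_cancel₀ (pow_ne_zero 2 hz) h7
      by_cases hv : QuadraticMap.polar Q v s₀ = 0
      · obtain ⟨z₀, hz₀⟩ := (hQ.nondegenerate s₀ hs₀).1
        have ha := h1 z₀ hz₀
        have hb' := h1 (v + z₀) (by rw [hb.add_left, hv, zero_add]; exact hz₀)
        rw [Matrix.mulVec_add, q_add Q, q_add Q v z₀, hgpol, ha] at hb'
        linear_combination hb'
      · exact h1 v hv
    obtain ⟨μ, hμ⟩ : ∃ μ, μ = Q ((g : Matrix (Fin m ⊕ Fin m) (Fin m ⊕ Fin m) F) *ᵥ v₁) := ⟨_, rfl⟩
    have hμ0 : μ ≠ 0 := by rw [hμ]; exact hgv₁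
    have hv₁0 : v₁ ≠ 0 := by
      rintro rfl
      apply hgv₁
      rw [Matrix.mulVec_zero, q_zero hQ]
    have ht1 : sympTransv ((g : Matrix (Fin m ⊕ Fin m) (Fin m ⊕ Fin m) F) *ᵥ v₁) μ⁻¹ ∈ M := by
      apply hHM
      apply hisoH
      rw [mem_isometryGroup_iff]
      intro x
      rw [hQt, ← hμ, inv_mul_cancel₀ hμ0]
      linear_combination (μ⁻¹ * sympForm m F x ((g : Matrix (Fin m ⊕ Fin m) (Fin m ⊕ Fin m) F) *ᵥ v₁) ^ 2) * h2
    have ht2 : sympTransv v₁ μ⁻¹ ∈ M := by
      have h7 := sympTransv_conj ((spGL m F).inv_mem hgS)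
        ((g : Matrix (Fin m ⊕ Fin m) (Fin m ⊕ Fin m) F) *ᵥ v₁) μ⁻¹
      rw [Matrix.mulVec_mulVec, ← Units.val_mul, inv_mul_cancel, Units.val_one, Matrix.one_mulVec] at h7
      rw [← h7]
      exact M.mul_mem (M.mul_mem (M.inv_mem hgM) ht1) (M.inv_mem (M.inv_mem hgM))
    have hone : ∀ (v : Fin m ⊕ Fin m → F) (c : F), (c = 0 ∨ v = 0) → sympTransv v c = 1 := by
      intro v c hvc
      apply Units.ext
      apply H17.matrix_ext_mulVec
      intro x
      rw [sympTransv_mulVec, Units.val_one, Matrix.one_mulVec]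
      rcases hvc with h | h
      · rw [h, zero_mul, zero_smul, add_zero]
      · rw [h, smul_zero, add_zero]
    -- every singular vector is a centre
    have hsing : ∀ v, Q v = 0 → v ∈ transvCenters M := by
      intro v hQv c
      by_cases hv0 : v = 0
      · rw [hone v c (Or.inr hv0)]
        exact M.one_mem
      by_cases hc : c = 0
      · rw [hone v c (Or.inl hc)]
        exact M.one_mem
      obtain ⟨lam, hlam⟩ := exists_sq_of_not_odd heven (c * μ)
      have hlam0 : lam ≠ 0 := by
        rintro rfl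
        rw [mul_zero] at hlam
        exact mul_ne_zero hc hμ0 hlam.symm
      obtain ⟨h, hh, hhv⟩ := exists_isometry_map hQ hv₁0 (smul_ne_zero hlam0 hv0)
        (by rw [hQv₁, hQ.smul, hQv, mul_zero])
      have hhH := hisoH h hh
      have h8 := sympTransv_conj hhH.2 v₁ μ⁻¹
      rw [hhv] at h8
      have h5 : sympTransv (lam • v) μ⁻¹ = sympTransv v c := by
        apply Units.ext
        apply H17.matrix_ext_mulVec
        intro x
        rw [sympTransv_mulVec, sympTransv_mulVec, sympForm_smul_right, smul_smul]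
        congr 2
        field_simp
        linear_combination (sympForm m F x v) * hlam
      rw [← h5, ← h8]
      exact M.mul_mem (M.mul_mem (hHM hhH) ht2) (M.inv_mem (hHM hhH))
    intro v c
    by_cases hQv : Q v = 0
    · exact hsing v hQv c
    · have hv0 : v ≠ 0 := by
        rintro rfl
        exact hQv (q_zero hQ)
      obtain ⟨s, hQs, hsv⟩ := exists_singular_polar_ne hQ hcard hv0
      obtain ⟨t, ht⟩ : ∃ t, t = Q v / QuadraticMap.polar Q s v := ⟨_, rfl⟩
      have hw : Q (v + t • s) = 0 := by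
        rw [q_add_smul hQ, hQs, polar_symm Q v s, ht, mul_zero, add_zero, div_mul_cancel₀ _ hsv]
        linear_combination (Q v) * h2
      have hwC := hsing _ hw
      have hsC := hsing s hQs
      have h9 := transvCenters_transv hsC hwC (t / QuadraticMap.polar Q s v)
      have h6 : v + t • s + (t / QuadraticMap.polar Q s v * sympForm m F (v + t • s) s) • s = v := by
        rw [← hpol, hb.add_left, hb.smul_left, polar_self hQ, hQs, polar_symm Q v s]
        have h10 : t / QuadraticMap.polar Q s v * (QuadraticMap.polar Q s v + t * (2 * 0)) = t := by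
          field_simp
          ring
        rw [h10, add_assoc, ← add_smul]
        have h11 : t + t = 0 := by linear_combination t * h2
        rw [h11, zero_smul, add_zero]
      rw [h6] at h9
      exact h9 c

end Cfsg.Agent.S5652
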