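import Cfsg.Statements.S5653
import Cfsg.Agent.H95.SUMax

set_option autoImplicit false
open Cfsg

namespace Cfsg.Agent.S5653

open Cfsg.Geo Cfsg.Agent.H95
open scoped MatrixGroups Matrix

/-- Let F be the field with q² elements and n ≥ 13, and let SU_n(q) be the group of matrices of determinant one preserving the standard unitary form Σ u_i v_i^q on F^n (the intersection of the unitary group GU_n with the kernel of the determinant). The elements of SU_n(q) stabilising a non-zero subspace on which the form vanishes identically form a maximal subgroup of SU_n(q). -/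
theorem result {F : Type*} [Field F] [Fintype F] (n q : ℕ) (hF : Fintype.card F = q ^ 2) (hn : 13 ≤ n) (W : Submodule F (Fin n → F)) (hW0 : W ≠ ⊥) (hW : Cfsg.Geo.IsTotallySingularFor (Cfsg.hermForm n F q) W) : Cfsg.Geo.IsMaximalIn (Cfsg.GU n F q ⊓ Cfsg.Geo.specialLinear (Fin n) F) (Cfsg.Geo.subspaceStabilizer W ⊓ (Cfsg.GU n F q ⊓ Cfsg.Geo.specialLinear (Fin n) F)) := by
  classical
  have hn3 : 3 ≤ n := by omega
  have h32 : ¬ (n = 3 ∧ q = 2) := by omega
  have hWti : ∀ u ∈ W, ∀ v ∈ W, hermForm n F q u v = 0 := hW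
  obtain ⟨x₀, hx₀, hx₀0⟩ := Submodule.exists_mem_ne_zero_of_ne_bot hW0
  obtain ⟨ε, hε0, hε⟩ := H17.exists_eps hF
  have hε' : ε + ε ^ q = 0 := by rw [hε]; ring
  have hperpC : ∀ (M : Subgroup (GL (Fin n) F)),
      subspaceStabilizer W ⊓ (GU n F q ⊓ specialLinear (Fin n) F) ≤ M →
      ∀ b, hermForm n F q b b = 0 → (∀ a ∈ W, hermForm n F q a b = 0) → b ∈ uCenters q M := by
    intro M hHM b hb hbW
    refine ⟨hb, fun c hc => hHM ⟨mem_subspaceStabilizer_of_forall _ W ?_,
      unitTransv_mem_GU hF b c hb hc, unitTransv_mem_specialLinear b c hb⟩⟩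
    intro v hv
    rw [unitTransv_mulVec, hbW v hv, mul_zero, zero_smul, add_zero]
    exact hv
  refine ⟨lt_of_le_of_ne inf_le_right ?_, ?_⟩
  · intro hEq
    obtain ⟨z, hz⟩ : ∃ z, hermForm n F q x₀ z ≠ 0 := by
      by_contra hcon
      push Not at hcon
      exact hx₀0 (H17.hermForm_nd_right hF n x₀ hcon)
    obtain ⟨l, hl⟩ := exists_isotropic_add hF (hWti x₀ hx₀ x₀ hx₀) hz
    have hxy : hermForm n F q x₀ (z + l • x₀) ≠ 0 := by
      rw [hermForm_add_right hF, hermForm_smul_right, hWti x₀ hx₀ x₀ hx₀, mul_zero, add_zero]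
      exact hz
    have hg : unitTransv q (z + l • x₀) ε hl ∈
        subspaceStabilizer W ⊓ (GU n F q ⊓ specialLinear (Fin n) F) := by
      rw [hEq]
      exact ⟨unitTransv_mem_GU hF _ ε hl hε', unitTransv_mem_specialLinear _ ε hl⟩
    have h1 := ((mem_subspaceStabilizer_iff _ W).mp hg.1 x₀).mp hx₀
    rw [unitTransv_mulVec] at h1
    have h2 : (ε * hermForm n F q x₀ (z + l • x₀)) • (z + l • x₀) ∈ W := by
      have := W.sub_mem h1 hx₀
      rwa [add_sub_cancel_left] at this
    have h3 : z + l • x₀ ∈ W := by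
      have := W.smul_mem (ε * hermForm n F q x₀ (z + l • x₀))⁻¹ h2
      rwa [smul_smul, inv_mul_cancel₀ (mul_ne_zero hε0 hxy), one_smul] at this
    exact hxy (hWti x₀ hx₀ _ h3)
  · intro M hHM hMS
    by_cases hMH : M = subspaceStabilizer W ⊓ (GU n F q ⊓ specialLinear (Fin n) F)
    · exact Or.inl hMH
    right
    apply le_antisymm hMS
    apply suGL_le_of_transv hF hn3 h32
    obtain ⟨g, hgM, hgW⟩ : ∃ g ∈ M, g ∉ subspaceStabilizer W := by
      by_contra hcon
      push Not at hcon
      exact hMH (le_antisymm (fun g hg => ⟨hcon g hg, hMS hg⟩) hHM)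
    have hC := hperpC M hHM
    -- a centre not orthogonal to W
    obtain ⟨w, hwC, hwW⟩ : ∃ w ∈ uCenters q M, ∃ a ∈ W, hermForm n F q a w ≠ 0 := by
      by_contra hcon
      push Not at hcon
      apply hgW
      apply mem_subspaceStabilizer_of_forall
      have key : ∀ g' ∈ M, ∀ a ∈ W, (g' : Matrix (Fin n) (Fin n) F) *ᵥ a ∈ W := by
        intro g' hg' a ha
        by_contra hga
        have haC : a ∈ uCenters q M := hC a (hWti a ha a ha) (fun a' ha' => hWti a' ha' a ha)
        have hgaC := uCenters_mulVec hg' (hMS hg').1 haC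
        have hga0 := hgaC.1
        obtain ⟨y, hy1, hyW⟩ := H17.herm_partner (H17.frobHom hF) (H17.frobHom_invol hF)
          (H17.hermSesq hF n) (H17.hermSesq_isSymm hF n) (H17.hermSesq_nondegenerate hF n)
          ((g' : Matrix (Fin n) (Fin n) F) *ᵥ a) W hga
        simp only [H17.hermSesq_apply] at hy1 hyW
        obtain ⟨l, hl⟩ := exists_isotropic_add hF hga0 (by rw [hy1]; exact one_ne_zero)
        have hv'W : ∀ a' ∈ W, hermForm n F q a'
            (y + l • (g' : Matrix (Fin n) (Fin n) F) *ᵥ a) = 0 := by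
          intro a' ha'
          rw [hermForm_add_right hF, hermForm_smul_right, hyW a' ha', hcon _ hgaC a' ha',
            mul_zero, add_zero]
        have hv'C := hC _ hl hv'W
        have h1 := uCenters_mulVec (M.inv_mem hg') (Subgroup.inv_mem _ (hMS hg').1) hv'C
        have h2 := hcon _ h1 a ha
        have h3 : hermForm n F q a (((g'⁻¹ : GL (Fin n) F) : Matrix (Fin n) (Fin n) F) *ᵥ
            (y + l • (g' : Matrix (Fin n) (Fin n) F) *ᵥ a)) =
            hermForm n F q ((g' : Matrix (Fin n) (Fin n) F) *ᵥ a)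
              (y + l • (g' : Matrix (Fin n) (Fin n) F) *ᵥ a) := by
          have := GU_form (hMS hg').1 a (((g'⁻¹ : GL (Fin n) F) : Matrix (Fin n) (Fin n) F) *ᵥ
            (y + l • (g' : Matrix (Fin n) (Fin n) F) *ᵥ a))
          rw [Matrix.mulVec_mulVec, ← Units.val_mul, mul_inv_cancel, Units.val_one,
            Matrix.one_mulVec] at this
          exact this.symm
        rw [h3, hermForm_add_right hF, hermForm_smul_right, hga0, mul_zero, add_zero, hy1] at h2
        exact one_ne_zero h2
      exact key g hgM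
    intro v c hv hc
    by_cases hvW : ∀ a ∈ W, hermForm n F q a v = 0
    · exact uCenters_of_mem (hC v hv hvW) c hv hc
    · push Not at hvW
      obtain ⟨a₂, ha₂, ha₂v⟩ := hvW
      obtain ⟨a₁, ha₁, ha₁w⟩ := hwW
      obtain ⟨x₁, hx₁, h1, h2⟩ : ∃ x₁ ∈ W, hermForm n F q x₁ w ≠ 0 ∧ hermForm n F q x₁ v ≠ 0 := by
        by_cases h3 : hermForm n F q a₁ v = 0
        · by_cases h4 : hermForm n F q a₂ w = 0
          · refine ⟨a₁ + a₂, W.add_mem ha₁ ha₂, ?_, ?_⟩
            · rw [hermForm_add_left, h4, add_zero]; exact ha₁w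
            · rw [hermForm_add_left, h3, zero_add]; exact ha₂v
          · exact ⟨a₂, ha₂, h4, ha₂v⟩
        · exact ⟨a₁, ha₁, ha₁w, h3⟩
      have hq := H17.two_le_of_card_sq hF
      have hw0 : hermForm n F q w w = 0 := hwC.1
      -- normalise
      obtain ⟨η, hη⟩ : ∃ η, η = hermForm n F q w x₁ := ⟨_, rfl⟩
      have hη0 : η ≠ 0 := by
        rw [hη, hermForm_herm hF x₁ w]
        exact pow_ne_zero _ h1
      obtain ⟨x, hxdef⟩ : ∃ x, x = (η⁻¹ ^ q) • x₁ := ⟨_, rfl⟩
      have hxW : x ∈ W := by rw [hxdef]; exact W.smul_mem _ hx₁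
      have hwx : hermForm n F q w x = 1 := by
        rw [hxdef, hermForm_smul_right, frob_frob hF, ← hη, inv_mul_cancel₀ hη0]
      have hvx : hermForm n F q v x ≠ 0 := by
        rw [hxdef, hermForm_smul_right, frob_frob hF, hermForm_herm hF x₁ v]
        exact mul_ne_zero (inv_ne_zero hη0) (pow_ne_zero _ h2)
      obtain ⟨ν, hν⟩ : ∃ ν, ν = hermForm n F q v x := ⟨_, rfl⟩
      rw [← hν] at hvx
      obtain ⟨u, hu⟩ : ∃ u, u = ν⁻¹ • v - w := ⟨_, rfl⟩
      have hwu : w + u = ν⁻¹ • v := by rw [hu]; abel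
      have hv'0 : hermForm n F q (w + u) (w + u) = 0 := by
        rw [hwu, hermForm_smul_left, hermForm_smul_right, hv]
        ring
      have hux : hermForm n F q u x = 0 := by
        rw [hu]
        have : hermForm n F q (ν⁻¹ • v - w) x =
            hermForm n F q (ν⁻¹ • v) x - hermForm n F q w x := by
          have h5 := hermForm_add_left (q := q) (ν⁻¹ • v - w) w x
          rw [sub_add_cancel] at h5
          rw [h5]; ring
        rw [this, hermForm_smul_left, ← hν, hwx, inv_mul_cancel₀ hvx, sub_self]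
      have hb : hermForm n F q w u + (hermForm n F q w u) ^ q + hermForm n F q u u = 0 := by
        have h5 := hv'0
        simp only [hermForm_add_left, hermForm_add_right hF, hw0] at h5
        rw [← hermForm_herm hF w u]
        linear_combination h5
      obtain ⟨E, hEG, hE⟩ := exists_eichler hF x u (hermForm n F q w u)
        (hWti x hxW x hxW) hux hb
      have hEW : E ∈ subspaceStabilizer W := by
        apply mem_subspaceStabilizer_of_forall
        intro z hz
        rw [hE, hWti z hz x hxW]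
        simp only [zero_smul, mul_zero, zero_add, add_zero]
        exact W.add_mem hz (W.smul_mem _ hxW)
      have hEM : E ∈ M := hHM ⟨hEW, hEG⟩
      have h5 := uCenters_mulVec hEM hEG.1 hwC
      have h6 : (E : Matrix (Fin n) (Fin n) F) *ᵥ w = ν⁻¹ • v := by
        rw [hE, hwx, ← hwu, one_smul, mul_one]
        rw [neg_smul, neg_add_cancel_right]
      rw [h6] at h5
      have h7 := uCenters_smul hF h5 ν
      rw [smul_smul, mul_inv_cancel₀ hvx, one_smul] at h7
      exact uCenters_of_mem h7 c hv hc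

end Cfsg.Agent.S5653
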