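import Cfsg.Statements.S5654
import Cfsg.Agent.H95.NDU4

set_option autoImplicit false
open Cfsg

namespace Cfsg.Agent.S5654

open Cfsg.Geo Cfsg.Agent.H95
open scoped MatrixGroups Matrix

/-- Let F be the field with q² elements and n ≥ 13. In SU_n(q) (determinant-one isometries of the standard unitary form on F^n) the stabiliser of a non-zero subspace W on which the form is non-degenerate and with 2 dim W < n is a maximal subgroup. -/
theorem result {F : Type*} [Field F] [Fintype F] (n q : ℕ) (hF : Fintype.card F = q ^ 2) (hn : 13 ≤ n) (W : Submodule F (Fin n → F)) (hW0 : W ≠ ⊥) (hW : Cfsg.Geo.IsNondegenerateOn (Cfsg.hermForm n F q) W) (hdim : 2 * Module.finrank F W < n) : Cfsg.Geo.IsMaximalIn (Cfsg.GU n F q ⊓ Cfsg.Geo.specialLinear (Fin n) F) (Cfsg.Geo.subspaceStabilizer W ⊓ (Cfsg.GU n F q ⊓ Cfsg.Geo.specialLinear (Fin n) F)) :=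
  ndU_isMaximalIn hF hn W hW0 hW hdim

end Cfsg.Agent.S5654
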