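import Cfsg.Statements.S5656
import Cfsg.Agent.H95.Decomp
import Cfsg.Agent.H95.Herm2

set_option autoImplicit false
open Cfsg

namespace Cfsg.Agent.S5656

open Cfsg.Geo Cfsg.Agent.H95
open scoped MatrixGroups Matrix

/-- Let F be the field with 4 elements (q = 2) and n ≥ 13. Let D be a decomposition of F^n into t pairwise orthogonal 2-dimensional subspaces, each non-degenerate for the standard unitary form Σ u_i v_i². Then the elements of SU_n(2) permuting the members of D form a subgroup that is not maximal: some subgroup lies strictly between it and SU_n(2). -/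
theorem result {F : Type*} [Field F] [Fintype F] (n : ℕ) (hF : Fintype.card F = 4) (hn : 13 ≤ n) {t : ℕ} (D : Fin t → Submodule F (Fin n → F)) (hD : Cfsg.Geo.IsNondegenerateMDecomposition (Cfsg.hermForm n F 2) 2 D) : ∃ K : Subgroup (Matrix.GeneralLinearGroup (Fin n) F), Cfsg.Geo.decompositionStabilizer D ⊓ (Cfsg.GU n F 2 ⊓ Cfsg.Geo.specialLinear (Fin n) F) < K ∧ K < (Cfsg.GU n F 2 ⊓ Cfsg.Geo.specialLinear (Fin n) F) := by
  classical
  have hF' : Fintype.card F = 2 ^ 2 := by rw [hF]; norm_num
  have h2 := two_eq_zero_of_card_four hF'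
  have hI : DirectSum.IsInternal D :=
    DirectSum.isInternal_submodule_of_iSupIndep_of_iSup_eq_top hD.decomp.indep hD.decomp.iSup_eq_top
  let bD : ∀ i, Module.Basis (Fin 2) F (D i) := fun i =>
    Module.finBasisOfFinrankEq F (D i) (hD.decomp.finrank_eq i)
  have hnt : n = t * 2 := by
    have h1 := Module.finrank_eq_card_basis (hI.collectedBasis bD)
    simpa using h1
  have ht : 4 ≤ t := by omega
  set i1 : Fin t := ⟨0, by omega⟩ with hi1
  set i2 : Fin t := ⟨1, by omega⟩ with hi2
  set i3 : Fin t := ⟨2, by omega⟩ with hi3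
  set i4 : Fin t := ⟨3, by omega⟩ with hi4
  have h12 : i1 ≠ i2 := by simp [hi1, hi2]
  have h13 : i1 ≠ i3 := by simp [hi1, hi3]
  have h14 : i1 ≠ i4 := by simp [hi1, hi4]
  have h23 : i2 ≠ i3 := by simp [hi2, hi3]
  have h24 : i2 ≠ i4 := by simp [hi2, hi4]
  have h34 : i3 ≠ i4 := by simp [hi3, hi4]
  -- vectors of norm one in each member
  have hex : ∀ i, ∃ e ∈ D i, hermForm n F 2 e e = 1 := fun i =>
    exists_norm_one hF' (D i) (by
      intro h
      have := hD.decomp.finrank_eq i
      rw [h] at this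
      simp at this) (hD.nondegenerate i)
  choose e heD hee using hex
  have hE : ∀ i j, hermForm n F 2 (e i) (e j) = if i = j then 1 else 0 := by
    intro i j
    by_cases hij : i = j
    · subst hij; rw [if_pos rfl, hee]
    · rw [if_neg hij]; exact hD.orthogonal i j hij _ (heD i) _ (heD j)
  have hne : ∀ a b : Fin t, a ≠ b → ((if a = b then (1 : F) else 0) = 0) := fun a b h => if_neg h
  have he0 : ∀ i, e i ≠ 0 := by
    intro i h
    have := hee i
    rw [h, hermForm_zero_left] at this
    exact zero_ne_one this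
  set S : Set (Fin n → F) := {x | ∃ i, x ∈ D i ∧ hermForm n F 2 x x ≠ 0} with hS
  set G : Subgroup (GL (Fin n) F) := GU n F 2 ⊓ specialLinear (Fin n) F with hG
  -- the stabiliser of the decomposition stabilises S
  have hH : decompositionStabilizer D ⊓ G ≤ stabilizing (glToMat (Fin n) F) S := by
    apply le_stabilizing_of_forall
    rintro g ⟨⟨σ, hσ⟩, hgU, -⟩ x ⟨i, hxi, hxx⟩
    refine ⟨σ i, ?_, ?_⟩
    · rw [← hσ i]
      exact ⟨x, hxi, by rw [Matrix.toLin'_apply]⟩
    · rw [(mem_GU_iff g).mp hgU]; exact hxx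
  -- the first element: the transvection along e₁ + e₂
  have hw1 : hermForm n F 2 (e i1 + e i2) (e i1 + e i2) = 0 := by
    simp only [hermForm_add_left, hermForm_add_right hF', hE, if_true, hne _ _ h12,
      hne _ _ h12.symm]
    linear_combination h2
  set g₁ : GL (Fin n) F := unitTransv 2 (e i1 + e i2) 1 hw1 with hg₁
  have hg₁G : g₁ ∈ G :=
    ⟨unitTransv_mem_GU hF' _ _ _ (by linear_combination h2), unitTransv_mem_specialLinear _ _ _⟩
  have hg₁x : ∀ x, (g₁ : Matrix (Fin n) (Fin n) F) *ᵥ x =
      x + (hermForm n F 2 x (e i1) + hermForm n F 2 x (e i2)) • (e i1 + e i2) := by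
    intro x
    rw [hg₁, unitTransv_mulVec, one_mul, hermForm_add_right hF']
  have hinv : ∀ x, (g₁ : Matrix (Fin n) (Fin n) F) *ᵥ ((g₁ : Matrix (Fin n) (Fin n) F) *ᵥ x) = x := by
    intro x
    rw [hg₁, unitTransv_mulVec, unitTransv_mulVec, hermForm_add_left, hermForm_smul_left, hw1,
      one_mul, mul_zero, add_zero, one_mul, add_assoc, ← add_smul]
    have : hermForm n F 2 x (e i1 + e i2) + hermForm n F 2 x (e i1 + e i2) = 0 := by
      linear_combination hermForm n F 2 x (e i1 + e i2) * h2
    rw [this, zero_smul, add_zero]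
  have hfwd : ∀ x ∈ S, (g₁ : Matrix (Fin n) (Fin n) F) *ᵥ x ∈ S := by
    rintro x ⟨i, hxi, hxx⟩
    rw [hg₁x]
    by_cases hi1 : i = i1
    · rw [hi1] at hxi
      have hx2 : hermForm n F 2 x (e i2) = 0 := hD.orthogonal i1 i2 h12 x hxi _ (heD i2)
      by_cases hl : hermForm n F 2 x (e i1) = 0
      · rw [hl, hx2, add_zero, zero_smul, add_zero]; exact ⟨i1, hxi, hxx⟩
      · have hx := herm2_eq_smul hF' (D i1) (hD.decomp.finrank_eq i1) (hD.nondegenerate i1)
          (heD i1) (hee i1) hxi hxx hl
        set c := hermForm n F 2 x (e i1) with hc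
        have hcc : c + c = 0 := by linear_combination c * h2
        have hval : x + (c + hermForm n F 2 x (e i2)) • (e i1 + e i2) = c • e i2 := by
          rw [hx2, add_zero]
          conv_lhs => rw [hx]
          rw [smul_add, ← add_assoc, ← add_smul, hcc, zero_smul, zero_add]
        rw [hval]
        refine ⟨i2, (D i2).smul_mem c (heD i2), ?_⟩
        rw [hermForm_smul_left, hermForm_smul_right, hee, mul_one]
        have : c * c ^ 2 = c ^ 3 := by ring
        rw [this, pow_three_of_card_four hF' hl]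
        exact one_ne_zero
    · by_cases hi2 : i = i2
      · rw [hi2] at hxi
        have hx1 : hermForm n F 2 x (e i1) = 0 := hD.orthogonal i2 i1 h12.symm x hxi _ (heD i1)
        by_cases hl : hermForm n F 2 x (e i2) = 0
        · rw [hl, hx1, add_zero, zero_smul, add_zero]; exact ⟨i2, hxi, hxx⟩
        · have hx := herm2_eq_smul hF' (D i2) (hD.decomp.finrank_eq i2) (hD.nondegenerate i2)
            (heD i2) (hee i2) hxi hxx hl
          set c := hermForm n F 2 x (e i2) with hc
          have hcc : c + c = 0 := by linear_combination c * h2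
          have hval : x + (hermForm n F 2 x (e i1) + c) • (e i1 + e i2) = c • e i1 := by
            rw [hx1, zero_add]
            conv_lhs => rw [hx]
            rw [smul_add, add_comm (c • e i1) (c • e i2), ← add_assoc, ← add_smul, hcc, zero_smul,
              zero_add]
          rw [hval]
          refine ⟨i1, (D i1).smul_mem c (heD i1), ?_⟩
          rw [hermForm_smul_left, hermForm_smul_right, hee, mul_one]
          have : c * c ^ 2 = c ^ 3 := by ring
          rw [this, pow_three_of_card_four hF' hl]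
          exact one_ne_zero
      · have hx1 : hermForm n F 2 x (e i1) = 0 := hD.orthogonal i i1 hi1 x hxi _ (heD i1)
        have hx2 : hermForm n F 2 x (e i2) = 0 := hD.orthogonal i i2 hi2 x hxi _ (heD i2)
        rw [hx1, hx2, add_zero, zero_smul, add_zero]
        exact ⟨i, hxi, hxx⟩
  have hg₁S : g₁ ∈ stabilizing (glToMat (Fin n) F) S := by
    rw [mem_stabilizing_iff]
    intro v
    refine ⟨hfwd v, fun hv => ?_⟩
    have := hfwd _ hv
    rwa [hinv] at this
  have hg₁D : g₁ ∉ decompositionStabilizer D := by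
    intro hmem
    obtain ⟨x, hxD, hxe, hxc⟩ := herm2_exists_not_smul (D i1) (hD.decomp.finrank_eq i1) (heD i1)
      (hee i1)
    have hx0 : x ≠ 0 := by
      have := hxc 0
      rwa [zero_smul, add_zero] at this
    have h1 := wt_of_mem_decompositionStabilizer hI hmem x
    have hx2 : hermForm n F 2 x (e i2) = 0 := hD.orthogonal i1 i2 h12 x hxD _ (heD i2)
    rw [hg₁x, hx2, add_zero, smul_add, ← add_assoc,
      wt_add_of_mem hI h12 ((D i1).add_mem hxD ((D i1).smul_mem _ (heD i1))) (hxc _)
        ((D i2).smul_mem _ (heD i2)) (smul_ne_zero hxe (he0 i2)), wt_of_mem hI hxD hx0] at h1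
    norm_num at h1
  -- the second element: the transvection along e₁ + e₂ + e₃ + e₄
  have hw2 : hermForm n F 2 (e i1 + e i2 + e i3 + e i4) (e i1 + e i2 + e i3 + e i4) = 0 := by
    simp only [hermForm_add_left, hermForm_add_right hF', hE, if_true, hne _ _ h12,
      hne _ _ h12.symm, hne _ _ h13, hne _ _ h13.symm, hne _ _ h14, hne _ _ h14.symm, hne _ _ h23,
      hne _ _ h23.symm, hne _ _ h24, hne _ _ h24.symm, hne _ _ h34, hne _ _ h34.symm]
    linear_combination 2 * h2
  set g₂ : GL (Fin n) F := unitTransv 2 (e i1 + e i2 + e i3 + e i4) 1 hw2 with hg₂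
  have hg₂G : g₂ ∈ G :=
    ⟨unitTransv_mem_GU hF' _ _ _ (by linear_combination h2), unitTransv_mem_specialLinear _ _ _⟩
  have hg₂S : g₂ ∉ stabilizing (glToMat (Fin n) F) S := by
    intro hmem
    have h1 : e i1 ∈ S := ⟨i1, heD i1, by rw [hee]; exact one_ne_zero⟩
    have h3 := ((mem_stabilizing_iff g₂ S).mp hmem (e i1)).mp h1
    have hval : (g₂ : Matrix (Fin n) (Fin n) F) *ᵥ e i1 = ∑ j ∈ ({i2, i3, i4} : Finset (Fin t)), e j := by
      rw [hg₂, unitTransv_mulVec, one_mul]
      simp only [hermForm_add_right hF', hE, if_true, hne _ _ h12, hne _ _ h13, hne _ _ h14,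
        add_zero, one_smul]
      rw [Finset.sum_insert (by simp [h23, h24]), Finset.sum_pair h34]
      have : e i1 + e i1 = 0 := by rw [← two_smul F, h2, zero_smul]
      calc e i1 + (e i1 + e i2 + e i3 + e i4) = (e i1 + e i1) + (e i2 + (e i3 + e i4)) := by abel
        _ = e i2 + (e i3 + e i4) := by rw [this, zero_add]
    rw [hval] at h3
    obtain ⟨j, hj, -⟩ := h3
    have h4 := wt_le_one_of_mem hI hj
    rw [wt_sum_finset hI _ e heD (fun j _ => he0 j),
      Finset.card_insert_of_notMem (by simp [h23, h24]), Finset.card_pair h34] at h4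
    norm_num at h4
  refine ⟨stabilizing (glToMat (Fin n) F) S ⊓ G, ?_, ?_⟩
  · refine lt_of_le_of_ne (le_inf hH inf_le_right) ?_
    intro h
    have : g₁ ∈ decompositionStabilizer D ⊓ G := by
      rw [h]; exact ⟨hg₁S, hg₁G⟩
    exact hg₁D this.1
  · refine lt_of_le_of_ne inf_le_right ?_
    intro h
    have : g₂ ∈ stabilizing (glToMat (Fin n) F) S ⊓ G := by
      rw [h]; exact hg₂G
    exact hg₂S this.1

end Cfsg.Agent.S5656
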