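import Cfsg.Statements.S5665
import Cfsg.Agent.H86.GsMain
import Cfsg.Agent.H86.GsZ
import Cfsg.Agent.H86.GsProp
import Cfsg.Agent.H11.GsExt
import Cfsg.Agent.H8.GsNorm
import Cfsg.Agent.H8.GsHeis
import Cfsg.Agent.H15.GsTor
import Cfsg.Agent.H28.GsAdd
import Cfsg.Agent.H84.GsGood
import Cfsg.Agent.H28.GsSpan
import Cfsg.Agent.H31.GsSemi
import Cfsg.Agent.H31.GsProper

set_option autoImplicit false
open Cfsg

namespace Cfsg.Agent.S5665

/-- For a finite field F of odd order and m ≥ 7, let K be a subfield of the algebra of 2m × 2m matrices over F containing the scalars, of degree 2 over F, that is closed under adjoints for the standard alternating form on F^(2m) but whose elements are not all self-adjoint (so the adjoint map induces the automorphism of order two of K). Then the elements of Sp_2m(F) normalising K form a maximal subgroup of Sp_2m(F). -/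
theorem result {F : Type*} [Field F] [Fintype F] (m : ℕ) (hm : 7 ≤ m) (hodd : Odd (Fintype.card F)) (K : Subalgebra F (Matrix (Fin m ⊕ Fin m) (Fin m ⊕ Fin m) F)) (hK : Cfsg.Geo.IsFieldSubalgebra 2 K) (hac : Cfsg.Geo.IsAdjointClosedFor (Cfsg.sympForm m F) K) (hnsa : ¬ Cfsg.Geo.IsSelfAdjointFor (Cfsg.sympForm m F) K) : Cfsg.Geo.IsMaximalIn (Cfsg.spGL m F) (Cfsg.Geo.subalgebraNormalizer K ⊓ Cfsg.spGL m F) :=
  Cfsg.Agent.H86.Gs.main_of Cfsg.Agent.H11.Gs.gsExt Cfsg.Agent.H8.Gs.gsNorm Cfsg.Agent.H15.Gs.gsTor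
    (Cfsg.Agent.H86.Gs.gsZ Cfsg.Agent.H15.Gs.gsTor Cfsg.Agent.H8.Gs.gsHeis Cfsg.Agent.H28.Gs.gsAdd)
    (Cfsg.Agent.H28.Gs.gsSpan Cfsg.Agent.H84.Gs.gsGood)
    (Cfsg.Agent.H31.Gs.gsSemi Cfsg.Agent.H84.Gs.gsGood)
    (Cfsg.Agent.H86.Gs.gsProp Cfsg.Agent.H15.Gs.gsTor Cfsg.Agent.H84.Gs.gsGood)
    Cfsg.Agent.H31.Gs.gsProper m hm hodd K hK hac hnsa

end Cfsg.Agent.S5665
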