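import Cfsg.Statements.S5667
import Cfsg.Agent.H95.TensorForm
import Cfsg.Agent.H95.Frame3
import Cfsg.Agent.H95.Symp

set_option autoImplicit false
open Cfsg

namespace Cfsg.Agent.S5667

open Cfsg.Geo Cfsg.Agent.H95
open scoped MatrixGroups Matrix Kronecker

/-- Over the field with 3 elements and for m ≥ 7, suppose the standard alternating form on F^(2m) is similar, through P and e, to the tensor product of a non-degenerate symplectic form f₁ on F^(n₁) and a non-degenerate symmetric bilinear form f₂ on F^3. Then the elements of Sp_2m(3) in the stabiliser of this tensor decomposition form a subgroup that is not maximal: some subgroup lies strictly between it and Sp_2m(3). -/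
theorem result {F : Type*} [Field F] [Fintype F] (m : ℕ) (hm : 7 ≤ m) (hq : Fintype.card F = 3) (n₁ : ℕ) (e : (Fin m ⊕ Fin m) ≃ Fin n₁ × Fin 3) (P : Matrix.GeneralLinearGroup (Fin m ⊕ Fin m) F) (f₁ : (Fin n₁ → F) → (Fin n₁ → F) → F) (f₂ : (Fin 3 → F) → (Fin 3 → F) → F) (hf₁ : Cfsg.Geo.IsSymplecticForm f₁) (hf₂ : Cfsg.Geo.IsSymmetricForm f₂) (hT : Cfsg.Geo.IsTensorFormStructure id (Cfsg.sympForm m F) f₁ f₂ e P) : ∃ K : Subgroup (Matrix.GeneralLinearGroup (Fin m ⊕ Fin m) F), Cfsg.Geo.tensorProductSubgroup n₁ 3 e P ⊓ Cfsg.spGL m F < K ∧ K < Cfsg.spGL m F := by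
  classical
  have h3 := three_eq_zero_of_card_three hq
  have htri := trichotomy_of_card_three hq
  have hb₁ := hf₁.bilinear
  have hb₂ := hf₂.bilinear
  obtain ⟨c, hc, hpt⟩ := tensorForm_pt_id hb₁ hb₂ hT
  obtain ⟨d, ν, hd, hν, hexp, hnorm⟩ := frame3_fun hq f₂ hf₂
  have hcard := Fintype.card_congr e
  simp only [Fintype.card_sum, Fintype.card_fin, Fintype.card_prod] at hcard
  have hn₁ : 0 < n₁ := by omega
  set u₀ : Fin n₁ → F := Pi.single ⟨0, hn₁⟩ 1 with hu₀
  have hu₀ne : u₀ ≠ 0 := by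
    intro h
    have := congrFun h ⟨0, hn₁⟩
    simp [hu₀] at this
  obtain ⟨u₁, hu₁⟩ := (hf₁.nondegenerate u₀ hu₀ne).1
  set α := f₁ u₁ u₀ with hα
  have hνne : ∀ i, ν i ≠ 0 := by
    intro i h
    have := hν i i
    rw [if_pos rfl, h, bil_zero_left hb₂] at this
    exact hd this.symm
  set S : Set (Fin m ⊕ Fin m → F) := {y | ∃ (u : Fin n₁ → F) (i : Fin 3), y = tL e P (pt u (ν i))} with hS
  have hact : ∀ (u₂ : Fin n₁ → F) (v₂ : Fin 3 → F) (u : Fin n₁ → F) (v : Fin 3 → F),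
      ((sympTransv (tL e P (pt u₂ v₂)) 1 : GL (Fin m ⊕ Fin m) F) : Matrix (Fin m ⊕ Fin m) (Fin m ⊕ Fin m) F) *ᵥ
        tL e P (pt u v) = tL e P (pt u v + (c * (f₁ u u₂ * f₂ v v₂)) • pt u₂ v₂) := by
    intro u₂ v₂ u v
    rw [sympTransv_mulVec, hpt, tL_add, tL_smul, one_mul]
  have hβ : c * (α * d) ≠ 0 := mul_ne_zero hc (mul_ne_zero hu₁ hd)
  refine ⟨stabilizing (glToMat _ F) S ⊓ spGL m F, lt_of_le_of_ne ?_ ?_, lt_of_le_of_ne inf_le_right ?_⟩
  · -- H ≤ K
    refine le_inf ?_ inf_le_right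
    apply le_stabilizing_of_forall
    rintro g ⟨hg, hgsp⟩ x ⟨u, i, rfl⟩
    obtain ⟨a, b, hab⟩ := tps_act e P hg
    have hgsp' := (mem_spGL_iff g).mp hgsp
    have hsim : ∀ (u u' : Fin n₁ → F) (v v' : Fin 3 → F),
        f₁ ((a : Matrix (Fin n₁) (Fin n₁) F) *ᵥ u) ((a : Matrix (Fin n₁) (Fin n₁) F) *ᵥ u') *
          f₂ ((b : Matrix (Fin 3) (Fin 3) F) *ᵥ v) ((b : Matrix (Fin 3) (Fin 3) F) *ᵥ v') =
          f₁ u u' * f₂ v v' := by
      intro u u' v v'
      have := hgsp' (tL e P (pt u v)) (tL e P (pt u' v'))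
      rw [hab, hab, hpt, hpt] at this
      exact mul_left_cancel₀ hc this
    set α' := f₁ ((a : Matrix (Fin n₁) (Fin n₁) F) *ᵥ u₁) ((a : Matrix (Fin n₁) (Fin n₁) F) *ᵥ u₀) with hα'
    have hbν : ∀ i j, α' * f₂ ((b : Matrix (Fin 3) (Fin 3) F) *ᵥ ν i) ((b : Matrix (Fin 3) (Fin 3) F) *ᵥ ν j) =
        α * (if i = j then d else 0) := by
      intro i j
      rw [hα', hsim, hν]
    have hα'ne : α' ≠ 0 := by
      intro h0
      have := hbν 0 0
      rw [h0, zero_mul, if_pos rfl] at this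
      exact mul_ne_zero hu₁ hd this.symm
    have hκ : α = α' ∨ α = -α' := by
      rcases htri α with h | h | h
      · exact absurd h hu₁
      · rcases htri α' with h' | h' | h'
        · exact absurd h' hα'ne
        · left; rw [h, h']
        · right; rw [h, h', neg_neg]
      · rcases htri α' with h' | h' | h'
        · exact absurd h' hα'ne
        · right; rw [h, h']
        · left; rw [h, h']
    rcases hκ with hκ | hκ
    · have hnn : f₂ ((b : Matrix (Fin 3) (Fin 3) F) *ᵥ ν i) ((b : Matrix (Fin 3) (Fin 3) F) *ᵥ ν i) = d := by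
        have := hbν i i
        rw [if_pos rfl, hκ] at this
        exact mul_left_cancel₀ hα'ne this
      obtain ⟨j, hj | hj⟩ := hnorm _ hnn
      · exact ⟨(a : Matrix (Fin n₁) (Fin n₁) F) *ᵥ u, j, by rw [hab, hj]⟩
      · exact ⟨-((a : Matrix (Fin n₁) (Fin n₁) F) *ᵥ u), j, by rw [hab, hj, pt_neg_right, pt_neg_left]⟩
    · exfalso
      have hww : ∀ i j, f₂ ((b : Matrix (Fin 3) (Fin 3) F) *ᵥ ν i) ((b : Matrix (Fin 3) (Fin 3) F) *ᵥ ν j) =
          if i = j then -d else 0 := by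
        intro i j
        have := hbν i j
        rw [hκ] at this
        have h2 : α' * f₂ ((b : Matrix (Fin 3) (Fin 3) F) *ᵥ ν i) ((b : Matrix (Fin 3) (Fin 3) F) *ᵥ ν j) =
            α' * (if i = j then -d else 0) := by
          rw [this]; split_ifs <;> ring
        exact mul_left_cancel₀ hα'ne h2
      exact no_neg_frame3 hq hb₂ hd hν (fun i => (b : Matrix (Fin 3) (Fin 3) F) *ᵥ ν i)
        (fun i => hexp _) hww
  · -- g₁ ∈ K ∖ H
    intro hEq
    have hg₁K : sympTransv (tL e P (pt u₀ (ν 0))) 1 ∈ stabilizing (glToMat _ F) S ⊓ spGL m F := by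
      refine ⟨?_, sympTransv_mem_spGL _ _⟩
      apply mem_stabilizing_of_forall
      rintro x ⟨u, i, rfl⟩
      rw [hact, hν]
      by_cases hi : i = 0
      · subst hi
        rw [if_pos rfl]
        refine ⟨u + (c * (f₁ u u₀ * d)) • u₀, 0, ?_⟩
        rw [pt_add_left, pt_smul_left]
      · rw [if_neg hi, mul_zero, mul_zero, zero_smul, add_zero]
        exact ⟨u, i, rfl⟩
    rw [← hEq] at hg₁K
    obtain ⟨a, b, hab⟩ := tps_act e P hg₁K.1
    have e1 := hab u₁ (ν 1)
    have e0 := hab u₁ (ν 0)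
    rw [hact, hν] at e1 e0
    rw [if_neg (by decide), mul_zero, mul_zero, zero_smul, add_zero] at e1
    rw [if_pos rfl, ← pt_smul_left, ← pt_add_left] at e0
    have e1' := tL_injective e P e1
    have e0' := tL_injective e P e0
    obtain ⟨l, hl⟩ := pt_eq_pt_left e1' (hνne 1)
    obtain ⟨μ, hμ⟩ := pt_eq_pt_left e0' (hνne 0)
    have hcontra : f₁ u₁ (u₁ + (c * (f₁ u₁ u₀ * d)) • u₀) = 0 := by
      rw [hμ, hb₁.smul_right]
      have h0 : f₁ u₁ ((a : Matrix (Fin n₁) (Fin n₁) F) *ᵥ u₁) = 0 := by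
        have h := hf₁.alternating ((a : Matrix (Fin n₁) (Fin n₁) F) *ᵥ u₁)
        calc f₁ u₁ ((a : Matrix (Fin n₁) (Fin n₁) F) *ᵥ u₁)
            = f₁ (l • (a : Matrix (Fin n₁) (Fin n₁) F) *ᵥ u₁) ((a : Matrix (Fin n₁) (Fin n₁) F) *ᵥ u₁) := by
              rw [← hl]
          _ = 0 := by rw [hb₁.smul_left, h, mul_zero]
      rw [h0, mul_zero]
    rw [hb₁.add_right, hb₁.smul_right, hf₁.alternating, zero_add] at hcontra
    exact mul_ne_zero hβ hu₁ hcontra
  · -- g₂ ∉ K
    intro hEq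
    have hg₂ : sympTransv (tL e P (pt u₀ (ν 0 + ν 1))) 1 ∈ stabilizing (glToMat _ F) S ⊓ spGL m F := by
      rw [hEq]
      exact sympTransv_mem_spGL _ _
    have hx : tL e P (pt u₁ (ν 0)) ∈ S := ⟨u₁, 0, rfl⟩
    have hgx := ((mem_stabilizing_iff _ S).mp hg₂.1 _).mp hx
    rw [hact, hb₂.add_right, hν, hν, if_pos rfl, if_neg (by decide), add_zero] at hgx
    obtain ⟨u', i, hi⟩ := hgx
    have hi' := tL_injective e P hi
    have hk : ∀ k, ctr f₂ (pt u₁ (ν 0) + (c * (f₁ u₁ u₀ * d)) • pt u₀ (ν 0 + ν 1)) (ν k) =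
        ctr f₂ (pt u' (ν i)) (ν k) := fun k => by rw [hi']
    simp only [ctr_add hb₂, ctr_smul hb₂, ctr_pt hb₂, hb₂.add_left, hν] at hk
    by_cases hi1 : i = 1
    · subst hi1
      have h0 := hk 0
      simp only [if_pos, Fin.isValue, one_ne_zero, if_false, add_zero, zero_smul] at h0
      -- d • u₁ + β • d • u₀ = 0
      have : f₁ (d • u₁ + (c * (f₁ u₁ u₀ * d)) • d • u₀) u₀ = 0 := by
        rw [h0]; exact bil_zero_left hb₁ _
      rw [hb₁.add_left, hb₁.smul_left, hb₁.smul_left, hb₁.smul_left, hf₁.alternating] at this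
      apply mul_ne_zero hd hu₁
      linear_combination this
    · have h1 := hk 1
      have hi1' : ¬ (1 : Fin 3) = i := fun h => hi1 h.symm
      simp only [if_neg hi1, Fin.isValue, zero_ne_one, if_false, if_true, zero_smul, zero_add] at h1
      have h2 := congrFun h1 ⟨0, hn₁⟩
      simp [hu₀] at h2
      rcases h2 with h2 | h2
      · rcases h2 with h2 | h2
        · exact hc h2
        · rcases h2 with h2 | h2
          · exact hu₁ h2
          · exact hd h2
      · exact hd h2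

end Cfsg.Agent.S5667
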