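import Cfsg.Statements.S5671
import Cfsg.Agent.H95.UForm

set_option autoImplicit false
open Cfsg

namespace Cfsg.Agent.S5671

open Cfsg.Geo Cfsg.Agent.H95
open scoped MatrixGroups Matrix Kronecker

/-- Let F be the field with 4 elements (q = 2) and n = 2 n₂ ≥ 13. Suppose the standard unitary form Σ u_i v_i² on F^n is similar, through P and e, to the tensor product of non-degenerate unitary forms f₁ on F^2 and f₂ on F^(n₂). Then the elements of SU_n(2) in the stabiliser of this tensor decomposition form a subgroup that is not maximal: some subgroup lies strictly between it and SU_n(2). -/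
theorem result {F : Type*} [Field F] [Fintype F] (n : ℕ) (hF : Fintype.card F = 4) (hn : 13 ≤ n) (n₂ : ℕ) (e : Fin n ≃ Fin 2 × Fin n₂) (P : Matrix.GeneralLinearGroup (Fin n) F) (f₁ : (Fin 2 → F) → (Fin 2 → F) → F) (f₂ : (Fin n₂ → F) → (Fin n₂ → F) → F) (hf₁ : Cfsg.Geo.IsUnitaryFormPow 2 f₁) (hf₂ : Cfsg.Geo.IsUnitaryFormPow 2 f₂) (hT : Cfsg.Geo.IsTensorFormStructure (fun x : F => x ^ 2) (Cfsg.hermForm n F 2) f₁ f₂ e P) : ∃ K : Subgroup (Matrix.GeneralLinearGroup (Fin n) F), Cfsg.Geo.tensorProductSubgroup 2 n₂ e P ⊓ (Cfsg.GU n F 2 ⊓ Cfsg.Geo.specialLinear (Fin n) F) < K ∧ K < (Cfsg.GU n F 2 ⊓ Cfsg.Geo.specialLinear (Fin n) F) := by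
  classical
  have hF' : Fintype.card F = 2 ^ 2 := by rw [hF]; norm_num
  have h2 := two_eq_zero_of_card_four hF'
  obtain ⟨c, hc, hpt⟩ := tensorForm_pt_unitary hF' hf₁ hf₂ hT
  obtain ⟨ε, hε, hexp, hnorm⟩ := uf_frame2 hF' f₁ hf₁
  have hcard := Fintype.card_congr e
  simp only [Fintype.card_fin, Fintype.card_prod] at hcard
  obtain ⟨v₀, v₁, hv₀, hv₁, hv₁₀, hv₀₁⟩ := uf_exists_orthonormal_pair hF' hf₂
    (by simp only [Fintype.card_fin]; omega)
  set z := v₀ + v₁ with hz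
  have hzz : f₂ z z = 0 := by
    rw [hz, hf₂.add_left, uf_add_right hF' hf₂, uf_add_right hF' hf₂, hv₀, hv₁, hv₁₀, hv₀₁]
    linear_combination h2
  have hεne : ∀ i, ε i ≠ 0 := by
    intro i h
    have := hε i i
    rw [if_pos rfl, h, uf_zero_left hf₁] at this
    exact zero_ne_one this
  set S : Set (Fin n → F) := {y | ∃ (i : Fin 2) (v : Fin n₂ → F), y = tL e P (pt (ε i) v)} with hS
  have hw₁ : hermForm n F 2 (tL e P (pt (ε 0) z)) (tL e P (pt (ε 0) z)) = 0 := by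
    rw [hpt, hzz, mul_zero, mul_zero]
  have hw₂ : hermForm n F 2 (tL e P (pt (ε 0) v₀ + pt (ε 1) v₁))
      (tL e P (pt (ε 0) v₀ + pt (ε 1) v₁)) = 0 := by
    rw [tL_add, hermForm_add_left, hermForm_add_right hF', hermForm_add_right hF', hpt, hpt, hpt,
      hpt, hε, hε, hε, hε, hv₀, hv₁]
    simp
    linear_combination c * h2
  have hone : (1 : F) + 1 ^ 2 = 0 := by linear_combination h2
  have hg₁SU : unitTransv 2 _ 1 hw₁ ∈ GU n F 2 ⊓ specialLinear (Fin n) F :=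
    ⟨unitTransv_mem_GU hF' _ _ hw₁ hone, unitTransv_mem_specialLinear _ _ hw₁⟩
  have hg₂SU : unitTransv 2 _ 1 hw₂ ∈ GU n F 2 ⊓ specialLinear (Fin n) F :=
    ⟨unitTransv_mem_GU hF' _ _ hw₂ hone, unitTransv_mem_specialLinear _ _ hw₂⟩
  have hact₁ : ∀ (u : Fin 2 → F) (v : Fin n₂ → F),
      ((unitTransv 2 _ 1 hw₁ : GL (Fin n) F) : Matrix (Fin n) (Fin n) F) *ᵥ tL e P (pt u v) =
        tL e P (pt u v + (c * (f₁ u (ε 0) * f₂ v z)) • pt (ε 0) z) := by
    intro u v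
    rw [unitTransv_mulVec, hpt, tL_add, tL_smul, one_mul]
  have hact₂ : ∀ (u : Fin 2 → F) (v : Fin n₂ → F),
      ((unitTransv 2 _ 1 hw₂ : GL (Fin n) F) : Matrix (Fin n) (Fin n) F) *ᵥ tL e P (pt u v) =
        tL e P (pt u v + (c * (f₁ u (ε 0) * f₂ v v₀) + c * (f₁ u (ε 1) * f₂ v v₁)) •
          (pt (ε 0) v₀ + pt (ε 1) v₁)) := by
    intro u v
    rw [unitTransv_mulVec, one_mul]
    conv_lhs => rw [tL_add e P (pt (ε 0) v₀), hermForm_add_right hF', hpt, hpt, ← tL_add]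
    rw [← tL_smul, ← tL_add]
  refine ⟨stabilizing (glToMat _ F) S ⊓ (GU n F 2 ⊓ specialLinear (Fin n) F),
    lt_of_le_of_ne ?_ ?_, lt_of_le_of_ne inf_le_right ?_⟩
  · -- H ≤ K
    refine le_inf ?_ inf_le_right
    apply le_stabilizing_of_forall
    rintro g ⟨hg, hgU, -⟩ x ⟨i, v, rfl⟩
    obtain ⟨a, b, hab⟩ := tps_act e P hg
    have hgU' := (mem_GU_iff g).mp hgU
    have hsim : ∀ (u u' : Fin 2 → F) (v v' : Fin n₂ → F),
        f₁ ((a : Matrix (Fin 2) (Fin 2) F) *ᵥ u) ((a : Matrix (Fin 2) (Fin 2) F) *ᵥ u') *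
          f₂ ((b : Matrix (Fin n₂) (Fin n₂) F) *ᵥ v) ((b : Matrix (Fin n₂) (Fin n₂) F) *ᵥ v') =
          f₁ u u' * f₂ v v' := by
      intro u u' v v'
      have := hgU' (tL e P (pt u v)) (tL e P (pt u' v'))
      rw [hab, hab, hpt, hpt] at this
      exact mul_left_cancel₀ hc this
    have hn1 : f₁ ((a : Matrix (Fin 2) (Fin 2) F) *ᵥ ε i) ((a : Matrix (Fin 2) (Fin 2) F) *ᵥ ε i) = 1 := by
      apply uf_self_eq_one hf₁
      intro h0
      have := hsim (ε i) (ε i) v₀ v₀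
      rw [h0, zero_mul, hε, if_pos rfl, hv₀, mul_one] at this
      exact zero_ne_one this
    obtain ⟨j, hj⟩ := hnorm _ hn1
    refine ⟨j, f₁ ((a : Matrix (Fin 2) (Fin 2) F) *ᵥ ε i) (ε j) • ((b : Matrix (Fin n₂) (Fin n₂) F) *ᵥ v), ?_⟩
    rw [hab, pt_smul_right, ← pt_smul_left, ← hj]
  · -- g₁ ∈ K ∖ H
    intro hEq
    have hg₁K : unitTransv 2 _ 1 hw₁ ∈ stabilizing (glToMat _ F) S ⊓ (GU n F 2 ⊓ specialLinear (Fin n) F) := by
      refine ⟨?_, hg₁SU⟩
      apply mem_stabilizing_of_forall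
      rintro x ⟨i, v, rfl⟩
      rw [hact₁, hε]
      by_cases hi : i = 0
      · subst hi
        rw [if_pos rfl]
        refine ⟨0, v + (c * (1 * f₂ v z)) • z, ?_⟩
        rw [pt_add_right (ε 0) v, pt_smul_right]
      · rw [if_neg hi, zero_mul, mul_zero, zero_smul, add_zero]
        exact ⟨i, v, rfl⟩
    rw [← hEq] at hg₁K
    obtain ⟨a, b, hab⟩ := tps_act e P hg₁K.1
    have e1 := hab (ε 1) v₀
    have e0 := hab (ε 0) v₀
    rw [hact₁, hε] at e1 e0
    rw [if_neg (by decide), zero_mul, mul_zero, zero_smul, add_zero] at e1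
    rw [if_pos rfl, ← pt_smul_right, ← pt_add_right] at e0
    have e1' := tL_injective e P e1
    have e0' := tL_injective e P e0
    obtain ⟨l, hl⟩ := pt_eq_pt_right e1' (hεne 1)
    obtain ⟨μ, hμ⟩ := pt_eq_pt_right e0' (hεne 0)
    have hv₀z : f₂ v₀ z = 1 := by rw [hz, uf_add_right hF' hf₂, hv₀, hv₀₁, add_zero]
    rw [hv₀z] at hμ
    have hl0 : l ≠ 0 := by
      rintro rfl
      rw [zero_smul] at hl
      rw [hl, uf_zero_left hf₂] at hv₀
      exact zero_ne_one hv₀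
    have hb : f₂ ((b : Matrix (Fin n₂) (Fin n₂) F) *ᵥ v₀) v₁ = 0 := by
      have := congrArg (fun x => f₂ x v₁) hl
      simp only [hf₂.smul_left, hv₀₁] at this
      rcases mul_eq_zero.mp this.symm with h | h
      · exact absurd h hl0
      · exact h
    have := congrArg (fun x => f₂ x v₁) hμ
    simp only [hf₂.add_left, hf₂.smul_left, hv₀₁, hb, hz, hv₁, mul_zero, mul_one, zero_add] at this
    exact hc this
  · -- g₂ ∉ K
    intro hEq
    have hg₂ : unitTransv 2 _ 1 hw₂ ∈ stabilizing (glToMat _ F) S ⊓ (GU n F 2 ⊓ specialLinear (Fin n) F) := by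
      rw [hEq]; exact hg₂SU
    have hx : tL e P (pt (ε 0) z) ∈ S := ⟨0, z, rfl⟩
    have hgx := ((mem_stabilizing_iff _ S).mp hg₂.1 _).mp hx
    rw [hact₂, hε, hε, if_pos rfl, if_neg (by decide)] at hgx
    have hzv₀ : f₂ z v₀ = 1 := by rw [hz, hf₂.add_left, hv₀, hv₁₀, add_zero]
    rw [hzv₀, zero_mul, mul_zero, add_zero, mul_one, mul_one] at hgx
    obtain ⟨i, v', hi⟩ := hgx
    have hi' := tL_injective e P hi
    have hk : ∀ k, ctr1 f₁ (pt (ε 0) z + c • (pt (ε 0) v₀ + pt (ε 1) v₁)) (ε k) =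
        ctr1 f₁ (pt (ε i) v') (ε k) := fun k => by rw [hi']
    simp only [ctr1_add' hf₁.add_left, ctr1_smul' hf₁.smul_left, ctr1_pt' hf₁.smul_left, hε] at hk
    by_cases hi0 : i = 0
    · subst hi0
      have h1 := hk 1
      simp at h1
      rcases h1 with h1 | h1
      · exact hc h1
      · rw [h1, uf_zero_left hf₂] at hv₁
        exact zero_ne_one hv₁
    · have h0 := hk 0
      simp [hi0] at h0
      have := congrArg (fun x => f₂ x v₁) h0
      simp only [hf₂.add_left, hf₂.smul_left, hv₀₁, hz, hv₁, mul_zero, add_zero, zero_add,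
        uf_zero_left hf₂] at this
      exact one_ne_zero this

end Cfsg.Agent.S5671
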