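import Cfsg.Statements.S5674
import Cfsg.Agent.H95.TSMax
import Cfsg.Agent.H49.SimpleForms
import Cfsg.Agent.H95.QF

set_option autoImplicit false
open Cfsg

namespace Cfsg.Agent.S5674

open Cfsg.Geo Cfsg.Agent.H95
open scoped MatrixGroups Matrix

/-- Let F be a finite field of odd order, m ≥ 6, Q the standard quadratic form x₀² + Σ x_i y_i on F^(2m+1) and Ω the commutator subgroup of its isometry group inside GL_(2m+1)(F). The elements of Ω stabilising a non-zero subspace on which Q vanishes form a maximal subgroup of Ω. -/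
theorem result {F : Type*} [Field F] [Fintype F] (hodd : Odd (Fintype.card F)) (m : ℕ) (hm : 6 ≤ m) (W : Submodule F (Unit ⊕ (Fin m ⊕ Fin m) → F)) (hW0 : W ≠ ⊥) (hW : Cfsg.Geo.IsTotallySingularQuad (Cfsg.quadFormOdd m F) W) : Cfsg.Geo.IsMaximalIn (Cfsg.Geo.omegaGL (Cfsg.quadFormOdd m F)) (Cfsg.Geo.subspaceStabilizer W ⊓ Cfsg.Geo.omegaGL (Cfsg.quadFormOdd m F)) := by
  classical
  have h2 : (2 : F) ≠ 0 := by
    intro h
    have hch : CharP F 2 := by
      refine (CharP.charP_iff_prime_eq_zero Nat.prime_two).mpr ?_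
      exact_mod_cast h
    have hr : ringChar F = 2 := ringChar.eq F 2
    have := (FiniteField.even_card_iff_char_two (F := F)).mp hr
    exact (Nat.not_even_iff_odd.mpr hodd) (Nat.even_iff.mpr this)
  have hnd := H49.QOdd_nondeg (F := F) m h2
  have hV : Module.finrank F (Unit ⊕ (Fin m ⊕ Fin m) → F) = 2 * m + 1 := by
    rw [Module.finrank_pi]
    simp
    omega
  exact ts_stabilizer_isMaximalIn (H49.QOdd m F) hnd (H49.hasTS3_QOdd m (by omega))
    W hW0 hW (by
      intro T _ _
      rw [hV]
      omega)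

end Cfsg.Agent.S5674
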