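import Cfsg.Statements.S5675
import Cfsg.Agent.H95.ND4
import Cfsg.Agent.H49.SimpleForms

set_option autoImplicit false
open Cfsg

namespace Cfsg.Agent.S5675

open Cfsg.Geo Cfsg.Agent.H95
open scoped MatrixGroups Matrix

/-- Let F be a finite field of odd order q, m ≥ 6, Q the standard quadratic form on F^(2m+1) and Ω the commutator subgroup of its isometry group. Let W be a non-zero subspace of even dimension on which the polar form of Q is non-degenerate; exclude the case q = 3, dim W = 2 with Q vanishing on some line of W (a plus-type plane). Then the elements of Ω stabilising W (equivalently, stabilising its orthogonal complement, of odd dimension) form a maximal subgroup of Ω. -/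
theorem result {F : Type*} [Field F] [Fintype F] (hodd : Odd (Fintype.card F)) (m : ℕ) (hm : 6 ≤ m) (W : Submodule F (Unit ⊕ (Fin m ⊕ Fin m) → F)) (hW0 : W ≠ ⊥) (hev : Even (Module.finrank F W)) (hW : Cfsg.Geo.IsNondegenerateOn (QuadraticMap.polar (Cfsg.quadFormOdd m F)) W) (hex : ¬ (Fintype.card F = 3 ∧ Module.finrank F W = 2 ∧ Cfsg.Geo.IsPlusTypeOn (Cfsg.quadFormOdd m F) W)) : Cfsg.Geo.IsMaximalIn (Cfsg.Geo.omegaGL (Cfsg.quadFormOdd m F)) (Cfsg.Geo.subspaceStabilizer W ⊓ Cfsg.Geo.omegaGL (Cfsg.quadFormOdd m F)) := by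
  classical
  have h2 : (2 : F) ≠ 0 := by
    intro h
    have hch : CharP F 2 := by
      refine (CharP.charP_iff_prime_eq_zero Nat.prime_two).mpr ?_
      exact_mod_cast h
    have hr : ringChar F = 2 := ringChar.eq F 2
    have := (FiniteField.even_card_iff_char_two (F := F)).mp hr
    exact (Nat.not_even_iff_odd.mpr hodd) (Nat.even_iff.mpr this)
  have hnd := H49.QOdd_nondeg (F := F) m h2
  have hV : Module.finrank F (Unit ⊕ (Fin m ⊕ Fin m) → F) = 2 * m + 1 := by
    rw [Module.finrank_pi]
    simp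
    omega
  have hW1 : W ≠ ⊤ := by
    rintro rfl
    rw [finrank_top, hV] at hev
    exact (Nat.not_even_iff_odd.mpr ⟨m, rfl⟩) hev
  have hcard : 1 < Fintype.card F := Fintype.one_lt_card
  refine nondeg_stabilizer_isMaximalIn' (H49.QOdd m F) hnd (by rw [hV]; omega) W hW hW0 hW1 ?_ ?_
  · rintro ⟨hc, U, hU2, -, hUp, hUW | ⟨-, hUd⟩⟩
    · subst hUW
      apply hex
      refine ⟨?_, hU2, hUp⟩
      obtain ⟨k, hk⟩ := hodd
      omega
    · rw [hV, hU2] at hUd
      obtain ⟨k, hk⟩ := hev
      omega
  · intro h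
    rw [hV] at h
    omega

end Cfsg.Agent.S5675
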