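import Cfsg.Statements.S5677
import Cfsg.Agent.H17.DcJ
import Cfsg.Agent.H49.SimpleForms
import Cfsg.Agent.H95.Decomp2

set_option autoImplicit false
open Cfsg

namespace Cfsg.Agent.S5677

/-- Let F be a finite field of odd order q, m ≥ 6, Q the standard quadratic form on F^(2m+1) and Ω the commutator subgroup of its isometry group. Let D be a decomposition of F^(2m+1) into t ≥ 2 pairwise orthogonal, pairwise Q-isometric subspaces of equal dimension k > 1 on which the polar form is non-degenerate. Unless q = 3 and k = 3, the elements of Ω permuting the members of D form a maximal subgroup of Ω. -/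
theorem result {F : Type*} [Field F] [Fintype F] (hodd : Odd (Fintype.card F)) (m : ℕ) (hm : 6 ≤ m) {t : ℕ} (k : ℕ) (hk : 1 < k) (D : Fin t → Submodule F (Unit ⊕ (Fin m ⊕ Fin m) → F)) (hD : Cfsg.Geo.IsOrthogonalMDecomposition (Cfsg.quadFormOdd m F) k D) (hex : ¬ (Fintype.card F = 3 ∧ k = 3)) : Cfsg.Geo.IsMaximalIn (Cfsg.Geo.omegaGL (Cfsg.quadFormOdd m F)) (Cfsg.Geo.decompositionStabilizer D ⊓ Cfsg.Geo.omegaGL (Cfsg.quadFormOdd m F)) := by
  classical
  have h2 : (2 : F) ≠ 0 := by
    intro h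
    have hch : CharP F 2 := by
      refine (CharP.charP_iff_prime_eq_zero Nat.prime_two).mpr ?_
      exact_mod_cast h
    have hr : ringChar F = 2 := ringChar.eq F 2
    have := (FiniteField.even_card_iff_char_two (F := F)).mp hr
    exact (Nat.not_even_iff_odd.mpr hodd) (Nat.even_iff.mpr this)
  have hnd := Cfsg.Agent.H49.QOdd_nondeg (F := F) m h2
  have h3 : Cfsg.Agent.H49.HasTS3 (Cfsg.Agent.H49.QOdd m F) :=
    Cfsg.Agent.H49.hasTS3_QOdd m (by omega)
  have hcard := Cfsg.Agent.H95.card_eq_mul_of_decomp hD.decomp.decomp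
  have hc : t * k = 2 * m + 1 := by
    rw [← hcard]
    simp
    omega
  have hodd' : Odd (t * k) := by
    rw [hc]
    exact ⟨m, rfl⟩
  obtain ⟨j, hj⟩ := (Nat.odd_mul.mp hodd').2
  have hkk : k = 3 ∨ 5 ≤ k := by omega
  have hq : k = 3 → 5 ≤ Fintype.card F := by
    intro hk3
    have hcard1 : 1 < Fintype.card F := Fintype.one_lt_card
    obtain ⟨i, hi⟩ := hodd
    have : Fintype.card F ≠ 3 := fun h => hex ⟨h, hk3⟩
    omega
  exact Cfsg.Agent.H17.Dc.decomp_isMaximalIn (Cfsg.Agent.H49.QOdd m F) hnd h2 h3 D hD hkk hq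

end Cfsg.Agent.S5677
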