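import Cfsg.Statements.S5682
import Cfsg.Agent.H95.Triple
import Cfsg.Agent.H95.QuadStd

set_option autoImplicit false
open Cfsg

namespace Cfsg.Agent.S5682

open Cfsg.Geo Cfsg.Agent.H95
open scoped MatrixGroups Matrix Kronecker

/-- Let F be the field with 3 elements, m ≥ 6, Q the standard quadratic form on F^(2m+1) and Ω the commutator subgroup of its isometry group. Suppose the polar form of Q is similar, through P and e, to the tensor product of non-degenerate symmetric bilinear forms f₁ on F^3 and f₂ on F^(n₂) with 3 < n₂. Then the elements of Ω in the stabiliser of this tensor decomposition form a subgroup that is not maximal: some subgroup lies strictly between it and Ω. -/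
theorem result {F : Type*} [Field F] [Fintype F] (hq : Fintype.card F = 3) (m : ℕ) (hm : 6 ≤ m) (n₂ : ℕ) (h2 : 3 < n₂) (e : (Unit ⊕ (Fin m ⊕ Fin m)) ≃ Fin 3 × Fin n₂) (P : Matrix.GeneralLinearGroup (Unit ⊕ (Fin m ⊕ Fin m)) F) (f₁ : (Fin 3 → F) → (Fin 3 → F) → F) (f₂ : (Fin n₂ → F) → (Fin n₂ → F) → F) (hf₁ : Cfsg.Geo.IsSymmetricForm f₁) (hf₂ : Cfsg.Geo.IsSymmetricForm f₂) (hT : Cfsg.Geo.IsTensorFormStructure id (QuadraticMap.polar (Cfsg.quadFormOdd m F)) f₁ f₂ e P) : ∃ K : Subgroup (Matrix.GeneralLinearGroup (Unit ⊕ (Fin m ⊕ Fin m)) F), Cfsg.Geo.tensorProductSubgroup 3 n₂ e P ⊓ Cfsg.Geo.omegaGL (Cfsg.quadFormOdd m F) < K ∧ K < Cfsg.Geo.omegaGL (Cfsg.quadFormOdd m F) := by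
  classical
  have h3 := three_eq_zero_of_card_three hq
  have h20 := two_ne_zero_of_card_three hq
  have htri := trichotomy_of_card_three hq
  have hQ := quadFormOdd_nondeg (m := m) h20
  set Q := quadFormOdd m F with hQdef
  have hb := hQ.polar_bilinear
  have hb₁ := hf₁.bilinear
  have hb₂ := hf₂.bilinear
  obtain ⟨c, hc, hpt⟩ := tensorForm_pt_id hb₁ hb₂ hT
  obtain ⟨d, ν, hd, hν, hexp, hnorm⟩ := frame3_fun hq f₁ hf₁
  obtain ⟨η, w, hη, hw⟩ := exists_triple_fun hq f₂ hf₂ (by simp only [Fintype.card_fin]; omega)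
  have hνne : ∀ i, ν i ≠ 0 := by
    intro i h
    have := hν i i
    rw [if_pos rfl, h, bil_zero_left hb₁] at this
    exact hd this.symm
  have hwne : ∀ i, w i ≠ 0 := by
    intro i h
    have := hw i i
    rw [if_pos rfl, h, bil_zero_left hb₂] at this
    exact hη this.symm
  set S : Set (Unit ⊕ (Fin m ⊕ Fin m) → F) := {y | ∃ (k : Fin 3) (v : Fin n₂ → F), y = tL e P (pt (ν k) v)} with hS
  -- the norm of the basic vectors
  have hB : ∀ i j k l, QuadraticMap.polar Q (tL e P (pt (ν i) (w k))) (tL e P (pt (ν j) (w l))) =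
      if i = j ∧ k = l then c * (d * η) else 0 := by
    intro i j k l
    rw [hpt, hν, hw]
    by_cases hij : i = j <;> by_cases hkl : k = l <;> simp [hij, hkl]
  have hcdη : c * (d * η) ≠ 0 := mul_ne_zero hc (mul_ne_zero hd hη)
  have hQv : ∀ i k, Q (tL e P (pt (ν i) (w k))) = -(c * (d * η)) := by
    intro i k
    have := hB i i k k
    rw [polar_self hQ, if_pos ⟨rfl, rfl⟩] at this
    linear_combination 2 * this - (Q (tL e P (pt (ν i) (w k))) - c * (d * η)) * h3
  have hQne : ∀ i k, Q (tL e P (pt (ν i) (w k))) ≠ 0 := fun i k => by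
    rw [hQv]; exact neg_ne_zero.mpr hcdη
  refine ⟨stabilizing (glToMat _ F) S ⊓ omegaGL Q, lt_of_le_of_ne ?_ ?_, lt_of_le_of_ne inf_le_right ?_⟩
  · -- H ≤ K
    refine le_inf ?_ inf_le_right
    apply le_stabilizing_of_forall
    rintro g ⟨hg, hgΩ⟩ x ⟨i, v, rfl⟩
    obtain ⟨a, b, hab⟩ := tps_act e P hg
    have hgI := omegaGL_le Q hgΩ
    have hsim : ∀ (u u' : Fin 3 → F) (v v' : Fin n₂ → F),
        f₁ ((a : Matrix (Fin 3) (Fin 3) F) *ᵥ u) ((a : Matrix (Fin 3) (Fin 3) F) *ᵥ u') *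
          f₂ ((b : Matrix (Fin n₂) (Fin n₂) F) *ᵥ v) ((b : Matrix (Fin n₂) (Fin n₂) F) *ᵥ v') =
          f₁ u u' * f₂ v v' := by
      intro u u' v v'
      have := polar_isometry hgI (tL e P (pt u v)) (tL e P (pt u' v'))
      rw [hab, hab, hpt, hpt] at this
      exact mul_left_cancel₀ hc this
    set α' := f₂ ((b : Matrix (Fin n₂) (Fin n₂) F) *ᵥ w 0) ((b : Matrix (Fin n₂) (Fin n₂) F) *ᵥ w 0) with hα'
    have haν : ∀ i j, f₁ ((a : Matrix (Fin 3) (Fin 3) F) *ᵥ ν i) ((a : Matrix (Fin 3) (Fin 3) F) *ᵥ ν j) * α' =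
        (if i = j then d else 0) * η := by
      intro i j
      rw [hα', hsim, hν, hw, if_pos rfl]
    have hα'ne : α' ≠ 0 := by
      intro h0
      have := haν 0 0
      rw [h0, mul_zero, if_pos rfl] at this
      exact mul_ne_zero hd hη this.symm
    have hκ : η = α' ∨ η = -α' := by
      rcases htri η with h | h | h
      · exact absurd h hη
      · rcases htri α' with h' | h' | h'
        · exact absurd h' hα'ne
        · left; rw [h, h']
        · right; rw [h, h', neg_neg]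
      · rcases htri α' with h' | h' | h'
        · exact absurd h' hα'ne
        · right; rw [h, h']
        · left; rw [h, h']
    rcases hκ with hκ | hκ
    · have hnn : f₁ ((a : Matrix (Fin 3) (Fin 3) F) *ᵥ ν i) ((a : Matrix (Fin 3) (Fin 3) F) *ᵥ ν i) = d := by
        have := haν i i
        rw [if_pos rfl, hκ] at this
        exact mul_right_cancel₀ hα'ne this
      obtain ⟨j, hj | hj⟩ := hnorm _ hnn
      · exact ⟨j, (b : Matrix (Fin n₂) (Fin n₂) F) *ᵥ v, by rw [hab, hj]⟩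
      · exact ⟨j, -((b : Matrix (Fin n₂) (Fin n₂) F) *ᵥ v), by rw [hab, hj, pt_neg_right, pt_neg_left]⟩
    · exfalso
      have hww : ∀ i j, f₁ ((a : Matrix (Fin 3) (Fin 3) F) *ᵥ ν i) ((a : Matrix (Fin 3) (Fin 3) F) *ᵥ ν j) =
          if i = j then -d else 0 := by
        intro i j
        have := haν i j
        rw [hκ] at this
        have h2' : f₁ ((a : Matrix (Fin 3) (Fin 3) F) *ᵥ ν i) ((a : Matrix (Fin 3) (Fin 3) F) *ᵥ ν j) * α' =
            (if i = j then -d else 0) * α' := by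
          rw [this]; split_ifs <;> ring
        exact mul_right_cancel₀ hα'ne h2'
      exact no_neg_frame3 hq hb₁ hd hν (fun i => (a : Matrix (Fin 3) (Fin 3) F) *ᵥ ν i)
        (fun i => hexp _) hww
  · -- g₁ ∈ K ∖ H
    intro hEq
    obtain ⟨g₁, hg₁Ω, hg₁a, hg₁b, hg₁c, hg₁fix⟩ := exists_three_cycle hQ h20
      (a := tL e P (pt (ν 0) (w 0))) (b := tL e P (pt (ν 0) (w 1))) (c := tL e P (pt (ν 0) (w 2)))
      (hQne _ _) (by rw [hQv, hQv]) (by rw [hQv, hQv]) (by rw [hB]; simp) (by rw [hB]; simp)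
      (by rw [hB]; simp)
    have hg₁K : g₁ ∈ stabilizing (glToMat _ F) S ⊓ omegaGL Q := by
      refine ⟨?_, hg₁Ω⟩
      apply mem_stabilizing_of_forall
      rintro x ⟨k, v, rfl⟩
      by_cases hk : k = 0
      · subst hk
        set v' := v - (f₂ v (w 0) / η) • w 0 - (f₂ v (w 1) / η) • w 1 - (f₂ v (w 2) / η) • w 2 with hv'
        have hv : v = (f₂ v (w 0) / η) • w 0 + (f₂ v (w 1) / η) • w 1 + (f₂ v (w 2) / η) • w 2 + v' := by
          rw [hv']; abel
        have hv'w : ∀ l, f₂ v' (w l) = 0 := by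
          intro l
          rw [hv', bil_sub_left hb₂, bil_sub_left hb₂, bil_sub_left hb₂, hb₂.smul_left, hb₂.smul_left,
            hb₂.smul_left, hw, hw, hw]
          fin_cases l <;> simp <;> field_simp <;> ring
        have hfix : (g₁ : Matrix _ _ F) *ᵥ tL e P (pt (ν 0) v') = tL e P (pt (ν 0) v') := by
          apply hg₁fix
          · rw [hpt, hv'w, mul_zero, mul_zero]
          · rw [hpt, hv'w, mul_zero, mul_zero]
          · rw [hpt, hv'w, mul_zero, mul_zero]
        refine ⟨0, (f₂ v (w 0) / η) • w 2 + (f₂ v (w 1) / η) • w 0 + (f₂ v (w 2) / η) • w 1 + v', ?_⟩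
        conv_lhs => rw [hv]
        simp only [pt_add_right, pt_smul_right, tL_add, tL_smul, Matrix.mulVec_add,
          Matrix.mulVec_smul, hg₁a, hg₁b, hg₁c, hfix]
      · have hfix : (g₁ : Matrix _ _ F) *ᵥ tL e P (pt (ν k) v) = tL e P (pt (ν k) v) := by
          apply hg₁fix
          · rw [hpt, hν, if_neg hk, zero_mul, mul_zero]
          · rw [hpt, hν, if_neg hk, zero_mul, mul_zero]
          · rw [hpt, hν, if_neg hk, zero_mul, mul_zero]
        rw [hfix]
        exact ⟨k, v, rfl⟩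
    rw [← hEq] at hg₁K
    obtain ⟨a, b, hab⟩ := tps_act e P hg₁K.1
    have e1 := hab (ν 1) (w 0)
    have e0 := hab (ν 0) (w 0)
    have hfix1 : (g₁ : Matrix _ _ F) *ᵥ tL e P (pt (ν 1) (w 0)) = tL e P (pt (ν 1) (w 0)) := by
      apply hg₁fix
      · rw [hB]; simp
      · rw [hB]; simp
      · rw [hB]; simp
    rw [hfix1] at e1
    rw [hg₁a] at e0
    have e1' := tL_injective e P e1
    have e0' := tL_injective e P e0
    obtain ⟨l, hl⟩ := pt_eq_pt_right e1' (hνne 1)
    obtain ⟨μ, hμ⟩ := pt_eq_pt_right e0' (hνne 0)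
    -- w 0 = l • b (w 0), w 2 = μ • b (w 0)
    have h1 : f₂ (w 0) (w 0) = l * f₂ ((b : Matrix (Fin n₂) (Fin n₂) F) *ᵥ w 0) (w 0) := by
      have := congrArg (fun x => f₂ x (w 0)) hl
      simp only [hb₂.smul_left] at this
      exact this
    have h2' : f₂ (w 2) (w 0) = μ * f₂ ((b : Matrix (Fin n₂) (Fin n₂) F) *ᵥ w 0) (w 0) := by
      have := congrArg (fun x => f₂ x (w 0)) hμ
      simp only [hb₂.smul_left] at this
      exact this
    rw [hw, if_pos rfl] at h1
    rw [hw, if_neg (by decide)] at h2'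
    have hne : f₂ ((b : Matrix (Fin n₂) (Fin n₂) F) *ᵥ w 0) (w 0) ≠ 0 := by
      intro h0
      rw [h0, mul_zero] at h1
      exact hη h1
    have hμ0 : μ = 0 := (mul_eq_zero.mp h2'.symm).resolve_right hne
    rw [hμ0, zero_smul] at hμ
    exact hwne 2 hμ
  · -- g₂ ∉ K
    intro hEq
    obtain ⟨g₂, hg₂Ω, hg₂a, hg₂b, -, -⟩ := exists_three_cycle hQ h20
      (a := tL e P (pt (ν 0) (w 0))) (b := tL e P (pt (ν 0) (w 1))) (c := tL e P (pt (ν 1) (w 0)))
      (hQne _ _) (by rw [hQv, hQv]) (by rw [hQv, hQv]) (by rw [hB]; simp) (by rw [hB]; simp)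
      (by rw [hB]; simp)
    have hg₂K : g₂ ∈ stabilizing (glToMat _ F) S ⊓ omegaGL Q := by rw [hEq]; exact hg₂Ω
    have hx : tL e P (pt (ν 0) (w 0 + w 1)) ∈ S := ⟨0, _, rfl⟩
    have hgx := ((mem_stabilizing_iff _ S).mp hg₂K.1 _).mp hx
    rw [pt_add_right, tL_add, Matrix.mulVec_add, hg₂a, hg₂b, ← tL_add, ← pt_add_left] at hgx
    obtain ⟨k, v', hk⟩ := hgx
    have hk' := tL_injective e P hk
    obtain ⟨l, hl⟩ := pt_eq_pt_left hk' (hwne 0)
    have h0 := congrArg (fun x => f₁ x (ν 0)) hl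
    have h1 := congrArg (fun x => f₁ x (ν 1)) hl
    simp only [hb₁.add_left, hb₁.smul_left, hν] at h0 h1
    by_cases hk0 : k = 0
    · subst hk0
      simp at h1
      exact hd h1
    · have hk0' : ¬ (0 : Fin 3) = k := fun h => hk0 h.symm
      simp [hk0] at h0
      exact hd h0

end Cfsg.Agent.S5682
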