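import Cfsg.Statements.S5686
import Cfsg.Agent.H95.Siegel2

set_option autoImplicit false
open Cfsg

namespace Cfsg.Agent.S5686

open Cfsg.Geo Cfsg.Agent.H95
open scoped MatrixGroups Matrix

/-- Let F be a finite field with q elements, n ≥ 13 even, Q a non-degenerate quadratic form on F^n of plus type (some subspace of dimension n/2 is totally singular), and Ω the commutator subgroup of the isometry group of Q, viewed inside GL_n(F). The elements of Ω stabilising a subspace of dimension n/2 − 1 on which Q vanishes form a subgroup that is not maximal: some subgroup lies strictly between it and Ω. -/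
theorem result {F : Type*} [Field F] [Fintype F] {n : ℕ} (hn : 13 ≤ n) (heven : Even n) (Q : (Fin n → F) → F) (hQ : Cfsg.Geo.IsNondegenerateQuadraticForm Q) (hplus : Cfsg.Geo.IsPlusTypeOn Q ⊤) (W : Submodule F (Fin n → F)) (hW : Cfsg.Geo.IsTotallySingularQuad Q W) (hdim : 2 * (Module.finrank F W + 1) = n) : ∃ K : Subgroup (Matrix.GeneralLinearGroup (Fin n) F), Cfsg.Geo.subspaceStabilizer W ⊓ Cfsg.Geo.omegaGL Q < K ∧ K < Cfsg.Geo.omegaGL Q := by
  classical
  have hb := hQ.polar_bilinear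
  have hnd := toQF_nondeg hQ
  obtain ⟨m, hm⟩ : ∃ m, m = Module.finrank F W + 1 := ⟨_, rfl⟩
  have hn2 : n = 2 * m := by omega
  have hV : Module.finrank F (Fin n → F) = 2 * m := by
    rw [Module.finrank_fin_fun, hn2]
  have hm7 : 7 ≤ m := by omega
  have hWts : H49.IsTS (toQF Q hQ) W := hW
  have hWp : ∀ a ∈ W, ∀ b ∈ W, QuadraticMap.polar Q a b = 0 := fun a ha b hb' =>
    hWts.polar ha hb'
  obtain ⟨U₀, -, hU₀, hU₀dim⟩ := hplus
  have hU₀ts : H49.IsTS (toQF Q hQ) U₀ := hU₀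
  have hU₀d : Module.finrank F U₀ = m := by
    rw [finrank_top, hV] at hU₀dim
    omega
  -- a singular vector orthogonal to W, outside W
  obtain ⟨x, hxU₀, hxW', hxW⟩ : ∃ x ∈ U₀, (∀ w ∈ W, QuadraticMap.polar Q w x = 0) ∧ x ∉ W := by
    by_contra hcon
    push Not at hcon
    have h1 : LinearMap.BilinForm.orthogonal (QuadraticMap.polarBilin (toQF Q hQ)) (W ⊔ U₀) =
        LinearMap.BilinForm.orthogonal (QuadraticMap.polarBilin (toQF Q hQ)) W ⊓ U₀ := by
      rw [H49.orthogonal_sup', H49.IsTS.orthogonal_eq hnd hV hU₀ts hU₀d]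
    have h2 := LinearMap.BilinForm.finrank_orthogonal hnd (W ⊔ U₀)
    have h3 := Submodule.finrank_sup_add_finrank_inf_eq W U₀
    have h4 : LinearMap.BilinForm.orthogonal (QuadraticMap.polarBilin (toQF Q hQ)) W ⊓ U₀ ≤ W ⊓ U₀ := by
      intro z hz
      refine ⟨hcon z hz.2 (fun w hw => ?_), hz.2⟩
      exact (LinearMap.BilinForm.mem_orthogonal_iff.mp hz.1) w hw
    have h5 := Submodule.finrank_mono h4
    rw [← h1, h2, hV] at h5
    have h6 : Module.finrank F ↥(W ⊔ U₀) ≤ 2 * m := by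
      rw [← hV]
      exact Submodule.finrank_le _
    omega
  have hQx : Q x = 0 := hU₀ x hxU₀
  obtain ⟨U₁, hU₁⟩ : ∃ U₁, U₁ = W ⊔ Submodule.span F {x} := ⟨_, rfl⟩
  have hWU₁ : W ≤ U₁ := by rw [hU₁]; exact le_sup_left
  have hxU₁ : x ∈ U₁ := by
    rw [hU₁]; exact Submodule.mem_sup_right (Submodule.mem_span_singleton_self x)
  have hU₁mem : ∀ z ∈ U₁, ∃ w ∈ W, ∃ s : F, z = w + s • x := by
    intro z hz
    rw [hU₁] at hz
    obtain ⟨w, hw, y, hy, rfl⟩ := Submodule.mem_sup.mp hz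
    obtain ⟨s, rfl⟩ := Submodule.mem_span_singleton.mp hy
    exact ⟨w, hw, s, rfl⟩
  have hU₁ts : H49.IsTS (toQF Q hQ) U₁ := by
    intro z hz
    obtain ⟨w, hw, s, rfl⟩ := hU₁mem z hz
    show Q (w + s • x) = 0
    rw [q_add_smul hQ, hW w hw, hQx, hxW' w hw]
    ring
  have hU₁Q : ∀ z ∈ U₁, Q z = 0 := hU₁ts
  have hU₁p : ∀ a ∈ U₁, ∀ b ∈ U₁, QuadraticMap.polar Q a b = 0 := fun a ha b hb' =>
    hU₁ts.polar ha hb'
  have hU₁d : Module.finrank F U₁ = m := by
    rw [hU₁, H49.finrank_sup_span_singleton W hxW, hm]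
  -- two independent vectors of W
  have hWd : Module.finrank F W = m - 1 := by omega
  obtain ⟨u₂, hu₂W, hu₂0⟩ : ∃ u₂ ∈ W, u₂ ≠ 0 := by
    have : W ≠ ⊥ := by
      intro h
      rw [h, finrank_bot] at hWd
      omega
    exact Submodule.exists_mem_ne_zero_of_ne_bot this
  obtain ⟨x₀, hx₀W, hx₀⟩ : ∃ x₀ ∈ W, x₀ ∉ Submodule.span F {u₂} := by
    by_contra hcon
    push Not at hcon
    have hle : W ≤ Submodule.span F {u₂} := hcon
    have h1 := Submodule.finrank_mono hle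
    rw [finrank_span_singleton hu₂0] at h1
    omega
  have hx₀' : ∀ β : F, β • u₂ ≠ x₀ := by
    intro β h
    apply hx₀
    rw [← h]
    exact Submodule.smul_mem _ _ (Submodule.mem_span_singleton_self u₂)
  have hx0 : x ≠ 0 := by
    rintro rfl
    exact hxW W.zero_mem
  have hxsmul : ∀ (α : F) (w : Fin n → F), w ∈ W → α • x + w ∈ W → α = 0 := by
    intro α w hw h
    by_contra hα
    apply hxW
    have h1 : α • x ∈ W := by
      have := W.sub_mem h hw
      rwa [add_sub_cancel_right] at this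
    have := W.smul_mem α⁻¹ h1
    rwa [smul_smul, inv_mul_cancel₀ hα, one_smul] at this
  -- the auxiliary singular vectors
  obtain ⟨y, hQy, hx₀y, hxy, hu₂y⟩ := exists_sing_partner hQ (a := x₀) (z₁ := x) (z₂ := u₂)
    (hW x₀ hx₀W) (by
      intro α β h
      have hα : α = 0 := hxsmul α (β • u₂) (W.smul_mem _ hu₂W) (by rw [h]; exact hx₀W)
      rw [hα, zero_smul, zero_add] at h
      exact hx₀' β h)
    (hU₁p x hxU₁ x₀ (hWU₁ hx₀W)) (hWp u₂ hu₂W x₀ hx₀W)
  have hyx₀ : QuadraticMap.polar Q y x₀ = 1 := by rw [polar_symm Q]; exact hx₀y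
  have hyx : QuadraticMap.polar Q y x = 0 := by rw [polar_symm Q]; exact hxy
  have hyu₂ : QuadraticMap.polar Q y u₂ = 0 := by rw [polar_symm Q]; exact hu₂y
  obtain ⟨v₁, hQv₁, hu₂v₁, hxv₁, hyv₁⟩ := exists_sing_partner hQ (a := u₂) (z₁ := x) (z₂ := y)
    (hW u₂ hu₂W) (by
      intro α β h
      have h1 := congrArg (fun z => QuadraticMap.polar Q x₀ z) h
      simp only [hb.add_right, hb.smul_right, hx₀y, hWp x₀ hx₀W u₂ hu₂W,
        hU₁p x₀ (hWU₁ hx₀W) x hxU₁] at h1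
      have hβ : β = 0 := by simpa using h1
      rw [hβ, zero_smul, add_zero] at h
      have hα : α = 0 := hxsmul α 0 W.zero_mem (by rw [add_zero, h]; exact hu₂W)
      rw [hα, zero_smul] at h
      exact hu₂0 h.symm)
    (hU₁p x hxU₁ u₂ (hWU₁ hu₂W)) hyu₂
  have hv₁u₂ : QuadraticMap.polar Q v₁ u₂ = 1 := by rw [polar_symm Q]; exact hu₂v₁
  have hv₁x : QuadraticMap.polar Q v₁ x = 0 := by rw [polar_symm Q]; exact hxv₁
  have hv₁y : QuadraticMap.polar Q v₁ y = 0 := by rw [polar_symm Q]; exact hyv₁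
  obtain ⟨v₃, hQv₃, hxv₃, hyv₃, hv₁v₃⟩ := exists_sing_partner hQ (a := x) (z₁ := y) (z₂ := v₁)
    hQx (by
      intro α β h
      have h1 := congrArg (fun z => QuadraticMap.polar Q u₂ z) h
      simp only [hb.add_right, hb.smul_right, hu₂y, hu₂v₁,
        hU₁p u₂ (hWU₁ hu₂W) x hxU₁] at h1
      have hβ : β = 0 := by simpa using h1
      have h2 := congrArg (fun z => QuadraticMap.polar Q x₀ z) h
      simp only [hb.add_right, hb.smul_right, hx₀y, hβ,
        hU₁p x₀ (hWU₁ hx₀W) x hxU₁] at h2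
      have hα : α = 0 := by simpa using h2
      rw [hα, hβ, zero_smul, zero_smul, add_zero] at h
      exact hx0 h.symm)
    hyx hv₁x
  have hv₃x : QuadraticMap.polar Q v₃ x = 1 := by rw [polar_symm Q]; exact hxv₃
  have hv₃v₁ : QuadraticMap.polar Q v₃ v₁ = 0 := by rw [polar_symm Q]; exact hv₁v₃
  refine ⟨subspaceStabilizer U₁ ⊓ omegaGL Q, lt_of_le_of_ne ?_ ?_, lt_of_le_of_ne inf_le_right ?_⟩
  · -- H ≤ K
    rintro g ⟨hgW, hgΩ⟩
    refine ⟨?_, hgΩ⟩
    obtain ⟨g', hg', rfl⟩ := hgΩ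
    have hpar := H49.even_of_mem_commutator (toQF Q hQ) hnd hV U₁ hU₁ts hU₁d (g := g') hg'
    obtain ⟨U', hU'⟩ : ∃ U', U' = U₁.map (Matrix.mulVecLin
        ((g' : GL (Fin n) F) : Matrix (Fin n) (Fin n) F)) := ⟨_, rfl⟩
    rw [← hU'] at hpar
    have hU'd : Module.finrank F U' = m := by
      rw [hU', H49.finrank_map_iso g' U₁, hU₁d]
    have hWU' : W ≤ U' := by
      intro w hw
      rw [hU']
      refine ⟨((g'⁻¹ : ↥(isometryGroup F Q)) : GL (Fin n) F).1 *ᵥ w, hWU₁ ?_, ?_⟩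
      · apply ((mem_subspaceStabilizer_iff _ W).mp hgW _).mpr
        show ((g' : GL (Fin n) F) : Matrix (Fin n) (Fin n) F) *ᵥ
          (((g'⁻¹ : ↥(isometryGroup F Q)) : GL (Fin n) F).1 *ᵥ w) ∈ W
        rw [H49.coe_mulVec_inv_cancel]
        exact hw
      · rw [Matrix.mulVecLin_apply]
        exact H49.coe_mulVec_inv_cancel g' w
    have h1 : Module.finrank F W ≤ Module.finrank F ↥(U₁ ⊓ U') :=
      Submodule.finrank_mono (le_inf hWU₁ hWU')
    have h2 : Module.finrank F ↥(U₁ ⊓ U') ≤ m := by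
      rw [← hU₁d]
      exact Submodule.finrank_mono inf_le_left
    have h3 : Module.finrank F ↥(U₁ ⊓ U') = m := by
      by_contra hne
      have h7 : m - Module.finrank F ↥(U₁ ⊓ U') = 1 := by omega
      rw [h7] at hpar
      exact absurd hpar (by decide)
    have h4 : U₁ ⊓ U' = U₁ := Submodule.eq_of_le_of_finrank_eq inf_le_left (by rw [h3, hU₁d])
    have h5 : U₁ ≤ U' := by rw [← h4]; exact inf_le_right
    have h6 : U₁ = U' := Submodule.eq_of_le_of_finrank_eq h5 (by rw [hU₁d, hU'd])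
    apply mem_subspaceStabilizer_of_forall
    intro v hv
    rw [h6, hU']
    exact ⟨v, hv, by rw [Matrix.mulVecLin_apply]; rfl⟩
  · -- H ≠ K
    intro hEq
    obtain ⟨g, hgΩ, hg⟩ := exists_siegel hQ x v₁ u₂ y hQx hQv₁ (hW u₂ hu₂W) hQy hxv₁ hu₂y
      (hU₁p x hxU₁ u₂ (hWU₁ hu₂W)) hxy hv₁u₂ hv₁y 1
    have hgK : g ∈ subspaceStabilizer U₁ ⊓ omegaGL Q := by
      refine ⟨mem_subspaceStabilizer_of_forall _ _ ?_, hgΩ⟩
      intro z hz
      rw [hg, hU₁p x hxU₁ z hz, zero_smul, zero_sub, one_smul]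
      exact U₁.add_mem hz (U₁.neg_mem (U₁.smul_mem _ hxU₁))
    rw [← hEq] at hgK
    have h1 := ((mem_subspaceStabilizer_iff g W).mp hgK.1 x₀).mp hx₀W
    rw [hg, hU₁p x hxU₁ x₀ (hWU₁ hx₀W), zero_smul, zero_sub, one_smul, hyx₀, one_smul] at h1
    apply hxW
    have h2 := W.sub_mem hx₀W h1
    rwa [sub_add_cancel_left, neg_neg] at h2
  · -- K ≠ Ω
    intro hEq
    obtain ⟨g, hgΩ, hg⟩ := exists_siegel hQ y v₃ x v₁ hQy hQv₃ hQx hQv₁ hyv₃ hxv₁ hyx hyv₁
      hv₃x hv₃v₁ 1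
    rw [← hEq] at hgΩ
    have h1 := ((mem_subspaceStabilizer_iff g U₁).mp hgΩ.1 x₀).mp (hWU₁ hx₀W)
    rw [hg, hyx₀, one_smul, one_smul] at h1
    have h2 := hU₁p u₂ (hWU₁ hu₂W) _ h1
    rw [hb.add_right, bil_sub_right hb, hb.smul_right, hu₂y, hu₂v₁, hWp u₂ hu₂W x₀ hx₀W] at h2
    simp at h2

end Cfsg.Agent.S5686
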