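import Cfsg.Statements.S5690
import Cfsg.Agent.H95.QuadPlane2

set_option autoImplicit false
open Cfsg

namespace Cfsg.Agent.S5690

open Cfsg.Geo Cfsg.Agent.H95

/-- Let F be a finite field with q elements, n ≥ 13 even, Q a non-degenerate quadratic form on F^n (of either type), and Ω the commutator subgroup of the isometry group of Q, viewed inside GL_n(F). Suppose q ≤ 3 and W is a plane on which the polar form is non-degenerate and which contains a line on which Q vanishes. Then the elements of Ω stabilising W form a subgroup that is not maximal: some subgroup lies strictly between it and Ω. -/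
theorem result {F : Type*} [Field F] [Fintype F] {n : ℕ} (hn : 13 ≤ n) (heven : Even n) (Q : (Fin n → F) → F) (hQ : Cfsg.Geo.IsNondegenerateQuadraticForm Q) (hq : Fintype.card F ≤ 3) (W : Submodule F (Fin n → F)) (hdim : Module.finrank F W = 2) (hW : Cfsg.Geo.IsNondegenerateOn (QuadraticMap.polar Q) W) (hWp : Cfsg.Geo.IsPlusTypeOn Q W) : ∃ K : Subgroup (Matrix.GeneralLinearGroup (Fin n) F), Cfsg.Geo.subspaceStabilizer W ⊓ Cfsg.Geo.omegaGL Q < K ∧ K < Cfsg.Geo.omegaGL Q := by
  have h1 : 1 < Fintype.card F := Fintype.one_lt_card
  have hcard : 5 ≤ Fintype.card (Fin n) := by rw [Fintype.card_fin]; omega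
  have h23 : Fintype.card F = 2 ∨ Fintype.card F = 3 := by omega
  rcases h23 with h | h
  · exact plane_not_max_two h hQ hcard W hdim hW hWp
  · exact plane_not_max_three h hQ hcard W hdim hW hWp

end Cfsg.Agent.S5690
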