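import Cfsg.Statements.S5695
import Cfsg.Agent.H95.Decomp3
import Cfsg.Agent.H95.Decomp2

set_option autoImplicit false
open Cfsg

namespace Cfsg.Agent.S5695

open Cfsg.Geo Cfsg.Agent.H95

/-- Let F be a finite field with q elements, n ≥ 13 even, Q a non-degenerate quadratic form on F^n of minus type (no subspace of dimension n/2 is totally singular), and Ω the commutator subgroup of the isometry group of Q, viewed inside GL_n(F). Suppose q = 3 and let D be a decomposition of F^n into t ≥ 2 pairwise orthogonal, pairwise Q-isometric subspaces of equal dimension k ∈ {2, 3} on which the polar form is non-degenerate (for k = 3 the discriminant of Q is a square; for k = 2, t is odd and no member is of plus type). Then the elements of Ω permuting the members of D form a subgroup that is not maximal: some subgroup lies strictly between it and Ω. -/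
theorem result {F : Type*} [Field F] [Fintype F] {n : ℕ} (hn : 13 ≤ n) (heven : Even n) (Q : (Fin n → F) → F) (hQ : Cfsg.Geo.IsNondegenerateQuadraticForm Q) (hminus : ¬ Cfsg.Geo.IsPlusTypeOn Q ⊤) (hq : Fintype.card F = 3) {t : ℕ} (k : ℕ) (hk : k = 2 ∨ k = 3) (D : Fin t → Submodule F (Fin n → F)) (hD : Cfsg.Geo.IsOrthogonalMDecomposition Q k D) (hko : Odd k → Cfsg.Geo.HasSquareDiscriminant Q) (hke : Even k → (Odd t ∧ ∀ i, ¬ Cfsg.Geo.IsPlusTypeOn Q (D i))) : ∃ K : Subgroup (Matrix.GeneralLinearGroup (Fin n) F), Cfsg.Geo.decompositionStabilizer D ⊓ Cfsg.Geo.omegaGL Q < K ∧ K < Cfsg.Geo.omegaGL Q := by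
  rcases hk with rfl | rfl
  · have hcount := card_eq_mul_of_decomp hD.decomp.decomp
    rw [Fintype.card_fin] at hcount
    exact decomp2_not_max_three hq hQ D hD (by omega)
  · exact decomp3_not_max hq hQ D hD

end Cfsg.Agent.S5695
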