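import Cfsg.Statements.S5697
import Cfsg.Agent.H95.PairO2
import Cfsg.Agent.H95.Siegel
import Cfsg.Agent.H95.QF

set_option autoImplicit false
open Cfsg

namespace Cfsg.Agent.S5697

open Cfsg.Geo Cfsg.Agent.H95
open scoped MatrixGroups Matrix

/-- Let F be a finite field with q elements, n ≥ 13 even, Q a non-degenerate quadratic form on F^n of plus type (some subspace of dimension n/2 is totally singular), and Ω the commutator subgroup of the isometry group of Q, viewed inside GL_n(F). Suppose n/2 is even and let D be a decomposition of F^n into two complementary subspaces of dimension n/2 on each of which Q vanishes. Then the elements of Ω preserving or interchanging the two subspaces form a maximal subgroup of Ω. -/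
theorem result {F : Type*} [Field F] [Fintype F] {n : ℕ} (hn : 13 ≤ n) (heven : Even n) (Q : (Fin n → F) → F) (hQ : Cfsg.Geo.IsNondegenerateQuadraticForm Q) (hplus : Cfsg.Geo.IsPlusTypeOn Q ⊤) (k : ℕ) (hk : 2 * k = n) (hke : Even k) (D : Fin 2 → Submodule F (Fin n → F)) (hD : Cfsg.Geo.IsMDecomposition k D) (hts : ∀ i, Cfsg.Geo.IsTotallySingularQuad Q (D i)) : Cfsg.Geo.IsMaximalIn (Cfsg.Geo.omegaGL Q) (Cfsg.Geo.decompositionStabilizer D ⊓ Cfsg.Geo.omegaGL Q) := by
  classical
  have hnd := toQF_nondeg hQ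
  obtain ⟨j, hj⟩ := hke
  subst hj
  have hV : Module.finrank F (Fin n → F) = 2 * (j + j) := by
    rw [Module.finrank_fin_fun, hk]
  have h3 : H49.HasTS3 (toQF Q hQ) :=
    hasTS3_of_finrank _ hnd (by rw [Module.finrank_fin_fun]; omega)
  have hdim : ∀ i, Module.finrank F (D i) = j + j := hD.finrank_eq
  have h01 : (0 : Fin 2) ≠ 1 := by decide
  have hdisj : D 0 ⊓ D 1 = ⊥ := (hD.indep.pairwiseDisjoint h01).eq_bot
  have hfin2 : ∀ i : Fin 2, i ≠ 0 → i = 1 := by decide
  have hD01 : D 0 ≠ D 1 := by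
    intro h
    rw [← h, inf_idem] at hdisj
    have := hdim 0
    rw [hdisj, finrank_bot] at this
    omega
  refine pair_isMaximalIn_aux (toQF Q hQ) hnd h3 (by omega) hV D hD (fun i u hu => hts i u hu) ?_
  intro hEq
  obtain ⟨g, hgΩ, hgfix, x, hx, hgx⟩ := exists_fix_move hQ hV (by omega) (D 0) (D 1) (hts 0)
    (hts 1) (hdim 0) (hdim 1) hdisj
  have hgK : g ∈ decompositionStabilizer D ⊓ omegaGL Q := by
    have h : g ∈ omegaGL (⇑(toQF Q hQ)) := hgΩ
    rw [← hEq] at h
    exact h
  obtain ⟨σ, hσ⟩ := hgK.1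
  have hσ0 : σ 0 = 0 := by
    by_contra hne
    have h1 : σ 0 = 1 := hfin2 _ hne
    have h2 := hσ 0
    rw [h1] at h2
    apply hD01
    rw [← h2]
    ext v
    constructor
    · intro hv
      exact ⟨v, hv, by rw [Matrix.toLin'_apply, hgfix v hv]⟩
    · rintro ⟨w, hw, rfl⟩
      rw [Matrix.toLin'_apply, hgfix w hw]
      exact hw
  have hσ1 : σ 1 = 1 := by
    by_contra hne
    have h1 : σ 1 = 0 := by
      have : ∀ i : Fin 2, i ≠ 1 → i = 0 := by decide
      exact this _ hne
    exact h01 (σ.injective (hσ0.trans h1.symm))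
  have h3' := hσ 1
  rw [hσ1] at h3'
  apply hgx
  rw [← h3']
  exact ⟨x, hx, by rw [Matrix.toLin'_apply]⟩

end Cfsg.Agent.S5697
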