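import Cfsg.Statements.S5698
import Cfsg.Agent.H95.Siegel

set_option autoImplicit false
open Cfsg

namespace Cfsg.Agent.S5698

open Cfsg.Geo Cfsg.Agent.H95
open scoped MatrixGroups Matrix

/-- Let F be a finite field with q elements, n ≥ 13 even, Q a non-degenerate quadratic form on F^n of plus type (some subspace of dimension n/2 is totally singular), and Ω the commutator subgroup of the isometry group of Q, viewed inside GL_n(F). Suppose n/2 is odd and let D be a decomposition of F^n into two complementary subspaces of dimension n/2 on each of which Q vanishes. Then the elements of Ω preserving or interchanging the two subspaces form a subgroup that is not maximal: some subgroup lies strictly between it and Ω. -/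
theorem result {F : Type*} [Field F] [Fintype F] {n : ℕ} (hn : 13 ≤ n) (heven : Even n) (Q : (Fin n → F) → F) (hQ : Cfsg.Geo.IsNondegenerateQuadraticForm Q) (hplus : Cfsg.Geo.IsPlusTypeOn Q ⊤) (k : ℕ) (hk : 2 * k = n) (hko : Odd k) (D : Fin 2 → Submodule F (Fin n → F)) (hD : Cfsg.Geo.IsMDecomposition k D) (hts : ∀ i, Cfsg.Geo.IsTotallySingularQuad Q (D i)) : ∃ K : Subgroup (Matrix.GeneralLinearGroup (Fin n) F), Cfsg.Geo.decompositionStabilizer D ⊓ Cfsg.Geo.omegaGL Q < K ∧ K < Cfsg.Geo.omegaGL Q := by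
  classical
  have hnd := toQF_nondeg hQ
  have hV : Module.finrank F (Fin n → F) = 2 * k := by
    rw [Module.finrank_fin_fun, hk]
  have hTS : ∀ i, H49.IsTS (toQF Q hQ) (D i) := fun i u hu => hts i u hu
  have hdim : ∀ i, Module.finrank F (D i) = k := hD.finrank_eq
  have h01 : (0 : Fin 2) ≠ 1 := by decide
  have hdisj : D 0 ⊓ D 1 = ⊥ := (hD.indep.pairwiseDisjoint h01).eq_bot
  have hdisj' : D 1 ⊓ D 0 = ⊥ := by rw [inf_comm]; exact hdisj
  have hk3 : 3 ≤ k := by omega
  have hfin2 : ∀ j : Fin 2, j ≠ 0 → j = 1 := by decide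
  have hD01 : D 0 ≠ D 1 := by
    intro h
    rw [← h, inf_idem] at hdisj
    have := hdim 0
    rw [hdisj, finrank_bot] at this
    omega
  refine ⟨subspaceStabilizer (D 0) ⊓ omegaGL Q, lt_of_le_of_ne ?_ ?_, lt_of_le_of_ne inf_le_right ?_⟩
  · -- H ≤ K
    rintro g ⟨⟨σ, hσ⟩, hgΩ⟩
    refine ⟨?_, hgΩ⟩
    have hσ0 : σ 0 = 0 := by
      by_contra hne
      have h1 : σ 0 = 1 := hfin2 _ hne
      obtain ⟨g', hg', rfl⟩ := hgΩ
      have hpar := H49.even_of_mem_commutator (toQF Q hQ) hnd hV (D 0) (hTS 0) (hdim 0) (g := g') hg'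
      have hmap : (D 0).map (Matrix.mulVecLin ((g' : GL (Fin n) F) : Matrix (Fin n) (Fin n) F)) = D 1 := by
        have := hσ 0
        rw [h1] at this
        rw [← this]
        rfl
      rw [hmap, hdisj, finrank_bot, Nat.sub_zero] at hpar
      exact (Nat.not_even_iff_odd.mpr hko) hpar
    have h2 := hσ 0
    rw [hσ0] at h2
    apply mem_subspaceStabilizer_of_forall
    intro v hv
    rw [← h2]
    exact ⟨v, hv, by rw [Matrix.toLin'_apply]⟩
  · -- H ≠ K
    intro hEq
    obtain ⟨g, hgΩ, hgfix, x, hx, hgx⟩ := exists_fix_move hQ hV hk3 (D 0) (D 1) (hts 0) (hts 1)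
      (hdim 0) (hdim 1) hdisj
    have hgK : g ∈ subspaceStabilizer (D 0) ⊓ omegaGL Q := by
      refine ⟨mem_subspaceStabilizer_of_forall _ _ ?_, hgΩ⟩
      intro v hv
      rw [hgfix v hv]
      exact hv
    rw [← hEq] at hgK
    obtain ⟨σ, hσ⟩ := hgK.1
    have hσ0 : σ 0 = 0 := by
      by_contra hne
      have h1 : σ 0 = 1 := hfin2 _ hne
      have h2 := hσ 0
      rw [h1] at h2
      apply hD01
      rw [← h2]
      ext v
      constructor
      · intro hv
        exact ⟨v, hv, by rw [Matrix.toLin'_apply, hgfix v hv]⟩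
      · rintro ⟨w, hw, rfl⟩
        rw [Matrix.toLin'_apply, hgfix w hw]
        exact hw
    have hσ1 : σ 1 = 1 := by
      by_contra hne
      have h1 : σ 1 = 0 := by
        have : ∀ j : Fin 2, j ≠ 1 → j = 0 := by decide
        exact this _ hne
      exact h01 (σ.injective (hσ0.trans h1.symm))
    have h3 := hσ 1
    rw [hσ1] at h3
    apply hgx
    rw [← h3]
    exact ⟨x, hx, by rw [Matrix.toLin'_apply]⟩
  · -- K ≠ Ω
    intro hEq
    obtain ⟨g, hgΩ, -, x, hx, hgx⟩ := exists_fix_move hQ hV hk3 (D 1) (D 0) (hts 1) (hts 0)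
      (hdim 1) (hdim 0) hdisj'
    rw [← hEq] at hgΩ
    exact hgx (((mem_subspaceStabilizer_iff g (D 0)).mp hgΩ.1 x).mp hx)

end Cfsg.Agent.S5698
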