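import Cfsg.Statements.S5699
import Cfsg.Agent.H95.ND5
import Cfsg.Agent.H95.QF

set_option autoImplicit false
open Cfsg

namespace Cfsg.Agent.S5699

open Cfsg.Geo Cfsg.Agent.H95
open scoped MatrixGroups Matrix

/-- Let F be a finite field with q elements, n ≥ 13 even, Q a non-degenerate quadratic form on F^n (of either type), and Ω the commutator subgroup of the isometry group of Q, viewed inside GL_n(F). Let D be a decomposition of F^n into two orthogonal subspaces of odd dimension n/2 on which the polar form is non-degenerate and which are not Q-isometric to each other. Then the elements of Ω permuting (necessarily fixing) the two subspaces form a maximal subgroup of Ω. -/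
theorem result {F : Type*} [Field F] [Fintype F] {n : ℕ} (hn : 13 ≤ n) (heven : Even n) (Q : (Fin n → F) → F) (hQ : Cfsg.Geo.IsNondegenerateQuadraticForm Q) (k : ℕ) (hk : 2 * k = n) (hko : Odd k) (D : Fin 2 → Submodule F (Fin n → F)) (hD : Cfsg.Geo.IsNondegenerateMDecomposition (QuadraticMap.polar Q) k D) (hni : ¬ Cfsg.Geo.AreIsometricFor Q (D 0) (D 1)) : Cfsg.Geo.IsMaximalIn (Cfsg.Geo.omegaGL Q) (Cfsg.Geo.decompositionStabilizer D ⊓ Cfsg.Geo.omegaGL Q) := by
  classical
  have hnd := toQF_nondeg hQ
  have hV : Module.finrank F (Fin n → F) = n := Module.finrank_fin_fun F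
  have hf0 := hD.decomp.finrank_eq 0
  have hf1 := hD.decomp.finrank_eq 1
  have hfo := LinearMap.BilinForm.finrank_orthogonal hnd (D 0)
  have horth : LinearMap.BilinForm.orthogonal (QuadraticMap.polarBilin (toQF Q hQ)) (D 0) = D 1 := by
    symm
    apply Submodule.eq_of_le_of_finrank_eq
    · intro y hy
      rw [LinearMap.BilinForm.mem_orthogonal_iff]
      intro x hx
      exact hD.orthogonal 0 1 (by decide) x hx y hy
    · rw [hf1, hfo, hf0, hV]; omega
  -- injectivity of the action of a matrix of `GL`
  have hinj : ∀ g : GL (Fin n) F, Function.Injective (Matrix.toLin' (g : Matrix (Fin n) (Fin n) F)) := by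
    intro g x y hxy
    simp only [Matrix.toLin'_apply] at hxy
    have := congrArg (fun z => ((g⁻¹ : GL (Fin n) F) : Matrix (Fin n) (Fin n) F) *ᵥ z) hxy
    simpa [Matrix.mulVec_mulVec] using this
  have hEq : decompositionStabilizer D ⊓ omegaGL Q = subspaceStabilizer (D 0) ⊓ omegaGL Q := by
    apply le_antisymm
    · rintro g ⟨⟨σ, hσ⟩, hgΩ⟩
      refine ⟨?_, hgΩ⟩
      have h0 := hσ 0
      have hcase : ∀ j : Fin 2, j = 0 ∨ j = 1 := by decide
      rcases hcase (σ 0) with h | h
      · rw [h] at h0
        change g ∈ subspaceStabilizer (D 0)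
        rw [Cfsg.Agent.H49.mem_subspaceStabilizer_iff]
        rw [← Matrix.toLin'_apply'] 
        exact h0
      · exfalso
        rw [h] at h0
        apply hni
        have hgI : g ∈ isometryGroup F Q := omegaGL_le Q hgΩ
        refine ⟨(Submodule.equivMapOfInjective _ (hinj g) (D 0)).trans (LinearEquiv.ofEq _ _ h0), ?_⟩
        intro w
        have : (((Submodule.equivMapOfInjective _ (hinj g) (D 0)).trans (LinearEquiv.ofEq _ _ h0)) w : Fin n → F)
            = (g : Matrix (Fin n) (Fin n) F) *ᵥ (w : Fin n → F) := by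
          simp
        rw [this]
        exact ((mem_isometryGroup_iff Q g).mp hgI) _
    · intro g hg
      have hg1 := stab_inf_omega_le_orth (toQF Q hQ) (D 0) hg
      rw [horth] at hg1
      refine ⟨⟨1, ?_⟩, hg.2⟩
      have e0 := (Cfsg.Agent.H49.mem_subspaceStabilizer_iff g (D 0)).mp hg.1
      have e1 := (Cfsg.Agent.H49.mem_subspaceStabilizer_iff g (D 1)).mp hg1.1
      rw [← Matrix.toLin'_apply'] at e0 e1
      have hcase : ∀ j : Fin 2, j = 0 ∨ j = 1 := by decide
      intro i
      rcases hcase i with h | h
      · rw [h]; simpa using e0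
      · rw [h]; simpa using e1
  rw [hEq]
  have hW0 : D 0 ≠ ⊥ := by
    intro h
    rw [h, finrank_bot] at hf0
    omega
  have hW1 : D 0 ≠ ⊤ := by
    intro h
    rw [h, finrank_top, hV] at hf0
    omega
  refine nondeg_stabilizer_isMaximalIn' (toQF Q hQ) hnd (by rw [hV]; exact hn) (D 0)
    (hD.nondegenerate 0) hW0 hW1 ?_ ?_
  · rintro ⟨-, U, hU2, -, -, h | ⟨-, h⟩⟩
    · rw [h, hf0] at hU2; omega
    · rw [hU2, hf0, hV] at h; omega
  · intro h g hg
    apply hni
    rw [horth] at hg
    -- `g` maps `D 1` injectively into `D 0`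
    let φ : D 1 →ₗ[F] D 0 :=
      (Matrix.toLin' ((g : GL (Fin n) F) : Matrix (Fin n) (Fin n) F)).restrict
        (p := D 1) (q := D 0) (fun y hy => by
          rw [Matrix.toLin'_apply]; exact hg y hy)
    have hφ : Function.Injective φ := by
      intro x y hxy
      apply Subtype.ext
      apply hinj (g : GL (Fin n) F)
      exact congrArg Subtype.val hxy
    let e := LinearMap.linearEquivOfInjective φ hφ (by rw [hf0, hf1])
    refine ⟨e.symm, ?_⟩
    intro w
    have h1 : (w : Fin n → F) = ((g : GL (Fin n) F) : Matrix (Fin n) (Fin n) F) *ᵥ ((e.symm w : D 1) : Fin n → F) := by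
      have : e (e.symm w) = w := e.apply_symm_apply w
      have h2 := congrArg Subtype.val this
      rw [← h2]
      rfl
    rw [h1]
    exact (((mem_isometryGroup_iff Q (g : GL (Fin n) F)).mp g.2) _).symm

end Cfsg.Agent.S5699
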