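import Cfsg.Statements.S5705
import Cfsg.Agent.H95.JStd
import Cfsg.Agent.H95.QuadPlane2

set_option autoImplicit false
open Cfsg

namespace Cfsg.Agent.S5705

open Cfsg.Geo Cfsg.Agent.H95
open scoped MatrixGroups Matrix Kronecker

/-- Let F be the field with 2 elements, n = 2 n₂ ≥ 13 even, Q a non-degenerate quadratic form on F^n of plus type and Ω the commutator subgroup of its isometry group. Suppose that, through P and e, the polar form of Q is similar to the tensor product of non-degenerate symplectic forms f₁ on F^2 and f₂ on F^(n₂), and Q vanishes on the images of all pure tensors. Then the elements of Ω in the stabiliser of this tensor decomposition form a subgroup that is not maximal: some subgroup lies strictly between it and Ω. -/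
theorem result {F : Type*} [Field F] [Fintype F] {n : ℕ} (hn : 13 ≤ n) (heven : Even n) (Q : (Fin n → F) → F) (hQ : Cfsg.Geo.IsNondegenerateQuadraticForm Q) (hplus : Cfsg.Geo.IsPlusTypeOn Q ⊤) (hq : Fintype.card F = 2) (n₂ : ℕ) (h2 : 2 < n₂) (e : (Fin n) ≃ Fin 2 × Fin n₂) (P : Matrix.GeneralLinearGroup (Fin n) F) (f₁ : (Fin 2 → F) → (Fin 2 → F) → F) (f₂ : (Fin n₂ → F) → (Fin n₂ → F) → F) (hf₁ : Cfsg.Geo.IsSymplecticForm f₁) (hf₂ : Cfsg.Geo.IsSymplecticForm f₂) (hT : Cfsg.Geo.IsTensorFormStructure id (QuadraticMap.polar Q) f₁ f₂ e P) (hpure : (∀ (x₁ : Fin 2 → F) (x₂ : Fin n₂ → F), Q (Matrix.mulVec (P : Matrix (Fin n) (Fin n) F) ((fun a : Fin 2 × Fin n₂ => x₁ a.1 * x₂ a.2) ∘ e)) = 0)) : ∃ K : Subgroup (Matrix.GeneralLinearGroup (Fin n) F), Cfsg.Geo.tensorProductSubgroup 2 n₂ e P ⊓ Cfsg.Geo.omegaGL Q < K ∧ K < Cfsg.Geo.omegaGL Q := by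
  classical
  have h2F := two_eq_zero_of_card_two hq
  have h11 : (1 : F) + 1 = 0 := by linear_combination h2F
  have h01 := eq_zero_or_one_of_card_two hq
  have hb := hQ.polar_bilinear
  have hb₁ := hf₁.bilinear
  have hb₂ := hf₂.bilinear
  have hBself : ∀ x, QuadraticMap.polar Q x x = 0 := fun x => by rw [polar_self hQ, h2F, zero_mul]
  have hadd : ∀ x : Fin n → F, x + x = 0 := fun x => by rw [← two_smul F, h2F, zero_smul]
  have hadd₂ : ∀ x : Fin n₂ → F, x + x = 0 := fun x => by rw [← two_smul F, h2F, zero_smul]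
  obtain ⟨c, hc, hpt'⟩ := tensorForm_pt_id hb₁ hb₂ hT
  have hc1 : c = 1 := (h01 c).resolve_left hc
  have hpt : ∀ (u u' : Fin 2 → F) (v v' : Fin n₂ → F),
      QuadraticMap.polar Q (tL e P (pt u v)) (tL e P (pt u' v')) = f₁ u u' * f₂ v v' := by
    intro u u' v v'
    rw [hpt', hc1, one_mul]
  have hQpt : ∀ (u : Fin 2 → F) (v : Fin n₂ → F), Q (tL e P (pt u v)) = 0 := hpure
  -- the standard basis of F²
  set ε₁ : Fin 2 → F := Pi.single 0 1 with hε₁
  set ε₂ : Fin 2 → F := Pi.single 1 1 with hε₂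
  have hexp2 : ∀ x : Fin 2 → F, x = x 0 • ε₁ + x 1 • ε₂ := by
    intro x
    funext i
    fin_cases i <;> simp [hε₁, hε₂]
  have hε₁ne : ε₁ ≠ 0 := by
    intro h
    have := congrFun h 0
    simp [hε₁] at this
  have hε11 : f₁ ε₁ ε₁ = 0 := hf₁.alternating _
  have hε22 : f₁ ε₂ ε₂ = 0 := hf₁.alternating _
  have hε21 : f₁ ε₂ ε₁ = 1 := by
    obtain ⟨⟨x, hx⟩, -⟩ := hf₁.nondegenerate ε₁ hε₁ne
    rw [hexp2 x, hb₁.add_left, hb₁.smul_left, hb₁.smul_left, hε11, mul_zero, zero_add] at hx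
    exact (h01 _).resolve_left (right_ne_zero_of_mul hx)
  have hε12 : f₁ ε₁ ε₂ = 1 := by
    rw [hf₁.skew, hε21]
    linear_combination -h2F
  have hf₁formula : ∀ x y : Fin 2 → F, f₁ x y = x 0 * y 1 + x 1 * y 0 := by
    intro x y
    conv_lhs => rw [hexp2 x, hexp2 y]
    simp only [hb₁.add_left, hb₁.add_right, hb₁.smul_left, hb₁.smul_right, hε11, hε22, hε12, hε21]
    ring
  have hA1 : A0 F *ᵥ ε₁ = ε₂ := by
    funext i
    fin_cases i <;> simp [A0, hε₁, hε₂, Matrix.mulVec, dotProduct, Fin.sum_univ_two]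
  have hA2 : A0 F *ᵥ ε₂ = ε₁ + ε₂ := by
    funext i
    fin_cases i <;> simp [A0, hε₁, hε₂, Matrix.mulVec, dotProduct, Fin.sum_univ_two]
  have hAf : ∀ x y : Fin 2 → F, f₁ (A0 F *ᵥ x) (A0 F *ᵥ y) = f₁ x y := by
    intro x y
    rw [hf₁formula, hf₁formula]
    simp [A0, Matrix.mulVec, dotProduct, Fin.sum_univ_two]
    linear_combination (x 1 * y 1) * h2F
  -- the element J
  set J : GL (Fin n) F := tpsIso e P (jStd h11 n₂) with hJ
  have hJpt : ∀ (u : Fin 2 → F) (v : Fin n₂ → F),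
      (J : Matrix (Fin n) (Fin n) F) *ᵥ tL e P (pt u v) = tL e P (pt (A0 F *ᵥ u) v) :=
    fun u v => jStd_act h11 e P u v
  have hJJ : ∀ x, (J : Matrix (Fin n) (Fin n) F) *ᵥ ((J : Matrix (Fin n) (Fin n) F) *ᵥ x) =
      (J : Matrix (Fin n) (Fin n) F) *ᵥ x + x := by
    apply tL_induction e P
    · simp
    · intro x y hx hy
      rw [Matrix.mulVec_add, Matrix.mulVec_add, hx, hy]
      abel
    · intro c x hx
      rw [Matrix.mulVec_smul, Matrix.mulVec_smul, hx, smul_add]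
    · intro u v
      rw [hJpt, hJpt, ← tL_add, ← pt_add_left, Matrix.mulVec_mulVec, A0_sq h11, Matrix.add_mulVec,
        Matrix.one_mulVec]
  have hJB : ∀ x y, QuadraticMap.polar Q ((J : Matrix (Fin n) (Fin n) F) *ᵥ x)
      ((J : Matrix (Fin n) (Fin n) F) *ᵥ y) = QuadraticMap.polar Q x y := by
    apply tL_induction e P (p := fun x => ∀ y, QuadraticMap.polar Q ((J : Matrix (Fin n) (Fin n) F) *ᵥ x)
      ((J : Matrix (Fin n) (Fin n) F) *ᵥ y) = QuadraticMap.polar Q x y)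
    · intro y
      rw [Matrix.mulVec_zero, bil_zero_left hb, bil_zero_left hb]
    · intro x x' hx hx' y
      rw [Matrix.mulVec_add, hb.add_left, hb.add_left, hx, hx']
    · intro c x hx y
      rw [Matrix.mulVec_smul, hb.smul_left, hb.smul_left, hx]
    · intro u v
      apply tL_induction e P
      · rw [Matrix.mulVec_zero, bil_zero_right hb, bil_zero_right hb]
      · intro y y' hy hy'
        rw [Matrix.mulVec_add, hb.add_right, hb.add_right, hy, hy']
      · intro c y hy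
        rw [Matrix.mulVec_smul, hb.smul_right, hb.smul_right, hy]
      · intro u' v'
        rw [hJpt, hJpt, hpt, hpt, hAf]
  have hJQ : ∀ x, Q ((J : Matrix (Fin n) (Fin n) F) *ᵥ x) = Q x := by
    apply tL_induction e P
    · rw [Matrix.mulVec_zero]
    · intro x y hx hy
      rw [Matrix.mulVec_add, q_add Q, q_add Q, hx, hy, hJB]
    · intro c x hx
      rw [Matrix.mulVec_smul, hQ.smul, hQ.smul, hx]
    · intro u v
      rw [hJpt, hQpt, hQpt]
  have hJJJ : ∀ x, (J : Matrix (Fin n) (Fin n) F) *ᵥ ((J : Matrix (Fin n) (Fin n) F) *ᵥ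
      ((J : Matrix (Fin n) (Fin n) F) *ᵥ x)) = x := by
    intro x
    rw [hJJ ((J : Matrix (Fin n) (Fin n) F) *ᵥ x), hJJ x]
    calc (J : Matrix (Fin n) (Fin n) F) *ᵥ x + x + (J : Matrix (Fin n) (Fin n) F) *ᵥ x
        = ((J : Matrix (Fin n) (Fin n) F) *ᵥ x + (J : Matrix (Fin n) (Fin n) F) *ᵥ x) + x := by abel
      _ = x := by rw [hadd, zero_add]
  -- vectors of F^(n₂)
  have hn₂ : 0 < n₂ := by omega
  set v₁ : Fin n₂ → F := Pi.single ⟨0, hn₂⟩ 1 with hv₁
  have hv₁ne : v₁ ≠ 0 := by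
    intro h
    have := congrFun h ⟨0, hn₂⟩
    simp [hv₁] at this
  obtain ⟨⟨v₁', hv₁'⟩, -⟩ := hf₂.nondegenerate v₁ hv₁ne
  have h1'1 : f₂ v₁' v₁ = 1 := (h01 _).resolve_left hv₁'
  have h11' : f₂ v₁ v₁' = 1 := by
    rw [hf₂.skew, h1'1]
    linear_combination -h2F
  obtain ⟨v, hv0, hv⟩ := exists_orth_ne_zero (bilOf f₂ hb₂) ![v₁, v₁']
    (by rw [Module.finrank_pi]; simpa using h2)
  have hvv₁ : f₂ v v₁ = 0 := hv 0
  have hvv₁' : f₂ v v₁' = 0 := hv 1
  have hf₂self : ∀ x, f₂ x x = 0 := hf₂.alternating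
  -- the non-singular vector z
  obtain ⟨z, hz⟩ : ∃ z, z = tL e P (pt ε₁ v₁) + tL e P (pt ε₂ v₁') := ⟨_, rfl⟩
  have hQz : Q z = 1 := by
    rw [hz, q_add Q, hQpt, hQpt, hpt, hε12, h11']
    ring
  have hQz0 : Q z ≠ 0 := by rw [hQz]; exact one_ne_zero
  have hJz : (J : Matrix (Fin n) (Fin n) F) *ᵥ z = tL e P (pt ε₂ v₁) + tL e P (pt (ε₁ + ε₂) v₁') := by
    rw [hz, Matrix.mulVec_add, hJpt, hJpt, hA1, hA2]
  have hQJz : Q ((J : Matrix (Fin n) (Fin n) F) *ᵥ z) = 1 := by rw [hJQ, hQz]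
  have hQJz0 : Q ((J : Matrix (Fin n) (Fin n) F) *ᵥ z) ≠ 0 := by rw [hQJz]; exact one_ne_zero
  have hJzz : QuadraticMap.polar Q ((J : Matrix (Fin n) (Fin n) F) *ᵥ z) z = 1 := by
    have := hJQ ((J : Matrix (Fin n) (Fin n) F) *ᵥ z)
    rw [hJJ, q_add Q, hQJz, hQz] at this
    linear_combination this - h2F
  have hzJz := (polar_symm Q z _).trans hJzz
  -- the first element
  have hg₁ := reflComm_two hQ h2F hQz hQJz hQz0 hQJz0 hzJz
  have hg₁Ω := reflComm_mem hQ z ((J : Matrix (Fin n) (Fin n) F) *ᵥ z) hQz0 hQJz0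
  set g₁ := reflComm Q hQ z ((J : Matrix (Fin n) (Fin n) F) *ᵥ z) hQz0 hQJz0 with hg₁def
  have hg₁J : g₁ * J = J * g₁ := by
    apply Units.ext
    apply Matrix.toLin'.injective
    apply LinearMap.ext
    intro x
    rw [Units.val_mul, Units.val_mul, Matrix.toLin'_mul, Matrix.toLin'_mul, LinearMap.comp_apply,
      LinearMap.comp_apply, Matrix.toLin'_apply, Matrix.toLin'_apply, Matrix.toLin'_apply,
      Matrix.toLin'_apply, hg₁, hg₁, hJB]
    have h1 : QuadraticMap.polar Q ((J : Matrix (Fin n) (Fin n) F) *ᵥ x) z =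
        QuadraticMap.polar Q x ((J : Matrix (Fin n) (Fin n) F) *ᵥ z) + QuadraticMap.polar Q x z := by
      conv_lhs => rw [← hJJJ z]
      rw [hJB, hJJ, hb.add_right]
    rw [h1, Matrix.mulVec_add, Matrix.mulVec_add, Matrix.mulVec_smul, Matrix.mulVec_smul, hJJ]
    funext i
    simp only [Pi.add_apply, Pi.smul_apply, smul_eq_mul]
    ring
  -- the singular vector s and the second element
  obtain ⟨s, hs⟩ : ∃ s, s = tL e P (pt ε₁ v) := ⟨_, rfl⟩
  have hQs : Q s = 0 := by rw [hs]; exact hQpt _ _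
  have hsz : QuadraticMap.polar Q s z = 0 := by
    rw [hs, hz, hb.add_right, hpt, hpt, hε11, hε12, hvv₁']
    ring
  have hsJz : QuadraticMap.polar Q s ((J : Matrix (Fin n) (Fin n) F) *ᵥ z) = 0 := by
    rw [hs, hJz, hb.add_right, hpt, hpt, hvv₁, hvv₁']
    ring
  have hzs := (polar_symm Q z s).trans hsz
  have hJzs := (polar_symm Q _ s).trans hsJz
  obtain ⟨y₂, hy₂⟩ : ∃ y₂, y₂ = (J : Matrix (Fin n) (Fin n) F) *ᵥ z + s := ⟨_, rfl⟩
  have hQy₂ : Q y₂ = 1 := by
    rw [hy₂, q_add Q, hQJz, hQs, hJzs]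
    ring
  have hQy₂0 : Q y₂ ≠ 0 := by rw [hQy₂]; exact one_ne_zero
  have hzy₂ : QuadraticMap.polar Q z y₂ = 1 := by
    rw [hy₂, hb.add_right, hzJz, hzs]
    ring
  have hg₂ := reflComm_two hQ h2F hQz hQy₂ hQz0 hQy₂0 hzy₂
  have hg₂Ω := reflComm_mem hQ z y₂ hQz0 hQy₂0
  set g₂ := reflComm Q hQ z y₂ hQz0 hQy₂0 with hg₂def
  have hg₂z : (g₂ : Matrix (Fin n) (Fin n) F) *ᵥ z = z + y₂ := by
    rw [hg₂, hBself, hzy₂, zero_smul, add_zero, zero_add, one_smul]
  have hg₂Jz : (g₂ : Matrix (Fin n) (Fin n) F) *ᵥ ((J : Matrix (Fin n) (Fin n) F) *ᵥ z) = z + s := by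
    rw [hg₂, hJzz, hy₂, hb.add_right, hBself, hJzs, add_zero, add_zero, one_smul, one_smul]
    have := hadd ((J : Matrix (Fin n) (Fin n) F) *ᵥ z)
    calc (J : Matrix (Fin n) (Fin n) F) *ᵥ z + z + ((J : Matrix (Fin n) (Fin n) F) *ᵥ z + s)
        = ((J : Matrix (Fin n) (Fin n) F) *ᵥ z + (J : Matrix (Fin n) (Fin n) F) *ᵥ z) + (z + s) := by abel
      _ = z + s := by rw [this, zero_add]
  have hJs : (J : Matrix (Fin n) (Fin n) F) *ᵥ s = tL e P (pt ε₂ v) := by
    rw [hs, hJpt, hA1]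
  refine ⟨invNormalizer J ⊓ omegaGL Q, lt_of_le_of_ne ?_ ?_, lt_of_le_of_ne inf_le_right ?_⟩
  · -- H ≤ K
    refine le_inf ?_ inf_le_right
    rintro g ⟨hg, -⟩
    rw [tensorProductSubgroup_eq_map] at hg
    obtain ⟨M, hM, rfl⟩ := hg
    have hM' := kronecker_le_invNormalizer hq h11 n₂ hM
    rw [mem_invNormalizer_iff] at hM' ⊢
    rcases hM' with h | h
    · left
      rw [hJ, MulEquiv.coe_toMonoidHom, ← map_mul, ← map_mul, h]
    · right
      rw [hJ, MulEquiv.coe_toMonoidHom, ← map_inv, ← map_mul, ← map_mul, h]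
  · -- g₁ ∈ K ∖ H
    intro hEq
    have hg₁K : g₁ ∈ invNormalizer J ⊓ omegaGL Q :=
      ⟨(mem_invNormalizer_iff J g₁).mpr (Or.inl hg₁J), hg₁Ω⟩
    rw [← hEq] at hg₁K
    obtain ⟨a, b, hab⟩ := tps_act e P hg₁K.1
    have e1 := hab ε₂ (v₁' + v)
    have hα : QuadraticMap.polar Q (tL e P (pt ε₂ (v₁' + v))) z = 1 := by
      rw [hz, hb.add_right, hpt, hpt, hε21, hε22, hb₂.add_left, h1'1, hvv₁]
      ring
    have hβ : QuadraticMap.polar Q (tL e P (pt ε₂ (v₁' + v))) ((J : Matrix (Fin n) (Fin n) F) *ᵥ z) = 0 := by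
      rw [hJz, hb.add_right, hpt, hpt, hε22, hb₁.add_right, hε21, hε22, hb₂.add_left v₁' v v₁', hf₂self, hvv₁']
      ring
    rw [hg₁, hα, hβ, one_smul, add_zero, one_smul, hJz, hz, ← tL_add, ← tL_add, ← tL_add, ← tL_add] at e1
    have e1' := tL_injective e P e1
    have hk2 := congrArg (fun y => ctr1 f₁ y ε₂) e1'
    have hk1 := congrArg (fun y => ctr1 f₁ y ε₁) e1'
    simp only [ctr1_add hb₁, ctr1_pt hb₁, hb₁.add_left, hε11, hε12, hε21, hε22, zero_smul, one_smul,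
      add_zero, zero_add] at hk1 hk2
    -- hk2 : v₁ + v₁' = λ • w', hk1 : v₁' + v + v₁' + v₁ + v₁' = μ • w'
    set w' := (b : Matrix (Fin n₂) (Fin n₂) F) *ᵥ (v₁' + v) with hw'
    have hp : f₂ (v₁ + v₁') v₁ = 1 := by rw [hb₂.add_left, hf₂self, h1'1, zero_add]
    rcases h01 (f₁ ((a : Matrix (Fin 2) (Fin 2) F) *ᵥ ε₂) ε₂) with hl | hl
    · rw [hl, zero_smul] at hk2
      rw [hk2, bil_zero_left hb₂] at hp
      exact zero_ne_one hp
    · rcases h01 (f₁ ((a : Matrix (Fin 2) (Fin 2) F) *ᵥ ε₂) ε₁) with hm | hm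
      · rw [hm, zero_smul] at hk1
        have hq' := congrArg (fun y => f₂ y v₁) hk1
        simp only [hb₂.add_left, hf₂self, h1'1, hvv₁, bil_zero_left hb₂] at hq'
        have : (1 : F) = 0 := by linear_combination hq' - h2F
        exact one_ne_zero this
      · rw [hl, one_smul] at hk2
        rw [hm, one_smul, ← hk2] at hk1
        apply hv0
        have h3 : v₁' + v + v₁' + (v₁ + v₁') = v + (v₁ + v₁') + (v₁' + v₁') := by abel
        rw [h3, hadd₂, add_zero] at hk1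
        exact add_eq_right.mp hk1
  · -- g₂ ∉ K
    intro hEq
    have hg₂K : g₂ ∈ invNormalizer J ⊓ omegaGL Q := by rw [hEq]; exact hg₂Ω
    rcases (mem_invNormalizer_iff J g₂).mp hg₂K.1 with h | h
    · have h' := congrArg (fun M : GL (Fin n) F => (M : Matrix (Fin n) (Fin n) F) *ᵥ z) h
      simp only [Units.val_mul, ← Matrix.mulVec_mulVec] at h'
      rw [hg₂Jz, hg₂z, Matrix.mulVec_add, hy₂, Matrix.mulVec_add, hJJ, hJs] at h'
      -- z + s = J z + (J z + z + tL (pt ε₂ v))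
      have h'' : s = tL e P (pt ε₂ v) := by
        have h3 : (J : Matrix (Fin n) (Fin n) F) *ᵥ z + ((J : Matrix (Fin n) (Fin n) F) *ᵥ z + z + tL e P (pt ε₂ v)) =
            ((J : Matrix (Fin n) (Fin n) F) *ᵥ z + (J : Matrix (Fin n) (Fin n) F) *ᵥ z) + (z + tL e P (pt ε₂ v)) := by abel
        rw [h3, hadd, zero_add] at h'
        exact add_left_cancel h'
      rw [hs] at h''
      have h4 := tL_injective e P h''
      have h5 := congrArg (fun y => ctr1 f₁ y ε₂) h4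
      simp only [ctr1_pt hb₁, hε12, hε22, one_smul, zero_smul] at h5
      exact hv0 h5
    · have h0 : J * (g₂ * J) = g₂ := by
        rw [h, ← mul_assoc, mul_inv_cancel, one_mul]
      have h' := congrArg (fun M : GL (Fin n) F => (M : Matrix (Fin n) (Fin n) F) *ᵥ z) h0
      simp only [Units.val_mul, ← Matrix.mulVec_mulVec] at h'
      rw [hg₂Jz, hg₂z, Matrix.mulVec_add, hy₂, hJs] at h'
      -- J z + tL (pt ε₂ v) = z + (J z + s)
      have h'' : z = s + tL e P (pt ε₂ v) := by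
        have h3 : z + ((J : Matrix (Fin n) (Fin n) F) *ᵥ z + s) = (J : Matrix (Fin n) (Fin n) F) *ᵥ z + (z + s) := by abel
        rw [h3] at h'
        have h4 := add_left_cancel h'
        -- tL (pt ε₂ v) = z + s
        rw [h4, add_comm s, add_assoc, hadd, add_zero]
      have hQz' : Q z = 0 := by
        rw [h'', hs, ← tL_add, ← pt_add_left, hQpt]
      rw [hQz] at hQz'
      exact one_ne_zero hQz'

end Cfsg.Agent.S5705
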