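import Cfsg.Statements.S5707
import Cfsg.Agent.Lib.Helper96.TWFinal
import Cfsg.Agent.H15.TWAlg
import Cfsg.Agent.H15.TWG2Not
import Cfsg.Agent.H53.TWG1Not
import Cfsg.Agent.H60.TWNLGen
import Cfsg.Agent.H60.TWTransport
import Cfsg.Agent.H71.TWSympB
import Cfsg.Agent.H72.TWG1Iso
import Cfsg.Agent.H72.TWG2Perm
import Cfsg.Agent.H80.TWStd
import Cfsg.Agent.H86.TWGamma
import Cfsg.Agent.H86.TWIso
import Cfsg.Agent.H91.TWCConj
import Cfsg.Agent.H91.TWCliff
import Cfsg.Agent.H98.TWNF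
import Cfsg.Agent.H98.TWSim

set_option autoImplicit false
open Cfsg

namespace Cfsg.Agent.S5707

/-- Let F be a finite field with q elements, n ≥ 13 even, Q a non-degenerate quadratic form on F^n of plus type (some subspace of dimension n/2 is totally singular), and Ω the commutator subgroup of the isometry group of Q, viewed inside GL_n(F). Suppose q is even and that, through P and e, the polar form of Q is similar to the t-fold tensor power (t ≥ 2) of a non-degenerate symplectic form f₁ on F^k with k ≤ 4 and (q, k) ≠ (2, 2), Q vanishing on the images of all pure tensors. Then the elements of Ω in the stabiliser of this decomposition form a subgroup that is not maximal: some subgroup lies strictly between it and Ω. -/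
theorem result {F : Type*} [Field F] [Fintype F] {n : ℕ} (hn : 13 ≤ n) (heven : Even n) (Q : (Fin n → F) → F) (hQ : Cfsg.Geo.IsNondegenerateQuadraticForm Q) (hplus : Cfsg.Geo.IsPlusTypeOn Q ⊤) (hchar : ¬ Odd (Fintype.card F)) (k t : ℕ) (ht : 2 ≤ t) (hk : k ≤ 4) (hex1 : ¬ (Fintype.card F = 2 ∧ k = 2)) (e : (Fin n) ≃ (Fin t → Fin k)) (P : Matrix.GeneralLinearGroup (Fin n) F) (f₁ : (Fin k → F) → (Fin k → F) → F) (hf₁ : Cfsg.Geo.IsSymplecticForm f₁) (hT : Cfsg.Geo.IsTensorPowerFormStructure id (QuadraticMap.polar Q) f₁ e P) (hpure : (∀ xs : Fin t → (Fin k → F), Q (Matrix.mulVec (P : Matrix (Fin n) (Fin n) F) ((fun a : Fin t → Fin k => ∏ i, xs i (a i)) ∘ e)) = 0)) : ∃ K : Subgroup (Matrix.GeneralLinearGroup (Fin n) F), Cfsg.Geo.tensorWreathSubgroup k t e P ⊓ Cfsg.Geo.omegaGL Q < K ∧ K < Cfsg.Geo.omegaGL Q := by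
  exact Cfsg.Agent.Lib.Helper96.TW.final Cfsg.Agent.H15.TW.alg Cfsg.Agent.H71.TW.sympB
    Cfsg.Agent.H80.TW.std Cfsg.Agent.H60.TW.transport
    (Cfsg.Agent.Lib.Helper96.TW.core Cfsg.Agent.H15.TW.alg Cfsg.Agent.H98.TW.nf
      Cfsg.Agent.H98.TW.sim Cfsg.Agent.H91.TW.cConj Cfsg.Agent.H60.TW.nlGen
      Cfsg.Agent.H91.TW.cliff Cfsg.Agent.H86.TW.gamma Cfsg.Agent.H86.TW.iso
      Cfsg.Agent.H72.TW.g1Iso Cfsg.Agent.H53.TW.g1not Cfsg.Agent.H72.TW.g2Perm
      Cfsg.Agent.H15.TW.g2Not) hn Q hQ hchar k t ht hk e P f₁ hf₁ hT hpure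

end Cfsg.Agent.S5707
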