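import Cfsg.Statements.S5876
import Cfsg.Agent.H12.FpL1
import Cfsg.Agent.H12.FpB2
import Cfsg.Agent.H58.FpB3
import Cfsg.Agent.H27.CliffP2
import Cfsg.Agent.H51.FpBAOf
import Cfsg.Agent.H71.FpD
import Cfsg.Agent.H3.FpEof

set_option autoImplicit false
open Cfsg

namespace Cfsg.Agent.S5876

/-- Fixed-point spaces in primitive soluble linear groups. Let F be a finite field and G a soluble subgroup of GL_n(F) that acts irreducibly on F^n and primitively (G preserves no decomposition of F^n into two or more independent subspaces of equal dimension). Then every non-identity element g of G has fixed-point space {v : g v = v} of dimension at most 3n/4. -/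
theorem result {F : Type*} [Field F] [Fintype F] {n : ℕ} (G : Subgroup (Matrix.GeneralLinearGroup (Fin n) F)) (hsol : IsSolvable G) (hirr : Cfsg.Geo.ActsIrreducibly (Cfsg.Geo.matrixSet G)) (hprim : ∀ (m t : ℕ) (D : Fin t → Submodule F (Fin n → F)), 2 ≤ t → Cfsg.Geo.IsMDecomposition m D → ¬ G ≤ Cfsg.Geo.decompositionStabilizer D) (g : Matrix.GeneralLinearGroup (Fin n) F) (hg : g ∈ G) (hg1 : g ≠ 1) :
    4 * Module.finrank F (Module.End.eigenspace (Matrix.toLin' (g : Matrix (Fin n) (Fin n) F)) 1) ≤ 3 * n := by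
  classical
  have hsol' : Group.IsSolvable G := hsol
  have hfin : Finite (Matrix.GeneralLinearGroup (Fin n) F) := inferInstance
  -- the Clifford-type statement: abelian sets normalized by `G` act fixed-point-freely
  have clifford : ∀ (A : Set (Matrix.GeneralLinearGroup (Fin n) F)),
      (∀ a ∈ A, ∀ b ∈ A, a * b = b * a) → (∀ k ∈ G, ∀ a ∈ A, k * a * k⁻¹ ∈ A) →
      ∀ a : Matrix.GeneralLinearGroup (Fin n) F, a ∈ A → a ≠ 1 →
      Module.End.eigenspace (Matrix.toLin' (a : Matrix (Fin n) (Fin n) F)) 1 = ⊥ := by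
    intro A hAcomm hAnorm a ha ha1
    exact Cfsg.Agent.H51.Fp.clifford_fpf_of G
      (fun b => Cfsg.Agent.H12.Fp.fitting_trichotomy b)
      (fun Z hc hj b hb hn => Cfsg.Agent.H58.Fp.nilpotent_eq_zero G hirr Z hc hj b hb hn)
      (fun Z hc hm hj e he hee =>
        Cfsg.Agent.H27.Cliff.idem_trivial G hirr hprim Z hc hm hj e he hee)
      A hAcomm hAnorm a ha ha1
  have h1 : ∀ g x : ↥G, 2 * Module.finrank F (Module.End.eigenspace
      (Matrix.toLin' (((g : Matrix.GeneralLinearGroup (Fin n) F)) : Matrix (Fin n) (Fin n) F)) 1) ≤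
      n + Module.finrank F (Module.End.eigenspace
      (Matrix.toLin' ((((g⁻¹ * (x⁻¹ * g * x) : ↥G) : Matrix.GeneralLinearGroup (Fin n) F)) :
        Matrix (Fin n) (Fin n) F)) 1) := by
    intro g x
    have h := Cfsg.Agent.H12.Fp.fix_comm_bound (g : Matrix.GeneralLinearGroup (Fin n) F)
      (x : Matrix.GeneralLinearGroup (Fin n) F)
    rw [Subgroup.coe_mul, Subgroup.coe_mul, Subgroup.coe_mul, Subgroup.coe_inv, Subgroup.coe_inv]
    exact h
  have h2 : ∀ A : Subgroup ↥G, A.Normal → (∀ a ∈ A, ∀ b ∈ A, a * b = b * a) →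
      ∀ a ∈ A, a ≠ 1 → Module.finrank F (Module.End.eigenspace
      (Matrix.toLin' (((a : Matrix.GeneralLinearGroup (Fin n) F)) : Matrix (Fin n) (Fin n) F)) 1)
        = 0 := by
    intro A hAn hAc a ha ha1
    have hc : ∀ a ∈ ((fun y : ↥G => (y : Matrix.GeneralLinearGroup (Fin n) F)) '' (A : Set ↥G)),
        ∀ b ∈ ((fun y : ↥G => (y : Matrix.GeneralLinearGroup (Fin n) F)) '' (A : Set ↥G)),
        a * b = b * a := by
      rintro _ ⟨x, hx, rfl⟩ _ ⟨y, hy, rfl⟩
      have := hAc x hx y hy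
      show (x : Matrix.GeneralLinearGroup (Fin n) F) * (y : Matrix.GeneralLinearGroup (Fin n) F)
        = (y : Matrix.GeneralLinearGroup (Fin n) F) * (x : Matrix.GeneralLinearGroup (Fin n) F)
      rw [← Subgroup.coe_mul, ← Subgroup.coe_mul, this]
    have hn : ∀ k ∈ G, ∀ a ∈ ((fun y : ↥G => (y : Matrix.GeneralLinearGroup (Fin n) F)) ''
        (A : Set ↥G)), k * a * k⁻¹ ∈ ((fun y : ↥G => (y : Matrix.GeneralLinearGroup (Fin n) F)) ''
        (A : Set ↥G)) := by
      intro k hk a' ha'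
      obtain ⟨x, hx, hxa⟩ := ha'
      have hmem : (⟨k, hk⟩ : ↥G) * x * (⟨k, hk⟩ : ↥G)⁻¹ ∈ A := hAn.conj_mem x hx _
      refine ⟨(⟨k, hk⟩ : ↥G) * x * (⟨k, hk⟩ : ↥G)⁻¹, hmem, ?_⟩
      rw [← hxa]
      show (((⟨k, hk⟩ : ↥G) * x * (⟨k, hk⟩ : ↥G)⁻¹ : ↥G) : Matrix.GeneralLinearGroup (Fin n) F) =
        k * (x : Matrix.GeneralLinearGroup (Fin n) F) * k⁻¹
      rw [Subgroup.coe_mul, Subgroup.coe_mul, Subgroup.coe_inv]
    have h := clifford
      ((fun y : ↥G => (y : Matrix.GeneralLinearGroup (Fin n) F)) '' (A : Set ↥G)) hc hn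
      (a : Matrix.GeneralLinearGroup (Fin n) F) ⟨a, ha, rfl⟩
      (by
        intro h
        exact ha1 (Subtype.ext h))
    rw [h]
    simp
  have hD : Cfsg.Agent.H3.Fp.StD ↥G := fun A hAn hA hmax H hHn hHnil hAH hHA y hy hyA =>
    Cfsg.Agent.H71.Fp.nilpotent_comm_in_max_abelian A hAn hA hmax H hHn hHnil hAH hHA y hy hyA
  have key := Cfsg.Agent.H3.Fp.abstract_fix_bound_of (G := ↥G) hD n
    (fun y => Module.finrank F (Module.End.eigenspace
      (Matrix.toLin' (((y : Matrix.GeneralLinearGroup (Fin n) F)) : Matrix (Fin n) (Fin n) F)) 1))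
    h1 h2 ⟨g, hg⟩ (by
      intro h
      exact hg1 (congrArg Subtype.val h))
  exact key

end Cfsg.Agent.S5876
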