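import Cfsg.Statements.S5944

set_option autoImplicit false
open Cfsg

namespace Cfsg.Agent.S5944

/-- For n ≠ 4, every proper subgroup of the symmetric group S_n other than the alternating group A_n has index at least n. -/
theorem result (n : ℕ) (hn : n ≠ 4) (H : Subgroup (Equiv.Perm (Fin n))) (hH : H ≠ ⊤) (hA : H ≠ alternatingGroup (Fin n)) : n ≤ H.index := by
  by_contra hlt
  rw [not_le] at hlt
  have h0 : H.index ≠ 0 := Subgroup.index_ne_zero_of_finite
  have h1 : H.index ≠ 1 := fun h => hH (Subgroup.index_eq_one.mp h)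
  have h2 : H.index ≠ 2 := fun h => hA (Equiv.Perm.eq_alternatingGroup_of_index_eq_two h)
  have h5 : 5 ≤ n := by omega
  have hcore : H.normalCore = ⊥ := by
    by_contra hne
    have hnt : Nontrivial H.normalCore := (Subgroup.nontrivial_iff_ne_bot _).mpr hne
    have hle : alternatingGroup (Fin n) ≤ H :=
      (Equiv.Perm.alternatingGroup_le_of_normal (by simpa using h5) hnt).trans
        (Subgroup.normalCore_le H)
    have hdvd : H.index ∣ (alternatingGroup (Fin n)).index := Subgroup.index_dvd_of_le hle
    haveI : Nontrivial (Fin n) := Fin.nontrivial_iff_two_le.mpr (by omega)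
    rw [alternatingGroup.index_eq_two] at hdvd
    have := Nat.le_of_dvd (by norm_num) hdvd
    omega
  have hinj : Function.Injective
      (MulAction.toPermHom (Equiv.Perm (Fin n)) (Equiv.Perm (Fin n) ⧸ H)) := by
    rw [← MonoidHom.ker_eq_bot_iff, ← Subgroup.normalCore_eq_ker]
    exact hcore
  have hcard := Nat.card_le_card_of_injective _ hinj
  rw [Nat.card_perm, Nat.card_perm, Nat.card_fin] at hcard
  have hidx : Nat.card (Equiv.Perm (Fin n) ⧸ H) = H.index := rfl
  rw [hidx] at hcard
  have := (Nat.factorial_lt (Nat.pos_of_ne_zero h0)).mpr hlt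
  omega

end Cfsg.Agent.S5944
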