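import Cfsg.Statements.S5945
import Cfsg.Agent.H98.Sym6

set_option autoImplicit false
open Cfsg

namespace Cfsg.Agent.S5945

open Cfsg.Agent.H98 in
/-- The symmetric group S_6 has exactly 12 subgroups of index 6; each of them is isomorphic to S_5, and at least one of them is not the stabilizer of any point. -/
theorem result : Nat.card {H : Subgroup (Equiv.Perm (Fin 6)) // H.index = 6} = 12 ∧ (∀ H : Subgroup (Equiv.Perm (Fin 6)), H.index = 6 → Nonempty (H ≃* Equiv.Perm (Fin 5))) ∧ ∃ H : Subgroup (Equiv.Perm (Fin 6)), H.index = 6 ∧ ∀ a : Fin 6, H ≠ MulAction.stabilizer (Equiv.Perm (Fin 6)) a := by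
  classical
  have h6 : Fintype.card (Fin 6) = 6 := Fintype.card_fin 6
  obtain ⟨H₂, hH₂, htr⟩ := exists_index_six_transitive h6
  have hne : ∀ x : Fin 6, H₂ ≠ MulAction.stabilizer (Equiv.Perm (Fin 6)) x :=
    ne_stabilizer_of_transitive (by omega) H₂ htr
  refine ⟨?_, fun H hH => nonempty_mulEquiv_perm_of_index 5 h6 (by omega) H hH, H₂, hH₂, hne⟩
  have : Fintype (Equiv.Perm (Fin 6) ⧸ H₂) := Fintype.ofFinite _
  have hc₂ : Fintype.card (Equiv.Perm (Fin 6) ⧸ H₂) = 6 := by
    rw [← Nat.card_eq_fintype_card]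
    exact hH₂
  obtain ⟨e₂, he₂⟩ := exists_cosetIso (by omega) H₂ (by rw [hH₂, h6])
  let F : Fin 6 ⊕ (Equiv.Perm (Fin 6) ⧸ H₂) →
      {H : Subgroup (Equiv.Perm (Fin 6)) // H.index = 6} := fun s =>
    match s with
    | Sum.inl a => ⟨MulAction.stabilizer (Equiv.Perm (Fin 6)) a, by
        rw [MulAction.index_stabilizer_of_transitive, Nat.card_fin]⟩
    | Sum.inr y => ⟨MulAction.stabilizer (Equiv.Perm (Fin 6)) y, by
        rw [MulAction.index_stabilizer_of_transitive]
        exact hH₂⟩
  have hinj : Function.Injective F := by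
    rintro (a | y) (b | y') hab
    · have h := congrArg Subtype.val hab
      have : a = b := stabilizer_injective_of_surjective (G := Equiv.Perm (Fin 6)) (by omega)
        (fun σ => ⟨σ, fun c => rfl⟩) h
      rw [this]
    · have h := congrArg Subtype.val hab
      exact absurd h.symm (stabilizer_quotient_ne_stabilizer H₂ hne y' a)
    · have h := congrArg Subtype.val hab
      exact absurd h (stabilizer_quotient_ne_stabilizer H₂ hne y b)
    · have h := congrArg Subtype.val hab
      have : y = y' := stabilizer_injective_of_surjective (G := Equiv.Perm (Fin 6)) (by omega)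
        (fun σ => ⟨e₂.symm σ, fun c => by rw [← he₂, e₂.apply_symm_apply]⟩) h
      rw [this]
  have hsurj : Function.Surjective F := by
    rintro ⟨H, hH⟩
    rcases index_six_classification h6 H₂ hH₂ hne H hH with ⟨x, rfl⟩ | ⟨y, rfl⟩
    · exact ⟨Sum.inl x, rfl⟩
    · exact ⟨Sum.inr y, rfl⟩
  rw [← Nat.card_congr (Equiv.ofBijective F ⟨hinj, hsurj⟩), Nat.card_sum, Nat.card_fin]
  show 6 + H₂.index = 12
  rw [hH₂]

end Cfsg.Agent.S5945
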