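import Cfsg.Statements.S5952

set_option autoImplicit false
open Cfsg

namespace Cfsg.Agent.S5952

open Module

variable {F V : Type*} [Field F] [AddCommGroup V] [Module F V] [FiniteDimensional F V]

/-- A subspace of prescribed dimension inside a given subspace. -/
theorem exists_le_finrank_eq (C : Submodule F V) (n : ℕ) (hn : n ≤ finrank F C) :
    ∃ W : Submodule F V, W ≤ C ∧ finrank F W = n := by
  obtain ⟨g, hg⟩ := exists_linearIndependent_of_le_finrank hn
  refine ⟨Submodule.span F (Set.range (fun i => (g i : V))), ?_, ?_⟩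
  · rw [Submodule.span_le]
    rintro _ ⟨i, rfl⟩
    exact (g i).2
  · have : LinearIndependent F (fun i => (g i : V)) :=
      hg.map' C.subtype (Submodule.ker_subtype C)
    rw [finrank_span_eq_card this, Fintype.card_fin]

theorem biSup_mem_invt (f : V →ₗ[F] V) {s : ℕ} (U : Fin s → Submodule F V)
    (hU : ∀ j, U j ∈ Module.End.invtSubmodule f) (S : Finset (Fin s)) :
    (⨆ j ∈ S, U j) ∈ Module.End.invtSubmodule f := by
  classical
  induction S using Finset.induction_on with
  | empty => simp
  | insert j S' _ ih =>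
    rw [Finset.iSup_insert]
    exact Module.End.invtSubmodule.sup_mem (hU j) ih

/-- Dimension of an invariant subspace of `C ⊕ ⨁ U j` is `dim (W ∩ C)` plus a multiple of `a`. -/
theorem finrank_invt (f : V →ₗ[F] V) {s a : ℕ} (C : Submodule F V) (hC : C ∈ Module.End.invtSubmodule f)
    (U : Fin s → Submodule F V) (hUinv : ∀ j, U j ∈ Module.End.invtSubmodule f)
    (hUdim : ∀ j, finrank F (U j) = a)
    (hUirr : ∀ j, ∀ W : Submodule F V, W ≤ U j → W ∈ Module.End.invtSubmodule f → W = ⊥ ∨ W = U j)
    (S : Finset (Fin s)) :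
    ∀ W : Submodule F V, W ∈ Module.End.invtSubmodule f → W ≤ C ⊔ ⨆ j ∈ S, U j →
      ∃ k, finrank F W = finrank F ↥(W ⊓ C) + a * k := by
  classical
  induction S using Finset.induction_on with
  | empty =>
    intro W _ hle
    have hle' : W ≤ C := by simpa using hle
    exact ⟨0, by rw [inf_eq_left.mpr hle']; simp⟩
  | insert j S' _ ih =>
    intro W hW hle
    rw [Finset.iSup_insert] at hle
    have hTinv : C ⊔ ⨆ i ∈ S', U i ∈ Module.End.invtSubmodule f :=
      Module.End.invtSubmodule.sup_mem hC (biSup_mem_invt f U hUinv S')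
    generalize hT : C ⊔ ⨆ i ∈ S', U i = T at hTinv ih
    have hCT : C ≤ T := hT ▸ le_sup_left
    have hle' : W ≤ T ⊔ U j := by
      refine hle.trans ?_
      rw [← hT]
      exact sup_le (le_sup_left.trans le_sup_left)
        (sup_le le_sup_right (le_sup_right.trans le_sup_left))
    obtain ⟨k', hk'⟩ := ih (W ⊓ T) (Module.End.invtSubmodule.inf_mem hW hTinv) inf_le_right
    have hWC : W ⊓ T ⊓ C = W ⊓ C := by rw [inf_assoc, inf_eq_right.mpr hCT]
    rw [hWC] at hk'
    by_cases hUT : U j ≤ T
    · have hWT : W ≤ T := hle'.trans (sup_le le_rfl hUT)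
      rw [inf_eq_left.mpr hWT] at hk'
      exact ⟨k', hk'⟩
    · have hdisj : T ⊓ U j = ⊥ := by
        rcases hUirr j (T ⊓ U j) inf_le_right
          (Module.End.invtSubmodule.inf_mem hTinv (hUinv j)) with h | h
        · exact h
        · exact absurd (inf_eq_right.mp h) hUT
      have hmod : (T ⊔ U j) ⊓ (W ⊔ T) = T ⊔ U j ⊓ (W ⊔ T) :=
        sup_inf_assoc_of_le (U j) (le_sup_right : T ≤ W ⊔ T)
      rw [inf_eq_right.mpr (sup_le hle' le_sup_left)] at hmod
      rcases hUirr j (U j ⊓ (W ⊔ T)) inf_le_left
        (Module.End.invtSubmodule.inf_mem (hUinv j)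
          (Module.End.invtSubmodule.sup_mem hW hTinv)) with h | h
      · rw [h, sup_bot_eq] at hmod
        have hWT : W ≤ T := by rw [← hmod]; exact le_sup_left
        rw [inf_eq_left.mpr hWT] at hk'
        exact ⟨k', hk'⟩
      · rw [h] at hmod
        have h1 := Submodule.finrank_sup_add_finrank_inf_eq W T
        have h2 := Submodule.finrank_sup_add_finrank_inf_eq T (U j)
        rw [hdisj, finrank_bot, hUdim] at h2
        rw [hmod] at h1
        refine ⟨k' + 1, ?_⟩
        rw [Nat.mul_succ]
        omega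

/-- Dimension of `C' ⊕ ⨁_{j ∈ S} U j` for an independent family. -/
theorem finrank_sup_biSup {s a : ℕ} (C : Submodule F V)
    (U : Fin s → Submodule F V) (hUdim : ∀ j, finrank F (U j) = a)
    (hind : iSupIndep (fun o : Option (Fin s) => o.elim C U))
    (C' : Submodule F V) (hC' : C' ≤ C) (S : Finset (Fin s)) :
    finrank F ↥(C' ⊔ ⨆ j ∈ S, U j) = finrank F C' + a * S.card := by
  classical
  induction S using Finset.induction_on with
  | empty =>
    have h0 : C' ⊔ ⨆ j ∈ (∅ : Finset (Fin s)), U j = C' := by simp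
    rw [h0]
    simp
  | insert j S' hj ih =>
    rw [Finset.iSup_insert, Finset.card_insert_of_notMem hj]
    have hdisj : (C' ⊔ ⨆ i ∈ S', U i) ⊓ U j = ⊥ := by
      have h := hind (some j)
      rw [disjoint_iff] at h
      rw [eq_bot_iff, ← h, inf_comm]
      apply inf_le_inf_left
      refine sup_le ?_ ?_
      · exact hC'.trans (le_iSup₂_of_le (none : Option (Fin s)) (by simp) le_rfl)
      · refine iSup₂_le fun i hi => ?_
        exact le_iSup₂_of_le (some i) (by
          intro h'
          exact hj ((Option.some.inj h') ▸ hi)) le_rfl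
    have h2 := Submodule.finrank_sup_add_finrank_inf_eq (C' ⊔ ⨆ i ∈ S', U i) (U j)
    rw [hdisj, finrank_bot, hUdim, ih] at h2
    have heq : C' ⊔ (U j ⊔ ⨆ i ∈ S', U i) = C' ⊔ (⨆ i ∈ S', U i) ⊔ U j := by
      rw [sup_comm (U j), sup_assoc]
    rw [heq, Nat.mul_succ]
    omega

/-- Which dimensions of invariant subspaces a semisimple linear map has. Let `V` be a finite-dimensional vector space over a field `F` and `f` an invertible semisimple linear map of `V`. Suppose `V` is the internal direct sum of the fixed space `C_V(f)` (the eigenspace for 1) and subspaces `U_1, …, U_s`, each `f`-invariant of dimension `a ≥ 1` on which `f` acts irreducibly (no `f`-invariant subspaces other than 0 and `U_j`). Let `0 < m < dim V` and `ℓ = m mod a`. Then `f` leaves some `m`-dimensional subspace invariant if and only if `dim C_V(f) ≥ m`, or `a ≤ m` and `dim C_V(f) ≥ ℓ`. -/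
theorem result {F V : Type*} [Field F] [AddCommGroup V] [Module F V]
    [FiniteDimensional F V] (f : V →ₗ[F] V) (hf : Function.Bijective f) (hss : Module.End.IsSemisimple f)
    {s a : ℕ} (ha : 1 ≤ a) (U : Fin s → Submodule F V)
    (hUinv : ∀ j, (U j).map f ≤ U j) (hUdim : ∀ j, Module.finrank F ↥(U j) = a)
    (hUirr : ∀ j, ∀ W : Submodule F V, W ≤ U j → W.map f ≤ W → W = ⊥ ∨ W = U j)
    (hdec : DirectSum.IsInternal (fun o : Option (Fin s) => o.elim (Module.End.eigenspace f 1) U))
    (m : ℕ) (hm : 0 < m) (hmV : m < Module.finrank F V) :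
    (∃ W : Submodule F V, Module.finrank F ↥W = m ∧ W.map f ≤ W) ↔
    (m ≤ Module.finrank F ↥(Module.End.eigenspace f 1) ∨
      (a ≤ m ∧ m % a ≤ Module.finrank F ↥(Module.End.eigenspace f 1))) := by
  classical
  set C := Module.End.eigenspace f 1 with hCdef
  obtain ⟨hind, htop⟩ := (DirectSum.isInternal_submodule_iff_iSupIndep_and_iSup_eq_top _).mp hdec
  have htop' : C ⊔ ⨆ j ∈ (Finset.univ : Finset (Fin s)), U j = ⊤ := by
    rw [← htop, iSup_option]
    simp
  -- every subspace of C is invariant
  have hCsub : ∀ C' : Submodule F V, C' ≤ C → C' ∈ Module.End.invtSubmodule f := by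
    intro C' hC' x hx
    have : f x = x := by
      have := Module.End.mem_eigenspace_iff.mp (hC' hx)
      simpa using this
    rw [Submodule.mem_comap, this]
    exact hx
  have hUinv' : ∀ j, U j ∈ Module.End.invtSubmodule f := fun j =>
    (Module.End.mem_invtSubmodule_iff_map_le f).mpr (hUinv j)
  have hUirr' : ∀ j, ∀ W : Submodule F V, W ≤ U j → W ∈ Module.End.invtSubmodule f → W = ⊥ ∨ W = U j :=
    fun j W hW hinv => hUirr j W hW ((Module.End.mem_invtSubmodule_iff_map_le f).mp hinv)
  have hV : finrank F V = finrank F C + a * s := by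
    have := finrank_sup_biSup C U hUdim hind C le_rfl Finset.univ
    rw [htop', finrank_top, Finset.card_univ, Fintype.card_fin] at this
    exact this
  constructor
  · rintro ⟨W, hWm, hWinv⟩
    obtain ⟨k, hk⟩ := finrank_invt f C (hCsub C le_rfl) U hUinv' hUdim hUirr' Finset.univ W
      ((Module.End.mem_invtSubmodule_iff_map_le f).mpr hWinv) (by rw [htop']; exact le_top)
    have hc : finrank F ↥(W ⊓ C) ≤ finrank F C := Submodule.finrank_mono inf_le_right
    rw [hWm] at hk
    rcases Nat.eq_zero_or_pos k with hk0 | hkpos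
    · left
      rw [hk0] at hk
      omega
    · right
      constructor
      · have : a ≤ a * k := Nat.le_mul_of_pos_right a hkpos
        omega
      · rw [hk, Nat.add_mul_mod_self_left]
        exact (Nat.mod_le _ _).trans hc
  · intro h
    -- choose c' ≤ dim C and k ≤ s with m = c' + a * k
    have hex : ∃ c' k, c' ≤ finrank F C ∧ k ≤ s ∧ m = c' + a * k := by
      rcases h with h | ⟨h1, h2⟩
      · exact ⟨m, 0, h, Nat.zero_le _, by simp⟩
      · by_cases hks : m / a ≤ s
        · exact ⟨m % a, m / a, h2, hks, (Nat.mod_add_div m a).symm⟩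
        · refine ⟨m - a * s, s, ?_, le_rfl, ?_⟩
          · omega
          · have h3 : a * s ≤ a * (m / a) := Nat.mul_le_mul_left a (by omega)
            have h4 : a * (m / a) ≤ m := Nat.mul_div_le m a
            omega
    obtain ⟨c', k, hc', hk, hmeq⟩ := hex
    obtain ⟨C', hC'le, hC'dim⟩ := exists_le_finrank_eq C c' hc'
    obtain ⟨S, -, hScard⟩ := Finset.exists_subset_card_eq
      (s := (Finset.univ : Finset (Fin s))) (n := k) (by simpa using hk)
    refine ⟨C' ⊔ ⨆ j ∈ S, U j, ?_, ?_⟩
    · rw [finrank_sup_biSup C U hUdim hind C' hC'le S, hC'dim, hScard, hmeq]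
    · rw [← Module.End.mem_invtSubmodule_iff_map_le]
      exact Module.End.invtSubmodule.sup_mem (hCsub C' hC'le) (biSup_mem_invt f U hUinv' S)

end Cfsg.Agent.S5952
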