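import Cfsg.Statements.S5953
import Cfsg.Agent.H42.UtMain
import Cfsg.Agent.H42.UnAll
import Cfsg.Agent.H3.TiCycSet
import Cfsg.Agent.H4.UtIsoCnt
import Cfsg.Agent.H4.UtTuples
import Cfsg.Agent.H4.UtFib
import Cfsg.Agent.H35.UtCnt
import Cfsg.Agent.H35.UtHalf
import Cfsg.Agent.H35.UtPeel
import Cfsg.Agent.H25.UtCompNd
import Cfsg.Agent.H25.UtHypClose
import Cfsg.Agent.H25.UtStepSd
import Cfsg.Agent.H25.UtUpper
import Cfsg.Agent.H32.UtAnti
import Cfsg.Agent.H32.UtTransport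
import Cfsg.Agent.H28.UtPair
import Cfsg.Agent.H28.UtWitt
import Cfsg.Agent.H28.UtInvNs
import Cfsg.Agent.H28.UtModStd
import Cfsg.Agent.H28.UtModAdd
import Cfsg.Agent.H28.UtModAll
import Cfsg.Agent.H48.UtStepNsd
import Cfsg.Agent.H48.UtModBlock
import Cfsg.Agent.H60.UtInvSq
import Cfsg.Agent.H60.UtUpperSd
import Cfsg.Agent.H60.UtBuild
import Cfsg.Agent.H60.UtExSd
import Cfsg.Agent.H60.UtKumTi
import Cfsg.Agent.H62.UtInvEx
import Cfsg.Agent.H84.UtInvNec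
import Cfsg.Agent.H84.UtExTwo

set_option autoImplicit false
open scoped MatrixGroups
open Cfsg

namespace Cfsg.Agent.S5953

/-- Elements of prime order of PSU_n(q) with no fixed totally isotropic `m`-space. Here `T = PSU_n(q)` (`n ≥ 3`, `(n, q) ≠ (3, 2)`), realised through the matrices of determinant 1 over the field `F` with `q²` elements preserving the Hermitian form `h(u, v) = Σ u_i v_i^q`; an element of `T` of prime order `r` is such a matrix `x` with `x^r` scalar and `x` not scalar. For `r ≠ p` let `i` be the multiplicative order of `q` modulo `r`, `b = i/2` for `i` even and `b = i` for `i` odd, `c = i, i/2, 2i` according as `i ≡ 0, 2 (mod 4)` or `i` odd, and write `k = n mod c`, `ℓ = m mod b`, `ℓ' = m mod c`, `n' = ⌊n/b⌋`, `m' = ⌊m/b⌋`, `s = (r−1)/b`; `(a)_r` is the `r`-part of `a`. Let `1 ≤ m ≤ n/2` and let `r` be a prime dividing the number of totally isotropic `m`-spaces.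 Then every element of `T` of order `r` fixes a totally isotropic `m`-space if and only if either (i) `r = 2`, `p ≠ 2`, and (`m < n/2` or `(q+1)_2 ≤ (n)_2`); or (ii) `r ≠ p`, `r > 2`, `b ≤ m`, `k ≥ 2ℓ`, and either `i ≢ 2 (mod 4)`, or `i ≡ 2 (mod 4)`, `n' − 2m' ≥ s` and (`i > 2`, or `i = 2` and (`r ∣ m` or `(q+1)_r ≥ (n)_r`)). -/
theorem result {F : Type*} [Field F] [Fintype F] {p : ℕ} [Fact p.Prime] [CharP F p] {q : ℕ} (hq : Fintype.card F = q ^ 2)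
    (n m : ℕ) (hn : 3 ≤ n) (hT : (n, q) ≠ (3, 2)) (hm : 1 ≤ m) (hmn : 2 * m ≤ n)
    (r : ℕ) [Fact r.Prime]
    (hrΩ : r ∣ Nat.card {W : Submodule F (Fin n → F) // Module.finrank F ↥W = m ∧ (∀ u ∈ W, ∀ v ∈ W, Cfsg.hermForm n F q u v = 0)})
    (i b c : ℕ) (hi : i = orderOf (q : ZMod r)) (hb : b = if Even i then i / 2 else i)
    (hc : c = if i % 4 = 0 then i else if i % 4 = 2 then i / 2 else 2 * i) :
    (∀ x : Matrix.SpecialLinearGroup (Fin n) F, x ∈ Cfsg.SU n F q →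
      (∃ z : F, ((x ^ r : Matrix.SpecialLinearGroup (Fin n) F) : Matrix (Fin n) (Fin n) F) = z • (1 : Matrix (Fin n) (Fin n) F)) →
      (∀ z : F, (x : Matrix (Fin n) (Fin n) F) ≠ z • (1 : Matrix (Fin n) (Fin n) F)) →
      ∃ W : Submodule F (Fin n → F), Module.finrank F ↥W = m ∧ (∀ u ∈ W, ∀ v ∈ W, Cfsg.hermForm n F q u v = 0) ∧
        W.map (Matrix.toLin' (x : Matrix (Fin n) (Fin n) F)) ≤ W) ↔
    ((r = 2 ∧ p ≠ 2 ∧ (2 * m < n ∨ padicValNat 2 (q + 1) ≤ padicValNat 2 n)) ∨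
     (r ≠ p ∧ 2 < r ∧ b ≤ m ∧ 2 * (m % b) ≤ n % c ∧
       (i % 4 ≠ 2 ∨ (i % 4 = 2 ∧ (r - 1) / b + 2 * (m / b) ≤ n / b ∧
         (2 < i ∨ (i = 2 ∧ (r ∣ m ∨ padicValNat r n ≤ padicValNat r (q + 1)))))))) := by
  subst hi
  have hbb : b = Cfsg.Agent.H42.Ti.ii F r := by
    rw [hb, Cfsg.Agent.H42.Ut.ii_eq hq r]
  have hcc : c = Cfsg.Agent.H42.Un.cu q r := by
    rw [hc]
    rfl
  rw [hbb, hcc]
  have hHalf := Cfsg.Agent.H35.Ut.utHalf
  have hPeel := Cfsg.Agent.H35.Ut.utPeel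
  have hCompNd := Cfsg.Agent.H25.Ut.utCompNd
  have hPair := Cfsg.Agent.H28.Ut.utPair Cfsg.Agent.H25.Ut.utHypClose Cfsg.Agent.H32.Ut.utAnti
  have hWitt := Cfsg.Agent.H28.Ut.utWitt hPeel hPair
  have hTuples := Cfsg.Agent.H4.Ut.utTuples Cfsg.Agent.H4.Ut.utIsoCnt
  have hFib := Cfsg.Agent.H4.Ut.utFib
  have hCntP := Cfsg.Agent.H35.Ut.utCntP hTuples hFib
  have hCnt := Cfsg.Agent.H35.Ut.utCnt hTuples hFib
  have hInvSq := Cfsg.Agent.H60.Ut.utInvSq hWitt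
  have hInvNs := Cfsg.Agent.H28.Ut.utInvNs hHalf
  have hInvNec := Cfsg.Agent.H84.Ut.utInvNec
  have hInvEx := Cfsg.Agent.H62.Ut.utInvEx hHalf
  have hStepSd := Cfsg.Agent.H25.Ut.utStepSd hCompNd hPair
  have hUpper := Cfsg.Agent.H25.Ut.utUpper hHalf
  have hUpperSd := Cfsg.Agent.H60.Ut.utUpperSd hCompNd hHalf
  have hBuild := Cfsg.Agent.H60.Ut.utBuild hPeel hWitt Cfsg.Agent.H48.Ut.utStepNsd hStepSd
  have hModAll := Cfsg.Agent.H28.Ut.utModAll Cfsg.Agent.H48.Ut.utModBlock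
    Cfsg.Agent.H28.Ut.utModStd Cfsg.Agent.H28.Ut.utModAdd
  have hExSd := Cfsg.Agent.H60.Ut.utExSd hModAll Cfsg.Agent.H32.Ut.utTransport
  have hExTwo := Cfsg.Agent.H84.Ut.utExTwo
  have hKumTi := Cfsg.Agent.H60.Ut.utKumTi hPeel hPair
  exact Cfsg.Agent.H42.Ut.ut_main hCntP hCnt Cfsg.Agent.H42.Un.kSqrt hInvSq hInvNs hInvNec hInvEx
    Cfsg.Agent.H3.Ti.cycSet hUpper hUpperSd hBuild hExSd hExTwo Cfsg.Agent.H42.Un.kEx
    Cfsg.Agent.H42.Un.kModc Cfsg.Agent.H42.Un.kKumNT Cfsg.Agent.H42.Un.kKumNec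
    Cfsg.Agent.H42.Un.kKumEx hKumTi hq n m hn hm hmn r hrΩ

end Cfsg.Agent.S5953
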