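import Cfsg.Statements.S5954
import Cfsg.Agent.H42.UnMain
import Cfsg.Agent.H62.SpnKerAdd
import Cfsg.Agent.H62.SpnUniq
import Cfsg.Agent.H64.UnHyp
import Cfsg.Agent.H27.UnCompl
import Cfsg.Agent.H27.UnSum
import Cfsg.Agent.H13.UnPeel
import Cfsg.Agent.H64.UnUCyc
import Cfsg.Agent.H64.UnUBlock
import Cfsg.Agent.H64.UnUType
import Cfsg.Agent.H12.UnUCay
import Cfsg.Agent.H64.UnUModOne
import Cfsg.Agent.H40.UnUModSum
import Cfsg.Agent.H13.UnUModAll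
import Cfsg.Agent.H80.UnUEx
import Cfsg.Agent.H64.UnSub2
import Cfsg.Agent.H64.UnInv2Ex
import Cfsg.Agent.H91.UnSqrt
import Cfsg.Agent.H25.UnInvSq
import Cfsg.Agent.H40.UnInvNs
import Cfsg.Agent.H12.UnInvEven
import Cfsg.Agent.H98.UnInvEx
import Cfsg.Agent.H25.UnInvNec
import Cfsg.Agent.H16.UnBlock
import Cfsg.Agent.H12.UnRel
import Cfsg.Agent.H12.UnFix
import Cfsg.Agent.H24.UnModc
import Cfsg.Agent.H24.UnSub
import Cfsg.Agent.H14.UnEx
import Cfsg.Agent.H13.UnUnit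
import Cfsg.Agent.H13.UnFrames
import Cfsg.Agent.H80.UnFib
import Cfsg.Agent.H27.UnOrd
import Cfsg.Agent.H70.UnNdCnt
import Cfsg.Agent.H89.UnKumNT
import Cfsg.Agent.H89.UnKumPeel
import Cfsg.Agent.H89.UnKumEx
import Cfsg.Agent.H89.UnKumNec

set_option autoImplicit false
open scoped MatrixGroups
open Cfsg

namespace Cfsg.Agent.S5954

/-- Elements of prime order of PSU_n(q) with no fixed nondegenerate `m`-space. Here `T = PSU_n(q)` (`n ≥ 3`, `(n, q) ≠ (3, 2)`), realised through the matrices of determinant 1 over the field `F` with `q²` elements preserving the Hermitian form `h(u, v) = Σ u_i v_i^q`; an element of `T` of prime order `r` is such a matrix `x` with `x^r` scalar and `x` not scalar. For `r ≠ p` let `i` be the multiplicative order of `q` modulo `r`, `b = i/2` for `i` even and `b = i` for `i` odd, `c = i, i/2, 2i` according as `i ≡ 0, 2 (mod 4)` or `i` odd, and write `k =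 n mod c`, `ℓ = m mod b`, `ℓ' = m mod c`, `n' = ⌊n/b⌋`, `m' = ⌊m/b⌋`, `s = (r−1)/b`; `(a)_r` is the `r`-part of `a`. Let `1 ≤ m < n/2` and let `r` be a prime dividing the number of nondegenerate `m`-spaces. Then every element of `T` of order `r` fixes a nondegenerate `m`-space if and only if one of: (i) `r = p > 2` and every partition of `n` into parts of size at most `p` contains (as a sub-multiset) a partition of `m`; (ii) `r = p = 2` and (`n` is odd or `m` is even); (iii) `r = 2 ≠ p` and (`n` is odd, or `m` is even, or `(q+1)_2 ≥ (n)_2` and `q ≡ 3 (mod 4)`); (iv) `r ≠ p`, `r > 2`, and either `i ≠ 2`, `c ≤ m` and `k ≥ ℓ'`, or `i = 2` and (`r ∣ m` or `(q+1)_r ≥ (n)_r`). -/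
theorem result {F : Type*} [Field F] [Fintype F] {p : ℕ} [Fact p.Prime] [CharP F p] {q : ℕ} (hq : Fintype.card F = q ^ 2)
    (n m : ℕ) (hn : 3 ≤ n) (hT : (n, q) ≠ (3, 2)) (hm : 1 ≤ m) (hmn : 2 * m < n)
    (r : ℕ) [Fact r.Prime]
    (hrΩ : r ∣ Nat.card {W : Submodule F (Fin n → F) // Module.finrank F ↥W = m ∧ (∀ u ∈ W, u ≠ 0 → ∃ v ∈ W, Cfsg.hermForm n F q u v ≠ 0)})
    (i b c : ℕ) (hi : i = orderOf (q : ZMod r)) (hb : b = if Even i then i / 2 else i)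
    (hc : c = if i % 4 = 0 then i else if i % 4 = 2 then i / 2 else 2 * i) :
    (∀ x : Matrix.SpecialLinearGroup (Fin n) F, x ∈ Cfsg.SU n F q →
      (∃ z : F, ((x ^ r : Matrix.SpecialLinearGroup (Fin n) F) : Matrix (Fin n) (Fin n) F) = z • (1 : Matrix (Fin n) (Fin n) F)) →
      (∀ z : F, (x : Matrix (Fin n) (Fin n) F) ≠ z • (1 : Matrix (Fin n) (Fin n) F)) →
      ∃ W : Submodule F (Fin n → F), Module.finrank F ↥W = m ∧ (∀ u ∈ W, u ≠ 0 → ∃ v ∈ W, Cfsg.hermForm n F q u v ≠ 0) ∧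
        W.map (Matrix.toLin' (x : Matrix (Fin n) (Fin n) F)) ≤ W) ↔
    ((r = p ∧ 2 < p ∧ (∀ μ : Multiset ℕ, (∀ a ∈ μ, 0 < a ∧ a ≤ p) → μ.sum = n → ∃ ν : Multiset ℕ, ν ≤ μ ∧ ν.sum = m)) ∨
     (r = p ∧ p = 2 ∧ (Odd n ∨ Even m)) ∨
     (r = 2 ∧ p ≠ 2 ∧ (Odd n ∨ Even m ∨ (padicValNat 2 n ≤ padicValNat 2 (q + 1) ∧ q % 4 = 3))) ∨
     (r ≠ p ∧ 2 < r ∧ ((i ≠ 2 ∧ c ≤ m ∧ m % c ≤ n % c) ∨ (i = 2 ∧ (r ∣ m ∨ padicValNat r n ≤ padicValNat r (q + 1)))))) := by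
  subst hi
  have hcc : c = Cfsg.Agent.H42.Un.cu q r := by
    rw [hc]
    rfl
  rw [hcc]
  have hHyp := Cfsg.Agent.H64.Un.uHyp
  have hCompl := Cfsg.Agent.H27.Un.uCompl
  have hSum := Cfsg.Agent.H27.Un.uSum
  have hPeel := Cfsg.Agent.H13.Un.uPeel hCompl hSum
  have hUBlock := Cfsg.Agent.H64.Un.uUBlock Cfsg.Agent.H64.Un.uUCyc
  have hType := Cfsg.Agent.H64.Un.uUType hUBlock hCompl hSum
  have hModAll := Cfsg.Agent.H13.Un.uModAll Cfsg.Agent.H64.Un.uModOne Cfsg.Agent.H40.Un.uModSum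
  have hUniEx := Cfsg.Agent.H80.Un.uUniEx hModAll Cfsg.Agent.H12.Un.uCay
  have hSub2 := Cfsg.Agent.H64.Un.sub2
  have hInv2Ex := Cfsg.Agent.H64.Un.uInv2Ex
  have hSqrt := Cfsg.Agent.H91.Un.uSqrt
  have hInvSq := Cfsg.Agent.H25.Un.uInvSq hHyp hPeel hSum
  have hInvNs := Cfsg.Agent.H40.Un.uInvNs hPeel
  have hInvEven := Cfsg.Agent.H12.Un.uInvEven
  have hInvEx := Cfsg.Agent.H98.Un.uInvEx
  have hInvNec := Cfsg.Agent.H25.Un.uInvNec hInvEven
  have hBlockRel := Cfsg.Agent.H12.Un.uBlockRel Cfsg.Agent.H16.Un.uBlock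
  have hFix := Cfsg.Agent.H12.Un.uFix
  have hModc := Cfsg.Agent.H24.Un.uModc hBlockRel hFix hCompl
  have hSub := Cfsg.Agent.H24.Un.uSub hBlockRel hHyp hFix hCompl hSum
  have hEx := Cfsg.Agent.H14.Un.uEx
  have hFrames := Cfsg.Agent.H13.Un.uFrames Cfsg.Agent.H13.Un.uUnit
  have hFib := Cfsg.Agent.H80.Un.uFib hFrames
  have hNdCnt := Cfsg.Agent.H70.Un.uNdCnt hFrames hFib Cfsg.Agent.H27.Un.uOrd
  have hKumNT := Cfsg.Agent.H89.Un.uKumNT
  have hKumPeel := Cfsg.Agent.H89.Un.uKumPeel hHyp hPeel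
  have hKumEx := Cfsg.Agent.H89.Un.uKumEx
  have hKumNec := Cfsg.Agent.H89.Un.uKumNec
  exact Cfsg.Agent.H42.Un.un_main hType Cfsg.Agent.H62.Spn.kerAdd Cfsg.Agent.H62.Spn.uniq hUniEx
    hCompl hSub2 hInv2Ex hSqrt hInvSq hInvNs hInvEven hInvEx hInvNec hModc hSub hEx hNdCnt hKumNT
    hKumPeel hKumEx hKumNec hq n m hn hmn r hrΩ

end Cfsg.Agent.S5954
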