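import Cfsg.Statements.S5955
import Cfsg.Agent.H42.TiMain
import Cfsg.Agent.H42.SpdEx
import Cfsg.Agent.H16.SpdBlock
import Cfsg.Agent.H67.SpdRel
import Cfsg.Agent.H77.SpdFix
import Cfsg.Agent.H77.SpdCompl
import Cfsg.Agent.H24.SpdModc
import Cfsg.Agent.H3.TiPrim
import Cfsg.Agent.H3.TiCompDvd
import Cfsg.Agent.H3.TiIrrSub
import Cfsg.Agent.H3.TiCycSet
import Cfsg.Agent.H3.TiPair
import Cfsg.Agent.H3.TiStepEven
import Cfsg.Agent.H3.TiUpper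
import Cfsg.Agent.H72.TiSpread
import Cfsg.Agent.H72.TiHalf
import Cfsg.Agent.H72.TiOddInv
import Cfsg.Agent.H72.TiCntP
import Cfsg.Agent.H72.TiCnt
import Cfsg.Agent.H72.TiPeel
import Cfsg.Agent.H72.TiTuples
import Cfsg.Agent.H72.TiFib
import Cfsg.Agent.H32.TiTransport
import Cfsg.Agent.H32.TiModAdd
import Cfsg.Agent.H32.TiAnti
import Cfsg.Agent.H14.TiModStd
import Cfsg.Agent.H14.TiModAll
import Cfsg.Agent.H14.TiStepOdd
import Cfsg.Agent.H14.TiBuild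
import Cfsg.Agent.H16.TiModBlock
import Cfsg.Agent.H16.TiHypClose
import Cfsg.Agent.H16.TiCompNd
import Cfsg.Agent.H54.TiInvNs
import Cfsg.Agent.H60.TiExEven
import Cfsg.Agent.H60.TiInvSq
import Cfsg.Agent.H60.TiUpperEven

set_option autoImplicit false
open scoped MatrixGroups
open Cfsg

namespace Cfsg.Agent.S5955

/-- Elements of prime order of PSp_n(q) with no fixed totally isotropic `m`-space. Here `T = PSp_n(q)` with `n = 2d ≥ 4`, `(n, q) ≠ (4, 2)`, realised through the symplectic matrices over the field `F` with `q` elements (preserving the standard alternating form); an element of `T` of prime order `r` is such a matrix `x` with `x^r` scalar and `x` not scalar. For `r ≠ p` let `i` be the multiplicative order of `q` modulo `r`, `c = i` for `i` even and `c = 2i` for `i` odd, and write `k = n mod c`, `ℓ = m mod i`, `ℓ' = m mod c`, `n' = ⌊n/i⌋`, `m'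 = ⌊m/i⌋`, `t = (r−1)/i`. Let `1 ≤ m ≤ n/2` and let `r` be a prime dividing the number of totally isotropic `m`-spaces. Then every element of `T` of order `r` fixes a totally isotropic `m`-space if and only if either (i) `r = 2 ≠ p` and (`m` is even or `q ≡ 1 (mod 4)`); or (ii) `r ≠ p`, `r > 2`, `i ≤ m`, `k ≥ 2ℓ`, and (`i` is odd or `n' − 2m' ≥ t`). -/
theorem result {F : Type*} [Field F] [Fintype F] {p : ℕ} [Fact p.Prime] [CharP F p] {q : ℕ} (hq : Fintype.card F = q)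
    (d m : ℕ) (hd : 2 ≤ d) (hT : (d, q) ≠ (2, 2)) (hm : 1 ≤ m) (hmd : m ≤ d)
    (r : ℕ) [Fact r.Prime]
    (hrΩ : r ∣ Nat.card {W : Submodule F (Fin d ⊕ Fin d → F) // Module.finrank F ↥W = m ∧ (∀ u ∈ W, ∀ v ∈ W, Cfsg.sympForm d F u v = 0)})
    (i c : ℕ) (hi : i = orderOf (q : ZMod r)) (hc : c = if Even i then i else 2 * i) :
    (∀ x : ↥(Matrix.symplecticGroup (Fin d) F),
      (∃ z : F, ((x ^ r : ↥(Matrix.symplecticGroup (Fin d) F)) : Matrix (Fin d ⊕ Fin d) (Fin d ⊕ Fin d) F) = z • (1 : Matrix (Fin d ⊕ Fin d) (Fin d ⊕ Fin d) F)) →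
      (∀ z : F, (x : Matrix (Fin d ⊕ Fin d) (Fin d ⊕ Fin d) F) ≠ z • (1 : Matrix (Fin d ⊕ Fin d) (Fin d ⊕ Fin d) F)) →
      ∃ W : Submodule F (Fin d ⊕ Fin d → F), Module.finrank F ↥W = m ∧ (∀ u ∈ W, ∀ v ∈ W, Cfsg.sympForm d F u v = 0) ∧
        W.map (Matrix.toLin' (x : Matrix (Fin d ⊕ Fin d) (Fin d ⊕ Fin d) F)) ≤ W) ↔
    ((r = 2 ∧ p ≠ 2 ∧ (Even m ∨ q % 4 = 1)) ∨
     (r ≠ p ∧ 2 < r ∧ i ≤ m ∧ 2 * (m % i) ≤ (2 * d) % c ∧ (Odd i ∨ (r - 1) / i + 2 * (m / i) ≤ (2 * d) / i))) := by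
  subst hq
  subst hi
  have hcc : c = Cfsg.Agent.H42.Spd.cc F r := by
    rw [hc]
    rfl
  rw [hcc]
  have hBlockRel := Cfsg.Agent.H67.Spd.blockRel Cfsg.Agent.H16.Spd.block
  have hModc := Cfsg.Agent.H24.Spd.modc hBlockRel Cfsg.Agent.H77.Spd.fix Cfsg.Agent.H77.Spd.compl
  have hCntP := Cfsg.Agent.H72.Ti.tiCntP Cfsg.Agent.H72.Ti.tiTuples Cfsg.Agent.H72.Ti.tiFib
  have hCnt := Cfsg.Agent.H72.Ti.tiCnt Cfsg.Agent.H72.Ti.tiTuples Cfsg.Agent.H72.Ti.tiFib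
  have hInvSq := Cfsg.Agent.H60.Ti.tiInvSq Cfsg.Agent.H72.Ti.tiPeel
  have hInvNs := Cfsg.Agent.H54.Ti.tiInvNs Cfsg.Agent.H72.Ti.tiPeel
  have hOddInv := Cfsg.Agent.H72.Ti.tiOddInv
  have hCyc := Cfsg.Agent.H3.Ti.cycSet
  have hUpper := Cfsg.Agent.H3.Ti.tiUpper Cfsg.Agent.H72.Ti.tiHalf
  have hPrim := Cfsg.Agent.H3.Ti.tiPrim Cfsg.Agent.H3.Ti.cycSet
  have hUpperEven := Cfsg.Agent.H60.Ti.tiUpperEven Cfsg.Agent.H3.Ti.cycSet hPrim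
    Cfsg.Agent.H3.Ti.tiCompDvd Cfsg.Agent.H16.Ti.tiCompNd Cfsg.Agent.H72.Ti.tiHalf
  have hHypClose := Cfsg.Agent.H16.Ti.tiHypClose Cfsg.Agent.H3.Ti.tiCompDvd Cfsg.Agent.H3.Ti.tiIrrSub
  have hPair := Cfsg.Agent.H3.Ti.tiPair Cfsg.Agent.H3.Ti.tiCompDvd Cfsg.Agent.H3.Ti.tiIrrSub
    hHypClose Cfsg.Agent.H32.Ti.tiAnti
  have hStepEven := Cfsg.Agent.H3.Ti.tiStepEven Cfsg.Agent.H3.Ti.cycSet hPrim
    Cfsg.Agent.H3.Ti.tiCompDvd Cfsg.Agent.H16.Ti.tiCompNd hPair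
  have hBuild := Cfsg.Agent.H14.Ti.tiBuild Cfsg.Agent.H72.Ti.tiPeel Cfsg.Agent.H14.Ti.tiStepOdd
    hStepEven
  have hModAll := Cfsg.Agent.H14.Ti.tiModAll Cfsg.Agent.H16.Ti.tiModBlock
    Cfsg.Agent.H14.Ti.tiModStd Cfsg.Agent.H32.Ti.tiModAdd
  have hExEven := Cfsg.Agent.H60.Ti.tiExEven Cfsg.Agent.H3.Ti.cycSet hModAll
    Cfsg.Agent.H32.Ti.tiTransport Cfsg.Agent.H72.Ti.tiSpread
  exact Cfsg.Agent.H42.Ti.ti_main hCntP hCnt hInvSq hInvNs hOddInv hCyc hUpper hUpperEven hBuild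
    hExEven Cfsg.Agent.H42.Spd.ex hModc d m hd hmd r hrΩ

end Cfsg.Agent.S5955
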