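import Cfsg.Statements.S5956
import Cfsg.Agent.H42.SpnMain
import Cfsg.Agent.H42.SpdEx
import Cfsg.Agent.H16.SpdBlock
import Cfsg.Agent.H67.SpdRel
import Cfsg.Agent.H77.SpdHyp
import Cfsg.Agent.H77.SpdFix
import Cfsg.Agent.H77.SpdCompl
import Cfsg.Agent.H18.SpdSum
import Cfsg.Agent.H24.SpdModc
import Cfsg.Agent.H24.SpdSub
import Cfsg.Agent.H54.SpnHyp
import Cfsg.Agent.H75.SpnCompl
import Cfsg.Agent.H75.SpnSum
import Cfsg.Agent.H60.SpnEven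
import Cfsg.Agent.H60.SpnPeel
import Cfsg.Agent.H84.SpnInvOdd
import Cfsg.Agent.H84.SpnInv2Piece
import Cfsg.Agent.Lib.Helper96.SpnInv2Struct
import Cfsg.Agent.H62.SpnUForm
import Cfsg.Agent.H62.SpnKerAdd
import Cfsg.Agent.H62.SpnUniq
import Cfsg.Agent.Lib.Helper96.SpnUBlock
import Cfsg.Agent.Lib.Helper96.SpnUType
import Cfsg.Agent.Lib.Helper96.SpnModAll
import Cfsg.Agent.H82.SpnCay
import Cfsg.Agent.H77.SpnTrans
import Cfsg.Agent.H77.SpnSplit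
import Cfsg.Agent.H32.SpnIsomCard
import Cfsg.Agent.H32.SpnCnt
import Cfsg.Agent.H82.SpnUCyc1
import Cfsg.Agent.H82.SpnUCyc2
import Cfsg.Agent.H16.SpnModEven
import Cfsg.Agent.H16.SpnModPair
import Cfsg.Agent.H16.SpnModSum
import Cfsg.Agent.Lib.Helper96.SpnUEx
import Cfsg.Agent.H7.SpnInv2Ex

set_option autoImplicit false
open scoped MatrixGroups
open Cfsg

namespace Cfsg.Agent.S5956

/-- Elements of prime order of PSp_n(q) with no fixed nondegenerate `m`-space. Here `T = PSp_n(q)` with `n = 2d ≥ 4`, `(n, q) ≠ (4, 2)`, realised through the symplectic matrices over the field `F` with `q` elements (preserving the standard alternating form); an element of `T` of prime order `r` is such a matrix `x` with `x^r` scalar and `x` not scalar. For `r ≠ p` let `i` be the multiplicative order of `q` modulo `r`, `c = i` for `i` even and `c = 2i` for `i` odd, and write `k = n mod c`, `ℓ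 = m mod i`, `ℓ' = m mod c`, `n' = ⌊n/i⌋`, `m' = ⌊m/i⌋`, `t = (r−1)/i`. Let `m` be even with `2 ≤ m < n/2` and let `r` be a prime dividing the number of nondegenerate `m`-spaces. Then every element of `T` of order `r` fixes a nondegenerate `m`-space if and only if one of: (i) `r = p > 2` and every partition of `n` into parts of size at most `p` in which every odd part has even multiplicity contains (as a sub-multiset) a partition of `m` in which every odd part has even multiplicity; (ii) `r = p = 2` and (`n ≡ 2 (mod 4)` or `m ≡ 0 (mod 4)`); (iii) `r = 2 ≠ p`; (iv) `r ≠ p`, `r > 2`, `c ≤ m` and `k ≥ ℓ'`. -/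
theorem result {F : Type*} [Field F] [Fintype F] {p : ℕ} [Fact p.Prime] [CharP F p] {q : ℕ} (hq : Fintype.card F = q)
    (d m : ℕ) (hd : 2 ≤ d) (hT : (d, q) ≠ (2, 2)) (hm : 2 ≤ m) (hme : Even m) (hmd : m < d)
    (r : ℕ) [Fact r.Prime]
    (hrΩ : r ∣ Nat.card {W : Submodule F (Fin d ⊕ Fin d → F) // Module.finrank F ↥W = m ∧ (∀ u ∈ W, u ≠ 0 → ∃ v ∈ W, Cfsg.sympForm d F u v ≠ 0)})
    (i c : ℕ) (hi : i = orderOf (q : ZMod r)) (hc : c = if Even i then i else 2 * i) :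
    (∀ x : ↥(Matrix.symplecticGroup (Fin d) F),
      (∃ z : F, ((x ^ r : ↥(Matrix.symplecticGroup (Fin d) F)) : Matrix (Fin d ⊕ Fin d) (Fin d ⊕ Fin d) F) = z • (1 : Matrix (Fin d ⊕ Fin d) (Fin d ⊕ Fin d) F)) →
      (∀ z : F, (x : Matrix (Fin d ⊕ Fin d) (Fin d ⊕ Fin d) F) ≠ z • (1 : Matrix (Fin d ⊕ Fin d) (Fin d ⊕ Fin d) F)) →
      ∃ W : Submodule F (Fin d ⊕ Fin d → F), Module.finrank F ↥W = m ∧ (∀ u ∈ W, u ≠ 0 → ∃ v ∈ W, Cfsg.sympForm d F u v ≠ 0) ∧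
        W.map (Matrix.toLin' (x : Matrix (Fin d ⊕ Fin d) (Fin d ⊕ Fin d) F)) ≤ W) ↔
    ((r = p ∧ 2 < p ∧ (∀ μ : Multiset ℕ, (∀ a ∈ μ, 0 < a ∧ a ≤ p) → (∀ a : ℕ, Odd a → Even (μ.count a)) → μ.sum = 2 * d →
        ∃ ν : Multiset ℕ, ν ≤ μ ∧ ν.sum = m ∧ ∀ a : ℕ, Odd a → Even (ν.count a))) ∨
     (r = p ∧ p = 2 ∧ ((2 * d) % 4 = 2 ∨ m % 4 = 0)) ∨
     (r = 2 ∧ p ≠ 2) ∨
     (r ≠ p ∧ 2 < r ∧ c ≤ m ∧ m % c ≤ (2 * d) % c)) := by
  subst hq
  subst hi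
  have hcc : c = Cfsg.Agent.H42.Spd.cc F r := by
    rw [hc]
    rfl
  rw [hcc]
  have hBlockRel := Cfsg.Agent.H67.Spd.blockRel Cfsg.Agent.H16.Spd.block
  have hModc := Cfsg.Agent.H24.Spd.modc hBlockRel Cfsg.Agent.H77.Spd.fix Cfsg.Agent.H77.Spd.compl
  have hSub := Cfsg.Agent.H24.Spd.sub hBlockRel Cfsg.Agent.H77.Spd.hyp Cfsg.Agent.H77.Spd.fix
    Cfsg.Agent.H77.Spd.compl Cfsg.Agent.H18.Spd.sum
  have hIsoHyp := @Cfsg.Agent.H54.Spn.isoHyp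
  have hIsoCompl := @Cfsg.Agent.H75.Spn.isoCompl
  have hIsoSum := @Cfsg.Agent.H75.Spn.isoSum
  have hEven := Cfsg.Agent.H60.Spn.even hIsoHyp hIsoCompl
  have hPeel := Cfsg.Agent.H60.Spn.peel hIsoCompl hIsoSum
  have hInvOdd := Cfsg.Agent.H84.Spn.invOdd hIsoHyp
  have hInv2 := Cfsg.Agent.Lib.Helper96.Spn.inv2Struct (Cfsg.Agent.H84.Spn.inv2Piece hIsoHyp)
    hIsoCompl hIsoSum hEven
  have hInv2Ex := Cfsg.Agent.H7.Spn.inv2Ex hEven
  have hType := Cfsg.Agent.Lib.Helper96.Spn.uniType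
    (Cfsg.Agent.Lib.Helper96.Spn.uniBlock Cfsg.Agent.H62.Spn.uniForm
      Cfsg.Agent.H82.Spn.uniCyc1 Cfsg.Agent.H82.Spn.uniCyc2)
    hIsoCompl hIsoSum Cfsg.Agent.H62.Spn.kerAdd
  have hUniEx := Cfsg.Agent.Lib.Helper96.Spn.uniEx
    (Cfsg.Agent.Lib.Helper96.Spn.modAll Cfsg.Agent.H16.Spn.modEven Cfsg.Agent.H16.Spn.modPair
      Cfsg.Agent.H16.Spn.modSum) Cfsg.Agent.H82.Spn.cay
  have hCnt := Cfsg.Agent.H32.Spn.ndCnt Cfsg.Agent.H77.Spn.ndTrans Cfsg.Agent.H77.Spn.stabSplit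
    Cfsg.Agent.H32.Spn.isomCard
  exact Cfsg.Agent.H42.Spn.spn_main hSub hModc Cfsg.Agent.H42.Spd.ex hCnt hInvOdd hPeel hInv2
    hInv2Ex hType Cfsg.Agent.H62.Spn.kerAdd Cfsg.Agent.H62.Spn.uniq hUniEx hIsoCompl
    d m hd hme hmd r hrΩ

end Cfsg.Agent.S5956
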