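import Cfsg.Statements.S5957
import Cfsg.Agent.H99.Invol
import Cfsg.Agent.H99.Blocks
import Cfsg.Agent.H99.Decomp

set_option autoImplicit false
open scoped MatrixGroups
open Cfsg

namespace Cfsg.Agent.S5957

/-- Involutions of PSL_n(q) and imprimitive subgroups. Here `T = PSL_n(F)` for a field `F` with `q = p^f` elements (`n ≥ 2`, `(n, q) ≠ (2, 2), (2, 3)`), `n = a·t` with `t ≥ 2`, and Ω is the set of direct-sum decompositions of `F^n` into `t` subspaces of dimension `a` (unordered; their number is the number of ordered ones divided by `t!`), whose stabilizers are the imprimitive subgroups of type GL_a(q) ≀ S_t (maximal except in some small cases; maximality is not assumed); an element of `T` of prime order `r` (a matrix `x` of determinant 1 with `x^r` scalar, `x` not scalar) fixes a point of Ω when it permutes the summands of some such decomposition. If the number of such decompositions is even, then every involution of `T` stabilizes one of them (the action is 2-elusive). -/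
theorem result {F : Type*} [Field F] [Fintype F] {p : ℕ} [Fact p.Prime] [CharP F p] {q : ℕ} (hq : Fintype.card F = q)
    (n a t : ℕ) (hn : 2 ≤ n) (hT : (n, q) ≠ (2, 2) ∧ (n, q) ≠ (2, 3)) (hat : n = a * t) (ha : 1 ≤ a) (ht : 2 ≤ t)
    (hΩ : 2 ∣ Nat.card {D : Fin t → Submodule F (Fin n → F) // Cfsg.Geo.IsMDecomposition a D} / Nat.factorial t)
    (x : Matrix.SpecialLinearGroup (Fin n) F)
    (hx1 : ∃ z : F, ((x ^ 2 : Matrix.SpecialLinearGroup (Fin n) F) : Matrix (Fin n) (Fin n) F) = z • (1 : Matrix (Fin n) (Fin n) F))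
    (hx2 : ∀ z : F, (x : Matrix (Fin n) (Fin n) F) ≠ z • (1 : Matrix (Fin n) (Fin n) F)) :
    ∃ D : Fin t → Submodule F (Fin n → F), Cfsg.Geo.IsMDecomposition a D ∧
        ∃ σ : Equiv.Perm (Fin t), ∀ j, (D j).map (Matrix.toLin' (x : Matrix (Fin n) (Fin n) F)) = D (σ j) := by
  classical
  obtain ⟨z, hz⟩ := hx1
  set M : Matrix (Fin n) (Fin n) F := (x : Matrix (Fin n) (Fin n) F) with hM
  have hMM : M * M = z • 1 := by
    rw [← hz, pow_two]
    rfl
  have hz0 : z ≠ 0 := by
    intro h0
    have hdet : (M * M).det = 1 := by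
      rw [Matrix.det_mul, hM, x.det_coe, mul_one]
    have : Nonempty (Fin n) := ⟨⟨0, by omega⟩⟩
    rw [hMM, h0, zero_smul, Matrix.det_zero] at hdet
    exact zero_ne_one hdet
  have hff : ∀ v, Matrix.toLin' M (Matrix.toLin' M v) = z • v := by
    intro v
    have h1 : Matrix.toLin' M (Matrix.toLin' M v) = Matrix.toLin' (M * M) v := by
      rw [Matrix.toLin'_mul]
      rfl
    rw [h1, hMM]
    simp
  obtain ⟨ι, _, _, b, π, c, hli, hspan, hinv, hc0, hfb⟩ :=
    Cfsg.Agent.H99.exists_adapted_family (Matrix.toLin' M) z hz0 hff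
      (Module.finrank F (⊤ : Submodule F (Fin n → F))) ⊤ rfl (fun _ _ => Submodule.mem_top)
  have hcardι : Fintype.card ι = a * t := by
    have h1 := finrank_span_eq_card hli
    rw [hspan, finrank_top, Module.finrank_fin_fun] at h1
    rw [← h1, hat]
  obtain ⟨J, _, _, B, σ, hJ, hBcard, hBdisj, hBcover, hBimg⟩ :=
    Cfsg.Agent.H99.exists_block_system π hinv a t Finset.univ (fun _ _ => Finset.mem_univ _)
      (by rw [Finset.card_univ, hcardι])
  obtain ⟨h1, h2, h3, h4⟩ :=
    Cfsg.Agent.H99.decomposition_of_blocks b hli hspan (Matrix.toLin' M) π c hc0 hfb B σ a hBcard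
      hBdisj (fun k => (hBcover k).mp (Finset.mem_univ k)) hBimg
  let e : J ≃ Fin t := Fintype.equivFinOfCardEq hJ
  refine ⟨fun j => Submodule.span F (b '' (B (e.symm j) : Set ι)),
    ⟨ht, ha, fun j => h1 _, ?_, ?_⟩, e.symm.trans (σ.trans e), fun j => ?_⟩
  · exact h2.comp e.symm.injective
  · rw [← h3]
    exact e.symm.iSup_comp (g := fun j => Submodule.span F (b '' (B j : Set ι)))
  · rw [h4]
    simp

end Cfsg.Agent.S5957
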