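import Cfsg.Statements.S5958
import Cfsg.Agent.H31.DecR6A
import Cfsg.Agent.H77.DecR6B
import Cfsg.Agent.H99.DecOne
import Cfsg.Agent.H99.DecStd
import Cfsg.Agent.H99.DecInv
import Cfsg.Agent.H24.DecR5
import Cfsg.Agent.H75.DecCnt
import Cfsg.Agent.H4.DecKum
import Cfsg.Agent.H70.ElLINE
import Cfsg.Agent.H48.ElEX2
import Cfsg.Agent.H99.ElSTR

set_option autoImplicit false
open scoped MatrixGroups
open Cfsg

namespace Cfsg.Agent.S5958

theorem toLin'_pow_aux {F : Type*} [Field F] {n : ℕ} (M : Matrix (Fin n) (Fin n) F) (k : ℕ) :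
    (Matrix.toLin' M : Module.End F (Fin n → F)) ^ k = Matrix.toLin' (M ^ k) := by
  induction k with
  | zero => rw [pow_zero, pow_zero, Matrix.toLin'_one]; rfl
  | succ k ih => rw [pow_succ, pow_succ, Matrix.toLin'_mul, ih]; rfl

theorem result {F : Type*} [Field F] [Fintype F] {p : ℕ} [Fact p.Prime] [CharP F p] {q : ℕ} (hq : Fintype.card F = q)
    (n a t : ℕ) (hn : 2 ≤ n) (hT : (n, q) ≠ (2, 2) ∧ (n, q) ≠ (2, 3)) (hat : n = a * t) (ha : 1 ≤ a) (ht : 2 ≤ t)
    (r : ℕ) [Fact r.Prime] (hr2 : r ≠ 2) (hrp : r ≠ p) (hΩ : r ∣ Nat.card {D : Fin t → Submodule F (Fin n → F) // Cfsg.Geo.IsMDecomposition a D} / Nat.factorial t)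
    (c : ℕ) (hc : c = orderOf (q : ZMod r)) :
    (∀ x : Matrix.SpecialLinearGroup (Fin n) F,
      (∃ z : F, ((x ^ r : Matrix.SpecialLinearGroup (Fin n) F) : Matrix (Fin n) (Fin n) F) = z • (1 : Matrix (Fin n) (Fin n) F)) →
      (∀ z : F, (x : Matrix (Fin n) (Fin n) F) ≠ z • (1 : Matrix (Fin n) (Fin n) F)) →
      ∃ D : Fin t → Submodule F (Fin n → F), Cfsg.Geo.IsMDecomposition a D ∧
        ∃ σ : Equiv.Perm (Fin t), ∀ j, (D j).map (Matrix.toLin' (x : Matrix (Fin n) (Fin n) F)) = D (σ j)) ↔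
    ((a = 1 ∧ 1 < c ∧ c = r - 1 ∧ n ≤ (n % c) * r) ∨ (c ≤ a ∧ n % c = t * (a % c))) := by
  classical
  subst hq
  have hr : r.Prime := Fact.out
  have hp : p.Prime := Fact.out
  have hrF : (r : F) ≠ 0 := by
    intro h0
    have h1 := (CharP.cast_eq_zero_iff F p r).mp h0
    exact hrp ((Nat.prime_dvd_prime_iff_eq hp hr).mp h1).symm
  have hcpos : 0 < c := hc ▸ Cfsg.Agent.H99.El.orderOf_card_pos r hr hrF
  have hfinV : Module.finrank F (Fin n → F) = n := Module.finrank_fin_fun F
  constructor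
  · -- (⇒)
    intro hL
    by_cases hc1 : c = 1
    · right
      subst hc1
      refine ⟨ha, ?_⟩
      rw [Nat.mod_one, Nat.mod_one, Nat.mul_zero]
    have hc2 : 2 ≤ c := by omega
    have hc2' : 2 ≤ orderOf (Fintype.card F : ZMod r) := hc ▸ hc2
    -- a standard decomposition exists
    obtain ⟨D₀, hD₀a, hD₀i, hD₀t⟩ := Cfsg.Agent.H99.Dec.exists_std_decomposition
      (F := F) (V := Fin n → F) a t (hfinV.trans hat)
    have hex : ∃ D : Fin t → Submodule F (Fin n → F), Cfsg.Geo.IsMDecomposition a D :=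
      ⟨D₀, ⟨ht, ha, hD₀a, hD₀i, hD₀t⟩⟩
    have hcn' : orderOf (Fintype.card F : ZMod r) ≤ n :=
      Cfsg.Agent.H75.Dec.order_le_of_dvd_card n a t r hr hrF hex hΩ
    -- the key facts on an element x with x ^ r = 1, x ≠ 1
    have key : ∀ x : Matrix.SpecialLinearGroup (Fin n) F, x ^ r = 1 → x ≠ 1 →
        ∃ D : Fin t → Submodule F (Fin n → F), (∀ j, Module.finrank F (D j) = a) ∧
          iSupIndep D ∧ (⨆ j, D j) = ⊤ ∧ ∃ σ : Equiv.Perm (Fin t), ∀ j,
            (D j).map (Matrix.toLin' (x : Matrix (Fin n) (Fin n) F)) = D (σ j) := by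
      intro x hxr hx1
      have h1 : ∃ z : F, ((x ^ r : Matrix.SpecialLinearGroup (Fin n) F) :
          Matrix (Fin n) (Fin n) F) = z • (1 : Matrix (Fin n) (Fin n) F) :=
        ⟨1, by rw [hxr, one_smul]; rfl⟩
      have h2 : ∀ z : F, (x : Matrix (Fin n) (Fin n) F) ≠ z • (1 : Matrix (Fin n) (Fin n) F) := by
        intro z hz
        -- z ^ r = 1 so z = 1
        have h3 : ((x ^ r : Matrix.SpecialLinearGroup (Fin n) F) :
            Matrix (Fin n) (Fin n) F) = (z ^ r) • (1 : Matrix (Fin n) (Fin n) F) := by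
          rw [Matrix.SpecialLinearGroup.coe_pow, hz, smul_pow, one_pow]
        rw [hxr] at h3
        have hn0 : 0 < n := by omega
        have h4 : z ^ r = 1 := by
          have h5 := congrFun (congrFun h3 ⟨0, hn0⟩) ⟨0, hn0⟩
          rw [Matrix.SpecialLinearGroup.coe_one, Matrix.smul_apply, Matrix.one_apply_eq,
            smul_eq_mul, mul_one] at h5
          exact h5.symm
        have hz0 : z ≠ 0 := by
          rintro rfl
          rw [zero_pow hr.ne_zero] at h4
          exact zero_ne_one h4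
        have h6 : z ^ (Fintype.card F - 1) = 1 := FiniteField.pow_card_sub_one_eq_one z hz0
        have h7 : orderOf z ∣ r := orderOf_dvd_of_pow_eq_one h4
        have h8 : orderOf z ∣ Fintype.card F - 1 := orderOf_dvd_of_pow_eq_one h6
        rcases (Nat.dvd_prime hr).mp h7 with h9 | h9
        · have hz1 : z = 1 := orderOf_eq_one_iff.mp h9
          apply hx1
          apply Subtype.ext
          rw [hz, hz1, one_smul]
          rfl
        · rw [h9] at h8
          -- r ∣ q - 1 gives c = 1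
          have h10 : ((Fintype.card F - 1 : ℕ) : ZMod r) = 0 :=
            (ZMod.natCast_eq_zero_iff _ _).mpr h8
          rw [Nat.cast_sub Fintype.card_pos, Nat.cast_one, sub_eq_zero] at h10
          rw [h10, orderOf_one] at hc
          exact hc1 hc
      obtain ⟨D, hD, σ, hσ⟩ := hL x h1 h2
      exact ⟨D, hD.finrank_eq, hD.indep, hD.iSup_eq_top, σ, hσ⟩
    have hTr : ∀ x : Matrix.SpecialLinearGroup (Fin n) F, x ^ r = 1 →
        (Matrix.toLin' (x : Matrix (Fin n) (Fin n) F) : Module.End F (Fin n → F)) ^ r = 1 := by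
      intro x hxr
      rw [toLin'_pow_aux, ← Matrix.SpecialLinearGroup.coe_pow, hxr,
        Matrix.SpecialLinearGroup.coe_one, Matrix.toLin'_one]
      rfl
    obtain ⟨x, hxr, hx1, hxf⟩ :=
      Cfsg.Agent.H48.El.exists_semisimple_SL (F := F) r hr hrF n hc2' hcn'
    obtain ⟨D, hDa, hDi, hDt, σ, hσ⟩ := key x hxr hx1
    by_cases hca : c ≤ a
    · right
      refine ⟨hca, ?_⟩
      have h1 := Cfsg.Agent.H24.Dec.mod_eq_of_decomposition
        (Matrix.toLin' (x : Matrix (Fin n) (Fin n) F)) r hr hrF (hTr x hxr) a t D hDa hDi hDt σ hσ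
        (hc ▸ hca) (by
          show Module.finrank F (LinearMap.ker (Matrix.toLin' (x : Matrix (Fin n) (Fin n) F) - 1)) < _
          rw [hxf]
          exact Nat.mod_lt _ (by omega))
      rw [hc, hat]
      exact h1
    · left
      have hac : a < c := by omega
      obtain ⟨x', hx'r, hx'1, hx'f⟩ :=
        Cfsg.Agent.H99.Dec.exists_one_block_SL (F := F) r hr hrF n hc2' hcn'
      obtain ⟨D', hD'a, hD'i, hD't, σ', hσ'⟩ := key x' hx'r hx'1
      have h1 := Cfsg.Agent.H31.Dec.one_block_of_decomposition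
        (Matrix.toLin' (x' : Matrix (Fin n) (Fin n) F)) r hr hrF (hTr x' hx'r) a t D' hD'a hD'i
        hD't σ' hσ' ha (hc ▸ hac) (by
          show Module.finrank F (LinearMap.ker (Matrix.toLin' (x' : Matrix (Fin n) (Fin n) F) - 1))
            + _ = _
          rw [hx'f, hfinV])
      obtain ⟨ha1, hcr⟩ := h1
      refine ⟨ha1, by omega, hc.trans hcr, ?_⟩
      subst ha1
      have h2 := Cfsg.Agent.H77.Dec.le_of_line_decomposition
        (Matrix.toLin' (x : Matrix (Fin n) (Fin n) F)) r hr hrF (hTr x hxr) t D hDa hDi hDt σ hσ hc2'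
      have h3 : Module.finrank F (LinearMap.ker
          ((Matrix.toLin' (x : Matrix (Fin n) (Fin n) F) : Module.End F (Fin n → F)) - 1))
          = n % c := by
        rw [hc]
        exact hxf
      rw [h3] at h2
      rw [hat, one_mul] at h2 ⊢
      exact h2
  · -- (⇐)
    intro hR x hxr hxs
    obtain ⟨z, hz⟩ := hxr
    have hn0 : 0 < n := by omega
    have hTr : (Matrix.toLin' (x : Matrix (Fin n) (Fin n) F) : Module.End F (Fin n → F)) ^ r
        = z • 1 := by
      rw [toLin'_pow_aux, ← Matrix.SpecialLinearGroup.coe_pow, hz, map_smul, Matrix.toLin'_one]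
      rfl
    have hz0 : z ≠ 0 := by
      rintro rfl
      have h1 := (x ^ r).det_coe
      rw [hz, zero_smul] at h1
      have : Nonempty (Fin n) := ⟨⟨0, hn0⟩⟩
      rw [Matrix.det_zero] at h1
      exact zero_ne_one h1
    have hfin : ∃ D : Fin t → Submodule F (Fin n → F), (∀ j, Module.finrank F (D j) = a) ∧
        iSupIndep D ∧ (⨆ j, D j) = ⊤ ∧ ∃ σ : Equiv.Perm (Fin t), ∀ j,
          (D j).map (Matrix.toLin' (x : Matrix (Fin n) (Fin n) F)) = D (σ j) := by
      by_cases hzp : ∃ y : F, y ^ r = z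
      · obtain ⟨y, hy⟩ := hzp
        have hy0 : y ≠ 0 := by
          rintro rfl
          rw [zero_pow hr.ne_zero] at hy
          exact hz0 hy.symm
        obtain ⟨T', hT'⟩ : ∃ T' : Module.End F (Fin n → F),
            T' = y⁻¹ • Matrix.toLin' (x : Matrix (Fin n) (Fin n) F) := ⟨_, rfl⟩
        have hT'r : T' ^ r = 1 := by
          rw [hT', smul_pow, hTr, smul_smul, inv_pow, hy, inv_mul_cancel₀ hz0, one_smul]
        have hmap : ∀ W : Submodule F (Fin n → F),
            W.map (Matrix.toLin' (x : Matrix (Fin n) (Fin n) F)) = W.map T' := by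
          intro W
          rw [hT']
          exact (Submodule.map_smul _ W y⁻¹ (inv_ne_zero hy0)).symm
        rcases hR with ⟨ha1, hc1, hcr, hle⟩ | ⟨hca, hk⟩
        · subst ha1
          rw [one_mul] at hat
          subst hat
          obtain ⟨D, h1, h2, h3, σ, h4⟩ := Cfsg.Agent.H70.El.exists_line_decomposition T' r hr hrF
            hT'r (hc ▸ hcr) n hfinV (hcr ▸ hle)
          exact ⟨D, h1, h2, h3, σ, fun j => (hmap _).trans (h4 j)⟩
        · obtain ⟨D, h1, h2, h3, h4⟩ := Cfsg.Agent.H99.Dec.exists_invariant_decomposition T' r hr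
            hrF hT'r a t (hfinV.trans hat) (by rw [hfinV, ← hc]; exact hk)
          exact ⟨D, h1, h2, h3, 1, fun j => (hmap _).trans (h4 j)⟩
      · push Not at hzp
        exact Cfsg.Agent.H4.Dec.exists_kummer_decomposition _ r hr z hzp hTr a t ha
          (hfinV.trans hat)
    obtain ⟨D, h1, h2, h3, σ, h4⟩ := hfin
    exact ⟨D, ⟨ht, ha, h1, h2, h3⟩, σ, h4⟩

end Cfsg.Agent.S5958
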