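import Mathlib
import Cfsg.Statements.S5959
import Cfsg.Agent.H65.JordanRank

set_option autoImplicit false
open scoped MatrixGroups
open Cfsg

namespace Cfsg.Agent.S5959

open Cfsg.Agent.H65.JordanRank

theorem one_add_pow_char {F : Type*} [Field F] {p : ℕ} [Fact p.Prime] [CharP F p]
    {V : Type*} [AddCommGroup V] [Module F V] (N : Module.End F V) : (1 + N) ^ p = 1 + N ^ p := by
  have h : ((1 : Polynomial F) + Polynomial.X) ^ p = 1 + Polynomial.X ^ p := by
    rw [add_pow_char, one_pow]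
  have h2 := congrArg (Polynomial.aeval N) h
  simpa using h2

theorem core {F : Type*} [Field F] {p : ℕ} [Fact p.Prime] [CharP F p] (n a t : ℕ)
    (ha : 1 ≤ a) (ht : 2 ≤ t)
    (μ : Multiset ℕ) (hμ : ∀ b ∈ μ, 0 < b ∧ b ≤ p) (hcount : μ.count p < a)
    (N : (Fin n → F) →ₗ[F] (Fin n → F))
    (hN : ∀ k, Module.finrank F (LinearMap.range (N ^ k)) = (μ.map (fun b => b - k)).sum)
    (D : Fin t → Submodule F (Fin n → F)) (hD : Cfsg.Geo.IsMDecomposition a D) (σ : Equiv.Perm (Fin t))
    (hσ : ∀ j, (D j).map (1 + N) = D (σ j)) : ∃ ν : Multiset ℕ, ν ≤ μ ∧ ν.sum = a := by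
  have hp : p.Prime := Fact.out
  have hNp : N ^ p = 0 := by
    have h1 := hN p
    rw [mset_sum_sub_eq_zero μ p p (fun b hb => (hμ b hb).2) le_rfl] at h1
    rw [← LinearMap.range_eq_bot]
    exact Submodule.finrank_eq_zero.mp h1
  have hXp : (1 + N) ^ p = 1 := by rw [one_add_pow_char, hNp, add_zero]
  have hmapi : ∀ i j, (D j).map ((1 + N) ^ i) = D (σ^[i] j) := by
    intro i
    induction i with
    | zero =>
      intro j
      rw [pow_zero, Module.End.one_eq_id, Submodule.map_id, Function.iterate_zero, id]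
    | succ i ih =>
      intro j
      rw [pow_succ', Module.End.mul_eq_comp, Submodule.map_comp, ih, hσ, Function.iterate_succ_apply']
  have hDinj : Function.Injective D := by
    apply hD.indep.injective
    intro i hi
    have := hD.finrank_eq i
    rw [hi, finrank_bot] at this
    omega
  by_cases hfix : ∃ j, σ j = j
  · obtain ⟨j, hj⟩ := hfix
    have hXU : ∀ u ∈ D j, (1 + N) u ∈ D j := by
      intro u hu
      have : (1 + N) u ∈ (D j).map (1 + N) := Submodule.mem_map_of_mem hu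
      rw [hσ, hj] at this
      exact this
    have hU : ∀ u ∈ D j, N u ∈ D j := by
      intro u hu
      have h1 := hXU u hu
      have h2 : N u = (1 + N) u - u := by simp
      rw [h2]
      exact Submodule.sub_mem _ h1 hu
    have hXW : (⨆ (i) (_ : i ≠ j), D i).map (1 + N) ≤ ⨆ (i) (_ : i ≠ j), D i := by
      simp_rw [Submodule.map_iSup]
      apply iSup₂_le
      intro i hi
      rw [hσ]
      have hne : σ i ≠ j := by
        intro h
        apply hi
        apply σ.injective
        rw [h, hj]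
      exact le_iSup₂_of_le (σ i) hne le_rfl
    have hW : ∀ w ∈ ⨆ (i) (_ : i ≠ j), D i, N w ∈ ⨆ (i) (_ : i ≠ j), D i := by
      intro w hw
      have h1 : (1 + N) w ∈ ⨆ (i) (_ : i ≠ j), D i := hXW (Submodule.mem_map_of_mem hw)
      have h2 : N w = (1 + N) w - w := by simp
      rw [h2]
      exact Submodule.sub_mem _ h1 hw
    have hd : Disjoint (D j) (⨆ (i) (_ : i ≠ j), D i) := hD.indep j
    have hs : D j ⊔ ⨆ (i) (_ : i ≠ j), D i = ⊤ := by
      rw [← iSup_split_single]
      exact hD.iSup_eq_top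
    obtain ⟨ν, hν, hνs⟩ := exists_sub_multiset N μ p (fun k => by rw [rk_top]; exact hN k) hNp
      (D j) (⨆ (i) (_ : i ≠ j), D i) hU hW hd hs
    exact ⟨ν, hν, by rw [hνs, hD.finrank_eq j]⟩
  · exfalso
    push Not at hfix
    let j : Fin t := ⟨0, by omega⟩
    have h1 : σ^[p] j = j := by
      apply hDinj
      rw [← hmapi p j, hXp, Module.End.one_eq_id, Submodule.map_id]
    have hinj := injOn_iterate_of_prime σ p hp j h1 (hfix j)
    have h2 := finrank_le_of_free_orbit D hD.indep (1 + N) p j (fun i => σ^[i] j) hinj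
      (fun i u hu => by rw [← hmapi i j]; exact Submodule.mem_map_of_mem hu)
    rw [add_sub_cancel_left, hN (p - 1), mset_sum_sub_pred μ p hp.one_lt.le (fun b hb => (hμ b hb).2),
      hD.finrank_eq j] at h2
    omega

/-- Elements of order `p` of PSL_n(q) and imprimitive subgroups: a necessary condition. -/
theorem result {F : Type*} [Field F] [Fintype F] {p : ℕ} [Fact p.Prime] [CharP F p] {q : ℕ} (hq : Fintype.card F = q)
    (n a t : ℕ) (hn : 2 ≤ n) (hT : (n, q) ≠ (2, 2) ∧ (n, q) ≠ (2, 3)) (hat : n = a * t) (ha : 1 ≤ a) (ht : 2 ≤ t)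
    (hp : 2 < p) (hΩ : p ∣ Nat.card {D : Fin t → Submodule F (Fin n → F) // Cfsg.Geo.IsMDecomposition a D} / Nat.factorial t)
    (h : ∀ x : Matrix.SpecialLinearGroup (Fin n) F,
      (∃ z : F, ((x ^ p : Matrix.SpecialLinearGroup (Fin n) F) : Matrix (Fin n) (Fin n) F) = z • (1 : Matrix (Fin n) (Fin n) F)) →
      (∀ z : F, (x : Matrix (Fin n) (Fin n) F) ≠ z • (1 : Matrix (Fin n) (Fin n) F)) →
      ∃ D : Fin t → Submodule F (Fin n → F), Cfsg.Geo.IsMDecomposition a D ∧
        ∃ σ : Equiv.Perm (Fin t), ∀ j, (D j).map (Matrix.toLin' (x : Matrix (Fin n) (Fin n) F)) = D (σ j)) :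
    (∀ μ : Multiset ℕ, (∀ b ∈ μ, 0 < b ∧ b ≤ p) → μ.sum = n → μ.count p < a → ∃ ν : Multiset ℕ, ν ≤ μ ∧ ν.sum = a) := by
  intro μ hμ hsum hcount
  have hpp : p.Prime := Fact.out
  by_cases hall : ∀ b ∈ μ, b = 1
  · refine ⟨Multiset.replicate a 1, ?_, by simp⟩
    rw [← Multiset.le_count_iff_replicate_le]
    have h1 : μ = Multiset.replicate (Multiset.card μ) 1 := Multiset.eq_replicate_card.mpr hall
    have hc : Multiset.card μ = n := by
      rw [h1] at hsum
      simpa using hsum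
    rw [h1, Multiset.count_replicate_self, hc, hat]
    nlinarith
  push Not at hall
  obtain ⟨b₀, hb₀, hb₀1⟩ := hall
  have hb₀2 : 2 ≤ b₀ := by
    have := (hμ b₀ hb₀).1
    omega
  obtain ⟨N, hN⟩ := exists_nilpotent (F := F) μ n hsum
  have hNp : N ^ p = 0 := by
    have h1 := hN p
    rw [mset_sum_sub_eq_zero μ p p (fun b hb => (hμ b hb).2) le_rfl] at h1
    rw [← LinearMap.range_eq_bot]
    exact Submodule.finrank_eq_zero.mp h1
  have hN0 : N ≠ 0 := by
    intro h0
    have h1 := hN 1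
    have h2 := mset_sum_sub_one_pos μ b₀ hb₀ hb₀2
    rw [h0, pow_one, LinearMap.range_zero, finrank_bot] at h1
    omega
  have : Nonempty (Fin n) := ⟨⟨0, by omega⟩⟩
  set M : Matrix (Fin n) (Fin n) F := LinearMap.toMatrix' N with hM
  have hMp : M ^ p = 0 := by
    show (LinearMap.toMatrixAlgEquiv' N) ^ p = 0
    rw [← map_pow, hNp, map_zero]
  have hxp : (1 + M) ^ p = 1 := by
    rw [add_pow_char_of_commute p (Commute.one_left M), one_pow, hMp, add_zero]
  have hdet : (1 + M).det = 1 := by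
    have h1 : (1 + M).det ^ p = 1 := by rw [← Matrix.det_pow, hxp, Matrix.det_one]
    have h2 : ((1 + M).det - 1) ^ p = 0 := by rw [sub_pow_char, h1, one_pow, sub_self]
    exact sub_eq_zero.mp ((pow_eq_zero_iff hpp.ne_zero).mp h2)
  obtain ⟨x, hx⟩ : ∃ x : Matrix.SpecialLinearGroup (Fin n) F, (x : Matrix (Fin n) (Fin n) F) = 1 + M :=
    ⟨⟨1 + M, hdet⟩, rfl⟩
  have hc1 : ∃ z : F, ((x ^ p : Matrix.SpecialLinearGroup (Fin n) F) : Matrix (Fin n) (Fin n) F) =
      z • (1 : Matrix (Fin n) (Fin n) F) := by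
    refine ⟨1, ?_⟩
    rw [one_smul, Matrix.SpecialLinearGroup.coe_pow, hx]
    exact hxp
  have hc2 : ∀ z : F, (x : Matrix (Fin n) (Fin n) F) ≠ z • (1 : Matrix (Fin n) (Fin n) F) := by
    intro z hz
    rw [hx] at hz
    have h1 : M = (z - 1) • (1 : Matrix (Fin n) (Fin n) F) := by
      rw [sub_smul, one_smul, ← hz]
      simp
    have h2 : (z - 1) ^ p • (1 : Matrix (Fin n) (Fin n) F) = 0 := by
      rw [← hMp, h1, smul_pow, one_pow]
    have h3 : (z - 1) ^ p = 0 := by
      have := congrFun (congrFun h2 ⟨0, by omega⟩) ⟨0, by omega⟩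
      simpa using this
    have h4 : z - 1 = 0 := (pow_eq_zero_iff hpp.ne_zero).mp h3
    rw [h4, zero_smul] at h1
    apply hN0
    have : LinearMap.toMatrix' N = 0 := h1
    simpa using this
  obtain ⟨D, hD, σ, hσ⟩ := h x hc1 hc2
  apply core n a t ha ht μ hμ hcount N hN D hD σ
  intro j
  have h1 := hσ j
  have e : Matrix.toLin' (1 + M) = 1 + N := by
    rw [map_add, Matrix.toLin'_one, hM, Matrix.toLin'_toMatrix']
    rfl
  rw [← e, ← hx]
  exact h1

end Cfsg.Agent.S5959
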