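import Cfsg.Statements.S5960
import Cfsg.Agent.H99.SympDecomp

set_option autoImplicit false
open scoped MatrixGroups
open Cfsg

namespace Cfsg.Agent.S5960

/-- Involutions of PSp_n(q) and imprimitive subgroups. Here `T = PSp_n(q)`, `n = 2d ≥ 4`, `(n, q) ≠ (4, 2)`, realised through the symplectic matrices over the field `F` with `q` elements and the standard alternating form; `n = a·t` with `a` even and `t ≥ 2`, and Ω is the (nonempty) set of orthogonal decompositions of `F^n` into `t` nondegenerate subspaces of dimension `a` (unordered; counted as ordered ones divided by `t!`), whose stabilizers are the imprimitive subgroups of type Sp_a(q) ≀ S_t (maximality is not assumed); an element of `T` of prime order `r` (a symplectic matrix `x` with `x^r` scalar, `x` not scalar) fixes a point of Ω when it permutes the summands of some such decomposition. If the number of such decompositions is even, then every involution of `T` stabilizes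 one of them (the action is 2-elusive). -/
theorem result {F : Type*} [Field F] [Fintype F] {p : ℕ} [Fact p.Prime] [CharP F p] {q : ℕ} (hq : Fintype.card F = q)
    (d : ℕ) (hd : 2 ≤ d) (hT : (d, q) ≠ (2, 2))
    (a t : ℕ) (hat : 2 * d = a * t) (ha : 2 ≤ a) (hae : Even a) (ht : 2 ≤ t) (hΩ : 2 ∣ Nat.card {D : Fin t → Submodule F (Fin d ⊕ Fin d → F) // (Cfsg.Geo.IsMDecomposition a D ∧ (∀ j, ∀ u ∈ D j, u ≠ 0 → ∃ v ∈ D j, Cfsg.sympForm d F u v ≠ 0) ∧
          (∀ j j', j ≠ j' → ∀ u ∈ D j, ∀ v ∈ D j', Cfsg.sympForm d F u v = 0))} / Nat.factorial t)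
    (x : ↥(Matrix.symplecticGroup (Fin d) F))
    (hx1 : ∃ z : F, ((x ^ 2 : ↥(Matrix.symplecticGroup (Fin d) F)) : Matrix (Fin d ⊕ Fin d) (Fin d ⊕ Fin d) F) = z • (1 : Matrix (Fin d ⊕ Fin d) (Fin d ⊕ Fin d) F))
    (hx2 : ∀ z : F, (x : Matrix (Fin d ⊕ Fin d) (Fin d ⊕ Fin d) F) ≠ z • (1 : Matrix (Fin d ⊕ Fin d) (Fin d ⊕ Fin d) F)) :
    ∃ D : Fin t → Submodule F (Fin d ⊕ Fin d → F), (Cfsg.Geo.IsMDecomposition a D ∧ (∀ j, ∀ u ∈ D j, u ≠ 0 → ∃ v ∈ D j, Cfsg.sympForm d F u v ≠ 0) ∧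
          (∀ j j', j ≠ j' → ∀ u ∈ D j, ∀ v ∈ D j', Cfsg.sympForm d F u v = 0)) ∧
        ∃ σ : Equiv.Perm (Fin t), ∀ j, (D j).map (Matrix.toLin' (x : Matrix (Fin d ⊕ Fin d) (Fin d ⊕ Fin d) F)) = D (σ j) := by
  classical
  obtain ⟨z, hz⟩ := hx1
  set M : Matrix (Fin d ⊕ Fin d) (Fin d ⊕ Fin d) F :=
    (x : Matrix (Fin d ⊕ Fin d) (Fin d ⊕ Fin d) F) with hM
  have hMmem : M ∈ Matrix.symplecticGroup (Fin d) F := x.2
  have hMM : M * M = z • 1 := by
    rw [← hz, pow_two]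
    rfl
  have hff : ∀ v, Matrix.toLin' M (Matrix.toLin' M v) = z • v := by
    intro v
    have h1 : Matrix.toLin' M (Matrix.toLin' M v) = Matrix.toLin' (M * M) v := by
      rw [Matrix.toLin'_mul]
      rfl
    rw [h1, hMM]
    simp
  have hB : (Cfsg.Agent.H99.sympBilin d F).IsAlt := Cfsg.Agent.H99.sympBilin_isAlt d
  have hpres := Cfsg.Agent.H99.sympBilin_preserved d M hMmem
  have hzz : z * z = 1 := Cfsg.Agent.H99.symp_scalar_sq d (by omega) M hMmem z hff
  have hz0 : z ≠ 0 := by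
    rintro rfl
    simp at hzz
  have hndtop : ∀ s ∈ (⊤ : Submodule F (Fin d ⊕ Fin d → F)), s ≠ 0 →
      ∃ w ∈ (⊤ : Submodule F (Fin d ⊕ Fin d → F)), Cfsg.Agent.H99.sympBilin d F s w ≠ 0 := by
    intro s _ hs
    obtain ⟨w, hw⟩ := Cfsg.Agent.H99.sympBilin_nondeg d s hs
    exact ⟨w, Submodule.mem_top, hw⟩
  obtain ⟨I, _, _, e, f, τ, hrel, hexp⟩ :=
    Cfsg.Agent.H99.exists_hyp_family (Cfsg.Agent.H99.sympBilin d F) hB (Matrix.toLin' M) hpres
      z hz0 hff (fun _ _ _ _ => True)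
      (fun S hS hxS hnd => Cfsg.Agent.H99.local_plane (Cfsg.Agent.H99.sympBilin d F) hB
        (Matrix.toLin' M) hpres z hff S hS hxS hnd) _ ⊤ rfl
      (fun _ _ => Submodule.mem_top) hndtop
  obtain ⟨a', ha'⟩ := hae
  have hcardI : Fintype.card I = a' * t := by
    have h1 := Cfsg.Agent.H99.hyp_card (Cfsg.Agent.H99.sympBilin d F) hB e f hrel.2.2.2.1
      hrel.2.2.2.2.1 hrel.2.2.2.2.2.1 (fun s => hexp s Submodule.mem_top)
    rw [Module.finrank_fintype_fun_eq_card, Fintype.card_sum, Fintype.card_fin] at h1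
    have h2 : 2 * Fintype.card I = 2 * (a' * t) := by
      rw [ha'] at hat
      linarith
    omega
  obtain ⟨D, σ, h1, h2, h3, h4, h5, h6⟩ :=
    Cfsg.Agent.H99.nondeg_decomposition_of_hyp (Cfsg.Agent.H99.sympBilin d F) hB
      (Matrix.toLin' M) z hz0 hff e f τ hrel (fun s => hexp s Submodule.mem_top) a' t hcardI
  refine ⟨D, ⟨⟨ht, by omega, fun j => by rw [h1, ha']; ring, h2, h3⟩, ?_, ?_⟩, σ, h6⟩
  · intro j u hu hu0
    obtain ⟨v, hv, hne⟩ := h4 j u hu hu0
    exact ⟨v, hv, by rwa [← Cfsg.Agent.H99.sympBilin_apply]⟩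
  · intro j j' hjj' u hu v hv
    rw [← Cfsg.Agent.H99.sympBilin_apply]
    exact h5 j j' hjj' u hu v hv

end Cfsg.Agent.S5960
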