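import Cfsg.Statements.S5961
import Cfsg.Agent.H42.SpdMain
import Cfsg.Agent.H42.SpdEx
import Cfsg.Agent.H16.SpdBlock
import Cfsg.Agent.H67.SpdRel
import Cfsg.Agent.H77.SpdHyp
import Cfsg.Agent.H77.SpdFix
import Cfsg.Agent.H77.SpdIndep
import Cfsg.Agent.H77.SpdCompl
import Cfsg.Agent.H77.SpdWitt
import Cfsg.Agent.H18.SpdCyc
import Cfsg.Agent.H18.SpdKsum
import Cfsg.Agent.H18.SpdSum
import Cfsg.Agent.H24.SpdModc
import Cfsg.Agent.H24.SpdSub
import Cfsg.Agent.H51.SpdDecomp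
import Cfsg.Agent.H98.SpdCnt

set_option autoImplicit false
open scoped MatrixGroups
open Cfsg

namespace Cfsg.Agent.S5961

/-- Elements of odd prime order of PSp_n(q) and imprimitive subgroups. Here `T = PSp_n(q)`, `n = 2d ≥ 4`, `(n, q) ≠ (4, 2)`, realised through the symplectic matrices over the field `F` with `q` elements and the standard alternating form; `n = a·t` with `a` even and `t ≥ 2`, and Ω is the (nonempty) set of orthogonal decompositions of `F^n` into `t` nondegenerate subspaces of dimension `a` (unordered; counted as ordered ones divided by `t!`), whose stabilizers are the imprimitive subgroups of type Sp_a(q) ≀ S_t (maximality is not assumed); an element of `T` of prime order `r` (a symplectic matrix `x` with `x^r` scalar, `x` not scalar) fixes a point of Ω when it permutes the summands of some such decomposition. Let `r ≠ p` be an odd prime dividing the number of such decompositions, let `i` be the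 multiplicative order of `q` modulo `r`, `c = i` if `i` is even and `c = 2i` if `i` is odd, and write `k = n mod c`, `ℓ = a mod c`. Then every element of `T` of order `r` stabilizes such a decomposition if and only if `c ≤ a` and `k = t·ℓ`. -/
theorem result {F : Type*} [Field F] [Fintype F] {p : ℕ} [Fact p.Prime] [CharP F p] {q : ℕ} (hq : Fintype.card F = q)
    (d : ℕ) (hd : 2 ≤ d) (hT : (d, q) ≠ (2, 2))
    (a t : ℕ) (hat : 2 * d = a * t) (ha : 2 ≤ a) (hae : Even a) (ht : 2 ≤ t)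
    (r : ℕ) [Fact r.Prime] (hr2 : r ≠ 2) (hrp : r ≠ p) (hΩ : r ∣ Nat.card {D : Fin t → Submodule F (Fin d ⊕ Fin d → F) // (Cfsg.Geo.IsMDecomposition a D ∧ (∀ j, ∀ u ∈ D j, u ≠ 0 → ∃ v ∈ D j, Cfsg.sympForm d F u v ≠ 0) ∧
          (∀ j j', j ≠ j' → ∀ u ∈ D j, ∀ v ∈ D j', Cfsg.sympForm d F u v = 0))} / Nat.factorial t)
    (i c : ℕ) (hi : i = orderOf (q : ZMod r)) (hc : c = if Even i then i else 2 * i) :
    (∀ x : ↥(Matrix.symplecticGroup (Fin d) F),
      (∃ z : F, ((x ^ r : ↥(Matrix.symplecticGroup (Fin d) F)) : Matrix (Fin d ⊕ Fin d) (Fin d ⊕ Fin d) F) = z • (1 : Matrix (Fin d ⊕ Fin d) (Fin d ⊕ Fin d) F)) →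
      (∀ z : F, (x : Matrix (Fin d ⊕ Fin d) (Fin d ⊕ Fin d) F) ≠ z • (1 : Matrix (Fin d ⊕ Fin d) (Fin d ⊕ Fin d) F)) →
      ∃ D : Fin t → Submodule F (Fin d ⊕ Fin d → F), (Cfsg.Geo.IsMDecomposition a D ∧ (∀ j, ∀ u ∈ D j, u ≠ 0 → ∃ v ∈ D j, Cfsg.sympForm d F u v ≠ 0) ∧
          (∀ j j', j ≠ j' → ∀ u ∈ D j, ∀ v ∈ D j', Cfsg.sympForm d F u v = 0)) ∧
        ∃ σ : Equiv.Perm (Fin t), ∀ j, (D j).map (Matrix.toLin' (x : Matrix (Fin d ⊕ Fin d) (Fin d ⊕ Fin d) F)) = D (σ j)) ↔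
    (c ≤ a ∧ (2 * d) % c = t * (a % c)) := by
  subst hq
  subst hi
  have hcc : c = Cfsg.Agent.H42.Spd.cc F r := by
    rw [hc]
    rfl
  rw [hcc]
  have hBlockRel := Cfsg.Agent.H67.Spd.blockRel Cfsg.Agent.H16.Spd.block
  have hModc := Cfsg.Agent.H24.Spd.modc hBlockRel Cfsg.Agent.H77.Spd.fix Cfsg.Agent.H77.Spd.compl
  have hSub := Cfsg.Agent.H24.Spd.sub hBlockRel Cfsg.Agent.H77.Spd.hyp Cfsg.Agent.H77.Spd.fix
    Cfsg.Agent.H77.Spd.compl Cfsg.Agent.H18.Spd.sum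
  have hDecomp := Cfsg.Agent.H51.Spd.decomp hSub hModc Cfsg.Agent.H77.Spd.compl
  exact Cfsg.Agent.H42.Spd.spd_main hModc hDecomp Cfsg.Agent.H77.Spd.indep Cfsg.Agent.H18.Spd.cyc
    Cfsg.Agent.H18.Spd.ksum Cfsg.Agent.H42.Spd.ex
    (Cfsg.Agent.H98.Spd.cnt Cfsg.Agent.H77.Spd.witt) d hd a t hat ha hae ht r hr2 hrp hΩ

end Cfsg.Agent.S5961
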