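import Cfsg.Statements.S5962
import Cfsg.Agent.H99.SympBasic

set_option autoImplicit false
open scoped MatrixGroups
open Cfsg

namespace Cfsg.Agent.S5962

/-- Involutions of PSp_n(q), q odd, and the subgroups GL_{n/2}(q).2. Here `T = PSp_n(q)`, `n = 2d ≥ 4`, `q` odd, realised through the symplectic matrices over the field `F` with `q` elements; Ω is the set of unordered pairs `{U, W}` of complementary totally isotropic `d`-spaces (`F^n = U ⊕ W`), whose stabilizers are the subgroups of type GL_d(q).2 (maximal except in some small cases; maximality is not assumed); an element of `T` of prime order `r` (a symplectic matrix `x` with `x^r` scalar, `x` not scalar) fixes such a pair when it fixes or interchanges `U` and `W`. If the number of such pairs is even, every involution of `T` fixes one of them (the action is 2-elusive). -/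
theorem result {F : Type*} [Field F] [Fintype F] {p : ℕ} [Fact p.Prime] [CharP F p] {q : ℕ} (hq : Fintype.card F = q)
    (d : ℕ) (hd : 2 ≤ d) (hT : (d, q) ≠ (2, 2)) (hodd : Odd q)
    (hΩ : 2 ∣ Nat.card {P : Submodule F (Fin d ⊕ Fin d → F) × Submodule F (Fin d ⊕ Fin d → F) // IsCompl P.1 P.2 ∧ (∀ u ∈ P.1, ∀ v ∈ P.1, Cfsg.sympForm d F u v = 0) ∧ (∀ u ∈ P.2, ∀ v ∈ P.2, Cfsg.sympForm d F u v = 0)} / 2)
    (x : ↥(Matrix.symplecticGroup (Fin d) F))
    (hx1 : ∃ z : F, ((x ^ 2 : ↥(Matrix.symplecticGroup (Fin d) F)) : Matrix (Fin d ⊕ Fin d) (Fin d ⊕ Fin d) F) = z • (1 : Matrix (Fin d ⊕ Fin d) (Fin d ⊕ Fin d) F))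
    (hx2 : ∀ z : F, (x : Matrix (Fin d ⊕ Fin d) (Fin d ⊕ Fin d) F) ≠ z • (1 : Matrix (Fin d ⊕ Fin d) (Fin d ⊕ Fin d) F)) :
    ∃ U W : Submodule F (Fin d ⊕ Fin d → F), IsCompl U W ∧ (∀ u ∈ U, ∀ v ∈ U, Cfsg.sympForm d F u v = 0) ∧ (∀ u ∈ W, ∀ v ∈ W, Cfsg.sympForm d F u v = 0) ∧
        ((U.map (Matrix.toLin' (x : Matrix (Fin d ⊕ Fin d) (Fin d ⊕ Fin d) F)) = U ∧ W.map (Matrix.toLin' (x : Matrix (Fin d ⊕ Fin d) (Fin d ⊕ Fin d) F)) = W) ∨
         (U.map (Matrix.toLin' (x : Matrix (Fin d ⊕ Fin d) (Fin d ⊕ Fin d) F)) = W ∧ W.map (Matrix.toLin' (x : Matrix (Fin d ⊕ Fin d) (Fin d ⊕ Fin d) F)) = U)) := by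
  classical
  obtain ⟨z, hz⟩ := hx1
  set M : Matrix (Fin d ⊕ Fin d) (Fin d ⊕ Fin d) F :=
    (x : Matrix (Fin d ⊕ Fin d) (Fin d ⊕ Fin d) F) with hM
  have hMmem : M ∈ Matrix.symplecticGroup (Fin d) F := x.2
  have hMM : M * M = z • 1 := by
    rw [← hz, pow_two]
    rfl
  have hff : ∀ v, Matrix.toLin' M (Matrix.toLin' M v) = z • v := by
    intro v
    have h1 : Matrix.toLin' M (Matrix.toLin' M v) = Matrix.toLin' (M * M) v := by
      rw [Matrix.toLin'_mul]
      rfl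
    rw [h1, hMM]
    simp
  have hB : (Cfsg.Agent.H99.sympBilin d F).IsAlt := Cfsg.Agent.H99.sympBilin_isAlt d
  have hpres := Cfsg.Agent.H99.sympBilin_preserved d M hMmem
  have hzz : z * z = 1 := Cfsg.Agent.H99.symp_scalar_sq d (by omega) M hMmem z hff
  have h2 : (2 : F) ≠ 0 := Cfsg.Agent.H99.two_ne_zero_of_odd_card (by rw [hq]; exact hodd)
  have hndtop : ∀ s ∈ (⊤ : Submodule F (Fin d ⊕ Fin d → F)), s ≠ 0 →
      ∃ w ∈ (⊤ : Submodule F (Fin d ⊕ Fin d → F)), Cfsg.Agent.H99.sympBilin d F s w ≠ 0 := by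
    intro s _ hs
    obtain ⟨w, hw⟩ := Cfsg.Agent.H99.sympBilin_nondeg d s hs
    exact ⟨w, Submodule.mem_top, hw⟩
  rcases mul_self_eq_one_iff.mp hzz with hz1 | hz1
  · have hff' : ∀ v, Matrix.toLin' M (Matrix.toLin' M v) = v := fun v => by
      rw [hff, hz1, one_smul]
    obtain ⟨I, _, _, e, f, τ, ⟨hτ, -, -, hee, hff2, hef, -, -, hr⟩, hexp⟩ :=
      Cfsg.Agent.H99.exists_hyp_family (Cfsg.Agent.H99.sympBilin d F) hB (Matrix.toLin' M) hpres
        z (by rw [hz1]; exact one_ne_zero) hff (Cfsg.Agent.H99.relFixed (Matrix.toLin' M))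
        (fun S hS hxS hnd => Cfsg.Agent.H99.local_fixed (Cfsg.Agent.H99.sympBilin d F) hB
          (Matrix.toLin' M) hpres h2 hff' S hS hxS hnd) _ ⊤ rfl
        (fun _ _ => Submodule.mem_top) hndtop
    obtain ⟨hcompl, hU, hW⟩ := Cfsg.Agent.H99.lagrangians_of_hyp (Cfsg.Agent.H99.sympBilin d F)
      e f hee hff2 (fun s => hexp s Submodule.mem_top)
    refine ⟨Submodule.span F (Set.range e), Submodule.span F (Set.range f), hcompl, ?_, ?_,
      Or.inl ⟨?_, ?_⟩⟩
    · intro u hu v hv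
      rw [← Cfsg.Agent.H99.sympBilin_apply]
      exact hU u hu v hv
    · intro u hu v hv
      rw [← Cfsg.Agent.H99.sympBilin_apply]
      exact hW u hu v hv
    · apply Cfsg.Agent.H99.map_eq_of_map_le (Matrix.toLin' M) z (by rw [hz1]; exact one_ne_zero)
        hff
      · rw [Submodule.map_span, Submodule.span_le]
        rintro _ ⟨_, ⟨i, rfl⟩, rfl⟩
        obtain ⟨c, c', h1, h1'⟩ := hr i
        rw [h1]
        exact Submodule.smul_mem _ _ (Submodule.subset_span ⟨τ i, rfl⟩)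
      · rw [Submodule.map_span, Submodule.span_le]
        rintro _ ⟨_, ⟨i, rfl⟩, rfl⟩
        obtain ⟨c, c', h1, h1'⟩ := hr i
        rw [h1]
        exact Submodule.smul_mem _ _ (Submodule.subset_span ⟨τ i, rfl⟩)
    · apply Cfsg.Agent.H99.map_eq_of_map_le (Matrix.toLin' M) z (by rw [hz1]; exact one_ne_zero)
        hff
      · rw [Submodule.map_span, Submodule.span_le]
        rintro _ ⟨_, ⟨i, rfl⟩, rfl⟩
        obtain ⟨c, c', h1, h1'⟩ := hr i
        rw [h1']
        exact Submodule.smul_mem _ _ (Submodule.subset_span ⟨τ i, rfl⟩)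
      · rw [Submodule.map_span, Submodule.span_le]
        rintro _ ⟨_, ⟨i, rfl⟩, rfl⟩
        obtain ⟨c, c', h1, h1'⟩ := hr i
        rw [h1']
        exact Submodule.smul_mem _ _ (Submodule.subset_span ⟨τ i, rfl⟩)
  · have hff' : ∀ v, Matrix.toLin' M (Matrix.toLin' M v) = (-1 : F) • v := fun v => by
      rw [hff, hz1]
    obtain ⟨I, _, _, e, f, τ, ⟨hτ, -, -, hee, hff2, hef, -, -, hr⟩, hexp⟩ :=
      Cfsg.Agent.H99.exists_hyp_family (Cfsg.Agent.H99.sympBilin d F) hB (Matrix.toLin' M) hpres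
        z (by rw [hz1]; exact neg_ne_zero.mpr one_ne_zero) hff
        (Cfsg.Agent.H99.relSwap (Matrix.toLin' M))
        (fun S hS hxS hnd => Cfsg.Agent.H99.local_swap (Cfsg.Agent.H99.sympBilin d F) hB
          (Matrix.toLin' M) hpres h2 hff' S hS hxS hnd) _ ⊤ rfl
        (fun _ _ => Submodule.mem_top) hndtop
    obtain ⟨hcompl, hU, hW⟩ := Cfsg.Agent.H99.lagrangians_of_hyp (Cfsg.Agent.H99.sympBilin d F)
      e f hee hff2 (fun s => hexp s Submodule.mem_top)
    have hUW : (Submodule.span F (Set.range e)).map (Matrix.toLin' M) ≤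
        Submodule.span F (Set.range f) := by
      rw [Submodule.map_span, Submodule.span_le]
      rintro _ ⟨_, ⟨i, rfl⟩, rfl⟩
      obtain ⟨c, c', h1, h1'⟩ := hr i
      rw [h1]
      exact Submodule.smul_mem _ _ (Submodule.subset_span ⟨τ i, rfl⟩)
    have hWU : (Submodule.span F (Set.range f)).map (Matrix.toLin' M) ≤
        Submodule.span F (Set.range e) := by
      rw [Submodule.map_span, Submodule.span_le]
      rintro _ ⟨_, ⟨i, rfl⟩, rfl⟩
      obtain ⟨c, c', h1, h1'⟩ := hr i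
      rw [h1']
      exact Submodule.smul_mem _ _ (Submodule.subset_span ⟨τ i, rfl⟩)
    have hz0 : z ≠ 0 := by rw [hz1]; exact neg_ne_zero.mpr one_ne_zero
    refine ⟨Submodule.span F (Set.range e), Submodule.span F (Set.range f), hcompl, ?_, ?_,
      Or.inr ⟨?_, ?_⟩⟩
    · intro u hu v hv
      rw [← Cfsg.Agent.H99.sympBilin_apply]
      exact hU u hu v hv
    · intro u hu v hv
      rw [← Cfsg.Agent.H99.sympBilin_apply]
      exact hW u hu v hv
    · exact Cfsg.Agent.H99.map_eq_of_map_le (Matrix.toLin' M) z hz0 hff _ _ hUW hWU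
    · exact Cfsg.Agent.H99.map_eq_of_map_le (Matrix.toLin' M) z hz0 hff _ _ hWU hUW

end Cfsg.Agent.S5962
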