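import Cfsg.Statements.S5963
import Cfsg.Agent.H48.SpElusive

set_option autoImplicit false
open scoped MatrixGroups
open Cfsg

namespace Cfsg.Agent.S5963

/-- Derangements of odd prime order of PSp_n(q), q odd, on pairs of complementary totally isotropic subspaces. Here `T = PSp_n(q)`, `n = 2d ≥ 4`, `q` odd, realised through the symplectic matrices over the field `F` with `q` elements; Ω is the set of unordered pairs `{U, W}` of complementary totally isotropic `d`-spaces (`F^n = U ⊕ W`), whose stabilizers are the subgroups of type GL_d(q).2 (maximal except in some small cases; maximality is not assumed); an element of `T` of prime order `r` (a symplectic matrix `x` with `x^r` scalar, `x` not scalar) fixes such a pair when it fixes or interchanges `U` and `W`. For every odd prime `r ≠ p` dividing the number of such pairs, some element of `T` of order `r` fixes no such pair (the action is never `r`-elusive for odd `r ≠ p`). -/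
theorem result {F : Type*} [Field F] [Fintype F] {p : ℕ} [Fact p.Prime] [CharP F p] {q : ℕ} (hq : Fintype.card F = q)
    (d : ℕ) (hd : 2 ≤ d) (hT : (d, q) ≠ (2, 2)) (hodd : Odd q)
    (r : ℕ) [Fact r.Prime] (hr2 : r ≠ 2) (hrp : r ≠ p) (hΩ : r ∣ Nat.card {P : Submodule F (Fin d ⊕ Fin d → F) × Submodule F (Fin d ⊕ Fin d → F) // IsCompl P.1 P.2 ∧ (∀ u ∈ P.1, ∀ v ∈ P.1, Cfsg.sympForm d F u v = 0) ∧ (∀ u ∈ P.2, ∀ v ∈ P.2, Cfsg.sympForm d F u v = 0)} / 2) :
    ∃ x : ↥(Matrix.symplecticGroup (Fin d) F),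
      (∃ z : F, ((x ^ r : ↥(Matrix.symplecticGroup (Fin d) F)) : Matrix (Fin d ⊕ Fin d) (Fin d ⊕ Fin d) F) = z • (1 : Matrix (Fin d ⊕ Fin d) (Fin d ⊕ Fin d) F)) ∧
      (∀ z : F, (x : Matrix (Fin d ⊕ Fin d) (Fin d ⊕ Fin d) F) ≠ z • (1 : Matrix (Fin d ⊕ Fin d) (Fin d ⊕ Fin d) F)) ∧
      ¬ (∃ U W : Submodule F (Fin d ⊕ Fin d → F), IsCompl U W ∧ (∀ u ∈ U, ∀ v ∈ U, Cfsg.sympForm d F u v = 0) ∧ (∀ u ∈ W, ∀ v ∈ W, Cfsg.sympForm d F u v = 0) ∧
        ((U.map (Matrix.toLin' (x : Matrix (Fin d ⊕ Fin d) (Fin d ⊕ Fin d) F)) = U ∧ W.map (Matrix.toLin' (x : Matrix (Fin d ⊕ Fin d) (Fin d ⊕ Fin d) F)) = W) ∨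
         (U.map (Matrix.toLin' (x : Matrix (Fin d ⊕ Fin d) (Fin d ⊕ Fin d) F)) = W ∧ W.map (Matrix.toLin' (x : Matrix (Fin d ⊕ Fin d) (Fin d ⊕ Fin d) F)) = U))) := by
  classical
  subst hq
  have hr : r.Prime := Fact.out
  have hN := Cfsg.Agent.H48.card_lagPairs_eq (F := F) d
  have hΩ' : r ∣ Nat.card (Cfsg.Agent.H48.LagPairs d F) / 2 := hΩ
  rw [hN] at hΩ'
  have h2 : 2 ∣ (∏ i ∈ Finset.range d, Fintype.card F ^ (d - i)) *
      ∏ i ∈ Finset.range d, (Fintype.card F ^ (i + 1) + 1) := by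
    apply Dvd.dvd.mul_left
    refine dvd_trans ?_ (Finset.dvd_prod_of_mem _ (Finset.mem_range.mpr (by omega : 0 < d)))
    have h3 : Odd (Fintype.card F ^ (0 + 1)) := hodd.pow
    exact even_iff_two_dvd.mp h3.add_one
  have hrN : r ∣ (∏ i ∈ Finset.range d, Fintype.card F ^ (d - i)) *
      ∏ i ∈ Finset.range d, (Fintype.card F ^ (i + 1) + 1) := by
    obtain ⟨c, hc⟩ := h2
    rw [hc, Nat.mul_div_cancel_left c (by norm_num)] at hΩ'
    rw [hc]
    exact hΩ'.mul_left 2
  have hrq : ¬ r ∣ Fintype.card F := Cfsg.Agent.H48.not_dvd_card_of_ne p r hr hrp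
  have hx0 : ((Fintype.card F : ℕ) : ZMod r) ≠ 0 := by
    intro h0
    exact hrq ((ZMod.natCast_eq_zero_iff _ _).mp h0)
  obtain ⟨j, hj, hjd⟩ : ∃ j, j < d ∧ r ∣ Fintype.card F ^ (j + 1) + 1 := by
    rcases (Nat.Prime.dvd_mul hr).mp hrN with h | h
    · exfalso
      obtain ⟨i, -, hi⟩ := (Prime.dvd_finset_prod_iff hr.prime _).mp h
      exact hrq (hr.dvd_of_dvd_pow hi)
    · obtain ⟨j, hj, hjd⟩ := (Prime.dvd_finset_prod_iff hr.prime _).mp h
      exact ⟨j, Finset.mem_range.mp hj, hjd⟩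
  have hpow : ((Fintype.card F : ℕ) : ZMod r) ^ (j + 1) = -1 := by
    have h := (ZMod.natCast_eq_zero_iff _ r).mpr hjd
    push_cast at h
    linear_combination h
  obtain ⟨e, he⟩ : ∃ e, e = orderOf ((Fintype.card F : ℕ) : ZMod r) := ⟨_, rfl⟩
  have he_even : Even e := by
    by_contra hodd'
    rw [Nat.not_even_iff_odd] at hodd'
    exact Cfsg.Agent.H48.pow_ne_neg_one_of_odd_order r hr2 _ e he hodd' (j + 1) hpow
  have he_le : e ≤ 2 * d := by
    have h1 : ((Fintype.card F : ℕ) : ZMod r) ^ (2 * (j + 1)) = 1 := by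
      rw [mul_comm, pow_mul, hpow]
      simp
    have h3 := orderOf_dvd_of_pow_eq_one h1
    rw [← he] at h3
    have := Nat.le_of_dvd (by omega) h3
    omega
  obtain ⟨t, ht⟩ : ∃ t, t * e = r - 1 := by
    have h1 := ZMod.orderOf_dvd_card_sub_one hx0
    rw [← he] at h1
    obtain ⟨t, ht⟩ := h1
    exact ⟨t, by rw [ht, mul_comm]⟩
  obtain ⟨Φ, hcard, hΦ, hdeg, hLΦ, hprod, hi0, hdvd, hmem⟩ :=
    Cfsg.Agent.H48.exists_cyclo_factors (F := F) rfl r e t hr hrp he ht
  obtain ⟨star, hstar, hinv, hev, -⟩ :=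
    Cfsg.Agent.H48.exists_star_cyclo rfl r e hr hr2 he hi0 Φ hΦ hdeg hLΦ hdvd hmem
  have hid := hev he_even
  have he2 : 2 ≤ e := by
    obtain ⟨s, hs⟩ := he_even
    omega
  have ht0 : 0 < t := by
    rcases Nat.eq_zero_or_pos t with h | h
    · rw [h, zero_mul] at ht
      have := hr.two_le
      omega
    · exact h
  obtain ⟨P₀, hP₀⟩ : Φ.Nonempty := Finset.card_pos.mp (by rw [hcard]; exact ht0)
  obtain ⟨a, ha⟩ : ∃ a : Φ → ℕ, a = fun P => if P = ⟨P₀, hP₀⟩ then 1 else 0 := ⟨_, rfl⟩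
  have hsum : ∑ P, a P = 1 := by
    rw [ha]
    simp
  have ha0 : a ≠ 0 := by
    intro h
    have h1 := congrFun h ⟨P₀, hP₀⟩
    rw [ha] at h1
    simp at h1
  obtain ⟨x, hxo, hxc⟩ := Cfsg.Agent.H48.exists_sp_tuple p d r e hr hrp Φ hΦ hdeg hLΦ hprod hi0
    star hstar hinv (fun _ _ => he_even.mul_right _) a (fun P => by rw [hid P]) ha0
    (by rw [hsum, mul_one]; exact he_le)
  have hxc' : (x : Matrix (Fin d ⊕ Fin d) (Fin d ⊕ Fin d) F).charpoly
      = (Polynomial.X - 1) ^ (2 * d - e) * P₀ := by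
    rw [hxc, hsum, mul_one]
    unfold Cfsg.Agent.H48.facPoly
    congr 1
    rw [Finset.prod_eq_single (⟨P₀, hP₀⟩ : Φ)]
    · rw [ha]
      simp
    · intro b _ hb
      rw [ha]
      simp [hb]
    · intro h
      exact absurd (Finset.mem_univ _) h
  have hPirr : Irreducible P₀ := (hΦ P₀ hP₀).1
  have hPdeg : P₀.natDegree = e := hdeg P₀ hP₀
  have hPd : P₀ ∣ Polynomial.X ^ r - 1 := by
    rw [← hprod]
    exact (Finset.dvd_prod_of_mem (fun P : Polynomial F => P) hP₀).trans (dvd_mul_left _ _)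
  have hPrev : P₀ ∣ P₀.reverse :=
    Cfsg.Agent.H48.dvd_reverse_of_even rfl r e P₀ hPirr hPd
      (Cfsg.Agent.H48.pow_half_order r _ e he hi0 he_even)
  have hP1 : ¬ P₀ ∣ (Polynomial.X - 1) := by
    intro h
    have h1 := Polynomial.natDegree_le_of_dvd h (Polynomial.X_sub_C_ne_zero (1 : F))
    rw [hPdeg] at h1
    have h2 : (Polynomial.X - 1 : Polynomial F).natDegree = 1 := by
      simpa using Polynomial.natDegree_X_sub_C (1 : F)
    rw [h2] at h1
    omega
  have hxr : (x : Matrix (Fin d ⊕ Fin d) (Fin d ⊕ Fin d) F) ^ r = 1 := by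
    have h1 := pow_orderOf_eq_one x
    rw [hxo] at h1
    exact congrArg Subtype.val h1
  refine ⟨x, ⟨1, ?_⟩, ?_, ?_⟩
  · rw [one_smul]
    exact hxr
  · intro z hz
    have hch : (z • (1 : Matrix (Fin d ⊕ Fin d) (Fin d ⊕ Fin d) F)).charpoly
        = (Polynomial.X - Polynomial.C z) ^ Fintype.card (Fin d ⊕ Fin d) := by
      rw [Matrix.smul_one_eq_diagonal, Matrix.charpoly_diagonal]
      simp
    rw [← hz, hxc'] at hch
    have h1 : P₀ ∣ (Polynomial.X - Polynomial.C z) ^ Fintype.card (Fin d ⊕ Fin d) :=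
      ⟨(Polynomial.X - 1) ^ (2 * d - e), by rw [← hch, mul_comm]⟩
    have h2 := hPirr.prime.dvd_of_dvd_pow h1
    have h3 := Polynomial.natDegree_le_of_dvd h2 (Polynomial.X_sub_C_ne_zero z)
    rw [hPdeg, Polynomial.natDegree_X_sub_C] at h3
    omega
  · rintro ⟨U, W, hc, hU, hW, ⟨hxU, hxW⟩ | ⟨hxU, hxW⟩⟩
    · exact Cfsg.Agent.H48.no_lagr_pair_of_charpoly d x P₀ hPirr hPrev (2 * d - e) hxc' hP1 U W hc
        hU hW hxU hxW
    · have key : ∀ n : ℕ, U.map
          ((Matrix.toLin' (x : Matrix (Fin d ⊕ Fin d) (Fin d ⊕ Fin d) F)) ^ n)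
            = if Even n then U else W := by
        intro n
        induction n with
        | zero =>
          rw [pow_zero, if_pos (by decide : Even 0)]
          exact Submodule.map_id U
        | succ n ih =>
          rw [pow_succ', Module.End.mul_eq_comp, Submodule.map_comp, ih]
          by_cases hn : Even n
          · rw [if_pos hn, if_neg (by rw [Nat.even_add_one]; exact not_not.mpr hn)]
            exact hxU
          · rw [if_neg hn, if_pos (by rw [Nat.even_add_one]; exact hn)]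
            exact hxW
      have h1 := key r
      have hrodd : ¬ Even r := by
        rw [Nat.not_even_iff_odd]
        exact hr.eq_two_or_odd'.resolve_left hr2
      rw [if_neg hrodd, ← Matrix.toLin'_pow, hxr, Matrix.toLin'_one, Submodule.map_id] at h1
      rw [h1] at hc
      have h3 : W = ⊥ := by
        have := hc.inf_eq_bot
        rwa [inf_idem] at this
      have h4 : W = ⊤ := by
        have := hc.sup_eq_top
        rwa [sup_idem] at this
      have : Nonempty (Fin d ⊕ Fin d) := ⟨Sum.inl ⟨0, by omega⟩⟩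
      rw [h3] at h4
      exact bot_ne_top h4

end Cfsg.Agent.S5963
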