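import Cfsg.Statements.S5964
import Cfsg.Agent.H99.Subfield
import Cfsg.Agent.H99.SympBasic

set_option autoImplicit false
open scoped MatrixGroups
open Cfsg

namespace Cfsg.Agent.S5964

/-- Involutions of PSL_n(q) and subfield subgroups. Here `T = PSL_n(F)` for a field `F` with `q = p^f` elements (`n ≥ 2`, `(n, q) ≠ (2, 2), (2, 3)`), `F₀` is the subfield with `q₀` elements where `q = q₀^k` for a prime `k`, and `H` is the subgroup of matrices of determinant 1 lying in the subfield group of `F₀` (invertible matrices over `F₀` times scalars) — a maximal subgroup of type GL_n(q₀) (the case `n = 2`, `q₀ = 2` is excluded); Ω is the set of `T`-conjugates of `H` (cosets of `H`), so an element of `T` of prime order `r` (a matrix `x` of determinant 1 with `x^r` scalar, `x` not scalar) fixes a point of Ω when some conjugate of `x` by a matrix of determinant 1 lies in `H`. Suppose the index of `H` is even. Then every involution of `T` is conjugate in `T` into `H` if and only if either `q` is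 even, or `k = 2` and `(n)_2 ≤ (q − 1)_2`. (For `q` odd and `k` odd the index of `H` is odd, so that case does not arise.) -/
theorem result {F : Type*} [Field F] [Fintype F] {p : ℕ} [Fact p.Prime] [CharP F p] {q : ℕ} (hq : Fintype.card F = q)
    (n : ℕ) (hn : 2 ≤ n) (hT : (n, q) ≠ (2, 2) ∧ (n, q) ≠ (2, 3))
    (F₀ : Subfield F) (k q₀ : ℕ) (hk : k.Prime) (hF₀ : Nat.card ↥F₀ = q₀) (hqk : q = q₀ ^ k) (hC5 : ¬ (n = 2 ∧ q₀ = 2)) (hΩ : 2 ∣ ((Cfsg.Geo.subfieldSubgroup F₀ 1).comap (Matrix.SpecialLinearGroup.toGL : Matrix.SpecialLinearGroup (Fin n) F →* GL (Fin n) F)).index) :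
    (∀ x : Matrix.SpecialLinearGroup (Fin n) F,
      (∃ z : F, ((x ^ 2 : Matrix.SpecialLinearGroup (Fin n) F) : Matrix (Fin n) (Fin n) F) = z • (1 : Matrix (Fin n) (Fin n) F)) →
      (∀ z : F, (x : Matrix (Fin n) (Fin n) F) ≠ z • (1 : Matrix (Fin n) (Fin n) F)) →
      ∃ P : Matrix.SpecialLinearGroup (Fin n) F, P⁻¹ * x * P ∈ ((Cfsg.Geo.subfieldSubgroup F₀ 1).comap (Matrix.SpecialLinearGroup.toGL : Matrix.SpecialLinearGroup (Fin n) F →* GL (Fin n) F))) ↔
    (Odd q → (k = 2 ∧ padicValNat 2 n ≤ padicValNat 2 (q - 1))) := by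
  classical
  have hn0 : 0 < n := by omega
  constructor
  · intro hall hqodd
    have h2 : (2 : F) ≠ 0 := Cfsg.Agent.H99.two_ne_zero_of_odd_card (by rw [hq]; exact hqodd)
    have hk2 : k = 2 := by
      by_contra hk2
      have hkodd : Odd k := hk.eq_two_or_odd'.resolve_left hk2
      exact Cfsg.Agent.H99.subfield_index_odd hq F₀ hF₀ hqk hqodd hkodd hΩ
    refine ⟨hk2, ?_⟩
    by_contra hlt
    push Not at hlt
    have hne : Even n := even_iff_two_dvd.mpr (dvd_of_one_le_padicValNat (by omega))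
    obtain ⟨d, hd⟩ := hne
    rw [hd] at hlt
    obtain ⟨z, hz0, hzns, hzd⟩ := Cfsg.Agent.H99.exists_nonsquare_pow hq hqodd d hlt
    have hq₀odd : Odd q₀ := by
      rw [hqk, hk2] at hqodd
      by_contra h
      rw [Nat.not_odd_iff_even] at h
      exact (Nat.not_even_iff_odd.mpr hqodd) (Nat.even_pow.mpr ⟨h, by norm_num⟩)
    have hsq := Cfsg.Agent.H99.subfield_isSquare F₀ hF₀ (by rw [hq, hqk, hk2]) hq₀odd
    obtain ⟨x, hx1, hx2, hx3⟩ :=
      Cfsg.Agent.H99.subfield_derangement (n := n) F₀ d (by omega) z hzns hzd hsq (by omega)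
    obtain ⟨P, hP⟩ := hall x hx1 hx2
    exact hx3 P hP
  · intro hrhs x hx1 hx2
    obtain ⟨z, hz⟩ := hx1
    have hxz := Cfsg.Agent.H99.sl_sq_apply x z hz
    by_cases hqodd : Odd q
    · obtain ⟨hk2, hv⟩ := hrhs hqodd
      have h2 : (2 : F) ≠ 0 := Cfsg.Agent.H99.two_ne_zero_of_odd_card (by rw [hq]; exact hqodd)
      by_cases hsq : ∃ l : F, l * l = z
      · obtain ⟨l, hl⟩ := hsq
        have hl0 : l ≠ 0 := by
          rintro rfl
          rw [mul_zero] at hl
          exact Cfsg.Agent.H99.sq_scalar_ne_zero hn0 x z hxz hl.symm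
        rw [← hl] at hxz
        exact Cfsg.Agent.H99.subfield_conj_sq F₀ hn0 x h2 l hl0 hxz
      · exfalso
        push Not at hsq
        have hev : ∀ v : Fin n → F, v ≠ 0 → ∀ μ : F,
            Matrix.toLin' (x : Matrix (Fin n) (Fin n) F) v ≠ μ • v :=
          fun v hv0 μ hμ => hsq μ (Cfsg.Agent.H99.eigen_sq hxz hv0 hμ)
        obtain ⟨d, hd, hdet⟩ := Cfsg.Agent.H99.det_of_noeigen
          (Matrix.toLin' (x : Matrix (Fin n) (Fin n) F)) z hxz hev
        rw [LinearMap.det_toLin', x.det_coe] at hdet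
        rw [Module.finrank_fin_fun] at hd
        have h4 : 4 ∣ q - 1 := by
          rw [hqk, hk2] at hqodd ⊢
          have hq₀odd : Odd q₀ := by
            by_contra h
            rw [Nat.not_odd_iff_even] at h
            exact (Nat.not_even_iff_odd.mpr hqodd) (Nat.even_pow.mpr ⟨h, by norm_num⟩)
          obtain ⟨t, ht⟩ := hq₀odd
          refine ⟨t * (t + 1), ?_⟩
          have h5 : q₀ ^ 2 = 4 * (t * (t + 1)) + 1 := by rw [ht]; ring
          rw [h5]
          omega
        have h5 := Cfsg.Agent.H99.nonsquare_det_contra hq h2 h4 z hsq d (by omega) hdet.symm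
        rw [← hd] at h5
        omega
    · have hq2 : ringChar F = 2 := FiniteField.even_card_iff_char_two.mpr (by
        rw [hq]
        exact Nat.even_iff.mp (Nat.not_odd_iff_even.mp hqodd))
      exact Cfsg.Agent.H99.subfield_conj_char_two F₀ hn0 x hq2 z hxz

end Cfsg.Agent.S5964
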