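import Cfsg.Statements.S5966
import Cfsg.Agent.H48.SubfieldOrd3b

set_option autoImplicit false
open Cfsg

namespace Cfsg.Agent.S5966

open Cfsg.Agent.H48 Module Matrix

section Nec

variable {F : Type*} [Field F] [Fintype F] [CharP F 3]

/-- Necessity: in even dimension, if every element of `F₀` is a square in `F`, some element of
order 3 is not conjugate into the subfield subgroup by a matrix of determinant one. -/
theorem exists_not_conj (F₀ : Subfield F) {n m : ℕ} (hnm : m + m = n) (hm : 1 ≤ m)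
    (hsqF₀ : ∀ a : F₀, ∃ s : F, s * s = (a : F)) (ν' : F) (hν' : ¬ IsSquare ν') :
    ∃ x : Matrix.SpecialLinearGroup (Fin n) F,
      (∃ z : F, ((x ^ 3 : Matrix.SpecialLinearGroup (Fin n) F) : Matrix (Fin n) (Fin n) F)
        = z • (1 : Matrix (Fin n) (Fin n) F)) ∧
      (∀ z : F, (x : Matrix (Fin n) (Fin n) F) ≠ z • (1 : Matrix (Fin n) (Fin n) F)) ∧
      ¬ ∃ P : Matrix.SpecialLinearGroup (Fin n) F,
        P⁻¹ * x * P ∈ (Cfsg.Geo.subfieldSubgroup F₀ 1).comap
          (Matrix.SpecialLinearGroup.toGL : Matrix.SpecialLinearGroup (Fin n) F →* GL (Fin n) F) := by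
  classical
  haveI : Fact (Nat.Prime 3) := ⟨Nat.prime_three⟩
  have h2 : (2 : F) ≠ 0 := by
    intro h
    have h3 : ((2 : ℕ) : F) = 0 := by exact_mod_cast h
    rw [CharP.cast_eq_zero_iff F 3] at h3
    omega
  have hν'0 : ν' ≠ 0 := by
    rintro rfl
    exact hν' ⟨0, by simp⟩
  set φ : F₀ →+* F := F₀.subtype with hφ
  let σ : Fin m ⊕ Fin m ≃ Fin n := finSumFinEquiv.trans (finCongr hnm)
  set R : Matrix (Fin m ⊕ Fin m) (Fin m ⊕ Fin m) F ≃ₐ[F] Matrix (Fin n) (Fin n) F :=
    Matrix.reindexAlgEquiv F F σ with hR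
  set Nn : Matrix (Fin n) (Fin n) F := R (N2 m F) with hNn
  have hNn2 : Nn * Nn = 0 := by rw [hNn, ← map_mul, N2_mul_self, map_zero]
  have hNn0 : Nn ≠ 0 := by
    intro h
    have h1 : N2 m F = 0 := R.injective (by rw [← hNn, h, map_zero])
    have h3 := congrFun (congrFun h1 (Sum.inr ⟨0, hm⟩)) (Sum.inl ⟨0, hm⟩)
    simp [N2] at h3
  set U : Matrix (Fin n) (Fin n) F := 1 + Nn with hU
  have hU3 : U ^ 3 = 1 := by
    rw [hU, one_add_pow_char 3 n Nn, pow_succ, pow_two, hNn2, zero_mul, add_zero]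
  have hdetU : U.det = 1 := by
    have e1 : U = R (fromBlocks 1 0 1 1) := by
      rw [hU, hNn, ← map_one R, ← map_add]
      congr 1
      unfold N2
      rw [← fromBlocks_one, fromBlocks_add]
      simp
    rw [e1, hR, Matrix.det_reindexAlgEquiv, det_fromBlocks_zero₁₂, det_one, mul_one]
  let i₀ : Fin n := σ (Sum.inl ⟨0, hm⟩)
  set Gd : Matrix (Fin n) (Fin n) F := Matrix.diagonal (Function.update (fun _ => 1) i₀ ν')
    with hGd
  set Gdi : Matrix (Fin n) (Fin n) F := Matrix.diagonal (Function.update (fun _ => 1) i₀ ν'⁻¹)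
    with hGdi
  have hGG : Gd * Gdi = 1 := by
    rw [hGd, hGdi, Matrix.diagonal_mul_diagonal, ← Matrix.diagonal_one]
    congr 1
    funext i
    by_cases hi : i = i₀
    · rw [hi, Function.update_self, Function.update_self, mul_inv_cancel₀ hν'0]
    · rw [Function.update_of_ne hi, Function.update_of_ne hi, mul_one]
  have hGG' : Gdi * Gd = 1 := mul_eq_one_comm.mp hGG
  have hdetGd : Gd.det = ν' := by
    rw [hGd, Matrix.det_diagonal, Fintype.prod_eq_single i₀]
    · rw [Function.update_self]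
    · intro i hi
      rw [Function.update_of_ne hi]
  set X : Matrix (Fin n) (Fin n) F := Gd * U * Gdi with hX
  have hdetX : X.det = 1 := by
    rw [hX, Matrix.det_mul, Matrix.det_mul, hdetU, mul_one, ← Matrix.det_mul, hGG, Matrix.det_one]
  have hX3 : X ^ 3 = 1 := by
    have e : X ^ 3 = Gd * U ^ 3 * Gdi := by
      rw [pow_succ, pow_two, pow_succ, pow_two, hX]
      calc Gd * U * Gdi * (Gd * U * Gdi) * (Gd * U * Gdi)
          = Gd * U * (Gdi * Gd) * U * (Gdi * Gd) * U * Gdi := by simp only [mul_assoc]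
        _ = Gd * (U * U * U) * Gdi := by rw [hGG']; simp only [mul_assoc, mul_one]
    rw [e, hU3, mul_one, hGG]
  have hUX : U = Gdi * X * Gd := by
    rw [hX]
    calc U = (Gdi * Gd) * U * (Gdi * Gd) := by rw [hGG', one_mul, mul_one]
      _ = Gdi * (Gd * U * Gdi) * Gd := by simp only [mul_assoc]
  let x : Matrix.SpecialLinearGroup (Fin n) F := ⟨X, hdetX⟩
  refine ⟨x, ⟨1, ?_⟩, ?_, ?_⟩
  · rw [Matrix.SpecialLinearGroup.coe_pow, one_smul]
    exact hX3
  · intro z hz
    have hz' : X = z • 1 := hz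
    have hUz : U = z • 1 := by
      rw [hUX, hz', Matrix.mul_smul, Matrix.smul_mul, mul_one, hGG']
    have hNz : Nn = (z - 1) • 1 := by
      have : Nn = U - 1 := by rw [hU, add_sub_cancel_left]
      rw [this, hUz, sub_smul, one_smul]
    have h3 := hNn2
    rw [hNz, Matrix.smul_mul, Matrix.mul_smul, mul_one, smul_smul] at h3
    have h4 := congrFun (congrFun h3 i₀) i₀
    simp only [Matrix.smul_apply, Matrix.one_apply_eq, smul_eq_mul, mul_one,
      Matrix.zero_apply] at h4
    have h5 : z - 1 = 0 := mul_self_eq_zero.mp h4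
    apply hNn0
    rw [hNz, h5, zero_smul]
  · rintro ⟨P, hP⟩
    rw [Subgroup.mem_comap] at hP
    obtain ⟨c, M₀, hc0, hcM⟩ := Cfsg.Agent.H99.exists_smul_of_mem_subfield F₀ _ hP
    rw [Matrix.SpecialLinearGroup.coe_GL_coe_matrix, Matrix.SpecialLinearGroup.coe_mul,
      Matrix.SpecialLinearGroup.coe_mul] at hcM
    set Pm : Matrix (Fin n) (Fin n) F := (P : Matrix (Fin n) (Fin n) F) with hPm
    set Pim : Matrix (Fin n) (Fin n) F :=
      ((P⁻¹ : Matrix.SpecialLinearGroup (Fin n) F) : Matrix (Fin n) (Fin n) F) with hPim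
    have hPP : Pim * Pm = 1 := by
      rw [hPim, hPm, ← Matrix.SpecialLinearGroup.coe_mul, inv_mul_cancel,
        Matrix.SpecialLinearGroup.coe_one]
    have hPP' : Pm * Pim = 1 := mul_eq_one_comm.mp hPP
    have hdetPim : Pim.det = 1 := (P⁻¹).2
    have hxX : (x : Matrix (Fin n) (Fin n) F) = X := rfl
    rw [hxX] at hcM
    set Q : Matrix (Fin n) (Fin n) F := Pim * Gd with hQ
    set Qi : Matrix (Fin n) (Fin n) F := Gdi * Pm with hQi
    have hQQi : Q * Qi = 1 := by
      rw [hQ, hQi]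
      calc Pim * Gd * (Gdi * Pm) = Pim * (Gd * Gdi) * Pm := by simp only [mul_assoc]
        _ = 1 := by rw [hGG, mul_one, hPP]
    have hQiQ : Qi * Q = 1 := mul_eq_one_comm.mp hQQi
    have hdetQ : Q.det = ν' := by rw [hQ, Matrix.det_mul, hdetPim, one_mul, hdetGd]
    set Y : Matrix (Fin n) (Fin n) F := c • M₀.map φ with hY
    have hYQ : Y = Q * U * Qi := by
      rw [← hcM, hX, hQ, hQi]
      simp only [mul_assoc]
    have hY1 : Y - 1 = Q * Nn * Qi := by
      rw [hYQ, hU, mul_add, add_mul, mul_one, hQQi, add_sub_cancel_left]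
    have hY1sq : (Y - 1) * (Y - 1) = 0 := by
      rw [hY1]
      calc Q * Nn * Qi * (Q * Nn * Qi) = Q * Nn * (Qi * Q) * Nn * Qi := by simp only [mul_assoc]
        _ = Q * (Nn * Nn) * Qi := by rw [hQiQ, mul_one]; simp only [mul_assoc]
        _ = 0 := by rw [hNn2, mul_zero, zero_mul]
    have hYne : Y ≠ 1 := by
      intro h
      apply hNn0
      have h1 : Q * Nn * Qi = 0 := by rw [← hY1, h, sub_self]
      calc Nn = (Qi * Q) * Nn * (Qi * Q) := by rw [hQiQ, one_mul, mul_one]
        _ = Qi * (Q * Nn * Qi) * Q := by simp only [mul_assoc]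
        _ = 0 := by rw [h1, mul_zero, zero_mul]
    obtain ⟨c₀, hc₀⟩ := scalar_mem_subfield F₀ h2 c M₀ hY1sq hYne
    -- the rational form
    set N₁ : Matrix (Fin n) (Fin n) F₀ := c₀ • M₀ - 1 with hN₁
    have hN₁map : N₁.map φ = Y - 1 := by
      rw [hN₁, Matrix.map_sub (f := φ) (fun a b => map_sub φ a b), hY]
      congr 1
      · ext i j
        simp [Matrix.map_apply, Matrix.smul_apply, hφ, hc₀]
      · exact Matrix.map_one φ (map_zero φ) (map_one φ)
    have hN₁sq : N₁ * N₁ = 0 := by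
      apply Matrix.map_injective (f := φ) F₀.subtype_injective
      show (N₁ * N₁).map φ = (0 : Matrix (Fin n) (Fin n) F₀).map φ
      rw [Matrix.map_mul, hN₁map, hY1sq, Matrix.map_zero φ (map_zero φ)]
    set Nn₀ : Matrix (Fin n) (Fin n) F₀ := Matrix.reindex σ σ (N2 m F₀) with hNn₀
    have hNn₀map : Nn₀.map φ = Nn := by
      have : Nn₀.map φ = Matrix.reindex σ σ ((N2 m F₀).map φ) := rfl
      rw [this, N2_map]
      rfl
    have hNn₀sq : Nn₀ * Nn₀ = 0 := by
      apply Matrix.map_injective (f := φ) F₀.subtype_injective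
      show (Nn₀ * Nn₀).map φ = (0 : Matrix (Fin n) (Fin n) F₀).map φ
      rw [Matrix.map_mul, hNn₀map, hNn2, Matrix.map_zero φ (map_zero φ)]
    let Qu : GL (Fin n) F := ⟨Q, Qi, hQQi, hQiQ⟩
    have hQconj : (Qu : Matrix (Fin n) (Fin n) F) * Nn = (Y - 1) * (Qu : Matrix (Fin n) (Fin n) F) := by
      show Q * Nn = (Y - 1) * Q
      rw [hY1]
      calc Q * Nn = Q * Nn * (Qi * Q) := by rw [hQiQ, mul_one]
        _ = Q * Nn * Qi * Q := by simp only [mul_assoc]
    have hker : ∀ k, finrank F₀ (LinearMap.ker ((Matrix.toLin' N₁) ^ k))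
        = finrank F₀ (LinearMap.ker ((Matrix.toLin' Nn₀) ^ k)) := by
      intro k
      rw [← finrank_ker_pow_map φ N₁ k, hN₁map, ← finrank_ker_pow_of_gl _ _ Qu hQconj k,
        hNn₀, finrank_ker_reindex_pow, finrank_ker_N2_pow]
      have : Nn = Matrix.reindex σ σ (N2 m F) := rfl
      rw [this, finrank_ker_reindex_pow, finrank_ker_N2_pow]
    obtain ⟨g₁, hg₁⟩ := exists_gl_conj_of_finrank_ker N₁ Nn₀ ⟨2, by rw [pow_two, hN₁sq]⟩
      ⟨2, by rw [pow_two, hNn₀sq]⟩ hker
    set G₁ : Matrix (Fin n) (Fin n) F := (g₁ : Matrix (Fin n) (Fin n) F₀).map φ with hG₁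
    have hG₁conj : G₁ * (Y - 1) = Nn * G₁ := by
      rw [← hN₁map, ← hNn₀map, hG₁, ← Matrix.map_mul, ← Matrix.map_mul, hg₁]
    set C : Matrix (Fin n) (Fin n) F := G₁ * Q with hC
    have hCcomm : C * Nn = Nn * C := by
      rw [hC]
      calc G₁ * Q * Nn = G₁ * (Q * Nn) := by rw [mul_assoc]
        _ = G₁ * ((Y - 1) * Q) := by rw [← hQconj]
        _ = (G₁ * (Y - 1)) * Q := by rw [mul_assoc]
        _ = Nn * (G₁ * Q) := by rw [hG₁conj, mul_assoc]
    have hC' : R.symm C * N2 m F = N2 m F * R.symm C := by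
      have e1 : R.symm Nn = N2 m F := by rw [hNn, AlgEquiv.symm_apply_apply]
      calc R.symm C * N2 m F = R.symm C * R.symm Nn := by rw [e1]
        _ = R.symm (C * Nn) := (map_mul R.symm C Nn).symm
        _ = R.symm (Nn * C) := by rw [hCcomm]
        _ = R.symm Nn * R.symm C := map_mul R.symm Nn C
        _ = N2 m F * R.symm C := by rw [e1]
    obtain ⟨a, ha⟩ := det_isSquare_of_commute_N2 m (R.symm C) hC'
    have hdetC' : (R.symm C).det = C.det := by
      have : R.symm = Matrix.reindexAlgEquiv F F σ.symm := rfl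
      rw [this, Matrix.det_reindexAlgEquiv]
    have hdetG₁ : G₁.det = ((g₁ : Matrix (Fin n) (Fin n) F₀).det : F) := by
      rw [hG₁, ← RingHom.mapMatrix_apply, ← RingHom.map_det]
      rfl
    obtain ⟨s, hs⟩ := hsqF₀ (g₁ : Matrix (Fin n) (Fin n) F₀).det
    have hs0 : s ≠ 0 := by
      rintro rfl
      rw [mul_zero] at hs
      have h0 : (g₁ : Matrix (Fin n) (Fin n) F₀).det = 0 := Subtype.ext hs.symm
      exact (Matrix.isUnits_det_units g₁).ne_zero h0
    rw [hdetC', hC, Matrix.det_mul, hdetG₁, hdetQ, ← hs] at ha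
    apply hν'
    refine ⟨a / s, ?_⟩
    field_simp
    linear_combination ha

end Nec

/-- Elements of order 3 of PSL_n(q) in characteristic 3 and subfield subgroups. Here `T = PSL_n(F)` for a field `F` with `q` elements, `q` a power of 3 (`n ≥ 2`, `(n, q) ≠ (2, 2), (2, 3)`), `F₀` is the subfield with `q₀` elements where `q = q₀^k` for a prime `k`, and `H` is the subgroup of matrices of determinant 1 lying in the subfield group of `F₀` (invertible matrices over `F₀` times scalars) — a maximal subgroup of type GL_n(q₀) (the case `n = 2`, `q₀ = 2` is excluded); Ω is the set of `T`-conjugates of `H` (cosets of `H`), so an element of `T` of prime order `r` (a matrix `x` of determinant 1 with `x^r` scalar, `x` not scalar) fixes a point of Ω when some conjugate of `x` by a matrix of determinant 1 lies in `H`. Suppose 3 divides the index of `H`. Then every element of `T` of order 3 is conjugate in `T` into `H` if and only if `n` is odd, or `n` is even and `k > 2`. -/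
theorem result {F : Type*} [Field F] [Fintype F] [CharP F 3] {q : ℕ} (hq : Fintype.card F = q)
    (n : ℕ) (hn : 2 ≤ n) (hT : (n, q) ≠ (2, 3))
    (F₀ : Subfield F) (k q₀ : ℕ) (hk : k.Prime) (hF₀ : Nat.card ↥F₀ = q₀) (hqk : q = q₀ ^ k) (hC5 : ¬ (n = 2 ∧ q₀ = 2)) (hΩ : 3 ∣ ((Cfsg.Geo.subfieldSubgroup F₀ 1).comap (Matrix.SpecialLinearGroup.toGL : Matrix.SpecialLinearGroup (Fin n) F →* GL (Fin n) F)).index) :
    (∀ x : Matrix.SpecialLinearGroup (Fin n) F,
      (∃ z : F, ((x ^ 3 : Matrix.SpecialLinearGroup (Fin n) F) : Matrix (Fin n) (Fin n) F) = z • (1 : Matrix (Fin n) (Fin n) F)) →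
      (∀ z : F, (x : Matrix (Fin n) (Fin n) F) ≠ z • (1 : Matrix (Fin n) (Fin n) F)) →
      ∃ P : Matrix.SpecialLinearGroup (Fin n) F, P⁻¹ * x * P ∈ ((Cfsg.Geo.subfieldSubgroup F₀ 1).comap (Matrix.SpecialLinearGroup.toGL : Matrix.SpecialLinearGroup (Fin n) F →* GL (Fin n) F))) ↔
    (Odd n ∨ (Even n ∧ 2 < k)) := by
  classical
  have hchar : ringChar F ≠ 2 := by
    rw [ringChar.eq F 3]
    norm_num
  constructor
  · intro hall
    by_contra hcon
    have hev : Even n := by
      by_contra h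
      exact hcon (Or.inl (Nat.not_even_iff_odd.mp h))
    have hk2 : k = 2 := by
      have h1 : ¬ 2 < k := fun h => hcon (Or.inr ⟨hev, h⟩)
      have h2 := hk.two_le
      omega
    subst hk2
    obtain ⟨m, hm⟩ := hev
    have hqodd : Odd (Fintype.card F) := Nat.odd_iff.mpr (FiniteField.odd_card_of_char_ne_two hchar)
    have hq₀odd : Odd q₀ := by
      rw [hq, hqk] at hqodd
      by_contra h
      rw [Nat.not_odd_iff_even] at h
      have : Even (q₀ ^ 2) := (Nat.even_pow.mpr ⟨h, by norm_num⟩)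
      exact (Nat.not_odd_iff_even.mpr this) hqodd
    have hsqF₀ : ∀ a : F₀, ∃ s : F, s * s = (a : F) :=
      fun a => Cfsg.Agent.H99.subfield_isSquare F₀ hF₀ (hq.trans hqk) hq₀odd a
    obtain ⟨ν', hν'⟩ := FiniteField.exists_nonsquare hchar
    obtain ⟨x, hx3, hxns, hxnot⟩ := exists_not_conj F₀ hm.symm (by omega) hsqF₀ ν' hν'
    exact hxnot (hall x hx3 hxns)
  · intro h x hx3 _
    obtain ⟨z, hz⟩ := hx3
    apply conj_of_cube_scalar F₀ hn _ x z hz
    intro hev
    have hk2 : 2 < k := by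
      rcases h with h | h
      · exact absurd hev (Nat.not_even_iff_odd.mpr h)
      · exact h.2
    have hkodd : Odd k := by
      rcases hk.eq_two_or_odd' with h' | h'
      · omega
      · exact h'
    exact exists_subfield_nonsquare F₀ hF₀ (hq.trans hqk) hkodd hchar

end Cfsg.Agent.S5966
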