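import Cfsg.Statements.S5967
import Cfsg.Agent.H99.SympType

set_option autoImplicit false
open scoped MatrixGroups
open Cfsg

namespace Cfsg.Agent.S5967

/-- Involutions of PSL_n(q) and the symplectic-type subgroups. Here `T = PSL_n(F)` for a field `F` with `q` elements, `n ≥ 4` even, `f` is a nondegenerate alternating form on `F^n`, and `H` is the subgroup of matrices of determinant 1 preserving `f` up to a scalar — a maximal subgroup of type Sp_n(q); Ω is the set of `T`-conjugates of `H` (cosets of `H`), so an element of `T` of prime order `r` (a matrix `x` of determinant 1 with `x^r` scalar, `x` not scalar) fixes a point of Ω when some conjugate of `x` by a matrix of determinant 1 preserves `f` up to a scalar. Suppose the index of `H` is even. Then every involution of `T` is conjugate in `T` into `H` if and only if `(q − 1)_2 ≤ (n)_2`. -/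
theorem result {F : Type*} [Field F] [Fintype F] {p : ℕ} [Fact p.Prime] [CharP F p] {q : ℕ} (hq : Fintype.card F = q)
    (n : ℕ) (hn : 4 ≤ n) (he : Even n) (f : (Fin n → F) → (Fin n → F) → F) (hf : Cfsg.Geo.IsSymplecticForm f)
    (hΩ : 2 ∣ ((Cfsg.Geo.similarityGroup f).comap (Matrix.SpecialLinearGroup.toGL : Matrix.SpecialLinearGroup (Fin n) F →* GL (Fin n) F)).index) :
    (∀ x : Matrix.SpecialLinearGroup (Fin n) F,
      (∃ z : F, ((x ^ 2 : Matrix.SpecialLinearGroup (Fin n) F) : Matrix (Fin n) (Fin n) F) = z • (1 : Matrix (Fin n) (Fin n) F)) →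
      (∀ z : F, (x : Matrix (Fin n) (Fin n) F) ≠ z • (1 : Matrix (Fin n) (Fin n) F)) →
      ∃ P : Matrix.SpecialLinearGroup (Fin n) F, P⁻¹ * x * P ∈ ((Cfsg.Geo.similarityGroup f).comap (Matrix.SpecialLinearGroup.toGL : Matrix.SpecialLinearGroup (Fin n) F →* GL (Fin n) F))) ↔
    padicValNat 2 (q - 1) ≤ padicValNat 2 n := by
  classical
  have hn0 : 0 < n := by omega
  constructor
  · intro hall
    by_contra hlt
    push Not at hlt
    have hq1 : q - 1 ≠ 0 := by
      intro h0
      rw [h0] at hlt
      simp at hlt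
    have hdvd : 2 ∣ q - 1 := dvd_of_one_le_padicValNat (by omega)
    have hqodd : Odd q := by
      obtain ⟨k, hk⟩ := hdvd
      exact ⟨k, by omega⟩
    have h2 : (2 : F) ≠ 0 := Cfsg.Agent.H99.two_ne_zero_of_odd_card (by rw [hq]; exact hqodd)
    obtain ⟨l, hl⟩ := Cfsg.Agent.H99.exists_pow_eq_neg_one hq n (by omega) hlt
    obtain ⟨x, hx1, hx2, hx3⟩ := Cfsg.Agent.H99.symp_derangement f hf (by omega) he h2 l hl
    obtain ⟨P, hP⟩ := hall x hx1 hx2
    exact hx3 P hP
  · intro hv x hx1 hx2
    obtain ⟨z, hz⟩ := hx1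
    have hxz : ∀ v, Matrix.toLin' (x : Matrix (Fin n) (Fin n) F)
        (Matrix.toLin' (x : Matrix (Fin n) (Fin n) F) v) = z • v := by
      intro v
      rw [← LinearMap.comp_apply, ← Matrix.toLin'_mul, ← Matrix.SpecialLinearGroup.coe_mul,
        ← pow_two, hz]
      simp
    obtain ⟨c, I, _, _, e, f', hc, hp⟩ := Cfsg.Agent.H99.exists_pairs_of_sq hq hn0 he hv x z hxz
    exact Cfsg.Agent.H99.symp_conj_of_pairs f hf hn0 x c hc I e f' hp

end Cfsg.Agent.S5967
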