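import Cfsg.Statements.S5969
import Cfsg.Agent.H99.ExtOdd
import Cfsg.Agent.H99.ExtEven
import Cfsg.Agent.H99.ExtNec

set_option autoImplicit false
open scoped MatrixGroups
open Cfsg

namespace Cfsg.Agent.S5969

/-- Involutions of PSL_n(q) and extension-field subgroups of degree 2. Here `T = PSL_n(F)` for a field `F` with `q = p^f` elements (`n ≥ 2`, `(n, q) ≠ (2, 2), (2, 3)`), `k` is a prime dividing `n`, `K` is a subalgebra of the `n × n` matrices that is a field of degree `k` over `F` (an extension-field structure F_{q^k} on `F^n`), and `H` is the subgroup of matrices of determinant 1 normalizing `K` — a subgroup of type GL_{n/k}(q^k) (maximal except in some small cases; maximality is not assumed); Ω is the set of cosets of `H` in `T`, so an element of `T` of prime order `r` (a matrix `x` of determinant 1 with `x^r` scalar, `x` not scalar) fixes a point of Ω when some conjugate of `x` by a matrix of determinant 1 normalizes `K`. Take `k = 2` and suppose the index of `H` is even. Then every involution of `T` is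 conjugate in `T` into `H` if and only if `n = 2`, or `q` is odd and `(q − 1)_2 ≤ (n)_2`. -/
theorem result {F : Type*} [Field F] [Fintype F] {p : ℕ} [Fact p.Prime] [CharP F p] {q : ℕ} (hq : Fintype.card F = q)
    (n : ℕ) (hn : 2 ≤ n) (hT : (n, q) ≠ (2, 2) ∧ (n, q) ≠ (2, 3))
    (k : ℕ) (hk : k.Prime) (hkn : k ∣ n) (K : Subalgebra F (Matrix (Fin n) (Fin n) F)) (hK : Cfsg.Geo.IsFieldSubalgebra k K) (hk2 : k = 2) (hΩ : 2 ∣ ((Cfsg.Geo.subalgebraNormalizer K).comap (Matrix.SpecialLinearGroup.toGL : Matrix.SpecialLinearGroup (Fin n) F →* GL (Fin n) F)).index) :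
    (∀ x : Matrix.SpecialLinearGroup (Fin n) F,
      (∃ z : F, ((x ^ 2 : Matrix.SpecialLinearGroup (Fin n) F) : Matrix (Fin n) (Fin n) F) = z • (1 : Matrix (Fin n) (Fin n) F)) →
      (∀ z : F, (x : Matrix (Fin n) (Fin n) F) ≠ z • (1 : Matrix (Fin n) (Fin n) F)) →
      ∃ P : Matrix.SpecialLinearGroup (Fin n) F, P⁻¹ * x * P ∈ ((Cfsg.Geo.subalgebraNormalizer K).comap (Matrix.SpecialLinearGroup.toGL : Matrix.SpecialLinearGroup (Fin n) F →* GL (Fin n) F))) ↔
    (n = 2 ∨ (Odd q ∧ padicValNat 2 (q - 1) ≤ padicValNat 2 n)) := by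
  subst hk2
  obtain ⟨m, hm⟩ := hkn
  constructor
  · intro hall
    by_contra hcon
    push Not at hcon
    obtain ⟨hn2, hq'⟩ := hcon
    have hn3 : 3 ≤ n := by omega
    by_cases h2 : (2 : F) = 0
    · obtain ⟨x, hx1, hx2, hx3⟩ := Cfsg.Agent.H99.ext_necessary_even h2 hn3 K hK
      obtain ⟨P, hP⟩ := hall x hx1 hx2
      exact hx3 P hP
    · have hodd : Odd q := by
        have h3 := Cfsg.Agent.H99.card_odd_of_two_ne_zero h2
        rw [hq] at h3
        exact Nat.odd_iff.mpr h3
      obtain ⟨l, hl⟩ := Cfsg.Agent.H99.exists_pow_eq_neg_one hq n (by omega) (hq' hodd)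
      obtain ⟨x, hx1, hx2, hx3⟩ := Cfsg.Agent.H99.ext_necessary_odd h2 hn3 l hl K hK
      obtain ⟨P, hP⟩ := hall x hx1 hx2
      exact hx3 P hP
  · intro hcond x hx hns
    obtain ⟨z, hz⟩ := hx
    by_cases h2 : (2 : F) = 0
    · have hn2 : n = 2 := by
        rcases hcond with h | ⟨hodd, -⟩
        · exact h
        · exfalso
          have : CharP F 2 := CharTwo.of_one_ne_zero_of_two_eq_zero one_ne_zero h2
          have hchar : ringChar F = 2 := ringChar.eq F 2
          have h3 := FiniteField.even_card_of_char_two hchar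
          rw [hq] at h3
          rcases hodd with ⟨t, ht⟩
          omega
      subst hn2
      exact Cfsg.Agent.H99.ext_char_two h2 K hK x z hz hns
    · apply Cfsg.Agent.H99.ext_odd_normalizes h2 K hK m (by omega) (by omega) x z hz
      rcases hcond with h | ⟨hodd, hle⟩
      · exact Or.inl h
      · right
        intro l hl
        have h3 := Cfsg.Agent.H99.padic_lt_of_pow_eq_neg_one hq h2 l n (by omega) hl
        omega

end Cfsg.Agent.S5969
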