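import Cfsg.Statements.S5970
import Cfsg.Agent.H69.SingerAsm
import Cfsg.Agent.H99.SingerCyc
import Cfsg.Agent.H28.SingerBad
import Cfsg.Agent.H28.SingerConj
import Cfsg.Agent.H5.SingerEig
import Cfsg.Agent.H5.SingerFrob

set_option autoImplicit false
open scoped MatrixGroups
open Cfsg

namespace Cfsg.Agent.S5970

/-- Elements of order `n` of PSL_n(q), `n` prime, and the normalizer of a Singer cycle. Here `T = PSL_n(F)` for a field `F` with `q = p^f` elements (`n ≥ 2`, `(n, q) ≠ (2, 2), (2, 3)`), `k` is a prime dividing `n`, `K` is a subalgebra of the `n × n` matrices that is a field of degree `k` over `F` (an extension-field structure F_{q^k} on `F^n`), and `H` is the subgroup of matrices of determinant 1 normalizing `K` — a subgroup of type GL_{n/k}(q^k) (maximal except in some small cases; maximality is not assumed); Ω is the set of cosets of `H` in `T`, so an element of `T` of prime order `r` (a matrix `x` of determinant 1 with `x^r` scalar, `x` not scalar) fixes a point of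 Ω when some conjugate of `x` by a matrix of determinant 1 normalizes `K`. Take `k = n > 3` prime with `n ≠ p` (so `H` is the normalizer of a Singer cycle), and suppose `n` divides the index of `H`. Then every element of `T` of order `n` is conjugate in `T` into `H` if and only if the multiplicative order of `q` modulo `n` is `n − 1`. -/
theorem result {F : Type*} [Field F] [Fintype F] {p : ℕ} [Fact p.Prime] [CharP F p] {q : ℕ} (hq : Fintype.card F = q)
    (n : ℕ) (hn : 2 ≤ n) (hT : (n, q) ≠ (2, 2) ∧ (n, q) ≠ (2, 3))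
    (k : ℕ) (hk : k.Prime) (hkn : k ∣ n) (K : Subalgebra F (Matrix (Fin n) (Fin n) F)) (hK : Cfsg.Geo.IsFieldSubalgebra k K) (hkn' : k = n) (hn3 : 3 < n) (hnp : n ≠ p) (hΩ : n ∣ ((Cfsg.Geo.subalgebraNormalizer K).comap (Matrix.SpecialLinearGroup.toGL : Matrix.SpecialLinearGroup (Fin n) F →* GL (Fin n) F)).index) :
    (∀ x : Matrix.SpecialLinearGroup (Fin n) F,
      (∃ z : F, ((x ^ n : Matrix.SpecialLinearGroup (Fin n) F) : Matrix (Fin n) (Fin n) F) = z • (1 : Matrix (Fin n) (Fin n) F)) →
      (∀ z : F, (x : Matrix (Fin n) (Fin n) F) ≠ z • (1 : Matrix (Fin n) (Fin n) F)) →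
      ∃ P : Matrix.SpecialLinearGroup (Fin n) F, P⁻¹ * x * P ∈ ((Cfsg.Geo.subalgebraNormalizer K).comap (Matrix.SpecialLinearGroup.toGL : Matrix.SpecialLinearGroup (Fin n) F →* GL (Fin n) F))) ↔
    orderOf (q : ZMod n) = n - 1 := by
  classical
  have hnP : n.Prime := by rw [← hkn']; exact hk
  rw [hkn'] at hK
  subst hq
  constructor
  · -- every element conjugate into H implies ord = n - 1
    intro h
    by_contra hne
    obtain ⟨x, hx1, hx2, v, w, hvw, hxv, hxw⟩ := Cfsg.Agent.H28.Singer.exists_bad_element n hnP hn3 hnp hne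
    obtain ⟨P, hP⟩ := h x ⟨1, by rw [hx1, one_smul]⟩ hx2
    rw [Subgroup.mem_comap] at hP
    have hcoe : ((Matrix.SpecialLinearGroup.toGL (P⁻¹ * x * P) : GL (Fin n) F) :
        Matrix (Fin n) (Fin n) F) =
        ((P⁻¹ : Matrix.SpecialLinearGroup (Fin n) F) : Matrix (Fin n) (Fin n) F) *
          (x : Matrix (Fin n) (Fin n) F) * (P : Matrix (Fin n) (Fin n) F) := by
      rw [Matrix.SpecialLinearGroup.coe_GL_coe_matrix, Matrix.SpecialLinearGroup.coe_mul,
        Matrix.SpecialLinearGroup.coe_mul]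
    have hPP : (P : Matrix (Fin n) (Fin n) F) *
        ((P⁻¹ : Matrix.SpecialLinearGroup (Fin n) F) : Matrix (Fin n) (Fin n) F) = 1 := by
      rw [← Matrix.SpecialLinearGroup.coe_mul, mul_inv_cancel, Matrix.SpecialLinearGroup.coe_one]
    have hPP' : ((P⁻¹ : Matrix.SpecialLinearGroup (Fin n) F) : Matrix (Fin n) (Fin n) F) *
        (P : Matrix (Fin n) (Fin n) F) = 1 := by
      rw [← Matrix.SpecialLinearGroup.coe_mul, inv_mul_cancel, Matrix.SpecialLinearGroup.coe_one]
    refine Cfsg.Agent.H5.Singer.normalizer_eigen_dep hnP K hK _ hP ?_ 1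
      (Matrix.mulVec ((P⁻¹ : Matrix.SpecialLinearGroup (Fin n) F) : Matrix (Fin n) (Fin n) F) v)
      (Matrix.mulVec ((P⁻¹ : Matrix.SpecialLinearGroup (Fin n) F) : Matrix (Fin n) (Fin n) F) w) ?_ ?_ ?_
    · intro c hc
      rw [hcoe] at hc
      apply hx2 c
      calc (x : Matrix (Fin n) (Fin n) F)
          = ((P : Matrix (Fin n) (Fin n) F) *
              ((P⁻¹ : Matrix.SpecialLinearGroup (Fin n) F) : Matrix (Fin n) (Fin n) F)) *
              (x : Matrix (Fin n) (Fin n) F) * ((P : Matrix (Fin n) (Fin n) F) *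
              ((P⁻¹ : Matrix.SpecialLinearGroup (Fin n) F) : Matrix (Fin n) (Fin n) F)) := by
            rw [hPP, Matrix.one_mul, Matrix.mul_one]
        _ = (P : Matrix (Fin n) (Fin n) F) *
              (((P⁻¹ : Matrix.SpecialLinearGroup (Fin n) F) : Matrix (Fin n) (Fin n) F) *
              (x : Matrix (Fin n) (Fin n) F) * (P : Matrix (Fin n) (Fin n) F)) *
              ((P⁻¹ : Matrix.SpecialLinearGroup (Fin n) F) : Matrix (Fin n) (Fin n) F) := by
            simp only [Matrix.mul_assoc]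
        _ = c • (1 : Matrix (Fin n) (Fin n) F) := by
            rw [hc, Matrix.mul_smul, Matrix.mul_one, Matrix.smul_mul, hPP]
    · rw [hcoe, Matrix.mulVec_mulVec, Matrix.mul_assoc, Matrix.mul_assoc, hPP, Matrix.mul_one,
        ← Matrix.mulVec_mulVec, hxv, one_smul]
    · rw [hcoe, Matrix.mulVec_mulVec, Matrix.mul_assoc, Matrix.mul_assoc, hPP, Matrix.mul_one,
        ← Matrix.mulVec_mulVec, hxw, one_smul]
    · rw [LinearIndependent.pair_iff] at hvw ⊢
      intro a b hab
      apply hvw a b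
      have h1 : Matrix.mulVec ((P⁻¹ : Matrix.SpecialLinearGroup (Fin n) F) : Matrix (Fin n) (Fin n) F)
          (a • v + b • w) = 0 := by
        rw [Matrix.mulVec_add, Matrix.mulVec_smul, Matrix.mulVec_smul]
        exact hab
      have h2 := congrArg (fun t => Matrix.mulVec (P : Matrix (Fin n) (Fin n) F) t) h1
      simp only [Matrix.mulVec_mulVec, hPP, Matrix.one_mulVec, Matrix.mulVec_zero] at h2
      exact h2
  · -- ord = n - 1 implies every element is conjugate into H
    intro hord x hz hns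
    obtain ⟨z, hz⟩ := hz
    rw [Matrix.SpecialLinearGroup.coe_pow] at hz
    have hnF : (n : F) ≠ 0 := by
      intro h0
      rw [CharP.cast_eq_zero_iff F p n] at h0
      have hpP : p.Prime := Fact.out
      rcases (Nat.dvd_prime hnP).mp h0 with h1 | h1
      · exact hpP.one_lt.ne' h1
      · exact hnp h1.symm
    obtain ⟨l, hl⟩ := Cfsg.Agent.H69.Singer.exists_nth_root n hnP hn3 hord z
    have hz0 : z ≠ 0 := by
      intro h0
      have h1 := congrArg Matrix.det hz
      have : Nonempty (Fin n) := ⟨⟨0, by omega⟩⟩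
      rw [Matrix.det_pow, Matrix.SpecialLinearGroup.det_coe, one_pow, h0, zero_smul,
        Matrix.det_zero] at h1
      exact one_ne_zero h1
    have hl0 : l ≠ 0 := by
      intro h0
      rw [h0, zero_pow hnP.ne_zero] at hl
      exact hz0 hl.symm
    have hy : (l⁻¹ • (x : Matrix (Fin n) (Fin n) F)) ^ n = 1 := by
      rw [smul_pow, hz, smul_smul, inv_pow, hl, inv_mul_cancel₀ hz0, one_smul]
    have hy1 : l⁻¹ • (x : Matrix (Fin n) (Fin n) F) ≠ 1 := by
      intro h1
      apply hns l
      rw [← h1, smul_smul, mul_inv_cancel₀ hl0, one_smul]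
    obtain ⟨u, hu⟩ := Cfsg.Agent.H99.Singer.exists_cyclic_vector n hnP hn3 hnF hord _ hy hy1
    obtain ⟨s, hsN, hsn, hs1⟩ := Cfsg.Agent.H5.Singer.exists_frobenius_normalizer hn K hK
    obtain ⟨u', hu'⟩ := Cfsg.Agent.H99.Singer.exists_cyclic_vector n hnP hn3 hnF hord _ hsn hs1
    obtain ⟨R, hR⟩ := Cfsg.Agent.H28.Singer.conj_of_cyclic n _ _ hy hsn u u' hu hu'
    have hdetR : (R : Matrix (Fin n) (Fin n) F).det ≠ 0 :=
      ((Matrix.isUnit_iff_isUnit_det _).mp R.isUnit).ne_zero
    obtain ⟨m, hm⟩ := Cfsg.Agent.H69.Singer.exists_nth_root n hnP hn3 hord ((R : Matrix (Fin n) (Fin n) F).det)⁻¹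
    have hdetP : (m • (R : Matrix (Fin n) (Fin n) F)).det = 1 := by
      rw [Matrix.det_smul, Fintype.card_fin, hm, inv_mul_cancel₀ hdetR]
    refine ⟨⟨m • (R : Matrix (Fin n) (Fin n) F), hdetP⟩, ?_⟩
    rw [Subgroup.mem_comap]
    refine Cfsg.Agent.H69.Singer.mem_normalizer_of_eq_smul K s _ hsN l ?_
    set P : Matrix.SpecialLinearGroup (Fin n) F := ⟨m • (R : Matrix (Fin n) (Fin n) F), hdetP⟩
      with hPdef
    have hPc : (P : Matrix (Fin n) (Fin n) F) = m • (R : Matrix (Fin n) (Fin n) F) := rfl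
    have hPP' : ((P⁻¹ : Matrix.SpecialLinearGroup (Fin n) F) : Matrix (Fin n) (Fin n) F) *
        (P : Matrix (Fin n) (Fin n) F) = 1 := by
      rw [← Matrix.SpecialLinearGroup.coe_mul, inv_mul_cancel, Matrix.SpecialLinearGroup.coe_one]
    have hx : (x : Matrix (Fin n) (Fin n) F) = l • (l⁻¹ • (x : Matrix (Fin n) (Fin n) F)) := by
      rw [smul_smul, mul_inv_cancel₀ hl0, one_smul]
    have h1 : (x : Matrix (Fin n) (Fin n) F) * (P : Matrix (Fin n) (Fin n) F) =
        (P : Matrix (Fin n) (Fin n) F) * (l • (s : Matrix (Fin n) (Fin n) F)) := by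
      rw [hPc, hx, Matrix.smul_mul, Matrix.mul_smul, hR, Matrix.mul_smul, Matrix.smul_mul,
        smul_comm]
    rw [Matrix.SpecialLinearGroup.coe_GL_coe_matrix, Matrix.SpecialLinearGroup.coe_mul,
      Matrix.SpecialLinearGroup.coe_mul, Matrix.mul_assoc, h1, ← Matrix.mul_assoc, hPP',
      Matrix.one_mul]

end Cfsg.Agent.S5970
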