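import Cfsg.Statements.S5971
import Cfsg.Agent.H48.Sing3A
import Cfsg.Agent.H48.Sing3B
import Cfsg.Agent.H48.Sing3C
import Cfsg.Agent.H48.Sing3D

set_option autoImplicit false
open scoped MatrixGroups
open Cfsg

namespace Cfsg.Agent.S5971

open Cfsg.Agent.H48.Sing3

/-- Eigenvectors of the Frobenius: for `Φ³ = 1` with `1, Φ, Φ²` independent, every cube root of
unity is an eigenvalue. -/
theorem frob_eigen {F : Type*} [Field F] (Φ : Matrix (Fin 3) (Fin 3) F) (hΦ3 : Φ * Φ * Φ = 1)
    (hind : ∀ a b c : F, a • (1 : Matrix (Fin 3) (Fin 3) F) + b • Φ + c • (Φ * Φ) = 0 →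
      a = 0 ∧ b = 0 ∧ c = 0) (ν : F) (hν : ν ^ 3 = 1) :
    ∃ v : Fin 3 → F, v ≠ 0 ∧ Φ.mulVec v = ν • v := by
  obtain ⟨E, hE⟩ : ∃ E : Matrix (Fin 3) (Fin 3) F,
      E = (1 : Matrix (Fin 3) (Fin 3) F) + (ν * ν) • Φ + ν • (Φ * Φ) := ⟨_, rfl⟩
  have hE0 : E ≠ 0 := by
    intro h0
    rw [hE] at h0
    have h0' : (1 : F) • (1 : Matrix (Fin 3) (Fin 3) F) + (ν * ν) • Φ + ν • (Φ * Φ) = 0 := by
      rw [one_smul]
      exact h0
    exact one_ne_zero (hind _ _ _ h0').1
  obtain ⟨w, hw⟩ : ∃ w : Fin 3 → F, E.mulVec w ≠ 0 := by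
    by_contra hcon
    apply hE0
    apply matrix_ext_mulVec
    intro w
    rw [Matrix.zero_mulVec]
    by_contra h1
    exact hcon ⟨w, h1⟩
  refine ⟨E.mulVec w, hw, ?_⟩
  have h1 : Φ * E = ν • E := by
    have h2 : ν * (ν * ν) = 1 := by rw [← hν]; ring
    have h4 : Φ * (Φ * Φ) = 1 := by rw [← Matrix.mul_assoc, hΦ3]
    rw [hE, Matrix.mul_add, Matrix.mul_add, Matrix.mul_one, Matrix.mul_smul, Matrix.mul_smul, h4,
      smul_add, smul_add, smul_smul, smul_smul, h2, one_smul]
    abel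
  rw [Matrix.mulVec_mulVec, h1, Matrix.smul_mulVec]

theorem frob_nonscalar {F : Type*} [Field F] (Φ : Matrix (Fin 3) (Fin 3) F)
    (hind : ∀ a b c : F, a • (1 : Matrix (Fin 3) (Fin 3) F) + b • Φ + c • (Φ * Φ) = 0 →
      a = 0 ∧ b = 0 ∧ c = 0) (c : F) : Φ ≠ c • (1 : Matrix (Fin 3) (Fin 3) F) := by
  intro h
  have h1 : (-c) • (1 : Matrix (Fin 3) (Fin 3) F) + (1 : F) • Φ + (0 : F) • (Φ * Φ) = 0 := by
    rw [one_smul, zero_smul, add_zero, neg_smul, ← h]
    abel
  exact one_ne_zero (hind _ _ _ h1).2.1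

/-- Elements of order 3 of PSL_3(q) and the normalizer of a Singer cycle. Here `T = PSL_n(F)` for a field `F` with `q = p^f` elements (`n ≥ 2`, `(n, q) ≠ (2, 2), (2, 3)`), `k` is a prime dividing `n`, `K` is a subalgebra of the `n × n` matrices that is a field of degree `k` over `F` (an extension-field structure F_{q^k} on `F^n`), and `H` is the subgroup of matrices of determinant 1 normalizing `K` — a subgroup of type GL_{n/k}(q^k) (maximal except in some small cases; maximality is not assumed); Ω is the set of cosets of `H` in `T`, so an element of `T` of prime order `r` (a matrix `x` of determinant 1 with `x^r` scalar, `x` not scalar) fixes a point of Ω when some conjugate of `x` by a matrix of determinant 1 normalizes `K`. Take `n = k = 3` and suppose 3 divides the index of `H`. Then every element of `T` of order 3 is conjugate in `T` into `H` if and only if `q ≡ 4, 7` or `8 (mod 9)`. -/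
theorem result {F : Type*} [Field F] [Fintype F] {p : ℕ} [Fact p.Prime] [CharP F p] {q : ℕ} (hq : Fintype.card F = q)
    (n : ℕ) (hn : n = 3) (k : ℕ) (hk : k.Prime) (hkn : k ∣ n) (K : Subalgebra F (Matrix (Fin n) (Fin n) F)) (hK : Cfsg.Geo.IsFieldSubalgebra k K) (hk3 : k = 3) (hΩ : 3 ∣ ((Cfsg.Geo.subalgebraNormalizer K).comap (Matrix.SpecialLinearGroup.toGL : Matrix.SpecialLinearGroup (Fin n) F →* GL (Fin n) F)).index) :
    (∀ x : Matrix.SpecialLinearGroup (Fin n) F,
      (∃ z : F, ((x ^ 3 : Matrix.SpecialLinearGroup (Fin n) F) : Matrix (Fin n) (Fin n) F) = z • (1 : Matrix (Fin n) (Fin n) F)) →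
      (∀ z : F, (x : Matrix (Fin n) (Fin n) F) ≠ z • (1 : Matrix (Fin n) (Fin n) F)) →
      ∃ P : Matrix.SpecialLinearGroup (Fin n) F, P⁻¹ * x * P ∈ ((Cfsg.Geo.subalgebraNormalizer K).comap (Matrix.SpecialLinearGroup.toGL : Matrix.SpecialLinearGroup (Fin n) F →* GL (Fin n) F))) ↔
    (q % 9 = 4 ∨ q % 9 = 7 ∨ q % 9 = 8) := by
  subst hn
  subst hk3
  subst hq
  have hpow3 : ∀ x : Matrix.SpecialLinearGroup (Fin 3) F,
      ((x ^ 3 : Matrix.SpecialLinearGroup (Fin 3) F) : Matrix (Fin 3) (Fin 3) F) =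
        (x : Matrix (Fin 3) (Fin 3) F) * x * x := by
    intro x
    rw [Matrix.SpecialLinearGroup.coe_pow, pow_succ, pow_succ, pow_one]
  constructor
  · intro hall
    by_contra hcon
    have hcases : Fintype.card F % 3 = 0 ∨ Fintype.card F % 9 = 1 ∨
        (Fintype.card F % 9 = 2 ∨ Fintype.card F % 9 = 5) := by omega
    rcases hcases with h | h | h
    · -- characteristic 3: a transvection
      have h3 : (3 : F) = 0 := three_eq_zero_of_card p h
      obtain ⟨x, hx⟩ : ∃ x : Matrix.SpecialLinearGroup (Fin 3) F,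
          (x : Matrix (Fin 3) (Fin 3) F) = Matrix.transvection 0 1 1 :=
        ⟨⟨Matrix.transvection 0 1 1, Matrix.det_transvection_of_ne 0 1 (by decide) 1⟩, rfl⟩
      have hx3 : ((x ^ 3 : Matrix.SpecialLinearGroup (Fin 3) F) : Matrix (Fin 3) (Fin 3) F) =
          (1 : F) • (1 : Matrix (Fin 3) (Fin 3) F) := by
        rw [hpow3, hx,
          Matrix.transvection_mul_transvection_same (0 : Fin 3) 1 (by decide) 1 1,
          Matrix.transvection_mul_transvection_same (0 : Fin 3) 1 (by decide) (1 + 1) 1,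
          one_smul]
        have e : (1 : F) + 1 + 1 = 0 := by rw [← h3]; norm_num
        rw [e, Matrix.transvection_zero]
      have hns : ∀ z : F, (x : Matrix (Fin 3) (Fin 3) F) ≠ z • (1 : Matrix (Fin 3) (Fin 3) F) := by
        intro z hz
        rw [hx] at hz
        have h1 := congrFun (congrFun hz 0) 1
        simp [Matrix.transvection] at h1
      obtain ⟨P, hP⟩ := hall x ⟨1, hx3⟩ hns
      exact rank_one_derangement (r := 3) (by norm_num) (le_refl 3) K hK x 1 1 one_ne_zero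
        one_ne_zero 0 1 (by rw [hx, Matrix.transvection, one_smul, one_smul]) P hP
    · -- an element of order 9 in F
      obtain ⟨ζ, hζ9, hζ3⟩ := exists_nine h
      have hζ0 : ζ ≠ 0 := by
        intro h0
        rw [h0] at hζ9
        simp at hζ9
      obtain ⟨d, hd⟩ : ∃ d : F, d = ζ⁻¹ * ζ⁻¹ - ζ := ⟨_, rfl⟩
      have hζd : ζ * ζ * (ζ + d) = 1 := by
        rw [hd]
        field_simp
        ring
      have hd0 : d ≠ 0 := by
        intro h0
        rw [h0, add_zero] at hζd
        apply hζ3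
        rw [← hζd]
        ring
      have hM : ζ • (1 : Matrix (Fin 3) (Fin 3) F) + d • Matrix.single 2 2 1 =
          Matrix.diagonal ![ζ, ζ, ζ + d] := by
        ext i j
        fin_cases i <;> fin_cases j <;> simp [Matrix.single, Matrix.diagonal]
      obtain ⟨x, hx⟩ : ∃ x : Matrix.SpecialLinearGroup (Fin 3) F,
          (x : Matrix (Fin 3) (Fin 3) F) = ζ • 1 + d • Matrix.single 2 2 1 := by
        refine ⟨⟨ζ • 1 + d • Matrix.single 2 2 1, ?_⟩, rfl⟩
        rw [hM, Matrix.det_diagonal, Fin.prod_univ_three]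
        simpa using hζd
      have hx3 : ((x ^ 3 : Matrix.SpecialLinearGroup (Fin 3) F) : Matrix (Fin 3) (Fin 3) F) =
          (ζ ^ 3) • (1 : Matrix (Fin 3) (Fin 3) F) := by
        rw [hpow3, hx, hM, Matrix.diagonal_mul_diagonal, Matrix.diagonal_mul_diagonal]
        ext i j
        have e : (ζ + d) * (ζ + d) * (ζ + d) = ζ ^ 3 := by
          have e1 : ζ ^ 3 * (ζ ^ 3 * ζ ^ 3) = 1 := by rw [← hζ9]; ring
          have e2 : (ζ * ζ * (ζ + d)) ^ 3 = 1 := by rw [hζd, one_pow]
          have e3 : ζ ^ 3 * ζ ^ 3 * ((ζ + d) * (ζ + d) * (ζ + d)) = 1 := by rw [← e2]; ring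
          have e4 : ζ ^ 3 * ζ ^ 3 ≠ 0 := by positivity
          apply mul_left_cancel₀ e4
          rw [e3, ← e1]
          ring
        fin_cases i <;> fin_cases j <;> simp [Matrix.diagonal, e] <;> ring
      have hns : ∀ z : F, (x : Matrix (Fin 3) (Fin 3) F) ≠ z • (1 : Matrix (Fin 3) (Fin 3) F) := by
        intro z hz
        rw [hx, hM] at hz
        have h1 := congrFun (congrFun hz 0) 0
        have h2 := congrFun (congrFun hz 2) 2
        simp [Matrix.diagonal] at h1 h2
        apply hd0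
        rw [← h1] at h2
        linear_combination h2
      obtain ⟨P, hP⟩ := hall x ⟨_, hx3⟩ hns
      exact rank_one_derangement (r := 3) (by norm_num) (le_refl 3) K hK x ζ d hζ0 hd0 2 2 hx P hP
    · -- `q ≡ 2, 5 (mod 9)`: the index is prime to 3
      have h3 : (3 : F) ≠ 0 := three_ne_zero_of_card p (by omega)
      obtain ⟨x, hx⟩ : ∃ x : Matrix.SpecialLinearGroup (Fin 3) F,
          (x : Matrix (Fin 3) (Fin 3) F) = cycC F :=
        ⟨⟨cycC F, by simp [cycC, Matrix.det_fin_three]⟩, rfl⟩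
      have hC3 : cycC F * cycC F * cycC F = 1 := by
        ext i j
        fin_cases i <;> fin_cases j <;> simp [cycC, Matrix.mul_apply, Fin.sum_univ_three]
      have hx3 : ((x ^ 3 : Matrix.SpecialLinearGroup (Fin 3) F) : Matrix (Fin 3) (Fin 3) F) =
          (1 : F) • (1 : Matrix (Fin 3) (Fin 3) F) := by
        rw [hpow3, hx, hC3, one_smul]
      have hns : ∀ z : F, (x : Matrix (Fin 3) (Fin 3) F) ≠ z • (1 : Matrix (Fin 3) (Fin 3) F) := by
        intro z hz
        rw [hx] at hz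
        have h1 := congrFun (congrFun hz 0) 2
        simp [cycC] at h1
      obtain ⟨P, hP⟩ := hall x ⟨1, hx3⟩ hns
      obtain ⟨y, hy⟩ : ∃ y : Matrix.SpecialLinearGroup (Fin 3) F, y = P⁻¹ * x * P := ⟨_, rfl⟩
      rw [← hy] at hP
      have hx31 : x ^ 3 = 1 := by
        apply Subtype.ext
        rw [hx3, one_smul]
        rfl
      have hy3 : y ^ 3 = 1 := by
        rw [hy, pow_succ, pow_succ, pow_one]
        have e : P⁻¹ * x * P * (P⁻¹ * x * P) * (P⁻¹ * x * P) = P⁻¹ * x ^ 3 * P := by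
          rw [pow_succ, pow_succ, pow_one]
          group
        rw [e, hx31, mul_one, inv_mul_cancel]
      have hy1 : y ≠ 1 := by
        intro h1
        rw [hy] at h1
        have h2 : x = 1 := by
          have e : x = P * (P⁻¹ * x * P) * P⁻¹ := by group
          rw [e, h1, mul_one, mul_inv_cancel]
        apply hns 1
        rw [h2, one_smul]
        rfl
      have : Fact (Nat.Prime 3) := ⟨Nat.prime_three⟩
      have hord : orderOf y = 3 := orderOf_eq_prime hy3 hy1
      have hdvd : 3 ∣ Nat.card ((Cfsg.Geo.subalgebraNormalizer K).comap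
          (Matrix.SpecialLinearGroup.toGL :
            Matrix.SpecialLinearGroup (Fin 3) F →* GL (Fin 3) F)) := by
        have h1 := orderOf_dvd_natCard (⟨y, hP⟩ : ((Cfsg.Geo.subalgebraNormalizer K).comap
          (Matrix.SpecialLinearGroup.toGL :
            Matrix.SpecialLinearGroup (Fin 3) F →* GL (Fin 3) F)))
        rw [← Subgroup.orderOf_coe] at h1
        exact Dvd.dvd.trans (dvd_of_eq hord.symm) h1
      have hmul := Subgroup.card_mul_index ((Cfsg.Geo.subalgebraNormalizer K).comap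
          (Matrix.SpecialLinearGroup.toGL :
            Matrix.SpecialLinearGroup (Fin 3) F →* GL (Fin 3) F))
      apply not_nine_dvd_card_SL (F := F) h
      rw [← hmul]
      exact Nat.mul_dvd_mul hdvd hΩ
  · intro hq9 x hx3 hns
    obtain ⟨z, hz⟩ := hx3
    rw [hpow3] at hz
    have h3 : (3 : F) ≠ 0 := three_ne_zero_of_card p (by omega)
    obtain ⟨Φ, hΦ3, hΦK, hΦind⟩ := exists_frobenius K hK
    have hdet : (x : Matrix (Fin 3) (Fin 3) F).det = 1 := x.2
    have hz3 : z ^ 3 = 1 := by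
      have h1 := congrArg Matrix.det hz
      rw [Matrix.det_mul, Matrix.det_mul, hdet, Matrix.det_smul, Matrix.det_one] at h1
      simpa using h1.symm
    have hΦns := frob_nonscalar Φ hΦind
    have hΦeig := frob_eigen Φ hΦ3 hΦind
    by_cases h8 : Fintype.card F % 9 = 8
    · have hq3 : Fintype.card F % 3 = 2 := by omega
      have hz1 : z = 1 := cube_eq_one hq3 z hz3
      rw [hz1, one_smul] at hz
      have hno := no_omega h3 hq3
      have hx1 : (x : Matrix (Fin 3) (Fin 3) F) ≠ 1 := by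
        intro h1
        apply hns 1
        rw [h1, one_smul]
      obtain ⟨v₁, hv₁, hxv⟩ := exists_eigen _ hz hdet hns 1 (one_pow 3)
      rw [one_smul] at hxv
      obtain ⟨u, hu⟩ := cyclic_of_no_omega h3 hno _ hz hx1 v₁ hv₁ hxv
      have hΦ1 : Φ ≠ 1 := by
        intro h1
        apply hΦns 1
        rw [h1, one_smul]
      obtain ⟨w₁, hw₁, hΦw⟩ := hΦeig 1 (one_pow 3)
      rw [one_smul] at hΦw
      obtain ⟨u', hu'⟩ := cyclic_of_no_omega h3 hno Φ hΦ3 hΦ1 w₁ hw₁ hΦw
      exact exists_conj_mem h3 K x hz Φ hΦ3 hΦK u u' hu hu'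
    · have hq47 : Fintype.card F % 9 = 4 ∨ Fintype.card F % 9 = 7 := by omega
      have hq3 : Fintype.card F % 3 = 1 := by omega
      obtain ⟨ω, hω⟩ := exists_omega h3 hq3
      have hω3 : ω ^ 3 = 1 := by linear_combination (ω - 1) * hω
      have hωω3 : (ω * ω) ^ 3 = 1 := by
        have e : (ω * ω) ^ 3 = (ω ^ 3) ^ 2 := by ring
        rw [e, hω3, one_pow]
      have hz1 : z = 1 := by
        by_contra hz1
        obtain ⟨c, hc⟩ := exists_cube_root _ z hz hdet hns hz1
        have hc9 : c ^ 9 = 1 := by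
          have e : c ^ 9 = (c ^ 3) ^ 3 := by ring
          rw [e, hc, hz3]
        have := no_nine hq47 c hc9
        rw [hc] at this
        exact hz1 this
      rw [hz1, one_smul] at hz
      obtain ⟨v₀, hv₀, e₀⟩ := exists_eigen _ hz hdet hns 1 (one_pow 3)
      obtain ⟨v₁, hv₁, e₁⟩ := exists_eigen _ hz hdet hns ω hω3
      obtain ⟨v₂, hv₂, e₂⟩ := exists_eigen _ hz hdet hns (ω * ω) hωω3
      rw [one_smul] at e₀
      obtain ⟨u, hu⟩ := cyclic_of_omega h3 ω hω _ v₀ v₁ v₂ hv₀ hv₁ hv₂ e₀ e₁ e₂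
      obtain ⟨w₀, hw₀, f₀⟩ := hΦeig 1 (one_pow 3)
      obtain ⟨w₁, hw₁, f₁⟩ := hΦeig ω hω3
      obtain ⟨w₂, hw₂, f₂⟩ := hΦeig (ω * ω) hωω3
      rw [one_smul] at f₀
      obtain ⟨u', hu'⟩ := cyclic_of_omega h3 ω hω Φ w₀ w₁ w₂ hw₀ hw₁ hw₂ f₀ f₁ f₂
      exact exists_conj_mem h3 K x hz Φ hΦ3 hΦK u u' hu hu'

end Cfsg.Agent.S5971
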