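import Cfsg.Statements.S5972
import Cfsg.Agent.H14.OtMain
import Cfsg.Agent.H14.OtTransport
import Cfsg.Agent.H86.OtSplit
import Cfsg.Agent.H86.OtHalf
import Cfsg.Agent.H86.OtWitt
import Cfsg.Agent.H86.OtInvLow
import Cfsg.Agent.H86.OtInvOmega
import Cfsg.Agent.H86.OtInvEx
import Cfsg.Agent.H60.OtTrick
import Cfsg.Agent.H60.OtModc
import Cfsg.Agent.H60.OtUpper
import Cfsg.Agent.H60.OtBuild
import Cfsg.Agent.H98.OtZeros
import Cfsg.Agent.H98.OtFib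
import Cfsg.Agent.H32.OtTuples
import Cfsg.Agent.H42.TiMain
import Cfsg.Agent.H42.SpdEx
import Cfsg.Agent.H16.SpdBlock
import Cfsg.Agent.H67.SpdRel
import Cfsg.Agent.H77.SpdFix
import Cfsg.Agent.H77.SpdCompl
import Cfsg.Agent.H24.SpdModc
import Cfsg.Agent.H3.TiPrim
import Cfsg.Agent.H3.TiCompDvd
import Cfsg.Agent.H3.TiIrrSub
import Cfsg.Agent.H3.TiCycSet
import Cfsg.Agent.H3.TiPair
import Cfsg.Agent.H3.TiStepEven
import Cfsg.Agent.H3.TiUpper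
import Cfsg.Agent.H72.TiSpread
import Cfsg.Agent.H72.TiHalf
import Cfsg.Agent.H72.TiCntP
import Cfsg.Agent.H72.TiCnt
import Cfsg.Agent.H72.TiPeel
import Cfsg.Agent.H72.TiTuples
import Cfsg.Agent.H72.TiFib
import Cfsg.Agent.H32.TiTransport
import Cfsg.Agent.H32.TiModAdd
import Cfsg.Agent.H32.TiAnti
import Cfsg.Agent.H14.TiModStd
import Cfsg.Agent.H14.TiModAll
import Cfsg.Agent.H14.TiStepOdd
import Cfsg.Agent.H14.TiBuild
import Cfsg.Agent.H16.TiModBlock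
import Cfsg.Agent.H16.TiHypClose
import Cfsg.Agent.H16.TiCompNd
import Cfsg.Agent.H60.TiExEven
import Cfsg.Agent.H60.TiUpperEven

set_option autoImplicit false
open scoped MatrixGroups
open Cfsg

namespace Cfsg.Agent.S5972

/-- Elements of prime order of Ω_n(q), n = 2d+1 ≥ 7, q odd, with no fixed totally singular `m`-space. Here `T = Ω_n(q)` is realised as the commutator subgroup of the isometry group of the quadratic form `x₀² + Σ xᵢyᵢ` over the field `F` with `q` elements (it has trivial centre, so its elements of prime order `r` are used directly); let `1 ≤ m ≤ d` and let `r` be a prime dividing the number of totally singular `m`-spaces. For `r ≠ p` let `i` be the multiplicative order of `q` modulo `r`, `c = i` for `i` even and `c = 2i` for `i` odd, and write `k = n mod c`, `ℓ = m mod i`, `n' = ⌊n/i⌋`, `m' = ⌊m/i⌋`, `t = (r−1)/i`. Then every element of `T`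 of order `r` fixes some totally singular `m`-space if and only if either (i) `r = 2` and (`m < (n−1)/2` or `q ≡ 1 (mod 4)`); or (ii) `r ≠ p` is odd, `i ≤ m`, `k > 2ℓ`, and (`i` is odd or `n' − 2m' ≥ t`). -/
theorem result {F : Type*} [Field F] [Fintype F] {p : ℕ} [Fact p.Prime] [CharP F p] {q : ℕ} (hq : Fintype.card F = q) (hqodd : Odd q)
    (d m : ℕ) (hd : 3 ≤ d) (hm : 1 ≤ m) (hmd : m ≤ d)
    (r : ℕ) [Fact r.Prime]
    (hrΩ : r ∣ Nat.card {W : Submodule F (Unit ⊕ (Fin d ⊕ Fin d) → F) // Module.finrank F ↥W = m ∧ (∀ w ∈ W, Cfsg.quadFormOdd d F w = 0)})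
    (i c : ℕ) (hi : i = orderOf (q : ZMod r)) (hc : c = if Even i then i else 2 * i) :
    (∀ x : GL (Unit ⊕ (Fin d ⊕ Fin d)) F, x ∈ Cfsg.Geo.omegaGL (Cfsg.quadFormOdd d F) → orderOf x = r →
      ∃ W : Submodule F (Unit ⊕ (Fin d ⊕ Fin d) → F), Module.finrank F ↥W = m ∧ (∀ w ∈ W, Cfsg.quadFormOdd d F w = 0) ∧
        W.map (Matrix.toLin' (x : Matrix (Unit ⊕ (Fin d ⊕ Fin d)) (Unit ⊕ (Fin d ⊕ Fin d)) F)) ≤ W) ↔
    ((r = 2 ∧ (m < d ∨ q % 4 = 1)) ∨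
     (r ≠ p ∧ 2 < r ∧ i ≤ m ∧ 2 * (m % i) < (2 * d + 1) % c ∧ (Odd i ∨ (r - 1) / i + 2 * (m / i) ≤ (2 * d + 1) / i))) := by
  subst hq
  subst hi
  have hcc : c = Cfsg.Agent.H42.Spd.cc F r := by
    rw [hc]
    rfl
  rw [hcc]
  have hBlockRel := Cfsg.Agent.H67.Spd.blockRel Cfsg.Agent.H16.Spd.block
  have hModc := Cfsg.Agent.H24.Spd.modc hBlockRel Cfsg.Agent.H77.Spd.fix Cfsg.Agent.H77.Spd.compl
  have hCntP := Cfsg.Agent.H72.Ti.tiCntP Cfsg.Agent.H72.Ti.tiTuples Cfsg.Agent.H72.Ti.tiFib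
  have hCnt := Cfsg.Agent.H72.Ti.tiCnt Cfsg.Agent.H72.Ti.tiTuples Cfsg.Agent.H72.Ti.tiFib
  have hCyc := Cfsg.Agent.H3.Ti.cycSet
  have hUpper := Cfsg.Agent.H3.Ti.tiUpper Cfsg.Agent.H72.Ti.tiHalf
  have hPrim := Cfsg.Agent.H3.Ti.tiPrim Cfsg.Agent.H3.Ti.cycSet
  have hUpperEven := Cfsg.Agent.H60.Ti.tiUpperEven Cfsg.Agent.H3.Ti.cycSet hPrim
    Cfsg.Agent.H3.Ti.tiCompDvd Cfsg.Agent.H16.Ti.tiCompNd Cfsg.Agent.H72.Ti.tiHalf
  have hHypClose := Cfsg.Agent.H16.Ti.tiHypClose Cfsg.Agent.H3.Ti.tiCompDvd Cfsg.Agent.H3.Ti.tiIrrSub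
  have hPair := Cfsg.Agent.H3.Ti.tiPair Cfsg.Agent.H3.Ti.tiCompDvd Cfsg.Agent.H3.Ti.tiIrrSub
    hHypClose Cfsg.Agent.H32.Ti.tiAnti
  have hStepEven := Cfsg.Agent.H3.Ti.tiStepEven Cfsg.Agent.H3.Ti.cycSet hPrim
    Cfsg.Agent.H3.Ti.tiCompDvd Cfsg.Agent.H16.Ti.tiCompNd hPair
  have hBuild := Cfsg.Agent.H14.Ti.tiBuild Cfsg.Agent.H72.Ti.tiPeel Cfsg.Agent.H14.Ti.tiStepOdd
    hStepEven
  have hModAll := Cfsg.Agent.H14.Ti.tiModAll Cfsg.Agent.H16.Ti.tiModBlock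
    Cfsg.Agent.H14.Ti.tiModStd Cfsg.Agent.H32.Ti.tiModAdd
  have hExEven := Cfsg.Agent.H60.Ti.tiExEven Cfsg.Agent.H3.Ti.cycSet hModAll
    Cfsg.Agent.H32.Ti.tiTransport Cfsg.Agent.H72.Ti.tiSpread
  have hOSplit := Cfsg.Agent.H86.Ot.oSplit
  have hOHalf := Cfsg.Agent.H86.Ot.oHalf
  have hOWitt := Cfsg.Agent.H86.Ot.oWitt
  have hOTrick := Cfsg.Agent.H60.Ot.oTrick hOSplit
  have hOUpper := Cfsg.Agent.H60.Ot.oUpper hOTrick hOSplit hOHalf hUpper hUpperEven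
  have hOBuild := Cfsg.Agent.H60.Ot.oBuild hOTrick hOSplit hOWitt hBuild
  have hOModc := Cfsg.Agent.H60.Ot.oModc hOTrick hOSplit hModc
  have hOTuples := Cfsg.Agent.H32.Ot.oTuples Cfsg.Agent.H98.Ot.oZeros
  have hOInvOmega := Cfsg.Agent.H86.Ot.oInvOmega hOWitt
  have hOInvEx := Cfsg.Agent.H86.Ot.oInvEx hOHalf
  exact Cfsg.Agent.H14.Ot.ot_main hOTuples Cfsg.Agent.H98.Ot.oFib
    (Cfsg.Agent.H86.Ot.oInvLow hOWitt) hOInvOmega hOInvEx hOUpper hOBuild hOModc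
    Cfsg.Agent.H14.Ot.oTransport Cfsg.Agent.H72.Ti.tiTuples Cfsg.Agent.H72.Ti.tiFib hCntP hCnt hCyc
    hExEven Cfsg.Agent.H42.Spd.ex hqodd d m hd hmd r hrΩ

end Cfsg.Agent.S5972
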