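import Cfsg.Statements.S5979
import Cfsg.Agent.H99.TenGlue
import Cfsg.Agent.H27.TenDIAG
import Cfsg.Agent.H53.TenFIN
import Cfsg.Agent.H69.TenNT1
import Cfsg.Agent.H69.TenWIT
import Cfsg.Agent.H18.TenRANK
import Cfsg.Agent.H18.TenCEN
import Cfsg.Agent.H98.TenSQ
import Cfsg.Agent.H67.TenNT2
import Cfsg.Agent.H35.TenNSQ
import Cfsg.Agent.H99.ElSTR

set_option autoImplicit false
open scoped MatrixGroups
open Cfsg

namespace Cfsg.Agent.S5979

open scoped Kronecker
open Cfsg.Agent.H99.Ten

/-- The dichotomy for a matrix conjugate to a Kronecker product. -/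
theorem dichotomy {F : Type*} [Field F] {n a b : ℕ} (ha : 0 < a) (hab : a < b)
    (e : Fin n ≃ Fin a × Fin b) (x Q : Matrix (Fin n) (Fin n) F)
    (A : Matrix (Fin a) (Fin a) F) (B : Matrix (Fin b) (Fin b) F) (hA : IsUnit A.det)
    (hB : IsUnit B.det) (hQ : IsUnit Q.det)
    (h : x * Q = Q * Matrix.reindex e.symm e.symm (A ⊗ₖ B)) :
    (∀ μ : F, (x - μ • (1 : Matrix (Fin n) (Fin n) F)).rank < a →
      ∃ z : F, x = z • (1 : Matrix (Fin n) (Fin n) F)) ∧
    (((∃ μ : F, (x - μ • (1 : Matrix (Fin n) (Fin n) F)).rank < b) ∨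
        (∃ α : F, A = α • (1 : Matrix (Fin a) (Fin a) F))) →
      ∃ Y : Matrix (Fin b) (Fin b) F,
        (∀ ν : F, (x - ν • (1 : Matrix (Fin n) (Fin n) F)).rank
          = a * (Y - ν • (1 : Matrix (Fin b) (Fin b) F)).rank) ∧
        ∀ k : ℕ, x ^ k = 1 → Y ^ k = 1) := by
  have hscalA : ∀ μ : F, (x - μ • (1 : Matrix (Fin n) (Fin n) F)).rank < b →
      ∃ α : F, A = α • (1 : Matrix (Fin a) (Fin a) F) := by
    intro μ hμ
    by_contra hA'
    have h1 := (Cfsg.Agent.H18.Ten.le_rank_kronecker_sub A B hA hB μ).1 hA'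
    rw [← rank_transfer e x Q (A ⊗ₖ B) hQ h μ] at h1
    omega
  have hY : (∃ α : F, A = α • (1 : Matrix (Fin a) (Fin a) F)) →
      ∃ Y : Matrix (Fin b) (Fin b) F,
        (∀ ν : F, (x - ν • (1 : Matrix (Fin n) (Fin n) F)).rank
          = a * (Y - ν • (1 : Matrix (Fin b) (Fin b) F)).rank) ∧
        ∀ k : ℕ, x ^ k = 1 → Y ^ k = 1 := by
    rintro ⟨α, rfl⟩
    refine ⟨α • B, fun ν => ?_, fun k hk => ?_⟩
    · rw [rank_transfer e x Q _ hQ h ν]
      exact Cfsg.Agent.H18.Ten.rank_scalar_kronecker_sub α B ν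
    · exact Cfsg.Agent.H18.Ten.scalar_kronecker_pow_eq_one ha α B k
        (pow_transfer e x Q _ hQ h k hk)
  refine ⟨?_, ?_⟩
  · intro μ hμ
    obtain ⟨α, hα⟩ := hscalA μ (by omega)
    have hB' : ∃ β : F, B = β • (1 : Matrix (Fin b) (Fin b) F) := by
      by_contra hB'
      have h1 := (Cfsg.Agent.H18.Ten.le_rank_kronecker_sub A B hA hB μ).2 hB'
      rw [← rank_transfer e x Q (A ⊗ₖ B) hQ h μ] at h1
      omega
    obtain ⟨β, hβ⟩ := hB'
    refine ⟨α * β, ?_⟩
    have h2 : Matrix.reindex e.symm e.symm (A ⊗ₖ B)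
        = (α * β) • (1 : Matrix (Fin n) (Fin n) F) := by
      rw [hα, hβ]
      ext i j
      simp only [Matrix.reindex_apply, Equiv.symm_symm, Matrix.submatrix_apply,
        Matrix.kroneckerMap_apply, Matrix.smul_apply, Matrix.one_apply, smul_eq_mul]
      by_cases hij : i = j
      · subst hij
        simp
      · have hne : e i ≠ e j := fun h => hij (e.injective h)
        rw [if_neg hij]
        by_cases h1 : (e i).1 = (e j).1
        · have h2 : (e i).2 ≠ (e j).2 := fun h2 => hne (Prod.ext h1 h2)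
          rw [if_neg h2]
          ring
        · rw [if_neg h1]
          ring
    rw [h2, Matrix.mul_smul, Matrix.mul_one] at h
    have hQ' : IsUnit Q := (Matrix.isUnit_iff_isUnit_det Q).mpr hQ
    obtain ⟨u, rfl⟩ := hQ'
    have h3 : x * (u : Matrix (Fin n) (Fin n) F)
        = ((α * β) • (1 : Matrix (Fin n) (Fin n) F)) * (u : Matrix (Fin n) (Fin n) F) := by
      rw [h, Matrix.smul_mul, Matrix.one_mul]
    exact (Units.mul_left_inj u).mp h3
  · rintro (⟨μ, hμ⟩ | hα)
    · exact hY (hscalA μ hμ)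
    · exact hY hα

theorem result {F : Type*} [Field F] [Fintype F] {p : ℕ} [Fact p.Prime] [CharP F p] {q : ℕ} (hq : Fintype.card F = q)
    (n a b : ℕ) (hab : n = a * b) (ha : 2 ≤ a) (hlt : a < b) (e : Fin n ≃ Fin a × Fin b) (P : GL (Fin n) F)
    (r : ℕ) [Fact r.Prime]
    (hΩ : r ∣ (Cfsg.Geo.tensorProductSubgroup a b e P).relIndex (Cfsg.Geo.specialLinear (Fin n) F)) :
    (∀ x ∈ Cfsg.Geo.specialLinear (Fin n) F, (∃ z : F, ((x ^ r : GL (Fin n) F) : Matrix (Fin n) (Fin n) F) = z • (1 : Matrix (Fin n) (Fin n) F)) →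
      (∀ z : F, (x : Matrix (Fin n) (Fin n) F) ≠ z • (1 : Matrix (Fin n) (Fin n) F)) →
      ∃ g ∈ Cfsg.Geo.specialLinear (Fin n) F, g⁻¹ * x * g ∈ Cfsg.Geo.tensorProductSubgroup a b e P) ↔
    (r = 2 ∧ a = 2 ∧ Odd q ∧ padicValNat 2 (q - 1) ≤ padicValNat 2 n) := by
  classical
  subst hq
  have hr : r.Prime := Fact.out
  have hp : p.Prime := Fact.out
  have hb3 : 3 ≤ b := by omega
  have hn6 : 6 ≤ n := by
    rw [hab]
    calc 6 = 2 * 3 := rfl
      _ ≤ a * b := Nat.mul_le_mul ha hb3
  have hna : a ≤ n := by rw [hab]; exact Nat.le_mul_of_pos_right a (by omega)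
  constructor
  · -- (⇒)
    intro hL
    -- the key consequence of the hypothesis for a witness matrix
    have key : ∀ M : Matrix (Fin n) (Fin n) F, M.det = 1 →
        (∃ z : F, M ^ r = z • (1 : Matrix (Fin n) (Fin n) F)) →
        (∀ z : F, M ≠ z • (1 : Matrix (Fin n) (Fin n) F)) →
        ∃ (A : Matrix (Fin a) (Fin a) F) (B : Matrix (Fin b) (Fin b) F)
          (Q : Matrix (Fin n) (Fin n) F), IsUnit A.det ∧ IsUnit B.det ∧ IsUnit Q.det ∧
          M * Q = Q * Matrix.reindex e.symm e.symm (A ⊗ₖ B) := by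
      intro M hdet hpow hns
      obtain ⟨x, hxS, hxM⟩ := exists_GL_of_det_one M hdet
      obtain ⟨g, -, hg⟩ := hL x hxS (by
        obtain ⟨z, hz⟩ := hpow
        exact ⟨z, by rw [Units.val_pow_eq_pow_val, hxM, hz]⟩) (by rw [hxM]; exact hns)
      obtain ⟨A, B, Q, hA, hB, hQ, h⟩ := tensor_of_mem e P x g hg
      rw [hxM] at h
      exact ⟨A, B, Q, hA, hB, hQ, h⟩
    by_cases hrp : r = p
    · -- the transvection
      exfalso
      subst hrp
      obtain ⟨M, hdet, hpow, hns, hrank⟩ :=
        Cfsg.Agent.H69.Ten.exists_transvection_matrix (F := F) (p := r) n (by omega)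
      obtain ⟨A, B, Q, hA, hB, hQ, h⟩ := key M hdet ⟨1, by rw [hpow, one_smul]⟩ hns
      obtain ⟨z, hz⟩ := (dichotomy (by omega) hlt e M Q A B hA hB hQ h).1 1 (by
        rw [one_smul]; omega)
      exact hns z hz
    have hrF : (r : F) ≠ 0 := by
      intro h0
      have h1 := (CharP.cast_eq_zero_iff F p r).mp h0
      exact hrp ((Nat.prime_dvd_prime_iff_eq hp hr).mp h1).symm
    by_cases hr2 : r = 2
    · -- r = 2, p odd
      subst hr2
      have h2F : (2 : F) ≠ 0 := by exact_mod_cast hrF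
      have hp2 : p ≠ 2 := fun h => hrp h.symm
      have hqodd : Odd (Fintype.card F) := by
        obtain ⟨k, hpk, hk⟩ := FiniteField.card F p
        rw [hk]
        exact (hp.odd_of_ne_two hp2).pow
      have ha2 : a = 2 := by
        by_contra ha2
        obtain ⟨M, hdet, hpow, -, hns, hrank, -, -⟩ :=
          Cfsg.Agent.H27.Ten.diag3_props (F := F) n (by omega) (-1) (-1) 1
        have hdet1 : M.det = 1 := by rw [hdet]; simp
        have hpow2 : M ^ 2 = 1 := by
          rw [hpow 2, ← Matrix.diagonal_one]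
          congr 1
          funext i
          split_ifs <;> simp
        have hns' := hns (by omega) (by
          intro h
          have h3 : (2 : F) = 0 := by linear_combination -h
          exact h2F h3)
        obtain ⟨A, B, Q, hA, hB, hQ, h⟩ := key M hdet1 ⟨1, by rw [hpow2, one_smul]⟩ hns'
        obtain ⟨z, hz⟩ := (dichotomy (by omega) hlt e M Q A B hA hB hQ h).1 1 (by
          have := hrank 1 rfl
          omega)
        exact hns' z hz
      refine ⟨rfl, ha2, hqodd, ?_⟩
      by_contra hv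
      push Not at hv
      obtain ⟨l, hl⟩ := Cfsg.Agent.H67.Ten.exists_pow_eq_neg_one (F := F) n (by omega) hqodd hv
      have hl0 : l ≠ 0 := by
        rintro rfl
        rw [zero_pow (by omega)] at hl
        have h3 : (1 : F) = 0 := by linear_combination hl
        exact one_ne_zero h3
      obtain ⟨M, hdet, hpow, hns, -, -, hrank, -⟩ :=
        Cfsg.Agent.H27.Ten.diag3_props (F := F) n (by omega) (-l) l l
      have hdet1 : M.det = 1 := by
        rw [hdet]
        have h3 : -l * l * l ^ (n - 2) = -(l ^ n) := by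
          have h4 : n = (n - 2) + 2 := by omega
          conv_rhs => rw [h4]
          ring
        rw [h3, hl, neg_neg]
      have hpow2 : M ^ 2 = (l ^ 2) • (1 : Matrix (Fin n) (Fin n) F) := by
        rw [hpow 2, ← Matrix.diagonal_one, ← Matrix.diagonal_smul]
        congr 1
        funext i
        split_ifs <;> simp
      have hns' := hns (by
        intro h
        have h3 : (2 : F) * l = 0 := by linear_combination -h
        rcases mul_eq_zero.mp h3 with h4 | h4
        · exact h2F h4
        · exact hl0 h4)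
      obtain ⟨A, B, Q, hA, hB, hQ, h⟩ := key M hdet1 ⟨l ^ 2, hpow2⟩ hns'
      obtain ⟨z, hz⟩ := (dichotomy (by omega) hlt e M Q A B hA hB hQ h).1 l (by
        have := hrank l rfl rfl
        omega)
      exact hns' z hz
    · -- r odd, r ≠ p: impossible
      exfalso
      have hcn : orderOf (Fintype.card F : ZMod r) ≤ n :=
        Cfsg.Agent.H69.Ten.order_le_of_dvd_relIndex n r hr hrF _ hΩ
      have hcpos : 0 < orderOf (Fintype.card F : ZMod r) :=
        Cfsg.Agent.H99.El.orderOf_card_pos r hr hrF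
      by_cases hc1 : orderOf (Fintype.card F : ZMod r) = 1
      · obtain ⟨ζ, hζr, hζ1⟩ := Cfsg.Agent.H67.Ten.exists_root_of_unity (F := F) r hr hrF hc1
        have hζ0 : ζ ≠ 0 := by
          rintro rfl
          rw [zero_pow hr.ne_zero] at hζr
          exact zero_ne_one hζr
        have hζ2 : ζ⁻¹ ≠ ζ := by
          intro h
          have h3 : ζ ^ 2 = 1 := by
            rw [pow_two]
            nth_rewrite 1 [← h]
            exact inv_mul_cancel₀ hζ0
          have h4 : orderOf ζ ∣ 2 := orderOf_dvd_of_pow_eq_one h3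
          have h5 : orderOf ζ ∣ r := orderOf_dvd_of_pow_eq_one hζr
          have h6 : orderOf ζ ∣ Nat.gcd 2 r := Nat.dvd_gcd h4 h5
          have h7 : Nat.gcd 2 r = 1 :=
            (Nat.coprime_primes Nat.prime_two hr).mpr (fun h => hr2 h.symm)
          rw [h7, Nat.dvd_one] at h6
          exact hζ1 (orderOf_eq_one_iff.mp h6)
        obtain ⟨M, hdet, hpow, hns, -, hrank2, -, hrankn⟩ :=
          Cfsg.Agent.H27.Ten.diag3_props (F := F) n (by omega) ζ ζ⁻¹ 1
        have hdet1 : M.det = 1 := by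
          rw [hdet, one_pow, mul_one, mul_inv_cancel₀ hζ0]
        have hpowr : M ^ r = 1 := by
          rw [hpow r, ← Matrix.diagonal_one]
          congr 1
          funext i
          split_ifs
          · exact hζr
          · rw [inv_pow, hζr, inv_one]
          · exact one_pow r
        have hns' := hns (fun h => hζ2 h.symm)
        obtain ⟨A, B, Q, hA, hB, hQ, h⟩ := key M hdet1 ⟨1, by rw [hpowr, one_smul]⟩ hns'
        obtain ⟨Y, hY, -⟩ := (dichotomy (by omega) hlt e M Q A B hA hB hQ h).2 (Or.inl ⟨1, by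
          have := hrank2 1 rfl
          omega⟩)
        have h3 := hY ζ
        rw [hrankn ζ rfl hζ2 (fun h => hζ1 h.symm)] at h3
        -- a ∣ n - 1 and a ∣ n
        have h4 : a ∣ n - 1 := ⟨_, h3⟩
        have h5 : a ∣ n := ⟨b, hab⟩
        have h6 : a ∣ 1 := by
          have h7 : n - (n - 1) = 1 := by omega
          rw [← h7]
          exact Nat.dvd_sub h5 h4
        have := Nat.le_of_dvd Nat.one_pos h6
        omega
      · have hc2 : 2 ≤ orderOf (Fintype.card F : ZMod r) := by omega
        obtain ⟨M, hdet, hpow, hns, hrank⟩ :=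
          Cfsg.Agent.H69.Ten.exists_one_block_matrix (F := F) r hr hrF n hc2 hcn
        obtain ⟨A, B, Q, hA, hB, hQ, h⟩ := key M hdet ⟨1, by rw [hpow, one_smul]⟩ hns
        have hrank1 : (M - (1 : F) • (1 : Matrix (Fin n) (Fin n) F)).rank
            = orderOf (Fintype.card F : ZMod r) := by
          rw [one_smul]; exact hrank
        have hYex : ∃ Y : Matrix (Fin b) (Fin b) F,
            (∀ ν : F, (M - ν • (1 : Matrix (Fin n) (Fin n) F)).rank
              = a * (Y - ν • (1 : Matrix (Fin b) (Fin b) F)).rank) ∧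
            ∀ k : ℕ, M ^ k = 1 → Y ^ k = 1 := by
          apply (dichotomy (by omega) hlt e M Q A B hA hB hQ h).2
          by_cases hcb : orderOf (Fintype.card F : ZMod r) < b
          · exact Or.inl ⟨1, by rw [hrank1]; exact hcb⟩
          · right
            exact Cfsg.Agent.H53.Ten.scalar_of_kronecker_pow_eq_one (by omega) r hr hrF hc2
              (by omega) A B (pow_transfer e M Q _ hQ h r hpow)
        obtain ⟨Y, hY, hYpow⟩ := hYex
        have h3 := hY 1
        rw [hrank1, one_smul] at h3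
        have h4 := Cfsg.Agent.H53.Ten.order_dvd_rank_sub_one r hr hrF Y (hYpow r hpow)
        have h5 : (Y - 1).rank ≠ 0 := by
          intro h0
          rw [h0, Nat.mul_zero] at h3
          omega
        have h6 := Nat.le_of_dvd (Nat.pos_of_ne_zero h5) h4
        have h7 : 2 * (Y - 1).rank ≤ a * (Y - 1).rank := Nat.mul_le_mul_right _ ha
        omega
  · -- (⇐)
    rintro ⟨rfl, rfl, hqodd, hv⟩
    intro x hxS hxpow hxns
    obtain ⟨z, hz⟩ := hxpow
    have h2F : (2 : F) ≠ 0 := by
      intro h0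
      have h1 : ((2 : ℕ) : F) = 0 := by exact_mod_cast h0
      have h3 := (CharP.cast_eq_zero_iff F p 2).mp h1
      have h4 : p = 2 := (Nat.prime_dvd_prime_iff_eq hp Nat.prime_two).mp h3
      obtain ⟨k, hpk, hk⟩ := FiniteField.card F p
      rw [hk, h4] at hqodd
      have hk0 : (k : ℕ) ≠ 0 := k.ne_zero
      have : Even (2 ^ (k : ℕ)) := (Nat.even_pow.mpr ⟨even_two, hk0⟩)
      exact (Nat.not_even_iff_odd.mpr hqodd) this
    have hdet : (x : Matrix (Fin n) (Fin n) F).det = 1 := det_of_mem_specialLinear x hxS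
    have hxx : (x : Matrix (Fin n) (Fin n) F) * (x : Matrix (Fin n) (Fin n) F)
        = z • (1 : Matrix (Fin n) (Fin n) F) := by
      rw [← hz, Units.val_pow_eq_pow_val, pow_two]
    have hzn : z ^ n = 1 := by
      have h1 := congrArg Matrix.det hxx
      rw [Matrix.det_mul, hdet, mul_one, Matrix.det_smul, Matrix.det_one, mul_one,
        Fintype.card_fin] at h1
      exact h1.symm
    by_cases hsq : ∃ l : F, l ^ 2 = z
    · obtain ⟨l, hl⟩ := hsq
      have hl0 : l ≠ 0 := by
        rintro rfl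
        rw [zero_pow two_ne_zero] at hl
        rw [← hl, zero_pow (by omega)] at hzn
        exact zero_ne_one hzn
      have hln : l ^ n = 1 := by
        apply Cfsg.Agent.H67.Ten.pow_eq_one_of_pow_two_mul n (by omega) hqodd hv l
        rw [pow_mul, hl, hzn]
      obtain ⟨D, Q, hD, hQ, hxQ⟩ := Cfsg.Agent.H98.Ten.exists_tensor_form_of_sq h2F e
        (x : Matrix (Fin n) (Fin n) F) l hl0 (by rw [hl]; exact hxx) hdet hln
      obtain ⟨Au, hAu⟩ : ∃ Au : GL (Fin 2) F,
          (Au : Matrix (Fin 2) (Fin 2) F) = l • (1 : Matrix (Fin 2) (Fin 2) F) := by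
        refine ⟨Matrix.nonsingInvUnit (l • (1 : Matrix (Fin 2) (Fin 2) F)) ?_, rfl⟩
        rw [Matrix.det_smul, Matrix.det_one, mul_one]
        exact (pow_ne_zero _ hl0).isUnit
      obtain ⟨Bu, hBu⟩ : ∃ Bu : GL (Fin b) F,
          (Bu : Matrix (Fin b) (Fin b) F) = Matrix.diagonal D := by
        refine ⟨Matrix.nonsingInvUnit (Matrix.diagonal D) ?_, rfl⟩
        rw [Matrix.det_diagonal]
        apply IsUnit.mk0
        rw [Finset.prod_ne_zero_iff]
        intro j _
        rcases hD j with h | h <;> rw [h] <;> simp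
      have hR : Matrix.reindex e.symm e.symm ((Au : Matrix (Fin 2) (Fin 2) F) ⊗ₖ
          (Bu : Matrix (Fin b) (Fin b) F)) = Matrix.diagonal (fun k => l * D (e k).2) := by
        rw [hAu, hBu]
        exact reindex_scalar_kronecker_diagonal e l D
      apply exists_SL_conj e P x Au Bu Q hQ (by rw [hR]; exact hxQ)
      intro d hd
      rw [hR]
      refine ⟨Matrix.diagonal (Function.update (fun _ => (1 : F)) (⟨0, by omega⟩ : Fin n) d),
        ?_, ?_⟩
      · rw [Matrix.det_diagonal, Finset.prod_update_of_mem (Finset.mem_univ _)]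
        simp
      · rw [Matrix.diagonal_mul_diagonal, Matrix.diagonal_mul_diagonal]
        congr 1
        funext i
        exact mul_comm _ _
    · push Not at hsq
      obtain ⟨Q, hQ, hxQ⟩ := Cfsg.Agent.H35.Ten.exists_tensor_form_of_nonsq e
        (x : Matrix (Fin n) (Fin n) F) z hsq hxx
      have hz0 : z ≠ 0 := by
        rintro rfl
        exact hsq 0 (zero_pow two_ne_zero)
      obtain ⟨Au, hAu⟩ : ∃ Au : GL (Fin 2) F,
          (Au : Matrix (Fin 2) (Fin 2) F) = !![0, z; 1, 0] := by
        refine ⟨Matrix.nonsingInvUnit (!![0, z; 1, 0] : Matrix (Fin 2) (Fin 2) F) ?_, rfl⟩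
        rw [Matrix.det_fin_two_of]
        apply IsUnit.mk0
        simpa using hz0
      apply exists_SL_conj e P x Au 1 Q hQ (by rw [hAu, Units.val_one]; exact hxQ)
      intro d hd
      rw [hAu, Units.val_one]
      exact Cfsg.Agent.H18.Ten.exists_centralizer_det h2F (by omega) e z hsq d hd

end Cfsg.Agent.S5979
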