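import Cfsg.Statements.S5981
import Cfsg.Agent.H14.OrtCAYLEY
import Cfsg.Agent.H14.OrtCONG
import Cfsg.Agent.H14.OrtSKEW
import Cfsg.Agent.H15.OrtRSA
import Cfsg.Agent.H15.OrtRSB
import Cfsg.Agent.H16.OrtGLUE
import Cfsg.Agent.H16.OrtODDC
import Cfsg.Agent.H3.OrtPAD
import Cfsg.Agent.H35.OrtIDXO
import Cfsg.Agent.H35.OrtWD1
import Cfsg.Agent.H4.OrtDIAGW
import Cfsg.Agent.H4.OrtE35
import Cfsg.Agent.H4.OrtWP
import Cfsg.Agent.H40.OrtCOMB35
import Cfsg.Agent.H40.OrtNF
import Cfsg.Agent.H40.OrtWD3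
import Cfsg.Agent.H40.OrtWDETA
import Cfsg.Agent.H60.OrtARITH
import Cfsg.Agent.H67.TenNT2
import Cfsg.Agent.H69.TenNT1
import Cfsg.Agent.H69.TenWIT
import Cfsg.Agent.H7.Unitary
import Cfsg.Agent.H77.SubNT
import Cfsg.Agent.H98.OrtInvDiag
import Cfsg.Agent.H98.OrtNsq
import Cfsg.Agent.H98.OrtSimSq
import Cfsg.Agent.H99.OrtDefs
import Cfsg.Agent.H99.TenGlue

set_option autoImplicit false
open scoped MatrixGroups
open Cfsg

namespace Cfsg.Agent.S5981

open Cfsg.Agent.H99.Ort

/-- Elements of prime order of PSL_n(q), q odd, and the subgroups of orthogonal type. Here `T = PSL_n(F)` for a field `F` with `q` elements, `q` odd, `n ≥ 3`; `Q` is a non-degenerate quadratic form on `F^n` (of either type when `n` is even) and `H` is the subgroup of matrices of determinant 1 that preserve `Q` up to a scalar — a subgroup of type O^ε_n(q) (maximality is not assumed); Ω is the set of cosets of `H` in `T`, so an element of `T` of prime order `r` (a matrix `x` of determinant 1 with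 `x^r` scalar, `x` not scalar) fixes a point of Ω exactly when some conjugate of `x` by a matrix of determinant 1 preserves `Q` up to a scalar. Let `r` be a prime dividing the index of `H`, with `(n, r) ≠ (6, 3)`. Then every element of `T` of order `r` fixes a point of Ω if and only if `r = 2`, or `r ∈ {3, 5}`, `n = r` and `(q − 1)_r = r` (the `r`-part of `q − 1` is exactly `r`). The case `(n, r) = (6, 3)` is not covered by this statement. -/
theorem result {F : Type*} [Field F] [Fintype F] {p : ℕ} [Fact p.Prime] [CharP F p] {q : ℕ} (hq : Fintype.card F = q)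
    (hodd : Odd q) (n : ℕ) (hn : 3 ≤ n) (Q : (Fin n → F) → F) (hQ : Cfsg.Geo.IsNondegenerateQuadraticForm Q)
    (r : ℕ) [Fact r.Prime] (hgap : ¬ (n = 6 ∧ r = 3))
    (hΩ : r ∣ (Cfsg.Geo.quadSimilarityGroup Q).relIndex (Cfsg.Geo.specialLinear (Fin n) F)) :
    (∀ x ∈ Cfsg.Geo.specialLinear (Fin n) F, (∃ z : F, ((x ^ r : GL (Fin n) F) : Matrix (Fin n) (Fin n) F) = z • (1 : Matrix (Fin n) (Fin n) F)) →
      (∀ z : F, (x : Matrix (Fin n) (Fin n) F) ≠ z • (1 : Matrix (Fin n) (Fin n) F)) →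
      ∃ g ∈ Cfsg.Geo.specialLinear (Fin n) F, g⁻¹ * x * g ∈ Cfsg.Geo.quadSimilarityGroup Q) ↔
    (r = 2 ∨ ((r = 3 ∨ r = 5) ∧ n = r ∧ padicValNat r (q - 1) = 1)) := by
  classical
  subst hq
  have hrP : r.Prime := Fact.out
  have hp : p.Prime := Fact.out
  have hn1 : 1 ≤ n := by omega
  have hq1 : 1 < Fintype.card F := Fintype.one_lt_card
  have h2F : (2 : F) ≠ 0 := by
    intro h0
    have h1 : p ∣ 2 := (CharP.cast_eq_zero_iff F p 2).mp (by exact_mod_cast h0)
    have h2 : p = 2 := (Nat.prime_dvd_prime_iff_eq hp Nat.prime_two).mp h1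
    have h3 : p ∣ Fintype.card F := by
      obtain ⟨k, -, hk⟩ := FiniteField.card F p
      rw [hk]
      exact dvd_pow_self p k.ne_zero
    rw [h2] at h3
    obtain ⟨j, hj⟩ := hodd
    omega
  obtain ⟨P, δ, hP, hδ, hQP⟩ := Cfsg.Agent.H40.Ort.nf F n hn1 h2F Q hQ
  obtain ⟨Δ, hΔ⟩ : ∃ Δ : Matrix (Fin n) (Fin n) F, Δ = Matrix.diagonal (dgn n δ) := ⟨_, rfl⟩
  rw [← hΔ] at hQP
  have hΔs : Δ.transpose = Δ := by rw [hΔ, Matrix.diagonal_transpose]
  have hΔdet : Δ.det = δ := by rw [hΔ, det_diagonal_dgn n hn1 δ]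
  have hΔu : IsUnit Δ.det := by rw [hΔdet]; exact isUnit_iff_ne_zero.mpr hδ
  have hP0 : P.det ≠ 0 := hP.ne_zero
  have key : (∀ x ∈ Cfsg.Geo.specialLinear (Fin n) F,
      (∃ z : F, ((x ^ r : GL (Fin n) F) : Matrix (Fin n) (Fin n) F)
        = z • (1 : Matrix (Fin n) (Fin n) F)) →
      (∀ z : F, (x : Matrix (Fin n) (Fin n) F) ≠ z • (1 : Matrix (Fin n) (Fin n) F)) →
      ∃ g ∈ Cfsg.Geo.specialLinear (Fin n) F,
        g⁻¹ * x * g ∈ Cfsg.Geo.quadSimilarityGroup Q) →
      ∀ M : Matrix (Fin n) (Fin n) F, M.det = 1 →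
        (∃ z : F, M ^ r = z • (1 : Matrix (Fin n) (Fin n) F)) →
        (∀ z : F, M ≠ z • (1 : Matrix (Fin n) (Fin n) F)) → Conj M Δ := by
    intro hL M hdet ⟨z, hz⟩ hns
    obtain ⟨x, hxS, hxM⟩ := Cfsg.Agent.H99.Ten.exists_GL_of_det_one M hdet
    obtain ⟨g, hgS, hg⟩ := hL x hxS
      ⟨z, by rw [Units.val_pow_eq_pow_val, hxM]; exact hz⟩ (by rw [hxM]; exact hns)
    obtain ⟨s, c, hc, h1, h2⟩ := Cfsg.Agent.H16.Ort.simOfMem F n h2F Q P Δ hP hΔs hQP x g hg
    rw [hxM] at h1
    refine ⟨(g : Matrix (Fin n) (Fin n) F) * P, s, c, ?_, hc, h1, h2⟩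
    rw [Matrix.det_mul]
    exact (Matrix.isUnits_det_units g).mul hP
  have fin : ∀ x ∈ Cfsg.Geo.specialLinear (Fin n) F,
      ∀ (g' s : Matrix (Fin n) (Fin n) F) (c : F), g'.det = P.det → c ≠ 0 →
      (x : Matrix (Fin n) (Fin n) F) * g' = g' * s → s.transpose * Δ * s = c • Δ →
      ∃ g ∈ Cfsg.Geo.specialLinear (Fin n) F,
        g⁻¹ * x * g ∈ Cfsg.Geo.quadSimilarityGroup Q := by
    intro x hxS g' s c hdet hc hxg hs
    have hgdet : (g' * P⁻¹).det = 1 := by
      rw [Matrix.det_mul, hdet, Matrix.det_nonsing_inv, Ring.inverse_eq_inv,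
        mul_inv_cancel₀ hP0]
    obtain ⟨g, hgS, hgM⟩ := Cfsg.Agent.H99.Ten.exists_GL_of_det_one (g' * P⁻¹) hgdet
    have hgP : (g : Matrix (Fin n) (Fin n) F) * P = g' := by
      rw [hgM, Matrix.mul_assoc, Matrix.nonsing_inv_mul P hP, Matrix.mul_one]
    exact ⟨g, hgS, Cfsg.Agent.H16.Ort.memOfSim F n h2F Q P Δ hP hQP x g s c hc (by rw [hgP]; exact hxg) hs⟩
  constructor
  · intro hL
    have key' := key hL
    by_cases hr2 : r = 2
    · exact Or.inl hr2
    right
    have hrp : r ≠ p := by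
      intro h
      obtain ⟨M, hdet, hMp, hns, hW⟩ := Cfsg.Agent.H4.Ort.wp F p n (by omega) h2F Δ hΔu hΔs
      exact hW (key' M hdet ⟨1, by rw [h, hMp, one_smul]⟩ hns)
    have hrF : (r : F) ≠ 0 := by
      intro h0
      have h1 := (CharP.cast_eq_zero_iff F p r).mp h0
      exact hrp ((Nat.prime_dvd_prime_iff_eq hp hrP).mp h1).symm
    have hrq : ¬ r ∣ Fintype.card F := by
      intro h
      obtain ⟨k, -, hk⟩ := FiniteField.card F p
      rw [hk] at h
      exact hrp ((Nat.prime_dvd_prime_iff_eq hrP hp).mp (hrP.dvd_of_dvd_pow h))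
    have hcn := Cfsg.Agent.H69.Ten.order_le_of_dvd_relIndex n r hrP hrF
      (Cfsg.Geo.quadSimilarityGroup Q) hΩ
    obtain ⟨c, hc⟩ : ∃ c, c = orderOf (Fintype.card F : ZMod r) := ⟨_, rfl⟩
    rw [← hc] at hcn
    have hcpos : 0 < c := by
      have hcast : (Fintype.card F : ZMod r) ≠ 0 := by
        intro h
        exact hrq ((ZMod.natCast_eq_zero_iff _ _).mp h)
      have hr1 : 0 < r - 1 := by
        have := hrP.two_le
        omega
      rw [hc]
      exact Nat.pos_of_dvd_of_pos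
        (orderOf_dvd_of_pow_eq_one (ZMod.pow_card_sub_one_eq_one hcast)) hr1
    by_cases hc1 : c = 1
    · have hc1' : orderOf (Fintype.card F : ZMod r) = 1 := by rw [← hc]; exact hc1
      obtain ⟨ζ, hζ, hζ1⟩ := Cfsg.Agent.H67.Ten.exists_root_of_unity r hrP hrF hc1'
      have hrdvd : r ∣ Fintype.card F - 1 :=
        (Cfsg.Agent.H77.Sub.dvd_sub_one_iff_order_one (Fintype.card F) r hrP (by omega)).mpr hc1'
      have hvpos : 1 ≤ padicValNat r (Fintype.card F - 1) :=
        one_le_padicValNat_of_dvd (by omega) hrdvd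
      have hexc : n = r → padicValNat r (Fintype.card F - 1) = 1 := by
        intro hnr
        by_contra hv
        have hv2 : 2 ≤ padicValNat r (Fintype.card F - 1) := by omega
        subst hnr
        obtain ⟨η, hη, hη1⟩ := Cfsg.Agent.H77.Sub.exists_order_sq (F := F) n hrP hv2
        obtain ⟨d, z, hprod, hd, hnc, hasym⟩ := Cfsg.Agent.H40.Ort.wdEta F n hrP hr2 η hη hη1
        obtain ⟨M, hdet, hMr, hns, hW⟩ := Cfsg.Agent.H4.Ort.diagW F n n d z hprod hd hnc hasym Δ hΔu
        exact hW (key' M hdet ⟨z, hMr⟩ hns)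
      by_cases hr3 : r = 3
      · by_cases hn3 : n = 3
        · exact ⟨Or.inl hr3, by omega, hexc (by omega)⟩
        · exfalso
          have hn6 : n ≠ 6 := fun h => hgap ⟨h, hr3⟩
          obtain ⟨d, hprod, hd, hnc, hasym⟩ :=
            Cfsg.Agent.H40.Ort.wd3 F n (by omega) hn6 ζ (by rw [← hr3]; exact hζ) hζ1
          obtain ⟨M, hdet, hMr, hns, hW⟩ := Cfsg.Agent.H4.Ort.diagW F n 3 d 1 hprod hd hnc hasym Δ hΔu
          exact hW (key' M hdet ⟨1, by rw [hr3]; exact hMr⟩ hns)
      · have hr5 : 5 ≤ r := by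
          have h2 := hrP.two_le
          by_contra hlt
          have h4 : r = 4 := by omega
          rw [h4] at hrP
          exact absurd hrP (by norm_num)
        by_cases h55 : n = 5 ∧ r = 5
        · exact ⟨Or.inr h55.2, by omega, hexc (by omega)⟩
        · exfalso
          obtain ⟨d, hprod, hd, hnc, hasym⟩ := Cfsg.Agent.H35.Ort.wd1 F n r hn hrP hr5 h55 ζ hζ hζ1
          obtain ⟨M, hdet, hMr, hns, hW⟩ := Cfsg.Agent.H4.Ort.diagW F n r d 1 hprod hd hnc hasym Δ hΔu
          exact hW (key' M hdet ⟨1, hMr⟩ hns)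
    · exfalso
      have hc2 : 2 ≤ c := by omega
      have hc2' : 2 ≤ orderOf (Fintype.card F : ZMod r) := by rw [← hc]; exact hc2
      rcases Nat.even_or_odd c with hce | hco
      · have hroot : ∀ u : F, u ^ r = 1 → u = 1 := by
          intro u hu
          have hu0 : u ≠ 0 := by
            rintro rfl
            rw [zero_pow hrP.ne_zero] at hu
            exact zero_ne_one hu
          have h1 : u ^ (Fintype.card F - 1) = 1 := FiniteField.pow_card_sub_one_eq_one u hu0
          have hnd : ¬ r ∣ Fintype.card F - 1 := by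
            intro hd
            apply hc1
            rw [hc]
            exact (Cfsg.Agent.H77.Sub.dvd_sub_one_iff_order_one (Fintype.card F) r hrP
              (by omega)).mp hd
          have hcop : Nat.Coprime r (Fintype.card F - 1) :=
            (Nat.Prime.coprime_iff_not_dvd hrP).mpr hnd
          have h2 : orderOf u ∣ Nat.gcd r (Fintype.card F - 1) :=
            Nat.dvd_gcd (orderOf_dvd_of_pow_eq_one hu) (orderOf_dvd_of_pow_eq_one h1)
          rw [hcop.gcd_eq_one, Nat.dvd_one] at h2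
          exact orderOf_eq_one_iff.mp h2
        have hq2 : 2 ≤ Fintype.card F := hq1
        obtain ⟨k, hk⟩ : ∃ k, k = n / c := ⟨_, rfl⟩
        obtain ⟨m, hm⟩ : ∃ m, m = n % c := ⟨_, rfl⟩
        have hnk : n = k * c + m := by
          rw [hk, hm]
          exact (Nat.div_add_mod' n c).symm
        have hk1 : 1 ≤ k := by
          rw [hk]
          exact Nat.div_pos hcn (by omega)
        have hmc : m < c := by
          rw [hm]
          exact Nat.mod_lt n (by omega)
        have hrQ := Cfsg.Agent.H60.Ort.dvdHalf (Fintype.card F) r c hrP hr2 hrq hc hce hc2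
        obtain ⟨K, instKF, instKFt, instKA, b, A₁, hKcard, hA₁s, hA₁u, hA₁tr⟩ :=
          Cfsg.Agent.H15.Ort.rsa F (Fintype.card F) c rfl hce hc2
        obtain ⟨K₂, x₁, hK₂, hK₂card, hx₁, hx₁r, hx₁1⟩ :=
          Cfsg.Agent.H15.Ort.rsb F K c (Fintype.card F ^ (c / 2)) hKcard b A₁ hA₁tr r hrP hr2 hrQ k hk1
        rw [Cfsg.Agent.H7.card_GU hKcard k] at hK₂card
        have hK₂card' : Nat.card K₂ = guOrder (Fintype.card F ^ (c / 2)) k := hK₂card
        obtain ⟨ε, hε⟩ : ∃ ε : F, ε = δ * A₁.det ^ k := ⟨_, rfl⟩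
        have hε0 : ε ≠ 0 := by
          rw [hε]
          exact mul_ne_zero hδ (pow_ne_zero _ hA₁u.ne_zero)
        obtain ⟨A₀, K', x₀, hA₀s, hA₀det, hK', hdvd, hx₀, hx₀r, hx₀1, hx₀u⟩ :=
          Cfsg.Agent.H3.Ort.pad F (Fintype.card F) k c m n r rfl hnk hk1 hc2 A₁ hA₁s K₂ x₁ hK₂ hx₁ hx₁r hx₁1
            (dgn m ε)
        have hprodm : m ≠ 0 → ∏ i, dgn m ε i = ε := fun h => prod_dgn m (by omega) ε
        have hA₀u : IsUnit A₀.det := by
          rw [hA₀det]
          by_cases hm0 : m = 0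
          · have hprod1 : ∏ i, dgn m ε i = 1 := by
              haveI : IsEmpty (Fin m) := by
                rw [hm0]
                infer_instance
              exact Finset.prod_of_isEmpty _
            rw [hprod1, mul_one]
            exact hA₁u.pow k
          · rw [hprodm hm0]
            exact (hA₁u.pow k).mul (isUnit_iff_ne_zero.mpr hε0)
        by_cases hsq : IsSquare (δ * A₀.det)
        · obtain ⟨T, hT, hTA⟩ := Cfsg.Agent.H14.Ort.cong F n h2F Δ A₀ hΔs hA₀s hΔu hA₀u (by rw [hΔdet]; exact hsq)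
          have hidx := Cfsg.Agent.H35.Ort.idxO F n hn1 h2F Q P Δ A₀ T hP hT hQP hTA K' hK'
          rw [Matrix.card_GL_field] at hidx
          have h1 : r * guOrder (Fintype.card F ^ (c / 2)) k
              ∣ ∏ i : Fin n, (Fintype.card F ^ n - Fintype.card F ^ (i : ℕ)) := by
            rw [← hK₂card']
            have h2 : r * Nat.card K₂ ∣
                (Cfsg.Geo.quadSimilarityGroup Q).relIndex (Cfsg.Geo.specialLinear (Fin n) F)
                  * Nat.card K' * (Fintype.card F - 1) := by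
              rw [mul_assoc]
              exact mul_dvd_mul hΩ hdvd
            exact h2.trans hidx
          exact Cfsg.Agent.H60.Ort.arith (Fintype.card F) r c k m n hq2 hrP hr2 hrq hc hce hc2 hk1 hmc hnk h1
        · have hm0 : m = 0 := by
            by_contra hm0
            apply hsq
            rw [hA₀det, hprodm hm0, hε]
            exact ⟨δ * A₁.det ^ k, by ring⟩
          have hns0 : ¬ IsSquare (Δ.det * A₀.det) := by rw [hΔdet]; exact hsq
          have hW := Cfsg.Agent.H14.Ort.cayley F n r h2F (hrP.odd_of_ne_two hr2) hroot (Cfsg.Agent.H14.Ort.skew F n h2F) x₀ A₀ Δ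
            hA₀s hA₀u hΔs hΔu hx₀ hx₀r (hx₀u hm0) hns0
          have hx₀det : x₀.det = 1 := by
            apply hroot
            rw [← Matrix.det_pow, hx₀r, Matrix.det_one]
          have hx₀ns : ∀ w : F, x₀ ≠ w • (1 : Matrix (Fin n) (Fin n) F) := by
            intro w hw
            have h1 : w ^ r = 1 := by
              have h2 := hx₀r
              rw [hw, smul_pow, one_pow] at h2
              have h3 := congrFun (congrFun h2 ⟨0, by omega⟩) ⟨0, by omega⟩
              simpa using h3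
            rw [hroot w h1, one_smul] at hw
            exact hx₀1 hw
          exact hW (key' x₀ hx₀det ⟨1, by rw [hx₀r, one_smul]⟩ hx₀ns)
      · obtain ⟨M, hdet, hMr, hns, hrk⟩ :=
          Cfsg.Agent.H69.Ten.exists_one_block_matrix r hrP hrF n hc2' (by rw [← hc]; exact hcn)
        have hM1 : M ≠ 1 := fun h => hns 1 (by rw [h, one_smul])
        have h3 := Cfsg.Agent.H16.Ort.oddC F n r hrP hr2 hrF hc2' (by rw [← hc]; exact hco) M Δ hΔu hMr hM1
          (key' M hdet ⟨1, by rw [hMr, one_smul]⟩ hns)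
        rw [hrk, ← hc] at h3
        omega
  · intro hR x hxS ⟨z, hz⟩ hns
    have hxdet := Cfsg.Agent.H99.Ten.det_of_mem_specialLinear x hxS
    have hz' : (x : Matrix (Fin n) (Fin n) F) ^ r = z • (1 : Matrix (Fin n) (Fin n) F) := by
      rw [← Units.val_pow_eq_pow_val]
      exact hz
    rcases hR with hr2 | ⟨h35, hnr, hv⟩
    · rw [hr2] at hz'
      have hz0 : z ≠ 0 := by
        rintro rfl
        rw [zero_smul] at hz'
        have h1 := congrArg Matrix.det hz'
        haveI : Nonempty (Fin n) := ⟨⟨0, by omega⟩⟩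
        rw [Matrix.det_pow, hxdet, one_pow, Matrix.det_zero] at h1
        exact one_ne_zero h1
      have hxx : (x : Matrix (Fin n) (Fin n) F) * (x : Matrix (Fin n) (Fin n) F)
          = z • (1 : Matrix (Fin n) (Fin n) F) := by
        rw [← pow_two]
        exact hz'
      by_cases hzsq : IsSquare z
      · obtain ⟨lam, hlam⟩ := hzsq
        have hlam0 : lam ≠ 0 := by
          rintro rfl
          exact hz0 (by rw [hlam, mul_zero])
        obtain ⟨y, hy⟩ : ∃ y : Matrix (Fin n) (Fin n) F,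
            y = lam⁻¹ • (x : Matrix (Fin n) (Fin n) F) := ⟨_, rfl⟩
        have hxy : (x : Matrix (Fin n) (Fin n) F) = lam • y := by
          rw [hy, smul_smul, mul_inv_cancel₀ hlam0, one_smul]
        have hy2 : y ^ 2 = 1 := by
          rw [hy, smul_pow, hz', smul_smul, hlam, inv_pow, pow_two,
            inv_mul_cancel₀ (mul_ne_zero hlam0 hlam0), one_smul]
        obtain ⟨g', ε, hg'det, hε, hyg⟩ := Cfsg.Agent.H98.Ort.invDiag F n hn1 h2F y hy2 P.det hP0
        refine fin x hxS g' (lam • Matrix.diagonal ε) (lam * lam) hg'det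
          (mul_ne_zero hlam0 hlam0) ?_ ?_
        · rw [hxy, Matrix.smul_mul, hyg, Matrix.mul_smul]
        · rw [hΔ, Matrix.transpose_smul, Matrix.diagonal_transpose, Matrix.smul_mul,
            Matrix.smul_mul, Matrix.mul_smul, smul_smul, Matrix.diagonal_mul_diagonal,
            Matrix.diagonal_mul_diagonal]
          congr 2
          funext i
          rcases hε i with h | h <;> rw [h] <;> ring
      · have hev := Cfsg.Agent.H98.Ort.nsqEven F n z hzsq (x : Matrix (Fin n) (Fin n) F) hxx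
        obtain ⟨s, hss, hsΔ⟩ := Cfsg.Agent.H98.Ort.simSq F n hev h2F δ z hδ hz0
        obtain ⟨g', hg'det, hxg⟩ :=
          Cfsg.Agent.H98.Ort.nsq F n hn1 h2F z hzsq (x : Matrix (Fin n) (Fin n) F) s hxx hss P.det hP0
        exact fin x hxS g' s z hg'det hz0 hxg (by rw [hΔ]; exact hsΔ)
    · subst hnr
      obtain ⟨g', s, c, hg'det, hc, hxg, hs⟩ :=
        Cfsg.Agent.H4.Ort.e35 F (Fintype.card F) n rfl hrP h35 hv h2F (x : Matrix (Fin n) (Fin n) F) hxdet z hz'
          δ P.det hδ hP0 (Cfsg.Agent.H40.Ort.comb35 F n h35)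
          (fun A A' hA hA' hAu hA'u hsq => Cfsg.Agent.H14.Ort.cong F n h2F A A' hA hA' hAu hA'u hsq)
      exact fin x hxS g' s c hg'det hc hxg (by rw [hΔ]; exact hs)

end Cfsg.Agent.S5981
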