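import Cfsg.Statements.S5982
import Cfsg.Agent.H11.UniIDX1
import Cfsg.Agent.H11.UniIDX2Core
import Cfsg.Agent.H16.SubCENT
import Cfsg.Agent.H16.SubKUMNONE
import Cfsg.Agent.H24.UniEXCD
import Cfsg.Agent.H24.UniSYM
import Cfsg.Agent.H3.UniC2
import Cfsg.Agent.H34.UniNT
import Cfsg.Agent.H34.UniWA
import Cfsg.Agent.H34.UniWB
import Cfsg.Agent.H34.UniWC
import Cfsg.Agent.H35.UniKUM2
import Cfsg.Agent.H35.UniW2
import Cfsg.Agent.H36.SubCOMB
import Cfsg.Agent.H4.UniCENT2
import Cfsg.Agent.H4.UniINV2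
import Cfsg.Agent.H61.SubDIAGZ
import Cfsg.Agent.H67.TenNT2
import Cfsg.Agent.H69.TenNT1
import Cfsg.Agent.H69.TenWIT
import Cfsg.Agent.H69.UniONB
import Cfsg.Agent.H69.UniSTD
import Cfsg.Agent.H7.Herm
import Cfsg.Agent.H7.Unitary
import Cfsg.Agent.H73.UniGLUE1
import Cfsg.Agent.H73.UniGLUE2
import Cfsg.Agent.H73.UniMULT
import Cfsg.Agent.H77.SubNT
import Cfsg.Agent.H99.TenGlue

set_option autoImplicit false
open scoped MatrixGroups
open Cfsg

namespace Cfsg.Agent.S5982

theorem seven_le_of_prime (r : ℕ) (hr : r.Prime) (h2 : r ≠ 2) (h3 : r ≠ 3) (h5 : r ≠ 5) :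
    7 ≤ r := by
  by_contra hlt
  have hlt' : r < 7 := by omega
  have h2' := hr.two_le
  interval_cases r <;> first | omega | (exact absurd hr (by norm_num))

theorem odd_of_sq_mod {q₀ : ℕ} (h : q₀ ^ 2 % 2 = 1) : Odd q₀ := by
  rcases Nat.even_or_odd q₀ with he | ho
  · exfalso
    obtain ⟨k, hk⟩ := he
    have h1 : q₀ ^ 2 = 2 * (2 * k * k) := by rw [hk]; ring
    omega
  · exact ho

/-- Elements of prime order of PSL_n(q), q = q₀², and the subgroups of unitary type. Here `T = PSL_n(F)` for a field `F` with `q = q₀²` elements (`n ≥ 3`), `f` is a non-degenerate unitary form on `F^n` for the involutory automorphism `x ↦ x^{q₀}`, and `H` is the subgroup of matrices of determinant 1 that preserve `f` up to a scalar — a subgroup of type GU_n(q₀) (maximality is not assumed); Ω is the set of cosets of `H` in `T`, so an element of `T` of prime order `r` (a matrix `x` of determinant 1 with `x^r` scalar, `x` not scalar) fixes a point of Ω exactly when some conjugate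 of `x` by a matrix of determinant 1 preserves `f` up to a scalar. Let `r` be a prime dividing the index of `H`, with `r = 2` or `r` different from the characteristic `p`, and with `(n, r) ≠ (6, 3)`. Then every element of `T` of order `r` fixes a point of Ω if and only if either `r = 2` and (`p = 2` or `(n)_2 ≤ (q − 1)_2`), or `r ∈ {3, 5}`, `n = r` and `(q₀ − 1)_r = r`. (Odd `r = p` and the case `(n, r) = (6, 3)` are not covered by this statement.) -/
theorem result {F : Type*} [Field F] [Fintype F] {p : ℕ} [Fact p.Prime] [CharP F p] {q : ℕ} (hq : Fintype.card F = q)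
    (q₀ : ℕ) (hq₀ : q = q₀ ^ 2) (n : ℕ) (hn : 3 ≤ n) (f : (Fin n → F) → (Fin n → F) → F) (hf : Cfsg.Geo.IsUnitaryFormPow q₀ f)
    (r : ℕ) [Fact r.Prime] (hr : r = 2 ∨ r ≠ p) (hgap : ¬ (n = 6 ∧ r = 3))
    (hΩ : r ∣ (Cfsg.Geo.similarityGroup f).relIndex (Cfsg.Geo.specialLinear (Fin n) F)) :
    (∀ x ∈ Cfsg.Geo.specialLinear (Fin n) F, (∃ z : F, ((x ^ r : GL (Fin n) F) : Matrix (Fin n) (Fin n) F) = z • (1 : Matrix (Fin n) (Fin n) F)) →
      (∀ z : F, (x : Matrix (Fin n) (Fin n) F) ≠ z • (1 : Matrix (Fin n) (Fin n) F)) →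
      ∃ g ∈ Cfsg.Geo.specialLinear (Fin n) F, g⁻¹ * x * g ∈ Cfsg.Geo.similarityGroup f) ↔
    ((r = 2 ∧ (p = 2 ∨ padicValNat 2 n ≤ padicValNat 2 (q - 1))) ∨ ((r = 3 ∨ r = 5) ∧ n = r ∧ padicValNat r (q₀ - 1) = 1)) := by
  classical
  subst hq
  have hrP : r.Prime := Fact.out
  have hp : p.Prime := Fact.out
  have hn0 : 0 < n := by omega
  have hq₀2 : 2 ≤ q₀ := Cfsg.Agent.H7.two_le_of_card_sq hq₀
  have hq1 : 1 < Fintype.card F := Fintype.one_lt_card
  obtain ⟨B, hB, hfB⟩ := Cfsg.Agent.H69.Uni.exists_orthonormal_basis hq₀ f hf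
  have key : (∀ x ∈ Cfsg.Geo.specialLinear (Fin n) F,
      (∃ z : F, ((x ^ r : GL (Fin n) F) : Matrix (Fin n) (Fin n) F)
        = z • (1 : Matrix (Fin n) (Fin n) F)) →
      (∀ z : F, (x : Matrix (Fin n) (Fin n) F) ≠ z • (1 : Matrix (Fin n) (Fin n) F)) →
      ∃ g ∈ Cfsg.Geo.specialLinear (Fin n) F, g⁻¹ * x * g ∈ Cfsg.Geo.similarityGroup f) →
      ∀ M : Matrix (Fin n) (Fin n) F, M.det = 1 →
        (∃ z : F, M ^ r = z • (1 : Matrix (Fin n) (Fin n) F)) →
        (∀ z : F, M ≠ z • (1 : Matrix (Fin n) (Fin n) F)) →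
        ∃ (P s : Matrix (Fin n) (Fin n) F) (c : F), IsUnit P.det ∧ c ≠ 0 ∧ M * P = P * s ∧
          s.transpose * s.map (fun a => a ^ q₀) = c • (1 : Matrix (Fin n) (Fin n) F) := by
    intro hL M hdet ⟨z, hz⟩ hns
    obtain ⟨x, hxS, hxM⟩ := Cfsg.Agent.H99.Ten.exists_GL_of_det_one M hdet
    obtain ⟨g, hgS, hg⟩ := hL x hxS
      ⟨z, by rw [Units.val_pow_eq_pow_val, hxM]; exact hz⟩ (by rw [hxM]; exact hns)
    obtain ⟨s, c, hc, h1, h2⟩ := Cfsg.Agent.H73.Uni.sim_of_mem hq₀ f B hB hfB x g hg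
    rw [hxM] at h1
    refine ⟨(g : Matrix (Fin n) (Fin n) F) * B, s, c, ?_, hc, h1, h2⟩
    rw [Matrix.det_mul]
    exact (Matrix.isUnits_det_units g).mul hB
  have fin : ∀ (x : GL (Fin n) F), x ∈ Cfsg.Geo.specialLinear (Fin n) F →
      ∀ (y Q s : Matrix (Fin n) (Fin n) F) (l c' : F), l ≠ 0 → c' ≠ 0 →
      (x : Matrix (Fin n) (Fin n) F) = l • y → IsUnit Q.det → y * Q = Q * s →
      s.transpose * s.map (fun a => a ^ q₀) = c' • (1 : Matrix (Fin n) (Fin n) F) →
      (∀ d : F, d ≠ 0 → ∃ h : Matrix (Fin n) (Fin n) F, h.det = d ∧ h * y = y * h) →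
      ∃ g ∈ Cfsg.Geo.specialLinear (Fin n) F, g⁻¹ * x * g ∈ Cfsg.Geo.similarityGroup f := by
    intro x hxS y Q s l c' hl hc' hxy hQ hyQ hs hcen
    have hB0 := hB.ne_zero
    have hQ0 := hQ.ne_zero
    obtain ⟨h, hh, hcomm⟩ := hcen (B.det * (Q.det)⁻¹) (mul_ne_zero hB0 (inv_ne_zero hQ0))
    have hgdet : (h * Q * B⁻¹).det = 1 := by
      rw [Matrix.det_mul, Matrix.det_mul, hh, Matrix.det_nonsing_inv, Ring.inverse_eq_inv]
      field_simp
    obtain ⟨g, hgS, hgM⟩ := Cfsg.Agent.H99.Ten.exists_GL_of_det_one (h * Q * B⁻¹) hgdet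
    have hgB : (g : Matrix (Fin n) (Fin n) F) * B = h * Q := by
      rw [hgM, Matrix.mul_assoc, Matrix.nonsing_inv_mul B hB, Matrix.mul_one]
    refine ⟨g, hgS, Cfsg.Agent.H73.Uni.mem_of_sim hq₀ f B hB hfB x g (l • s) (l * l ^ q₀ * c') ?_ ?_ ?_⟩
    · exact mul_ne_zero (mul_ne_zero hl (pow_ne_zero _ hl)) hc'
    · rw [hgB, hxy, Matrix.smul_mul, ← Matrix.mul_assoc y h Q, ← hcomm, Matrix.mul_assoc h y Q,
        hyQ, Matrix.mul_smul, Matrix.mul_assoc h Q]
    · have hmap : (l • s).map (fun a => a ^ q₀) = l ^ q₀ • s.map (fun a => a ^ q₀) := by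
        ext i j
        simp [mul_pow]
      rw [hmap, Matrix.transpose_smul, Matrix.smul_mul, Matrix.mul_smul, hs, smul_smul, smul_smul]
  constructor
  · intro hL
    have key' := key hL
    by_cases hr2 : r = 2
    · left
      refine ⟨hr2, ?_⟩
      by_cases hp2 : p = 2
      · exact Or.inl hp2
      right
      by_contra hv
      have hv' : padicValNat 2 (Fintype.card F - 1) < padicValNat 2 n := not_le.mp hv
      subst hr2
      have hq₀odd : Odd q₀ := by
        have h1 : Fintype.card F % 2 = 1 :=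
          FiniteField.odd_card_of_char_ne_two (by rw [ringChar.eq F p]; exact hp2)
        rw [hq₀] at h1
        exact odd_of_sq_mod h1
      have h4 : 4 ∣ Fintype.card F - 1 := by
        rw [hq₀]
        exact Cfsg.Agent.H34.Uni.four_dvd_sq_sub_one q₀ hq₀odd
      obtain ⟨M, z, hdet, hM2, hz⟩ := Cfsg.Agent.H35.Uni.exists_nonsquare_witness (F := F) n h4 hv'
      have hns : ∀ w : F, M ≠ w • (1 : Matrix (Fin n) (Fin n) F) := by
        intro w hw
        rw [hw, smul_pow, one_pow] at hM2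
        have h1 := congrFun (congrFun hM2 ⟨0, hn0⟩) ⟨0, hn0⟩
        simp only [Matrix.smul_apply, Matrix.one_apply_eq, smul_eq_mul, mul_one] at h1
        exact hz w h1
      obtain ⟨P, s, c, hP, hc, h1, h2⟩ := key' M hdet ⟨z, hM2⟩ hns
      obtain ⟨hcq, hzc⟩ := Cfsg.Agent.H73.Uni.multiplier_of_unitary_sim q₀ n hq₀ hn0 M P s hP c h1 h2 2 z hM2
      obtain ⟨y, hy⟩ := Cfsg.Agent.H34.Uni.exists_sq_of_norm q₀ hq₀ hq₀odd c z hcq hzc
      exact hz y hy
    have hrp : r ≠ p := by
      rcases hr with h | h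
      · exact absurd h hr2
      · exact h
    have hrF : (r : F) ≠ 0 := by
      intro h0
      have h1 := (CharP.cast_eq_zero_iff F p r).mp h0
      exact hrp ((Nat.prime_dvd_prime_iff_eq hp hrP).mp h1).symm
    have hrq : ¬ r ∣ Fintype.card F := by
      intro h
      obtain ⟨k, -, hk⟩ := FiniteField.card F p
      rw [hk] at h
      exact hrp ((Nat.prime_dvd_prime_iff_eq hrP hp).mp (hrP.dvd_of_dvd_pow h))
    have hrq₀ : ¬ r ∣ q₀ := by
      intro h
      apply hrq
      rw [hq₀]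
      exact dvd_pow h two_ne_zero
    have hcast : (Fintype.card F : ZMod r) ≠ 0 := by
      intro h
      exact hrq ((ZMod.natCast_eq_zero_iff _ _).mp h)
    have hr1 : 0 < r - 1 := by
      have := hrP.two_le
      omega
    have hcpos : 0 < orderOf (Fintype.card F : ZMod r) :=
      Nat.pos_of_dvd_of_pos (orderOf_dvd_of_pow_eq_one (ZMod.pow_card_sub_one_eq_one hcast)) hr1
    have hidx := Cfsg.Agent.H11.Uni.idx2_core hq₀ (by omega : 1 ≤ n) f ⟨B, hB, hfB⟩
    have hidx2 : r * Nat.card (Cfsg.GU n F q₀) * (q₀ - 1) ∣ Nat.card (GL (Fin n) F) :=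
      (mul_dvd_mul_right (mul_dvd_mul_right hΩ _) _).trans hidx
    rw [Cfsg.Agent.H7.card_GU hq₀ n, Matrix.card_GL_field, hq₀] at hidx2
    have heven := Cfsg.Agent.H11.Uni.even_order_of_dvd q₀ n r hq₀2 hrP hr2 hrq₀ hidx2
    have hcn := Cfsg.Agent.H69.Ten.order_le_of_dvd_relIndex n r hrP hrF
      (Cfsg.Geo.similarityGroup f) hΩ
    have he2 := Cfsg.Agent.H34.Uni.order_sq_mul_two q₀ r hrP heven
    rw [← hq₀] at he2
    by_cases hc2 : 2 ≤ orderOf (Fintype.card F : ZMod r)
    · exfalso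
      obtain ⟨M, hdet, hMr, hns, hrk⟩ :=
        Cfsg.Agent.H69.Ten.exists_one_block_matrix r hrP hrF n hc2 hcn
      obtain ⟨P, s, c, hP, hc, h1, h2⟩ := key' M hdet ⟨1, by rw [hMr, one_smul]⟩ hns
      have hM1 : M ≠ 1 := by
        intro h
        exact hns 1 (by rw [h, one_smul])
      have h3 := Cfsg.Agent.H3.Uni.order_le_of_unitary_sim q₀ n r hq₀ hrP hr2 hrF hc2 M P s hP c hc hMr hM1 h1 h2
      rw [hrk] at h3
      omega
    have hc1 : orderOf (Fintype.card F : ZMod r) = 1 := by omega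
    rw [hc1] at he2
    have hrq₀1 : r ∣ q₀ - 1 := Cfsg.Agent.H34.Uni.dvd_sub_one_of_order_two q₀ r hrP (by omega) (by omega)
    have hNR : ¬ r ∣ q₀ + 1 := Cfsg.Agent.H34.Uni.not_dvd_add_one q₀ r hrP hr2 (by omega) hrq₀1
    obtain ⟨ζ, hζ, hζ1⟩ := Cfsg.Agent.H67.Ten.exists_root_of_unity r hrP hrF hc1
    have hζ0 : ζ ≠ 0 := by
      rintro rfl
      rw [zero_pow hrP.ne_zero] at hζ
      exact zero_ne_one hζ
    have hζord : orderOf ζ = r := orderOf_eq_prime hζ hζ1
    have keysym : ∀ M : Matrix (Fin n) (Fin n) F, M.det = 1 →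
        (∃ z : F, M ^ r = z • (1 : Matrix (Fin n) (Fin n) F)) →
        (∀ z : F, M ≠ z • (1 : Matrix (Fin n) (Fin n) F)) →
        (¬ ∃ τ : F, τ ≠ 0 ∧ ∀ ν : F, (M - ν • (1 : Matrix (Fin n) (Fin n) F)).rank
          = (M - (τ * (ν⁻¹) ^ q₀) • (1 : Matrix (Fin n) (Fin n) F)).rank) → False := by
      intro M hdet hz hns hno
      obtain ⟨P, s, c, hP, hc, h1, h2⟩ := key' M hdet hz hns
      exact hno ⟨c, hc, fun ν => Cfsg.Agent.H24.Uni.rank_symm_of_unitary_sim q₀ n hq₀ M P s hP c hc h1 h2 ν⟩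
    have hrdvd : r ∣ Fintype.card F - 1 :=
      (Cfsg.Agent.H77.Sub.dvd_sub_one_iff_order_one (Fintype.card F) r hrP (by omega)).mpr hc1
    have hv1 : 1 ≤ padicValNat r (Fintype.card F - 1) :=
      one_le_padicValNat_of_dvd (by omega) hrdvd
    right
    by_cases hrn : r ∣ n
    swap
    · exfalso
      have h1 : ζ ^ n ≠ 1 := by
        intro h
        apply hrn
        rw [← hζord]
        exact orderOf_dvd_of_pow_eq_one h
      have hr1' : (ζ ^ n) ^ r = 1 := by
        rw [← pow_mul, mul_comm, pow_mul, hζ, one_pow]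
      obtain ⟨M, hdet, hMr, hns, hno⟩ := Cfsg.Agent.H34.Uni.exists_witness_UA q₀ n r hn hrP hNR ζ hζ0 h1 hr1'
      exact keysym M hdet ⟨_, hMr⟩ hns hno
    by_cases hnr : n = r
    · by_cases hv2 : 2 ≤ padicValNat r (Fintype.card F - 1)
      · exfalso
        obtain ⟨u, hu2, hu1⟩ := Cfsg.Agent.H77.Sub.exists_order_sq (F := F) r hrP hv2
        have hu0 : u ≠ 0 := by
          rintro rfl
          rw [zero_pow (pow_ne_zero _ hrP.ne_zero)] at hu2
          exact zero_ne_one hu2
        have h1 : u ^ n ≠ 1 := by rw [hnr]; exact hu1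
        have hr1' : (u ^ n) ^ r = 1 := by rw [hnr, ← pow_mul, ← sq]; exact hu2
        obtain ⟨M, hdet, hMr, hns, hno⟩ := Cfsg.Agent.H34.Uni.exists_witness_UA q₀ n r hn hrP hNR u hu0 h1 hr1'
        exact keysym M hdet ⟨_, hMr⟩ hns hno
      · have hv : padicValNat r (Fintype.card F - 1) = 1 := by omega
        by_cases hr35 : r = 3 ∨ r = 5
        · refine ⟨hr35, hnr, ?_⟩
          have h3 := Cfsg.Agent.H34.Uni.val_sq_sub_one_of_dvd_sub_one q₀ r hrP hr2 (by omega) hrq₀1
          rw [← hq₀, hv] at h3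
          exact h3.symm
        · exfalso
          have hr3 : r ≠ 3 := fun h => hr35 (Or.inl h)
          have hr5 : r ≠ 5 := fun h => hr35 (Or.inr h)
          have h7 := seven_le_of_prime r hrP hr2 hr3 hr5
          obtain ⟨M, hdet, hMr, hns, hno⟩ :=
            Cfsg.Agent.H34.Uni.exists_witness_UC q₀ n r hrP hr2 hr3 hNR (by omega) ζ hζ hζ1
          exact keysym M hdet ⟨1, by rw [hMr, one_smul]⟩ hns hno
    · exfalso
      have hrn' : r < n := by
        have h2 := Nat.le_of_dvd hn0 hrn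
        omega
      by_cases hn2r : n = 2 * r
      · have hr3 : r ≠ 3 := by
          intro h
          exact hgap ⟨by omega, h⟩
        have h2 := hrP.two_le
        obtain ⟨M, hdet, hMr, hns, hno⟩ :=
          Cfsg.Agent.H34.Uni.exists_witness_UC q₀ n r hrP hr2 hr3 hNR (by omega) ζ hζ hζ1
        exact keysym M hdet ⟨1, by rw [hMr, one_smul]⟩ hns hno
      · obtain ⟨M, hdet, hMr, hns, hno⟩ := Cfsg.Agent.H34.Uni.exists_witness_UB q₀ n r hrP hNR hrn' hn2r ζ hζ hζ1
        exact keysym M hdet ⟨1, by rw [hMr, one_smul]⟩ hns hno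
  · intro hR x hxS ⟨z, hz⟩ hns
    rw [Units.val_pow_eq_pow_val] at hz
    have hdet : (x : Matrix (Fin n) (Fin n) F).det = 1 :=
      Cfsg.Agent.H99.Ten.det_of_mem_specialLinear x hxS
    have hred : ∀ lam : F, lam ^ r = z → lam ≠ 0 ∧
        (lam⁻¹ • (x : Matrix (Fin n) (Fin n) F)) ^ r = 1 ∧
        (x : Matrix (Fin n) (Fin n) F) = lam • (lam⁻¹ • (x : Matrix (Fin n) (Fin n) F)) := by
      intro lam hlam
      have hz0 : z ≠ 0 := by
        rintro rfl
        rw [zero_smul] at hz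
        have h1 := congrArg Matrix.det hz
        haveI : Nonempty (Fin n) := ⟨⟨0, hn0⟩⟩
        rw [Matrix.det_pow, hdet, one_pow, Matrix.det_zero] at h1
        exact one_ne_zero h1
      have hlam0 : lam ≠ 0 := by
        rintro rfl
        rw [zero_pow hrP.ne_zero] at hlam
        exact hz0 hlam.symm
      refine ⟨hlam0, ?_, ?_⟩
      · rw [smul_pow, hz, smul_smul, inv_pow, ← hlam, inv_mul_cancel₀ (pow_ne_zero _ hlam0),
          one_smul]
      · rw [smul_inv_smul₀ hlam0]
    rcases hR with ⟨hr2, hpv⟩ | ⟨hr35, hnr, hvq⟩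
    · subst hr2
      by_cases hp2 : p = 2
      · subst hp2
        have h2F : (2 : F) = 0 := by exact_mod_cast CharP.cast_eq_zero F 2
        obtain ⟨lam, hlam⟩ : ∃ lam : F, lam ^ 2 = z := by
          obtain ⟨w, hw⟩ := FiniteField.isSquare_of_char_two (ringChar.eq F 2) z
          exact ⟨w, by rw [hw, sq]⟩
        obtain ⟨hlam0, hy, hxy⟩ := hred lam hlam
        obtain ⟨A, hA, hAh, hAu⟩ := Cfsg.Agent.H4.Uni.exists_gram_of_involution_char_two q₀ n hq₀ h2F _ hy
        obtain ⟨Q, s, hQ, hyQ, hs⟩ := Cfsg.Agent.H69.Uni.exists_std_of_gram q₀ n hq₀ A hA hAh _ 1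
          (by rw [one_smul]; exact hAu)
        exact fin x hxS _ Q s lam 1 hlam0 one_ne_zero hxy hQ hyQ hs
          (fun d hd => Cfsg.Agent.H4.Uni.exists_commuting_det_char_two n hn0 h2F _ hy d hd)
      · have hv : padicValNat 2 n ≤ padicValNat 2 (Fintype.card F - 1) := by
          rcases hpv with h | h
          · exact absurd h hp2
          · exact h
        have hq₀odd : Odd q₀ := by
          have h1 : Fintype.card F % 2 = 1 :=
            FiniteField.odd_card_of_char_ne_two (by rw [ringChar.eq F p]; exact hp2)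
          rw [hq₀] at h1
          exact odd_of_sq_mod h1
        have h2F : ((2 : ℕ) : F) ≠ 0 := by
          intro h0
          have h1 := (CharP.cast_eq_zero_iff F p 2).mp h0
          exact hp2 ((Nat.prime_dvd_prime_iff_eq hp Nat.prime_two).mp h1)
        by_cases hzpow : ∃ lam : F, lam ^ 2 = z
        · obtain ⟨lam, hlam⟩ := hzpow
          obtain ⟨hlam0, hy, hxy⟩ := hred lam hlam
          have hc1 : orderOf (Fintype.card F : ZMod 2) = 1 := by
            rw [orderOf_eq_one_iff, ZMod.natCast_eq_one_iff_odd, hq₀]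
            exact hq₀odd.pow
          obtain ⟨Q, d, hQ, hd, hyQ⟩ :=
            Cfsg.Agent.H61.Sub.exists_diagonalization n 2 Nat.prime_two h2F hc1 _ hy
          have hs : (Matrix.diagonal d).transpose * (Matrix.diagonal d).map (fun a => a ^ q₀)
              = (1 : F) • (1 : Matrix (Fin n) (Fin n) F) := by
            ext i j
            rw [Matrix.diagonal_transpose, Matrix.diagonal_mul, Matrix.map_apply, one_smul,
              Matrix.diagonal_apply, Matrix.one_apply]
            by_cases hij : i = j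
            · subst hij
              rw [if_pos rfl, if_pos rfl]
              obtain ⟨k, hk⟩ := hq₀odd
              rw [← pow_succ', hk, show 2 * k + 1 + 1 = 2 * (k + 1) by ring, pow_mul, hd i,
                one_pow]
            · rw [if_neg hij, if_neg hij, zero_pow (by omega), mul_zero]
          exact fin x hxS _ Q (Matrix.diagonal d) lam 1 hlam0 one_ne_zero hxy hQ hyQ hs
            (fun d' hd' =>
              Cfsg.Agent.H16.Sub.exists_commuting_det n 2 hn0 Nat.prime_two h2F _ hy d' hd')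
        · exfalso
          push Not at hzpow
          have h4 : 4 ∣ Fintype.card F - 1 := by
            rw [hq₀]
            exact Cfsg.Agent.H34.Uni.four_dvd_sq_sub_one q₀ hq₀odd
          exact Cfsg.Agent.H35.Uni.no_nonsquare_of_val_le n hn0 h4 hv (x : Matrix (Fin n) (Fin n) F) hdet z hzpow hz
    · have hnr' : r = n := hnr.symm
      subst hnr'
      have hr2 : r ≠ 2 := by
        rcases hr35 with h | h <;> omega
      have hrp : r ≠ p := by
        rcases hr with h | h
        · exact absurd h hr2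
        · exact h
      have hrF : (r : F) ≠ 0 := by
        intro h0
        have h1 := (CharP.cast_eq_zero_iff F p r).mp h0
        exact hrp ((Nat.prime_dvd_prime_iff_eq hp hrP).mp h1).symm
      have hrq₀1 : r ∣ q₀ - 1 := by
        apply dvd_of_one_le_padicValNat
        rw [hvq]
      have hc1 : orderOf (Fintype.card F : ZMod r) = 1 := by
        rw [hq₀]
        exact Cfsg.Agent.H34.Uni.order_sq_eq_one_of_dvd q₀ r hrP (by omega) hrq₀1
      have hv : padicValNat r (Fintype.card F - 1) = 1 := by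
        rw [hq₀, Cfsg.Agent.H34.Uni.val_sq_sub_one_of_dvd_sub_one q₀ r hrP hr2 (by omega) hrq₀1, hvq]
      by_cases hzpow : ∃ lam : F, lam ^ r = z
      · obtain ⟨lam, hlam⟩ := hzpow
        obtain ⟨hlam0, hy, hxy⟩ := hred lam hlam
        obtain ⟨Q₁, d, hQ₁, hd, hyQ₁⟩ :=
          Cfsg.Agent.H61.Sub.exists_diagonalization r r hrP hrF hc1 _ hy
        have hdety : (lam⁻¹ • (x : Matrix (Fin r) (Fin r) F)).det = ∏ i, d i := by
          have h1 := congrArg Matrix.det hyQ₁
          rw [Matrix.det_mul, Matrix.det_mul, Matrix.det_diagonal, mul_comm] at h1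
          exact mul_left_cancel₀ hQ₁.ne_zero h1
        have hprodr : (∏ i, d i) ^ r = 1 := by
          rw [← Finset.prod_pow]
          exact Finset.prod_eq_one (fun i _ => hd i)
        have hzr : z ^ r = 1 := by
          rw [Matrix.det_smul, hdet, mul_one, Fintype.card_fin, inv_pow, hlam] at hdety
          rw [← hdety, inv_pow] at hprodr
          exact inv_eq_one.mp hprodr
        have hlamr : lam ^ r = 1 := by
          apply Cfsg.Agent.H77.Sub.pow_eq_one_of_val_one r hrP hv lam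
          rw [sq, pow_mul, hlam, hzr]
        have hprod : ∏ i, d i = 1 := by
          rw [← hdety, Matrix.det_smul, hdet, mul_one, Fintype.card_fin, inv_pow, hlamr, inv_one]
        obtain ⟨ζ, hζ, hζ1⟩ := Cfsg.Agent.H67.Ten.exists_root_of_unity r hrP hrF hc1
        have hζ0 : ζ ≠ 0 := by
          rintro rfl
          rw [zero_pow hrP.ne_zero] at hζ
          exact zero_ne_one hζ
        obtain ⟨j, hj⟩ := Cfsg.Agent.H36.Sub.exists_symm_shift r hr35 ζ hζ hζ1 d hd hprod
        have hζj0 : ζ ^ j ≠ 0 := pow_ne_zero _ hζ0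
        have hζjr : (ζ ^ j) ^ r = 1 := by
          rw [← pow_mul, mul_comm, pow_mul, hζ, one_pow]
        have hd' : ∀ i, (ζ ^ j * d i) ^ r = 1 := by
          intro i
          rw [mul_pow, hd i, mul_one, hζjr]
        obtain ⟨A, hA, hAh, hAd⟩ := Cfsg.Agent.H24.Uni.exists_gram_of_symm q₀ r r hq₀ hrP hrq₀1
          (fun i => ζ ^ j * d i) hd' hj
        obtain ⟨Q₂, s, hQ₂, hdQ₂, hs⟩ := Cfsg.Agent.H69.Uni.exists_std_of_gram q₀ r hq₀ A hA hAh _ 1
          (by rw [one_smul]; exact hAd)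
        have hdiag : Matrix.diagonal (fun i => ζ ^ j * d i) = ζ ^ j • Matrix.diagonal d := by
          rw [← Matrix.diagonal_smul]
          rfl
        have hyr : (ζ ^ j • (lam⁻¹ • (x : Matrix (Fin r) (Fin r) F))) ^ r = 1 := by
          rw [smul_pow, hy, hζjr, one_smul]
        refine fin x hxS (ζ ^ j • (lam⁻¹ • (x : Matrix (Fin r) (Fin r) F))) (Q₁ * Q₂) s
          (lam * (ζ ^ j)⁻¹) 1 (mul_ne_zero hlam0 (inv_ne_zero hζj0)) one_ne_zero ?_ ?_ ?_ hs ?_
        · rw [mul_smul, inv_smul_smul₀ hζj0, smul_inv_smul₀ hlam0]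
        · rw [Matrix.det_mul]
          exact hQ₁.mul hQ₂
        · rw [Matrix.smul_mul, ← Matrix.mul_assoc, hyQ₁, Matrix.mul_assoc Q₁ Q₂, ← hdQ₂, hdiag,
            Matrix.smul_mul, Matrix.mul_smul, Matrix.mul_assoc]
        · exact fun d' hd' =>
            Cfsg.Agent.H16.Sub.exists_commuting_det r r hn0 hrP hrF _ hyr d' hd'
      · exfalso
        push Not at hzpow
        have hvn : r ∣ Fintype.card F - 1 →
            padicValNat r r ≤ padicValNat r (Fintype.card F - 1) := by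
          intro _
          rw [hv, padicValNat_self]
        exact Cfsg.Agent.H16.Sub.no_kummer_of_val_le r r hn0 hrP hr2 hvn
          (x : Matrix (Fin r) (Fin r) F) hdet z hzpow hz

end Cfsg.Agent.S5982
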