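import Cfsg.Statements.S5984
import Cfsg.Agent.H16.PairIdx
import Cfsg.Agent.H17.GUDet
import Cfsg.Agent.H24.PairW2
import Cfsg.Agent.H24.PairWTV
import Cfsg.Agent.H4.PairTA
import Cfsg.Agent.H4.PairTB
import Cfsg.Agent.H48.PairLEVI
import Cfsg.Agent.H48.PairWODDE
import Cfsg.Agent.H54.PairGLUE
import Cfsg.Agent.H54.PairWODD1
import Cfsg.Agent.H7.Herm
import Cfsg.Agent.H7.Unitary
import Cfsg.Agent.H75.PairBLK
import Cfsg.Agent.H75.PairINVB1
import Cfsg.Agent.H86.PairINVA
import Cfsg.Agent.H86.PairINVB2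
import Cfsg.Agent.H89.PairMK
import Cfsg.Agent.H89.PairNT
import Cfsg.Agent.H95.Basic
import Cfsg.Agent.H95.Herm
import Cfsg.Agent.H99.TenGlue

set_option autoImplicit false
open scoped MatrixGroups
open Cfsg

namespace Cfsg.Agent.S5984

theorem odd_of_sq_mod {q₀ : ℕ} (h : q₀ ^ 2 % 2 = 1) : Odd q₀ := by
  rcases Nat.even_or_odd q₀ with he | ho
  · exfalso
    obtain ⟨k, hk⟩ := he
    have h1 : q₀ ^ 2 = 2 * (2 * k * k) := by rw [hk]; ring
    omega
  · exact ho

/-- Elements of prime order of PSU_n(q) and the stabilizers of pairs of complementary totally singular subspaces. Here `T = PSU_n(q)` is realised through `SU_n(q)`, the matrices of determinant 1 over the field `F` with `q²` elements preserving the hermitian form `Σ uᵢ vᵢ^q`, with `n ≥ 4` even; `D` is a pair of complementary subspaces of dimension `n/2` on each of which the form vanishes identically, and `H` is the subgroup of `SU_n(q)` fixing or interchanging the two members — a subgroup of type GL_{n/2}(q²).2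 (maximality is not assumed). Ω is the set of cosets of `H`, so an element of `T` of prime order `r` (`x ∈ SU_n(q)` with `x^r` scalar, `x` not scalar) fixes a point of Ω exactly when some `SU_n(q)`-conjugate of `x` lies in `H`. Let `r` be a prime dividing the index of `H`. Then every element of `T` of order `r` fixes a point of Ω if and only if `r = 2`, `q` is odd and `(q + 1)_2 ≤ (n)_2` (2-parts). -/
theorem result {F : Type*} [Field F] [Fintype F] {p : ℕ} [Fact p.Prime] [CharP F p] {q : ℕ} (hq : Fintype.card F = q ^ 2)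
    (n : ℕ) (hn : 4 ≤ n) (he : Even n) (D : Fin 2 → Submodule F (Fin n → F)) (hD : Cfsg.Geo.IsMDecomposition (n / 2) D)
    (hDs : ∀ i, Cfsg.Geo.IsTotallySingularFor (Cfsg.hermForm n F q) (D i))
    (r : ℕ) [Fact r.Prime]
    (hΩ : r ∣ (Cfsg.Geo.decompositionStabilizer D).relIndex (Cfsg.GU n F q ⊓ Cfsg.Geo.specialLinear (Fin n) F)) :
    (∀ x ∈ Cfsg.GU n F q ⊓ Cfsg.Geo.specialLinear (Fin n) F, (∃ z : F, ((x ^ r : GL (Fin n) F) : Matrix (Fin n) (Fin n) F) = z • (1 : Matrix (Fin n) (Fin n) F)) →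
      (∀ z : F, (x : Matrix (Fin n) (Fin n) F) ≠ z • (1 : Matrix (Fin n) (Fin n) F)) →
      ∃ g ∈ Cfsg.GU n F q ⊓ Cfsg.Geo.specialLinear (Fin n) F, g⁻¹ * x * g ∈ Cfsg.Geo.decompositionStabilizer D) ↔
    (r = 2 ∧ Odd q ∧ padicValNat 2 (q + 1) ≤ padicValNat 2 n) := by
  classical
  have hrP : r.Prime := Fact.out
  have hp : p.Prime := Fact.out
  have hn0 : 0 < n := by omega
  have hq2 : 2 ≤ q := Cfsg.Agent.H7.two_le_of_card_sq hq
  have keyW : (∀ x ∈ Cfsg.GU n F q ⊓ Cfsg.Geo.specialLinear (Fin n) F,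
      (∃ z : F, ((x ^ r : GL (Fin n) F) : Matrix (Fin n) (Fin n) F)
        = z • (1 : Matrix (Fin n) (Fin n) F)) →
      (∀ z : F, (x : Matrix (Fin n) (Fin n) F) ≠ z • (1 : Matrix (Fin n) (Fin n) F)) →
      ∃ g ∈ Cfsg.GU n F q ⊓ Cfsg.Geo.specialLinear (Fin n) F,
        g⁻¹ * x * g ∈ Cfsg.Geo.decompositionStabilizer D) →
      ∀ M : Matrix (Fin n) (Fin n) F, M.det = 1 →
        (∀ u v : Fin n → F,
          Cfsg.hermForm n F q (M.mulVec u) (M.mulVec v) = Cfsg.hermForm n F q u v) →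
        (∃ z : F, M ^ r = z • (1 : Matrix (Fin n) (Fin n) F)) →
        (∀ z : F, M ≠ z • (1 : Matrix (Fin n) (Fin n) F)) →
        ∃ (E : Fin 2 → Submodule F (Fin n → F)) (σ : Equiv.Perm (Fin 2)),
          Cfsg.Geo.IsMDecomposition (n / 2) E ∧
          (∀ i, Cfsg.Geo.IsTotallySingularFor (Cfsg.hermForm n F q) (E i)) ∧
          ∀ i, (E i).map (Matrix.toLin' M) = E (σ i) := by
    intro hL M hdet hU ⟨z, hz⟩ hns
    obtain ⟨x, hxS, hxM⟩ := Cfsg.Agent.H99.Ten.exists_GL_of_det_one M hdet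
    have hxU : x ∈ Cfsg.GU n F q :=
      (Cfsg.Agent.H95.mem_GU_iff x).mpr (by rw [hxM]; exact hU)
    obtain ⟨g, hgS, hg⟩ := hL x ⟨hxU, hxS⟩
      ⟨z, by rw [Units.val_pow_eq_pow_val, hxM]; exact hz⟩ (by rw [hxM]; exact hns)
    obtain ⟨E, σ, hE, hEs, hmap⟩ := Cfsg.Agent.H54.Pair.pair_of_conj D hD hDs x g hgS.1 hg
    rw [hxM] at hmap
    exact ⟨E, σ, hE, hEs, hmap⟩
  constructor
  · intro hL
    have key := keyW hL
    have hrp : r ≠ p := by
      intro h
      obtain ⟨M, hdet, hU, hMp, hns, hW⟩ :=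
        Cfsg.Agent.H24.Pair.exists_transvection_witness (F := F) (q := q) (n := n) (p := p) hq hn
      exact hW (key M hdet hU ⟨1, by rw [h, hMp, one_smul]⟩ hns)
    have hrq : ¬ r ∣ q := by
      intro h
      obtain ⟨k, -, hk⟩ := FiniteField.card F p
      have h1 : r ∣ Fintype.card F := by rw [hq]; exact dvd_pow h two_ne_zero
      rw [hk] at h1
      exact hrp ((Nat.prime_dvd_prime_iff_eq hrP hp).mp (hrP.dvd_of_dvd_pow h1))
    by_cases hr2 : r = 2
    · have hp2 : p ≠ 2 := fun h => hrp (hr2.trans h.symm)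
      have hqodd : Odd q := by
        have h1 : Fintype.card F % 2 = 1 :=
          FiniteField.odd_card_of_char_ne_two (by rw [ringChar.eq F p]; exact hp2)
        rw [hq] at h1
        exact odd_of_sq_mod h1
      refine ⟨hr2, hqodd, ?_⟩
      by_contra hv
      have hv' : padicValNat 2 n < padicValNat 2 (q + 1) := not_le.mp hv
      obtain ⟨M, z, hdet, hU, hM2, hns, hW⟩ :=
        Cfsg.Agent.H24.Pair.exists_involution_witness (F := F) hq hqodd hn he hv'
      exact hW (key M hdet hU ⟨z, by rw [hr2]; exact hM2⟩ hns)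
    · exfalso
      obtain ⟨K, hKU, hKS, hKcard⟩ := Cfsg.Agent.H48.Pair.exists_levi_subgroup hq D hD hDs
      haveI hSLn : (Cfsg.Geo.specialLinear (Fin n) F).Normal := by
        unfold Cfsg.Geo.specialLinear
        infer_instance
      have hidx := Cfsg.Agent.H16.Pair.relIndex_mul_card_dvd (Cfsg.Geo.decompositionStabilizer D)
        (Cfsg.GU n F q) (Cfsg.Geo.specialLinear (Fin n) F) K hKU hKS
      rw [hKcard] at hidx
      have hidx2 : r * Nat.card (GL (Fin (n / 2)) F) ∣ Nat.card (Cfsg.GU n F q) :=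
        (mul_dvd_mul_right hΩ _).trans hidx
      have hcardGL : Nat.card (GL (Fin (n / 2)) F)
          = ∏ i : Fin (n / 2), ((q ^ 2) ^ (n / 2) - (q ^ 2) ^ (i : ℕ)) := by
        rw [Matrix.card_GL_field, hq]
      have hnm : n = 2 * (n / 2) := by
        obtain ⟨m, hm⟩ := he
        omega
      rw [hcardGL, Cfsg.Agent.H7.card_GU hq n] at hidx2
      have hidx3 : r * ∏ i : Fin (n / 2), ((q ^ 2) ^ (n / 2) - (q ^ 2) ^ (i : ℕ))
          ∣ q ^ ((2 * (n / 2)) * (2 * (n / 2) - 1) / 2) *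
            ∏ i ∈ Finset.range (2 * (n / 2)),
              (if Even i then q ^ (i + 1) + 1 else q ^ (i + 1) - 1) := by
        rw [← hnm]
        exact hidx2
      obtain ⟨hodd, hle⟩ := Cfsg.Agent.H16.Pair.odd_order_of_dvd q (n / 2) r hq2 hrP hr2 hrq hidx3
      obtain ⟨e, he'⟩ : ∃ e, e = orderOf (-(q : ZMod r)) := ⟨_, rfl⟩
      rw [← he'] at hodd hle
      have hen : e < n := by
        obtain ⟨k, hk⟩ := hodd
        obtain ⟨m, hm⟩ := he
        omega
      by_cases he1 : e = 1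
      · have hrq1 : r ∣ q + 1 :=
          Cfsg.Agent.H89.Pair.dvd_add_one_of_order_one q r hrP (by rw [← he']; exact he1)
        obtain ⟨ζ, hζ, hζ1, hζq⟩ := Cfsg.Agent.H89.Pair.exists_root_norm_one (F := F) hq hrP hrq1
        obtain ⟨M, hdet, hU, hMr, hns, hW⟩ :=
          Cfsg.Agent.H54.Pair.exists_witness_order_one hq hn hrP hr2 ζ hζ hζ1 hζq
        exact hW (key M hdet hU ⟨1, by rw [hMr, one_smul]⟩ hns)
      · obtain ⟨M₀, hU₀, hdet₀, hM₀r, hM₀1, hirr⟩ :=
          Cfsg.Agent.H75.Pair.exists_unitary_block (F := F) hq hrP hr2 hrq he' hodd he1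
        have he0 : 1 ≤ e := by
          obtain ⟨k, hk⟩ := hodd
          omega
        obtain ⟨M, hdet, hU, hMr, hns, hW⟩ :=
          Cfsg.Agent.H48.Pair.exists_witness_of_block hq he0 hen hrP hr2 M₀ hU₀ hdet₀ hM₀r hM₀1 hirr
        exact hW (key M hdet hU ⟨1, by rw [hMr, one_smul]⟩ hns)
  · rintro ⟨hr2, hqodd, hv⟩ x hx ⟨z, hz⟩ hns
    have h2F : (2 : F) ≠ 0 := by
      intro h0
      have h1 : p ∣ 2 := (CharP.cast_eq_zero_iff F p 2).mp (by exact_mod_cast h0)
      have h2 : p = 2 := (Nat.prime_dvd_prime_iff_eq hp Nat.prime_two).mp h1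
      have h3 : p ∣ Fintype.card F := by
        obtain ⟨k, -, hk⟩ := FiniteField.card F p
        rw [hk]
        exact dvd_pow_self p k.ne_zero
      rw [hq, h2] at h3
      have h4 : 2 ∣ q := Nat.Prime.dvd_of_dvd_pow Nat.prime_two h3
      obtain ⟨j, hj⟩ := hqodd
      omega
    have hxU : ∀ u v : Fin n → F,
        Cfsg.hermForm n F q ((x : Matrix (Fin n) (Fin n) F).mulVec u)
          ((x : Matrix (Fin n) (Fin n) F).mulVec v) = Cfsg.hermForm n F q u v :=
      (Cfsg.Agent.H95.mem_GU_iff x).mp hx.1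
    have hxdet : (x : Matrix (Fin n) (Fin n) F).det = 1 :=
      Cfsg.Agent.H99.Ten.det_of_mem_specialLinear x hx.2
    have hz' : (x : Matrix (Fin n) (Fin n) F) ^ 2 = z • (1 : Matrix (Fin n) (Fin n) F) := by
      rw [← Units.val_pow_eq_pow_val, ← hr2]
      exact hz
    have hzq : z ^ (q + 1) = 1 :=
      Cfsg.Agent.H89.Pair.norm_one_of_sq_scalar hn0 (x : Matrix (Fin n) (Fin n) F) hxU z hz'
    obtain ⟨lam, hlam⟩ := Cfsg.Agent.H89.Pair.exists_sqrt_of_norm_one hq hqodd z hzq
    have hz0 : z ≠ 0 := by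
      rintro rfl
      rw [zero_pow (by omega)] at hzq
      exact zero_ne_one hzq
    have hlam0 : lam ≠ 0 := by
      rintro rfl
      rw [zero_pow two_ne_zero] at hlam
      exact hz0 hlam.symm
    obtain ⟨y, hy⟩ : ∃ y : Matrix (Fin n) (Fin n) F,
        y = lam⁻¹ • (x : Matrix (Fin n) (Fin n) F) := ⟨_, rfl⟩
    have hxy : (x : Matrix (Fin n) (Fin n) F) = lam • y := by
      rw [hy, smul_smul, mul_inv_cancel₀ hlam0, one_smul]
    have hy2 : y ^ 2 = 1 := by
      rw [hy, smul_pow, hz', smul_smul, inv_pow, hlam, inv_mul_cancel₀ hz0, one_smul]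
    have hc2 : (lam ^ (q + 1)) ^ 2 = 1 := by
      rw [← pow_mul, mul_comm, pow_mul, hlam, hzq]
    have hyform : ∀ u v : Fin n → F,
        Cfsg.hermForm n F q (y.mulVec u) (y.mulVec v)
          = (lam ^ (q + 1))⁻¹ * Cfsg.hermForm n F q u v := by
      intro u v
      rw [hy, Matrix.smul_mulVec, Matrix.smul_mulVec, Cfsg.Agent.H95.hermForm_smul_left,
        Cfsg.Agent.H95.hermForm_smul_right, hxU, pow_succ, mul_inv, inv_pow]
      ring
    have h3 : (lam ^ (q + 1) - 1) * (lam ^ (q + 1) + 1) = 0 := by linear_combination hc2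
    have hAB : ∃ A B : Submodule F (Fin n → F),
        Cfsg.Geo.IsTotallySingularFor (Cfsg.hermForm n F q) A ∧
        Cfsg.Geo.IsTotallySingularFor (Cfsg.hermForm n F q) B ∧
        A ⊓ B = ⊥ ∧ A ⊔ B = ⊤ ∧
        A.map (Matrix.toLin' y) = A ∧ B.map (Matrix.toLin' y) = B := by
      rcases mul_eq_zero.mp h3 with h | h
      · have hc1 : lam ^ (q + 1) = 1 := by linear_combination h
        have hyU : ∀ u v : Fin n → F,
            Cfsg.hermForm n F q (y.mulVec u) (y.mulVec v) = Cfsg.hermForm n F q u v := by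
          intro u v
          rw [hyform, hc1, inv_one, one_mul]
        have h4 : y.det ^ 2 = 1 := by rw [← Matrix.det_pow, hy2, Matrix.det_one]
        have h5 : (y.det - 1) * (y.det + 1) = 0 := by linear_combination h4
        rcases mul_eq_zero.mp h5 with hd | hd
        · have hd1 : y.det = 1 := by linear_combination hd
          exact Cfsg.Agent.H86.Pair.exists_pair_of_unitary_involution hq h2F he y hy2 hyU hd1
            (fun W k hk hW => Cfsg.Agent.H75.Pair.exists_ts_split hq hqodd h2F W k hk hW)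
        · exfalso
          have hd1 : y.det = -1 := by linear_combination hd
          have h6 : y.det = (lam⁻¹) ^ n := by
            rw [hy, Matrix.det_smul, Fintype.card_fin, hxdet, mul_one]
          rw [h6] at hd1
          have h7 : lam ^ n = -1 := by
            have h8 : lam ^ n * (lam⁻¹) ^ n = 1 := by
              rw [← mul_pow, mul_inv_cancel₀ hlam0, one_pow]
            rw [hd1] at h8
            linear_combination -h8
          have h9 := Cfsg.Agent.H89.Pair.val_lt_of_pow_eq_neg_one (q := q) h2F lam hc1 h7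
          omega
      · have hc1 : lam ^ (q + 1) = -1 := by linear_combination h
        have hyA : ∀ u v : Fin n → F,
            Cfsg.hermForm n F q (y.mulVec u) (y.mulVec v) = - Cfsg.hermForm n F q u v := by
          intro u v
          rw [hyform, hc1, inv_neg, inv_one, neg_one_mul]
        exact Cfsg.Agent.H86.Pair.exists_pair_of_anti_involution' hq h2F y hy2 hyA
    obtain ⟨A, B, hA, hB, hABinf, hABsup, hAy, hBy⟩ := hAB
    obtain ⟨E, hE, hEs, hE0, hE1⟩ :=
      Cfsg.Agent.H89.Pair.good_pair_of_ts hq (by omega : 2 ≤ n) A B hA hB hABinf hABsup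
    have hmapsmul : ∀ W : Submodule F (Fin n → F), W.map (Matrix.toLin' y) = W →
        W.map (Matrix.toLin' (x : Matrix (Fin n) (Fin n) F)) = W := by
      intro W hW
      rw [hxy, map_smul, Submodule.map_smul _ _ lam hlam0, hW]
    have hEx : ∀ i, (E i).map (Matrix.toLin' (x : Matrix (Fin n) (Fin n) F))
        = E ((1 : Equiv.Perm (Fin 2)) i) := by
      intro i
      rw [Equiv.Perm.one_apply]
      fin_cases i
      · show (E 0).map _ = E 0
        rw [hE0]
        exact hmapsmul A hAy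
      · show (E 1).map _ = E 1
        rw [hE1]
        exact hmapsmul B hBy
    obtain ⟨g₀, hg₀U, hg₀⟩ := Cfsg.Agent.H4.Pair.exists_GU_map_pair hq D E hD hDs hE hEs
    have hg₀det : ((g₀ : Matrix (Fin n) (Fin n) F).det) ^ (q + 1) = 1 :=
      Cfsg.Agent.H17.gu_det_pow hq n (g₀ : Matrix (Fin n) (Fin n) F)
        ((Cfsg.Agent.H95.mem_GU_iff g₀).mp hg₀U)
    have hδ : (((g₀ : Matrix (Fin n) (Fin n) F).det)⁻¹) ^ (q + 1) = 1 := by
      rw [inv_pow, hg₀det, inv_one]
    obtain ⟨t, htU, htdet, ht⟩ := Cfsg.Agent.H4.Pair.exists_GU_stab_det hq E hE hEs _ hδ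
    have hg₀det0 : (g₀ : Matrix (Fin n) (Fin n) F).det ≠ 0 := by
      intro h0
      rw [h0, zero_pow (by omega)] at hg₀det
      exact zero_ne_one hg₀det
    refine ⟨t * g₀, ⟨(Cfsg.GU n F q).mul_mem htU hg₀U,
      (Cfsg.Agent.H95.mem_specialLinear_iff (t * g₀)).mpr ?_⟩, ?_⟩
    · rw [Units.val_mul, Matrix.det_mul, htdet, inv_mul_cancel₀ hg₀det0]
    · exact Cfsg.Agent.H54.Pair.conj_of_pair D E 1 x (t * g₀)
        (fun i => by rw [Units.val_mul, Matrix.toLin'_mul, Submodule.map_comp, hg₀, ht]) hEx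

end Cfsg.Agent.S5984
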