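import Cfsg.Statements.S5997
import Cfsg.Agent.H99.PSL2Quat

set_option autoImplicit false
open scoped MatrixGroups
open Cfsg

namespace Cfsg.Agent.S5997

/-- Elements of prime order of PSL_2(p) and the normalizer of a quaternion subgroup. Here `T = PSL_2(F)` for the field `F` with `p` elements, `p ≥ 5` prime; `R` is a subgroup of GL_2(F) isomorphic to the quaternion group of order 8 (an absolutely irreducible 2-group of symplectic type), and `H` is the subgroup of matrices of determinant 1 normalizing `R` — a subgroup of type 2^{1+2}.O₂⁻(2), isomorphic modulo scalars to A₄ or S₄ (maximality is not assumed). Ω is the set of cosets of `H` in `T`, so an element of `T` of prime order `r` (a matrix `x` of determinant 1 with `x^r` scalar, `x` not scalar) fixes a point of Ω exactly when some conjugate of `x` by a matrix of determinant 1 normalizes `R`. Let `r` be a prime dividing the index of `H`. Then every element of `T` of order `r` fixes a point of Ω if and only if `r = 2` or `r = 3`. -/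
theorem result {F : Type*} [Field F] [Fintype F] {p : ℕ} [Fact p.Prime] [CharP F p] (hF : Fintype.card F = p) (hp : 5 ≤ p)
    (R : Subgroup (GL (Fin 2) F)) (hR : Nonempty (↥R ≃* QuaternionGroup 2))
    (r : ℕ) [Fact r.Prime]
    (hΩ : r ∣ (Cfsg.Geo.subgroupNormalizer R).relIndex (Cfsg.Geo.specialLinear (Fin 2) F)) :
    (∀ x ∈ Cfsg.Geo.specialLinear (Fin 2) F, (∃ z : F, ((x ^ r : GL (Fin 2) F) : Matrix (Fin 2) (Fin 2) F) = z • (1 : Matrix (Fin 2) (Fin 2) F)) →
      (∀ z : F, (x : Matrix (Fin 2) (Fin 2) F) ≠ z • (1 : Matrix (Fin 2) (Fin 2) F)) →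
      ∃ g ∈ Cfsg.Geo.specialLinear (Fin 2) F, g⁻¹ * x * g ∈ Cfsg.Geo.subgroupNormalizer R) ↔ (r = 2 ∨ r = 3) := by
  classical
  obtain ⟨e⟩ := hR
  have hpp : p.Prime := Fact.out
  have hodd : Fintype.card F % 2 = 1 := by
    rw [hF]
    rcases hpp.eq_two_or_odd with h | h
    · omega
    · exact h
  have h2 : (2 : F) ≠ 0 := Cfsg.Agent.H99.mat2_two_ne_zero hodd
  have h3 : (3 : F) ≠ 0 := by
    intro h
    have h' : ((3 : ℕ) : F) = 0 := by exact_mod_cast h
    rw [CharP.cast_eq_zero_iff F p] at h'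
    have := Nat.le_of_dvd (by norm_num) h'
    omega
  obtain ⟨gI, gJ, hgI, hgJ, hRcl, hI, hJ, hIJ⟩ := Cfsg.Agent.H99.quat_matrices R e
  constructor
  · intro hall
    by_contra hr
    push Not at hr
    have hrp : r.Prime := Fact.out
    have hr5 : 5 ≤ r := by
      have := hrp.two_le
      by_contra hlt
      push Not at hlt
      interval_cases r
      · exact hr.1 rfl
      · exact hr.2 rfl
      · exact absurd hrp (by decide)
    have hdvd : r ∣ Nat.card ↥(Cfsg.Geo.specialLinear (Fin 2) F) :=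
      hΩ.trans (Subgroup.relIndex_dvd_card _ _)
    obtain ⟨x₀, hx₀⟩ := exists_prime_orderOf_dvd_card' r hdvd
    obtain ⟨x, hx⟩ : ∃ x : GL (Fin 2) F, x = (x₀ : GL (Fin 2) F) := ⟨_, rfl⟩
    have hxS : x ∈ Cfsg.Geo.specialLinear (Fin 2) F := by rw [hx]; exact x₀.2
    have hxr : x ^ r = 1 := by
      rw [hx, ← Subgroup.coe_pow, ← hx₀, pow_orderOf_eq_one, Subgroup.coe_one]
    have hxns : ∀ z : F, (x : Matrix (Fin 2) (Fin 2) F) ≠ z • (1 : Matrix (Fin 2) (Fin 2) F) := by
      intro z hz
      have hdet := (Cfsg.Agent.H99.mem_specialLinear_iff x).mp hxS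
      rw [hz, Matrix.det_smul, Matrix.det_one, Fintype.card_fin, mul_one] at hdet
      have hx2 : x ^ 2 = 1 := by
        apply Units.ext
        rw [pow_two, Units.val_mul, hz, Matrix.smul_mul, Matrix.one_mul, smul_smul, ← pow_two,
          hdet, one_smul, Units.val_one]
      have hx02 : x₀ ^ 2 = 1 := by
        apply Subtype.ext
        rw [Subgroup.coe_pow, ← hx, hx2, Subgroup.coe_one]
      have h5 := orderOf_dvd_of_pow_eq_one hx02
      rw [hx₀] at h5
      have := Nat.le_of_dvd (by norm_num) h5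
      omega
    obtain ⟨g, hg, hgN⟩ := hall x hxS ⟨1, by rw [hxr, one_smul, Units.val_one]⟩ hxns
    obtain ⟨y, hy⟩ : ∃ y : GL (Fin 2) F, y = g⁻¹ * x * g := ⟨_, rfl⟩
    rw [← hy] at hgN
    have hyr : y ^ r = 1 := by
      have h5 : y = g⁻¹ * x * g⁻¹⁻¹ := by rw [inv_inv, hy]
      rw [h5, conj_pow, hxr, mul_one, inv_inv, inv_mul_cancel]
    have hyns : ∀ z : F, (y : Matrix (Fin 2) (Fin 2) F) ≠ z • (1 : Matrix (Fin 2) (Fin 2) F) := by
      intro z hz
      apply hxns z
      have h5 : x = g * y * g⁻¹ := by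
        rw [hy]
        group
      rw [h5, Units.val_mul, Units.val_mul, hz, Matrix.mul_smul, Matrix.mul_one, Matrix.smul_mul,
        ← Units.val_mul, mul_inv_cancel, Units.val_one]
    have hcR : gI * gI ∈ R := Subgroup.mul_mem _ hgI hgI
    have hc1 : gI * gI ≠ 1 := by
      intro h
      have h5 := congrArg Units.val h
      rw [Units.val_mul, hI, Units.val_one] at h5
      have h6 := congrFun (congrFun h5 0) 0
      simp at h6
      apply h2
      linear_combination -h6
    have hcy : gI * gI * y = y * (gI * gI) := by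
      apply Units.ext
      simp only [Units.val_mul, hI]
      simp
    have hcard : Nat.card ↥R = 8 := by
      rw [Nat.card_congr e.toEquiv, Nat.card_eq_fintype_card, QuaternionGroup.card]
    have hcen := Cfsg.Agent.H99.centralizes_of_normalizes R y hgN r hyr (gI * gI) hcR hc1 hcy
      hcard hr5
    have hIy := congrArg Units.val (hcen gI hgI)
    have hJy := congrArg Units.val (hcen gJ hgJ)
    rw [Units.val_mul, Units.val_mul] at hIy hJy
    have hcomm := Cfsg.Agent.H99.mat2_centralizer_comm _ hyns _ _ hIy hJy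
    obtain ⟨q1, -⟩ := Cfsg.Agent.H99.quat_table _ _ hI hJ hIJ
    have h7 : (gI : Matrix (Fin 2) (Fin 2) F) * (gJ : Matrix (Fin 2) (Fin 2) F) =
        -((gI : Matrix (Fin 2) (Fin 2) F) * (gJ : Matrix (Fin 2) (Fin 2) F)) := by
      nth_rewrite 2 [hcomm]
      exact hIJ
    have h8 := q1
    nth_rewrite 1 [h7] at h8
    rw [Matrix.neg_mul, q1] at h8
    have h9 := congrFun (congrFun h8 0) 0
    simp at h9
    apply h2
    linear_combination h9
  · rintro (rfl | rfl)
    · intro x hx ⟨z, hz⟩ hns
      have hxz : (x : Matrix (Fin 2) (Fin 2) F) * (x : Matrix (Fin 2) (Fin 2) F) = z • 1 := by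
        rw [← hz, pow_two, Units.val_mul]
      obtain ⟨g, hg, hgR⟩ :=
        Cfsg.Agent.H99.quat_fix_two hodd h2 R gI gJ hgI hI hJ hIJ x hx z hxz hns
      exact ⟨g, hg, Subgroup.le_normalizer hgR⟩
    · intro x hx ⟨z, hz⟩ hns
      have hxz : (x : Matrix (Fin 2) (Fin 2) F) * (x : Matrix (Fin 2) (Fin 2) F) *
          (x : Matrix (Fin 2) (Fin 2) F) = z • 1 := by
        rw [← hz, pow_succ, pow_two, Units.val_mul, Units.val_mul]
      obtain ⟨g, hg, hgR⟩ :=
        Cfsg.Agent.H99.quat_fix_three hodd h2 h3 gI gJ hI hJ hIJ x hx z hxz hns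
      refine ⟨g, hg, ?_⟩
      unfold Cfsg.Geo.subgroupNormalizer
      rw [hRcl]
      exact hgR

end Cfsg.Agent.S5997
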