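import Cfsg.Statements.S5999
import Cfsg.Agent.H99.HeisU

set_option autoImplicit false
open scoped MatrixGroups
open Cfsg

namespace Cfsg.Agent.S5999

/-- Elements of prime order of PSU_3(p), p ≡ 2 (mod 3), and the normalizer of an extraspecial subgroup of order 27. Here `T = PSU_3(p)` for a prime `p ≥ 5` with `p ≡ 2 (mod 3)`, realised through `SU_3(p)`, the matrices of determinant 1 over the field `F` with `p²` elements preserving the hermitian form `Σ uᵢvᵢ^p`; `R` is a non-abelian subgroup of order 27 and exponent 3 of the full unitary group of that form (an extraspecial group 3^{1+2}, acting absolutely irreducibly), and `H` is the subgroup of `SU_3(p)` normalizing `R` — a subgroup of type 3^{1+2}.Sp₂(3) (maximality is not assumed). Ω is the set of cosets of `H`, so an element of `T` of prime order `r` (`x ∈ SU_3(p)` with `x^r` scalar, `x` not scalar) fixes a point of Ω exactly when some `SU_3(p)`-conjugate of `x` normalizes `R`. Let `r` be a prime dividing the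 index of `H`. Then every element of `T` of order `r` fixes a point of Ω if and only if `r = 2`, or `r = 3` and `p ≡ 8 (mod 9)`. -/
theorem result {F : Type*} [Field F] [Fintype F] {p : ℕ} [Fact p.Prime] [CharP F p] (hF : Fintype.card F = p ^ 2) (hp : 5 ≤ p) (hp3 : p % 3 = 2)
    (R : Subgroup (GL (Fin 3) F)) (hRU : R ≤ Cfsg.GU 3 F p) (hR : Nat.card R = 27) (hRe : Monoid.exponent R = 3) (hRna : ¬ IsMulCommutative R)
    (r : ℕ) [Fact r.Prime]
    (hΩ : r ∣ (Cfsg.Geo.subgroupNormalizer R).relIndex (Cfsg.GU 3 F p ⊓ Cfsg.Geo.specialLinear (Fin 3) F)) :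
    (∀ x ∈ Cfsg.GU 3 F p ⊓ Cfsg.Geo.specialLinear (Fin 3) F, (∃ z : F, ((x ^ r : GL (Fin 3) F) : Matrix (Fin 3) (Fin 3) F) = z • (1 : Matrix (Fin 3) (Fin 3) F)) →
      (∀ z : F, (x : Matrix (Fin 3) (Fin 3) F) ≠ z • (1 : Matrix (Fin 3) (Fin 3) F)) →
      ∃ g ∈ Cfsg.GU 3 F p ⊓ Cfsg.Geo.specialLinear (Fin 3) F, g⁻¹ * x * g ∈ Cfsg.Geo.subgroupNormalizer R) ↔ (r = 2 ∨ (r = 3 ∧ p % 9 = 8)) := by
  classical
  have hpp : p.Prime := Fact.out
  have h3 : (3 : F) ≠ 0 := by
    intro h
    have h' : ((3 : ℕ) : F) = 0 := by exact_mod_cast h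
    rw [CharP.cast_eq_zero_iff F p] at h'
    have := Nat.le_of_dvd (by norm_num) h'
    omega
  have h2 : (2 : F) ≠ 0 := by
    intro h
    have h' : ((2 : ℕ) : F) = 0 := by exact_mod_cast h
    rw [CharP.cast_eq_zero_iff F p] at h'
    have := Nat.le_of_dvd (by norm_num) h'
    omega
  have hpodd : p % 2 = 1 := by
    rcases hpp.eq_two_or_odd with h | h
    · omega
    · exact h
  have hQ3 : p ^ 2 % 3 = 1 := by rw [Nat.pow_mod, hp3]
  have : Fact (Nat.Prime 3) := ⟨by norm_num⟩
  obtain ⟨μ, hμ⟩ : ∃ μ : F, μ ^ 2 + μ + 1 = 0 := by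
    have hdvd : 3 ∣ Nat.card Fˣ := by
      rw [Nat.card_units, Nat.card_eq_fintype_card, hF]
      omega
    obtain ⟨u, hu⟩ := exists_prime_orderOf_dvd_card' 3 hdvd
    have hu3 : u ^ 3 = 1 := by rw [← hu]; exact pow_orderOf_eq_one u
    have hu1 : u ≠ 1 := by
      intro h
      rw [h, orderOf_one] at hu
      omega
    refine ⟨(u : F), ?_⟩
    have h3' : (u : F) ^ 3 = 1 := by
      have := congrArg Units.val hu3
      simpa using this
    have hne : (u : F) ≠ 1 := fun h => hu1 (Units.ext h)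
    have h5 : ((u : F) - 1) * ((u : F) ^ 2 + u + 1) = 0 := by linear_combination h3'
    rcases mul_eq_zero.mp h5 with h | h
    · exact absurd (sub_eq_zero.mp h) hne
    · exact h
  obtain ⟨a, b, c, ν, v₀, haR, hbR, hcR, hν, hc, hav₀, hbv₀, hRcl⟩ :=
    Cfsg.Agent.H99.heis_structure μ hμ h3 R hR hRe hRna
  have hfin : Finite R := Nat.finite_of_card_ne_zero (by rw [hR]; norm_num)
  obtain ⟨ν3, ν1, ν21, ν0, ν2ν⟩ := Cfsg.Agent.H99.cube_root_facts ν hν h3
  have hνq : ν ^ (p + 1) = 1 := by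
    obtain ⟨m, hm⟩ : 3 ∣ p + 1 := Nat.dvd_of_mod_eq_zero (by omega)
    rw [hm, pow_mul, ν3, one_pow]
  obtain ⟨v, hav, hbv, hv⟩ := Cfsg.Agent.H99.heis_onb hF a b (hRU haR) (hRU hbR) ν h3 hν hνq v₀
    hav₀ hbv₀
  constructor
  · intro hall
    by_contra hr
    push Not at hr
    have hrp : r.Prime := Fact.out
    by_cases hr3 : r = 3
    · subst hr3
      have hp9 : p % 9 ≠ 8 := hr.2 rfl
      have hRS := Cfsg.Agent.H99.heis_le_sl R a b ν v h3 hν hav hbv hRcl
      have hQ9 : p ^ 2 % 9 ≠ 1 := by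
        have h9 : p % 9 = 2 ∨ p % 9 = 5 := by omega
        rcases h9 with h | h <;> rw [Nat.pow_mod, h] <;> norm_num
      exact Cfsg.Agent.H99.sl3_not_three_dvd' (p ^ 2) hF hQ3 hQ9 R (Cfsg.Geo.subgroupNormalizer R)
        (Cfsg.GU 3 F p ⊓ Cfsg.Geo.specialLinear (Fin 3) F) hR Subgroup.le_normalizer
        (le_inf hRU hRS) inf_le_right hΩ
    · have hr5 : 5 ≤ r := by
        have := hrp.two_le
        by_contra hlt
        push Not at hlt
        interval_cases r
        · exact hr.1 rfl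
        · exact hr3 rfl
        · exact absurd hrp (by decide)
      have hdvd : r ∣ Nat.card ↥(Cfsg.GU 3 F p ⊓ Cfsg.Geo.specialLinear (Fin 3) F) :=
        hΩ.trans (Subgroup.relIndex_dvd_card _ _)
      obtain ⟨x₀, hx₀⟩ := exists_prime_orderOf_dvd_card' r hdvd
      obtain ⟨x, hx⟩ : ∃ x : GL (Fin 3) F, x = (x₀ : GL (Fin 3) F) := ⟨_, rfl⟩
      have hxS : x ∈ Cfsg.GU 3 F p ⊓ Cfsg.Geo.specialLinear (Fin 3) F := by rw [hx]; exact x₀.2
      have hxr : x ^ r = 1 := by
        rw [hx, ← Subgroup.coe_pow, ← hx₀, pow_orderOf_eq_one, Subgroup.coe_one]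
      have hxns : ∀ z : F, (x : Matrix (Fin 3) (Fin 3) F) ≠
          z • (1 : Matrix (Fin 3) (Fin 3) F) := by
        intro z hz
        have hdet := (Cfsg.Agent.H99.mem_sl_iff x).mp hxS.2
        rw [hz, Matrix.det_smul, Matrix.det_one, Fintype.card_fin, mul_one] at hdet
        have hx3 : x ^ 3 = 1 := by
          apply Units.ext
          rw [Units.val_pow_eq_pow_val, hz, smul_pow, one_pow, hdet, one_smul, Units.val_one]
        have hx03 : x₀ ^ 3 = 1 := by
          apply Subtype.ext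
          rw [Subgroup.coe_pow, ← hx, hx3, Subgroup.coe_one]
        have h5 := orderOf_dvd_of_pow_eq_one hx03
        rw [hx₀] at h5
        have := Nat.le_of_dvd (by norm_num) h5
        omega
      obtain ⟨g, hg, hgN⟩ := hall x hxS ⟨1, by rw [hxr, one_smul, Units.val_one]⟩ hxns
      obtain ⟨y, hy⟩ : ∃ y : GL (Fin 3) F, y = g⁻¹ * x * g := ⟨_, rfl⟩
      rw [← hy] at hgN
      have hyr : y ^ r = 1 := by
        have h5 : y = g⁻¹ * x * g⁻¹⁻¹ := by rw [inv_inv, hy]
        rw [h5, conj_pow, hxr, mul_one, inv_inv, inv_mul_cancel]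
      have hyns : ∀ z : F, (y : Matrix (Fin 3) (Fin 3) F) ≠
          z • (1 : Matrix (Fin 3) (Fin 3) F) := by
        intro z hz
        apply hxns z
        have h5 : x = g * y * g⁻¹ := by
          rw [hy]
          group
        rw [h5, Units.val_mul, Units.val_mul, hz, Matrix.mul_smul, Matrix.mul_one,
          Matrix.smul_mul, ← Units.val_mul, mul_inv_cancel, Units.val_one]
      have hc1 : c ≠ 1 := by
        intro h
        have h5 := congrArg Units.val h
        rw [hc, Units.val_one] at h5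
        have h6 := congrFun (congrFun h5 0) 0
        simp at h6
        exact ν1 h6
      have hcy : c * y = y * c := by
        apply Units.ext
        rw [Units.val_mul, Units.val_mul, hc, Matrix.smul_mul, Matrix.mul_smul, Matrix.one_mul,
          Matrix.mul_one]
      have hcen := Cfsg.Agent.H99.centralizes_of_normalizes_gen R y hgN r hyr c hcR hc1 hcy 27
        (by norm_num) hR
        (fun m hm hm1 hmod => Cfsg.Agent.H99.card_arith_27 r hrp hr5 m hm hm1 hmod)
      obtain ⟨l, hl⟩ := Cfsg.Agent.H99.heis_centralizer_scalar a b ν v h3 hν hav hbv y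
        (hcen a haR).symm (hcen b hbR).symm
      exact hyns l hl
  · rintro (rfl | ⟨rfl, hp9⟩)
    · intro x hx ⟨z, hz⟩ hns
      have hxz : (x : Matrix (Fin 3) (Fin 3) F) * (x : Matrix (Fin 3) (Fin 3) F) = z • 1 := by
        rw [← hz, pow_two, Units.val_mul]
      have h6 : 6 ∣ p + 1 := Nat.dvd_of_mod_eq_zero (by omega)
      exact Cfsg.Agent.H99.heisU_fix_two hF h6 R a b ν v h3 h2 haR hbR hν hav hbv hv hRcl x hx.1
        hx.2 z hxz hns
    · intro x hx ⟨z, hz⟩ _
      have hxz : (x : Matrix (Fin 3) (Fin 3) F) * (x : Matrix (Fin 3) (Fin 3) F) *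
          (x : Matrix (Fin 3) (Fin 3) F) = z • 1 := by
        rw [← hz, pow_succ, pow_two, Units.val_mul, Units.val_mul]
      have h9 : 9 ∣ p + 1 := Nat.dvd_of_mod_eq_zero (by omega)
      exact Cfsg.Agent.H99.heisU_fix_three hF h9 R a b c ν v h3 haR hbR hcR hν hc hav hbv hv hRcl
        x hx.1 hx.2 z hxz

end Cfsg.Agent.S5999
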