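import Cfsg.Statements.S6000
import Cfsg.Agent.H11.S4Ord3A
import Cfsg.Agent.H11.S4Ord3B
import Cfsg.Agent.H11.S4Q3
import Cfsg.Agent.H11.S4Rot
import Cfsg.Agent.H15.ESTau
import Cfsg.Agent.H15.S4NT5
import Cfsg.Agent.H15.S4W3
import Cfsg.Agent.H16.SubCENT
import Cfsg.Agent.H5.S4Basis
import Cfsg.Agent.H5.S4Cent
import Cfsg.Agent.H5.S4Fix
import Cfsg.Agent.H5.S4Mat
import Cfsg.Agent.H5.S4TV
import Cfsg.Agent.H5.S4Tr0
import Cfsg.Agent.H51.S4Gen
import Cfsg.Agent.H51.S4Ord5
import Cfsg.Agent.H62.S4Big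
import Cfsg.Agent.H62.S4Norm
import Cfsg.Agent.H62.S4Refl
import Cfsg.Agent.H62.S4TrId
import Cfsg.Agent.H69.S4C3
import Cfsg.Agent.H69.S4C5
import Cfsg.Agent.H69.S4C5NF
import Cfsg.Agent.H69.S4Cauchy
import Cfsg.Agent.H69.S4Glue
import Cfsg.Agent.H69.S4InvC
import Cfsg.Agent.H69.S4InvT
import Cfsg.Agent.H69.S4Sqrt
import Cfsg.Agent.H69.S4TVW
import Cfsg.Agent.H99.Heis
import Cfsg.Agent.H99.S4C3NF
import Cfsg.Agent.H99.S4Defs
import Cfsg.Agent.H99.S4GrpA
import Cfsg.Agent.H99.S4GrpB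
import Cfsg.Agent.H99.TenGlue

set_option autoImplicit false
open scoped MatrixGroups
open Cfsg

namespace Cfsg.Agent.S6000

open Cfsg.Agent.H99.S4

universe u

theorem gl_pow_eq_one {F : Type u} [Field F] (x : G4 F) (k : ℕ) (h : (x : M4 F) ^ k = 1) :
    x ^ k = 1 := by
  apply Units.ext
  rw [Units.val_pow_eq_pow_val, h]
  rfl

theorem conj_pow_one {F : Type u} [Field F] (x g : G4 F) (k : ℕ) (h : (x : M4 F) ^ k = 1) :
    ((g⁻¹ * x * g : G4 F) : M4 F) ^ k = 1 := by
  have h1 : (g⁻¹ * x * g) ^ k = 1 := by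
    have h2 := conj_pow (a := g⁻¹) (b := x) (i := k)
    rw [inv_inv] at h2
    rw [h2, gl_pow_eq_one x k h, mul_one, inv_mul_cancel]
  rw [← Units.val_pow_eq_pow_val, h1]
  rfl

theorem conj_trace {F : Type u} [Field F] (x g : G4 F) :
    Matrix.trace ((g⁻¹ * x * g : G4 F) : M4 F) = Matrix.trace (x : M4 F) := by
  rw [Units.val_mul, Units.val_mul, Matrix.trace_mul_cycle, ← Units.val_mul, mul_inv_cancel,
    Units.val_one, Matrix.one_mul]

theorem conj_inv_trace {F : Type u} [Field F] (x g : G4 F) :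
    Matrix.trace (((g⁻¹ * x * g)⁻¹ : G4 F) : M4 F) = Matrix.trace ((x⁻¹ : G4 F) : M4 F) := by
  have h : (g⁻¹ * x * g)⁻¹ = g⁻¹ * x⁻¹ * g := by group
  rw [h, conj_trace]

theorem conj_scalar {F : Type u} [Field F] (x g : G4 F) (t : F)
    (h : ((g⁻¹ * x * g : G4 F) : M4 F) = t • (1 : M4 F)) : (x : M4 F) = t • (1 : M4 F) := by
  have h1 : x = g * (g⁻¹ * x * g) * g⁻¹ := by group
  have h2 : (x : M4 F) = (g : M4 F) * ((g⁻¹ * x * g : G4 F) : M4 F) * ((g⁻¹ : G4 F) : M4 F) := by
    conv_lhs => rw [h1]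
    rw [Units.val_mul, Units.val_mul]
  rw [h2, h, Matrix.mul_smul, Matrix.mul_one, Matrix.smul_mul, ← Units.val_mul, mul_inv_cancel,
    Units.val_one]

theorem inv_val_of_pow {F : Type u} [Field F] (x : G4 F) (k : ℕ) (h : (x : M4 F) ^ (k + 1) = 1) :
    ((x⁻¹ : G4 F) : M4 F) = (x : M4 F) ^ k := by
  have h1 : x ^ (k + 1) = 1 := gl_pow_eq_one x (k + 1) h
  have h2 : x⁻¹ = x ^ k := inv_eq_of_mul_eq_one_right (by rw [← pow_succ']; exact h1)
  rw [h2, Units.val_pow_eq_pow_val]

theorem mem_norm_of_mem {F : Type u} [Field F] (R : Subgroup (G4 F)) [Finite R] (a : G4 F)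
    (ha : a ∈ R) : a ∈ Cfsg.Geo.subgroupNormalizer R := by
  unfold Cfsg.Geo.subgroupNormalizer
  exact Cfsg.Agent.H99.mem_normalizer_of_finite R a
    (fun g hg => R.mul_mem (R.mul_mem ha hg) (R.inv_mem ha))

theorem finish {F : Type u} [Field F] [Fintype F] (hglue : StGlue.{u}) (R : Subgroup (G4 F))
    (x : G4 F) (hx : x ∈ Cfsg.Geo.specialLinear (Fin 4) F) (r : ℕ) (hr : r.Prime)
    (hrF : (r : F) ≠ 0) (lam : F) (hlam : lam ≠ 0) (y : M4 F) (hy : (x : M4 F) = lam • y)
    (hyr : y ^ r = 1) (w : G4 F) (hw : w ∈ Cfsg.Geo.subgroupNormalizer R) (t : F) (ht : t ≠ 0)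
    (G : M4 F) (hG : IsUnit G.det) (hconj : y * G = G * (t • (w : M4 F))) :
    ∃ g ∈ Cfsg.Geo.specialLinear (Fin 4) F, g⁻¹ * x * g ∈ Cfsg.Geo.subgroupNormalizer R := by
  refine hglue F R x w hx hw (lam * t) G (mul_ne_zero hlam ht) hG ?_ ?_
  · rw [hy, Matrix.smul_mul, hconj, Matrix.mul_smul, Matrix.mul_smul, smul_smul]
  · intro d hd
    obtain ⟨h, hh, hc⟩ :=
      Cfsg.Agent.H16.Sub.exists_commuting_det 4 r (by norm_num) hr hrF y hyr d hd
    exact ⟨h, hh, by rw [hy, Matrix.mul_smul, hc, Matrix.smul_mul]⟩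

/-- Elements of prime order of PSL_4(p), p ≡ 1 (mod 4), and the normalizer of a 2-group of symplectic type of order 2⁶. Here `T = PSL_4(F)` for the field `F` with `p` elements, `p` a prime with `p ≡ 1 (mod 4)`; `R` is an absolutely irreducible subgroup of GL_4(F) of order 2⁶ that is a 2-group of symplectic type of exponent 4 with centre of order 4 (the central product of the scalars of order 4 with an extraspecial group 2^{1+4}), and `H` is the subgroup of matrices of determinant 1 normalizing `R` — a subgroup of type 2⁴.Sp₄(2) (maximality is not assumed). Ω is the set of cosets of `H` in `T`, so an element of `T` of prime order `r` (a matrix `x` of determinant 1 with `x^r` scalar, `x` not scalar) fixes a point of Ω exactly when some conjugate of `x` by a matrix of determinant 1 normalizes `R`. Let `r` be a prime dividing the index of `H`. Then every element of `T` of order `r` fixes a point of Ω if and only if `r = 2`, or `r = 3` and `p ≡ 2 (mod 3)`, or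 `r = 5` and `p ≡ ±2 (mod 5)` (`p` has multiplicative order 4 modulo 5). -/
theorem result {F : Type*} [Field F] [Fintype F] {p : ℕ} [Fact p.Prime] [CharP F p] (hF : Fintype.card F = p) (hp4 : p % 4 = 1)
    (R : Subgroup (GL (Fin 4) F)) (hR : Cfsg.Geo.IsLinearSymplecticTypeData 2 R) (hR6 : Nat.card R = 2 ^ 6)
    (r : ℕ) [Fact r.Prime]
    (hΩ : r ∣ (Cfsg.Geo.subgroupNormalizer R).relIndex (Cfsg.Geo.specialLinear (Fin 4) F)) :
    (∀ x ∈ Cfsg.Geo.specialLinear (Fin 4) F, (∃ z : F, ((x ^ r : GL (Fin 4) F) : Matrix (Fin 4) (Fin 4) F) = z • (1 : Matrix (Fin 4) (Fin 4) F)) →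
      (∀ z : F, (x : Matrix (Fin 4) (Fin 4) F) ≠ z • (1 : Matrix (Fin 4) (Fin 4) F)) →
      ∃ g ∈ Cfsg.Geo.specialLinear (Fin 4) F, g⁻¹ * x * g ∈ Cfsg.Geo.subgroupNormalizer R) ↔ (r = 2 ∨ (r = 3 ∧ p % 3 = 2) ∨ (r = 5 ∧ orderOf (p : ZMod 5) = 4)) := by
  classical
  have hpP : p.Prime := Fact.out
  have hrP : r.Prime := Fact.out
  have hp5 : 5 ≤ p := by
    have := hpP.two_le
    omega
  have hnat : ∀ k : ℕ, 0 < k → k < p → ((k : ℕ) : F) ≠ 0 := by
    intro k hk0 hkp h
    rw [CharP.cast_eq_zero_iff F p] at h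
    have := Nat.le_of_dvd hk0 h
    omega
  have h2 : (2 : F) ≠ 0 := by
    have := hnat 2 (by norm_num) (by omega)
    exact_mod_cast this
  have h3 : (3 : F) ≠ 0 := by
    have := hnat 3 (by norm_num) (by omega)
    exact_mod_cast this
  have h4 : (4 : F) ≠ 0 := by
    have := hnat 4 (by norm_num) (by omega)
    exact_mod_cast this
  obtain ⟨i, hi⟩ : ∃ i : F, i * i = -1 := by
    have h := (FiniteField.isSquare_neg_one_iff (F := F)).mpr (by rw [hF]; omega)
    obtain ⟨i, hi⟩ := h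
    exact ⟨i, hi.symm⟩
  have hi0 : i ≠ 0 := by
    rintro rfl
    rw [mul_zero] at hi
    exact one_ne_zero (neg_eq_zero.mp hi.symm)
  have hS : IsS4 R i := Cfsg.Agent.H5.S4.matS Cfsg.Agent.H99.S4P.grpA Cfsg.Agent.H99.S4P.grpB F R i hi h2 hR hR6
  haveI hRfin : Finite R := Nat.finite_of_card_ne_zero (by rw [hS.card]; norm_num)
  obtain ⟨a, b, c, d, hB⟩ := Cfsg.Agent.H5.S4.basisS F R i h2 hS
  have hz4 : ∀ (x : GL (Fin 4) F), x ∈ Cfsg.Geo.specialLinear (Fin 4) F → ∀ (k : ℕ) (z : F),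
      (x : Matrix (Fin 4) (Fin 4) F) ^ k = z • (1 : Matrix (Fin 4) (Fin 4) F) → z ^ 4 = 1 := by
    intro x hx k z hz
    have h1 := congrArg Matrix.det hz
    rw [Matrix.det_pow, Cfsg.Agent.H99.Ten.det_of_mem_specialLinear x hx, one_pow, Matrix.det_smul,
      Matrix.det_one, mul_one, Fintype.card_fin] at h1
    exact h1.symm
  constructor
  · intro hall
    by_contra hne
    push_neg at hne
    obtain ⟨hr2, hr3, hr5⟩ := hne
    have hwit : ∀ (X : Matrix (Fin 4) (Fin 4) F), X.det = 1 → X ^ r = 1 →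
        (∀ t : F, X ≠ t • (1 : Matrix (Fin 4) (Fin 4) F)) →
        ∃ (x g : GL (Fin 4) F), (x : Matrix (Fin 4) (Fin 4) F) = X ∧
          g⁻¹ * x * g ∈ Cfsg.Geo.subgroupNormalizer R := by
      intro X hdet hXr hXns
      obtain ⟨x, hxSL, hxX⟩ := Cfsg.Agent.H99.Ten.exists_GL_of_det_one X hdet
      obtain ⟨g, -, hg⟩ := hall x hxSL ⟨1, by rw [Units.val_pow_eq_pow_val, hxX, hXr, one_smul]⟩
        (by rw [hxX]; exact hXns)
      exact ⟨x, g, hxX, hg⟩
    by_cases hrp : r = p
    · obtain ⟨x, hxm, hxSL, hxp, hxns⟩ := Cfsg.Agent.H69.S4.tvw F p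
      obtain ⟨g, -, hg⟩ := hall x hxSL ⟨1, by rw [Units.val_pow_eq_pow_val, hrp, hxp, one_smul]⟩ hxns
      exact Cfsg.Agent.H5.S4.tvS Cfsg.Agent.H5.S4.tr0 F R i h2 hS x g hxm hg
    · have hr7or : r = 3 ∨ r = 5 ∨ 7 ≤ r := by
        have hr2' := hrP.two_le
        by_contra h
        push_neg at h
        obtain ⟨h3', h5', h7⟩ := h
        have h46 : r = 4 ∨ r = 6 := by omega
        rcases h46 with h | h
        · rw [h] at hrP
          exact absurd hrP (by decide)
        · rw [h] at hrP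
          exact absurd hrP (by decide)
      rcases hr7or with hr3e | hr5e | hr7
      · -- r = 3
        have hp3 : p % 3 = 1 := by
          have hne3 : p % 3 ≠ 2 := hr3 hr3e
          have hp0 : p % 3 ≠ 0 := by
            intro h0
            have h1 : 3 ∣ p := Nat.dvd_of_mod_eq_zero h0
            have h2' := (Nat.prime_dvd_prime_iff_eq Nat.prime_three hpP).mp h1
            exact hrp (hr3e.trans h2')
          omega
        obtain ⟨X, hXdet, hX3, hXns, hXtr⟩ := Cfsg.Agent.H15.S4.w3 F (by rw [hF]; omega)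
        obtain ⟨x, g, hxX, hg⟩ := hwit X hXdet (by rw [hr3e]; exact hX3) hXns
        have hx3 : (x : Matrix (Fin 4) (Fin 4) F) ^ 3 = 1 := by rw [hxX]; exact hX3
        have hy3 := conj_pow_one x g 3 hx3
        have hid := Cfsg.Agent.H62.S4.trId Cfsg.Agent.H5.S4.tr0 F R i h2 hS (g⁻¹ * x * g) hg 3 1 (by decide) (by rw [hy3, one_smul])
        rw [conj_trace, conj_inv_trace, inv_val_of_pow x 2 hx3, hxX, pow_two, hXtr] at hid
        rcases Cfsg.Agent.H5.S4.centS F R i h2 hS (g⁻¹ * x * g) with ⟨t, ht⟩ | hc | hc | hc | hc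
        · exact hXns t (by rw [← hxX]; exact conj_scalar x g t ht)
        · rw [hc] at hid
          have h0 : ((24 : ℕ) : F) = 0 := by push_cast at hid ⊢; linear_combination hid
          obtain ⟨k, hk⟩ := (CharP.cast_eq_zero_iff F p 24).mp h0
          have hk4 : k ≤ 4 := by nlinarith
          interval_cases k <;> omega
        · rw [hc] at hid
          have h0 : ((20 : ℕ) : F) = 0 := by push_cast at hid ⊢; linear_combination hid
          obtain ⟨k, hk⟩ := (CharP.cast_eq_zero_iff F p 20).mp h0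
          have hk4 : k ≤ 4 := by nlinarith
          interval_cases k <;> omega
        · rw [hc] at hid
          have h0 : ((12 : ℕ) : F) = 0 := by push_cast at hid ⊢; linear_combination hid
          obtain ⟨k, hk⟩ := (CharP.cast_eq_zero_iff F p 12).mp h0
          have hk4 : k ≤ 4 := by nlinarith
          interval_cases k <;> omega
        · rw [hc] at hid
          have h0 : ((4 : ℕ) : F) = 0 := by push_cast at hid ⊢; linear_combination -hid
          exact hnat 4 (by norm_num) (by omega) h0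
      · -- r = 5
        have hp5' : p ≠ 5 := fun h => hrp (hr5e.trans h.symm)
        have hord : orderOf (p : ZMod 5) ≠ 4 := hr5 hr5e
        have hpm := Cfsg.Agent.H15.S4.nt5 p hpP hp5' hord
        obtain ⟨τ, hτ⟩ := Cfsg.Agent.H15.ES.tau F p hF hpm
        obtain ⟨X, hXdet, hX5, hXns, hXtr, hXtr4⟩ := Cfsg.Agent.H15.S4.w5 F τ hτ
        obtain ⟨x, g, hxX, hg⟩ := hwit X hXdet (by rw [hr5e]; exact hX5) hXns
        have hx5 : (x : Matrix (Fin 4) (Fin 4) F) ^ 5 = 1 := by rw [hxX]; exact hX5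
        have hy5 := conj_pow_one x g 5 hx5
        have hid := Cfsg.Agent.H62.S4.trId Cfsg.Agent.H5.S4.tr0 F R i h2 hS (g⁻¹ * x * g) hg 5 1 (by decide) (by rw [hy5, one_smul])
        rw [conj_trace, conj_inv_trace, inv_val_of_pow x 4 hx5, hxX, hXtr, hXtr4] at hid
        have hfx := Cfsg.Agent.H5.S4.fixS F R i h2 hS (g⁻¹ * x * g) hg 5 1 Nat.prime_five (by rw [hy5, one_smul])
        rcases Cfsg.Agent.H5.S4.centS F R i h2 hS (g⁻¹ * x * g) with ⟨t, ht⟩ | hc | hc | hc | hc
        · exact hXns t (by rw [← hxX]; exact conj_scalar x g t ht)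
        · rw [hc] at hid
          have e1 : (τ + 2) * (τ + 2) = 1 := by
            apply mul_left_cancel₀ h4
            rw [mul_one]
            push_cast at hid
            exact hid
          have h0 : ((5 : ℕ) : F) = 0 := by
            push_cast
            linear_combination (3 * τ - 1) * e1 - (3 * τ + 8) * hτ
          have h5dvd := (CharP.cast_eq_zero_iff F p 5).mp h0
          exact hp5' ((Nat.prime_dvd_prime_iff_eq hpP Nat.prime_five).mp h5dvd)
        · rw [hc] at hfx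
          omega
        · rw [hc] at hfx
          omega
        · rw [hc] at hfx
          omega
      · -- r ≥ 7
        obtain ⟨x, hxSL, hxr, hxns⟩ := Cfsg.Agent.H69.S4.cauchyS F (Cfsg.Geo.subgroupNormalizer R) r hrP hr7 hΩ
        obtain ⟨g, -, hg⟩ := hall x hxSL ⟨1, by rw [Units.val_pow_eq_pow_val, hxr, one_smul]⟩ hxns
        have hyr := conj_pow_one x g r hxr
        obtain ⟨t, ht⟩ := Cfsg.Agent.H62.S4.bigS Cfsg.Agent.H5.S4.fixS Cfsg.Agent.H5.S4.centS F R i h2 hS (g⁻¹ * x * g) hg r 1 hrP hr7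
          (by rw [hyr, one_smul])
        exact hxns t (conj_scalar x g t ht)
  · -- (⇐)
    have ha_ns : ∀ k : ℕ, (a : Matrix (Fin 4) (Fin 4) F) ≠ i ^ k • (1 : Matrix (Fin 4) (Fin 4) F) := by
      intro k hk
      have h1 := hB.ab
      rw [hk, Matrix.smul_mul, Matrix.one_mul, Matrix.mul_smul, Matrix.mul_one] at h1
      have h5 : (2 * i ^ k) • (b : Matrix (Fin 4) (Fin 4) F) = 0 := by
        rw [mul_smul, two_smul]
        exact eq_neg_iff_add_eq_zero.mp h1
      have hb0 := (smul_eq_zero.mp h5).resolve_left (mul_ne_zero h2 (pow_ne_zero k hi0))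
      have hbb := hB.bb
      rw [hb0, Matrix.zero_mul] at hbb
      exact zero_ne_one hbb
    have htra : Matrix.trace (a : Matrix (Fin 4) (Fin 4) F) = 0 := Cfsg.Agent.H5.S4.tr0 F R i h2 hS a hB.ha ha_ns
    rintro (hr2e | ⟨hr3e, hp3⟩ | ⟨hr5e, hord⟩)
    · -- r = 2
      intro x hx hz hns
      obtain ⟨z, hz⟩ := hz
      rw [Units.val_pow_eq_pow_val, hr2e] at hz
      have hz4' := hz4 x hx 2 z hz
      have hxx : (x : Matrix (Fin 4) (Fin 4) F) * (x : Matrix (Fin 4) (Fin 4) F)
          = z • (1 : Matrix (Fin 4) (Fin 4) F) := by rw [← pow_two]; exact hz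
      have hdetx := Cfsg.Agent.H99.Ten.det_of_mem_specialLinear x hx
      have hz0 : z ≠ 0 := by
        rintro rfl
        rw [zero_pow (by norm_num)] at hz4'
        exact zero_ne_one hz4'
      have hzcases : z * z = 1 ∨ z * z = -1 := by
        have h1 : (z * z - 1) * (z * z + 1) = 0 := by linear_combination hz4'
        rcases mul_eq_zero.mp h1 with h | h
        · left; linear_combination h
        · right; linear_combination h
      -- common construction
      have hmain : ∀ (lam : F), lam * lam = z →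
          ∃ y : Matrix (Fin 4) (Fin 4) F, (x : Matrix (Fin 4) (Fin 4) F) = lam • y ∧ y * y = 1 ∧
            y.det * (z * z) = 1 ∧ lam ≠ 0 := by
        intro lam hlam
        have hlam0 : lam ≠ 0 := by
          rintro rfl
          rw [mul_zero] at hlam
          exact hz0 hlam.symm
        refine ⟨lam⁻¹ • (x : Matrix (Fin 4) (Fin 4) F), ?_, ?_, ?_, hlam0⟩
        · rw [smul_smul, mul_inv_cancel₀ hlam0, one_smul]
        · rw [Matrix.smul_mul, Matrix.mul_smul, smul_smul, hxx, smul_smul, ← hlam]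
          have : lam⁻¹ * lam⁻¹ * (lam * lam) = 1 := by field_simp
          rw [this, one_smul]
        · rw [Matrix.det_smul, hdetx, Fintype.card_fin, mul_one, ← hlam]
          field_simp
      have hfin : ∀ (lam : F) (y : Matrix (Fin 4) (Fin 4) F), lam ≠ 0 →
          (x : Matrix (Fin 4) (Fin 4) F) = lam • y → y * y = 1 →
          ∀ (w : GL (Fin 4) F), w ∈ Cfsg.Geo.subgroupNormalizer R → ∀ (t : F), t ≠ 0 →
          (t • (w : Matrix (Fin 4) (Fin 4) F)) * (t • (w : Matrix (Fin 4) (Fin 4) F)) = 1 →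
          Matrix.trace y = Matrix.trace (t • (w : Matrix (Fin 4) (Fin 4) F)) →
          ∃ g ∈ Cfsg.Geo.specialLinear (Fin 4) F, g⁻¹ * x * g ∈ Cfsg.Geo.subgroupNormalizer R := by
        intro lam y hlam0 hxy hyy w hw t ht hww htr
        obtain ⟨G, hG, hconj⟩ := Cfsg.Agent.H69.S4.invC F h2 h3 y (t • (w : Matrix (Fin 4) (Fin 4) F)) hyy hww htr
        exact finish Cfsg.Agent.H69.S4.glueS R x hx 2 Nat.prime_two (by exact_mod_cast h2) lam hlam0 y hxy
          (by rw [pow_two]; exact hyy) w hw t ht G hG hconj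
      rcases hzcases with hzz | hzz
      · -- z² = 1: lam with lam² = z
        obtain ⟨lam, hlam⟩ : ∃ lam : F, lam * lam = z := by
          have h1 : (z - 1) * (z + 1) = 0 := by linear_combination hzz
          rcases mul_eq_zero.mp h1 with h | h
          · exact ⟨1, by linear_combination -h⟩
          · exact ⟨i, by linear_combination hi - h⟩
        obtain ⟨y, hxy, hyy, hdety, hlam0⟩ := hmain lam hlam
        rw [hzz, mul_one] at hdety
        rcases Cfsg.Agent.H69.S4.invT F h2 y hyy with h | h | ⟨htr, -⟩ | ⟨-, hd⟩ | ⟨-, hd⟩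
        · exact absurd (by rw [hxy, h]) (hns lam)
        · exact absurd (by rw [hxy, h, smul_neg, neg_smul]) (hns (-lam))
        · exact hfin lam y hlam0 hxy hyy a (mem_norm_of_mem R a hB.ha) 1 one_ne_zero
            (by rw [one_smul]; exact hB.aa) (by rw [one_smul, htr, htra])
        · rw [hdety] at hd
          exact absurd hd (by intro h; apply h2; linear_combination h)
        · rw [hdety] at hd
          exact absurd hd (by intro h; apply h2; linear_combination h)
      · -- z² = -1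
        obtain ⟨eps, heps⟩ := Cfsg.Agent.H69.S4.sqrtS F h2 (x : Matrix (Fin 4) (Fin 4) F) z hxx hzz hdetx
        obtain ⟨y, hxy, hyy, hdety, hlam0⟩ := hmain eps heps.symm
        rw [hzz] at hdety
        have hdety' : y.det = -1 := by linear_combination -hdety
        obtain ⟨s, hsN, hss, hstr⟩ := Cfsg.Agent.H62.S4.reflS (Cfsg.Agent.H62.S4.normS Cfsg.Agent.H51.S4.genS) Cfsg.Agent.H5.S4.tr0 F R i h2 hS a b c d hB
        rcases Cfsg.Agent.H69.S4.invT F h2 y hyy with h | h | ⟨-, hd⟩ | ⟨htr, -⟩ | ⟨htr, -⟩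
        · exact absurd (by rw [hxy, h]) (hns eps)
        · exact absurd (by rw [hxy, h, smul_neg, neg_smul]) (hns (-eps))
        · rw [hdety'] at hd
          exact absurd hd (by intro h; apply h2; linear_combination -h)
        · exact hfin eps y hlam0 hxy hyy s hsN 1 one_ne_zero
            (by rw [one_smul]; exact hss) (by rw [one_smul, htr, hstr])
        · exact hfin eps y hlam0 hxy hyy s hsN (-1) (neg_ne_zero.mpr one_ne_zero)
            (by rw [Matrix.smul_mul, Matrix.mul_smul, smul_smul, hss]; norm_num)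
            (by rw [Matrix.trace_smul, htr, hstr]; simp)
    · -- r = 3
      intro x hx hz hns
      obtain ⟨z, hz⟩ := hz
      rw [Units.val_pow_eq_pow_val, hr3e] at hz
      have hz4' := hz4 x hx 3 z hz
      have hz0 : z ≠ 0 := by
        rintro rfl
        rw [zero_pow (by norm_num)] at hz4'
        exact zero_ne_one hz4'
      obtain ⟨y₁, hy₁N, hy₁3, hy₁tr⟩ := Cfsg.Agent.H11.S4.ord3A (Cfsg.Agent.H11.S4.q3 Cfsg.Agent.H11.S4.rotS) Cfsg.Agent.H5.S4.tr0 F R i h2 hS a b c d hB
      obtain ⟨y₂, hy₂N, hy₂3, hy₂tr⟩ := Cfsg.Agent.H11.S4.ord3B (Cfsg.Agent.H11.S4.q3 Cfsg.Agent.H11.S4.rotS) Cfsg.Agent.H5.S4.tr0 F R i h2 hS a b c d hB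
      have hy3 : (z • (x : Matrix (Fin 4) (Fin 4) F)) ^ 3 = 1 := by
        rw [smul_pow, hz, smul_smul]
        have : z ^ 3 * z = 1 := by linear_combination hz4'
        rw [this, one_smul]
      have hy1 : z • (x : Matrix (Fin 4) (Fin 4) F) ≠ 1 := by
        intro h
        apply hns z⁻¹
        rw [← h, smul_smul, inv_mul_cancel₀ hz0, one_smul]
      have hxy : (x : Matrix (Fin 4) (Fin 4) F) = z⁻¹ • (z • (x : Matrix (Fin 4) (Fin 4) F)) := by
        rw [smul_smul, inv_mul_cancel₀ hz0, one_smul]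
      obtain ⟨G, hG, hconj⟩ := Cfsg.Agent.H69.S4.c3 Cfsg.Agent.H99.S4P.c3NF F (by rw [hF]; exact hp3) h2
        (z • (x : Matrix (Fin 4) (Fin 4) F)) (y₁ : Matrix (Fin 4) (Fin 4) F)
        (y₂ : Matrix (Fin 4) (Fin 4) F) hy3 hy1 hy₁3 hy₂3 hy₁tr hy₂tr
      rcases hconj with hconj | hconj
      · exact finish Cfsg.Agent.H69.S4.glueS R x hx 3 Nat.prime_three (by exact_mod_cast h3) z⁻¹ (inv_ne_zero hz0)
          (z • (x : Matrix (Fin 4) (Fin 4) F)) hxy hy3 y₁ hy₁N 1 one_ne_zero G hG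
          (by rw [one_smul]; exact hconj)
      · exact finish Cfsg.Agent.H69.S4.glueS R x hx 3 Nat.prime_three (by exact_mod_cast h3) z⁻¹ (inv_ne_zero hz0)
          (z • (x : Matrix (Fin 4) (Fin 4) F)) hxy hy3 y₂ hy₂N 1 one_ne_zero G hG
          (by rw [one_smul]; exact hconj)
    · -- r = 5
      intro x hx hz hns
      obtain ⟨z, hz⟩ := hz
      rw [Units.val_pow_eq_pow_val, hr5e] at hz
      have hz4' := hz4 x hx 5 z hz
      have hz0 : z ≠ 0 := by
        rintro rfl
        rw [zero_pow (by norm_num)] at hz4'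
        exact zero_ne_one hz4'
      have hp5' : p ≠ 5 := by
        intro h
        have h1 := pow_orderOf_eq_one ((p : ℕ) : ZMod 5)
        rw [hord, h] at h1
        revert h1
        decide
      have h5F : ((5 : ℕ) : F) ≠ 0 := hnat 5 (by norm_num) (by omega)
      have hordF : orderOf (Fintype.card F : ZMod 5) = 4 := by rw [hF]; exact hord
      obtain ⟨w, l, hwN, hw5, hwns⟩ := Cfsg.Agent.H51.S4.ord5 Cfsg.Agent.H11.S4.rotS Cfsg.Agent.H51.S4.genS F R i h2 hS a b c d hB
      obtain ⟨m, hm⟩ := Cfsg.Agent.H15.S4.root5 F hordF l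
      have hl0 : l ≠ 0 := by
        rintro rfl
        rw [zero_smul] at hw5
        have h1 := congrArg Matrix.det hw5
        rw [Matrix.det_pow, Matrix.det_zero] at h1
        have h2' : (w : Matrix (Fin 4) (Fin 4) F).det ≠ 0 := by
          have h3' := (Matrix.isUnit_iff_isUnit_det _).mp (Units.isUnit w)
          exact h3'.ne_zero
        exact h2' (pow_eq_zero_iff (by norm_num) |>.mp h1)
      have hm0 : m ≠ 0 := by
        rintro rfl
        rw [zero_pow (by norm_num)] at hm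
        exact hl0 hm.symm
      have hy5 : (z⁻¹ • (x : Matrix (Fin 4) (Fin 4) F)) ^ 5 = 1 := by
        rw [smul_pow, hz, smul_smul]
        have : z⁻¹ ^ 5 * z = 1 := by
          have h1 : z ^ 5 = z := by linear_combination z * hz4'
          rw [inv_pow, h1, inv_mul_cancel₀ hz0]
        rw [this, one_smul]
      have hy1 : z⁻¹ • (x : Matrix (Fin 4) (Fin 4) F) ≠ 1 := by
        intro h
        apply hns z
        rw [← h, smul_smul, mul_inv_cancel₀ hz0, one_smul]
      have hxy : (x : Matrix (Fin 4) (Fin 4) F) = z • (z⁻¹ • (x : Matrix (Fin 4) (Fin 4) F)) := by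
        rw [smul_smul, mul_inv_cancel₀ hz0, one_smul]
      have hw'5 : (m⁻¹ • (w : Matrix (Fin 4) (Fin 4) F)) ^ 5 = 1 := by
        rw [smul_pow, hw5, smul_smul, inv_pow, hm, inv_mul_cancel₀ hl0, one_smul]
      have hw'1 : m⁻¹ • (w : Matrix (Fin 4) (Fin 4) F) ≠ 1 := by
        intro h
        apply hwns m
        rw [← h, smul_smul, mul_inv_cancel₀ hm0, one_smul]
      obtain ⟨G, hG, hconj⟩ := Cfsg.Agent.H69.S4.c5 Cfsg.Agent.H69.S4.c5NF F hordF (z⁻¹ • (x : Matrix (Fin 4) (Fin 4) F))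
        (m⁻¹ • (w : Matrix (Fin 4) (Fin 4) F)) hy5 hy1 hw'5 hw'1
      exact finish Cfsg.Agent.H69.S4.glueS R x hx 5 Nat.prime_five h5F z hz0
        (z⁻¹ • (x : Matrix (Fin 4) (Fin 4) F)) hxy hy5 w hwN m⁻¹ (inv_ne_zero hm0) G hG hconj

end Cfsg.Agent.S6000
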